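import Cfsg.Statements.S4966
import Cfsg.Agent.BLK.SelfDual

set_option autoImplicit false
open Cfsg

namespace Cfsg.Agent.S4966


/-- Let F be a finite field of characteristic p, G a finite group of order prime to p, and V a finite-dimensional representation of G over F carrying a nondegenerate G-invariant bilinear form (equivalently, V is self-dual). Then V is the direct sum of two G-invariant subspaces U and W such that U carries a G-invariant alternating bilinear form that is nondegenerate on U and W carries a G-invariant symmetric bilinear form that is nondegenerate on W; moreover when p = 2 the decomposition can be chosen with G acting trivially on W. -/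
theorem result {F : Type*} [Field F] [Fintype F] (p : ℕ) [Fact p.Prime] [CharP F p] {G : Type*} [Group G] [Finite G] (hcop : ¬ p ∣ Nat.card G) {V : Type*} [AddCommGroup V] [Module F V] [FiniteDimensional F V] (ρ : Representation F G V) (B : LinearMap.BilinForm F V) (hB : B.Nondegenerate) (hBinv : ∀ g : G, ∀ x y : V, B (ρ g x) (ρ g y) = B x y) : ∃ U W : Submodule F V, IsCompl U W ∧ (∀ g : G, ∀ u ∈ U, ρ g u ∈ U) ∧ (∀ g : G, ∀ w ∈ W, ρ g w ∈ W) ∧ (∃ A : LinearMap.BilinForm F V, (∀ x : V, A x x = 0) ∧ (∀ g : G, ∀ x ∈ U, ∀ y ∈ U, A (ρ g x) (ρ g y) = A x y) ∧ (∀ x ∈ U, (∀ y ∈ U, A x y = 0) → x = 0)) ∧ (∃ S : LinearMap.BilinForm F V, (∀ x y : V, S x y = S y x) ∧ (∀ g : G, ∀ x ∈ W, ∀ y ∈ W, S (ρ g x) (ρ g y) = S x y) ∧ (∀ x ∈ W, (∀ y ∈ W, S x y = 0) → x = 0)) ∧ (p = 2 → ∀ g : G, ∀ w ∈ W, ρ g w = w) := by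
  have hG : (Nat.card G : F) ≠ 0 := fun h => hcop ((CharP.cast_eq_zero_iff F p _).1 h)
  obtain ⟨π, A, S, hπ, hππ, hA, hS, hAa, hSs, hA0, hS0, hSπ, h2⟩ :=
    CL.SelfDual.exists_decomp hG hB hBinv
  have hAs : ∀ x y, A x y = -A y x := fun x y => (LinearMap.IsAlt.neg hAa y x).symm
  refine ⟨LinearMap.ker π, LinearMap.range π, ?_, fun g u hu => ?_, ?_,
    ⟨A, hAa, fun g x _ y _ => hA g x y, fun x hx h => ?_⟩,
    ⟨S, hSs, fun g x _ y _ => hS g x y, ?_⟩, fun hp g => ?_⟩
  · exact (LinearMap.IsIdempotentElem.isCompl (LinearMap.ext hππ)).symm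
  · rw [LinearMap.mem_ker, hπ g, LinearMap.mem_ker.1 hu, map_zero]
  · rintro g _ ⟨w, rfl⟩
    exact ⟨ρ g w, hπ g w⟩
  · have h1 : A x = 0 := LinearMap.ext fun y => by
      have h3 := h (y - π y) (by simp [hππ])
      have h4 : A x (π y) = 0 := by rw [hAs, (hA0 _).2 (hππ y)]; simp
      simpa [h4] using h3
    rw [← (hA0 x).1 h1]
    exact hx
  · rintro _ ⟨x, rfl⟩ h
    have h1 : S (π x) = 0 := LinearMap.ext fun y => by
      rw [← hSπ]; exact h _ ⟨y, rfl⟩
    rw [← hππ]
    exact (hS0 _).1 h1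
  · rintro _ ⟨w, rfl⟩
    refine h2 ?_ g w
    subst hp
    exact CharTwo.two_eq_zero

end Cfsg.Agent.S4966
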