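import Cfsg.Statements.S3952
import Cfsg.Agent.FGS.SchurHopf
import Cfsg.Agent.CHAR.Det
import Cfsg.Agent.CHAR.Constit
import Cfsg.Agent.CHAR.Values

set_option autoImplicit false
open Cfsg

namespace Cfsg.Agent.S3952

open CL.Char in
theorem key {Γ : Type*} [Group Γ] [Finite Γ] (K : Subgroup Γ) (hK : K ≤ Subgroup.center Γ)
    (hK' : K ≤ commutator Γ) (lam : K →* ℂˣ) : orderOf lam ^ 2 ∣ K.index := by
  classical
  have := Fintype.ofFinite Γ
  have := Fintype.ofFinite K
  have hl := isIrrCharacter_hom lam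
  obtain ⟨n, hn, hsum⟩ := hl.isCharacter.ind.exists_nat_coeffs
  choose d hd using fun χ : IrrCharacter Γ => χ.2.isCharacter.exists_nat_degree
  have h1 := congrFun hsum 1
  rw [indFun_one, Finset.sum_apply] at h1
  simp only [map_one, Units.val_one, mul_one, Pi.smul_apply, smul_eq_mul, hd] at h1
  have h2 : K.index = ∑ χ : IrrCharacter Γ, n χ * d χ := by exact_mod_cast h1
  rw [h2]
  refine Finset.dvd_sum fun χ _ => ?_
  by_cases h0 : n χ = 0
  · simp [h0]
  have hχ1 : χ.1 1 ≠ 0 := χ.2.one_ne_zero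
  let μ₀ : K →* ℂ :=
    { toFun := fun k => χ.1 k / χ.1 1
      map_one' := by simp [hχ1]
      map_mul' := fun a b => by
        have := χ.2.apply_center_mul (hK a.2) b
        rw [Subgroup.coe_mul]
        field_simp
        linear_combination this }
  let μ : K →* ℂˣ := μ₀.toHomUnits
  have hres : (fun k : K => χ.1 k) = χ.1 1 • fun k : K => (μ k : ℂ) := by
    funext k
    change _ = χ.1 1 * (χ.1 k / χ.1 1)
    field_simp
  have h3 := hn χ
  rw [inner_ind_eq_inner_res hl.isCharacter χ.2.isCharacter, hres] at h3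
  have h4 := eq_of_inner_smul_ne_zero (isIrrCharacter_hom μ) hl (c := χ.1 1)
    (by rw [h3]; exact_mod_cast h0)
  rw [h4, inner_smul_self hl, hd] at h3
  have h5 : d χ = n χ := by exact_mod_cast h3
  have h6 : orderOf lam ∣ d χ := by
    rw [orderOf_dvd_iff_pow_eq_one]
    ext k
    have h7 : χ.1 k = lam k * χ.1 1 := by
      have := congrFun hres k
      rw [h4] at this
      rw [this, mul_comm]; rfl
    have h8 := χ.2.isCharacter.detChar_of_scalar (hd χ) (norm_hom lam k) h7
    rw [← detHom_apply, hom_apply_of_mem_commutator _ (hK' k.2)] at h8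
    simpa using h8.symm
  rw [← h5, sq]
  exact mul_dvd_mul h6 h6

/-- If `A` is the Schur multiplier of the finite group `Q`, then the square of the exponent of `A` divides the order of `Q`. -/
theorem result {Q : Type*} [Group Q] [Finite Q] {A : Type*} [CommGroup A] (hA : Cfsg.HasSchurMultiplier Q A) : Monoid.exponent A ^ 2 ∣ Nat.card Q := by
  obtain ⟨⟨Γ, _, _, σ, hσ, ⟨e⟩⟩, -⟩ := id hA
  have := CL.Schur.finite_multiplier hA
  obtain ⟨e'⟩ := CommGroup.monoidHom_mulEquiv_of_hasEnoughRootsOfUnity A ℂ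
  obtain ⟨a, ha⟩ := Monoid.exists_orderOf_eq_exponent (G := A) Monoid.ExponentExists.of_finite
  have h := key σ.ker hσ.2.1 hσ.2.2 ((e'.symm a).comp e.toMonoidHom)
  rw [(CL.Schur.isCentralExt_of_stem hσ).index_ker] at h
  refine dvd_trans (pow_dvd_pow_of_dvd ?_ 2) h
  rw [← ha, ← e'.symm.orderOf_eq, orderOf_dvd_iff_pow_eq_one]
  ext x
  obtain ⟨k, rfl⟩ := e.surjective x
  have := DFunLike.congr_fun (pow_orderOf_eq_one ((e'.symm a).comp e.toMonoidHom)) k
  exact congrArg Units.val this

end Cfsg.Agent.S3952
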