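import Cfsg.Statements.S0006
import Mathlib
import Cfsg.Agent.SOLV.HallConverse

set_option autoImplicit false
open Cfsg

namespace Cfsg.Agent.S0006

/-- Converse of Hall's Theorem: if for every prime p a finite group has a subgroup of index equal to the p-part of the group order (a Hall p-complement), then the group is solvable. -/
theorem result {G : Type*} [Group G] [Finite G]
    (h : ∀ p : ℕ, p.Prime → ∃ H : Subgroup G, H.index = p ^ (Nat.card G).factorization p) :
    Group.IsSolvable G := by
  refine CL.isSolvable_of_forall_exists_pComplement fun p hp => ?_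
  obtain ⟨H, hH⟩ := h p hp
  refine ⟨H, fun hd => Nat.pow_succ_factorization_not_dvd (Nat.card_pos (α := G)).ne' hp ?_, _, hH⟩
  rw [pow_succ, ← hH]
  conv_rhs => rw [← H.index_mul_card]
  exact Nat.mul_dvd_mul_left _ hd

end Cfsg.Agent.S0006
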