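import Cfsg.Statements.S0021
import Mathlib
import Cfsg.Agent.SOLV.HallConverse

set_option autoImplicit false
open Pointwise
open Cfsg

namespace Cfsg.Agent.S0021

/-- A finite group with a family of pairwise permuting Sylow subgroups, one for each prime, is solvable (this direction rests on Burnside's two-prime Theorem). -/
theorem result {G : Type*} [Group G] [Finite G]
    (S : (p : Nat.Primes) → Sylow (p : ℕ) G)
    (hS : ∀ p q : Nat.Primes, (S p : Set G) * (S q : Set G) = (S q : Set G) * (S p : Set G)) :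
    Group.IsSolvable G := by
  refine CL.isSolvable_of_forall_exists_pComplement fun p hp => ?_
  obtain ⟨K, -, hK⟩ := Finite.exists_le_maximal
    (p := fun K : Subgroup G => ¬ p ∣ Nat.card K ∧ ∀ q : Nat.Primes, CL.Permutes K (S q))
    (a := ⊥) ⟨by simpa using hp.one_lt.ne', fun q => CL.Permutes.bot_left _⟩
  refine ⟨K, hK.1.1, (CL.isPiNum_singleton_iff hp K.index_ne_zero_of_finite).1 fun q hq hd => ?_⟩
  by_contra hqp
  have := Fact.mk hq
  have h1 : K ⊔ (S ⟨q, hq⟩ : Subgroup G) ≤ K := by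
    refine hK.le_of_ge ⟨fun h => ?_, fun r => (hK.1.2 r).sup_left
      (CL.Permutes.iff_mul_comm.2 (hS _ r))⟩ le_sup_left
    rcases (Nat.Prime.dvd_mul hp).1 (h.trans (hK.1.2 ⟨q, hq⟩).card_sup_dvd) with h | h
    · exact hK.1.1 h
    · obtain ⟨k, hk⟩ := IsPGroup.iff_card.1 (S ⟨q, hq⟩).isPGroup'
      rw [hk] at h
      exact hqp ((Nat.prime_dvd_prime_iff_eq hp hq).1 (hp.dvd_of_dvd_pow h)).symm
  exact (S ⟨q, hq⟩).not_dvd_index (hd.trans (Subgroup.index_dvd_of_le (le_sup_right.trans h1)))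

end Cfsg.Agent.S0021
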