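import Cfsg.Statements.S0034
import Cfsg.Agent.SOLV.Frobenius

set_option autoImplicit false
open Cfsg

namespace Cfsg.Agent.S0034

/-- For a Frobenius complement H, the set of elements lying in no conjugate of H, together with 1, has exactly as many elements as the index of H, and that index is congruent to 1 modulo the order of H. -/
theorem result {G : Type*} [Group G] [Finite G] (H : Subgroup G) (hH : Cfsg.IsFrobeniusComplement H) :
    Nat.card (Cfsg.frobeniusKernel H) = H.index ∧ H.index % Nat.card H = 1 % Nat.card H := by
  obtain ⟨K, hK, hKn, hc, hKb, hfpf⟩ := CL.Frob.exists_kernel hH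
  have h1 : H.index = Nat.card K := hc.index_eq_card
  refine ⟨by rw [← hK, h1]; rfl, ?_⟩
  have h2 := CL.BG.regular_norm_dvd_pred (K := K) (R := H)
    (by rw [Subgroup.normalizer_eq_top]; exact le_top) hfpf
  rw [h1]
  exact ((Nat.modEq_iff_dvd' Nat.card_pos).2 h2).symm

end Cfsg.Agent.S0034
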