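import Cfsg.Statements.S0049
import Mathlib.GroupTheory.SchurZassenhaus

set_option autoImplicit false
open Cfsg

namespace Cfsg.Agent.S0049

/-- A prime divisor of the order of a finite group also divides the index of the Frattini subgroup. -/
theorem result {G : Type*} [Group G] [Finite G] (p : ℕ) (hp : p.Prime) (hdvd : p ∣ Nat.card G) :
    p ∣ (frattini G).index := by
  by_contra hnd
  haveI : Fact p.Prime := ⟨hp⟩
  obtain ⟨P⟩ := (inferInstance : Nonempty (Sylow p G))
  have hle : (P : Subgroup G) ≤ frattini G := by
    intro x hx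
    obtain ⟨k, hk⟩ := P.isPGroup' ⟨x, hx⟩
    have hk' : x ^ p ^ k = 1 := by simpa using congrArg Subtype.val hk
    have h1 : ((x : G ⧸ frattini G)) ^ p ^ k = 1 := by
      rw [← QuotientGroup.mk_pow, hk', QuotientGroup.mk_one]
    have h2 : ((x : G ⧸ frattini G)) ^ (frattini G).index = 1 := by
      rw [Subgroup.index]; exact pow_card_eq_one'
    have h3 : (p ^ k).Coprime (frattini G).index :=
      Nat.Coprime.pow_left _ ((Nat.Prime.coprime_iff_not_dvd hp).2 hnd)
    have h4 := pow_gcd_eq_one.2 ⟨h1, h2⟩
    rw [h3, pow_one] at h4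
    exact (QuotientGroup.eq_one_iff x).1 h4
  have hN : (P : Subgroup G).Normal := by
    have := Sylow.normalizer_sup_eq_top' P hle
    exact Subgroup.normalizer_eq_top_iff.1 (frattini_nongenerating this)
  obtain ⟨H, hH⟩ := Subgroup.exists_right_complement'_of_coprime (N := (P : Subgroup G)) P.card_coprime_index
  have htop : H = ⊤ := by
    apply frattini_nongenerating
    rw [eq_top_iff, ← hH.sup_eq_top, sup_comm]
    exact sup_le_sup_left hle _
  subst htop
  exact P.ne_bot_of_dvd_card hdvd (Subgroup.isComplement'_top_right.1 hH)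

end Cfsg.Agent.S0049
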