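import Cfsg.Statements.S0053

set_option autoImplicit false
open Cfsg

namespace Cfsg.Agent.S0053

/-- An abelian minimal normal subgroup N of a finite group is complemented exactly when N is not inside the Frattini subgroup. -/
theorem result {G : Type*} [Group G] [Finite G]
    (N : Subgroup G) [N.Normal] [IsMulCommutative N] (hN : N ≠ ⊥)
    (hmin : ∀ M : Subgroup G, M.Normal → M ≤ N → M = ⊥ ∨ M = N) :
    (∃ H : Subgroup G, Subgroup.IsComplement' N H) ↔ ¬ N ≤ frattini G := by
  constructor
  · rintro ⟨H, hH⟩ hle
    have htop : H = ⊤ := by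
      apply frattini_nongenerating
      rw [eq_top_iff, ← hH.sup_eq_top, sup_comm]
      exact sup_le_sup_left hle _
    subst htop
    exact hN (Subgroup.isComplement'_top_right.1 hH)
  · intro h
    obtain ⟨M, hM, hNM⟩ : ∃ M : Subgroup G, IsCoatom M ∧ ¬ N ≤ M := by
      by_contra hcon
      push Not at hcon
      apply h
      simp only [frattini, Order.radical, le_iInf_iff]
      exact hcon
    have hsup : N ⊔ M = ⊤ := hM.2 _ (lt_of_le_of_ne le_sup_right (fun h => hNM (h ▸ le_sup_left)))
    have hnorm : (N ⊓ M).Normal := by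
      rw [← Subgroup.normalizer_eq_top_iff, eq_top_iff, ← hsup]
      refine sup_le ?_ ?_
      · rw [Subgroup.le_normalizer_iff]
        intro x hx k hk
        have : x * k = k * x := congrArg Subtype.val (mul_comm' (⟨x, hx⟩ : N) ⟨k, hk.1⟩)
        rw [this, mul_inv_cancel_right]
        exact hk
      · rw [Subgroup.le_normalizer_iff]
        intro x hx k hk
        exact ⟨‹N.Normal›.conj_mem _ hk.1 x, M.mul_mem (M.mul_mem hx hk.2) (M.inv_mem hx)⟩
    rcases hmin _ hnorm inf_le_left with h1 | h1
    · refine ⟨M, Subgroup.isComplement'_of_disjoint_and_mul_eq_univ (disjoint_iff.2 h1) ?_⟩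
      rw [← Subgroup.normal_mul, hsup, Subgroup.coe_top]
    · exact absurd (h1 ▸ inf_le_right) hNM

end Cfsg.Agent.S0053
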