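import Cfsg.Statements.S0056
import Cfsg.Agent.S0055
import Mathlib.GroupTheory.Perm.Cycle.Type

set_option autoImplicit false
open Cfsg

namespace Cfsg.Agent.S0056

/-- A coprime action on an abelian group that fixes all elements of prime order is trivial. -/
theorem result {G : Type*} [Group G] [Finite G] (A V : Subgroup G) [IsMulCommutative V]
    (hAV : A ≤ Subgroup.normalizer (V : Set G)) (hcop : (Nat.card A).Coprime (Nat.card V))
    (hΩ : ∀ v ∈ V, (orderOf v).Prime → ∀ a ∈ A, a * v = v * a) : A ≤ Subgroup.centralizer (V : Set G) := by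
  have h := (Cfsg.Agent.S0055.result A V hAV hcop).1
  have hle : ⁅V, A⁆ ≤ V := Subgroup.le_normalizer_iff_commutator_le_left.1 hAV
  rw [← Subgroup.commutator_eq_bot_iff_le_centralizer, Subgroup.commutator_comm]
  by_contra hne
  obtain ⟨p, hp, hpd⟩ := Nat.exists_prime_and_dvd
    ((Subgroup.one_lt_card_iff_ne_bot (⁅V, A⁆ : Subgroup G)).2 hne).ne'
  have : Fact p.Prime := ⟨hp⟩
  obtain ⟨x, hx⟩ := exists_prime_orderOf_dvd_card' p hpd
  have hx' : orderOf (x : G) = p := by rw [Subgroup.orderOf_coe, hx]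
  have hmem : (x : G) ∈ (V ⊓ Subgroup.centralizer (A : Set G)) ⊓ ⁅V, A⁆ :=
    ⟨⟨hle x.2, fun a ha => hΩ x (hle x.2) (hx' ▸ hp) a ha⟩, x.2⟩
  rw [h, Subgroup.mem_bot] at hmem
  rw [hmem, orderOf_one] at hx'
  exact hp.one_lt.ne hx'

end Cfsg.Agent.S0056
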