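import Cfsg.Statements.S0057
import Cfsg.Agent.SOLV.CoprimeSylow
import Cfsg.Agent.FGS.CoprimeIndex
import Cfsg.Agent.S0055

set_option autoImplicit false
open Cfsg

namespace Cfsg.Agent.S0057

/-- Under coprime action, if the centraliser of A in K has prime index p in K then the commutator subgroup [K, A] has order exactly p. -/
theorem result {G : Type*} [Group G] [Finite G] (A K : Subgroup G) (hAK : A ≤ Subgroup.normalizer (K : Set G))
    (hcop : (Nat.card A).Coprime (Nat.card K)) (hsolv : Group.IsSolvable A ∨ Group.IsSolvable K)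
    (p : ℕ) (hp : p.Prime) (hidx : (K ⊓ Subgroup.centralizer (A : Set G)).relIndex K = p) :
    Nat.card (⁅K, A⁆ : Subgroup G) = p := by
  have : Fact p.Prime := ⟨hp⟩
  obtain ⟨P, hP⟩ := CL.coprime_exists_invariant_sylow A K hAK hcop hsolv p
  set C := Subgroup.centralizer (A : Set G) with hC
  set Q : Subgroup G := (P : Subgroup K).map K.subtype with hQ
  have hQK : Q ≤ K := Subgroup.map_subtype_le _
  have hQp : IsPGroup p Q := P.2.map _
  rw [Subgroup.inf_relIndex_left] at hidx
  have hcopi : (P : Subgroup K).index.Coprime (C.subgroupOf K).index := by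
    rw [← Subgroup.relIndex, hidx]
    exact ((Nat.Prime.coprime_iff_not_dvd hp).mpr P.not_dvd_index).symm
  have hKA : ⁅K, A⁆ = ⁅Q, A⁆ := by
    refine le_antisymm (CL.commutator_le_of_mul_centralizer fun k hk => ?_)
      (Subgroup.commutator_mono hQK le_rfl)
    obtain ⟨a, ha, b, hb, h⟩ := CL.exists_mul_eq_of_coprime_index _ _ hcopi ⟨k, hk⟩
    exact ⟨a, ⟨a, ha, rfl⟩, b, hb, congrArg Subtype.val h⟩
  have hCQ : C.relIndex Q = p := by
    have h1 := CL.relIndex_eq_index_of_coprime_index _ _ hcopi
    rw [← Subgroup.relIndex, hidx] at h1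
    rw [← h1, hQ, ← Subgroup.relIndex_comap]
    rfl
  have hnorm : (C.subgroupOf Q).Normal := by
    apply Subgroup.normal_of_index_eq_minFac_card
    obtain ⟨n, hn⟩ := IsPGroup.iff_card.mp hQp
    rw [← Subgroup.relIndex, hCQ, hn, Nat.Prime.pow_minFac hp]
    rintro rfl
    have := Subgroup.relIndex_dvd_card C Q
    rw [hCQ, hn] at this
    exact hp.one_lt.ne' (Nat.dvd_one.mp this)
  have hQD : Q ≤ Subgroup.normalizer ((C ⊓ Q : Subgroup G) : Set G) :=
    Subgroup.normal_subgroupOf_iff_le_normalizer_inf.mp hnorm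
  have hRD : ⁅⁅A, Q⁆, C ⊓ Q⁆ = ⊥ := by
    apply Subgroup.commutator_commutator_eq_bot_of_rotate
    · rw [Subgroup.commutator_eq_bot_iff_le_centralizer]
      exact (Subgroup.le_normalizer_iff_commutator_le_right.mp hQD).trans inf_le_left
    · rw [Subgroup.commutator_eq_bot_iff_le_centralizer.mpr inf_le_left,
        Subgroup.commutator_bot_left]
  rw [Subgroup.commutator_comm A Q, ← hKA, Subgroup.commutator_eq_bot_iff_le_centralizer] at hRD
  set R := ⁅K, A⁆ with hR
  have hRQ : R ≤ Q := hKA ▸ Subgroup.le_normalizer_iff_commutator_le_left.mp hP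
  have hRA : ⁅R, A⁆ = R := CL.coprime_commutator_commutator A K hAK hcop hsolv
  have hCR : C.relIndex R = p := by
    have h1 : C.relIndex R ∣ p := by
      rw [← hCQ, ← Subgroup.relIndex_subgroupOf hRQ]
      exact Subgroup.relIndex_dvd_index_of_normal _ _
    refine ((Nat.dvd_prime hp).mp h1).resolve_left fun h => ?_
    have h2 := CL.coprime_le_centralizer_of_commutator_le A K hAK hcop hsolv
      (Subgroup.relIndex_eq_one.mp h)
    rw [← Subgroup.relIndex_eq_one, hidx] at h2
    exact hp.one_lt.ne' h2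
  have hcen : C.subgroupOf R ≤ Subgroup.center R := by
    intro x hx
    rw [Subgroup.mem_center_iff]
    intro y
    exact Subtype.ext (hRD y.2 x ⟨hx, hRQ x.2⟩).symm
  have hn : (C.subgroupOf R).Normal := CL.normal_of_le_center' hcen
  have hcyc : IsCyclic (R ⧸ C.subgroupOf R) := isCyclic_of_prime_card (p := p) hCR
  have hcomm : IsMulCommutative R :=
    (QuotientGroup.mk' (C.subgroupOf R)).isMulCommutative_of_isCyclic_of_ker_le_center
      (by rwa [QuotientGroup.ker_mk'])
  have h3 := (Cfsg.Agent.S0055.result A R (Subgroup.normalizer_commutator_ge_right K A)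
    (hcop.coprime_dvd_right (Subgroup.card_dvd_of_le (hRQ.trans hQK)))).1
  rw [hRA, inf_right_comm, inf_idem] at h3
  rw [← hCR, ← CL.card_inf_mul_relIndex C R, inf_comm, h3, Subgroup.card_bot, one_mul]

end Cfsg.Agent.S0057
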