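import Cfsg.Statements.S0073
import Cfsg.Agent.PLOC.FrobeniusNPC

set_option autoImplicit false
open Cfsg

namespace Cfsg.Agent.S0073

/-- For a finite non-abelian simple group, either the cube of the least prime divisor of the order divides the order, or 12 does. -/
theorem result {G : Type*} [Group G] [Finite G] [IsSimpleGroup G] (hG : ∃ x y : G, x * y ≠ y * x) : (Nat.card G).minFac ^ 3 ∣ Nat.card G ∨ 12 ∣ Nat.card G := by
  by_contra hcon
  push Not at hcon
  obtain ⟨h3, h12⟩ := hcon
  have hcard : Nat.card G ≠ 1 := Finite.one_lt_card.ne'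
  have hp := Nat.minFac_prime hcard
  have hmin : ∀ q : ℕ, q.Prime → q ∣ Nat.card G → (Nat.card G).minFac ≤ q :=
    fun q hq hd => Nat.minFac_le_of_dvd hq.two_le hd
  have hpd := Nat.minFac_dvd (Nat.card G)
  generalize (Nat.card G).minFac = p at *
  have := Fact.mk hp
  let P : Sylow p G := default
  obtain ⟨n, hn⟩ := P.isPGroup'.exists_card_eq
  have hnG : p ^ n ∣ Nat.card G := hn ▸ (P : Subgroup G).card_subgroup_dvd_card
  have hn2 : n ≤ 2 := by
    by_contra hlt
    exact h3 ((pow_dvd_pow p (by omega)).trans hnG)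
  have hno : ¬ Cfsg.HasNormalPComplement p G := by
    intro h
    rcases (CL.pResidual_normal p G).eq_bot_or_eq_top with h1 | h1
    · have hpg : IsPGroup p G := CL.isPGroup_iff_pResidual_eq_bot.mpr h1
      have : Group.IsNilpotent G := hpg.isNilpotent
      obtain ⟨x, y, hxy⟩ := hG
      exact hxy (IsSimpleGroup.comm_iff_isSolvable.mpr inferInstance x y)
    · rw [CL.hasNPC_iff_not_dvd_card_pResidual, h1, Subgroup.card_top] at h
      exact h hpd
  obtain ⟨q, i, hq, hqp, hqG, h1, h2, h4⟩ :=
    CL.Tr.exists_prime_dvd_pow_sub_one_of_not_hasNPC P hn hno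
  have hpq : p < q := lt_of_le_of_ne (hmin q hq hqG) hqp.symm
  have hp2 := hp.two_le
  have hq1 : ¬ q ∣ p - 1 := fun h => by
    have := Nat.le_of_dvd (by omega) h
    omega
  obtain rfl | rfl : i = 1 ∨ i = 2 := by omega
  · exact hq1 (by simpa using h4)
  · have e : p ^ 2 - 1 = (p + 1) * (p - 1) := by
      simpa using Nat.sq_sub_sq p 1
    rw [e] at h4
    have h5 : q ∣ p + 1 := ((Nat.Prime.dvd_mul hq).mp h4).resolve_right hq1
    have h6 : q = p + 1 := le_antisymm (Nat.le_of_dvd (by omega) h5) hpq
    have h7 : p = 2 := by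
      rcases hp.eq_two_or_odd' with h | h
      · exact h
      · rcases hq.eq_two_or_odd' with h' | h'
        · omega
        · obtain ⟨a, ha⟩ := h
          obtain ⟨b, hb⟩ := h'
          omega
    subst h7
    have h8 : n = 2 := by omega
    subst h8
    subst h6
    exact h12 (Nat.Coprime.mul_dvd_of_dvd_of_dvd (by norm_num : Nat.Coprime 4 3) hnG hqG)

end Cfsg.Agent.S0073
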