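import Cfsg.Statements.S0075
import Cfsg.Agent.PLOC.Fusion

set_option autoImplicit false
open Cfsg

namespace Cfsg.Agent.S0075

open scoped Pointwise commutatorElement

/-- For an abelian Sylow p-subgroup T, its intersection with the subgroup generated by the elements of order prime to p is the commutator of T with its normalizer. -/
theorem result {G : Type*} [Group G] [Finite G] {p : ℕ} [Fact p.Prime] (T : Sylow p G) (hT : IsMulCommutative T) : (T : Subgroup G) ⊓ Cfsg.pResidual p G = ⁅(T : Subgroup G), Subgroup.normalizer (T : Set G)⁆ := by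
  apply le_antisymm
  · exact (le_inf (CL.Tr.sylow_inf_pResidual_le_commutator T) inf_le_left).trans
      (CL.Tr.commutator_inf_sylow_le_of_controls T (CL.Tr.abelian_sylow_controls_elem T hT))
  · refine le_inf (Subgroup.le_normalizer_iff_commutator_le_left.mp le_rfl) ?_
    rw [Subgroup.commutator_le]
    intro x hx g _
    have h1 : g ∈ ((Cfsg.pResidual p G : Subgroup G) : Set G) * ((T : Subgroup G) : Set G) := by
      rw [← Subgroup.normal_mul, CL.pResidual_sup_sylow T]; trivial
    obtain ⟨c, hc, z, hz, rfl⟩ := h1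
    have h2 : z * x = x * z :=
      congrArg Subtype.val (hT.is_comm.comm (⟨z, hz⟩ : T) ⟨x, hx⟩)
    have h3 : ⁅x, c * z⁆ = x * c * x⁻¹ * c⁻¹ := by
      rw [commutatorElement_def]
      calc x * (c * z) * x⁻¹ * (c * z)⁻¹ = x * c * (z * x⁻¹ * z⁻¹) * c⁻¹ := by group
        _ = x * c * (z * x * z⁻¹)⁻¹ * c⁻¹ := by group
        _ = _ := by rw [h2]; group
    change ⁅x, c * z⁆ ∈ _
    rw [h3]
    exact mul_mem ((CL.pResidual_normal p G).conj_mem c hc x) (inv_mem hc)

end Cfsg.Agent.S0075
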