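import Cfsg.Statements.S0076
import Cfsg.Agent.PLOC.Fusion

set_option autoImplicit false
open Cfsg

namespace Cfsg.Agent.S0076

/-- Two P-invariant subsets of a Sylow p-subgroup P that are conjugate in G are conjugate under the normalizer of P. -/
theorem result {G : Type*} [Group G] [Finite G] {p : ℕ} [Fact p.Prime] (P : Sylow p G) (X Y : Set G) (hXP : X ⊆ P) (hYP : Y ⊆ P) (hX : ∀ x ∈ P, (fun y => x * y * x⁻¹) '' X = X) (hY : ∀ x ∈ P, (fun y => x * y * x⁻¹) '' Y = Y) (g : G) (hg : (fun y => g * y * g⁻¹) '' X = Y) : ∃ n ∈ Subgroup.normalizer (P : Set G), (fun y => n * y * n⁻¹) '' X = Y := by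
  have key : ∀ Z : Set G, (∀ x ∈ P, (fun y => x * y * x⁻¹) '' Z = Z) →
      (P : Subgroup G) ≤ Subgroup.normalizer Z := fun Z hZ x hx =>
    Subgroup.mem_normalizer_iff_conj_image_eq.mpr (hZ x hx)
  obtain ⟨h, hh, hn⟩ := CL.Tr.burnside_fusion P X Y (key X hX) (key Y hY) g (by
    intro x
    rw [← hg]
    constructor
    · intro hx; exact ⟨x, hx, rfl⟩
    · rintro ⟨y, hy, he⟩
      have : y = x := by simpa using he
      exact this ▸ hy)
  refine ⟨h * g, hn, ?_⟩
  have h1 : (fun y => h * y * h⁻¹) '' Y = Y := Subgroup.mem_normalizer_iff_conj_image_eq.mp hh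
  rw [← h1, ← hg, Set.image_image]
  congr 1
  ext y
  group

end Cfsg.Agent.S0076
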