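import Cfsg.Statements.S0078
import Cfsg.Agent.PLOC.Fusion

set_option autoImplicit false
open Cfsg

namespace Cfsg.Agent.S0078

/-- In a p-normal group, a Sylow p-subgroup P meets O^p(G) exactly where it meets O^p(V), for any subgroup V containing the normalizer of the centre of P. -/
theorem result {G : Type*} [Group G] [Finite G] {p : ℕ} [Fact p.Prime] (P : Sylow p G) (hn : ∀ Q : Sylow p G, (P : Subgroup G) ⊓ Subgroup.centralizer (P : Set G) ≤ (Q : Subgroup G) → (Q : Subgroup G) ⊓ Subgroup.centralizer (Q : Set G) = (P : Subgroup G) ⊓ Subgroup.centralizer (P : Set G)) (V : Subgroup G) (hV : Subgroup.normalizer (((P : Subgroup G) ⊓ Subgroup.centralizer (P : Set G) : Subgroup G) : Set G) ≤ V) : (P : Subgroup G) ⊓ Cfsg.pResidual p G = (P : Subgroup G) ⊓ (Cfsg.pResidual p V).map V.subtype := by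
  set Z : Subgroup G := (P : Subgroup G) ⊓ Subgroup.centralizer (P : Set G) with hZ
  have hW : Cfsg.IsWeaklyClosed Z P := by
    refine ⟨inf_le_left, fun g hg => ?_⟩
    have h1 : Z ≤ ((g⁻¹ • P : Sylow p G) : Subgroup G) := fun z hz => by
      rw [CL.Tr.mem_coe_smul_sylow_iff, inv_inv]
      exact hg ⟨z, hz, rfl⟩
    have h2 := hn _ h1
    refine Subgroup.eq_of_le_of_card_ge ?_ (CL.Tr.card_map_conj _ _).ge
    rintro _ ⟨z, hz, rfl⟩
    refine ⟨hg ⟨z, hz, rfl⟩, fun y hy => ?_⟩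
    rw [← h2] at hz
    have h3 := hz.2 (g⁻¹ * y * g) (by
      change _ ∈ ((g⁻¹ • P : Sylow p G) : Subgroup G)
      rw [CL.Tr.mem_coe_smul_sylow_iff]
      have e : g⁻¹⁻¹ * (g⁻¹ * y * g) * g⁻¹ = y := by group
      rw [e]; exact hy)
    change y * (g * z * g⁻¹) = (g * z * g⁻¹) * y
    calc y * (g * z * g⁻¹) = g * (g⁻¹ * y * g * z) * g⁻¹ := by group
      _ = _ := by rw [h3]; group
  refine CL.Tr.sylow_inf_pResidual_eq_of_controls P
    (le_trans (le_trans P.le_normalizer (CL.Tr.weaklyClosed_le_normalizer hW)) hV)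
    fun x hx g hg => ?_
  obtain ⟨k, hk, hk'⟩ := CL.Tr.weaklyClosed_central_controls_elem P inf_le_right hW x hx g hg
  exact ⟨k, hV hk, hk'⟩

end Cfsg.Agent.S0078
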