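import Cfsg.Statements.S0083
import Cfsg.Agent.PLOC.Fusion

set_option autoImplicit false
open Cfsg

namespace Cfsg.Agent.S0083

open scoped Pointwise

/-- For an abelian Sylow p-subgroup P, a normal p-complement exists exactly when the normalizer of P is an internal direct product of P with some subgroup. -/
theorem result {G : Type*} [Group G] [Finite G] {p : ℕ} [Fact p.Prime] (P : Sylow p G) (hP : IsMulCommutative P) : Cfsg.HasNormalPComplement p G ↔ ∃ Q : Subgroup G, Q ≤ Subgroup.centralizer (P : Set G) ∧ Q ⊓ (P : Subgroup G) = ⊥ ∧ Q ⊔ (P : Subgroup G) = Subgroup.normalizer (P : Set G) := by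
  constructor
  · intro h
    refine ⟨Cfsg.pResidual p G ⊓ Subgroup.normalizer (P : Set G), fun g hg => ?_, ?_, ?_⟩
    · exact CL.mem_centralizer_of_hasNPC h P.isPGroup' hg.2
        (CL.hasNPC_iff_forall_mem_pResidual.mp h g hg.1)
    · rw [eq_bot_iff, ← (CL.hasNPC_iff_sylow_inf_pResidual P).mp h]
      exact le_inf inf_le_right (inf_le_left.trans inf_le_left)
    · refine le_antisymm (sup_le inf_le_right P.le_normalizer) fun g hg => ?_
      have h1 : g ∈ ((Cfsg.pResidual p G : Subgroup G) : Set G) * ((P : Subgroup G) : Set G) := by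
        rw [← Subgroup.normal_mul, CL.pResidual_sup_sylow P]; trivial
      obtain ⟨c, hc, z, hz, rfl⟩ := h1
      refine Subgroup.mul_mem_sup ⟨hc, ?_⟩ hz
      have := mul_mem hg (inv_mem (P.le_normalizer hz))
      simpa using this
  · rintro ⟨Q, h1, -, h3⟩
    refine CL.hasNPC_of_normalizer_le_centralizer P ?_
    rw [← h3]
    exact sup_le h1 P.le_centralizer

end Cfsg.Agent.S0083
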