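import Cfsg.Statements.S0090
import Mathlib
import Cfsg.Agent.S0088
import Cfsg.Agent.SOLV.Coprime

set_option autoImplicit false
open Cfsg

namespace Cfsg.Agent.S0090

/-- An abelian normal Hall subgroup A splits as the internal direct product of G' ∩ A and Z(G) ∩ A, and [A, G] = G' ∩ A. -/
theorem result {G : Type*} [Group G] [Finite G] (A : Subgroup G) [A.Normal] (hc : IsMulCommutative A) (hHall : Nat.Coprime (Nat.card A) A.index) : ⁅A, (⊤ : Subgroup G)⁆ = commutator G ⊓ A ∧ (commutator G ⊓ A) ⊓ (Subgroup.center G ⊓ A) = ⊥ ∧ (commutator G ⊓ A) ⊔ (Subgroup.center G ⊓ A) = A := by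
  have h1 : ⁅A, (⊤ : Subgroup G)⁆ = commutator G ⊓ A := by
    apply le_antisymm
    · exact le_inf (Subgroup.commutator_mono le_top le_rfl) (Subgroup.commutator_le_left _ _)
    · rintro x ⟨hx1, hx2⟩
      have hf : A.focalSubgroup ≤ ⁅A, (⊤ : Subgroup G)⁆ := by
        rw [Subgroup.focalSubgroup_def, Subgroup.closure_le]
        rintro _ ⟨-, y, hy, u, rfl⟩
        exact Subgroup.commutator_mem_commutator hy (Subgroup.mem_top u)
      apply hf
      open scoped IsMulCommutative in
      have h2 : A.transferFocal x = 1 := Abelianization.commutator_subset_ker _ hx1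
      have h3 := A.transferFocal_eq_pow ⟨x, hx2⟩
      rw [h2] at h3
      have h4 : ((⟨x, hx2⟩ : A) : A ⧸ A.focalSubgroupOf) ^ Nat.card A = 1 := by
        rw [← QuotientGroup.mk_pow, pow_card_eq_one', QuotientGroup.mk_one]
      have h5 := pow_gcd_eq_one.mpr ⟨h4, h3.symm⟩
      rw [hHall.gcd_eq_one, pow_one, QuotientGroup.eq_one_iff] at h5
      exact h5
  refine ⟨h1, ?_, ?_⟩
  · rw [eq_bot_iff, ← Cfsg.Agent.S0088.result A hc hHall]
    rintro x ⟨⟨h2, h3⟩, h4, -⟩
    exact ⟨⟨h3, h2⟩, h4⟩
  · refine le_antisymm (sup_le inf_le_right inf_le_right) ?_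
    obtain ⟨K, hK⟩ := Subgroup.exists_right_complement'_of_coprime hHall
    have hcop : (Nat.card K).Coprime (Nat.card A) := by
      rw [← hK.symm.index_eq_card]; exact hHall.symm
    open scoped IsMulCommutative in
    have h2 := CL.coprime_commutator_sup_centralizer K A Subgroup.le_normalizer_of_normal hcop
      (Or.inr inferInstance)
    refine h2.ge.trans (sup_le_sup ?_ ?_)
    · rw [← h1]; exact Subgroup.commutator_mono le_rfl le_top
    · rintro x ⟨hx1, hx2⟩
      refine ⟨?_, hx1⟩
      have : (⊤ : Subgroup G) ≤ Subgroup.centralizer {x} := by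
        rw [← hK.sup_eq_top]
        exact sup_le (fun a ha => Subgroup.mem_centralizer_singleton_iff.mpr
          (setLike_mul_comm ha hx1))
          fun k hk => Subgroup.mem_centralizer_singleton_iff.mpr (hx2 k hk)
      exact Subgroup.mem_center_iff.mpr fun g =>
        Subgroup.mem_centralizer_singleton_iff.mp (this (Subgroup.mem_top g))

end Cfsg.Agent.S0090
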