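import Cfsg.Statements.S0091
import Cfsg.Agent.PLOC.PFrattini

set_option autoImplicit false
open Cfsg

namespace Cfsg.Agent.S0091

open scoped commutatorElement

/-- If a nontrivial Sylow p-subgroup controls its own fusion then it is not contained in the derived subgroup. -/
theorem result {G : Type*} [Group G] [Finite G] {p : ℕ} [Fact p.Prime] (P : Sylow p G) (hp : p ∣ Nat.card G) (h : ∀ x ∈ P, ∀ y ∈ P, (∃ g : G, g * x * g⁻¹ = y) → ∃ z ∈ P, z * x * z⁻¹ = y) : ¬ (P : Subgroup G) ≤ commutator G := by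
  intro hle
  have h1 : (P : Subgroup G) ≤ (P : Subgroup G).focalSubgroup := by
    rw [← Subgroup.commutator_inf_eq_focalSubgroup P]
    exact le_inf hle le_rfl
  have h2 : (P : Subgroup G).focalSubgroup ≤ ⁅(P : Subgroup G), (P : Subgroup G)⁆ := by
    rw [Subgroup.focalSubgroup_def, Subgroup.closure_le]
    rintro _ ⟨hg, x, hx, u, rfl⟩
    have hx' : x⁻¹ ∈ P := P.1.inv_mem hx
    have hy : u * x⁻¹ * u⁻¹ ∈ P := by
      have := P.1.mul_mem hx' hg
      simp only [commutatorElement_def, mul_assoc, inv_mul_cancel_left] at this ⊢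
      exact this
    obtain ⟨z, hz, hzx⟩ := h _ hx' _ hy ⟨u, rfl⟩
    have : ⁅x, u⁆ = ⁅x, z⁆ := by
      simp only [commutatorElement_def, mul_assoc] at hzx ⊢
      rw [hzx]
    rw [this]
    exact Subgroup.commutator_mem_commutator hx hz
  have hne : (P : Subgroup G) ≠ ⊥ := P.ne_bot_of_dvd_card hp
  have : Nontrivial (P : Subgroup G) := (Subgroup.nontrivial_iff_ne_bot _).mpr hne
  apply CL.PG.commutator_ne_top P.2
  rw [← Subgroup.map_subtype_inj, Subgroup.map_subtype_commutator, ← MonoidHom.range_eq_map,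
    Subgroup.range_subtype]
  exact le_antisymm (Subgroup.commutator_le_self _) (h1.trans h2)

end Cfsg.Agent.S0091
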