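import Cfsg.Statements.S0105
import Mathlib
import Cfsg.Agent.S0090
import Cfsg.Agent.S0074

set_option autoImplicit false
open Cfsg

namespace Cfsg.Agent.S0105

/-- With an abelian Sylow p-subgroup P, some quotient of G is isomorphic to the part of P central in N_G(P). -/
theorem result {G : Type*} [Group G] [Finite G] {p : ℕ} [Fact p.Prime] (P : Sylow p G) (hP : IsMulCommutative P) : ∃ (N : Subgroup G) (hN : N.Normal), Nonempty (G ⧸ N ≃* ((P : Subgroup G) ⊓ Subgroup.centralizer (Subgroup.normalizer (P : Set G) : Set G) : Subgroup G)) := by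
  set N := Subgroup.normalizer (P : Set G) with hN
  have hPN : (P : Subgroup G) ≤ N := Subgroup.le_normalizer
  have hn : ((P : Subgroup G).subgroupOf N).Normal := Subgroup.normal_in_normalizer
  have hc : IsMulCommutative ((P : Subgroup G).subgroupOf N) :=
    .of_setLike_mul_comm fun a ha b hb => Subtype.ext (setLike_mul_comm (s := (P : Subgroup G)) ha hb)
  obtain ⟨-, h2, h3⟩ := Cfsg.Agent.S0090.result ((P : Subgroup G).subgroupOf N) hc
    (P.subtype hPN).card_coprime_index
  have hfoc : (P : Subgroup G).focalSubgroup = ⁅N, N⁆ ⊓ (P : Subgroup G) := by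
    rw [← Subgroup.commutator_inf_eq_focalSubgroup P, Cfsg.Agent.S0074.result P hP]
  let f : ((P : Subgroup G) ⊓ Subgroup.centralizer (N : Set G) : Subgroup G) →*
      (P : Subgroup G) ⧸ (P : Subgroup G).focalSubgroupOf :=
    (QuotientGroup.mk' _).comp (Subgroup.inclusion inf_le_left)
  have hf : Function.Bijective f := by
    constructor
    · rw [injective_iff_map_eq_one]
      rintro ⟨x, hx1, hx2⟩ hx
      have h4 : x ∈ (P : Subgroup G).focalSubgroup := 
        (QuotientGroup.eq_one_iff (N := (P : Subgroup G).focalSubgroupOf) ⟨x, hx1⟩).mp hx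
      rw [hfoc, ← Subgroup.map_subtype_commutator] at h4
      obtain ⟨⟨y, hy, rfl⟩, -⟩ := h4
      have h5 : y ∈ (⊥ : Subgroup N) := by
        rw [← h2]
        exact ⟨⟨hy, hx1⟩, Subgroup.mem_center_iff.mpr fun g => Subtype.ext (hx2 g g.2), hx1⟩
      rw [Subgroup.mem_bot] at h5
      subst h5
      rfl
    · intro q
      obtain ⟨x, rfl⟩ := QuotientGroup.mk_surjective q
      have h4 : (⟨x, hPN x.2⟩ : N) ∈ (commutator N ⊓ (P : Subgroup G).subgroupOf N) ⊔
          (Subgroup.center N ⊓ (P : Subgroup G).subgroupOf N) := by rw [h3]; exact x.2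
      rw [← SetLike.mem_coe, Subgroup.normal_mul] at h4
      obtain ⟨a, ⟨ha1, ha2⟩, c, ⟨hc1, hc2⟩, hac⟩ := h4
      refine ⟨⟨c, hc2, fun g hg => congrArg Subtype.val
        (Subgroup.mem_center_iff.mp hc1 ⟨g, hg⟩)⟩, ?_⟩
      have hx : x = ⟨a, ha2⟩ * ⟨c, hc2⟩ := Subtype.ext (congrArg Subtype.val hac).symm
      have ha : ((⟨a, ha2⟩ : (P : Subgroup G)) :
          (P : Subgroup G) ⧸ (P : Subgroup G).focalSubgroupOf) = 1 := by
        rw [QuotientGroup.eq_one_iff]
        change (a : G) ∈ (P : Subgroup G).focalSubgroup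
        rw [hfoc, ← Subgroup.map_subtype_commutator]
        exact ⟨⟨a, ha1, rfl⟩, ha2⟩
      rw [hx, QuotientGroup.mk_mul, ha, one_mul]
      rfl
  exact ⟨_, inferInstance, ⟨(Subgroup.transferFocal.quotientKerMulEquivQuotientFocalSubroupOf P).trans
    (MulEquiv.ofBijective f hf).symm⟩⟩

end Cfsg.Agent.S0105
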