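import Cfsg.Statements.S0092
import Cfsg.Agent.PLOC.Fusion
import Cfsg.Agent.SOLV.Coprime
import Cfsg.Agent.S0105

set_option autoImplicit false
open Cfsg

namespace Cfsg.Agent.S0092

open scoped Pointwise commutatorElement

theorem aux_center {U : Type*} [Group U] [Finite U] {p : ℕ} [Fact p.Prime] (hU : pResidual p U = ⊤)
    (Q : Sylow p U) (hQ : IsMulCommutative Q) {z : U} (hz : z ∈ (Q : Subgroup U))
    (hc : z ∈ Subgroup.centralizer (Subgroup.normalizer (Q : Set U) : Set U)) : z = 1 := by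
  obtain ⟨M, hM, ⟨e⟩⟩ := Cfsg.Agent.S0105.result Q hQ
  have h1 : IsPGroup p (U ⧸ M) := Q.isPGroup'.to_inf_left.of_equiv e.symm
  have h2 : M = ⊤ := top_le_iff.mp (hU ▸ CL.pResidual_le_of_isPGroup_quotient M h1)
  have h3 : Subsingleton (U ⧸ M) := h2 ▸ QuotientGroup.subsingleton_quotient_top
  have h4 := e.symm.injective.subsingleton
  exact congrArg Subtype.val (h4.elim ⟨z, hz, hc⟩ 1)

/-- If the Sylow p-subgroups of O^p(G) are abelian then G splits over O^p(G). -/
theorem result {G : Type*} [Group G] [Finite G] {p : ℕ} [Fact p.Prime] (h : ∀ Q : Sylow p (Cfsg.pResidual p G), IsMulCommutative Q) : ∃ K : Subgroup G, K.IsComplement' (Cfsg.pResidual p G) := by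
  obtain ⟨P⟩ : Nonempty (Sylow p G) := inferInstance
  set U := pResidual p G with hU
  obtain ⟨Q, hQ⟩ := CL.exists_sylow_eq_subgroupOf_normal P U
  set A := (P : Subgroup G) ⊓ U with hA
  set N := Subgroup.normalizer (A : Set G) with hN
  have hUn : ∀ H : Subgroup G, H ≤ Subgroup.normalizer (U : Set G) := fun H => by
    rw [Subgroup.normalizer_eq_top]; exact le_top
  have hPN : (P : Subgroup G) ≤ N := CL.le_normalizer_inf Subgroup.le_normalizer (hUn _)
  have hAp : IsPGroup p A := P.isPGroup'.to_inf_left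
  have hAV : A ≤ N ⊓ U := le_inf Subgroup.le_normalizer inf_le_right
  have hAc : ∀ a ∈ A, ∀ b ∈ A, a * b = b * a := fun a ha b hb => by
    have := (h Q).is_comm.comm ⟨⟨a, ha.2⟩, hQ.ge ha.1⟩
      ⟨⟨b, hb.2⟩, hQ.ge hb.1⟩
    exact congrArg (fun x : (Q : Subgroup U) => ((x : U) : G)) this
  have hZ : ∀ z ∈ A, (∀ v ∈ N ⊓ U, v * z = z * v) → z = 1 := fun z hz hc => by
    have := aux_center CL.pResidual_pResidual Q (h Q) (z := ⟨z, hz.2⟩) (by rw [hQ]; exact hz.1)
      (fun y hy => Subtype.ext (hc y ⟨CL.Tr.mem_normalizer_of_conj_mem fun a ha => ?_, y.2⟩))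
    · exact congrArg Subtype.val this
    · have h1 : y * ⟨a, ha.2⟩ * y⁻¹ ∈ (Q : Subgroup U) :=
        CL.Tr.conj_mem_of_mem_normalizer hy (by rw [hQ]; exact ha.1)
      rw [hQ] at h1
      exact ⟨h1, (y * ⟨a, ha.2⟩ * y⁻¹).2⟩
  have hn : (A.subgroupOf (N ⊓ U)).Normal := CL.normal_subgroupOf_of_le_normalizer inf_le_left
  have hi : ¬ p ∣ A.relIndex (N ⊓ U) := fun hd => CL.not_dvd_relIndex_sylow_normal P U (by
    rw [← Subgroup.inf_relIndex_right, ← Subgroup.relIndex_mul_relIndex A (N ⊓ U) U hAV inf_le_right]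
    exact hd.mul_right _)
  obtain ⟨k, hk⟩ := IsPGroup.iff_card.mp hAp
  have hcop : (A.relIndex (N ⊓ U)).Coprime (Nat.card A) := by
    rw [hk]
    exact ((Fact.out : p.Prime).coprime_iff_not_dvd.mpr hi).symm.pow_right k
  obtain ⟨L', hL'⟩ := Subgroup.exists_right_complement'_of_coprime (N := A.subgroupOf (N ⊓ U)) (by
    rw [Nat.card_congr (Subgroup.subgroupOfEquivOfLe hAV).toEquiv]
    exact hcop.symm)
  set L := L'.map (N ⊓ U).subtype with hL
  have hLV : L ≤ N ⊓ U := Subgroup.map_subtype_le _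
  have hLc : (Nat.card L).Coprime (Nat.card A) := by
    rw [hL, Subgroup.card_map_of_injective (N ⊓ U).subtype_injective, ← hL'.symm.index_eq_card]
    exact hcop
  have hLp : (Nat.card L).Coprime p := by
    rw [hL, Subgroup.card_map_of_injective (N ⊓ U).subtype_injective, ← hL'.symm.index_eq_card]
    exact ((Fact.out : p.Prime).coprime_iff_not_dvd.mpr hi).symm
  have hAL : A ⊔ L = N ⊓ U := by
    have := congrArg (Subgroup.map (N ⊓ U).subtype) hL'.sup_eq_top
    rwa [Subgroup.map_sup, Subgroup.map_subgroupOf_eq_of_le hAV, ← MonoidHom.range_eq_map,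
      Subgroup.range_subtype] at this
  have hfr : ∀ g ∈ N, ∃ a ∈ A, a⁻¹ * g ∈ Subgroup.normalizer (L : Set G) := fun g hg => by
    obtain ⟨a, ha, h1⟩ := CL.coprime_conj_of_sup_eq A L (MulAut.conj g • L) (hLV.trans inf_le_left) hLc
      (by rw [CL.card_conj_smul]; exact hLc) (by
        have h2 : MulAut.conj g • (N ⊓ U) = N ⊓ U := CL.conj_smul_eq_iff_mem_normalizer.mpr
          (CL.le_normalizer_inf Subgroup.le_normalizer (hUn N) hg)
        rw [hAL, ← h2, ← hAL, Subgroup.smul_sup, CL.conj_smul_eq_iff_mem_normalizer.mpr hg])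
      (Or.inr (Group.isSolvable_of_comm fun a b => Subtype.ext (hAc a a.2 b b.2)))
    refine ⟨a, ha, CL.conj_smul_eq_iff_mem_normalizer.mp ?_⟩
    rw [← CL.conj_smul_conj_smul, ← h1, CL.conj_smul_conj_smul, inv_mul_cancel, CL.conj_one_smul]
  have hdis : Disjoint L A := Subgroup.disjoint_of_coprime_natCard hLc
  have hML : ∀ x ∈ Subgroup.normalizer (L : Set G) ⊓ N, x ∈ U → x ∈ L := fun x hx hxU => by
    obtain ⟨a, ha, l, hl, rfl⟩ := (CL.mem_sup_of_le_normalizer' (hLV.trans inf_le_left)).mp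
      (hAL.ge ⟨hx.2, hxU⟩)
    have haL : a ∈ Subgroup.normalizer (L : Set G) := by
      have := mul_mem (show a * l ∈ Subgroup.normalizer (L : Set G) from hx.1)
        (inv_mem (Subgroup.le_normalizer hl))
      rwa [mul_inv_cancel_right] at this
    have ha1 : a = 1 := hZ a ha fun v hv => by
      have h1 : N ⊓ U ≤ Subgroup.centralizer {a} := by
        rw [← hAL]
        refine sup_le (fun b hb => Subgroup.mem_centralizer_singleton_iff.mpr (hAc b hb a ha))
          fun m hm => Subgroup.mem_centralizer_singleton_iff.mpr ?_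
        rw [← commutatorElement_eq_one_iff_mul_comm, commutatorElement_def]
        refine Subgroup.disjoint_def.mp hdis ?_ ?_
        · rw [mul_assoc, mul_assoc, ← mul_assoc a]
          exact mul_mem hm (CL.Tr.conj_mem_of_mem_normalizer haL (inv_mem hm))
        · exact mul_mem (CL.Tr.conj_mem_of_mem_normalizer (hLV hm).1 ha) (inv_mem ha)
      exact Subgroup.mem_centralizer_singleton_iff.mp (h1 hv)
    rwa [ha1, one_mul]
  set M := Subgroup.normalizer (L : Set G) ⊓ N with hM
  obtain ⟨K⟩ : Nonempty (Sylow p M) := inferInstance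
  have hK : M ≤ (K : Subgroup M).map M.subtype ⊔ U := by
    intro x hx
    obtain ⟨u, hu, y, hy, hxy⟩ := Subgroup.mem_sup_of_normal_left.mp
      ((CL.pResidual_sup_sylow K).ge (Subgroup.mem_top ⟨x, hx⟩))
    have h1 : x = u * y := congrArg Subtype.val hxy.symm
    rw [h1]
    exact mul_mem (Subgroup.mem_sup_right (CL.pResidual_le_comap M.subtype hu))
      (Subgroup.mem_sup_left ⟨y, hy, rfl⟩)
  refine ⟨(K : Subgroup M).map M.subtype, Subgroup.isComplement'_of_disjoint_and_mul_eq_univ ?_ ?_⟩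
  · rw [Subgroup.disjoint_def]
    intro x hx hxU
    obtain ⟨j, hj⟩ := K.isPGroup'.map M.subtype ⟨x, hx⟩
    rw [← orderOf_eq_one_iff]
    exact Nat.eq_one_of_dvd_coprimes (hLp.pow_right j)
      (Subgroup.orderOf_dvd_natCard L (hML x (Subgroup.map_subtype_le _ hx) hxU))
      (orderOf_dvd_of_pow_eq_one (congrArg Subtype.val hj))
  · rw [← Subgroup.mul_normal, Subgroup.coe_eq_univ, eq_top_iff, ← CL.pResidual_sup_sylow P]
    refine sup_le le_sup_right fun g hg => ?_
    obtain ⟨a, ha, h1⟩ := hfr g (hPN hg)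
    have h2 := mul_mem (Subgroup.mem_sup_right (S := (K : Subgroup M).map M.subtype) ha.2)
      (hK (Subgroup.mem_inf.mpr ⟨h1, N.mul_mem (N.inv_mem (hAV ha).1) (hPN hg)⟩))
    rwa [mul_inv_cancel_left] at h2

end Cfsg.Agent.S0092
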