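import Cfsg.Statements.S0099
import Cfsg.Agent.PLOC.ESClass

set_option autoImplicit false
open Cfsg

namespace Cfsg.Agent.S0099

/-- Among three extraspecial 2-groups of equal order, some two are isomorphic. -/
theorem result {E₁ : Type*} {E₂ : Type*} {E₃ : Type*} [Group E₁] [Group E₂] [Group E₃] [Finite E₁] [Finite E₂] [Finite E₃] (h₁ : Cfsg.IsExtraspecial 2 E₁) (h₂ : Cfsg.IsExtraspecial 2 E₂) (h₃ : Cfsg.IsExtraspecial 2 E₃) (h12 : Nat.card E₁ = Nat.card E₂) (h23 : Nat.card E₂ = Nat.card E₃) : Nonempty (E₁ ≃* E₂) ∨ Nonempty (E₂ ≃* E₃) ∨ Nonempty (E₁ ≃* E₃) := by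
  obtain ⟨z₁, d₁, c₁, -⟩ := CL.ES.exists_zdata h₁
  obtain ⟨z₂, d₂, c₂, -⟩ := CL.ES.exists_zdata h₂
  obtain ⟨z₃, d₃, c₃, -⟩ := CL.ES.exists_zdata h₃
  by_cases a : CL.Orth.IsPlus d₁.Q ↔ CL.Orth.IsPlus d₂.Q
  · exact Or.inl (d₁.nonempty_mulEquiv_of_isPlus_iff d₂ c₁ c₂ h12 a)
  by_cases b : CL.Orth.IsPlus d₂.Q ↔ CL.Orth.IsPlus d₃.Q
  · exact Or.inr (Or.inl (d₂.nonempty_mulEquiv_of_isPlus_iff d₃ c₂ c₃ h23 b))
  exact Or.inr (Or.inr (d₁.nonempty_mulEquiv_of_isPlus_iff d₃ c₁ c₃ (h12.trans h23) (by tauto)))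

end Cfsg.Agent.S0099
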