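import Cfsg.Statements.S0101
import Cfsg.Agent.PLOC.PFrattini

set_option autoImplicit false
open Cfsg

namespace Cfsg.Agent.S0101

/-- In a perfect central extension, the kernel meets each Sylow p-subgroup P inside the Frattini subgroup of P. -/
theorem result {H : Type*} {G : Type*} [Group H] [Group G] [Finite H] (σ : H →* G) (hσ : Function.Surjective σ) (hc : σ.ker ≤ Subgroup.center H) (hH : commutator H = ⊤) {p : ℕ} [Fact p.Prime] (P : Sylow p H) : σ.ker ⊓ (P : Subgroup H) ≤ (frattini P).map (P : Subgroup H).subtype := by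
  rintro z ⟨hz1, hz2⟩
  have hz := hc hz1
  have h1 := MonoidHom.transfer_eq_pow (Abelianization.of (G := (P : Subgroup H))) z (fun k g _ => by
    rw [mul_assoc, ← Subgroup.mem_center_iff.mp (pow_mem hz k) g, inv_mul_cancel_left])
  have h2 : MonoidHom.transfer (Abelianization.of (G := (P : Subgroup H))) z = 1 :=
    Abelianization.commutator_subset_ker _ (hH ▸ Subgroup.mem_top z)
  rw [h2] at h1
  have h3 : Abelianization.of (⟨z, hz2⟩ : (P : Subgroup H)) ^ (P : Subgroup H).index = 1 := by
    rw [← map_pow]; exact h1.symm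
  have h4 : Abelianization.of (⟨z, hz2⟩ : (P : Subgroup H)) ^ Nat.card (P : Subgroup H) = 1 := by
    rw [← map_pow, pow_card_eq_one', map_one]
  have h5 := pow_gcd_eq_one.mpr ⟨h4, h3⟩
  rw [P.card_coprime_index.gcd_eq_one, pow_one, ← MonoidHom.mem_ker, Abelianization.ker_of] at h5
  exact ⟨_, CL.PG.commutator_le_frattini P.2 h5, rfl⟩

end Cfsg.Agent.S0101
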