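import Cfsg.Statements.S0104


set_option autoImplicit false
open Cfsg

namespace Cfsg.Agent.S0104

theorem exists_smul_eq_of_le {G : Type*} [Group G] [Finite G] {p : ℕ} [Fact p.Prime]
    (P Q : Sylow p G) (H : Subgroup G) (hP : (P : Subgroup G) ≤ H) (hQ : (Q : Subgroup G) ≤ H) :
    ∃ h ∈ H, h • P = Q := by
  obtain ⟨h, hh⟩ := MulAction.exists_smul_eq H (P.subtype hP) (Q.subtype hQ)
  rw [Sylow.smul_subtype] at hh
  exact ⟨h, h.2, Sylow.subtype_injective hh⟩

theorem mem_smul_iff {G : Type*} [Group G] {p : ℕ} (P : Sylow p G) (g x : G) :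
    x ∈ ((g • P : Sylow p G) : Subgroup G) ↔ g⁻¹ * x * g ∈ (P : Subgroup G) := by
  rw [Sylow.coe_subgroup_smul, Subgroup.mem_pointwise_smul_iff_inv_smul_mem]
  simp

/-- A subgroup Z of a Sylow p-subgroup P that is normalized by N_G(P) is weakly closed in P exactly when it is normal in every Sylow p-subgroup containing it. -/
theorem result {G : Type*} [Group G] [Finite G] {p : ℕ} [Fact p.Prime] (P : Sylow p G) (Z : Subgroup G) (hZP : Z ≤ (P : Subgroup G)) (hZN : Subgroup.normalizer (P : Set G) ≤ Subgroup.normalizer (Z : Set G)) : Cfsg.IsWeaklyClosed Z P ↔ ∀ R : Sylow p G, Z ≤ (R : Subgroup G) → (R : Subgroup G) ≤ Subgroup.normalizer (Z : Set G) := by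
  have hPN : (P : Subgroup G) ≤ Subgroup.normalizer (Z : Set G) :=
    le_trans Subgroup.le_normalizer hZN
  constructor
  · rintro ⟨-, hw⟩ R hZR
    obtain ⟨g, rfl⟩ := MulAction.exists_smul_eq G P R
    have hg : g⁻¹ ∈ Subgroup.normalizer (Z : Set G) := by
      refine Subgroup.mem_normalizer_iff_map_conj_eq.mpr (hw g⁻¹ ?_)
      rintro _ ⟨z, hz, rfl⟩
      simpa using (mem_smul_iff P g z).mp (hZR hz)
    intro r hr
    have h1 := hPN ((mem_smul_iff P g r).mp hr)
    have h2 := Subgroup.mul_mem _ (Subgroup.mul_mem _ (Subgroup.inv_mem _ hg) h1) hg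
    simpa [mul_assoc] using h2
  · intro h
    refine ⟨hZP, fun g hg => ?_⟩
    have hZR : Z ≤ ((g⁻¹ • P : Sylow p G) : Subgroup G) := fun z hz => by
      rw [mem_smul_iff]
      simpa using hg ⟨z, hz, rfl⟩
    obtain ⟨n, hn, hnP⟩ := exists_smul_eq_of_le (g⁻¹ • P) P _ (h _ hZR) hPN
    rw [smul_smul, Sylow.smul_eq_iff_mem_normalizer] at hnP
    have h1 := Subgroup.mul_mem _ (Subgroup.inv_mem _ (hZN hnP)) hn
    have h2 : g ∈ Subgroup.normalizer (Z : Set G) := by simpa using h1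
    exact Subgroup.mem_normalizer_iff_map_conj_eq.mp h2

end Cfsg.Agent.S0104
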