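import Cfsg.Statements.S0106
import Cfsg.Agent.PLOC.SL23
import Cfsg.Agent.CHAR.BSQuat
import Cfsg.Agent.INV.OddAut

set_option autoImplicit false
open Cfsg

namespace Cfsg.Agent.S0106

theorem aux_cyclic {G : Type*} [Group G] [Finite G] {A : Subgroup G} (hA : IsPGroup 2 A) [IsCyclic A]
    {g : G} (hg : g ∈ Subgroup.normalizer (A : Set G)) (ho : (orderOf g).Coprime 2) :
    g ∈ Subgroup.centralizer (A : Set G) := by
  obtain ⟨k, hk⟩ := CL.OddAut.isPGroup_mulAut_of_isCyclic hA (A.normalizerMonoidHom ⟨g, hg⟩)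
  have h1 : A.normalizerMonoidHom ⟨g, hg⟩ = 1 := orderOf_eq_one_iff.mp
    (Nat.eq_one_of_dvd_coprimes (ho.pow_right k)
      ((orderOf_map_dvd _ _).trans (by rw [Subgroup.orderOf_mk]))
      (orderOf_dvd_of_pow_eq_one hk))
  rw [← MonoidHom.mem_ker, Subgroup.normalizerMonoidHom_ker] at h1
  exact h1

/-- A finite group with generalized quaternion Sylow 2-subgroups either has a normal 2-complement or has a section isomorphic to SL(2,3). -/
theorem result {G : Type*} [Group G] [Finite G] (T : Sylow 2 G) (n : ℕ) (hn : 1 ≤ n) (hT : Nonempty ((T : Subgroup G) ≃* QuaternionGroup (2 ^ n))) : Cfsg.HasNormalPComplement 2 G ∨ ∃ (H K : Subgroup G) (hK : (K.subgroupOf H).Normal), Nonempty ((H ⧸ K.subgroupOf H) ≃* Matrix.SpecialLinearGroup (Fin 2) (ZMod 3)) := by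
  obtain ⟨e⟩ := hT
  obtain ⟨c, hc⟩ := CL.BSQ.exists_qgen (by positivity) e
  set C := Subgroup.zpowers c with hC
  set z := c ^ 2 ^ n with hz
  have hz2 : orderOf z = 2 := by
    rw [hz, orderOf_pow' c (by positivity), hc.ord, Nat.gcd_mul_left_left]
    exact Nat.mul_div_cancel _ (by positivity)
  have hzC : z ∈ C := pow_mem (Subgroup.mem_zpowers c) _
  have hz1 : z ≠ 1 := fun h => by simp [h] at hz2
  have hzz : z * z = 1 := by rw [← pow_two, ← hz2, pow_orderOf_eq_one]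
  have hinv : ∀ t ∈ (T : Subgroup G), t * t = 1 → t = 1 ∨ t = z := fun t ht h => by
    by_cases htC : t ∈ C
    · refine or_iff_not_imp_left.mpr fun h1 => ?_
      exact CL.SylowAux.eq_of_isCyclic_subgroup (H := C) inferInstance htC hzC
        (orderOf_eq_prime (by rw [pow_two, h]) h1) hz2
    · exact absurd ((hc.sq t ht htC).symm.trans h) hz1
  rw [or_iff_not_imp_left]
  intro hG
  rw [CL.Tr.hasNPC_iff_forall_le_sylow T] at hG
  push Not at hG
  obtain ⟨Q, hQ, g, hg, ho, hgc⟩ := hG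
  have hQg : ∀ x ∈ Q, g * x * g⁻¹ ∈ Q := fun x hx => CL.Tr.conj_mem_of_mem_normalizer hg hx
  obtain ⟨i, hi, hj⟩ : ∃ i ∈ Q ⊓ C, g * i * g⁻¹ ∉ C := by
    by_contra hne
    push Not at hne
    have hgA : g ∈ Subgroup.normalizer ((Q ⊓ C : Subgroup G) : Set G) :=
      CL.Tr.mem_normalizer_of_conj_mem fun x hx => ⟨hQg x hx.1, hne x hx⟩
    have : IsCyclic ↥(Q ⊓ C) := Subgroup.isCyclic_of_le (inf_le_right : Q ⊓ C ≤ C)
    have hA := aux_cyclic (T.isPGroup'.to_le (inf_le_left.trans hQ)) hgA ho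
    refine hgc fun y hy => ?_
    by_cases hyC : y ∈ C
    · exact hA y ⟨hy, hyC⟩
    have h1 : g * y * g⁻¹ ∉ C := fun h => hyC (by
      have := (CL.Tr.inv_conj_mem_of_mem_normalizer hgA ⟨hQg y hy, h⟩).2
      simpa [mul_assoc] using this)
    set w := y⁻¹ * (g * y * g⁻¹) with hw
    have hwQ : w ∈ Q := mul_mem (inv_mem hy) (hQg y hy)
    have hwC : w ∈ C := hc.mul _ (inv_mem (hQ hy)) _ (hQ (hQg y hy)) (fun h => hyC (inv_mem_iff.mp h)) h1
    have h2 : w * g = g * w := hA w ⟨hwQ, hwC⟩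
    have h3 : ∀ m : ℕ, g ^ m * y = y * w ^ m * g ^ m := fun m => by
      induction m with
      | zero => simp
      | succ m ih =>
        have h4 : g * y = y * w * g := by rw [hw]; group
        rw [pow_succ g, mul_assoc, h4, ← mul_assoc, ← mul_assoc, ih, pow_succ w, mul_assoc _ (g ^ m) w,
          ((show Commute w g from h2).pow_right m).eq.symm]
        simp only [mul_assoc]
    have h4 := h3 (orderOf g)
    rw [pow_orderOf_eq_one, one_mul, mul_one, left_eq_mul] at h4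
    obtain ⟨k, hk⟩ := T.isPGroup' ⟨w, hQ hwQ⟩
    have h5 : w = 1 := orderOf_eq_one_iff.mp (Nat.eq_one_of_dvd_coprimes (ho.pow_right k)
      (orderOf_dvd_of_pow_eq_one h4) (orderOf_dvd_of_pow_eq_one (congrArg Subtype.val hk)))
    have h6 := h3 1
    rw [h5] at h6
    simpa using h6.symm
  have hiQ : i ∈ Q := hi.1
  have hiC : i ∈ C := hi.2
  set j := g * i * g⁻¹ with hjd
  have hjQ : j ∈ Q := hQg i hiQ
  have hjj : j * j = z := hc.sq j (hQ hjQ) hj
  have hji : j * i * j⁻¹ = i⁻¹ := hc.inv_of_mem (hQ hjQ) hj hiC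
  have hgii : g * (i * i) * g⁻¹ = z := by rw [← hjj, hjd]; group
  have hii : i * i = z := by
    refine (hinv _ (hQ (mul_mem hiQ hiQ)) ?_).resolve_left fun h => hz1 (by rw [← hgii, h]; group)
    calc i * i * (i * i) = g⁻¹ * ((g * (i * i) * g⁻¹) * (g * (i * i) * g⁻¹)) * g := by group
      _ = 1 := by rw [hgii, hzz]; group
  have hii' : i⁻¹ = i * z := by rw [← hii, inv_eq_iff_mul_eq_one, ← mul_assoc, ← mul_assoc, hii, mul_assoc, hii, hzz]
  have hroot : ∀ w ∈ C, w * w = z → w = i ∨ w = i⁻¹ := fun w hw h => by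
    have h1 := CL.BSQ.QGen.comm hw (inv_mem hiC)
    rcases hinv (w * i⁻¹) (hc.zpowers_le (mul_mem hw (inv_mem hiC))) (by
      calc w * i⁻¹ * (w * i⁻¹) = w * (i⁻¹ * w) * i⁻¹ := by group
        _ = (w * w) * (i * i)⁻¹ := by rw [← h1]; group
        _ = 1 := by rw [h, hii, mul_inv_cancel]) with h2 | h2
    · exact Or.inl (mul_inv_eq_one.mp h2)
    · right
      rw [hii', CL.BSQ.QGen.comm hiC hzC, ← h2, inv_mul_cancel_right]
  set k := g * j * g⁻¹ with hkd
  have hkQ : k ∈ Q := hQg j hjQ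
  have hkk : k * k = z := by
    calc k * k = g * (j * j) * g⁻¹ := by rw [hkd]; group
      _ = z := by rw [hjj, ← hii, hgii, hii]
  have hkj : k * j * k⁻¹ = j⁻¹ := by
    calc k * j * k⁻¹ = g * (j * (g⁻¹ * j * g) * j⁻¹) * g⁻¹ := by rw [hkd]; group
      _ = g * i⁻¹ * g⁻¹ := by rw [show g⁻¹ * j * g = i by rw [hjd]; group, hji]
      _ = j⁻¹ := by rw [hjd]; group
  have hodd : Odd (orderOf g) := Nat.coprime_two_right.mp ho
  have hkC : k ∉ C := fun h => by
    have h1 : g ^ 2 * i * (g ^ 2)⁻¹ = k := by rw [hkd, hjd, pow_two]; group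
    have h2 : Commute (g ^ 4) i := by
      have h3 : g ^ 4 * i * (g ^ 4)⁻¹ = g ^ 2 * (g ^ 2 * i * (g ^ 2)⁻¹) * (g ^ 2)⁻¹ := by group
      refine mul_inv_eq_iff_eq_mul.mp ?_
      rw [h3, h1]
      rcases hroot k h hkk with h4 | h4
      · rw [h4, h1, h4]
      · rw [h4, ← conj_inv, h1, h4, inv_inv]
    have h3 : g ∈ Subgroup.zpowers (g ^ 4) := mem_zpowers_pow_iff.mpr
      (Nat.Coprime.pow_left 2 ho.symm)
    obtain ⟨m, hm⟩ := Subgroup.mem_zpowers_iff.mp h3
    have h4 := h2.zpow_left m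
    rw [hm] at h4
    apply hj
    rw [hjd, h4.eq, mul_inv_cancel_right]
    exact hiC
  have hwC : j⁻¹ * k ∈ C := hc.mul _ (inv_mem (hQ hjQ)) _ (hQ hkQ) (fun h => hj (inv_mem_iff.mp h)) hkC
  have hww : j⁻¹ * k * (j⁻¹ * k) = z := by
    have h1 : k * j⁻¹ = j * k := by rw [← mul_inv_eq_iff_eq_mul, ← conj_inv, hkj, inv_inv]
    calc j⁻¹ * k * (j⁻¹ * k) = j⁻¹ * (k * j⁻¹) * k := by group
      _ = z := by rw [h1, ← hkk]; group
  have h4 : i ^ 4 = 1 := by rw [← hzz, ← hii]; simp only [pow_succ, pow_zero, one_mul, mul_assoc]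
  have h2 : i ^ 2 ≠ 1 := by rw [pow_two, hii]; exact hz1
  have hj2 : j ^ 2 = i ^ 2 := by rw [pow_two, pow_two, hii, hjj]
  rcases hroot _ hwC hww with h | h
  · refine CL.Tr.exists_section_sl23 (i := i⁻¹) (j := j⁻¹) (g := g) (by rw [inv_pow, h4, inv_one])
      (by rw [inv_pow]; exact inv_ne_one.mpr h2) (by rw [inv_pow, inv_pow, hj2]) ?_
      (by rw [hjd]; group) ?_ hodd
    · rw [inv_inv, inv_inv, ← hji]; group
    · rw [conj_inv.symm, ← hkd, ← h]; group
  · refine CL.Tr.exists_section_sl23 (i := i) (j := j) (g := g) h4 h2 hj2 hji rfl ?_ hodd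
    have h5 : j * i⁻¹ * j⁻¹ = i := by rw [← conj_inv, hji, inv_inv]
    rw [← hkd, ← h5, ← h]; group

end Cfsg.Agent.S0106
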