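import Cfsg.Statements.S0107
import Cfsg.Agent.PLOC.Fusion
import Cfsg.Agent.S0111

set_option autoImplicit false
open Cfsg

namespace Cfsg.Agent.S0107

theorem aux_cyclic {C : Type*} [Group C] [Finite C] [IsCyclic C] {x y : C} (hx : orderOf x = 2)
    (hy : orderOf y = 2) : x = y := by
  classical
  have := Fintype.ofFinite C
  have h1 := IsCyclic.card_orderOf_eq_totient (α := C) (d := 2) (hx ▸ orderOf_dvd_card)
  rw [Nat.totient_two, Finset.card_eq_one] at h1
  obtain ⟨a, ha⟩ := h1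
  have h2 : x ∈ ({a} : Finset C) := ha ▸ by simpa using hx
  have h3 : y ∈ ({a} : Finset C) := ha ▸ by simpa using hy
  rw [Finset.mem_singleton.mp h2, Finset.mem_singleton.mp h3]

/-- A finite group with no nontrivial 2-group quotient and dihedral Sylow 2-subgroups of order at least 8 has a single class of involutions. -/
theorem result {G : Type*} [Group G] [Finite G] (T : Sylow 2 G) (n : ℕ) (hn : 2 ≤ n) (hT : Nonempty ((T : Subgroup G) ≃* DihedralGroup (2 ^ n))) (hO : Cfsg.pResidual 2 G = ⊤) (x y : G) (hx : orderOf x = 2) (hy : orderOf y = 2) : ∃ g : G, g * x * g⁻¹ = y := by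
  obtain ⟨e⟩ := hT
  set c : (T : Subgroup G) := e.symm (DihedralGroup.r 1) with hc
  set Q := Subgroup.zpowers (c : G) with hQ
  have hQT : Q ≤ (T : Subgroup G) := Subgroup.zpowers_le.mpr c.2
  have hQi : Q.relIndex (T : Subgroup G) = 2 := by
    have h1 : Nat.card Q = 2 ^ n := by
      rw [hQ, Nat.card_zpowers, Subgroup.orderOf_coe, hc, MulEquiv.orderOf_eq,
        DihedralGroup.orderOf_r_one]
    have h2 := (Q.subgroupOf (T : Subgroup G)).card_mul_index
    rw [Nat.card_congr (Subgroup.subgroupOfEquivOfLe hQT).toEquiv, h1, Nat.card_congr e.toEquiv,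
      DihedralGroup.nat_card, mul_comm] at h2
    exact Nat.eq_of_mul_eq_mul_right (by positivity) h2
  have key : ∀ u : G, orderOf u = 2 → ∃ g : G, g * u * g⁻¹ ∈ Q := fun u hu => by
    obtain ⟨g, hg⟩ := CL.Tr.exists_conj_le_sylow T (Q := Subgroup.zpowers u)
      (IsPGroup.of_card (n := 1) (by simpa using hu))
    have h1 := hg u (Subgroup.mem_zpowers u)
    by_cases h2 : g * u * g⁻¹ ∈ Q
    · exact ⟨g, h2⟩
    have h3 : orderOf (g * u * g⁻¹) = 2 := by rw [← hu]; exact (MulAut.conj g).orderOf_eq u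
    rcases Cfsg.Agent.S0111.result T Q hQT hQi _ h3 h1 h2 with ⟨M, hM, hi, hn⟩ | ⟨k, hk⟩
    · exact absurd (CL.pResidual_le_of_index M (k := 1) (by simpa using hi)
        (hO ▸ Subgroup.mem_top _)) hn
    · exact ⟨k * g, by simpa [mul_assoc] using hk⟩
  obtain ⟨g, hg⟩ := key x hx
  obtain ⟨k, hk⟩ := key y hy
  have h1 : (⟨_, hg⟩ : Q) = ⟨_, hk⟩ := aux_cyclic
    (by rw [Subgroup.orderOf_mk, ← hx]; exact (MulAut.conj g).orderOf_eq x)
    (by rw [Subgroup.orderOf_mk, ← hy]; exact (MulAut.conj k).orderOf_eq y)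
  have h2 : g * x * g⁻¹ = k * y * k⁻¹ := congrArg Subtype.val h1
  refine ⟨k⁻¹ * g, ?_⟩
  calc k⁻¹ * g * x * (k⁻¹ * g)⁻¹ = k⁻¹ * (g * x * g⁻¹) * k := by group
    _ = y := by rw [h2]; group

end Cfsg.Agent.S0107
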