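import Cfsg.Statements.S0109
import Cfsg.Agent.PLOC.FF4

set_option autoImplicit false
open Cfsg

namespace Cfsg.Agent.S0109

/-- The Thompson factorization Theorem for solvable groups states that, with p odd (and abelian Sylow 2-subgroups when p = 3) and no nontrivial normal subgroup of order prime to p, every element of G is a product of an element normalizing J(P) and an element centralizing the elements of order dividing p in the centre of P. -/
theorem result {G : Type*} [Group G] [Finite G] {p : ℕ} [Fact p.Prime] (hp : p ≠ 2) (hs : Group.IsSolvable G) (h3 : p = 3 → ∀ T : Sylow 2 G, IsMulCommutative T) (hF : ∀ N : Subgroup G, N.Normal → Nat.Coprime (Nat.card N) p → N = ⊥) (P : Sylow p G) (g : G) : ∃ a ∈ Subgroup.normalizer (Cfsg.thompsonSubgroupOf p (P : Subgroup G) : Set G), ∃ c ∈ Subgroup.centralizer {x : G | x ∈ (P : Subgroup G) ∧ (∀ y ∈ (P : Subgroup G), x * y = y * x) ∧ x ^ p = 1}, g = a * c := by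
  have hO : pPrimeCore p G = ⊥ := CL.pPrimeCore_eq_bot_iff.2 hF
  have h := CL.Th.thompsonFactorizable_of_isPSolvable (CL.isPSolvable_of_isSolvable p G) hO hp h3
  obtain ⟨x, hx, c, hc, n, hn, hg⟩ := h P g⁻¹
  rw [hO, Subgroup.mem_bot] at hx
  refine ⟨n⁻¹, inv_mem hn, c⁻¹, inv_mem fun y hy => hc y ?_, ?_⟩
  · exact CL.Th.mem_omegaZ_iff.2 ⟨hy.1, fun z hz => (hy.2.1 z hz).symm, hy.2.2⟩
  · rw [← mul_inv_rev, ← one_mul c, ← hx, ← hg, inv_inv]

end Cfsg.Agent.S0109
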