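import Cfsg.Statements.S0110
import Cfsg.Agent.PLOC.ESForm
import Cfsg.Agent.PLOC.PRank

set_option autoImplicit false
open Cfsg

namespace Cfsg.Agent.S0110

open scoped commutatorElement

/-- In a p-group G, an extraspecial subgroup E with [G, E] ≤ Z(E) satisfies G = E C_G(E). -/
theorem result {G : Type*} [Group G] [Finite G] {p : ℕ} [Fact p.Prime] (hG : IsPGroup p G) (E : Subgroup G) (hE : Cfsg.IsExtraspecial p E) (h : ⁅(⊤ : Subgroup G), E⁆ ≤ E ⊓ Subgroup.centralizer (E : Set G)) : E ⊔ Subgroup.centralizer (E : Set G) = ⊤ := by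
  obtain ⟨z, d, c, -⟩ := CL.ES.exists_zdata hE
  have hm : ∀ g : G, ∀ x : E, ⁅g, (x : G)⁆ ∈ E ⊓ Subgroup.centralizer (E : Set G) := fun g x =>
    h (Subgroup.commutator_mem_commutator (Subgroup.mem_top g) x.2)
  have hz : ∀ g : G, ∀ x : E, (⟨⁅g, (x : G)⁆, (hm g x).1⟩ : E) ∈ Subgroup.zpowers z := by
    intro g x
    rw [← c, Subgroup.mem_center_iff]
    exact fun y => Subtype.ext ((hm g x).2 y y.2)
  have hn : (Subgroup.zpowers (z : G)).Normal := ⟨by
    rintro _ ⟨k, rfl⟩ g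
    obtain ⟨l, hl⟩ := hz g z
    have h1 : g * z * g⁻¹ = (z : G) ^ l * z := by
      rw [show (z : G) ^ l = ⁅g, (z : G)⁆ from congrArg Subtype.val hl, commutatorElement_def,
        inv_mul_cancel_right]
    rw [← conj_zpow, h1]
    exact Subgroup.zpow_mem _ (Subgroup.mul_mem _ (Subgroup.zpow_mem _ (Subgroup.mem_zpowers _) _)
      (Subgroup.mem_zpowers _)) _⟩
  have hzc : (z : G) ∈ Subgroup.center G := CL.PG.le_center_of_card_le hG (Subgroup.zpowers (z : G))
    (by rw [Nat.card_zpowers, Subgroup.orderOf_coe, d.order]) (Subgroup.mem_zpowers _)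
  rw [eq_top_iff]
  intro g _
  obtain ⟨e, he⟩ := d.exists_eq_commutator c (fun x => ⟨⁅g, (x : G)⁆, (hm g x).1⟩) (hz g)
    (fun x y => Subtype.ext (by
      have := (hm g y).2 x x.2
      change ⁅g, (x : G) * y⁆ = ⁅g, (x : G)⁆ * ⁅g, (y : G)⁆
      rw [← mul_inv_cancel_right ⁅g, (y : G)⁆ x, ← this]
      simp only [commutatorElement_def]
      group))
    (Subtype.ext (commutatorElement_eq_one_iff_mul_comm.mpr (Subgroup.mem_center_iff.mp hzc g)))
  rw [← mul_inv_cancel_left (e : G) g]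
  refine Subgroup.mul_mem_sup e.2 fun x hx => ?_
  have h1 : ⁅g, x⁆ = ⁅(e : G), x⁆ := congrArg Subtype.val (he ⟨x, hx⟩)
  simp only [commutatorElement_def, mul_left_inj] at h1
  calc x * ((e : G)⁻¹ * g) = (e : G)⁻¹ * (e * x * (e : G)⁻¹) * g := by group
    _ = (e : G)⁻¹ * g * x := by rw [← h1]; group

end Cfsg.Agent.S0110
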