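import Cfsg.Statements.S0115
import Cfsg.Agent.PLOC.DQS

set_option autoImplicit false
open Cfsg

namespace Cfsg.Agent.S0115

/-- A 2-group of order 2^n, n ≥ 3, is of maximal class exactly when its commutator quotient is a Klein four-group. -/
theorem result {X : Type*} [Group X] [Finite X] (n : ℕ) (hn : 3 ≤ n) (hX : Nat.card X = 2 ^ n) : Group.nilpotencyClass X = n - 1 ↔ IsKleinFour (X ⧸ commutator X) := by
  obtain ⟨m, rfl⟩ : ∃ m, n = m + 3 := ⟨n - 3, by omega⟩
  constructor
  · intro hc
    obtain ⟨a, b, h⟩ := CL.PCyc.exists_isDQS_of_nilpotencyClass hX hc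
    exact h.isKleinFour_quotient_commutator
  · intro hk
    obtain ⟨a, b, h⟩ := CL.PCyc.exists_isDQS_of_index_commutator hX hk.card_four.le
    exact h.nilpotencyClass_eq

end Cfsg.Agent.S0115
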