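import Cfsg.Statements.S0123
import Cfsg.Agent.PLOC.ClassTwo

set_option autoImplicit false
open Cfsg

namespace Cfsg.Agent.S0123

open scoped commutatorElement

/-- For a p-group of small class relative to p (class ≤ 2 with p odd, or class ≤ 3 with p > 3) whose derived subgroup is generated by elements of order dividing p, the p-th power map is multiplicative. -/
theorem result {R : Type*} [Group R] [Finite R] {p : ℕ} [Fact p.Prime] (hR : IsPGroup p R) (hcl : (p ≠ 2 ∧ ⁅commutator R, (⊤ : Subgroup R)⁆ = ⊥) ∨ (3 < p ∧ ⁅⁅commutator R, (⊤ : Subgroup R)⁆, (⊤ : Subgroup R)⁆ = ⊥)) (hder : commutator R ≤ Subgroup.closure {x : R | x ^ p = 1}) (x y : R) : (x * y) ^ p = x ^ p * y ^ p := by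
  have hmem : ∀ a b : R, ⁅a, b⁆ ∈ Subgroup.closure {x : R | x ^ p = 1} := fun a b =>
    hder (Subgroup.commutator_mem_commutator (Subgroup.mem_top a) (Subgroup.mem_top b))
  rcases hcl with ⟨hp, h2⟩ | ⟨hp, h3⟩
  · have hodd := (Fact.out : p.Prime).odd_of_ne_two hp
    exact CL.PG.mul_pow_of_odd (CL.PG.commute_commutator_of_class_two h2 _ _ _)
      (CL.PG.commute_commutator_of_class_two h2 _ _ _) hodd
      (CL.PG.pow_eq_one_of_mem_closure_of_class_two h2 hodd (hmem _ _))
  · have key : ∀ a b : R, ⁅a, b⁆ ^ p = 1 := fun a b =>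
      CL.PG.pow_eq_one_of_mem_closure_of_class_three h3 Fact.out hp (hmem a b)
    exact CL.PG.mul_pow_prime_of_class_three (CL.PG.commute_commutator_of_class_three h3 _ _ _ _)
      (CL.PG.commute_commutator_of_class_three h3 _ _ _ _)
      (CL.PG.commute_commutator_of_class_three h3 _ _ _ _)
      (CL.PG.commute_commutator_of_class_three h3 _ _ _ _) Fact.out hp (key _ _) (key _ _)
      (key _ _)

end Cfsg.Agent.S0123
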