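import Cfsg.Statements.S0125
import Mathlib
import Cfsg.Agent.PLOC.Fusion

set_option autoImplicit false
open Cfsg

namespace Cfsg.Agent.S0125

/-- The centralizer of a self-centralizing normal subgroup A of a Sylow p-subgroup is the direct product of A with a normal p'-subgroup. -/
theorem result {G : Type*} [Group G] [Finite G] {p : ℕ} [Fact p.Prime] (R : Sylow p G) (A : Subgroup G) (hAR : A ≤ (R : Subgroup G)) (hAn : (R : Subgroup G) ≤ Subgroup.normalizer (A : Set G)) (hC : (R : Subgroup G) ⊓ Subgroup.centralizer (A : Set G) = A) : ∃ H : Subgroup G, H ≤ Subgroup.centralizer (A : Set G) ∧ Nat.Coprime (Nat.card H) p ∧ Subgroup.centralizer (A : Set G) ≤ Subgroup.normalizer (H : Set G) ∧ H ⊓ A = ⊥ ∧ H ⊔ A = Subgroup.centralizer (A : Set G) := by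
  set C := Subgroup.centralizer (A : Set G) with hCdef
  have hAC : A ≤ C := hC.ge.trans inf_le_right
  have h1 : ¬ p ∣ ((R : Subgroup G) ⊓ C).relIndex C :=
    CL.Tr.not_dvd_relIndex_inf_of_normal R.isPGroup' (CL.Tr.not_dvd_relIndex_sylow R hAn)
      (Subgroup.centralizer_le_normalizer _) (CL.Tr.normalizer_le_normalizer_centralizer' _)
  rw [hC] at h1
  have hAp : IsPGroup p A := R.isPGroup'.to_le hAR
  let Q : Sylow p C := (hAp.comap_subtype (K := C)).toSylow h1
  have hQ : Subgroup.normalizer (Q : Set C) ≤ Subgroup.centralizer (Q : Set C) :=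
    fun x _ a ha => Subtype.ext (x.2 a ha)
  have hc := MonoidHom.ker_transferSylow_isComplement' Q hQ
  set K := (MonoidHom.transferSylow Q hQ).ker with hK
  refine ⟨K.map C.subtype, Subgroup.map_subtype_le _, ?_, ?_, ?_, ?_⟩
  · rw [Subgroup.card_map_of_injective C.subtype_injective]
    exact ((Fact.out : p.Prime).coprime_iff_not_dvd.mpr
      (MonoidHom.not_dvd_card_ker_transferSylow Q hQ)).symm
  · rw [Subgroup.le_normalizer_iff]
    rintro c hc _ ⟨k, hk, rfl⟩
    exact ⟨_, Subgroup.Normal.conj_mem inferInstance k hk ⟨c, hc⟩, rfl⟩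
  · rw [eq_bot_iff]
    rintro _ ⟨⟨k, hk, rfl⟩, hk2⟩
    have : k ∈ (⊥ : Subgroup C) := by
      rw [← disjoint_iff.mp hc.disjoint]; exact ⟨hk, hk2⟩
    rw [Subgroup.mem_bot] at this
    simp [this]
  · have := congrArg (Subgroup.map C.subtype) hc.sup_eq_top
    rw [Subgroup.map_sup, ← MonoidHom.range_eq_map, Subgroup.range_subtype] at this
    refine Eq.trans ?_ this
    congr 1
    exact (Subgroup.map_subgroupOf_eq_of_le hAC).symm

end Cfsg.Agent.S0125
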