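import Cfsg.Statements.S0129
import Cfsg.Agent.PLOC.QuadAct
import Cfsg.Agent.S0015

set_option autoImplicit false
open Cfsg

namespace Cfsg.Agent.S0129

open scoped commutatorElement

theorem index_centralizer_le {G : Type*} [Group G] [Finite G] (M : Subgroup G) (x : G)
    (h : ∀ g : G, ⁅x, g⁆ ∈ M) :
    (Subgroup.centralizer (Subgroup.zpowers x : Set G)).index ≤ Nat.card M := by
  refine Nat.card_le_card_of_injective
    (fun q : G ⧸ Subgroup.centralizer (Subgroup.zpowers x : Set G) => (⟨⁅x, q.out⁆, h _⟩ : M)) ?_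
  intro q₁ q₂ he
  have h1 : ⁅x, q₁.out⁆ = ⁅x, q₂.out⁆ := congrArg Subtype.val he
  rw [← QuotientGroup.out_eq' q₁, ← QuotientGroup.out_eq' q₂, QuotientGroup.eq,
    CL.Th.mem_centralizer_zpowers, ← inv_eq_one, commutatorElement_inv]
  have : ⁅x, q₁.out⁻¹ * q₂.out⁆ = q₁.out⁻¹ * (⁅x, q₁.out⁆⁻¹ * ⁅x, q₂.out⁆) * q₁.out := by
    simp [commutatorElement_def, mul_assoc]
  rw [this, h1, inv_mul_cancel]; simp

theorem exists_normal_index_le {G : Type*} [Group G] [Finite G] {p : ℕ} [hp : Fact p.Prime]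
    (hG : IsPGroup p G) (A : Subgroup G) [A.Normal] (k : ℕ) (hk : p ^ k ≤ Nat.card A) :
    ∃ M : Subgroup G, M.Normal ∧ M ≤ A ∧ Nat.card M = p ^ k ∧
      (Subgroup.centralizer (M : Set G)).index ≤ p ^ (k.choose 2) := by
  induction k with
  | zero => exact ⟨⊥, inferInstance, bot_le, by simp, by rw [CL.Th.centralizer_bot]; simp⟩
  | succ k ih =>
    have hlt : p ^ k < p ^ (k + 1) := Nat.pow_lt_pow_right hp.out.one_lt (Nat.lt_succ_self k)
    obtain ⟨M, hM, hMA, hMc, hMi⟩ := ih (hlt.le.trans hk)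
    have hne : M < A := lt_of_le_of_ne hMA (by rintro rfl; omega)
    obtain ⟨K, hK, hMK, hKA, hKc, hKM⟩ := CL.PN.exists_normal_between hG M A hne
    have hKc' : Nat.card K = p ^ (k + 1) := by rw [hKc, hMc, pow_succ']
    refine ⟨K, hK, hKA, hKc', ?_⟩
    have hMK' : ¬ K ≤ M := fun h => by have := Subgroup.card_le_of_le h; omega
    obtain ⟨x, hxK, hxM⟩ := SetLike.not_le_iff_exists.1 hMK'
    have hsup : M ⊔ Subgroup.zpowers x = K := by
      have h1 : M ⊔ Subgroup.zpowers x ≤ K := sup_le hMK (Subgroup.zpowers_le.2 hxK)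
      have h2 := Subgroup.relIndex_mul_relIndex M (M ⊔ Subgroup.zpowers x) K le_sup_left h1
      have h3 : M.relIndex K = p := by
        have := CL.card_mul_relIndex_of_le hMK
        rw [hKc, mul_comm p] at this
        exact Nat.eq_of_mul_eq_mul_left Nat.card_pos this
      rw [h3] at h2
      rcases (Nat.dvd_prime hp.out).1 (Dvd.intro _ h2) with h4 | h4
      · exact absurd (Subgroup.relIndex_eq_one.1 h4
          (Subgroup.mem_sup_right (Subgroup.mem_zpowers x))) hxM
      · rw [h4] at h2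
        exact le_antisymm h1 (Subgroup.relIndex_eq_one.1
          (Nat.eq_of_mul_eq_mul_left hp.out.pos (h2.trans (mul_one p).symm)))
    rw [← hsup, CL.Th.centralizer_sup]
    refine Subgroup.index_inf_le.trans ?_
    rw [Nat.choose_succ_succ, Nat.choose_one_right, pow_add, mul_comm (p ^ k), ← hMc]
    exact Nat.mul_le_mul hMi (index_centralizer_le M x fun g =>
      hKM (Subgroup.commutator_mem_commutator hxK (Subgroup.mem_top g)))

/-- The order of a p-group is bounded by p^(a(a+1)/2) when it has a maximal normal abelian subgroup of order p^a. -/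
theorem result {G : Type*} [Group G] [Finite G] {p : ℕ} [Fact p.Prime] (hG : IsPGroup p G) (A : Subgroup G) [A.Normal] (hA : IsMulCommutative A) (hmax : ∀ B : Subgroup G, B.Normal → IsMulCommutative B → A ≤ B → B = A) (a : ℕ) (ha : Nat.card A = p ^ a) : Nat.card G ≤ p ^ (a * (a + 1) / 2) := by
  obtain ⟨M, -, hMA, hMc, hMi⟩ := exists_normal_index_le hG A a ha.ge
  have hM : M = A := Subgroup.eq_of_le_of_card_ge hMA (by rw [ha, hMc])
  have := hG.isNilpotent
  rw [hM, Cfsg.Agent.S0015.result A hmax] at hMi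
  rw [← A.card_mul_index, ha, show a * (a + 1) / 2 = a + a.choose 2 by
    rw [Nat.choose_two_right, add_comm a (_ / 2), ← Nat.triangle_succ, mul_comm]; rfl, pow_add]
  exact Nat.mul_le_mul_left _ hMi

end Cfsg.Agent.S0129
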