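import Mathlib.GroupTheory.Focal
import Cfsg.Statements.S0131

set_option autoImplicit false
open Cfsg

namespace Cfsg.Agent.S0131

/-- P/P' has a normal complement in G exactly when the focal subgroup G' ∩ P is as small as possible, namely P'. -/
theorem result {G : Type*} [Group G] [Finite G] {p : ℕ} [Fact p.Prime] (P : Sylow p G) : (∃ N : Subgroup G, N.Normal ∧ N ⊓ (P : Subgroup G) = ⁅(P : Subgroup G), (P : Subgroup G)⁆ ∧ N ⊔ (P : Subgroup G) = ⊤) ↔ commutator G ⊓ (P : Subgroup G) = ⁅(P : Subgroup G), (P : Subgroup G)⁆ := by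
  constructor
  · rintro ⟨N, hN, h1, h2⟩
    refine le_antisymm ?_ (le_inf (Subgroup.commutator_mono le_top le_top)
      (Subgroup.commutator_le_self _))
    rw [← h1]
    refine inf_le_inf_right _ ?_
    have h3 : (P : Subgroup G).map (QuotientGroup.mk' N) = ⊤ := by
      have := congrArg (Subgroup.map (QuotientGroup.mk' N)) h2
      rwa [Subgroup.map_sup, (Subgroup.map_eq_bot_iff _).2 (QuotientGroup.ker_mk' N).ge,
        bot_sup_eq, Subgroup.map_top_of_surjective _ (QuotientGroup.mk'_surjective N)] at this
    rw [← QuotientGroup.ker_mk' N, ← Subgroup.map_eq_bot_iff, commutator_def,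
      Subgroup.map_commutator, Subgroup.map_top_of_surjective _ (QuotientGroup.mk'_surjective N),
      ← h3, ← Subgroup.map_commutator, Subgroup.map_eq_bot_iff, QuotientGroup.ker_mk', ← h1]
    exact inf_le_left
  · intro h
    refine ⟨(P : Subgroup G).transferFocal.ker, inferInstance, ?_, ?_⟩
    · rw [Subgroup.ker_transferFocal_inf_eq_focalSubgroup,
        ← Subgroup.commutator_inf_eq_focalSubgroup, h]
    · rw [eq_top_iff]
      intro g _
      obtain ⟨x, hx⟩ := Subgroup.focalSubgroupOf.pow_index_surjective P
        ((P : Subgroup G).transferFocal g)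
      obtain ⟨x, rfl⟩ := QuotientGroup.mk'_surjective _ x
      have h2 : (P : Subgroup G).transferFocal x = (P : Subgroup G).transferFocal g :=
        ((P : Subgroup G).transferFocal_eq_pow x).trans hx
      have h3 : g * (x : G)⁻¹ ∈ (P : Subgroup G).transferFocal.ker := by
        rw [MonoidHom.mem_ker, map_mul, map_inv, h2, mul_inv_cancel]
      simpa using Subgroup.mul_mem_sup h3 x.2

end Cfsg.Agent.S0131
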