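import Cfsg.Statements.S0155
import Mathlib

set_option autoImplicit false
open Cfsg

namespace Cfsg.Agent.S0155

/-- The character of the left regular representation of a finite group takes the value |G| at the identity and 0 at every other element. -/
theorem result {G : Type*} [Group G] [Fintype G] [DecidableEq G] (g : G) : (Representation.leftRegular ℂ G).character g = if g = 1 then (Nat.card G : ℂ) else 0 := by
  classical
  let b := MonoidAlgebra.basis G ℂ
  unfold Representation.character
  rw [LinearMap.trace_eq_matrix_trace ℂ b, Matrix.trace]
  simp only [Matrix.diag_apply, LinearMap.toMatrix_apply]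
  have h : ∀ x : G, (b.repr ((Representation.leftRegular ℂ G) g (b x))) x = if g = 1 then 1 else 0 := by
    intro x
    simp [b, MonoidAlgebra.basis, Finsupp.single_apply]
  simp only [h]
  split_ifs <;> simp

end Cfsg.Agent.S0155
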