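import Cfsg.Statements.S0166
import Cfsg.Agent.CHAR.Realizable

set_option autoImplicit false
open Cfsg

namespace Cfsg.Agent.S0166

/-- Brauer's splitting field Theorem: a complex representation of a finite group of exponent m is equivalent to a representation by matrices with entries in ℚ adjoined exp(2πi/m). -/
theorem result {G : Type*} [Group G] [Finite G] (n : ℕ) (ρ : Representation ℂ G (Fin n → ℂ)) : ∃ σ : Representation ℂ G (Fin n → ℂ), Nonempty (ρ.Equiv σ) ∧ ∀ g : G, ∀ i j : Fin n, LinearMap.toMatrix' (σ g) i j ∈ Algebra.adjoin ℚ ({Complex.exp (2 * Real.pi * Complex.I / (Monoid.exponent G : ℂ))} : Set ℂ) := by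
  set ζ : ℂ := Complex.exp (2 * Real.pi * Complex.I / (Monoid.exponent G : ℂ)) with hζ
  have hm : Monoid.exponent G ≠ 0 := Monoid.exponent_ne_zero_of_finite
  have hprim : IsPrimitiveRoot ζ (Monoid.exponent G) := Complex.isPrimitiveRoot_exp _ hm
  have : NeZero (Monoid.exponent G) := ⟨hm⟩
  let F := IntermediateField.adjoin ℚ ({ζ} : Set ℂ)
  have hF : ∀ z : ℂ, z ^ Monoid.exponent G = 1 → z ∈ (algebraMap F ℂ).range := by
    intro z hz
    obtain ⟨i, -, rfl⟩ := hprim.eq_pow_of_pow_eq_one hz
    exact ⟨⟨ζ ^ i, pow_mem (IntermediateField.mem_adjoin_simple_self ℚ ζ) i⟩, rfl⟩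
  obtain ⟨m, τ, hτ⟩ := CL.Char.isFChar_of_roots hF (CL.Char.isCharacter_character ρ)
  have hmn : m = n := by
    have := congrFun hτ 1
    simpa using this
  subst hmn
  refine ⟨CL.Char.complexify τ, CL.Char.nonempty_equiv_of_character_eq _ _ ?_, fun g i j => ?_⟩
  · rw [← hτ]; funext g; rw [CL.Char.character_complexify]
  · rw [CL.Char.toMatrix'_complexify, Matrix.map_apply,
      ← IntermediateField.adjoin_simple_toSubalgebra_of_isAlgebraic
        ((hprim.isIntegral (Nat.pos_of_ne_zero hm)).tower_top (A := ℚ)).isAlgebraic]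
    exact (LinearMap.toMatrix' (τ g) i j).2

end Cfsg.Agent.S0166
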