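import Cfsg.Statements.S0168
import Cfsg.Agent.CHAR.Orth
import Cfsg.Agent.CHAR.Eigen

set_option autoImplicit false
open Cfsg

namespace Cfsg.Agent.S0168

/-- The Burnside–Brauer Theorem. Let χ be the character of a faithful complex representation of a finite group, taking m distinct values. Then every irreducible character has nonzero inner product with χ ^ i for some i < m. -/
theorem result {G : Type*} [Group G] [Fintype G] {V : Type*} [AddCommGroup V] [Module ℂ V] [FiniteDimensional ℂ V] (ρ : Representation ℂ G V) (hfaithful : Function.Injective ρ) (ψ : G → ℂ) (hψ : Cfsg.IsIrrCharacter G ψ) : ∃ i : ℕ, i < Nat.card (Set.range ρ.character) ∧ Cfsg.classInner (fun g => ρ.character g ^ i) ψ ≠ 0 := by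
  classical
  by_contra hc
  push Not at hc
  set χ := ρ.character with hχ
  let V₀ : Finset ℂ := Finset.univ.image χ
  have hcard : Nat.card (Set.range χ) = V₀.card := by
    have : Set.range χ = (V₀ : Set ℂ) := by simp [V₀]
    rw [this]; simp
  -- every polynomial of small degree in `χ` is orthogonal to `ψ`
  have key : ∀ P : Polynomial ℂ, P.natDegree < V₀.card →
      ∑ g, P.eval (χ g) * (starRingEnd ℂ) (ψ g) = 0 := by
    intro P hP
    simp only [Polynomial.eval_eq_sum_range' hP, Finset.sum_mul]
    rw [Finset.sum_comm]
    refine Finset.sum_eq_zero fun i hi => ?_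
    have h1 := CL.Char.card_mul_classInner (fun g => χ g ^ i) ψ
    rw [hc i (by rw [hcard]; exact Finset.mem_range.1 hi), mul_zero] at h1
    simp only [mul_assoc, ← Finset.mul_sum, ← h1, mul_zero]
  have h1mem : χ 1 ∈ V₀ := Finset.mem_image_of_mem _ (Finset.mem_univ 1)
  have h2 := key (∏ v ∈ V₀.erase (χ 1), (Polynomial.X - Polynomial.C v)) (by
    rw [Polynomial.natDegree_prod_of_monic _ _ (fun v _ => Polynomial.monic_X_sub_C v)]
    simp only [Polynomial.natDegree_X_sub_C, Finset.sum_const, smul_eq_mul, mul_one]
    exact Finset.card_erase_lt_of_mem h1mem)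
  rw [Finset.sum_eq_single 1] at h2
  · rcases mul_eq_zero.1 h2 with h | h
    · simp only [Polynomial.eval_prod, Polynomial.eval_sub, Polynomial.eval_X, Polynomial.eval_C,
        Finset.prod_eq_zero_iff, sub_eq_zero] at h
      obtain ⟨v, hv, e⟩ := h
      exact (Finset.mem_erase.1 hv).1 e.symm
    · exact hψ.one_ne_zero (by simpa using h)
  · intro g _ hg
    have hne : χ g ≠ χ 1 := by
      intro e
      rw [hχ, Representation.char_one, CL.Char.character_eq_finrank_iff] at e
      exact hg (hfaithful (by rw [e, map_one]; rfl))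
    rw [Polynomial.eval_prod, Finset.prod_eq_zero (Finset.mem_erase.2
      ⟨hne, Finset.mem_image_of_mem _ (Finset.mem_univ g)⟩) (by simp), zero_mul]
  · intro h; exact absurd (Finset.mem_univ _) h

end Cfsg.Agent.S0168
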