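import Cfsg.Statements.S0173
import Cfsg.Agent.CHAR.BrauerPerm

set_option autoImplicit false
open Cfsg

namespace Cfsg.Agent.S0173

/-- Brauer's permutation lemma for a single automorphism: the number of conjugacy classes mapped to themselves equals the number of irreducible complex characters χ with χ ∘ α = χ. -/
theorem result {G : Type*} [Group G] [Finite G] (α : G ≃* G) : Nat.card {C : ConjClasses G // ConjClasses.map α.toMonoidHom C = C} = Nat.card {χ : Cfsg.IrrCharacter G // (χ : G → ℂ) ∘ α = (χ : G → ℂ)} := by
  have h := CL.Char.brauer_perm_aut α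
  refine (Nat.card_congr (Equiv.subtypeEquivRight fun C => ?_)).trans
    (h.symm.trans (Nat.card_congr (Equiv.subtypeEquivRight fun χ => ?_)))
  · obtain ⟨g, rfl⟩ := C.exists_rep
    constructor
    · intro h x hx
      rw [← hx] at h
      exact ConjClasses.mk_eq_mk_iff_isConj.1 h
    · intro h
      exact ConjClasses.mk_eq_mk_iff_isConj.2 (h g rfl)
  · exact funext_iff.symm

end Cfsg.Agent.S0173
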