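import Cfsg.Statements.S0177
import Cfsg.Agent.CHAR.BrauerLin

set_option autoImplicit false
open Cfsg

namespace Cfsg.Agent.S0177

open CL.Char in
open scoped Classical in
/-- `|H|` on generators of `H`, `0` elsewhere. -/
noncomputable def genFun (H : Type*) [Group H] : H → ℂ :=
  fun g => if Subgroup.zpowers g = ⊤ then (Nat.card H : ℂ) else 0

theorem zpowers_mk_eq_top {G : Type*} [Group G] {B : Subgroup G} {y : G} (hy : y ∈ B) :
    Subgroup.zpowers (⟨y, hy⟩ : B) = ⊤ ↔ Subgroup.zpowers y = B := by
  rw [← (Subgroup.map_injective B.subtype_injective).eq_iff, MonoidHom.map_zpowers,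
    ← MonoidHom.range_eq_map, Subgroup.range_subtype]
  rfl

open CL.Char in
theorem sum_indFun_genFun (G : Type*) [Group G] [Fintype G] :
    ∑ B : Subgroup G, indFun B (genFun B) = fun _ => (Nat.card G : ℂ) := by
  classical
  funext g
  rw [Finset.sum_apply]
  have h1 : ∀ B : Subgroup G, indFun B (genFun B) g =
      ∑ x : G, if Subgroup.zpowers (x⁻¹ * g * x) = B then (1 : ℂ) else 0 := by
    intro B
    rw [indFun_apply, Finset.mul_sum]
    refine Finset.sum_congr rfl fun x _ => ?_
    by_cases hx : x⁻¹ * g * x ∈ B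
    · rw [extendByZero_of_mem _ _ hx, genFun]
      simp only [zpowers_mk_eq_top]
      split_ifs
      · exact inv_mul_cancel₀ (card_ne_zero B)
      · simp
    · rw [extendByZero_of_not_mem _ _ hx, if_neg, mul_zero]
      rintro rfl
      exact hx (Subgroup.mem_zpowers _)
  simp_rw [h1]
  rw [Finset.sum_comm]
  simp

open CL.Char in
theorem genFun_isClassFunction (G : Type*) [Group G] : IsClassFunction G (genFun G) := by
  intro g h
  have key : ∀ g h : G, Subgroup.zpowers g = ⊤ → Subgroup.zpowers (h * g * h⁻¹) = ⊤ := by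
    intro g h hg
    have : IsCyclic G := isCyclic_iff_exists_zpowers_eq_top.mpr ⟨g, hg⟩
    rwa [mul_comm' h g, mul_inv_cancel_right]
  have : Subgroup.zpowers (h * g * h⁻¹) = ⊤ ↔ Subgroup.zpowers g = ⊤ :=
    ⟨fun h1 => by simpa [mul_assoc] using key _ h⁻¹ h1, key g h⟩
  unfold genFun
  rw [this]

universe u in
open CL.Char in
theorem isGen_genFun (G : Type u) [Group G] [Finite G] : IsGeneralizedCharacter G (genFun G) := by
  refine CL.card_induction (P := fun G _ _ => IsGeneralizedCharacter G (genFun G))
    (fun G _ _ ih => ?_) G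
  classical
  have := Fintype.ofFinite G
  have h := sum_indFun_genFun G
  rw [← Finset.add_sum_erase _ _ (Finset.mem_univ ⊤)] at h
  have h1 : indFun ⊤ (genFun (⊤ : Subgroup G)) = genFun G := by
    funext g
    rw [indFun_top (genFun_isClassFunction _), genFun, genFun]
    simp only [zpowers_mk_eq_top, Subgroup.card_top]
  rw [h1, ← eq_sub_iff_add_eq] at h
  rw [h]
  refine (isCharacter_natCast _).isGen.sub (isGen_sum _ _ fun B hB => (ih B ?_).ind)
  exact lt_of_le_of_ne (Subgroup.card_le_card_group B)
    (fun h => (Finset.mem_erase.mp hB).1 (Subgroup.eq_top_of_card_eq B h))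

/-- The Artin induction Theorem: for a character χ of a finite group, |G| • χ is a ℤ-linear combination of functions induced from homomorphisms of cyclic subgroups into ℂˣ. -/
theorem result {G : Type*} [Group G] [Fintype G] (χ : G → ℂ) (hχ : Cfsg.IsCharacter G χ) : ∃ l : List ((A : Subgroup G) × ((A →* ℂˣ) × ℤ)), (∀ t ∈ l, IsCyclic t.1) ∧ (Nat.card G : ℂ) • χ = (l.map fun t => (t.2.2 : ℂ) • Cfsg.indFun t.1 (fun a => (t.2.1 a : ℂ))).sum := by
  classical
  open CL.Char in
  have h1 : (fun _ => (Nat.card G : ℂ)) ∈ indSpan fun A : Subgroup G => IsCyclic A := by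
    rw [← sum_indFun_genFun]
    refine Submodule.sum_mem _ fun B _ => ?_
    by_cases hB : IsCyclic B
    · exact indFun_mem_indSpan hB (isGen_genFun B)
    · have : genFun B = 0 := by
        funext g
        rw [genFun, if_neg (fun h => hB (isCyclic_iff_exists_zpowers_eq_top.mpr ⟨g, h⟩))]
        rfl
      rw [this, indFun_zero]
      exact Submodule.zero_mem _
  have h2 := CL.Char.mul_mem_indSpan h1 hχ.isClassFunction (fun E _ => (hχ.res E).isGen)
  have h3 := CL.Char.indSpan_le_linSpan (P := fun A : Subgroup G => IsCyclic A)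
    (fun E hE => by let _ := IsCyclic.commGroup (α := E); exact CommGroup.isNilpotent)
    (fun E U hE hU => Subgroup.isCyclic_of_le hU) h2
  exact CL.Char.exists_list_of_mem_linSpan h3

end Cfsg.Agent.S0177
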