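import Cfsg.Statements.S0178
import Mathlib.Analysis.Complex.Polynomial.Basic

set_option autoImplicit false
open Cfsg

namespace Cfsg.Agent.S0178

theorem exists_irreducible_sub {G : Type*} [Group G] {V : Type*} [AddCommGroup V] [Module ℂ V]
    [FiniteDimensional ℂ V] [Nontrivial V] (ρ : Representation ℂ G V) :
    ∃ W : Subrepresentation ρ, W.toSubmodule ≠ ⊥ ∧ W.toRepresentation.IsIrreducible := by
  classical
  have hex : ∃ n, ∃ W : Subrepresentation ρ, W.toSubmodule ≠ ⊥ ∧ Module.finrank ℂ W.toSubmodule = n :=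
    ⟨_, ⊤, (top_ne_bot : (⊤ : Submodule ℂ V) ≠ ⊥), rfl⟩
  obtain ⟨W, hW, hn⟩ := Nat.find_spec hex
  refine ⟨W, hW, { exists_pair_ne := ⟨⊥, ⊤, ?_⟩, eq_bot_or_eq_top := ?_ }⟩
  · intro h
    have h' : (⊥ : Submodule ℂ W.toSubmodule) = ⊤ := congrArg Subrepresentation.toSubmodule h
    have : Nontrivial W.toSubmodule := Submodule.nontrivial_iff_ne_bot.mpr hW
    exact bot_ne_top h'
  · intro T
    by_cases hT : T.toSubmodule = ⊥
    · exact Or.inl (Subrepresentation.toSubmodule_injective hT)
    · right
      let T' : Subrepresentation ρ := ⟨T.toSubmodule.map W.toSubmodule.subtype, by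
        rintro g _ ⟨v, hv, rfl⟩
        exact ⟨_, T.apply_mem_toSubmodule g hv, rfl⟩⟩
      have hT' : T'.toSubmodule ≠ ⊥ := by
        intro h
        apply hT
        apply Submodule.map_injective_of_injective W.toSubmodule.subtype_injective
        rw [Submodule.map_bot]; exact h
      have hmin := Nat.find_min' hex ⟨T', hT', rfl⟩
      have heq : Module.finrank ℂ T'.toSubmodule = Module.finrank ℂ T.toSubmodule :=
        Submodule.finrank_map_subtype_eq _ _
      apply Subrepresentation.toSubmodule_injective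
      apply Submodule.eq_top_of_finrank_eq
      exact le_antisymm (Submodule.finrank_le _) (by omega)


/-- The degree of an irreducible complex representation of a finite group is at most the index of any abelian subgroup. -/
theorem result {G : Type*} [Group G] [Finite G] {V : Type*} [AddCommGroup V] [Module ℂ V] [FiniteDimensional ℂ V] (ρ : Representation ℂ G V) [ρ.IsIrreducible] (A : Subgroup G) (hA : ∀ a ∈ A, ∀ b ∈ A, a * b = b * a) : Module.finrank ℂ V ≤ A.index := by
  classical
  have hirr : ρ.IsIrreducible := inferInstance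
  have : Nontrivial V := by
    obtain ⟨a, b, hab⟩ := hirr.exists_pair_ne
    have : Nontrivial (Submodule ℂ V) :=
      ⟨a.toSubmodule, b.toSubmodule, fun h => hab (Subrepresentation.toSubmodule_injective h)⟩
    exact (Submodule.nontrivial_iff ℂ).mp this
  obtain ⟨W, hW, hWirr⟩ := exists_irreducible_sub (ρ.comp A.subtype)
  have : IsMulCommutative A := ⟨⟨fun a b => Subtype.ext (hA a a.2 b b.2)⟩⟩
  have h1 := Representation.IsIrreducible.finrank_eq_one_of_isMulCommutative W.toRepresentation
  obtain ⟨v, hv0, hv⟩ := finrank_eq_one_iff'.mp h1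
  have : Fintype (G ⧸ A) := Fintype.ofFinite _
  let U : Subrepresentation ρ := ⟨Submodule.span ℂ (Set.range fun q : G ⧸ A => ρ q.out v), by
    intro g u hu
    induction hu using Submodule.span_induction with
    | mem x hx =>
      obtain ⟨q, rfl⟩ := hx
      obtain ⟨a, ha⟩ := QuotientGroup.mk_out_eq_mul A (g * q.out)
      obtain ⟨c, hc⟩ := hv ⟨ρ (a⁻¹ : A) v, W.apply_mem_toSubmodule a⁻¹ v.2⟩
      have hc' : c • (v : V) = ρ (a⁻¹ : A) v := congrArg Subtype.val hc
      have : ρ g (ρ q.out v) = c • ρ (QuotientGroup.mk (g * q.out) : G ⧸ A).out v := by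
        rw [← map_smul, hc', ha, ← Module.End.mul_apply, ← Module.End.mul_apply, ← map_mul, ← map_mul]
        simp
      rw [this]
      exact Submodule.smul_mem _ _ (Submodule.subset_span ⟨_, rfl⟩)
    | zero => simp
    | add x y _ _ hx hy => rw [map_add]; exact Submodule.add_mem _ hx hy
    | smul c x _ hx => rw [map_smul]; exact Submodule.smul_mem _ _ hx⟩
  rcases hirr.eq_bot_or_eq_top U with hU | hU
  · exfalso
    have hU' : U.toSubmodule = ⊥ := congrArg Subrepresentation.toSubmodule hU
    have hm : ρ (QuotientGroup.mk (1 : G) : G ⧸ A).out v ∈ U.toSubmodule :=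
      Submodule.subset_span ⟨_, rfl⟩
    rw [hU', Submodule.mem_bot] at hm
    apply hv0
    apply Subtype.ext
    have := congrArg (ρ (QuotientGroup.mk (1 : G) : G ⧸ A).out⁻¹) hm
    simpa using this
  · have hU' : U.toSubmodule = ⊤ := congrArg Subrepresentation.toSubmodule hU
    have h2 := finrank_range_le_card (R := ℂ) (fun q : G ⧸ A => ρ q.out v)
    rw [Subgroup.index_eq_card, Nat.card_eq_fintype_card, ← finrank_top ℂ V, ← hU']
    exact h2

end Cfsg.Agent.S0178
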