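import Cfsg.Statements.S0180
import Cfsg.Agent.CHAR.Galois
-- import your own Cfsg.Agent.* helpers here

set_option autoImplicit false
open Cfsg

namespace Cfsg.Agent.S0180

/-- Every irreducible complex character of a finite group takes only rational values if and only if g is conjugate to g ^ m for every element g and every m coprime to the group order. -/
theorem result {G : Type*} [Group G] [Finite G] : (∀ χ : Cfsg.IrrCharacter G, ∀ g : G, ∃ q : ℚ, (χ : G → ℂ) g = (q : ℂ)) ↔ ∀ m : ℕ, m.Coprime (Nat.card G) → ∀ g : G, IsConj g (g ^ m) := by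
  constructor
  · intro H m hm g
    exact (CL.Char.forall_irr_rat_iff g).mp (fun χ hχ => H ⟨χ, hχ⟩ g) m hm
  · intro H χ g
    exact (CL.Char.forall_irr_rat_iff g).mpr (fun k hk => H k hk g) χ χ.2

end Cfsg.Agent.S0180
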