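import Cfsg.Statements.S0186
import Cfsg.Agent.CHAR.Faithful
-- import your own Cfsg.Agent.* helpers here

set_option autoImplicit false
open Cfsg

namespace Cfsg.Agent.S0186

/-- Let G be a finite simple group of order n and p a prime dividing n. If G has more than n / p^2 conjugacy classes, then every Sylow p-subgroup of G is abelian. -/
theorem result {G : Type*} [Group G] [Finite G] [IsSimpleGroup G] (p : ℕ) [Fact p.Prime] (hp : p ∣ Nat.card G) (hmany : Nat.card G < p ^ 2 * Nat.card (ConjClasses G)) (P : Sylow p G) (a b : G) (ha : a ∈ P) (hb : b ∈ P) : a * b = b * a := by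
  classical
  have hp' : p.Prime := Fact.out
  by_cases h2 : p ^ 2 ∣ Nat.card G
  · by_cases hex : ∃ χ, IsIrrCharacter G χ ∧ χ ≠ (fun _ => 1) ∧ charDegree χ < p
    · obtain ⟨χ, hχ, h1, hlt⟩ := hex
      exact hχ.isCharacter.mul_comm_of_isPGroup_of_lt (hχ.charKer_eq_bot_of_simple h1) hlt
        P.isPGroup' ha hb
    · exfalso
      push Not at hex
      have hs := CL.Char.sum_degree_sq (G := G)
      have hs' : ∑ χ : IrrCharacter G, charDegree (χ : G → ℂ) ^ 2 = Nat.card G := by
        have : ((∑ χ : IrrCharacter G, charDegree (χ : G → ℂ) ^ 2 : ℕ) : ℂ) = Nat.card G := by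
          rw [← hs]; push_cast
          exact Finset.sum_congr rfl fun χ _ => by rw [χ.2.apply_one_eq_charDegree]
        exact_mod_cast this
      rw [← Finset.add_sum_erase _ _ (Finset.mem_univ (CL.Char.irrOne G)), CL.Char.irrOne_coe,
        CL.Char.charDegree_const_one] at hs'
      have hle : (Finset.univ.erase (CL.Char.irrOne G)).card • p ^ 2 ≤
          ∑ χ ∈ Finset.univ.erase (CL.Char.irrOne G), charDegree (χ : G → ℂ) ^ 2 :=
        Finset.card_nsmul_le_sum _ _ _ fun χ hχ => Nat.pow_le_pow_left
          (hex χ χ.2 fun h => (Finset.mem_erase.mp hχ).1 (Subtype.ext h)) 2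
      rw [Finset.card_erase_of_mem (Finset.mem_univ _), Finset.card_univ,
        ← Nat.card_eq_fintype_card, CL.Char.card_irr, smul_eq_mul] at hle
      obtain ⟨m, hm⟩ := h2
      rw [hm] at hmany hs'
      have h3 : m < Nat.card (ConjClasses G) := Nat.lt_of_mul_lt_mul_left hmany
      have h4 : m * p ^ 2 ≤ (Nat.card (ConjClasses G) - 1) * p ^ 2 :=
        Nat.mul_le_mul_right _ (by omega)
      rw [mul_comm] at h4
      omega
  · obtain ⟨k, hk⟩ := IsPGroup.iff_card.mp P.isPGroup'
    have hk1 : k ≤ 1 := by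
      by_contra hlt
      exact h2 ((pow_dvd_pow p (by omega)).trans (hk ▸ Subgroup.card_subgroup_dvd_card _))
    have : IsCyclic (P : Subgroup G) := isCyclic_of_card_dvd_prime (p := p)
      (by rw [hk]; exact (pow_dvd_pow p hk1).trans (by simp))
    have hc := (IsCyclic.isMulCommutative (α := (P : Subgroup G))).is_comm.comm ⟨a, ha⟩ ⟨b, hb⟩
    exact congrArg Subtype.val hc

end Cfsg.Agent.S0186
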