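import Cfsg.Statements.S0187
import Cfsg.Agent.CHAR.Orth

set_option autoImplicit false
open Cfsg

namespace Cfsg.Agent.S0187

/-- A finite group is commutative if and only if every irreducible complex character has degree 1. -/
theorem result {G : Type*} [Group G] [Finite G] : (∀ a b : G, a * b = b * a) ↔ ∀ χ : Cfsg.IrrCharacter G, (χ : G → ℂ) 1 = 1 := by
  classical
  refine ⟨fun H χ => χ.2.one_eq_one_of_comm H, fun H a b => ?_⟩
  have : a * b * (b * a)⁻¹ = 1 := by
    refine CL.Char.eq_one_of_irr_eq fun χ hχ => ?_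
    obtain ⟨lam, rfl⟩ := hχ.isCharacter.exists_hom (H ⟨χ, hχ⟩)
    simp only [map_mul, map_inv, map_one]
    rw [mul_comm (lam a), mul_inv_cancel]
  exact mul_inv_eq_one.1 this

end Cfsg.Agent.S0187
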