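import Cfsg.Statements.S0189
import Mathlib.Analysis.Complex.Polynomial.Basic

set_option autoImplicit false
open Cfsg

namespace Cfsg.Agent.S0189

/-- If a complex character of a finite group vanishes at every non-identity element of a Sylow p-subgroup P, then |P| divides its degree. -/
theorem result {G : Type*} [Group G] [Finite G] (p : ℕ) [Fact p.Prime] (P : Sylow p G) (χ : G → ℂ) (hχ : Cfsg.IsCharacter G χ) (hvan : ∀ g : G, g ∈ P → g ≠ 1 → χ g = 0) : ∃ k : ℕ, χ 1 = (Nat.card P : ℂ) * k := by
  classical
  obtain ⟨n, ρ, rfl⟩ := hχ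
  have : Fintype P := Fintype.ofFinite _
  have hP : (Nat.card P : ℂ) ≠ 0 := by
    exact_mod_cast (Nat.card_pos (α := P)).ne'
  have : Invertible (Nat.card (P : Subgroup G) : ℂ) := invertibleOfNonzero hP
  have : Fintype (P : Subgroup G) := ‹Fintype P›
  have h := Representation.card_inv_mul_sum_char_eq_finrank (ρ.comp (P : Subgroup G).subtype)
  refine ⟨Module.finrank ℂ (Representation.invariants (ρ.comp (P : Subgroup G).subtype)), ?_⟩
  rw [← h, Finset.sum_eq_single (1 : (P : Subgroup G))]
  · have : (Nat.card (P : Subgroup G) : ℂ) = Nat.card P := rfl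
    rw [this, ← mul_assoc, mul_inv_cancel₀ hP, one_mul]
    rfl
  · intro b _ hb
    exact hvan b b.2 (fun h => hb (Subtype.ext h))
  · simp

end Cfsg.Agent.S0189
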