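import Cfsg.Statements.S0190

set_option autoImplicit false
open Cfsg

namespace Cfsg.Agent.S0190

/-- For a transitive action of a finite group on X, the permutation character g ↦ (number of fixed points of g) is the function induced from the principal character of the stabilizer of any point. -/
theorem result {G : Type*} [Group G] [Fintype G] (X : Type*) [MulAction G X] [Finite X] [MulAction.IsPretransitive G X] (x : X) : (fun g : G => (Nat.card (MulAction.fixedBy X g) : ℂ)) = Cfsg.indFun (MulAction.stabilizer G x) (fun _ => 1) := by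
  classical
  funext g
  have hS : (Nat.card (MulAction.stabilizer G x) : ℂ) ≠ 0 := by
    exact_mod_cast (Nat.card_pos (α := MulAction.stabilizer G x)).ne'
  have : Fintype X := Fintype.ofFinite X
  unfold Cfsg.indFun
  rw [eq_inv_mul_iff_mul_eq₀ hS]
  have h1 : ∀ y : G, Cfsg.extendByZero (MulAction.stabilizer G x) (fun _ => (1 : ℂ)) (y⁻¹ * g * y)
      = if g • (y • x) = y • x then 1 else 0 := by
    intro y
    unfold Cfsg.extendByZero
    by_cases hy : g • (y • x) = y • x
    · rw [if_pos hy]
      have hm : y⁻¹ * g * y ∈ MulAction.stabilizer G x := by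
        rw [MulAction.mem_stabilizer_iff, mul_smul, mul_smul, hy, inv_smul_smul]
      exact Subtype.val_injective.extend_apply (fun _ : MulAction.stabilizer G x => (1 : ℂ)) (0 : G → ℂ) ⟨_, hm⟩
    · rw [if_neg hy, Function.extend_apply']
      · rfl
      · rintro ⟨⟨a, ha⟩, rfl⟩
        apply hy
        rw [MulAction.mem_stabilizer_iff, mul_smul, mul_smul, inv_smul_eq_iff] at ha
        exact ha
  simp_rw [h1]
  rw [← Finset.sum_fiberwise (s := Finset.univ) (g := fun y : G => y • x)]
  have h2 : ∀ z : X, ∑ y ∈ Finset.univ.filter (fun y : G => y • x = z),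
      (if g • (y • x) = y • x then (1 : ℂ) else 0)
      = (Nat.card (MulAction.stabilizer G x) : ℂ) * if g • z = z then 1 else 0 := by
    intro z
    rw [Finset.sum_congr rfl (g := fun _ => if g • z = z then (1 : ℂ) else 0)]
    · rw [Finset.sum_const, nsmul_eq_mul]
      congr 2
      obtain ⟨a, rfl⟩ := MulAction.exists_smul_eq G x z
      rw [← Fintype.card_subtype, ← Nat.card_eq_fintype_card]
      refine Nat.card_congr ⟨fun y => ⟨a⁻¹ * y.1, ?_⟩, fun s => ⟨a * s.1, ?_⟩, ?_, ?_⟩
      · rw [MulAction.mem_stabilizer_iff, mul_smul, y.2, inv_smul_smul]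
      · rw [mul_smul, s.2]
      · intro y; simp
      · intro y; simp
    · intro y hy
      rw [(Finset.mem_filter.mp hy).2]
  simp_rw [h2]
  rw [← Finset.mul_sum, Finset.sum_boole]
  congr 2
  rw [Nat.card_eq_fintype_card, Fintype.card_subtype]
  congr 1

end Cfsg.Agent.S0190
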