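import Cfsg.Statements.S0192
import Mathlib.RingTheory.SimpleModule.Rank

set_option autoImplicit false
open Cfsg

namespace Cfsg.Agent.S0192

/-- Brauer's generation criterion. Let G be a finite simple group, H₁ and H₂ subgroups, and χ a non-principal irreducible character. If the multiplicity of the principal character in χ restricted to H₁ ⊓ H₂ is less than the sum of the corresponding multiplicities for H₁ and H₂, then H₁ and H₂ do not generate G. -/
theorem result {G : Type*} [Group G] [Fintype G] [IsSimpleGroup G] (H₁ H₂ : Subgroup G) [Fintype H₁] [Fintype H₂] [Fintype ↥(H₁ ⊓ H₂)] (χ : G → ℂ) (hχ : Cfsg.IsIrrCharacter G χ) (hχ1 : χ ≠ fun _ => 1) (hlt : (Cfsg.classInner (fun x : ↥(H₁ ⊓ H₂) => χ x) (fun _ => 1)).re < (Cfsg.classInner (fun x : H₁ => χ x) (fun _ => 1)).re + (Cfsg.classInner (fun x : H₂ => χ x) (fun _ => 1)).re) : H₁ ⊔ H₂ ≠ ⊤ := by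
  classical
  intro htop
  obtain ⟨n, ρ, hirr, rfl⟩ := hχ
  have key : ∀ (H : Subgroup G) [Fintype H], Cfsg.classInner (fun x : H => ρ.character x) (fun _ => 1)
      = (Module.finrank ℂ (Representation.invariants (ρ.comp H.subtype)) : ℂ) := by
    intro H _
    have hH : (Nat.card H : ℂ) ≠ 0 := by
      exact_mod_cast (Nat.card_pos (α := H)).ne'
    have : Invertible (Nat.card H : ℂ) := invertibleOfNonzero hH
    rw [← Representation.card_inv_mul_sum_char_eq_finrank (ρ.comp H.subtype)]
    unfold Cfsg.classInner
    simp only [map_one, mul_one]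
    rfl
  rw [key, key, key] at hlt
  simp only [Complex.natCast_re] at hlt
  have hlt' : Module.finrank ℂ (Representation.invariants (ρ.comp (H₁ ⊓ H₂).subtype)) <
      Module.finrank ℂ (Representation.invariants (ρ.comp H₁.subtype)) +
      Module.finrank ℂ (Representation.invariants (ρ.comp H₂.subtype)) := by exact_mod_cast hlt
  rw [← Submodule.finrank_sup_add_finrank_inf_eq] at hlt'
  have hle : Representation.invariants (ρ.comp H₁.subtype) ⊔ Representation.invariants (ρ.comp H₂.subtype)
      ≤ Representation.invariants (ρ.comp (H₁ ⊓ H₂).subtype) := by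
    refine sup_le ?_ ?_
    · intro v hv g
      exact hv ⟨g.1, g.2.1⟩
    · intro v hv g
      exact hv ⟨g.1, g.2.2⟩
  have hle' := Submodule.finrank_mono hle
  have hinf : Representation.invariants (ρ.comp H₁.subtype) ⊓ Representation.invariants (ρ.comp H₂.subtype)
      = ⊥ := by
    have hsub : Representation.invariants (ρ.comp H₁.subtype) ⊓ Representation.invariants (ρ.comp H₂.subtype)
        ≤ ρ.invariants := by
      intro v hv g
      have hg : g ∈ H₁ ⊔ H₂ := htop ▸ Subgroup.mem_top g
      rw [Subgroup.sup_eq_closure] at hg
      induction hg using Subgroup.closure_induction with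
      | mem x hx =>
        rcases hx with hx | hx
        · exact hv.1 ⟨x, hx⟩
        · exact hv.2 ⟨x, hx⟩
      | one => simp
      | mul x y _ _ hx hy => rw [map_mul, Module.End.mul_apply, hy, hx]
      | inv x _ hx => rw [Representation.inv_apply_eq_iff]; exact hx.symm
    let S : Subrepresentation ρ := ⟨ρ.invariants, fun g v hv => by
      intro h
      rw [hv g, hv h]⟩
    rcases hirr.eq_bot_or_eq_top S with hS | hS
    · have : ρ.invariants = ⊥ := congrArg Subrepresentation.toSubmodule hS
      exact le_bot_iff.mp (this ▸ hsub)
    · exfalso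
      have htop' : ρ.invariants = ⊤ := congrArg Subrepresentation.toSubmodule hS
      have hall : ∀ g v, ρ g v = v := fun g v => (htop' ▸ Submodule.mem_top : v ∈ ρ.invariants) g
      apply hχ1
      have hdim : Module.finrank ℂ (Fin n → ℂ) = 1 := by
        have : IsSimpleModule ℂ (Fin n → ℂ) := by
          rw [isSimpleModule_iff]
          refine { exists_pair_ne := ?_, eq_bot_or_eq_top := ?_ }
          · obtain ⟨a, b, hab⟩ := hirr.exists_pair_ne
            exact ⟨a.toSubmodule, b.toSubmodule, fun h => hab (Subrepresentation.toSubmodule_injective h)⟩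
          · intro W
            let T : Subrepresentation ρ := ⟨W, fun g v hv => by rw [hall]; exact hv⟩
            rcases hirr.eq_bot_or_eq_top T with hT | hT
            · exact Or.inl (congrArg Subrepresentation.toSubmodule hT)
            · exact Or.inr (congrArg Subrepresentation.toSubmodule hT)
        exact isSimpleModule_iff_finrank_eq_one.mp this
      funext g
      have : ρ g = LinearMap.id := LinearMap.ext (hall g)
      simp only [Representation.character, this, LinearMap.trace_id, hdim, Nat.cast_one]
  rw [hinf, finrank_bot] at hlt'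
  omega

end Cfsg.Agent.S0192
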