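import Cfsg.Statements.S0202
import Cfsg.Agent.INV.Four

set_option autoImplicit false
open Cfsg

namespace Cfsg.Agent.S0202

/-- If a Sylow 2-subgroup of a finite group is a Klein four-group, the group has one or three conjugacy classes of involutions. -/
theorem result {G : Type*} [Group G] [Finite G] (P : Sylow 2 G) (hP : IsKleinFour (P : Subgroup G)) : Nat.card {C : ConjClasses G // ∃ t : G, orderOf t = 2 ∧ ConjClasses.mk t = C} = 1 ∨ Nat.card {C : ConjClasses G // ∃ t : G, orderOf t = 2 ∧ ConjClasses.mk t = C} = 3 := by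
  rcases CL.Four.sylow_four_dichotomy P hP with h | h
  · left
    obtain ⟨a, ha, -, -, ha1, -⟩ := CL.Four.exists_pair hP
    refine CL.Four.card_classes_eq_one (CL.Four.orderOf_of_mem hP ha ha1) fun s t hs ht =>
      CL.Four.isConj_of_sylow_fused P (fun a ha b hb ha2 hb2 => ?_) hs ht
    obtain ⟨n, -, hn⟩ := h a ha b hb (CL.TwoInv.ne_one_of_orderOf_eq_two ha2)
      (CL.TwoInv.ne_one_of_orderOf_eq_two hb2)
    exact isConj_iff.2 ⟨n, hn⟩
  · right
    rw [CL.Four.card_classes_eq_of_no_fusion P fun a ha b hb _ hab =>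
      CL.Four.no_fusion_of_normalizer_le P h ha hb hab,
      CL.Four.card_involutions_of_elementary IsKleinFour.mul_self, hP.card_four]

end Cfsg.Agent.S0202
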