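import Cfsg.Statements.S0203
import Cfsg.Agent.INV.Four

set_option autoImplicit false
open Cfsg

namespace Cfsg.Agent.S0203

/-- If a Sylow 2-subgroup P of a finite group G is a Klein four-group, then G has three classes of involutions if and only if P has a normal complement in G. -/
theorem result {G : Type*} [Group G] [Finite G] (P : Sylow 2 G) (hP : IsKleinFour (P : Subgroup G)) : Nat.card {C : ConjClasses G // ∃ t : G, orderOf t = 2 ∧ ConjClasses.mk t = C} = 3 ↔ ∃ N : Subgroup G, N.Normal ∧ Subgroup.IsComplement' N (P : Subgroup G) := by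
  constructor
  · intro h3
    rcases CL.Four.sylow_four_dichotomy P hP with h | h
    · exfalso
      obtain ⟨a, ha, -, -, ha1, -⟩ := CL.Four.exists_pair hP
      rw [CL.Four.card_classes_eq_one (CL.Four.orderOf_of_mem hP ha ha1) fun s t hs ht =>
        CL.Four.isConj_of_sylow_fused P (fun a ha b hb ha2 hb2 => ?_) hs ht] at h3
      · omega
      obtain ⟨n, -, hn⟩ := h a ha b hb (CL.TwoInv.ne_one_of_orderOf_eq_two ha2)
        (CL.TwoInv.ne_one_of_orderOf_eq_two hb2)
      exact isConj_iff.2 ⟨n, hn⟩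
    · exact ⟨_, inferInstance, MonoidHom.ker_transferSylow_isComplement' P h⟩
  · rintro ⟨N, hN, hc⟩
    rw [CL.Four.card_classes_eq_of_no_fusion P fun a ha b hb _ hab => ?_,
      CL.Four.card_involutions_of_elementary IsKleinFour.mul_self, hP.card_four]
    obtain ⟨g, rfl⟩ := isConj_iff.1 hab
    obtain ⟨⟨n, y⟩, hny⟩ := hc.2 g
    dsimp only at hny
    have h1 : (y : G) * a * (y : G)⁻¹ = a := by
      rw [CL.Four.comm_of_mem hP y.2 ha, mul_inv_cancel_right]
    have h2 : g * a * g⁻¹ * a⁻¹ ∈ N := by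
      have : g * a * g⁻¹ * a⁻¹ = n * (a * (n : G)⁻¹ * a⁻¹) := by
        calc g * a * g⁻¹ * a⁻¹ = n * ((y : G) * a * (y : G)⁻¹) * (n : G)⁻¹ * a⁻¹ := by
              rw [← hny]; group
          _ = _ := by rw [h1]; group
      rw [this]
      exact N.mul_mem n.2 (hN.conj_mem _ (N.inv_mem n.2) a)
    have h3 := (Subgroup.disjoint_def.1 hc.disjoint) h2 (mul_mem hb (inv_mem ha))
    exact (mul_inv_eq_one.1 h3).symm

end Cfsg.Agent.S0203
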