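import Cfsg.Statements.S0216
import Cfsg.Agent.INV.SylowAux

set_option autoImplicit false
open Cfsg

namespace Cfsg.Agent.S0216

/-- For an involution u in a Sylow 2-subgroup P of a finite group G, the following are equivalent: no G-conjugate of u other than u lies in P; every commutator of u with an element of G has odd order. -/
theorem result {G : Type*} [Group G] [Finite G] (P : Sylow 2 G) (u : G) (hu : orderOf u = 2) (huP : u ∈ P) : (∀ g : G, g * u * g⁻¹ ∈ P → g * u * g⁻¹ = u) ↔ (∀ g : G, Odd (orderOf (u * g * u⁻¹ * g⁻¹))) := by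
  have hu2 := CL.TwoInv.mul_self_of_orderOf_eq_two hu
  have hu' := CL.TwoInv.inv_eq_of_orderOf_eq_two hu
  constructor
  · intro h g
    have hv : orderOf (g * u * g⁻¹) = 2 := by rw [CL.TwoInv.orderOf_conj, hu]
    have hv2 := CL.TwoInv.mul_self_of_orderOf_eq_two hv
    have e : u * g * u⁻¹ * g⁻¹ = u * (g * u * g⁻¹) := by rw [hu']; group
    rw [e, ← Nat.not_even_iff_odd]
    intro he
    obtain ⟨hz, hzu, -⟩ := CL.TwoInv.half_pow_spec hu2 hv2 (orderOf_pos _).ne' he
    have hc := CL.TwoInv.isConj_mul_zpow hu2 hv2 (orderOf (u * (g * u * g⁻¹)) / 2 : ℕ)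
    rw [zpow_natCast] at hc
    generalize (u * (g * u * g⁻¹)) ^ (orderOf (u * (g * u * g⁻¹)) / 2) = z at *
    have hc' : IsConj u (u * z) := hc.elim id fun h => (isConj_iff.2 ⟨g, rfl⟩).trans h
    obtain ⟨c, hc⟩ := isConj_iff.1 hc'
    obtain ⟨d, hd1, hd2⟩ := CL.SylowAux.exists_conj_mem_sylow_two_of_commute P hu2
      (CL.TwoInv.mul_self_of_orderOf_eq_two hz) hzu.symm
    have h1 := h d hd1
    have e2 : d * c * u * (d * c)⁻¹ = (d * u * d⁻¹) * (d * z * d⁻¹) := by
      calc d * c * u * (d * c)⁻¹ = d * (c * u * c⁻¹) * d⁻¹ := by group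
        _ = _ := by rw [hc]; group
    have h2 := h (d * c) (by rw [e2]; exact mul_mem hd1 hd2)
    rw [e2, h1, mul_eq_left] at h2
    apply CL.TwoInv.ne_one_of_orderOf_eq_two hz
    calc z = d⁻¹ * (d * z * d⁻¹) * d := by group
      _ = 1 := by rw [h2]; group
  · intro h g hg
    have e : u * g * u⁻¹ * g⁻¹ = u * (g * u * g⁻¹) := by rw [hu']; group
    have h1 := CL.SylowAux.eq_one_of_mem_of_odd P.2 (mul_mem huP hg) (e ▸ h g)
    exact (inv_eq_of_mul_eq_one_right h1).symm.trans hu'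

end Cfsg.Agent.S0216
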