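import Cfsg.Statements.S0220
import Cfsg.Agent.INV.SylowAux
import Cfsg.Agent.S0219

set_option autoImplicit false
open Cfsg

namespace Cfsg.Agent.S0220

/-- If x is an involution of a finite group G and a Sylow 2-subgroup of the centralizer of x is cyclic, then G has a subgroup of index 2; in particular G is not simple unless it has order 2. -/
theorem result {G : Type*} [Group G] [Finite G] (x : G) (hx : orderOf x = 2) (S : Sylow 2 ↥(Subgroup.centralizer ({x} : Set G))) (hS : IsCyclic (S : Subgroup ↥(Subgroup.centralizer ({x} : Set G)))) : ∃ H : Subgroup G, H.index = 2 := by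
  revert S
  set C := Subgroup.centralizer ({x} : Set G) with hC
  intro S hS
  have hxC : x ∈ C := Subgroup.mem_centralizer_singleton_iff.2 rfl
  have hx2 : x ^ 2 ^ 1 = 1 := by rw [pow_one, ← hx, pow_orderOf_eq_one]
  have hxS : x ∈ (S : Subgroup C).map C.subtype := by
    refine ⟨⟨x, hxC⟩, CL.SylowAux.mem_sylow_of_forall_commute (n := 1) S (Subtype.ext hx2)
      fun y _ => Subtype.ext ?_, rfl⟩
    exact Subgroup.mem_centralizer_singleton_iff.1 y.2
  have hcyc : IsCyclic ((S : Subgroup C).map C.subtype) :=
    isCyclic_of_surjective _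
      ((S : Subgroup C).equivMapOfInjective C.subtype C.subtype_injective).surjective
  obtain ⟨T, hT⟩ := CL.SylowAux.exists_sylow_eq_of_normalizer (S.2.map C.subtype)
    fun g hg ⟨n, hn⟩ => CL.SylowAux.mem_map_sylow_of_mem_normalizer S (by
      have h1 := (Subgroup.mem_normalizer_iff.1 hg x).1 hxS
      have h2 := CL.SylowAux.eq_of_isCyclic_subgroup hcyc h1 hxS
        (by rw [CL.TwoInv.orderOf_conj, hx]) hx
      rw [hC, Subgroup.mem_centralizer_singleton_iff]
      exact mul_inv_eq_iff_eq_mul.1 h2) hn hg
  refine Cfsg.Agent.S0219.result ?_ T (hT ▸ hcyc)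
  rw [even_iff_two_dvd, ← hx]
  exact orderOf_dvd_natCard x

end Cfsg.Agent.S0220
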