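import Cfsg.Statements.S0221
import Cfsg.Agent.INV.Four
import Cfsg.Agent.INV.ThompsonTransfer
import Cfsg.Agent.S1337

set_option autoImplicit false
open Cfsg

namespace Cfsg.Agent.S0221

/-- Let G be a finite group with no subgroup of index 2 whose 2-rank is at least 3 (it contains an elementary abelian subgroup of order 8). Then the centralizer of every involution of G also contains an elementary abelian subgroup of order 8. -/
theorem result {G : Type*} [Group G] [Finite G] (hno : ∀ H : Subgroup G, H.index ≠ 2) (hrank : ∃ E : Subgroup G, Nat.card E = 8 ∧ ∀ e ∈ E, e ^ 2 = 1) (x : G) (hx : orderOf x = 2) : ∃ E : Subgroup G, E ≤ Subgroup.centralizer ({x} : Set G) ∧ Nat.card E = 8 ∧ ∀ e ∈ E, e ^ 2 = 1 := by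
  obtain ⟨E, hE8, hE2⟩ := hrank
  have hE : IsElementaryAbelian 2 E := CL.Rank.isElementaryAbelian_two_iff.2 fun a ha => by
    rw [← pow_two, hE2 a ha]
  obtain ⟨T, hT⟩ := (CL.Rank.isPGroup_of_isElementaryAbelian hE).exists_le_sylow
  have hr : ¬ PRankLE 2 2 (T : Subgroup G) :=
    CL.Four.not_prankLE_iff_exists_card.2 ⟨E, hT, hE, hE8⟩
  obtain ⟨U, hUn, hU, hU4, hconn⟩ := Cfsg.Agent.S1337.result 2 T.2 hr
  obtain ⟨A, hAC, hA, hA8⟩ := CL.Four.not_prankLE_iff_exists_card.1
    ((hconn U hU hU4.ge).1 Relation.ReflTransGen.refl)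
  have hinj := (T : Subgroup G).subtype_injective
  obtain ⟨g, y, hy, hgy⟩ := CL.ThompsonTransfer.exists_conj_mem hno T
    (Q := (Subgroup.centralizer (U : Set T)).map (T : Subgroup G).subtype)
    (Subgroup.map_subtype_le _) (by
      rw [Subgroup.relIndex, ← Subgroup.comap_subtype, Subgroup.comap_map_eq_self_of_injective hinj]
      exact CL.Four.index_centralizer_dvd_two T.2 U hU4)
    (CL.TwoInv.mul_self_of_orderOf_eq_two hx)
  have hy2 : orderOf y = 2 := by
    rw [← Subgroup.orderOf_coe, show (y : G) = g * x * g⁻¹ from hgy, CL.TwoInv.orderOf_conj, hx]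
  obtain ⟨B, hBC, hB, hB8⟩ : ∃ B : Subgroup (T : Subgroup G),
      (∀ b ∈ B, b * y = y * b) ∧ IsElementaryAbelian 2 B ∧ Nat.card B = 8 := by
    by_cases hyU : y ∈ U
    · exact ⟨A, fun b hb => (hAC hb y hyU).symm, hA, hA8⟩
    · have hyN : y ∈ Subgroup.normalizer (U : Set T) := Subgroup.centralizer_le_normalizer _ hy
      have hmem : ∀ b ∈ U ⊔ Subgroup.zpowers y, ∃ u ∈ U, b = u ∨ b = u * y := fun b hb => by
        rw [← SetLike.mem_coe, Subgroup.normal_mul] at hb
        obtain ⟨u, hu, _, ⟨k, rfl⟩, rfl⟩ := hb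
        refine ⟨u, hu, ?_⟩
        have h2 : y ^ (2 : ℤ) = 1 := by
          rw [zpow_two, CL.TwoInv.mul_self_of_orderOf_eq_two hy2]
        dsimp only
        rw [zpow_eq_zpow_emod k h2]
        rcases Int.emod_two_eq_zero_or_one k with h | h <;> simp [h]
      have hUe := CL.Rank.isElementaryAbelian_two_iff.1 hU
      have hB : IsElementaryAbelian 2 (U ⊔ Subgroup.zpowers y) :=
        CL.Rank.isElementaryAbelian_two_iff.2 fun b hb => by
          obtain ⟨u, hu, rfl | rfl⟩ := hmem b hb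
          · exact hUe _ hu
          · rw [mul_assoc, ← mul_assoc y, ← hy u hu, mul_assoc,
              CL.TwoInv.mul_self_of_orderOf_eq_two hy2, mul_one, hUe u hu]
      have hlt : U < U ⊔ Subgroup.zpowers y := lt_of_le_of_ne le_sup_left fun h =>
        hyU (h ▸ Subgroup.mem_sup_right (Subgroup.mem_zpowers y))
      have hp := CL.Rank.isPGroup_of_isElementaryAbelian hB
      obtain ⟨B, hBle, hB8⟩ := CL.Four.exists_le_card_eq (n := 3) hp
        (CL.Four.pow_succ_le_card hp (hU4 ▸ lt_of_le_of_ne (Subgroup.card_le_of_le hlt.le)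
          fun h => hlt.ne (Subgroup.eq_of_le_of_card_ge hlt.le h.ge)))
      refine ⟨B, fun b hb => ?_, CL.Rank.isElementaryAbelian_of_le hB hBle, hB8⟩
      exact (CL.Rank.isElementaryAbelian_iff.1 hB).1 b (hBle hb) y
        (Subgroup.mem_sup_right (Subgroup.mem_zpowers y))
  have hinj2 : Function.Injective ((MulAut.conj g⁻¹).toMonoidHom.comp (T : Subgroup G).subtype) :=
    (MulAut.conj g⁻¹).injective.comp hinj
  refine ⟨B.map ((MulAut.conj g⁻¹).toMonoidHom.comp (T : Subgroup G).subtype), ?_,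
    by rw [Subgroup.card_map_of_injective hinj2, hB8], (CL.Rank.isElementaryAbelian_map hB _).2⟩
  rintro _ ⟨b, hb, rfl⟩
  rw [Subgroup.mem_centralizer_singleton_iff]
  have h1 : (b : G) * (g * x * g⁻¹) = g * x * g⁻¹ * b := by
    rw [← show (y : G) = g * x * g⁻¹ from hgy]
    exact congrArg Subtype.val (hBC b hb)
  change g⁻¹ * b * g⁻¹⁻¹ * x = x * (g⁻¹ * b * g⁻¹⁻¹)
  calc g⁻¹ * b * g⁻¹⁻¹ * x = g⁻¹ * (b * (g * x * g⁻¹)) * g := by group
    _ = _ := by rw [h1]; group

end Cfsg.Agent.S0221
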