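import Cfsg.Statements.S0229
import Cfsg.Agent.INV.InvCalc

set_option autoImplicit false
open Cfsg

namespace Cfsg.Agent.S0229

/-- Let t be an involution of a Sylow 2-subgroup S of a finite group G, conjugate in G to no other element of S, and let s be an involution of G not conjugate to t. Then the order of st is twice an odd number. -/
theorem result {G : Type*} [Group G] [Finite G] (S : Sylow 2 G) (t : G) (ht : orderOf t = 2) (htS : t ∈ S) (hiso : ∀ g : G, g * t * g⁻¹ ∈ S → g * t * g⁻¹ = t) (s : G) (hs : orderOf s = 2) (hns : ¬ IsConj s t) : orderOf (s * t) % 4 = 2 := by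
  have hs2 := CL.Inv.mul_self_of_orderOf_two hs
  have ht2 := CL.Inv.mul_self_of_orderOf_two ht
  obtain ⟨m, hm⟩ := CL.Inv.even_orderOf_of_not_isConj hs2 ht2 hns
  have hm' : orderOf (s * t) = 2 * m := by omega
  have hpos : 0 < orderOf (s * t) := orderOf_pos _
  have h0 : m ≠ 0 := by omega
  obtain ⟨hz, hzs, hzt⟩ := CL.Inv.central_involution_of_even hs2 ht2 hm' h0
  rcases Nat.even_or_odd m with ⟨k, hk⟩ | ⟨k, hk⟩
  · exfalso
    have hk' : m = 2 * k := by omega
    have h1 := CL.Inv.pow_even_mul_isConj hs2 ht2 k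
    rw [← hk'] at h1
    set z := (s * t) ^ m with hzdef
    have hz2 := CL.Inv.mul_self_of_orderOf_two hz
    have hzt2 : (z * t) * (z * t) = 1 := by
      calc (z * t) * (z * t) = z * (t * z) * t := by group
        _ = z * (z * t) * t := by rw [hzt.eq]
        _ = (z * z) * (t * t) := by group
        _ = 1 := by rw [hz2, ht2, one_mul]
    have hc : Commute t (z * t) := hzt.mul_right (Commute.refl t)
    obtain ⟨g, hg1, hg2⟩ := CL.Inv.exists_conj_mem_sylow_pair S ht2 hzt2 hc
    have e1 := hiso g hg1
    have e2 := hiso (g * (s * t) ^ k) (by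
      have : g * (s * t) ^ k * t * (g * (s * t) ^ k)⁻¹ = g * (z * t) * g⁻¹ := by
        rw [← h1]; group
      rw [this]; exact hg2)
    have e3 : g * (z * t) * g⁻¹ = g * t * g⁻¹ := by
      rw [e1, ← h1]
      refine Eq.trans ?_ e2
      group
    have e4 : z = 1 := by
      have := mul_left_cancel (mul_right_cancel e3)
      simpa using this
    exact CL.Inv.ne_one_of_orderOf_two hz e4
  · omega

end Cfsg.Agent.S0229
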