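import Cfsg.Statements.S0230
import Cfsg.Agent.INV.InvCalc

set_option autoImplicit false
open Cfsg

namespace Cfsg.Agent.S0230

/-- Let G be a finite group with two non-conjugate involutions, and let t be an involution whose centralizer has maximal order among centralizers of involutions. Then |G| < |C_G(t)|^3. -/
theorem result {G : Type*} [Group G] [Finite G] (s t : G) (hs : orderOf s = 2) (ht : orderOf t = 2) (hnc : ¬ IsConj s t) (hmax : ∀ u : G, orderOf u = 2 → Nat.card (Subgroup.centralizer ({u} : Set G)) ≤ Nat.card (Subgroup.centralizer ({t} : Set G))) : Nat.card G < Nat.card (Subgroup.centralizer ({t} : Set G)) ^ 3 := by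
  classical
  set m := Nat.card (Subgroup.centralizer ({t} : Set G)) with hm
  have ht2 := CL.Inv.mul_self_of_orderOf_two ht
  have hmpos : 0 < m := Nat.card_pos
  -- to each conjugate of s attach an involution of C(t) commuting with it
  have key : ∀ y : {y : G // IsConj s y}, ∃ z : {z : Subgroup.centralizer ({t} : Set G) // z ≠ 1},
      orderOf (z.1 : G) = 2 ∧ y.1 ∈ Subgroup.centralizer ({(z.1 : G)} : Set G) := by
    rintro ⟨y, hy⟩
    have hyo : orderOf y = 2 := by rw [← CL.Inv.orderOf_eq_of_isConj hy, hs]
    have hy2 := CL.Inv.mul_self_of_orderOf_two hyo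
    have hns : ¬ IsConj y t := fun h => hnc (hy.trans h)
    obtain ⟨k, hk⟩ := CL.Inv.even_orderOf_of_not_isConj hy2 ht2 hns
    have hk' : orderOf (y * t) = 2 * k := by omega
    have hpos : 0 < orderOf (y * t) := orderOf_pos _
    obtain ⟨hz, hzs, hzt⟩ := CL.Inv.central_involution_of_even hy2 ht2 hk' (by omega)
    refine ⟨⟨⟨(y * t) ^ k, CL.Inv.mem_centralizer_singleton.2 hzt.symm⟩, ?_⟩, hz,
      CL.Inv.mem_centralizer_singleton.2 hzs⟩
    intro h
    exact CL.Inv.ne_one_of_orderOf_two hz (congrArg Subtype.val h)
  choose f hf using key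
  have hZ : Nat.card {z : Subgroup.centralizer ({t} : Set G) // z ≠ 1} + 1 = m := by
    rw [← Finite.card_option]
    exact Nat.card_congr (Equiv.optionSubtypeNe _)
  have hfib : ∀ z, Nat.card {y // f y = z} ≤ m := by
    intro z
    by_cases hz : orderOf (z.1 : G) = 2
    · refine le_trans ?_ (hmax _ hz)
      refine Nat.card_le_card_of_injective (fun y => ⟨y.1.1, by
        have := (hf y.1).2; rwa [y.2] at this⟩) ?_
      intro a b h
      exact Subtype.ext (Subtype.ext (by simpa using h))
    · have : IsEmpty {y // f y = z} := ⟨fun y => hz (by have := (hf y.1).1; rwa [y.2] at this)⟩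
      simp
  have hcl : Nat.card {y : G // IsConj s y} ≤ (m - 1) * m := by
    haveI := Fintype.ofFinite {z : Subgroup.centralizer ({t} : Set G) // z ≠ 1}
    rw [← Nat.card_congr (Equiv.sigmaFiberEquiv f), Nat.card_sigma]
    calc ∑ z, Nat.card {y // f y = z} ≤ ∑ _z : {z : Subgroup.centralizer ({t} : Set G) // z ≠ 1}, m :=
          Finset.sum_le_sum fun z _ => hfib z
      _ = (m - 1) * m := by
          rw [Finset.sum_const, Finset.card_univ, smul_eq_mul, ← Nat.card_eq_fintype_card, ← hZ]
          simp
  have h1 := CL.Inv.card_isConj_mul_card_centralizer s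
  have h2 := hmax s hs
  calc Nat.card G = _ := h1.symm
    _ ≤ (m - 1) * m * m := Nat.mul_le_mul hcl h2
    _ < m * m * m := by
        have : m - 1 < m := by omega
        exact Nat.mul_lt_mul_of_pos_right (Nat.mul_lt_mul_of_pos_right this hmpos) hmpos
    _ = m ^ 3 := by ring

end Cfsg.Agent.S0230
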