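import Cfsg.Statements.S0231
import Cfsg.Agent.INV.InvCalc

set_option autoImplicit false
open scoped Pointwise
open Cfsg

namespace Cfsg.Agent.S0231

/-- Let T be a Sylow 2-subgroup of the finite group G which is not normal and which intersects every other Sylow 2-subgroup trivially. Then G has a single conjugacy class of involutions. -/
theorem result {G : Type*} [Group G] [Finite G] (T : Sylow 2 G) (hnn : ¬ (T : Subgroup G).Normal) (hTI : ∀ g : G, MulAut.conj g • (T : Subgroup G) ≠ T → MulAut.conj g • (T : Subgroup G) ⊓ T = ⊥) (s t : G) (hs : orderOf s = 2) (ht : orderOf t = 2) : IsConj s t := by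
  by_contra hns
  have hs2 := CL.Inv.mul_self_of_orderOf_two hs
  have ht2 := CL.Inv.mul_self_of_orderOf_two ht
  -- distinct Sylow subgroups meet trivially
  have hTI' : ∀ (P Q : Sylow 2 G) (z : G), z ∈ P → z ∈ Q → z ≠ 1 → P = Q := by
    intro P Q z hP hQ hz
    obtain ⟨g, rfl⟩ := MulAction.exists_smul_eq G T Q
    obtain ⟨h, rfl⟩ := MulAction.exists_smul_eq G T P
    by_contra hne
    have h1 : MulAut.conj (g⁻¹ * h) • (T : Subgroup G) ≠ T := by
      intro h1
      apply hne
      have h2 : (g⁻¹ * h) • T = T := Sylow.ext h1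
      rw [mul_smul, inv_smul_eq_iff] at h2
      exact h2
    have h2 := hTI _ h1
    have h3 : g⁻¹ * z * g ∈ MulAut.conj (g⁻¹ * h) • (T : Subgroup G) ⊓ T := by
      refine ⟨?_, ?_⟩
      · have : z ∈ MulAut.conj h • (T : Subgroup G) := hP
        rw [Subgroup.mem_pointwise_smul_iff_inv_smul_mem] at this
        show g⁻¹ * z * g ∈ MulAut.conj (g⁻¹ * h) • (T : Subgroup G)
        rw [Subgroup.mem_pointwise_smul_iff_inv_smul_mem]
        simpa [mul_assoc] using this
      · have : z ∈ MulAut.conj g • (T : Subgroup G) := hQ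
        rw [Subgroup.mem_pointwise_smul_iff_inv_smul_mem] at this
        show g⁻¹ * z * g ∈ (T : Subgroup G)
        simpa [mul_assoc] using this
    rw [h2, Subgroup.mem_bot] at h3
    apply hz
    calc z = g * (g⁻¹ * z * g) * g⁻¹ := by group
      _ = 1 := by rw [h3]; group
  obtain ⟨T', hT'⟩ : ∃ T' : Sylow 2 G, T' ≠ T := by
    by_contra hcon
    push Not at hcon
    haveI : Subsingleton (Sylow 2 G) := ⟨fun a b => (hcon a).trans (hcon b).symm⟩
    exact hnn (Sylow.normal_of_subsingleton T)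
  obtain ⟨g, hg⟩ := CL.Inv.exists_conj_mem_sylow T ht2
  obtain ⟨h, hh⟩ := CL.Inv.exists_conj_mem_sylow T' hs2
  set t' := g * t * g⁻¹ with ht'
  set s' := h * s * h⁻¹ with hs'
  have hto : orderOf t' = 2 := by rw [ht', CL.Inv.orderOf_conj', ht]
  have hso : orderOf s' = 2 := by rw [hs', CL.Inv.orderOf_conj', hs]
  have hs2' := CL.Inv.mul_self_of_orderOf_two hso
  have ht2' := CL.Inv.mul_self_of_orderOf_two hto
  have hns' : ¬ IsConj s' t' := fun hc =>
    hns ((isConj_iff.2 ⟨h, rfl⟩).trans (hc.trans (isConj_iff.2 ⟨g, rfl⟩).symm))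
  obtain ⟨m, hm⟩ := CL.Inv.even_orderOf_of_not_isConj hs2' ht2' hns'
  have hm' : orderOf (s' * t') = 2 * m := by omega
  have hpos : 0 < orderOf (s' * t') := orderOf_pos _
  obtain ⟨hz, hzs, hzt⟩ := CL.Inv.central_involution_of_even hs2' ht2' hm' (by omega)
  have hz2 := CL.Inv.mul_self_of_orderOf_two hz
  obtain ⟨P, hP1, hP2⟩ := CL.Inv.exists_sylow_mem_pair hs2' hz2 hzs
  obtain ⟨Q, hQ1, hQ2⟩ := CL.Inv.exists_sylow_mem_pair ht2' hz2 hzt
  have e1 := hTI' P T' s' hP1 hh (CL.Inv.ne_one_of_orderOf_two hso)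
  have e2 := hTI' Q T t' hQ1 hg (CL.Inv.ne_one_of_orderOf_two hto)
  have e3 := hTI' P Q _ hP2 hQ2 (CL.Inv.ne_one_of_orderOf_two hz)
  exact hT' (e1.symm.trans (e3.trans e2))

end Cfsg.Agent.S0231
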