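import Cfsg.Statements.S0232
import Cfsg.Agent.INV.InvCalc
import Cfsg.Agent.S0233
import Mathlib

set_option autoImplicit false
open Cfsg

namespace Cfsg.Agent.S0232

universe u

theorem aux (k : ℕ) : ∀ {G : Type u} [Group G] [Finite G], Nat.card G = k → Even (Nat.card G) →
    2 < Nat.card G → ∃ H : Subgroup G, H ≠ ⊤ ∧ Nat.card G < (Nat.card H) ^ 3 := by
  induction k using Nat.strong_induction_on with
  | _ k ih =>
  intro G _ _ hk heven hgt
  have idx2 : ∀ H : Subgroup G, H.index = 2 → H ≠ ⊤ ∧ Nat.card G < (Nat.card H) ^ 3 := by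
    intro H hH
    refine ⟨by rintro rfl; simp at hH, ?_⟩
    have := H.index_mul_card
    rw [hH] at this
    have h2 : 2 ≤ Nat.card H := by omega
    rw [← this]
    nlinarith [Nat.mul_le_mul h2 h2]
  rcases Nat.even_or_odd (Nat.card (Subgroup.center G)) with hZ | hZ
  · obtain ⟨z, hz⟩ := exists_prime_orderOf_dvd_card' (G := Subgroup.center G) 2 hZ.two_dvd
    have hz' : orderOf (z : G) = 2 := by rw [Subgroup.orderOf_coe, hz]
    set Z := Subgroup.zpowers (z : G) with hZdef
    have hZc : Nat.card Z = 2 := by rw [hZdef, Nat.card_zpowers, hz']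
    have hZn : Z.Normal := by
      refine ⟨fun a ha g => ?_⟩
      have : a ∈ Subgroup.center G := (Subgroup.zpowers_le.2 z.2) ha
      rw [Subgroup.mem_center_iff.1 this g]
      simpa using ha
    have hq : Nat.card G = Nat.card (G ⧸ Z) * 2 := by
      rw [← hZc]; exact Subgroup.card_eq_card_quotient_mul_card_subgroup Z
    rcases Nat.even_or_odd (Nat.card (G ⧸ Z)) with hq2 | hq2
    · by_cases h2 : Nat.card (G ⧸ Z) = 2
      · exact ⟨Z, idx2 Z h2⟩
      · have hpos : 0 < Nat.card (G ⧸ Z) := Nat.card_pos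
        obtain ⟨H, hH, hlt⟩ := ih (Nat.card (G ⧸ Z)) (by omega) (G := G ⧸ Z) rfl hq2 (by
          obtain ⟨c, hc⟩ := hq2; omega)
        refine ⟨H.comap (QuotientGroup.mk' Z), ?_, ?_⟩
        · intro h
          apply hH
          rw [← Subgroup.map_comap_eq_self_of_surjective (QuotientGroup.mk'_surjective Z) H, h,
            Subgroup.map_top_of_surjective _ (QuotientGroup.mk'_surjective Z)]
        · have h1 := (H.comap (QuotientGroup.mk' Z)).index_mul_card
          rw [Subgroup.index_comap_of_surjective _ (QuotientGroup.mk'_surjective Z), hq,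
            ← H.index_mul_card, mul_assoc] at h1
          have h3 := Nat.eq_of_mul_eq_mul_left (Nat.pos_of_ne_zero H.index_ne_zero_of_finite) h1
          rw [h3, hq]
          nlinarith
    · obtain ⟨K, hK⟩ := Subgroup.exists_right_complement'_of_coprime (N := Z) (by
        rw [hZc]; exact (Nat.coprime_two_left.2 hq2))
      exact ⟨K, idx2 K (by rw [hK.index_eq_card, hZc])⟩
  · obtain ⟨H, hH, h⟩ := Cfsg.Agent.S0233.result heven hZ
    rcases h with h | h
    · exact ⟨H, idx2 H h⟩
    obtain ⟨M, hM, hmax⟩ := Set.Finite.exists_maximalFor (fun H : Subgroup G => Nat.card H)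
      {H : Subgroup G | H ≠ ⊤} (Set.toFinite _) ⟨H, hH⟩
    have hmax' : ∀ K : Subgroup G, K ≠ ⊤ → Nat.card K ≤ Nat.card M := fun K hK => by
      by_contra h
      push Not at h
      exact absurd (hmax (j := K) hK h.le) (not_le.2 h)
    refine ⟨M, hM, ?_⟩
    obtain ⟨t, ht⟩ := exists_prime_orderOf_dvd_card' (G := G) 2 heven.two_dvd
    have hne : Subgroup.centralizer ({t} : Set G) ≠ ⊤ := by
      intro h
      have hz : t ∈ Subgroup.center G := by
        rw [Subgroup.mem_center_iff]
        intro g
        exact CL.Inv.mem_centralizer_singleton.1 (h ▸ Subgroup.mem_top g)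
      have := orderOf_dvd_natCard (⟨t, hz⟩ : Subgroup.center G)
      rw [Subgroup.orderOf_mk, ht] at this
      exact (Nat.not_even_iff_odd.2 hZ) (even_iff_two_dvd.2 this)
    set n := Nat.card {t : G // orderOf t = 2} with hn
    set m := Nat.card M with hm
    have h1 := CL.Inv.card_isConj_mul_card_centralizer t
    have h2 : Nat.card {y : G // IsConj t y} ≤ n := by
      refine Nat.card_le_card_of_injective (fun y => ⟨y.1, by
        rw [← CL.Inv.orderOf_eq_of_isConj y.2, ht]⟩) ?_
      intro a b h
      exact Subtype.ext (by simpa using h)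
    have h3 : Nat.card G ≤ n * m := by rw [← h1]; exact Nat.mul_le_mul h2 (hmax' _ hne)
    have h4 : Nat.card G ≤ H.index * m := by
      rw [← H.index_mul_card]; exact Nat.mul_le_mul_left _ (hmax' _ hH)
    have h5 : (2 * H.index) * n ^ 2 < (m * (m + 1)) * n ^ 2 := by
      calc 2 * H.index * n ^ 2 < Nat.card G * (Nat.card G + n) := h
        _ ≤ (n * m) * (n * m + n) := Nat.mul_le_mul h3 (by omega)
        _ = _ := by ring
    have h6 := lt_of_mul_lt_mul_right h5 (Nat.zero_le _)
    have hmpos : 0 < m := Nat.card_pos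
    have h7 : 2 * Nat.card G < (m * (m + 1)) * m := by
      calc 2 * Nat.card G ≤ (2 * H.index) * m := by nlinarith
        _ < _ := Nat.mul_lt_mul_of_pos_right h6 hmpos
    have h8 : m * m ≤ m * m * m := Nat.le_mul_of_pos_right _ hmpos
    nlinarith

/-- A finite group G of even order greater than 2 has a proper subgroup H with |G| < |H|^3. -/
theorem result {G : Type*} [Group G] [Finite G] (heven : Even (Nat.card G)) (hgt : 2 < Nat.card G) : ∃ H : Subgroup G, H ≠ ⊤ ∧ Nat.card G < (Nat.card H) ^ 3 := by
  exact aux _ rfl heven hgt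

end Cfsg.Agent.S0232
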