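import Cfsg.Statements.S0234
import Cfsg.Agent.INV.InvCalc
import Cfsg.Agent.S0233
import Cfsg.Agent.S0212
import Mathlib

set_option autoImplicit false
open Cfsg

namespace Cfsg.Agent.S0234

theorem card_even_involutions_five :
    (Finset.univ.filter fun σ : Equiv.Perm (Fin 5) =>
      σ * σ = 1 ∧ σ ≠ 1 ∧ Equiv.Perm.sign σ = 1).card = 15 := by
  decide +kernel

/-- In a finite simple group G of even order greater than 2, the number n of involutions satisfies 3n < |G|. -/
theorem result {G : Type*} [Group G] [Finite G] [IsSimpleGroup G] (heven : Even (Nat.card G)) (hgt : 2 < Nat.card G) : 3 * Nat.card {t : G // orderOf t = 2} < Nat.card G := by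
  classical
  by_contra hcon
  push Not at hcon
  set m := Nat.card {t : G // orderOf t = 2} with hm
  have no2 : ∀ H : Subgroup G, H.index ≠ 2 := by
    intro H hH
    have := Cfsg.Agent.S0212.card_dvd_factorial_index H (by rintro rfl; simp at hH)
    rw [hH] at this
    have := Nat.le_of_dvd (by norm_num) this
    simp at this
    omega
  have hZ : Subgroup.center G = ⊥ := by
    rcases (Subgroup.center G).normal_of_characteristic.eq_bot_or_eq_top with hZ | hZ
    · exact hZ
    · exfalso
      have hc : IsMulCommutative G := ⟨⟨fun a b =>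
        (Subgroup.mem_center_iff.1 (hZ ▸ Subgroup.mem_top b) a)⟩⟩
      letI : CommGroup G := { (inferInstance : Group G) with mul_comm := hc.is_comm.comm }
      have hp := IsSimpleGroup.prime_card (α := G)
      have := hp.even_iff.1 heven
      omega
  obtain ⟨H, hH, h⟩ := Cfsg.Agent.S0233.result heven (by rw [hZ]; simp)
  rcases h with h | h
  · exact no2 H h
  have hj : H.index ≤ 5 := by
    have h4 : 2 * H.index * m ^ 2 < 12 * m ^ 2 := by
      calc 2 * H.index * m ^ 2 < Nat.card G * (Nat.card G + m) := h
        _ ≤ (3 * m) * (3 * m + m) := Nat.mul_le_mul hcon (by omega)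
        _ = _ := by ring
    have := lt_of_mul_lt_mul_right h4 (Nat.zero_le _)
    omega
  -- embed G in the symmetric group on five letters
  haveI := Fintype.ofFinite (G ⧸ H)
  obtain ⟨e⟩ : Nonempty (G ⧸ H ↪ Fin 5) := by
    apply Function.Embedding.nonempty_of_card_le
    rw [← Nat.card_eq_fintype_card, ← Subgroup.index_eq_card]
    simpa using hj
  let φ : G →* Equiv.Perm (Fin 5) :=
    (Equiv.Perm.viaEmbeddingHom e).comp (MulAction.toPermHom G (G ⧸ H))
  have hφ : Function.Injective φ := by
    refine (Equiv.Perm.viaEmbeddingHom_injective e).comp ?_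
    rw [← MonoidHom.ker_eq_bot_iff, ← Subgroup.normalCore_eq_ker]
    rcases H.normalCore_normal.eq_bot_or_eq_top with h1 | h1
    · exact h1
    · exact absurd (top_le_iff.1 (h1 ▸ H.normalCore_le)) hH
  have hsign : ∀ g : G, Equiv.Perm.sign (φ g) = 1 := by
    rcases (Equiv.Perm.sign.comp φ).normal_ker.eq_bot_or_eq_top with h1 | h1
    · exfalso
      have := Nat.card_le_card_of_injective _ ((MonoidHom.ker_eq_bot_iff _).1 h1)
      simp at this
      omega
    · intro g
      exact (h1 ▸ Subgroup.mem_top g : g ∈ (Equiv.Perm.sign.comp φ).ker)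
  have hm15 : m ≤ 15 := by
    rw [← card_even_involutions_five, ← Fintype.card_subtype, ← Nat.card_eq_fintype_card]
    refine Nat.card_le_card_of_injective (fun t => ⟨φ t.1, ?_, ?_, hsign _⟩) ?_
    · rw [← map_mul, CL.Inv.mul_self_of_orderOf_two t.2, map_one]
    · intro h
      exact CL.Inv.ne_one_of_orderOf_two t.2 (hφ (by rw [h, map_one]))
    · intro a b h
      exact Subtype.ext (hφ (by simpa using h))
  let ψ : G →* alternatingGroup (Fin 5) :=
    φ.codRestrict _ fun g => Equiv.Perm.mem_alternatingGroup.2 (hsign g)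
  have hψ : Function.Injective ψ := fun a b h => hφ (congrArg Subtype.val h)
  have hA : Nat.card (alternatingGroup (Fin 5)) = 60 := by
    rw [nat_card_alternatingGroup]; simp [Nat.factorial]
  have hr : Nat.card ψ.range = Nat.card G := (Nat.card_congr (MonoidHom.ofInjective hψ).toEquiv).symm
  have h60 : ψ.range.index * Nat.card G = 60 := by rw [← hr, Subgroup.index_mul_card, hA]
  have hdvd : Nat.card G ∣ 60 := Dvd.intro_left _ h60
  have syl : ∀ (p : ℕ) [Fact p.Prime] (a k : ℕ), Nat.card G = p ^ a * k →
      1 < k → Nat.card G ∣ k.factorial := by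
    intro p _ a k hk h1
    obtain ⟨P, hP⟩ := Sylow.exists_subgroup_card_pow_prime (G := G) p (n := a) ⟨k, hk⟩
    have h2 := P.card_mul_index
    rw [hP] at h2
    have h3 : P.index = k :=
      Nat.eq_of_mul_eq_mul_left (Nat.pow_pos (Fact.out : p.Prime).pos) (h2.trans hk)
    rw [← h3]
    refine Cfsg.Agent.S0212.card_dvd_factorial_index _ ?_
    intro h
    rw [h, Subgroup.index_top] at h3
    omega
  haveI : Fact (Nat.Prime 5) := ⟨by norm_num⟩
  have hle : Nat.card G ≤ 45 := by omega
  obtain ⟨c, hc⟩ := heven
  have hcases : Nat.card G = 4 ∨ Nat.card G = 6 ∨ Nat.card G = 10 ∨ Nat.card G = 12 ∨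
      Nat.card G = 20 ∨ Nat.card G = 30 := by
    generalize Nat.card G = N at *
    interval_cases N <;> omega
  rcases hcases with h | h | h | h | h | h
  · have := syl 2 1 2 (by rw [h]; norm_num) (by norm_num)
    rw [h] at this; revert this; decide
  · have := syl 3 1 2 (by rw [h]; norm_num) (by norm_num)
    rw [h] at this; revert this; decide
  · have := syl 5 1 2 (by rw [h]; norm_num) (by norm_num)
    rw [h] at this; revert this; decide
  · have := syl 2 2 3 (by rw [h]; norm_num) (by norm_num)
    rw [h] at this; revert this; decide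
  · have := syl 5 1 4 (by rw [h]; norm_num) (by norm_num)
    rw [h] at this; revert this; decide
  · have h2 : ψ.range.index = 2 := by rw [h] at h60; omega
    rcases (Subgroup.normal_of_index_eq_two h2).eq_bot_or_eq_top with h1 | h1
    · rw [h1, Subgroup.index_bot, hA] at h2; omega
    · rw [h1, Subgroup.index_top] at h2; omega

end Cfsg.Agent.S0234
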