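import Cfsg.Statements.S0239
import Cfsg.Agent.INV.InvCalc

set_option autoImplicit false
open Cfsg

namespace Cfsg.Agent.S0239

/-- If some nontrivial element x of a finite group G is conjugate to x⁻¹, then |G| is even. -/
theorem result {G : Type*} [Group G] [Finite G] (x : G) (hx : x ≠ 1) (hreal : IsConj x x⁻¹) : Even (Nat.card G) := by
  obtain ⟨g, hg⟩ := isConj_iff.1 hreal
  by_contra hodd
  rw [Nat.not_even_iff_odd] at hodd
  obtain ⟨k, hk⟩ := hodd
  have hgn : g ^ (2 * k + 1) = 1 := by rw [← hk]; exact pow_card_eq_one'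
  have hxn : x ^ (2 * k + 1) = 1 := by rw [← hk]; exact pow_card_eq_one'
  have h2 : g ^ 2 * x * (g ^ 2)⁻¹ = x := by
    calc g ^ 2 * x * (g ^ 2)⁻¹ = g * (g * x * g⁻¹) * g⁻¹ := by rw [pow_two]; group
      _ = g * x⁻¹ * g⁻¹ := by rw [hg]
      _ = (g * x * g⁻¹)⁻¹ := by group
      _ = x := by rw [hg, inv_inv]
  have hc : Commute (g ^ 2) x := by
    rw [Commute, SemiconjBy, ← mul_inv_eq_iff_eq_mul, h2]
  have hc2 : Commute (g ^ (2 * (k + 1))) x := by rw [pow_mul]; exact hc.pow_left _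
  have hg' : g ^ (2 * (k + 1)) = g := by
    rw [show 2 * (k + 1) = (2 * k + 1) + 1 by ring, pow_succ, hgn, one_mul]
  rw [hg'] at hc2
  have hx2 : x * x = 1 := by
    have : g * x * g⁻¹ = x := by rw [hc2.eq]; group
    rw [this] at hg
    nth_rewrite 1 [hg]
    group
  apply hx
  rw [pow_succ, pow_mul, pow_two, hx2, one_pow, one_mul] at hxn
  exact hxn

end Cfsg.Agent.S0239
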