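import Cfsg.Statements.S0240
import Cfsg.Agent.INV.InvCalc

set_option autoImplicit false
open Cfsg

namespace Cfsg.Agent.S0240

/-- Let G be a finite group with n involutions and H a subgroup with |H|·(n+1) > |G|. Then some nontrivial h ∈ H is strongly real in G: an involution t of G satisfies t h t⁻¹ = h⁻¹. -/
theorem result {G : Type*} [Group G] [Finite G] (H : Subgroup G) (hH : Nat.card G < Nat.card H * (Nat.card {t : G // orderOf t = 2} + 1)) : ∃ h : G, h ∈ H ∧ h ≠ 1 ∧ ∃ t : G, orderOf t = 2 ∧ t * h * t⁻¹ = h⁻¹ := by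
  classical
  let f : Option {t : G // orderOf t = 2} → G := fun o => o.elim 1 Subtype.val
  have hf : Function.Injective f := by
    rintro (_ | ⟨a, ha⟩) (_ | ⟨b, hb⟩) h
    · rfl
    · exact absurd h.symm (CL.Inv.ne_one_of_orderOf_two hb)
    · exact absurd h (CL.Inv.ne_one_of_orderOf_two ha)
    · simpa [f] using h
  have hlt : Nat.card (G ⧸ H) < Nat.card (Option {t : G // orderOf t = 2}) := by
    rw [Finite.card_option]
    rw [Subgroup.card_eq_card_quotient_mul_card_subgroup H, mul_comm] at hH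
    exact lt_of_mul_lt_mul_left hH (Nat.zero_le _)
  have hninj : ¬ Function.Injective (fun o => ((f o : G) : G ⧸ H)) := fun h =>
    absurd (Nat.card_le_card_of_injective _ h) (not_le.2 hlt)
  rw [Function.not_injective_iff] at hninj
  obtain ⟨a, b, hab, hne⟩ := hninj
  have hmem : (f a)⁻¹ * f b ∈ H := QuotientGroup.eq.1 hab
  have hne' : (f a)⁻¹ * f b ≠ 1 := fun h => hne (hf (inv_mul_eq_one.1 h))
  refine ⟨_, hmem, hne', ?_⟩
  rcases a with _ | ⟨a, ha⟩
  · rcases b with _ | ⟨b, hb⟩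
    · exact absurd rfl hne
    · refine ⟨b, hb, ?_⟩
      simp [f, CL.Inv.inv_eq_of_orderOf_two hb, CL.Inv.mul_self_of_orderOf_two hb]
  · rcases b with _ | ⟨b, hb⟩
    · refine ⟨a, ha, ?_⟩
      simp [f, CL.Inv.inv_eq_of_orderOf_two ha, CL.Inv.mul_self_of_orderOf_two ha]
    · refine ⟨a, ha, ?_⟩
      show a * (a⁻¹ * b) * a⁻¹ = (a⁻¹ * b)⁻¹
      rw [CL.Inv.inv_eq_of_orderOf_two ha]
      simpa [CL.Inv.inv_eq_of_orderOf_two ha] using
        CL.Inv.conj_mul_eq_inv (CL.Inv.mul_self_of_orderOf_two ha) (CL.Inv.mul_self_of_orderOf_two hb)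

end Cfsg.Agent.S0240
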