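import Cfsg.Statements.S0257
import Mathlib
import Cfsg.Agent.CLAS.SLBasic
import Cfsg.Agent.INV.DQRecog

set_option autoImplicit false
open Cfsg

namespace Cfsg.Agent.S0257

open Matrix
open scoped MatrixGroups

/-- The elements of `SL₂(3)` of order dividing four. -/
def Q0 : Subgroup SL(2, ZMod 3) where
  carrier := {g | g * g * (g * g) = 1}
  one_mem' := by simp
  mul_mem' := by
    have : ∀ a b : SL(2, ZMod 3), a * a * (a * a) = 1 → b * b * (b * b) = 1 →
        (a * b) * (a * b) * ((a * b) * (a * b)) = 1 := by decide +kernel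
    exact fun {a b} ha hb => this a b ha hb
  inv_mem' := by
    intro a ha
    have h : a * a * (a * a) = 1 := ha
    show a⁻¹ * a⁻¹ * (a⁻¹ * a⁻¹) = 1
    rw [← _root_.mul_inv_rev, ← _root_.mul_inv_rev, h, inv_one]

theorem Q0_normal : Q0.Normal := ⟨fun a ha g => by
  have h : a * a * (a * a) = 1 := ha
  show (g * a * g⁻¹) * (g * a * g⁻¹) * ((g * a * g⁻¹) * (g * a * g⁻¹)) = 1
  calc _ = g * (a * a * (a * a)) * g⁻¹ := by group
    _ = 1 := by rw [h]; group⟩

theorem card_Q0 : Nat.card Q0 = 8 := by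
  have : Nat.card Q0 = Fintype.card {g : SL(2, ZMod 3) // g * g * (g * g) = 1} :=
    Nat.card_eq_fintype_card (α := {g : SL(2, ZMod 3) // g * g * (g * g) = 1})
  rw [this]
  decide +kernel

def qi : SL(2, ZMod 3) := ⟨!![0, -1; 1, 0], by decide⟩
def qj : SL(2, ZMod 3) := ⟨!![1, 1; 1, -1], by decide⟩

theorem Q0_equiv : Nonempty (Q0 ≃* QuaternionGroup 2) := by
  have ho : orderOf qi = 2 * 2 := by
    rw [show 2 * 2 = 2 ^ (1 + 1) from rfl]
    apply orderOf_eq_prime_pow <;> decide +kernel
  refine CL.DQ.subgroup_quaternion (by norm_num) Q0 qi qj (show qi * qi * (qi * qi) = 1 by decide +kernel)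
    (show qj * qj * (qj * qj) = 1 by decide +kernel) ho (by decide +kernel) (by decide +kernel) ?_
    card_Q0
  intro h
  obtain ⟨n, hn⟩ := Subgroup.mem_zpowers_iff.1 h
  have hc : qi * qj = qj * qi := by rw [← hn]; exact (Commute.refl qi).zpow_right n
  exact absurd hc (by decide +kernel)

/-- SL_2(3) has a normal subgroup of index 3 isomorphic to the quaternion group of order 8, and its centre has order 2. -/
theorem result {F : Type*} [Field F] [Fintype F] (hF : Fintype.card F = 3) : (∃ Q : Subgroup (Matrix.SpecialLinearGroup (Fin 2) F), Q.Normal ∧ Q.index = 3 ∧ Nonempty (Q ≃* QuaternionGroup 2)) ∧ Nat.card (Subgroup.center (Matrix.SpecialLinearGroup (Fin 2) F)) = 2 := by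
  have hF' : Nat.card F = 3 := by rw [Nat.card_eq_fintype_card, hF]
  refine ⟨?_, by rw [CL.SL.card_center_SL, hF']; rfl⟩
  haveI : Fact (Nat.Prime 3) := ⟨Nat.prime_three⟩
  let f : ZMod 3 ≃+* F := ZMod.ringEquivOfPrime F Nat.prime_three hF
  let e : SL(2, F) ≃* SL(2, ZMod 3) :=
    MonoidHom.toMulEquiv (SpecialLinearGroup.map f.symm.toRingHom)
      (SpecialLinearGroup.map f.toRingHom) (by ext g i j; simp) (by ext g i j; simp)
  have hn := Q0_normal
  obtain ⟨q⟩ := Q0_equiv
  refine ⟨Q0.comap e.toMonoidHom, inferInstance, ?_, ⟨?_⟩⟩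
  · rw [Subgroup.index_comap_of_surjective (f := e.toMonoidHom) _ e.surjective]
    have h := Q0.card_mul_index
    rw [card_Q0, CL.SL.card_SL_two] at h
    simp at h
    omega
  · exact ((Subgroup.comap_equiv_eq_map_symm e Q0) ▸ (e.symm.subgroupMap Q0).symm).trans q

end Cfsg.Agent.S0257
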