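import Cfsg.Statements.S0258
import Cfsg.Agent.CLAS.SL2Sylow

set_option autoImplicit false
open Cfsg

namespace Cfsg.Agent.S0258

/-- GL_2(q), q a power of the prime p, has exactly q + 1 Sylow p-subgroups. -/
theorem result {F : Type*} [Field F] [Fintype F] {q : ℕ} (hF : Fintype.card F = q) (p : ℕ) [Fact p.Prime] [CharP F p] : Nat.card (Sylow p (Matrix.GeneralLinearGroup (Fin 2) F)) = q + 1 := by
  rw [← Nat.card_eq_of_bijective _ (CL.SL2.bijective_sylowGLOfVec (F := F) p),
    CL.SL2.card_projectiveLine, hF]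

end Cfsg.Agent.S0258
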