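import Cfsg.Statements.S0259
import Cfsg.Agent.CLAS.SL2Sylow

set_option autoImplicit false
open Cfsg

namespace Cfsg.Agent.S0259

/-- Distinct Sylow p-subgroups of GL_2(q), p the characteristic, intersect trivially. -/
theorem result {F : Type*} [Field F] [Fintype F] (p : ℕ) [Fact p.Prime] [CharP F p] (P Q : Sylow p (Matrix.GeneralLinearGroup (Fin 2) F)) (h : P ≠ Q) : (P : Subgroup (Matrix.GeneralLinearGroup (Fin 2) F)) ⊓ (Q : Subgroup (Matrix.GeneralLinearGroup (Fin 2) F)) = ⊥ := by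
  obtain ⟨v, hv, hP⟩ := CL.SL2.sylow_eq_stabGL p P
  obtain ⟨w, hw, hQ⟩ := CL.SL2.sylow_eq_stabGL p Q
  have hd : v 0 * w 1 - v 1 * w 0 ≠ 0 := by
    intro h0
    obtain ⟨a, rfl⟩ := CL.SL2.exists_smul_of_det_eq_zero hv h0
    have ha : a ≠ 0 := by rintro rfl; simp at hw
    apply h
    apply Sylow.ext
    rw [hP, hQ, CL.SL2.stabGL_smul_eq ha]
  rw [hP, hQ, eq_bot_iff]
  rintro g ⟨h1, h2⟩
  rw [Subgroup.mem_bot]
  exact Units.ext (CL.SL2.eq_one_of_fix_two hd (CL.SL2.mem_stabGL.1 h1).2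
    (CL.SL2.mem_stabGL.1 h2).2)

end Cfsg.Agent.S0259
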