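import Cfsg.Statements.S0260
import Cfsg.Agent.CLAS.SL2Sylow

set_option autoImplicit false
open Cfsg

namespace Cfsg.Agent.S0260

/-- Any two distinct Sylow p-subgroups of SL_2(q), p the characteristic, generate SL_2(q). -/
theorem result {F : Type*} [Field F] [Fintype F] (p : ℕ) [Fact p.Prime] [CharP F p] (P Q : Sylow p (Matrix.SpecialLinearGroup (Fin 2) F)) (h : P ≠ Q) : (P : Subgroup (Matrix.SpecialLinearGroup (Fin 2) F)) ⊔ (Q : Subgroup (Matrix.SpecialLinearGroup (Fin 2) F)) = ⊤ := by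
  obtain ⟨v, hv, hP⟩ := CL.SL2.sylow_eq_stabilizer p P
  obtain ⟨w, hw, hQ⟩ := CL.SL2.sylow_eq_stabilizer p Q
  have hd : v 0 * w 1 - v 1 * w 0 ≠ 0 := by
    intro h0
    obtain ⟨a, rfl⟩ := CL.SL2.exists_smul_of_det_eq_zero hv h0
    have ha : a ≠ 0 := by rintro rfl; simp at hw
    apply h
    apply Sylow.ext
    rw [hP, hQ, CL.SL2.stabilizer_smul_eq ha]
  rw [hP, hQ]
  exact CL.SL2.stabilizer_sup_stabilizer_eq_top hd

end Cfsg.Agent.S0260
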