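import Cfsg.Statements.S0263
import Mathlib

set_option autoImplicit false
open Cfsg

namespace Cfsg.Agent.S0263

/-- A Sylow p-subgroup of GL_n(q), p the characteristic, has order q^(n(n-1)/2). -/
theorem result {F : Type*} [Field F] [Fintype F] {q : ℕ} (hF : Fintype.card F = q) (p : ℕ) [Fact p.Prime] [CharP F p] (n : ℕ) (P : Sylow p (Matrix.GeneralLinearGroup (Fin n) F)) : Nat.card P = q ^ (n * (n - 1) / 2) := by
  classical
  obtain ⟨k, -, hk⟩ := FiniteField.card F p
  have hp : p.Prime := Fact.out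
  have hq : q = p ^ (k : ℕ) := hF ▸ hk
  have hq1 : 1 ≤ q := hq ▸ Nat.one_le_pow _ _ hp.pos
  have hcard : Nat.card (Matrix.GeneralLinearGroup (Fin n) F) =
      p ^ (k * (n * (n - 1) / 2)) * ∏ i : Fin n, (q ^ (n - i) - 1) := by
    rw [Matrix.card_GL_field, hF, pow_mul, ← hq, ← Finset.sum_range_id,
      ← Fin.sum_univ_eq_sum_range (fun i => i), ← Finset.prod_pow_eq_pow_sum,
      ← Finset.prod_mul_distrib]
    refine Finset.prod_congr rfl fun i _ => ?_
    rw [Nat.mul_sub, ← pow_add, mul_one, Nat.add_sub_cancel' i.2.le]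
  have hcop : ¬ p ∣ ∏ i : Fin n, (q ^ (n - i) - 1) := by
    intro h
    obtain ⟨i, -, hi⟩ := (Prime.dvd_finset_prod_iff hp.prime _).1 h
    have h1 : p ∣ q ^ (n - i) := by
      rw [hq, ← pow_mul]
      exact dvd_pow_self p (Nat.mul_pos k.pos (Nat.sub_pos_of_lt i.2)).ne'
    have h2 : 1 ≤ q ^ (n - i) := Nat.one_le_pow _ _ hq1
    have h3 := (Nat.dvd_sub_iff_right h2 h1).1 hi
    exact hp.one_lt.ne' (Nat.dvd_one.1 h3)
  have hne : ∏ i : Fin n, (q ^ (n - i) - 1) ≠ 0 := by
    intro h; rw [h] at hcop; exact hcop (dvd_zero _)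
  rw [Sylow.card_eq_multiplicity, hcard, Nat.factorization_mul (pow_pos hp.pos _).ne' hne,
    Finsupp.add_apply, Nat.factorization_eq_zero_of_not_dvd hcop, add_zero,
    hp.factorization_pow, Finsupp.single_eq_same, pow_mul, ← hq]

end Cfsg.Agent.S0263
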