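import Cfsg.Statements.S0264
import Cfsg.Agent.CLAS.SLBasic

set_option autoImplicit false
open Cfsg

namespace Cfsg.Agent.S0264

open Matrix Matrix.SpecialLinearGroup
open scoped commutatorElement

theorem transvection_mem {ι F : Type*} [Fintype ι] [DecidableEq ι] [Field F] {a : F} (ha : a ≠ 0)
    (ha1 : a ≠ 1) {i j : ι} (hij : i ≠ j) (c : F) :
    toGL (transvection hij c) ∈ commutator (GL ι F) := by
  have hji := hij.symm
  have hd : ∀ b : F, b ≠ 0 → (1 + single i i (b - 1) : Matrix ι ι F) * (1 + single i i (b⁻¹ - 1)) = 1 := by
    intro b hb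
    simp only [mul_add, add_mul, Matrix.one_mul, Matrix.mul_one, single_mul_single_same]
    ext k l
    simp only [Matrix.add_apply, one_apply, single_apply]
    split_ifs <;> first | (exfalso; grind) | (field_simp; ring)
  let D : GL ι F := ⟨1 + single i i (a - 1), 1 + single i i (a⁻¹ - 1), hd a ha, by
    simpa using hd a⁻¹ (inv_ne_zero ha)⟩
  have hconj : ∀ b : F, D * toGL (transvection hij b) * D⁻¹ = toGL (transvection hij (a * b)) := by
    intro b
    refine Units.ext ?_
    change (1 + single i i (a - 1) : Matrix ι ι F) * (1 + single i j b) * (1 + single i i (a⁻¹ - 1)) =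
      1 + single i j (a * b)
    simp only [mul_add, add_mul, Matrix.one_mul, Matrix.mul_one, single_mul_single_same,
      single_mul_single_of_ne _ _ _ _ hji, add_zero]
    ext k l
    simp only [Matrix.add_apply, one_apply, single_apply]
    split_ifs <;> first | (exfalso; grind) | (field_simp; ring)
  have : toGL (transvection hij c) = ⁅D, toGL (transvection hij (c / (a - 1)))⁆ := by
    rw [commutatorElement_def, hconj, ← map_inv, ← map_mul, transvection_inv, ← transvection_add]
    congr 2
    have := sub_ne_zero_of_ne ha1
    field_simp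
    ring
  rw [this]
  exact Subgroup.commutator_mem_commutator (Subgroup.mem_top _) (Subgroup.mem_top _)

/-- GL_n(F)' = SL_n(F) (as the kernel of det), for every field F and every n, except n = 2 over the field of two elements. -/
theorem result {F : Type*} [Field F] (n : ℕ) (h : n = 2 → ∃ a : F, a ≠ 0 ∧ a ≠ 1) : commutator (Matrix.GeneralLinearGroup (Fin n) F) = (Matrix.GeneralLinearGroup.det : Matrix.GeneralLinearGroup (Fin n) F →* Fˣ).ker := by
  apply le_antisymm
  · exact Abelianization.commutator_subset_ker _
  · rw [← CL.SL.range_toGL_eq_ker_det]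
    rintro _ ⟨A, rfl⟩
    have : (commutator (Matrix.GeneralLinearGroup (Fin n) F)).comap toGL = ⊤ := by
      refine CL.SL.eq_top_of_transvection_mem _ fun i j hij c => ?_
      by_cases hn : n = 2
      · obtain ⟨a, ha, ha1⟩ := h hn
        exact transvection_mem ha ha1 hij c
      · have h3 : 3 ≤ Fintype.card (Fin n) := by
          have : Nontrivial (Fin n) := ⟨⟨i, j, hij⟩⟩
          have := Fintype.one_lt_card (α := Fin n)
          simp only [Fintype.card_fin] at this ⊢
          omega
        obtain ⟨g, k, hgk⟩ := CL.SL.transvection_mem_commutatorSet_of_three_le (F := F) h3 hij c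
        rw [Subgroup.mem_comap, ← hgk, map_commutatorElement]
        exact Subgroup.commutator_mem_commutator (Subgroup.mem_top _) (Subgroup.mem_top _)
    exact (this ▸ Subgroup.mem_top A : A ∈ (commutator (Matrix.GeneralLinearGroup (Fin n) F)).comap toGL)

end Cfsg.Agent.S0264
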