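import Cfsg.Statements.S0272
import Cfsg.Agent.S0258

set_option autoImplicit false
open Cfsg

namespace Cfsg.Agent.S0272

/-- The normaliser in GL_2(q) of a Sylow p-subgroup, p the characteristic, has order q (q-1)^2. -/
theorem result {F : Type*} [Field F] [Fintype F] {q : ℕ} (hF : Fintype.card F = q) (p : ℕ) [Fact p.Prime] [CharP F p] (P : Sylow p (Matrix.GeneralLinearGroup (Fin 2) F)) : Nat.card (Subgroup.normalizer ((P : Subgroup (Matrix.GeneralLinearGroup (Fin 2) F)) : Set (Matrix.GeneralLinearGroup (Fin 2) F))) = q * (q - 1) ^ 2 := by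
  have h1 := Cfsg.Agent.S0258.result hF p
  rw [P.card_eq_index_normalizer] at h1
  replace h1 : (Subgroup.normalizer ((P : Subgroup (Matrix.GeneralLinearGroup (Fin 2) F)) : Set (Matrix.GeneralLinearGroup (Fin 2) F))).index = q + 1 := h1
  have h2 := Subgroup.card_mul_index (Subgroup.normalizer ((P : Subgroup (Matrix.GeneralLinearGroup (Fin 2) F)) : Set (Matrix.GeneralLinearGroup (Fin 2) F)))
  rw [h1, Matrix.card_GL_field, hF, Fin.prod_univ_two] at h2
  have hq : 1 ≤ q := hF ▸ Fintype.card_pos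
  obtain ⟨r, rfl⟩ : ∃ r, q = r + 1 := ⟨q - 1, by omega⟩
  apply Nat.eq_of_mul_eq_mul_right (Nat.succ_pos (r + 1))
  rw [Nat.succ_eq_add_one, h2]
  have e1 : (r + 1) ^ 2 - (r + 1) ^ ((0 : Fin 2) : ℕ) = r * (r + 2) := by
    apply Nat.sub_eq_of_eq_add; simp; ring
  have e2 : (r + 1) ^ 2 - (r + 1) ^ ((1 : Fin 2) : ℕ) = r * (r + 1) := by
    apply Nat.sub_eq_of_eq_add; simp; ring
  rw [e1, e2, Nat.add_sub_cancel]
  ring

end Cfsg.Agent.S0272
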