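import Cfsg.Statements.S0273
import Cfsg.Agent.CLAS.SL2Sylow

set_option autoImplicit false
open Cfsg

namespace Cfsg.Agent.S0273

/-- In GL_2(q) the centraliser of a non-trivial element of a Sylow p-subgroup (p the characteristic) has order q (q-1): the Sylow subgroup times the scalars. -/
theorem result {F : Type*} [Field F] [Fintype F] {q : ℕ} (hF : Fintype.card F = q) (p : ℕ) [Fact p.Prime] [CharP F p] (P : Sylow p (Matrix.GeneralLinearGroup (Fin 2) F)) (a : Matrix.GeneralLinearGroup (Fin 2) F) (ha : a ∈ P) (ha1 : a ≠ 1) : Nat.card (Subgroup.centralizer ({a} : Set (Matrix.GeneralLinearGroup (Fin 2) F))) = q * (q - 1) := by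
  classical
  obtain ⟨v, hv, hP⟩ := CL.SL2.sylow_eq_stabGL p P
  have ha' : a ∈ CL.SL2.stabGL v := hP ▸ ha
  obtain ⟨hdet, hav⟩ := CL.SL2.mem_stabGL.1 ha'
  have hN := CL.SL2.sub_one_mul_self_eq_zero_of_fix hdet hv hav
  set N : Matrix (Fin 2) (Fin 2) F := (a : Matrix (Fin 2) (Fin 2) F) - 1 with hNdef
  have hN0 : N ≠ 0 := fun h => ha1 (Units.ext (sub_eq_zero.1 h))
  have haN : (a : Matrix (Fin 2) (Fin 2) F) = 1 + N := by rw [hNdef]; abel
  have h00 := congrFun (congrFun hN 0) 0
  have h01 := congrFun (congrFun hN 0) 1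
  have h10 := congrFun (congrFun hN 1) 0
  have h11 := congrFun (congrFun hN 1) 1
  simp only [Matrix.mul_apply, Fin.sum_univ_two, Matrix.zero_apply] at h00 h01 h10 h11
  have hne : N 0 1 ≠ 0 ∨ N 1 0 ≠ 0 := by
    by_contra h
    push Not at h
    apply hN0
    have e0 : N 0 0 = 0 := by
      rw [h.1, zero_mul, add_zero] at h00; exact mul_self_eq_zero.1 h00
    have e1 : N 1 1 = 0 := by
      rw [h.1, mul_zero, zero_add] at h11; exact mul_self_eq_zero.1 h11
    ext i j; fin_cases i <;> fin_cases j <;> simp [h.1, h.2, e0, e1]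
  have htr : N 1 1 = -N 0 0 := by
    rcases hne with h | h
    · apply mul_left_cancel₀ h; linear_combination h01
    · apply mul_left_cancel₀ h; linear_combination h10
  have hinv : ∀ (x : Fˣ) (y : F), ((x : F) • (1 : Matrix (Fin 2) (Fin 2) F) + y • N) *
      ((x⁻¹ : F) • (1 : Matrix (Fin 2) (Fin 2) F) + (-(y * x⁻¹ * x⁻¹)) • N) = 1 := by
    intro x y
    simp only [add_mul, mul_add, Matrix.smul_mul, Matrix.mul_smul, Matrix.one_mul, Matrix.mul_one,
      hN, smul_zero, add_zero, smul_smul]
    have hx := x.ne_zero
    rw [add_assoc, Units.val_inv_eq_inv_val, ← add_smul]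
    have e1 : (x : F)⁻¹ * x = 1 := by field_simp
    have e2 : (x : F)⁻¹ * y + -(y * (x : F)⁻¹ * (x : F)⁻¹) * x = 0 := by field_simp; ring
    rw [e1, e2, one_smul, zero_smul, add_zero]
  let φ : Fˣ × F → Subgroup.centralizer ({a} : Set (Matrix.GeneralLinearGroup (Fin 2) F)) :=
    fun xy => ⟨Matrix.GeneralLinearGroup.mkOfDetNeZero ((xy.1 : F) • (1 : Matrix (Fin 2) (Fin 2) F) + xy.2 • N)
      (Matrix.det_ne_zero_of_right_inverse (hinv xy.1 xy.2)), by
        rw [Subgroup.mem_centralizer_singleton_iff]
        apply Units.ext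
        simp only [Units.val_mul, Matrix.GeneralLinearGroup.val_mkOfDetNeZero, haN, add_mul, mul_add,
          Matrix.smul_mul, Matrix.mul_smul, Matrix.one_mul, Matrix.mul_one, hN, smul_zero]
        module⟩
  have hφ : Function.Bijective φ := by
    constructor
    · rintro ⟨x, y⟩ ⟨x', y'⟩ h
      have h1 : (x : F) • (1 : Matrix (Fin 2) (Fin 2) F) + y • N = (x' : F) • 1 + y' • N :=
        congrArg (fun g : Subgroup.centralizer ({a} : Set (Matrix.GeneralLinearGroup (Fin 2) F)) =>
          ((g : Matrix.GeneralLinearGroup (Fin 2) F) : Matrix (Fin 2) (Fin 2) F)) h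
      have e00 := congrFun (congrFun h1 0) 0
      have e01 := congrFun (congrFun h1 0) 1
      have e10 := congrFun (congrFun h1 1) 0
      simp at e00 e01 e10
      have hy : y = y' := by
        rcases hne with h | h
        · exact e01.resolve_right h
        · exact e10.resolve_right h
      subst hy
      have hx : (x : F) = x' := by linear_combination e00
      rw [Units.ext hx]
    · rintro ⟨g, hg⟩
      rw [Subgroup.mem_centralizer_singleton_iff] at hg
      have hg1 : (g : Matrix (Fin 2) (Fin 2) F) * N = N * g := by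
        have := congrArg Units.val hg
        simp only [Units.val_mul, haN, add_mul, mul_add, Matrix.one_mul, Matrix.mul_one] at this
        exact add_left_cancel this
      have e00 := congrFun (congrFun hg1 0) 0
      have e01 := congrFun (congrFun hg1 0) 1
      have e10 := congrFun (congrFun hg1 1) 0
      have e11 := congrFun (congrFun hg1 1) 1
      simp only [Matrix.mul_apply, Fin.sum_univ_two, htr] at e00 e01 e10 e11
      obtain ⟨x, y, hxy⟩ : ∃ x y : F, (g : Matrix (Fin 2) (Fin 2) F) = x • 1 + y • N := by
        rcases hne with h | h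
        · refine ⟨g 0 0 - g 0 1 / N 0 1 * N 0 0, g 0 1 / N 0 1, ?_⟩
          ext i j; fin_cases i <;> fin_cases j <;> simp [htr]
          · field_simp
          · field_simp; linear_combination -e00
          · field_simp; linear_combination -e01
        · refine ⟨g 0 0 - g 1 0 / N 1 0 * N 0 0, g 1 0 / N 1 0, ?_⟩
          ext i j; fin_cases i <;> fin_cases j <;> simp [htr]
          · field_simp; linear_combination e00
          · field_simp
          · field_simp; linear_combination e10
      have hx : x ≠ 0 := by
        rintro rfl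
        have hd := g.isUnit.map Matrix.detMonoidHom
        rw [Matrix.coe_detMonoidHom, hxy, zero_smul, zero_add, Matrix.det_smul] at hd
        have hNd : N.det = 0 := by
          have := congrArg Matrix.det hN
          rw [Matrix.det_mul, Matrix.det_zero] at this
          exact mul_self_eq_zero.1 this
        rw [hNd, mul_zero] at hd
        exact not_isUnit_zero hd
      exact ⟨(Units.mk0 x hx, y), Subtype.ext (Units.ext hxy.symm)⟩
  rw [← Nat.card_eq_of_bijective φ hφ, Nat.card_prod, Nat.card_units, Nat.card_eq_fintype_card, hF,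
    mul_comm]

end Cfsg.Agent.S0273
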