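import Cfsg.Statements.S0274
import Cfsg.Agent.PLOC.Dickson

set_option autoImplicit false
open Cfsg

namespace Cfsg.Agent.S0274

/-- Dickson's Theorem for SL_2: if p is odd and H is a subgroup of SL_2(q), q a power of p, with more than one Sylow p-subgroup, then H contains a copy of SL_2(p). -/
theorem result {F : Type*} [Field F] [Fintype F] (p : ℕ) [Fact p.Prime] [CharP F p] (hp : p ≠ 2) (H : Subgroup (Matrix.SpecialLinearGroup (Fin 2) F)) (hH : 1 < Nat.card (Sylow p H)) : ∃ K : Subgroup (Matrix.SpecialLinearGroup (Fin 2) F), K ≤ H ∧ Nonempty (K ≃* Matrix.SpecialLinearGroup (Fin 2) (ZMod p)) := by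
  have : Nontrivial (Sylow p H) := Finite.one_lt_card_iff_nontrivial.1 hH
  obtain ⟨P, Q, hne⟩ := exists_pair_ne (Sylow p H)
  obtain ⟨x, y, ⟨a, ha⟩, ⟨b, hb⟩, hxy⟩ := CL.Dickson.exists_not_commute_of_sylow_ne hne
  obtain ⟨ψ, hψ⟩ := CL.Dickson.exists_embedding hp H x.2 y.2 (a := a) (b := b)
    (congrArg Subtype.val ha) (congrArg Subtype.val hb) (fun h => hxy (Subtype.ext h))
  refine ⟨(H.subtype.comp ψ).range, ?_, ⟨(MonoidHom.ofInjective (f := H.subtype.comp ψ)
    (H.subtype_injective.comp hψ)).symm⟩⟩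
  rintro _ ⟨A, rfl⟩
  exact (ψ A).2

end Cfsg.Agent.S0274
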