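import Cfsg.Statements.S0275
import Cfsg.Agent.CLAS.SL2Two
import Cfsg.Agent.S0274

set_option autoImplicit false
open Cfsg

namespace Cfsg.Agent.S0275

open CL.Dk CL.PGL2

/-- If p is odd and H is a subgroup of SL_2(q), q a power of p, with more than one Sylow p-subgroup, then the Sylow 2-subgroups of H are generalised quaternion. -/
theorem result {F : Type*} [Field F] [Fintype F] (p : ℕ) [Fact p.Prime] [CharP F p] (hp : p ≠ 2) (H : Subgroup (Matrix.SpecialLinearGroup (Fin 2) F)) (hH : 1 < Nat.card (Sylow p H)) (S : Sylow 2 H) : ∃ k : ℕ, 1 ≤ k ∧ Nonempty ((S : Subgroup H) ≃* QuaternionGroup (2 ^ k)) := by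
  have h2 := two_ne_zero_of_odd (odd_card_of_char_ne_two (F := F) p hp)
  have h2' := two_ne_zero_of_odd (odd_card_of_char_ne_two (F := ZMod p) p hp)
  obtain ⟨T, h1, h3⟩ := exists_not_isCyclic_SL2 h2'
  obtain ⟨K, hK, ⟨e⟩⟩ := Cfsg.Agent.S0274.result p hp H hH
  let ψ := (Subgroup.inclusion hK).comp e.symm.toMonoidHom
  have hψ : Function.Injective ψ := (Subgroup.inclusion_injective hK).comp e.symm.injective
  exact sylow_quaternion_of_not_isCyclic h2 H.subtype_injective (h1.map ψ)
    (fun h => h3 (isCyclic_of_surjective _ (T.equivMapOfInjective ψ hψ).symm.surjective)) S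

end Cfsg.Agent.S0275
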