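import Cfsg.Statements.S0301
import Cfsg.Agent.CLAS.OrthIso6

set_option autoImplicit false
open Cfsg

namespace Cfsg.Agent.S0301

open CL.Orth CL.OrthE

/-- PΩ_5(q) is isomorphic to PSp_4(q) for q odd. -/
theorem result {F : Type*} [Field F] [Fintype F] (hodd : Odd (Fintype.card F)) : Nonempty (Cfsg.POmega F (Cfsg.quadFormOdd 2 F) ≃* Cfsg.PSp 2 F) := by
  exact ⟨(pOmegaEquiv (QOdd 2 F)).trans (nonempty_pOm_QOdd_two (CL.OrthE.two_ne_zero_of_odd_card hodd)).some⟩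

end Cfsg.Agent.S0301
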