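import Cfsg.Statements.S0320
import Cfsg.Agent.CHEV.BNParabolic

set_option autoImplicit false
open Cfsg

namespace Cfsg.Agent.S0320

/-- The Weyl group `W = N / (B ⊓ N)` of a (B,N)-pair, with its distinguished involutions, is a Coxeter system. -/
theorem result {G : Type*} [Group G] (P : Cfsg.BNPair G)
    [hN : ((P.B ⊓ P.N).subgroupOf P.N).Normal] :
    ∃ (M : CoxeterMatrix P.S) (cs : CoxeterSystem M (P.N ⧸ (P.B ⊓ P.N).subgroupOf P.N)),
      ∀ s : P.S, cs.simple s = QuotientGroup.mk (⟨(s : G), P.subset s.2⟩ : P.N) := by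
  obtain ⟨cs, hcs⟩ := (CL.BN.exch P).exists_coxeterSystem
    (CL.Cox.coxMatrix _ (CL.BN.sW_mul_self P) (CL.BN.sW_injective P)) (fun _ _ => rfl)
  exact ⟨_, cs, hcs⟩

end Cfsg.Agent.S0320
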