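import Cfsg.Statements.S0321
import Cfsg.Agent.CHEV.BNParabolic

set_option autoImplicit false
open Cfsg

namespace Cfsg.Agent.S0321

/-- For `n ∈ N` not in `B`, the union `B ∪ B n B` is (the underlying set of) a subgroup exactly when `n` agrees
modulo `B ⊓ N` with one of the distinguished representatives; thus the distinguished involutions are
determined by `B` and `N`. -/
theorem result {G : Type*} [Group G] (P : Cfsg.BNPair G) {n : G}
    (hn : n ∈ P.N) (hnB : n ∉ P.B) :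
    (∃ H : Subgroup G, (H : Set G) = (P.B : Set G) ∪ DoubleCoset.doubleCoset n (P.B : Set G) P.B) ↔ ∃ s ∈ P.S, s⁻¹ * n ∈ P.B := by
  constructor
  · rintro ⟨H, hH⟩
    have hB : P.B ≤ H := fun b hb => by
      rw [← SetLike.mem_coe, hH]; exact Or.inl hb
    have hnH : n ∈ H := by
      rw [← SetLike.mem_coe, hH]; exact Or.inr (DoubleCoset.mem_doubleCoset_self _ _ _)
    obtain ⟨s, hs⟩ := (CL.BN.gen P).exists_left_descent (w := CL.BN.δ P n)
      (fun h => hnB ((CL.BN.δ_eq_one_iff P).1 h))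
    have h1 : (s : G) ∈ H := CL.BN.mem_of_left_descent P hB
      (fun b hb => H.mul_mem (H.mul_mem hnH (hB hb)) (H.inv_mem hnH)) (by omega)
    rw [← SetLike.mem_coe, hH] at h1
    rcases h1 with h1 | h1
    · exact absurd h1 (CL.BN.not_mem_B_of_mem_S P s.2)
    · exact ⟨s, s.2, (CL.BN.δ_eq_δ_iff_of_mem_N P (P.subset s.2) hn).1
        ((CL.BN.mem_doubleCoset_iff P).1 h1)⟩
  · rintro ⟨s, hs, h⟩
    refine ⟨P.parabolic {s}, ?_⟩
    ext g
    rw [SetLike.mem_coe, CL.BN.mem_parabolic_singleton_iff P (s := ⟨s, hs⟩), Set.mem_union,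
      CL.BN.mem_doubleCoset_iff, ← (CL.BN.δ_eq_δ_iff_of_mem_N P (P.subset hs) hn).2 h,
      CL.BN.δ_S P ⟨s, hs⟩, SetLike.mem_coe]

end Cfsg.Agent.S0321
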