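import Cfsg.Statements.S0322
import Cfsg.Agent.CHEV.BNParabolic

set_option autoImplicit false
open Cfsg

namespace Cfsg.Agent.S0322

/-- A group with a (B,N)-pair of rank one acts doubly transitively on the left cosets of `B`. -/
theorem result {G : Type*} [Group G] (P : Cfsg.BNPair G) (h : P.rank = 1) : MulAction.IsMultiplyPretransitive G (G ⧸ P.B) 2 := by
  obtain ⟨hs1, ⟨s⟩⟩ := Nat.card_eq_one_iff_unique.1 h
  have hS : P.S = {(s : G)} := by
    ext t
    exact ⟨fun ht => congrArg Subtype.val (hs1.elim ⟨t, ht⟩ s), fun ht => ht ▸ s.2⟩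
  have key : ∀ g : G, g ∉ P.B → CL.BN.δ P g = CL.BN.sW P s := by
    intro g hg
    have h1 : g ∈ P.parabolic {(s : G)} := by
      rw [← hS, CL.BN.parabolic_S]; trivial
    exact ((CL.BN.mem_parabolic_singleton_iff P).1 h1).resolve_left hg
  rw [MulAction.is_two_pretransitive_iff]
  intro a b c d hab hcd
  induction a using QuotientGroup.induction_on with | _ a => ?_
  induction b using QuotientGroup.induction_on with | _ b => ?_
  induction c using QuotientGroup.induction_on with | _ c => ?_
  induction d using QuotientGroup.induction_on with | _ d => ?_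
  rw [Ne, QuotientGroup.eq] at hab hcd
  obtain ⟨x, hx, y, hy, e⟩ := (CL.BN.δ_eq_δ_iff P).1 ((key _ hcd).trans (key _ hab).symm)
  refine ⟨c * x * a⁻¹, ?_, ?_⟩
  · rw [MulAction.Quotient.smul_mk, QuotientGroup.eq]
    simpa using hx
  · rw [MulAction.Quotient.smul_mk, QuotientGroup.eq]
    have : (c * x * a⁻¹ * b)⁻¹ * d = y := by
      have e2 : d = c * (x * (a⁻¹ * b) * y) := by rw [← e]; simp
      rw [e2]; group
    rw [smul_eq_mul, this]
    exact hy

end Cfsg.Agent.S0322
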