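import Cfsg.Statements.S0327
import Mathlib
import Cfsg.Agent.CHEV.SzAction

set_option autoImplicit false
open Cfsg

namespace Cfsg.Agent.S0327

/-- The Suzuki group (`m ≥ 1`) is a Zassenhaus group on the `q² + 1` points of the Suzuki–Tits ovoid. -/
theorem result {F : Type*} [Field F] [Fintype F] {m : ℕ} (hm : 1 ≤ m)
    (hF : Fintype.card F = 2 ^ (2 * m + 1)) :
    Cfsg.IsZassenhausGroup (Cfsg.Sz F m) (Cfsg.suzukiOvoid F m) := by
  have := CL.Sz.charP_two hF
  obtain ⟨t, ht0, ht1⟩ := CL.Sz.exists_ne_zero_one hm hF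
  obtain ⟨e, -, he⟩ := CL.Sz.exists_equiv_ovoid hm hF
  exact (CL.Sz.ovModel hm hF).isZassenhausGroup ht0 ht1 e he

end Cfsg.Agent.S0327
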