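import Cfsg.Statements.S0328
import Mathlib
import Cfsg.Agent.CHEV.SzAction

set_option autoImplicit false
open Cfsg

namespace Cfsg.Agent.S0328

/-- The stabiliser in the Suzuki group of the two ovoid points spanned by `(1,0,0,0)` and `(0,0,0,1)` is
isomorphic to the multiplicative group of the field (cyclic of order `q - 1`). -/
theorem result {F : Type*} [Field F] [Fintype F] {m : ℕ} (hm : 1 ≤ m)
    (hF : Fintype.card F = 2 ^ (2 * m + 1)) :
    Nonempty (↥(MulAction.stabilizer (Cfsg.Sz F m) (Cfsg.suzukiPointInfinity F) ⊓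
        MulAction.stabilizer (Cfsg.Sz F m) (Cfsg.suzukiPointZero F)) ≃* Fˣ) := by
  have := CL.Sz.charP_two hF
  set M := CL.Sz.ovModel hm hF with hM
  have h : MulAction.stabilizer (Cfsg.Sz F m) (Cfsg.suzukiPointInfinity F) ⊓
      MulAction.stabilizer (Cfsg.Sz F m) (Cfsg.suzukiPointZero F) = M.H := by
    ext g
    rw [Subgroup.mem_inf, MulAction.mem_stabilizer_iff, MulAction.mem_stabilizer_iff,
      ← CL.Sz.w_smul_infinity hm hF, smul_smul, ← inv_smul_eq_iff (g := M.w), smul_smul,
      CL.Sz.smul_infinity_iff hm hF, CL.Sz.smul_infinity_iff hm hF, M.mem_H_iff_fix,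
      ← M.w_smul_inf, smul_smul, ← inv_smul_eq_iff (g := M.w), smul_smul, M.smul_inf_eq_inf,
      M.smul_inf_eq_inf]
  rw [h]
  exact ⟨M.HEquiv.symm⟩

end Cfsg.Agent.S0328
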