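import Cfsg.Statements.S0331
import Mathlib
import Cfsg.Agent.CHEV.SzCount

set_option autoImplicit false
open Cfsg

namespace Cfsg.Agent.S0331

/-- For every odd prime `p` the Sylow `p`-subgroups of the Suzuki group are cyclic. -/
theorem result {F : Type*} [Field F] [Fintype F] {m : ℕ} (hm : 1 ≤ m)
    (hF : Fintype.card F = 2 ^ (2 * m + 1)) {p : ℕ} [Fact p.Prime] (hp : p ≠ 2)
    (P : Sylow p (Cfsg.Sz F m)) : IsCyclic P := by
  have := CL.Sz.charP_two hF
  set M := CL.Sz.ovModel hm hF with hM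
  rcases subsingleton_or_nontrivial P with hP | hP
  · infer_instance
  have := P.isPGroup'.center_nontrivial
  obtain ⟨⟨z, hz⟩, hz1⟩ := exists_ne (1 : Subgroup.center P)
  have hz1' : (z : Cfsg.Sz F m) ≠ 1 := fun h => hz1 (Subtype.ext (Subtype.ext h))
  have hle : (P : Subgroup (Cfsg.Sz F m)) ≤ Subgroup.centralizer {(z : Cfsg.Sz F m)} := fun x hx =>
    Subgroup.mem_centralizer_singleton_iff.mpr
      (congrArg Subtype.val (Subgroup.mem_center_iff.mp hz ⟨x, hx⟩))
  have : IsCyclic (Subgroup.centralizer {(z : Cfsg.Sz F m)}) := by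
    rcases M.trichotomy hz1' with h | ⟨-, k, hk⟩ | h
    · exfalso
      obtain ⟨n, hn⟩ := P.isPGroup' z
      refine hz1' (CL.Sz.Model.eq_one_of_pow_coprime (a := 4) (b := p ^ n) ?_
        (M.pow_four_of_mem_conjSet_U h) (congrArg Subtype.val hn))
      exact Nat.Coprime.pow 2 n ((Nat.coprime_primes Nat.prime_two Fact.out).mpr hp.symm)
    · rw [← M.mem_conj_H] at hk
      rw [(M.conj k).centralizer_of_mem_H hk hz1']
      exact (M.conj k).isCyclic_H
    · exact h.isCyclic_centralizer
  exact Subgroup.isCyclic_of_le hle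

end Cfsg.Agent.S0331
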