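import Cfsg.Statements.S0332
import Mathlib
import Cfsg.Agent.CHEV.SzCount

set_option autoImplicit false
open Cfsg

namespace Cfsg.Agent.S0332

/-- The Suzuki group is a CN-group: every non-identity element has nilpotent centraliser. -/
theorem result {F : Type*} [Field F] [Fintype F] {m : ℕ} (hm : 1 ≤ m)
    (hF : Fintype.card F = 2 ^ (2 * m + 1)) : Cfsg.IsCNGroup (Cfsg.Sz F m) := by
  have := CL.Sz.charP_two hF
  set M := CL.Sz.ovModel hm hF with hM
  intro g hg1
  rcases M.trichotomy hg1 with ⟨-, k, hk⟩ | ⟨-, k, hk⟩ | h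
  · rw [← M.mem_conj_U] at hk
    have hle : Subgroup.centralizer {g} ≤ (M.conj k).U := fun x hx =>
      (M.conj k).mem_U_of_commute hk hg1 (Subgroup.mem_centralizer_singleton_iff.mp hx)
    exact ((M.conj k).isPGroup_U.to_le hle).isNilpotent
  · rw [← M.mem_conj_H] at hk
    rw [(M.conj k).centralizer_of_mem_H hk hg1]
    have := (M.conj k).isCyclic_H
    exact @CommGroup.isNilpotent _ IsCyclic.commGroup
  · have := h.isCyclic_centralizer
    exact @CommGroup.isNilpotent _ IsCyclic.commGroup

end Cfsg.Agent.S0332
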