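import Cfsg.Statements.S0335
import Mathlib
import Cfsg.Agent.CHEV.SzAction

set_option autoImplicit false
open Cfsg

namespace Cfsg.Agent.S0335

/-- The Suzuki–Tits point set is an ovoid: any three distinct points of it are projectively independent
(no line of projective 3-space meets it in more than two points). -/
theorem result {F : Type*} [Field F] [Fintype F] {m : ℕ} (hm : 1 ≤ m)
    (hF : Fintype.card F = 2 ^ (2 * m + 1)) (p : Fin 3 ↪ Cfsg.suzukiOvoid F m) :
    Projectivization.Independent (fun i => (p i : Projectivization F (Fin 4 → F))) := by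
  have := CL.Sz.charP_two hF
  set M := CL.Sz.ovModel hm hF with hM
  obtain ⟨e, he0, he⟩ := CL.Sz.exists_equiv_ovoid hm hF
  have hne : ∀ i j, i ≠ j → e.symm (p i) ≠ e.symm (p j) := fun i j hij h =>
    hij (p.injective (e.symm.injective h))
  obtain ⟨g, h0, h1⟩ := M.exists_smul_eq_pair (hne 0 1 (by decide))
  have h2 : g • e.symm (p 2) ≠ M.inf := by
    rw [← h0]; exact fun h => hne 2 0 (by decide) (smul_left_cancel g h)
  obtain ⟨x, y, hxy⟩ := M.eq_pt_of_ne_inf h2
  have hxy0 : ¬ (x = 0 ∧ y = 0) := by
    rintro ⟨rfl, rfl⟩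
    rw [← h1] at hxy
    exact hne 2 1 (by decide) (smul_left_cancel g hxy)
  have hpt : ∀ x y, (e (M.pt x y) : Projectivization F (Fin 4 → F)) =
      Projectivization.mk F ![CL.Sz.ov (CL.Sz.theta F m) x y, y, x, 1] (by simp) := by
    intro x y
    rw [M.pt_eq, he, he0, ← CL.Sz.u_smul_zero hm hF, ← CL.Sz.w_smul_infinity hm hF, ← mul_smul]
    rfl
  let v : Fin 3 → Fin 4 → F := ![![1, 0, 0, 0], ![CL.Sz.ov (CL.Sz.theta F m) 0 0, 0, 0, 1],
    ![CL.Sz.ov (CL.Sz.theta F m) x y, y, x, 1]]
  have hv0 : ∀ i, v i ≠ 0 := by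
    intro i; fin_cases i <;> simp [v]
  have hv : LinearIndependent F v := by
    rw [Fintype.linearIndependent_iff]
    intro c hc
    have a0 := congrFun hc 0
    have a1 := congrFun hc 1
    have a2 := congrFun hc 2
    have a3 := congrFun hc 3
    simp [v, Fin.sum_univ_three, CL.Sz.ov_zero] at a0 a1 a2 a3
    have hc2 : c 2 = 0 := by tauto
    intro i
    fin_cases i <;> simp_all
  have hp : ∀ i, (p i : Projectivization F (Fin 4 → F)) =
      (g⁻¹ : Cfsg.Sz F m) • Projectivization.mk F (v i) (hv0 i) := by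
    have h3 : ∀ i, (p i : Projectivization F (Fin 4 → F)) =
        (g⁻¹ : Cfsg.Sz F m) • (e (g • e.symm (p i)) : Projectivization F (Fin 4 → F)) := by
      intro i
      rw [he, e.apply_symm_apply]
      exact (inv_smul_smul g _).symm
    intro i
    rw [h3]
    congr 1
    fin_cases i
    · exact (congrArg (fun z => (e z : Projectivization F (Fin 4 → F))) h0).trans (by rw [he0]; rfl)
    · exact (congrArg (fun z => (e z : Projectivization F (Fin 4 → F))) h1).trans (hpt 0 0)
    · exact (congrArg (fun z => (e z : Projectivization F (Fin 4 → F))) hxy).trans (hpt x y)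
  let A : Matrix.SpecialLinearGroup (Fin 4) F := (g⁻¹ : Cfsg.Sz F m)
  have hw : LinearIndependent F (fun i => A • v i) :=
    hv.map' (DistribMulAction.toLinearEquiv F (Fin 4 → F) A).toLinearMap (LinearEquiv.ker _)
  have : (fun i => (p i : Projectivization F (Fin 4 → F))) =
      fun i => Projectivization.mk F (A • v i) (hw.ne_zero i) := by
    funext i
    rw [hp]
    rfl
  rw [this]
  exact Projectivization.Independent.mk _ _ hw

end Cfsg.Agent.S0335
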