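import Cfsg.Statements.S1147
import Cfsg.Agent.CHEV.PSZass
import Cfsg.Agent.CHEV.PSZCube
import Cfsg.Agent.CHEV.PSSz2

set_option autoImplicit false
open Cfsg

namespace Cfsg.Agent.S1147

/-- Let a finite simple Zassenhaus group `G` on `Ω` have a normal subgroup `U` of `G_a`, regular on `Ω` minus `a`, which is a non-abelian 2-group. Then `|Ω| = 2^(2n) + 1` with `n` odd, `n > 1`, a two-point stabiliser `G_a ⊓ G_b` is cyclic of order `2^n - 1`, and `U` is isomorphic to the type-A group over a field with `2^n` elements for some field automorphism `φ`. -/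
theorem result {G Ω : Type*} [Group G] [Finite G] [MulAction G Ω] [Finite Ω]
    (hZ : Cfsg.IsZassenhausGroup G Ω) [IsSimpleGroup G] {a b : Ω} (hab : a ≠ b)
    (U : Subgroup G) (hUle : U ≤ MulAction.stabilizer G a)
    (hUn : ∀ h ∈ MulAction.stabilizer G a, ∀ u ∈ U, h * u * h⁻¹ ∈ U)
    (hreg : ∀ c d : Ω, c ≠ a → d ≠ a → ∃! u : U, (u : G) • c = d)
    (hU2 : IsPGroup 2 U) (hUna : ∃ u ∈ U, ∃ v ∈ U, u * v ≠ v * u) :
    ∃ n : ℕ, Odd n ∧ 1 < n ∧ Nat.card Ω = 2 ^ (2 * n) + 1 ∧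
      IsCyclic ↥(MulAction.stabilizer G a ⊓ MulAction.stabilizer G b) ∧
      Nat.card ↥(MulAction.stabilizer G a ⊓ MulAction.stabilizer G b) = 2 ^ n - 1 ∧
      ∃ (F : Type) (_ : Field F) (_ : Fintype F) (φ : F ≃+* F), Fintype.card F = 2 ^ n ∧
        Nonempty (U ≃* Cfsg.suzukiTypeA F (φ : F →+* F)) := by
  have := hZ.1
  obtain ⟨-, ⟨t, ht, rfl⟩, h⟩ := CL.PS.setup_of_zassenhaus hZ hUle hUn hreg hU2 hab.symm
  obtain ⟨hS, hV, h2⟩ := h t ht rfl
  obtain ⟨n, hn, ⟨C⟩⟩ := CL.PS.exists_FC hS h2 (CL.PS.isSolvable_D_of_V_eq_bot hS hV)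
  have hF : Nat.card (GaloisField 2 n) = 2 ^ n := GaloisField.card 2 n (by omega)
  let _ := C.act hS
  have hna : ∃ x y : U, x * y ≠ y * x := by
    obtain ⟨x, hx, y, hy, h⟩ := hUna
    exact ⟨⟨x, hx⟩, ⟨y, hy⟩, fun e => h (congrArg Subtype.val e)⟩
  have H := C.hig hS hU2
  have hc := ((H.card_eq hna).resolve_right fun h => CL.PS.card_ne_cube hS C hV hU2 hUna h.1).1
  have := Fintype.ofFinite (GaloisField 2 n)
  obtain ⟨m, -, h3, -⟩ := C.exists_szModel hS hU2 hUna hc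
  rw [← Nat.card_eq_fintype_card, hF] at h3
  obtain ⟨φ, -, -, h4⟩ := H.typeA hna hc
  refine ⟨n, ⟨m, Nat.pow_right_injective le_rfl h3⟩, hn, ?_, ?_, ?_, _, _, this, φ, ?_, h4⟩
  · rw [CL.PS.card_omega hS, hc, hF, ← pow_mul, mul_comm]
  · have e := CL.PS.D_eq_range_of_V_eq_bot hS hV C
    rw [show MulAction.stabilizer G a ⊓ MulAction.stabilizer G (t • a) = _ from e]
    exact isCyclic_of_surjective _ C.κ.rangeRestrict_surjective
  · rw [← hF]; exact CL.PS.card_D_of_V_eq_bot hS hV C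
  · rw [← Nat.card_eq_fintype_card, hF]

end Cfsg.Agent.S1147
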