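import Cfsg.Statements.S0347
import Cfsg.Agent.S1147

set_option autoImplicit false
open Cfsg

namespace Cfsg.Agent.S0347

/-- If in a finite simple Zassenhaus group the stabiliser of a point `x` has a normal `2`-subgroup `U` which is
non-abelian and acts regularly on the points other than `x`, then the group is simple of Suzuki order (order-level
predicate `IsSuzuki`). -/
theorem result {G Ω : Type*} [Group G] [Finite G] [MulAction G Ω] [Finite Ω]
    (hZ : Cfsg.IsZassenhausGroup G Ω) [IsSimpleGroup G]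
    (x : Ω) (U : Subgroup G) (hUle : U ≤ MulAction.stabilizer G x) (hUn : (U.subgroupOf (MulAction.stabilizer G x)).Normal)
    (hU2 : IsPGroup 2 U) (hUna : ∃ u v : U, u * v ≠ v * u)
    (hreg : ∀ y z : Ω, y ≠ x → z ≠ x → ∃! u : U, (u : G) • y = z) :
    Cfsg.IsSuzuki G := by
  have := hZ.1
  have hn : ∀ h ∈ MulAction.stabilizer G x, ∀ u ∈ U, h * u * h⁻¹ ∈ U := fun h hh u hu =>
    hUn.conj_mem ⟨u, hUle hu⟩ hu ⟨h, hh⟩
  obtain ⟨g, -, b, c, hbc, -⟩ := hZ.2.2.2.1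
  obtain ⟨y, hy⟩ : ∃ y, y ≠ x := by
    by_cases h : b = x
    · exact ⟨c, h ▸ hbc.symm⟩
    · exact ⟨b, h⟩
  obtain ⟨u, v, huv⟩ := hUna
  obtain ⟨n, ⟨m, rfl⟩, h1, h2, -, h3, -⟩ := Cfsg.Agent.S1147.result hZ hy.symm U hUle hn hreg hU2
    ⟨u, u.2, v, v.2, fun e => huv (Subtype.ext e)⟩
  obtain ⟨-, ⟨t, ht, rfl⟩, h⟩ := CL.PS.setup_of_zassenhaus hZ hUle hn hreg hU2 hy
  obtain ⟨hS, -⟩ := h t ht rfl
  refine ⟨‹_›, m, by omega, ?_⟩
  rw [CL.PS.card_omega hS, add_left_inj, mul_comm, pow_mul] at h2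
  rw [CL.PS.card_G hS, h2, show Nat.card (CL.PS.Dg x t) = _ from h3]
  ring

end Cfsg.Agent.S0347
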