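import Cfsg.Statements.S0340
import Cfsg.Agent.PERM.ZassFeit
import Cfsg.Agent.S0347

set_option autoImplicit false
open Cfsg

namespace Cfsg.Agent.S0340

open CL.Zass

/-- Classification of Zassenhaus groups, simple case, order-level form: a finite simple Zassenhaus group is
isomorphic to `PSL₂(F)` for some finite field `F` or is simple of Suzuki order. -/
theorem result {G Ω : Type*} [Group G] [Finite G] [MulAction G Ω]
    [Finite Ω] (hZ : Cfsg.IsZassenhausGroup G Ω) [IsSimpleGroup G] :
    (∃ (F : Type) (_ : Field F) (_ : Fintype F), Nonempty (G ≃* Matrix.ProjectiveSpecialLinearGroup (Fin 2) F)) ∨ Cfsg.IsSuzuki G := by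
  have hZ' := Z2.of_isZassenhaus hZ
  obtain ⟨a⟩ := hZ'.nonempty
  obtain ⟨b, hab⟩ := hZ'.exists_ne a
  obtain ⟨F, hK⟩ := hZ'.exists_ker b
  rcases feit hZ hab hK with h | h
  · left
    rcases sharp_or_psl_of_comm hZ hab hK (hK.comm_of_card_le hZ' hab h) with h | h
    · obtain ⟨s, hs, hsa, hsb⟩ := hZ'.exists_invol_swap hab
      obtain ⟨K, _, _, h1, ⟨e⟩⟩ := hZ'.pgl_of_inverted hab h hsa hsb
        (hZ'.inverted_of_simple hab hs hsa hsb)
      have h3 := hZ'.three
      have hc : ringChar K = 2 := by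
        rw [FiniteField.even_card_iff_char_two]
        by_contra h2
        have := hZ'.two_mul_le_of_simple hab (by rw [Nat.even_iff]; omega)
        omega
      have : CharP K 2 := ringChar.of_eq hc
      obtain ⟨⟨e'⟩, -⟩ := nonempty_pgl_equiv_of_char_two (K := K) (CharP.cast_eq_zero K 2)
      exact ⟨K, inferInstance, inferInstance, ⟨e.trans e'⟩⟩
    · obtain ⟨-, K, _, _, -, -, h2⟩ := h
      exact ⟨K, inferInstance, inferInstance, h2⟩
  · right
    refine Cfsg.Agent.S0347.result hZ b F hK.le_stabilizer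
      ⟨fun n hn g => hK.norm g g.2 n hn⟩ h.1 h.2 fun y z hy hz => ?_
    obtain ⟨u, hu, e⟩ := hK.trans y z hy hz
    exact ⟨⟨u, hu⟩, e, fun v hv => Subtype.ext (hK.eq_of_smul_eq v.2 hu hy (hv.trans e.symm))⟩

end Cfsg.Agent.S0340
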