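import Cfsg.Statements.S0341
import Cfsg.Agent.PERM.ZassAffine

set_option autoImplicit false
open Cfsg

namespace Cfsg.Agent.S0341

open CL.Zass

/-- If a finite group acts faithfully and doubly transitively, no non-identity element fixes three points, some
non-identity element fixes two points, and some normal subgroup acts regularly, then the number of points
is `2^p` with `p` prime. -/
theorem result {G Ω : Type*} [Group G]
    [MulAction G Ω] [Fintype Ω] [FaithfulSMul G Ω] (h2 : MulAction.IsMultiplyPretransitive G Ω 2)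
    (h3 : ∀ g : G, ∀ a b c : Ω, a ≠ b → b ≠ c → a ≠ c → g • a = a → g • b = b → g • c = c → g = 1)
    (hfix : ∃ g : G, g ≠ 1 ∧ ∃ a b : Ω, a ≠ b ∧ g • a = a ∧ g • b = b)
    (N : Subgroup G) [N.Normal] (hNt : MulAction.IsPretransitive N Ω)
    (hNr : ∀ a : Ω, MulAction.stabilizer N a = ⊥) :
    ∃ p : ℕ, p.Prime ∧ Fintype.card Ω = 2 ^ p := by
  obtain ⟨g, g1, a, b, hab, ha, hb⟩ := hfix
  have hZ : Z2 G Ω :=
    { trans := MulAction.is_two_pretransitive_iff.mp h2
      sharp := fun g _ _ _ hab hac hbc => h3 g _ _ _ hab hbc hac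
      three := by
        obtain ⟨c, hc⟩ : ∃ c : Ω, g • c ≠ c := by
          by_contra h
          push Not at h
          exact g1 (eq_of_smul_eq_smul (α := Ω) fun x => by rw [h, one_smul])
        rw [← Set.ncard_univ]
        exact (Set.two_lt_ncard_iff (Set.toFinite _)).mpr ⟨a, b, c, trivial, trivial, trivial, hab,
          fun e => hc (e ▸ ha), fun e => hc (e ▸ hb)⟩ }
  have := hZ.finiteG
  have hH : St G a b ≠ ⊥ := (Subgroup.ne_bot_iff_exists_ne_one).mpr
    ⟨⟨g, ha, hb⟩, fun e => g1 (congrArg Subtype.val e)⟩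
  obtain ⟨F, hK⟩ := hZ.exists_ker a
  obtain ⟨K, _, _, ι, rfl, rfl, h⟩ := hK.exists_affine_chart hab
    (hK.comm_of_regular_normal hZ hab hH N hNt hNr) N hNt hNr
    (hZ.comm_of_regular_normal N hNt hNr).1
  obtain ⟨p, hp, hd⟩ := Nat.exists_prime_and_dvd
    ((Subgroup.one_lt_card_iff_ne_bot _).mpr hH).ne'
  have := Fact.mk hp
  obtain ⟨x, hx⟩ := exists_prime_orderOf_dvd_card' p hd
  have hx' : Nat.card (Subgroup.zpowers (x : G)) = p := by
    rw [Nat.card_zpowers, Subgroup.orderOf_coe, hx]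
  refine ⟨p, hp, ?_⟩
  rw [← Nat.card_eq_fintype_card, hZ.card_eq_two_pow ι h (Subgroup.zpowers_le.mpr x.2)
    ((Subgroup.one_lt_card_iff_ne_bot _).mp (hx' ▸ hp.one_lt)), hx']

end Cfsg.Agent.S0341
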