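import Cfsg.Statements.S0345
import Cfsg.Agent.PERM.ZassSimple

set_option autoImplicit false
open Cfsg

namespace Cfsg.Agent.S0345

open CL.Zass

/-- In a finite simple Zassenhaus group the stabiliser `H` of two points `a ≠ b` is cyclic, and some involution
interchanging `a` and `b` inverts every element of `H`. -/
theorem result {G Ω : Type*} [Group G] [Finite G] [MulAction G Ω] [Finite Ω]
    (hZ : Cfsg.IsZassenhausGroup G Ω) [IsSimpleGroup G]
    {a b : Ω} (hab : a ≠ b) :
    IsCyclic ↥(MulAction.stabilizer G a ⊓ MulAction.stabilizer G b) ∧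
      ∃ v : G, orderOf v = 2 ∧ v • a = b ∧ v • b = a ∧ ∀ h ∈ MulAction.stabilizer G a ⊓ MulAction.stabilizer G b, v * h * v⁻¹ = h⁻¹ := by
  have hZ' := Z2.of_isZassenhaus hZ
  obtain ⟨s, hs, hsa, hsb⟩ := hZ'.exists_invol_swap hab
  have h := hZ'.inverted_of_simple hab hs hsa hsb
  have := isMulCommutative_of_comm (comm_of_inverted h)
  have : Fact (Nat.Prime 2) := ⟨Nat.prime_two⟩
  refine ⟨hZ'.isCyclic_of_comm hab le_rfl, s, orderOf_eq_prime (by rw [sq, hs]) ?_, hsa, hsb, h⟩
  rintro rfl
  exact hab (by simpa using hsa)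

end Cfsg.Agent.S0345
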