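import Cfsg.Statements.S0346
import Cfsg.Agent.PERM.ZassFeit

set_option autoImplicit false
open Cfsg

namespace Cfsg.Agent.S0346

open CL.Zass

/-- The number of points of a finite simple Zassenhaus group is `p^k + 1` for some prime power `p^k` (the regular normal
subgroup of a point stabiliser is a `p`-group). -/
theorem result {G Ω : Type*} [Group G] [Finite G] [MulAction G Ω] [Fintype Ω]
    (hZ : Cfsg.IsZassenhausGroup G Ω) [IsSimpleGroup G] :
    IsPrimePow (Fintype.card Ω - 1) := by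
  have hZ' := Z2.of_isZassenhaus hZ
  obtain ⟨a⟩ := hZ'.nonempty
  obtain ⟨b, hab⟩ := hZ'.exists_ne a
  obtain ⟨F, hK⟩ := hZ'.exists_ker b
  obtain ⟨p, hp, hF⟩ : ∃ p : ℕ, p.Prime ∧ IsPGroup p F := by
    rcases feit hZ hab hK with h | h
    · obtain ⟨p, hp, h⟩ := hK.exists_prime_pow_eq_one hZ' hab h
      exact ⟨p, hp, fun u => ⟨1, Subtype.ext (by simpa using h u u.2)⟩⟩
    · exact ⟨2, Nat.prime_two, h.1⟩
  have := Fact.mk hp
  obtain ⟨k, hk⟩ := hF.exists_card_eq
  have h1 := hK.card hZ'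
  have h2 := hZ'.three
  rw [← Nat.card_eq_fintype_card, ← h1, Nat.add_sub_cancel, hk]
  refine hp.isPrimePow.pow ?_
  rintro rfl
  rw [pow_zero] at hk
  omega

end Cfsg.Agent.S0346
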