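import Cfsg.Statements.S0357
import Cfsg.Agent.SPOR.Steiner

set_option autoImplicit false
open Cfsg

namespace Cfsg.Agent.S0357

/-- In a Steiner system S(5, 6, 12), the complement of every block is again a block. -/
theorem result {α : Type*} [Fintype α] [DecidableEq α] (hα : Fintype.card α = 12) {B : Set (Finset α)} (hB : Cfsg.IsSteinerSystem 5 6 B) {b : Finset α} (hb : b ∈ B) : bᶜ ∈ B := by
  have h := CL.Steiner.ncard_block_inter_eq hB (by norm_num) hb (Finset.empty_subset b)
  rw [hα] at h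
  have h2 : CL.Steiner.tri (CL.Steiner.lam 5 6 12) (∅ : Finset α).card (6 - (∅ : Finset α).card) = 1 := by
    rw [Finset.card_empty]; decide +kernel
  rw [h2] at h
  have h3 : {c : Finset α | c ∈ B ∧ b ∩ c = ∅}.ncard = 1 := by exact_mod_cast h
  obtain ⟨c, hc⟩ := Set.ncard_eq_one.1 h3
  have h4 : c ∈ {c : Finset α | c ∈ B ∧ b ∩ c = ∅} := by rw [hc]; rfl
  obtain ⟨h5, h6⟩ := h4
  have h7 : c = bᶜ := by
    apply Finset.eq_of_subset_of_card_le
    · intro x hx
      rw [Finset.mem_compl]
      intro hxb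
      have : x ∈ b ∩ c := Finset.mem_inter.2 ⟨hxb, hx⟩
      rw [h6] at this
      simp at this
    · rw [Finset.card_compl, hα, hB.1 b hb, hB.1 c h5]
  rw [← h7]
  exact h5

end Cfsg.Agent.S0357
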