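import Cfsg.Statements.S0385
import Mathlib
import Cfsg.Agent.SPOR.M12
import Cfsg.Agent.SPOR.SimpleOn

set_option autoImplicit false
open Cfsg

namespace Cfsg.Agent.S0385

open CL.Golay CL.M12 MulAction

/-- The 6-point intersections of octads with a fixed dodecad form a Steiner system S(5, 6, 12) on the dodecad. -/
theorem result (d : Finset Cfsg.GolayPt) (hd : d ∈ Cfsg.dodecads) : Cfsg.IsSteinerSystem 5 6 {h : Finset {p : Cfsg.GolayPt // p ∈ d} | ∃ o ∈ Cfsg.octads, (o ∩ d).card = 6 ∧ h = Finset.subtype (fun p => p ∈ d) o} := by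
  have hc : ∀ o : Finset Cfsg.GolayPt,
      (Finset.subtype (fun p => p ∈ d) o).card = (o ∩ d).card := fun o => by
    rw [Finset.card_subtype, Finset.filter_mem_eq_inter]
  refine ⟨?_, fun s hs => ?_⟩
  · rintro _ ⟨o, -, h, rfl⟩
    rw [hc, h]
  · have hs' : (s.map (Function.Embedding.subtype _)).card = 5 := by rw [Finset.card_map, hs]
    obtain ⟨o, ⟨ho, hso⟩, hu⟩ := steiner_octads.2 _ hs'
    have hsub : ∀ o : Finset Cfsg.GolayPt, s ⊆ Finset.subtype (fun p => p ∈ d) o ↔
        s.map (Function.Embedding.subtype _) ⊆ o := fun o => by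
      rw [Finset.map_subset_iff_subset_preimage]
      exact forall₂_congr fun a _ => by simp
    refine ⟨Finset.subtype (fun p => p ∈ d) o, ⟨⟨o, ho, ?_, rfl⟩, (hsub o).2 hso⟩, ?_⟩
    · have h1 : 5 ≤ (o ∩ d).card := by
        rw [← hc, ← hs]
        exact Finset.card_le_card ((hsub o).2 hso)
      have h2 := card_symmDiff_add o d
      have h3 := card_of_mem_code (symmDiff_mem_code ho.1 hd.1)
      have h4 : (o ∩ d).card ≤ o.card := Finset.card_le_card Finset.inter_subset_left
      rw [ho.2] at h4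
      rw [ho.2, hd.2] at h2
      omega
    · rintro _ ⟨⟨o', ho', -, rfl⟩, h⟩
      rw [hu o' ⟨ho', (hsub o').1 h⟩]

end Cfsg.Agent.S0385
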