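import Cfsg.Statements.S0403
import Mathlib
import Cfsg.Agent.SPOR.LeechSimple

set_option autoImplicit false
open Cfsg

namespace Cfsg.Agent.S0403

/-- Stabiliser of a vector of sum of squares 48 is simple of order 495766656000. -/
theorem result (v : Cfsg.leechLattice) (hv : Cfsg.sqNorm (v : Cfsg.GolayPt → ℤ) = 48) : Cfsg.IsCo3 (MulAction.stabilizer Cfsg.Co0 v) := by
  refine ⟨?_, CL.Leech.card_stab_48 hv⟩
  obtain ⟨g, rfl⟩ := CL.Leech.trans_48 CL.Leech.sqNorm_W0 hv
  exact (CL.Leech.conj_stab g _).simple CL.Leech.simple_stab_W0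

end Cfsg.Agent.S0403
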