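import Cfsg.Statements.S0404
import Mathlib
import Cfsg.Agent.SPOR.LeechSimple

set_option autoImplicit false
open Cfsg

namespace Cfsg.Agent.S0404

/-- Joint stabiliser of two minimal vectors with coordinate dot product −8 is simple of order 898128000. -/
theorem result (v w : Cfsg.leechLattice) (hv : Cfsg.sqNorm (v : Cfsg.GolayPt → ℤ) = 32) (hw : Cfsg.sqNorm (w : Cfsg.GolayPt → ℤ) = 32) (hvw : Cfsg.dotInt (v : Cfsg.GolayPt → ℤ) (w : Cfsg.GolayPt → ℤ) = -8) : Cfsg.IsMcL ↥(MulAction.stabilizer Cfsg.Co0 v ⊓ MulAction.stabilizer Cfsg.Co0 w) := by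
  open CL.Leech in
  obtain ⟨g, rfl, rfl⟩ := pair_trans (w := W0 - Cfsg.Spor.leechU) sqNorm_U (by decide +kernel) hv hw
    (Eq.trans (by decide +kernel) hvw.symm)
  have h := (CL.Leech.conj_stab g Cfsg.Spor.leechU).inf
    (CL.Leech.conj_stab g (CL.Leech.W0 - Cfsg.Spor.leechU))
  rw [← CL.Leech.stab_summand] at h
  exact ⟨h.simple CL.Leech.simple_GMcL, h.card.trans CL.Leech.card_GMcL⟩

end Cfsg.Agent.S0404
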