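import Cfsg.Statements.S0423
import Mathlib
import Cfsg.Agent.PERM.J2U

set_option autoImplicit false
open Cfsg

namespace Cfsg.Agent.S0423

/-- Existence of a simple group of order 604800. -/
theorem result : ∃ G : Subgroup (Equiv.Perm (Fin 100)), Cfsg.IsJ2 G := by
  have hs := CL.J2.isSimpleGroup_J2
  have hi := CL.J2.model.index_K
  generalize CL.CG.gen CL.J2.φ CL.J2.LK = K at hi
  let _ := Fintype.ofFinite (Cfsg.Spor.J2 ⧸ K)
  let e : (Cfsg.Spor.J2 ⧸ K) ≃ Fin 100 := Fintype.equivFinOfCardEq (Nat.card_eq_fintype_card.symm.trans hi)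
  let f := e.permCongrHom.toMonoidHom.comp (MulAction.toPermHom Cfsg.Spor.J2 (Cfsg.Spor.J2 ⧸ K))
  have hf : Function.Injective f := by
    refine e.permCongrHom.injective.comp ?_
    rw [← MonoidHom.ker_eq_bot_iff, ← Subgroup.normalCore_eq_ker]
    refine (Subgroup.Normal.eq_bot_or_eq_top inferInstance).resolve_right fun h => ?_
    rw [top_le_iff.1 (h.symm.trans_le K.normalCore_le), Subgroup.index_top] at hi
    omega
  let ε := MonoidHom.ofInjective hf
  exact ⟨f.range, ε.symm.isSimpleGroup, (Nat.card_congr ε.toEquiv).symm.trans CL.J2.card_J2⟩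

end Cfsg.Agent.S0423
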