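import Cfsg.Statements.S0429
import Cfsg.Agent.SPOR.Srg77
import Cfsg.Agent.SPOR.Rank3

set_option autoImplicit false
open Cfsg

namespace Cfsg.Agent.S0429

/-- Uniqueness of the strongly regular graph with parameters (77, 16, 0, 4). -/
theorem result {V W : Type*} [Fintype V] [Fintype W] {G : SimpleGraph V} {H : SimpleGraph W} [DecidableRel G.Adj] [DecidableRel H.Adj] (hG : G.IsSRGWith 77 16 0 4) (hH : H.IsSRGWith 77 16 0 4) : Nonempty (G ≃g H) := by
---
  classical
  obtain ⟨α, _, _, B, hα, hB⟩ := CL.Srg.exists_steiner22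
  obtain ⟨e⟩ := CL.Srg.nonempty_iso77 hG hα hB
  obtain ⟨f⟩ := CL.Srg.nonempty_iso77 hH hα hB
  exact ⟨e.trans f.symm⟩

end Cfsg.Agent.S0429
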