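import Cfsg.Statements.S0442
import Mathlib
-- import your own Cfsg.Agent.* helpers here

set_option autoImplicit false
open Cfsg

namespace Cfsg.Agent.S0442

/-- A standard trick for producing elements of an involution centraliser: for an involution a and an element g, let b be the conjugate g⁻¹ * a * g. If a * b has odd order 2m + 1 then g * (a * b) ^ m commutes with a; if a * b has even order 2m then (a * b) ^ m and (a * (g * a * g⁻¹)) ^ m commute with a. -/
theorem result {G : Type*} [Group G] (a g : G) (ha : orderOf a = 2) : (∀ m : ℕ, orderOf (a * (g⁻¹ * a * g)) = 2 * m + 1 → Commute (g * (a * (g⁻¹ * a * g)) ^ m) a) ∧ (∀ m : ℕ, orderOf (a * (g⁻¹ * a * g)) = 2 * m → Commute ((a * (g⁻¹ * a * g)) ^ m) a ∧ Commute ((a * (g * a * g⁻¹)) ^ m) a) := by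
  have haa : a * a = 1 := by
    have := pow_orderOf_eq_one a
    rwa [ha, pow_two] at this
  have ha' : a⁻¹ = a := inv_eq_of_mul_eq_one_right haa
  -- a inverts a * (h⁻¹ a h)
  have inv : ∀ h : G, ∀ m : ℕ, a * (a * (h⁻¹ * a * h)) ^ m * a = ((a * (h⁻¹ * a * h)) ^ m)⁻¹ := by
    intro h m
    have : a * (a * (h⁻¹ * a * h)) * a⁻¹ = (a * (h⁻¹ * a * h))⁻¹ := by
      rw [← mul_assoc a a, haa]; simp only [mul_inv_rev, ha', inv_inv, one_mul, mul_assoc]
    rw [← inv_pow, ← this, conj_pow, ha']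
  have even : ∀ h : G, ∀ m : ℕ, (a * (h⁻¹ * a * h)) ^ (2 * m) = 1 → Commute ((a * (h⁻¹ * a * h)) ^ m) a := by
    intro h m hm
    have h1 := inv h m
    have h2 : ((a * (h⁻¹ * a * h)) ^ m)⁻¹ = (a * (h⁻¹ * a * h)) ^ m := by
      rw [inv_eq_iff_mul_eq_one, ← pow_add, ← two_mul, hm]
    rw [h2] at h1
    generalize (a * (h⁻¹ * a * h)) ^ m = y at h1
    show y * a = a * y
    calc y * a = (a * a) * y * a := by rw [haa, one_mul]
      _ = a * (a * y * a) := by simp only [mul_assoc]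
      _ = a * y := by rw [h1]
  refine ⟨fun m hm => ?_, fun m hm => ⟨even g m (by rw [← hm, pow_orderOf_eq_one]), ?_⟩⟩
  · have h1 := inv g m
    have h2 : (a * (g⁻¹ * a * g)) ^ m * ((a * (g⁻¹ * a * g)) * (a * (g⁻¹ * a * g)) ^ m) = 1 := by
      rw [← pow_succ', ← pow_add, show m + (m + 1) = 2 * m + 1 by ring, ← hm, pow_orderOf_eq_one]
    generalize (a * (g⁻¹ * a * g)) ^ m = y at h1 h2
    show g * y * a = a * (g * y)
    have h3 : y⁻¹ = a * (g⁻¹ * a * g) * y := (eq_inv_of_mul_eq_one_right h2).symm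
    rw [h3] at h1
    have h4 : y * a = g⁻¹ * a * g * y := by
      have : a * (y * a) = a * (g⁻¹ * a * g * y) := by rw [← mul_assoc, h1]; simp only [mul_assoc]
      exact mul_left_cancel this
    rw [mul_assoc, h4]; group
  · have := even g⁻¹ m (by
      have h1 : a * (g⁻¹⁻¹ * a * g⁻¹) = g * (a * (g⁻¹ * a * g))⁻¹ * g⁻¹ := by
        simp only [mul_inv_rev, ha', inv_inv]; group
      rw [h1, conj_pow, inv_pow, ← hm, pow_orderOf_eq_one]; group)
    rwa [inv_inv] at this

end Cfsg.Agent.S0442
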