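import Cfsg.Statements.S0459
import Mathlib
import Cfsg.Agent.SPOR.RuGam

set_option autoImplicit false
open Cfsg

namespace Cfsg.Agent.S0459

/-- The Rudvalis group exists as a transitive permutation group of degree 4060: simple of order 145926144000, with point stabiliser of order 35942400 containing a simple subgroup of order 17971200 (the order of the Tits group). -/
theorem result : ∃ H : Subgroup (Equiv.Perm (Fin 4060)), Cfsg.IsRu H ∧ MulAction.IsPretransitive H (Fin 4060) ∧ Nat.card (MulAction.stabilizer H (0 : Fin 4060)) = 35942400 ∧ ∃ T : Subgroup (MulAction.stabilizer H (0 : Fin 4060)), Cfsg.IsTits T := by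
  have key : ∀ {G H : Type} [Group G] [Group H] (e : G ≃* H) (K : Subgroup G), Cfsg.IsTits K →
      ∃ T : Subgroup H, Cfsg.IsTits T := fun e K h =>
    ⟨K.map e.toMonoidHom, @MulEquiv.isSimpleGroup _ _ _ _ h.1 (e.subgroupMap K).symm,
      (Subgroup.card_map_of_injective e.injective).trans h.2⟩
  exact ⟨CL.Ru.Gam, ⟨inferInstance, CL.Ru.card_Gam⟩, inferInstance, CL.Ru.card_stab,
    key (G := CL.Chev.Tits.G) CL.Ru.stabEquiv _ ⟨CL.Chev.Tits.isSimpleGroup_tits, CL.Chev.Tits.card_tits⟩⟩

end Cfsg.Agent.S0459
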