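import Cfsg.Statements.S0461
import Cfsg.Agent.SPOR.J4G

set_option autoImplicit false
open Cfsg

namespace Cfsg.Agent.S0461

theorem aux {G X : Type*} [Group G] [Group X] (ρ : G →* X) (h : Function.Injective ρ)
    (hG : IsJ4 G) : IsJ4 ρ.range := by
  have e := MonoidHom.ofInjective h
  have := hG.1
  exact ⟨e.symm.isSimpleGroup, (Nat.card_congr e.toEquiv).symm.trans hG.2⟩

/-- Janko's fourth group exists as a group of 112 × 112 matrices over the field with two elements: GL(112, 2) has a simple subgroup of order 86775571046077562880. -/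
theorem result : ∃ H : Subgroup (GL (Fin 112) (ZMod 2)), Cfsg.IsJ4 H := by
  exact ⟨CL.J4G.ρ.range, aux CL.J4G.ρ CL.J4G.faithful.2 ⟨CL.J4G.isSimpleGroup, CL.J4G.card⟩⟩

end Cfsg.Agent.S0461
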