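import Cfsg.Statements.S0462
import Mathlib
import Cfsg.Agent.SPOR.HeSp

set_option autoImplicit false
open Cfsg

namespace Cfsg.Agent.S0462

/-- The Held group exists as a transitive permutation group of degree 2058: simple of order 4030387200, with point stabiliser containing, with index 2, a copy of the 4-dimensional symplectic group over the field with four elements. -/
theorem result : ∃ H : Subgroup (Equiv.Perm (Fin 2058)), Cfsg.IsHe H ∧ MulAction.IsPretransitive H (Fin 2058) ∧ ∃ (F : Type) (_ : Field F) (_ : Fintype F), Fintype.card F = 4 ∧ ∃ N : Subgroup (MulAction.stabilizer H (0 : Fin 2058)), N.index = 2 ∧ Nonempty (N ≃* Matrix.symplecticGroup (Fin 2) F) := by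
  have := CL.He.isSimpleGroup
  let e := MonoidHom.ofInjective CL.He.model.toFin_injective
  refine ⟨CL.He.model.toFin.range, ⟨e.symm.isSimpleGroup, (Nat.card_congr e.toEquiv).symm.trans CL.He.card⟩,
    CL.He.model.isPretransitive_toFin, CL.F4, inferInstance, inferInstance, rfl, ?_⟩
  obtain ⟨N, -, h2, ⟨f⟩⟩ := CL.HeSp.exists_sub
  obtain ⟨s⟩ := CL.He.model.stabilizer_toFin
  exact ⟨N.map s.toMonoidHom, (Subgroup.index_map_equiv N s).trans h2,
    ⟨(N.equivMapOfInjective _ s.injective).symm.trans f⟩⟩

end Cfsg.Agent.S0462
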