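import Cfsg.Statements.S0463
import Cfsg.Agent.SPOR.HU.Alt

set_option autoImplicit false
open Cfsg

namespace Cfsg.Agent.S0463

open MulAction in
theorem aux {G : Type} [Group G] [Finite G] {H : Subgroup G} {n : ℕ} [NeZero n] (hn : H.index = n)
    (hc : H.normalCore = ⊥) : ∃ φ : G →* Equiv.Perm (Fin n), Function.Injective φ ∧
      IsPretransitive φ.range (Fin n) ∧ Nonempty (stabilizer φ.range (0 : Fin n) ≃* H) := by
  classical
  let e0 : G ⧸ H ≃ Fin n := Finite.equivFinOfCardEq hn
  let e : G ⧸ H ≃ Fin n := e0.trans (Equiv.swap (e0 (1 : G)) 0)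
  have he : e (1 : G) = 0 := Equiv.swap_apply_left _ _
  let φ : G →* Equiv.Perm (Fin n) := e.permCongrHom.toMonoidHom.comp (toPermHom G (G ⧸ H))
  have hφ : ∀ x q, φ x (e q) = e (x • q) := fun x q => by simp [φ]
  have hi : Function.Injective φ := e.permCongrHom.injective.comp
    ((MonoidHom.ker_eq_bot_iff _).1 (H.normalCore_eq_ker.symm.trans hc))
  refine ⟨φ, hi, ⟨fun p q => ?_⟩, ?_⟩
  · obtain ⟨p, rfl⟩ := e.surjective p
    obtain ⟨q, rfl⟩ := e.surjective q
    obtain ⟨x, rfl⟩ := exists_smul_eq G p q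
    exact ⟨⟨_, x, rfl⟩, hφ x p⟩
  · let f := MonoidHom.ofInjective hi
    have : H.map f.toMonoidHom = stabilizer φ.range (0 : Fin n) := by
      ext y
      obtain ⟨x, rfl⟩ := f.surjective y
      rw [show f x = f.toMonoidHom x from rfl,
        Subgroup.mem_map_iff_mem (f := f.toMonoidHom) f.injective, mem_stabilizer_iff, ← he]
      conv_lhs => rw [← stabilizer_quotient H, mem_stabilizer_iff, ← e.injective.eq_iff, ← hφ]
      rfl
    exact ⟨(this ▸ H.equivMapOfInjective _ f.injective).symm⟩

/-- The Harada–Norton group exists as a transitive permutation group of degree 1140000: simple of order 273030912000000 with point stabiliser isomorphic to the alternating group of degree 12. -/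
theorem result : ∃ H : Subgroup (Equiv.Perm (Fin 1140000)), Cfsg.IsHN H ∧ MulAction.IsPretransitive H (Fin 1140000) ∧ Nonempty (MulAction.stabilizer H (0 : Fin 1140000) ≃* alternatingGroup (Fin 12)) := by
  have := CL.HN.isSimpleGroup
  obtain ⟨φ, hi, h1, ⟨s⟩⟩ := aux CL.HU.index_Λ ((IsSimpleGroup.eq_bot_or_eq_top_of_normal _
    inferInstance).resolve_right fun h => by
      have h2 := CL.HU.index_Λ
      rw [top_le_iff.1 (h.ge.trans CL.HU.Λ.range.normalCore_le), Subgroup.index_top] at h2
      omega)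
  let e := MonoidHom.ofInjective hi
  exact ⟨φ.range, ⟨e.symm.isSimpleGroup, (Nat.card_congr e.toEquiv).symm.trans CL.HN.card⟩, h1,
    ⟨s.trans (MonoidHom.ofInjective CL.HU.Λ_inj).symm⟩⟩

end Cfsg.Agent.S0463
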