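import Cfsg.Statements.S0464
import Cfsg.Agent.SPOR.Th.L3D4

set_option autoImplicit false
open Cfsg

namespace Cfsg.Agent.S0464

theorem aux {G X A : Type*} [Group G] [Group X] [Group A] {ρ : G →* X} (hρ : Function.Injective ρ)
    (hG : Cfsg.IsTh G) {f : A →* G} (hf : Function.Injective f) (hi : f.range.index = 143127000)
    {L : Subgroup A} (hL : IsSimpleGroup L) (hc : Nat.card L = 211341312) :
    ∃ H : Subgroup X, Cfsg.IsTh H ∧ ∃ K : Subgroup H, K.index = 143127000 ∧
      ∃ L : Subgroup H, L ≤ K ∧ Cfsg.Is3D4 L := by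
  have := hG.1
  let e := MonoidHom.ofInjective hρ
  have hf' : Function.Injective (e.toMonoidHom.comp f) := e.injective.comp hf
  let e' := Subgroup.equivMapOfInjective L _ hf'
  refine ⟨ρ.range, ⟨e.symm.isSimpleGroup, (Nat.card_congr e.toEquiv).symm.trans hG.2⟩,
    f.range.map e.toMonoidHom, ?_, L.map (e.toMonoidHom.comp f), ?_, e'.symm.isSimpleGroup, 2,
    Nat.prime_two.isPrimePow, ?_⟩
  · rw [Subgroup.index_map_of_bijective (f := e.toMonoidHom) e.bijective, hi]
  · rw [← Subgroup.map_map]
    exact Subgroup.map_mono (Subgroup.map_le_range _ _)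
  · rw [← Nat.card_congr e'.toEquiv, hc]
    norm_num

/-- The Thompson group exists as a group of 248 × 248 matrices over the field with three elements: a simple subgroup of GL(248, 3) of order 90745943887872000, possessing a subgroup of index 143127000 which contains a simple subgroup of the order of a triality-twisted D4 group. -/
theorem result : ∃ H : Subgroup (GL (Fin 248) (ZMod 3)), Cfsg.IsTh H ∧ ∃ K : Subgroup H, K.index = 143127000 ∧ ∃ L : Subgroup H, L ≤ K ∧ Cfsg.Is3D4 L := by
  exact aux CL.ThG.faithful.2 ⟨CL.ThG.isSimpleGroup, CL.ThG.card⟩ CL.Th.ψX_injective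
    (CL.Th.ψX_range ▸ CL.ThG.index) CL.Th.isSimpleGroup_LA CL.Th.card_LA

end Cfsg.Agent.S0464
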