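import Cfsg.Statements.S0479
import Mathlib
import Cfsg.Agent.SPOR.ON45
import Cfsg.Agent.CLAS.SLBasic

set_option autoImplicit false
open Cfsg

namespace Cfsg.Agent.S0479

open CL.CG CL.ON45 Matrix

/-- A triple cover of the O'Nan group as 45 × 45 matrices over the field with seven elements: SL(45, 7) has a subgroup whose centre has order 3 and whose quotient by its centre is simple of order 460815505920. -/
theorem result : ∃ H : Subgroup (Matrix.SpecialLinearGroup (Fin 45) (ZMod 7)), Nat.card (Subgroup.center H) = 3 ∧ Cfsg.IsON (H ⧸ Subgroup.center H) := by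
  obtain ⟨ψ, hi, hψ⟩ := exists_proj
  let ι : SpecialLinearGroup (Fin 45) (ZMod 7) →* GL (Fin 45) (ZMod 7) := SpecialLinearGroup.toGL
  let f := π.comp ι
  let H := ψ.range.comap f
  have hs : Function.Surjective (f.subgroupComap ψ.range) := by
    rintro ⟨_, y, rfl⟩
    have : y ∈ f.range.comap ψ := by
      refine (CL.CE.gen_le_iff.2 fun w _ => CL.CE.ev_mem fun a _ => ?_) (CL.ON.gen_top.ge trivial)
      have h1 := det_gl a
      have h2 := (hψ a).symm
      generalize gl φ L a = x at h1 h2
      have h0 : x.1.det = 1 := by rw [← GeneralLinearGroup.val_det_apply, h1, Units.val_one]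
      have h3 : ι ⟨x.1, h0⟩ = x := Units.ext (SpecialLinearGroup.coe_GL_coe_matrix _)
      exact ⟨⟨x.1, h0⟩, (congrArg π h3).trans h2⟩
    obtain ⟨x, hx⟩ := this
    exact ⟨⟨x, y, hx.symm⟩, Subtype.ext hx⟩
  let e := MonoidHom.ofInjective hi
  have := CL.ON.isSimpleGroup
  have hsimple : IsSimpleGroup ψ.range := e.symm.isSimpleGroup
  have hcard : Nat.card ψ.range = 460815505920 := (Nat.card_congr e.toEquiv).symm.trans CL.ON.card
  have hz : Subgroup.center ψ.range = ⊥ := by
    refine (IsSimpleGroup.eq_bot_or_eq_top_of_normal _ inferInstance).resolve_right fun h => ?_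
    have : IsMulCommutative ψ.range := ⟨⟨fun a b => Subgroup.mem_center_iff.1 (h.ge trivial) a⟩⟩
    have := (Group.is_simple_iff_prime_card (α := ψ.range)).1 hsimple
    rw [hcard] at this
    exact absurd this (by norm_num)
  have hk : ∀ x : SpecialLinearGroup (Fin 45) (ZMod 7), f x = 1 ↔ x ∈ Subgroup.center _ := fun x => by
    refine (QuotientGroup.eq_one_iff _).trans ⟨fun h => Subgroup.mem_center_iff.2 fun y =>
      SpecialLinearGroup.toGL_injective ?_, fun h => ?_⟩
    · rw [map_mul, map_mul]; exact Subgroup.mem_center_iff.1 h _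
    · obtain ⟨r, -, hr⟩ := Matrix.SpecialLinearGroup.mem_center_iff.1 h
      refine Subgroup.mem_center_iff.2 fun y => Units.ext ?_
      have : (ι x).1 = scalar _ r := hr.symm
      rw [Units.val_mul, Units.val_mul, this]
      exact (scalar_commute r (fun _ => Commute.all _ _) _).symm.eq
  have hker : (f.subgroupComap ψ.range).ker = (Subgroup.center _).subgroupOf H := by
    ext x
    exact Subtype.ext_iff.trans (hk x.1)
  have hc := center_eq_ker _ (hker.le.trans fun x hx => Subgroup.mem_center_iff.2 fun y =>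
    Subtype.ext (Subgroup.mem_center_iff.1 hx y.1)) hs hz
  let e2 := (QuotientGroup.quotientMulEquivOfEq hc).trans (QuotientGroup.quotientKerEquivOfSurjective _ hs)
  refine ⟨H, ?_, e2.isSimpleGroup, (Nat.card_congr e2.toEquiv).trans hcard⟩
  rw [hc, hker, Nat.card_congr (Subgroup.subgroupOfEquivOfLe fun x hx => ?_).toEquiv,
    CL.SL.card_center_SL, Fintype.card_fin, Nat.card_zmod]
  · rfl
  · exact ⟨1, (map_one ψ).trans ((hk x).2 hx).symm⟩

end Cfsg.Agent.S0479
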