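import Cfsg.Statements.S0480
import Cfsg.Agent.SPOR.FT20
import Cfsg.Agent.SPOR.FiE8

set_option autoImplicit false
open Cfsg CL.Orth CL.OrthE CL.RC CL.FiC

namespace Cfsg.Agent.S0480

/-- The simple 3-transposition groups: if a finite non-abelian simple group G is generated by a conjugacy class of 3-transpositions, then G is isomorphic to a symplectic group Sp(2n, 2), or to a projective special unitary group PSU(n, 2) (defined over the field with four elements), or to the projective commutator subgroup of an orthogonal group in odd dimension over the field with three elements, or G has order 64561751654400, or G has order 4089470473293004800. -/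
theorem result {G : Type*} [Group G] [Finite G] [IsSimpleGroup G] (hna : ∃ x y : G, x * y ≠ y * x) {D : Set G} (hD : Cfsg.IsThreeTranspositionClass D) : (∃ n : ℕ, Nonempty (G ≃* Matrix.symplecticGroup (Fin n) (ZMod 2))) ∨ (∃ (F : Type) (_ : Field F) (_ : Fintype F) (n : ℕ), Fintype.card F = 4 ∧ Nonempty (G ≃* Cfsg.PSU n F 2)) ∨ (∃ m : ℕ, Nonempty (G ≃* Cfsg.POmega (ZMod 3) (Cfsg.quadFormOdd m (ZMod 3)))) ∨ Cfsg.IsFi22 G ∨ Cfsg.IsFi23 G := by
  obtain ⟨x, y, nxy⟩ := hna
  have hG := CL.TT.isGroup_of_isClass hD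
  have hZ : Subgroup.center G = ⊥ := (Subgroup.Normal.eq_bot_or_eq_top inferInstance).resolve_right
    fun h => nxy (Subgroup.mem_center_iff.1 (h ▸ Subgroup.mem_top y) x)
  have hp : commutator G = ⊤ := (Subgroup.Normal.eq_bot_or_eq_top inferInstance).resolve_left
    fun h => nxy (commutatorElement_eq_one_iff_mul_comm.1 (Subgroup.mem_bot.1
      (h ▸ Subgroup.commutator_mem_commutator (Subgroup.mem_top x) (Subgroup.mem_top y))))
  have hq : ∀ {H : Type} [Group H] (e : G ≃* H), commutator H = ⊤ := fun e => by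
    rw [← map_commutator_mulEquiv e, hp, ← MonoidHom.range_eq_map, MonoidHom.range_eq_top]
    exact e.surjective
  have sg : ∀ {H : Type} [Group H] (_ : G ≃* H) (f : H →* ℤˣ) (x : H), f x ≠ -1 := fun e f x h => by
    rw [Abelianization.commutator_subset_ker f (hq e ▸ Subgroup.mem_top x)] at h
    exact absurd h (by decide)
  let t : commutator G ≃* G := (MulEquiv.subgroupCongr hp).trans Subgroup.topEquiv
  have P := CL.FT.pr_of_prim (CL.TT.prim_of_simple_commutator hD t.isSimpleGroup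
    ⟨t.symm x, t.symm y, fun e => nxy (by simpa using congrArg t e)⟩)
  obtain ⟨d, hd, -⟩ := P.two
  rcases P.ty with ⟨n, hn, k⟩ | k | k | ⟨n, hn, k, -⟩ | k | k | k | k
  · obtain ⟨e, he⟩ := k.equiv hn hG hZ
    exact absurd (Equiv.Perm.IsSwap.sign_eq (he.subset ⟨d, hd, rfl⟩)) (sg e Equiv.Perm.sign _)
  · obtain ⟨m, e, -⟩ := k.equiv hG ⟨d, hd⟩ hZ
    exact .inl ⟨m, ⟨e⟩⟩
  · obtain ⟨n, hn, Q, hQ, k⟩ := k.rm
    obtain ⟨e, he⟩ := k.equiv2 hQ (by simp; omega) hG hZ
    obtain ⟨v, hv, -⟩ := (rank_eq_one_iff hQ _).1 (he.subset ⟨d, hd, rfl⟩)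
    exact absurd (dsign_refl hQ hv) (sg (e.trans (toO Q)) (dickson hQ (.inr (by simp; omega))) _)
  · obtain ⟨e, -⟩ := k.equiv hn hG P hZ
    exact .inr (.inl ⟨CL.F4, inferInstance, inferInstance, n, rfl, ⟨e⟩⟩)
  · obtain ⟨n, hn, Q, hQ, φ, i⟩ := k.rm
    have h5 : 5 ≤ Module.finrank (ZMod 3) (Fin n → ZMod 3) := by simpa using hn
    obtain ⟨e, -⟩ := CL.FT.equiv_quot i hG (CL.FT.fs_Rset sq_zmod3 hQ one_ne_zero) hZ
    rcases Nat.even_or_odd' n with ⟨m, hm | hm⟩
    · obtain ⟨_, v, hv, -⟩ := Rset_nonempty hQ h5 1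
      refine absurd (dsign_refl hQ (hv.trans_ne one_ne_zero)) (sg e (QuotientGroup.lift _
        ((dickson hQ (.inr (by omega))).comp (R Q 1).subtype) fun g hg => ?_)
          (QuotientGroup.mk ⟨_, refl_mem_R hv⟩))
      rcases (isScalar_iff hQ (by omega) _).1 ((mem_center_R_iff hQ h5 one_ne_zero g).1 hg) with r | r
      · exact (congrArg dsign r).trans dsign_one
      · exact (congrArg dsign r).trans ((dsign_negOne (by decide)).trans (by simp [hm]))
    · obtain ⟨a⟩ := CL.FiL.nonempty_comm_quot hQ h5 one_ne_zero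
      obtain ⟨b⟩ := nonempty_O_QOdd hQ (m := m) (by simpa using hm)
      exact .inr (.inr (.inl ⟨m, ⟨(e.trans (((MulEquiv.subgroupCongr (hq e)).trans
        Subgroup.topEquiv).symm.trans a)).trans ((pOmCongr b).trans (pOmegaEquiv _).symm)⟩⟩))
  · exact .inr (.inr (.inr (.inl ⟨inferInstance, Fi.card (k := 1) ⟨k, hD.2.2, hZ⟩⟩)))
  · exact .inr (.inr (.inr (.inr ⟨inferInstance, Fi.card (k := 2) ⟨k, hD.2.2, hZ⟩⟩)))
  · obtain ⟨e, -⟩ := CL.TTU.exists_mulEquiv_image (IsL.exists_isoOn (k := 3) k CL.FiE.fi_24.is) hG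
      (CL.TT.isGroup_of_isClass CL.Fi24.isThreeTranspositionClass) hZ CL.FiE.fi_24.cen
    have := CL.Fi24.index_commutator
    rw [hq e, Subgroup.index_top] at this
    exact absurd this (by decide)

end Cfsg.Agent.S0480
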