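import Cfsg.Statements.S0481
-- import your own Cfsg.Agent.* helpers here

set_option autoImplicit false
open Cfsg

namespace Cfsg.Agent.S0481

/-- Large extraspecial subgroups: let z be an involution of a finite group G whose centraliser C contains a normal 2-subgroup Q with centre of order 2 and all squares central, such that every element of G centralising Q lies in Q. Then C contains a Sylow 2-subgroup of G, and any involution of G whose centraliser contains a Sylow 2-subgroup of G is conjugate to z. -/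
theorem result {G : Type*} [Group G] [Finite G] (z : G) (hz : orderOf z = 2) (Q : Subgroup G) (hQC : Q ≤ Subgroup.centralizer ({z} : Set G)) (hQn : ∀ g ∈ Subgroup.centralizer ({z} : Set G), ∀ q ∈ Q, g * q * g⁻¹ ∈ Q) (hQ2 : IsPGroup 2 Q) (hZ : Nat.card (Subgroup.center Q) = 2) (hsq : ∀ x : Q, x ^ 2 ∈ Subgroup.center Q) (hlarge : Subgroup.centralizer (Q : Set G) ≤ Q) : (∃ P : Sylow 2 G, (P : Subgroup G) ≤ Subgroup.centralizer ({z} : Set G)) ∧ ∀ u : G, orderOf u = 2 → (∃ P : Sylow 2 G, (P : Subgroup G) ≤ Subgroup.centralizer ({u} : Set G)) → IsConj z u := by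
  have : Fact (Nat.Prime 2) := ⟨Nat.prime_two⟩
  -- z lies in the centre of Q, and Z(Q) = {1, z}
  have hzC : z ∈ Subgroup.centralizer (Q : Set G) := by
    rw [Subgroup.mem_centralizer_iff]
    intro q hq
    exact (Subgroup.mem_centralizer_iff.1 (hQC hq) z rfl).symm
  have hz1 : z ≠ 1 := by rintro rfl; simp at hz
  have hcent : ∀ u ∈ Subgroup.centralizer (Q : Set G), u = 1 ∨ u = z := by
    intro u hu
    have mem : ∀ v (hv : v ∈ Subgroup.centralizer (Q : Set G)), (⟨v, hlarge hv⟩ : Q) ∈ Subgroup.center Q := by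
      intro v hv
      rw [Subgroup.mem_center_iff]
      intro q
      exact Subtype.ext (Subgroup.mem_centralizer_iff.1 hv q q.2)
    by_contra hcon
    push Not at hcon
    obtain ⟨y, -, hy⟩ := (Nat.card_eq_two_iff' (1 : Subgroup.center Q)).1 hZ
    have e1 := hy ⟨_, mem u hu⟩ (fun h => hcon.1 (congrArg (fun x : Subgroup.center Q => ((x : Q) : G)) h))
    have e2 := hy ⟨_, mem z hzC⟩ (fun h => hz1 (congrArg (fun x : Subgroup.center Q => ((x : Q) : G)) h))
    exact hcon.2 (congrArg (fun x : Subgroup.center Q => ((x : Q) : G)) (e1.trans e2.symm))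
  -- a Sylow 2-subgroup containing Q
  obtain ⟨T, hT⟩ : ∃ T : Sylow 2 (Subgroup.centralizer ({z} : Set G)), True := ⟨default, trivial⟩
  have hQn' : (Q.subgroupOf (Subgroup.centralizer ({z} : Set G))).Normal := by
    constructor
    intro q hq g
    exact hQn g g.2 q hq
  have hQT : Q.subgroupOf (Subgroup.centralizer ({z} : Set G)) ≤ T :=
    IsPGroup.le_sylow_of_normal (N := Q.subgroupOf (Subgroup.centralizer ({z} : Set G))) (hQ2.comap_subtype) T
  set T' : Subgroup G := (T : Subgroup _).map (Subgroup.centralizer ({z} : Set G)).subtype with hT'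
  have hT'p : IsPGroup 2 T' := T.isPGroup'.map _
  have hQT' : Q ≤ T' := fun q hq => ⟨⟨q, hQC hq⟩, hQT hq, rfl⟩
  have hT'C : T' ≤ Subgroup.centralizer ({z} : Set G) := Subgroup.map_subtype_le _
  obtain ⟨P, hP⟩ := hT'p.exists_le_sylow
  -- anything normalising T' centralises z
  have hnorm : ∀ g ∈ Subgroup.normalizer (T' : Set G), g ∈ Subgroup.centralizer ({z} : Set G) := by
    intro g hg
    have h1 : g * z * g⁻¹ ∈ Subgroup.centralizer (Q : Set G) := by
      rw [Subgroup.mem_centralizer_iff]
      intro q hq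
      have h2 : g⁻¹ * q * g ∈ T' := by
        have := (Subgroup.mem_normalizer_iff.1 (Subgroup.inv_mem _ hg) q).1 (hQT' hq)
        rwa [inv_inv] at this
      have h3 := Subgroup.mem_centralizer_iff.1 (hT'C h2) z rfl
      calc q * (g * z * g⁻¹) = g * ((g⁻¹ * q * g) * z) * g⁻¹ := by group
        _ = g * (z * (g⁻¹ * q * g)) * g⁻¹ := by rw [h3]
        _ = g * z * g⁻¹ * q := by group
    rcases hcent _ h1 with h | h
    · exfalso; apply hz1
      calc z = g⁻¹ * (g * z * g⁻¹) * g := by group
        _ = 1 := by rw [h]; group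
    · rw [Subgroup.mem_centralizer_iff]
      rintro y rfl
      calc y * g = (g * y * g⁻¹) * g := by rw [h]
        _ = g * y := by group
  have hPT : (P : Subgroup G) ≤ T' := by
    by_contra hne
    have hnc : NormalizerCondition P := by
      have := P.isPGroup'.isNilpotent
      exact Group.normalizerCondition_of_isNilpotent
    have hlt : T'.subgroupOf P < ⊤ := by
      rw [lt_top_iff_ne_top, Ne, Subgroup.subgroupOf_eq_top]; exact hne
    have hlt2 := hnc _ hlt
    obtain ⟨x, hx, hxT⟩ := SetLike.exists_of_lt hlt2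
    have hxn : (x : G) ∈ Subgroup.normalizer (T' : Set G) := by
      rw [Subgroup.mem_normalizer_iff]
      intro h
      constructor
      · intro hh
        exact (Subgroup.mem_normalizer_iff.1 hx ⟨h, hP hh⟩).1 hh
      · intro hh
        have hhP : h ∈ (P : Subgroup G) := by
          have := (P : Subgroup G).mul_mem ((P : Subgroup G).mul_mem ((P : Subgroup G).inv_mem x.2) (hP hh)) x.2
          simpa [mul_assoc] using this
        exact (Subgroup.mem_normalizer_iff.1 hx ⟨h, hhP⟩).2 hh
    have hxC := hnorm x hxn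
    -- the subgroup P ∩ C is a 2-subgroup of C containing T
    have hPC : IsPGroup 2 ((P : Subgroup G).subgroupOf (Subgroup.centralizer ({z} : Set G))) :=
      P.isPGroup'.comap_subtype
    have hle : (T : Subgroup _) ≤ (P : Subgroup G).subgroupOf (Subgroup.centralizer ({z} : Set G)) :=
      fun t ht => hP ⟨t, ht, rfl⟩
    have heq := T.is_maximal' hPC hle
    apply hxT
    have : (⟨x, hxC⟩ : Subgroup.centralizer ({z} : Set G)) ∈ (T : Subgroup _) := by
      rw [← heq]; exact x.2
    exact ⟨_, this, rfl⟩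
  refine ⟨⟨P, hPT.trans hT'C⟩, fun u hu ⟨R, hR⟩ => ?_⟩
  obtain ⟨g, hg⟩ := MulAction.exists_smul_eq G R P
  have h1 : g * u * g⁻¹ ∈ Subgroup.centralizer (Q : Set G) := by
    rw [Subgroup.mem_centralizer_iff]
    intro q hq
    have h2 : g⁻¹ * q * g ∈ (R : Subgroup G) := by
      have h3 : q ∈ ((g • R : Sylow 2 G) : Subgroup G) := by rw [hg]; exact hP (hQT' hq)
      rw [Sylow.coe_subgroup_smul, Subgroup.mem_pointwise_smul_iff_inv_smul_mem] at h3
      simpa using h3
    have h3 := Subgroup.mem_centralizer_iff.1 (hR h2) u rfl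
    calc q * (g * u * g⁻¹) = g * ((g⁻¹ * q * g) * u) * g⁻¹ := by group
      _ = g * (u * (g⁻¹ * q * g)) * g⁻¹ := by rw [h3]
      _ = g * u * g⁻¹ * q := by group
  rcases hcent _ h1 with h | h
  · exfalso
    have : u = 1 := by
      calc u = g⁻¹ * (g * u * g⁻¹) * g := by group
        _ = 1 := by rw [h]; group
    rw [this] at hu; simp at hu
  · exact (isConj_iff.2 ⟨g, h⟩).symm

end Cfsg.Agent.S0481
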