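import Cfsg.Statements.S0499
import Cfsg.Agent.INV.SmallMisc
import Cfsg.Agent.PLOC.FrobeniusNPC

set_option autoImplicit false
open Cfsg

namespace Cfsg.Agent.S0499

/-- A non-abelian finite simple group of even order has order divisible by 12, 16 or 56. -/
theorem result {G : Type*} [Group G] [Finite G] [IsSimpleGroup G]
    (hG : ¬ IsMulCommutative G) (h2 : Even (Nat.card G)) :
    12 ∣ Nat.card G ∨ 16 ∣ Nat.card G ∨ 56 ∣ Nat.card G := by
  obtain ⟨P⟩ : Nonempty (Sylow 2 G) := inferInstance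
  obtain ⟨n, hn⟩ := P.2.exists_card_eq
  have hnpc : ¬ HasNormalPComplement 2 G := by
    rintro ⟨Q, N, hN, hc⟩
    rcases hN.eq_bot_or_eq_top with rfl | rfl
    · exact CL.Small.ne_top_of_isPGroup hG Q.2 (Subgroup.isComplement'_bot_left.1 hc)
    · exact Q.ne_bot_of_dvd_card h2.two_dvd (Subgroup.isComplement'_top_left.1 hc)
  obtain ⟨q, i, hq, hq2, hqG, hi1, hin, hqi⟩ :=
    CL.Tr.exists_prime_dvd_pow_sub_one_of_not_hasNPC P hn hnpc
  have hd : 2 ^ n ∣ Nat.card G := hn ▸ Subgroup.card_subgroup_dvd_card _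
  have hdi : 2 ^ i ∣ Nat.card G := (pow_dvd_pow 2 hin).trans hd
  by_cases h4 : 4 ≤ i
  · exact Or.inr (Or.inl ((pow_dvd_pow 2 h4).trans hdi))
  have h3 : i ≤ 3 := by omega
  interval_cases i
  · exact absurd (Nat.dvd_one.1 hqi) hq.one_lt.ne'
  · have : q = 3 := (Nat.prime_dvd_prime_iff_eq hq Nat.prime_three).1 hqi
    subst this
    exact Or.inl (Nat.Coprime.mul_dvd_of_dvd_of_dvd (m := 3) (n := 4) (by norm_num) hqG hdi)
  · have : q = 7 := (Nat.prime_dvd_prime_iff_eq hq (by norm_num)).1 hqi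
    subst this
    exact Or.inr (Or.inr
      (Nat.Coprime.mul_dvd_of_dvd_of_dvd (m := 7) (n := 8) (by norm_num) hqG hdi))

end Cfsg.Agent.S0499
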