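import Cfsg.Statements.S0519
import Cfsg.Agent.SOLV.PGroupCyclicSCN

set_option autoImplicit false
open Cfsg

namespace Cfsg.Agent.S0519

/-- Let P be a finite p-group in which every abelian normal subgroup is cyclic, but which has a non-cyclic abelian
subgroup. Then p = 2 and P is generalized quaternion, dihedral of order at least 16, or quasi-dihedral. -/
theorem result {P : Type*} [Group P] [Finite P] (p : ℕ) [Fact p.Prime]
    (hP : IsPGroup p P) (hn : ∀ A : Subgroup P, A.Normal → IsMulCommutative A → IsCyclic A)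
    (hm : ∃ B : Subgroup P, IsMulCommutative B ∧ ¬ IsCyclic B) :
    p = 2 ∧ ((∃ n : ℕ, Nonempty (P ≃* QuaternionGroup n)) ∨ (∃ n : ℕ, 8 ≤ n ∧ Nonempty (P ≃* DihedralGroup n)) ∨
      Cfsg.IsQuasiDihedral P) := by
  have hp : p.Prime := Fact.out
  rcases CL.PCyc.isCyclic_or_normal_elemAb_or_isDQS hP with h | ⟨E, hE, h1, h2⟩ | ⟨rfl, n, a, b, h⟩
  · obtain ⟨B, -, hB⟩ := hm
    exact absurd (Subgroup.isCyclic B) hB
  · exact absurd (hn E hE h1.1) (CL.PCyc.not_isCyclic_of_elemAb hp h1 (by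
      rw [h2, sq]; exact lt_mul_self hp.one_lt))
  · refine ⟨rfl, ?_⟩
    rcases h.trichotomy with ⟨h1, h2⟩ | h1 | h1
    · refine Or.inr (Or.inl ⟨_, ?_, h2⟩)
      by_contra hlt
      have hn2 : n = 2 := by
        by_contra hne
        have := h.two_le
        exact hlt (Nat.pow_le_pow_right two_pos (show 3 ≤ n by omega))
      subst hn2
      obtain ⟨h3, h4⟩ := h.elemAb_of_sq_eq_one h1
      have hi := (Subgroup.zpowers (a ^ 2 ^ (2 - 1)) ⊔ Subgroup.zpowers b).card_mul_index
      rw [h4, h.card_eq] at hi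
      exact CL.PCyc.not_isCyclic_of_elemAb hp h3 (by rw [h4]; norm_num)
        (hn _ (Subgroup.normal_of_index_eq_two (by omega)) h3.1)
    · exact Or.inl ⟨_, h1⟩
    · exact Or.inr (Or.inr h1.2.2.2)

end Cfsg.Agent.S0519
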