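import Cfsg.Statements.S0520
import Cfsg.Agent.INV.SylowRel

set_option autoImplicit false
open Cfsg

namespace Cfsg.Agent.S0520

section
variable {G : Type*} [Group G]

/-- Adjacency of four-subgroups. -/
def Adj (A B : Subgroup G) : Prop :=
  IsKleinFour A ∧ IsKleinFour B ∧ ∀ a ∈ A, ∀ b ∈ B, a * b = b * a

theorem Adj.map {G' : Type*} [Group G'] {f : G →* G'} (hf : Function.Injective f)
    {A B : Subgroup G} (h : Adj A B) : Adj (A.map f) (B.map f) := by
  refine ⟨CL.Four.isKleinFour_map h.1 hf, CL.Four.isKleinFour_map h.2.1 hf, ?_⟩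
  rintro _ ⟨a, ha, rfl⟩ _ ⟨b, hb, rfl⟩
  rw [← map_mul, h.2.2 a ha b hb, map_mul]

theorem conn_map {G' : Type*} [Group G'] {f : G →* G'} (hf : Function.Injective f)
    {A B : Subgroup G} (h : Relation.ReflTransGen Adj A B) :
    Relation.ReflTransGen Adj (A.map f) (B.map f) :=
  h.lift (fun A => A.map f) fun _ _ h => h.map hf

theorem conn_symm {A B : Subgroup G} (h : Relation.ReflTransGen Adj A B) :
    Relation.ReflTransGen Adj B A := by
  induction h with
  | refl => exact .refl
  | tail _ h ih => exact .head ⟨h.2.1, h.1, fun a ha b hb => (h.2.2 b hb a ha).symm⟩ ih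

theorem map_conj_mul (A : Subgroup G) (g h : G) : A.map (MulAut.conj (g * h)).toMonoidHom =
    (A.map (MulAut.conj h).toMonoidHom).map (MulAut.conj g).toMonoidHom := by
  ext x
  simp only [CL.SylowAux.mem_map_conj_iff, mul_inv_rev, mul_assoc]

theorem map_conj_one (A : Subgroup G) : A.map (MulAut.conj (1 : G)).toMonoidHom = A := by
  ext x
  simp only [CL.SylowAux.mem_map_conj_iff, inv_one, one_mul, mul_one]

end

/-- Let G be a finite group of 2-rank at least 2 and S a Sylow 2-subgroup whose commuting graph of Klein four-subgroups is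
connected. Then the commuting graph of Klein four-subgroups of G is disconnected if and only if the 2-generated core — the
subgroup generated by the normalizers N_G(Q) of the subgroups Q of S that contain a Klein four-group — is a proper
subgroup of G. -/
theorem result {G : Type*} [Group G] [Finite G] (h2 : ¬ Cfsg.PRankLE 2 1 G)
    (S : Sylow 2 G) (hS : Cfsg.IsFourConnected (S : Subgroup G)) :
    ¬ Cfsg.IsFourConnected G ↔
      (⨆ Q : {Q : Subgroup G // Q ≤ (S : Subgroup G) ∧ ¬ Cfsg.PRankLE 2 1 Q},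
          Subgroup.normalizer ((Q : Subgroup G) : Set G)) ≠ ⊤ := by
  have hconnS : ∀ U V : Subgroup G, U ≤ S → V ≤ S → IsKleinFour U → IsKleinFour V →
      Relation.ReflTransGen Adj U V := fun U V hU hV hU4 hV4 => by
    have := conn_map (S : Subgroup G).subtype_injective
      (hS _ _ (CL.Four.isKleinFour_subgroupOf hU4 hU) (CL.Four.isKleinFour_subgroupOf hV4 hV))
    rwa [Subgroup.subgroupOf_map_subtype, Subgroup.subgroupOf_map_subtype, inf_eq_left.2 hU,
      inf_eq_left.2 hV] at this
  have hinS : ∀ V : Subgroup G, IsKleinFour V →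
      ∃ g : G, V.map (MulAut.conj g).toMonoidHom ≤ (S : Subgroup G) := fun V hV => by
    obtain ⟨g, hg⟩ := CL.SylowAux.exists_conj_mem_sylow S (CL.Four.isPGroup hV)
    refine ⟨g, ?_⟩
    rintro _ ⟨v, hv, rfl⟩
    exact hg v hv
  have hc4 : ∀ (V : Subgroup G) (g : G), IsKleinFour V →
      IsKleinFour (V.map (MulAut.conj g).toMonoidHom) := fun V g hV =>
    CL.Four.isKleinFour_map hV (MulAut.conj g).injective
  obtain ⟨U, hUS, hU⟩ : ∃ U : Subgroup G, U ≤ S ∧ IsKleinFour U := by
    obtain ⟨V, -, hV⟩ := CL.Four.not_prankLE_two_one_iff.1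
      (fun h => h2 ((CL.Rank.prankLE_congr Subgroup.topEquiv).1 h))
    obtain ⟨g, hg⟩ := hinS V hV
    exact ⟨_, hg, hc4 V g hV⟩
  generalize hH : (⨆ Q : {Q : Subgroup G // Q ≤ (S : Subgroup G) ∧ ¬ Cfsg.PRankLE 2 1 Q},
    Subgroup.normalizer ((Q : Subgroup G) : Set G)) = H
  have hN : ∀ Q : Subgroup G, Q ≤ S → ¬ PRankLE 2 1 Q → Subgroup.normalizer (Q : Set G) ≤ H :=
    fun Q h1 h2 => hH ▸ le_iSup (fun Q : {Q : Subgroup G // Q ≤ (S : Subgroup G) ∧
      ¬ Cfsg.PRankLE 2 1 Q} => Subgroup.normalizer ((Q : Subgroup G) : Set G)) ⟨Q, h1, h2⟩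
  rw [not_iff_not.2 (Iff.refl _), not_iff_not]
  constructor
  · intro hconn
    have hSH : (S : Subgroup G) ≤ H := Subgroup.le_normalizer.trans
      (hN _ le_rfl (CL.Four.not_prankLE_two_one_iff.2 ⟨U, hUS, hU⟩))
    have hconj : ∀ (X : Subgroup G) (g : G), ¬ PRankLE 2 1 X →
        ¬ PRankLE 2 1 (X.map (MulAut.conj g).toMonoidHom) := fun X g hX => by
      rwa [CL.Rank.prankLE_map_iff X (MulAut.conj g).injective]
    have hN' := CL.Rank.normalizer_le_of_sylow (S.subtype hSH) (fun X => ¬ PRankLE 2 1 X) hconj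
      (fun X hX => hN X (by
        rwa [Sylow.coe_subtype, Subgroup.subgroupOf_map_subtype, inf_eq_left.2 hSH] at hX))
    have hchain : ∀ V : Subgroup G, Relation.ReflTransGen Adj U V → V ≤ H := fun V hV => by
      induction hV with
      | refl => exact hUS.trans hSH
      | tail _ h ih =>
        exact fun c hc => hN' _ ih (CL.Four.isPGroup h.1)
          (CL.Four.not_prankLE_two_one_iff.2 ⟨_, le_rfl, h.1⟩)
          (Subgroup.centralizer_le_normalizer _ fun b hb => h.2.2 b hb c hc)
    rw [eq_top_iff]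
    intro g _
    exact CL.Rank.mem_of_conj_le_of_normalizer_le (p := 2) (fun X => ¬ PRankLE 2 1 X)
      (fun X Y hXY _ hX hY => hX (CL.Rank.prankLE_mono hXY hY)) hconj hN' (CL.Four.isPGroup hU)
      (CL.Four.not_prankLE_two_one_iff.2 ⟨U, le_rfl, hU⟩) (hUS.trans hSH)
      fun a ha => hchain _ (hconn U _ hU (hc4 U g hU)) ⟨a, ha, rfl⟩
  · intro htop
    let M : Subgroup G :=
      { carrier := {g | Relation.ReflTransGen Adj U (U.map (MulAut.conj g).toMonoidHom)}
        one_mem' := by
          change Relation.ReflTransGen Adj U _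
          rw [map_conj_one]
        mul_mem' := fun {a b} ha hb => by
          change Relation.ReflTransGen Adj U _
          rw [map_conj_mul]
          exact ha.trans (conn_map (MulAut.conj a).injective hb)
        inv_mem' := fun {a} ha => by
          change Relation.ReflTransGen Adj U _
          have := conn_map (f := (MulAut.conj a⁻¹).toMonoidHom) (MulAut.conj a⁻¹).injective ha
          rw [← map_conj_mul, inv_mul_cancel, map_conj_one] at this
          exact conn_symm this }
    have hM : H ≤ M := by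
      rw [← hH]
      refine iSup_le fun ⟨Q, hQS, hQ⟩ g hg => ?_
      obtain ⟨V, hVQ, hV⟩ := CL.Four.not_prankLE_two_one_iff.1 hQ
      have h1 : V.map (MulAut.conj g).toMonoidHom ≤ (S : Subgroup G) := by
        rintro _ ⟨v, hv, rfl⟩
        exact hQS ((Subgroup.mem_normalizer_iff.1 hg v).1 (hVQ hv))
      exact (hconnS _ _ hUS h1 hU (hc4 V g hV)).trans
        (conn_map (MulAut.conj g).injective (hconnS _ _ (hVQ.trans hQS) hUS hV hU))
    have key : ∀ V : Subgroup G, IsKleinFour V → Relation.ReflTransGen Adj U V := fun V hV => by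
      obtain ⟨g, hg⟩ := hinS V hV
      have := conn_map (f := (MulAut.conj g⁻¹).toMonoidHom) (MulAut.conj g⁻¹).injective
        (hconnS _ _ hUS hg hU (hc4 V g hV))
      rw [← map_conj_mul, inv_mul_cancel, map_conj_one] at this
      exact (show g⁻¹ ∈ M from hM (htop ▸ Subgroup.mem_top _)).trans this
    exact fun A B hA hB => (conn_symm (key A hA)).trans (key B hB)

end Cfsg.Agent.S0520
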