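import Cfsg.Statements.S0521
import Mathlib
import Cfsg.Agent.ODD.BGA
import Cfsg.Agent.PLOC.PFrattini
import Cfsg.Agent.SOLV.Fitting
import Cfsg.Agent.SOLV.Frattini

set_option autoImplicit false
open Cfsg

namespace Cfsg.Agent.S0521

open Subgroup
open scoped commutatorElement

theorem comm_of_cyclic {G : Type*} [Group G] {p : ℕ} [Fact p.Prime] {W : Subgroup G} [IsCyclic W]
    (hW : ∀ w ∈ W, w ^ p = 1) {x : G} (hx : ∀ w ∈ W, x * w * x⁻¹ ∈ W) {m : ℕ}
    (hm : x ^ p ^ m = 1) {w : G} (hw : w ∈ W) : x * w = w * x := by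
  obtain ⟨d, hd⟩ := IsCyclic.exists_generator (α := W)
  obtain ⟨k, hk⟩ := hd ⟨_, hx d d.2⟩
  have hk' : (d : G) ^ k = x * d * x⁻¹ := congrArg Subtype.val hk
  have hn : ∀ n : ℕ, x ^ n * d * (x ^ n)⁻¹ = (d : G) ^ (k ^ n) := by
    intro n
    induction n with
    | zero => simp
    | succ n ih =>
      rw [pow_succ' k, zpow_mul, hk', conj_zpow, ← ih, pow_succ' x]; group
  have h1 := hn (p ^ m)
  rw [hm, one_mul, inv_one, mul_one] at h1
  have h2 : k ^ p ^ m ≡ k [ZMOD p] := by
    rw [← ZMod.intCast_eq_intCast_iff]; push_cast; exact ZMod.pow_card_pow _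
  have h3 : (d : G) ^ (k ^ p ^ m) = (d : G) ^ k := zpow_eq_zpow_iff_modEq.2
    (h2.of_dvd (Int.natCast_dvd_natCast.2 (orderOf_dvd_of_pow_eq_one (hW d d.2))))
  have h4 : Commute x d := by
    rw [h3, hk'] at h1
    exact mul_inv_eq_iff_eq_mul.1 h1.symm
  obtain ⟨j, hj⟩ := hd ⟨w, hw⟩
  have : (d : G) ^ j = w := congrArg Subtype.val hj
  exact this ▸ (h4.zpow_right j).eq

theorem le_pCore {Y : Type*} [Group Y] [Finite Y] [Group.IsSolvable Y] (hY : Odd (Nat.card Y))
    {p : ℕ} [Fact p.Prime] (hO : pPrimeCore p Y = ⊥) {S : Subgroup Y} (hS : IsPGroup p S)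
    (hPS : pCore p Y ≤ S) (hc : IsCyclic ↥⁅S, S⁆) : S ≤ pCore p Y := by
  have hP : IsPGroup p (pCore p Y) := CL.isPGroup_pCore p Y
  let Φ : Subgroup Y := (frattini (pCore p Y)).map (pCore p Y).subtype
  have hΦ : Φ ≤ pCore p Y := map_subtype_le _
  let π := QuotientGroup.mk' Φ
  let f : (⊤ : Subgroup (Y ⧸ Φ)) →* Y ⧸ pCore p Y :=
    (QuotientGroup.map Φ (pCore p Y) (MonoidHom.id Y) hΦ).comp (Subgroup.subtype ⊤)
  have hf : Function.Surjective f := fun y => by
    obtain ⟨y, rfl⟩ := QuotientGroup.mk_surjective y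
    exact ⟨⟨π y, trivial⟩, rfl⟩
  intro x hx
  obtain ⟨m, hm⟩ := hS ⟨x, hx⟩
  have hm' : x ^ p ^ m = 1 := congrArg Subtype.val hm
  let W : Subgroup (Y ⧸ Φ) := (⁅S, S⁆).map π ⊓ (pCore p Y).map π
  have : IsCyclic ((⁅S, S⁆).map π) := isCyclic_of_surjective _ (π.subgroupMap_surjective _)
  have : IsCyclic W := Subgroup.isCyclic_of_le inf_le_left
  have hN : ((pCore p Y).map π).Normal := Normal.map inferInstance _ (QuotientGroup.mk'_surjective _)
  have key := CL.BG.odd_p_stable_hom (p := p) (L := ⊤) (P := (pCore p Y).map π)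
    (A := zpowers (π x)) (by
      rw [card_top]; exact hY.of_dvd_nat (card_quotient_dvd_card _))
    (hP.map π) (by rw [normalizer_eq_top]) 
    ((hS.map π).to_le (zpowers_le.2 (mem_map_of_mem π hx))) ?_ f hf ?_
  · rw [CL.pCore_quotient_pCore] at key
    have := key ⟨⟨π x, trivial⟩, mem_zpowers _, rfl⟩
    exact (QuotientGroup.eq_one_iff x).1 this
  · have h1 : ⁅(pCore p Y).map π, zpowers (π x)⁆ ≤ W := by
      refine le_inf ?_ (commutator_le_left _ _)
      rw [map_commutator]
      exact commutator_mono (map_mono hPS) (zpowers_le.2 (mem_map_of_mem π hx))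
    rw [commutator_eq_bot_iff_le_centralizer]
    refine h1.trans fun w hw => ?_
    rintro _ ⟨k, rfl⟩
    refine (Commute.zpow_left (comm_of_cyclic (p := p) (W := W) ?_ ?_ (m := m)
      (by rw [← map_pow, hm', map_one]) hw) k).eq
    · rintro _ ⟨-, y, hy, rfl⟩
      rw [← map_pow]
      exact (QuotientGroup.eq_one_iff _).2 (CL.PG.pow_mem_frattini_map hP hy)
    · rintro w ⟨⟨y, hy, rfl⟩, h2⟩
      refine ⟨⟨x * y * x⁻¹, ?_, by simp⟩, hN.conj_mem _ h2 _⟩
      exact (mem_normalizer_iff.1 (normalizer_commutator_ge_left S S hx) y).1 hy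
  · rintro ⟨y, hy0⟩ hy
    obtain ⟨y, rfl⟩ := QuotientGroup.mk_surjective y
    refine (QuotientGroup.eq_one_iff y).2 ?_
    refine CL.le_pCore_of_commutator_le_frattini (CL.centralizer_pCore_le_of_isSolvable hO)
      (H := zpowers y) ?_ (mem_zpowers y)
    rw [commutator_le]
    rintro g hg _ ⟨k, rfl⟩
    refine (QuotientGroup.eq_one_iff (N := Φ) _).1 ?_
    have : Commute (π g) (π y) := hy _ (mem_map_of_mem π hg)
    have := (this.zpow_right k).commutator_eq
    rwa [← map_zpow, ← map_commutatorElement] at this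


/-- Let X be a finite solvable group of odd order, p a prime and S a Sylow p-subgroup of X whose commutator subgroup is
cyclic. Then the product of the largest normal subgroup of X of order prime to p with S is a normal subgroup of X. -/
theorem result {X : Type*} [Group X] [Finite X] [Group.IsSolvable X]
    (hX : Odd (Nat.card X)) (p : ℕ) [Fact p.Prime] (S : Sylow p X) (hS : IsCyclic (commutator (S : Subgroup X))) :
    (Cfsg.pPrimeCore p X ⊔ (S : Subgroup X)).Normal := by
  let π := QuotientGroup.mk' (Cfsg.pPrimeCore p X)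
  have hπ : Function.Surjective π := QuotientGroup.mk'_surjective _
  let T := S.mapSurjective hπ
  have hPT := (CL.isPGroup_pCore p _).le_sylow_of_normal T
  have hc : IsCyclic ↥⁅T.toSubgroup, T.toSubgroup⁆ := by
    have : ⁅T.toSubgroup, T.toSubgroup⁆ =
        (commutator (S : Subgroup X)).map (π.comp (S : Subgroup X).subtype) := by
      rw [← map_map, map_subtype_commutator, map_commutator]; rfl
    rw [this]
    exact isCyclic_of_surjective _ (MonoidHom.subgroupMap_surjective _ _)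
  have h := le_pCore (hX.of_dvd_nat (card_quotient_dvd_card _))
    (CL.pPrimeCore_quotient_pPrimeCore p X) T.isPGroup' hPT hc
  have h2 : Cfsg.pPrimeCore p X ⊔ (S : Subgroup X) = (pCore p _).comap π := by
    rw [← le_antisymm h hPT, Sylow.coe_mapSurjective, comap_map_eq, QuotientGroup.ker_mk', sup_comm]
  rw [h2]
  infer_instance

end Cfsg.Agent.S0521
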