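import Cfsg.Statements.S0522
import Cfsg.Agent.ODD.ThBender

set_option autoImplicit false
open Cfsg CL.MSS CL.BG

namespace Cfsg.Agent.S0522

/-- Transitivity Theorem (odd-order setting). Let X be a finite group of odd order in which the normalizer of every
nontrivial p-subgroup is solvable, P a Sylow p-subgroup, and B an abelian subgroup of P, normalized by P, with
C_P(B) = B and containing an elementary abelian subgroup of order p^3. Then for every prime q ≠ p, any two q-subgroups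
that are maximal among the q-subgroups normalized by B are conjugate by an element of the centralizer of B. -/
theorem result {X : Type*} [Group X] [Finite X] (hX : Odd (Nat.card X)) (p : ℕ)
    [Fact p.Prime] (hloc : ∀ T : Subgroup X, IsPGroup p T → T ≠ ⊥ → Group.IsSolvable (Subgroup.normalizer (T : Set X)))
    (P : Sylow p X) (B : Subgroup X) (hBP : B ≤ (P : Subgroup X))
    (hBn : ∀ x ∈ (P : Subgroup X), ∀ b ∈ B, x * b * x⁻¹ ∈ B) (hBa : IsMulCommutative B)
    (hBc : (P : Subgroup X) ⊓ Subgroup.centralizer (B : Set X) = B)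
    (hB3 : ∃ E : Subgroup X, E ≤ B ∧ (∀ e ∈ E, e ^ p = 1) ∧ p ^ 3 ≤ Nat.card E)
    (q : ℕ) [Fact q.Prime] (hqp : q ≠ p) (Q₁ Q₂ : Subgroup X)
    (h₁ : IsPGroup q Q₁ ∧ B ≤ Subgroup.normalizer (Q₁ : Set X) ∧
      ∀ R : Subgroup X, IsPGroup q R → B ≤ Subgroup.normalizer (R : Set X) → Q₁ ≤ R → R = Q₁)
    (h₂ : IsPGroup q Q₂ ∧ B ≤ Subgroup.normalizer (Q₂ : Set X) ∧
      ∀ R : Subgroup X, IsPGroup q R → B ≤ Subgroup.normalizer (R : Set X) → Q₂ ≤ R → R = Q₂) :
    ∃ c ∈ Subgroup.centralizer (B : Set X), Q₂ = Q₁.map (MulAut.conj c).toMonoidHom := by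
  have hp : p.Prime := Fact.out
  have hBp : IsPGroup p B := P.isPGroup'.to_le hBP
  obtain ⟨E, hEB, hEe, hE3⟩ := hB3
  have h3 : ¬ PRankLE p 2 B := A38.not_prankLE_of_lt hEB ⟨abelianS hBa hEB, hEe⟩ (by
    have := Nat.pow_lt_pow_right hp.one_lt (show 2 < 3 by omega)
    omega)
  have hp2 : p ≠ 2 := ne_two_of_odd_pgroup hBp (hX.of_dvd_nat (Subgroup.card_subgroup_dvd_card B))
    (ne_bot_of_prime_dvd hp (H39.dvd_of_not_prankLE h3))
  have hd := SCN_Sylow_cent_dprod (sylIn_top P)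
    (A := B) ⟨hBP, le_normalizer_of_cj_le fun x hx => cj_le_iff_forall.2 (hBn x hx), hBc⟩
  have hH : IsPiHallOf {p} B (⊤ ⊓ 𝐂(B)) :=
    hd.1.isPiHallOf_left (piGrp_of_isPGroup hBp rfl) (pcore_pgroup _ _)
  obtain ⟨c, hc, e⟩ := thompson_transitivity hBp hBa h3 hqp (fun u hu hu1 R hR hER hRu => by
    have hc := CL.PC.isPConstrained_of_isSolvable (p := p)
      (hloc (Subgroup.zpowers u) (hBp.to_le (Subgroup.zpowers_le.2 hu))
      (fun h => hu1 (Subgroup.zpowers_eq_bot.1 h)))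
    have hCN : 𝐂₁(u) ≤ 𝐍(Subgroup.zpowers u) := by rw [← cent_zpowers]; exact cent_le_norm _
    refine thompson_bender hp2 hc ((le_cent1_iff.2 (le_cent_of_abelian hBa hu)).trans hCN) hBp
      (hRu.trans hCN) (piGrp_compl_of_isPGroup hR hqp) hER fun x hx hxp => ?_
    exact hH.mem_of_normal (inf_le_right.trans (cent_le_norm B)) ⟨Subgroup.mem_top x, hx.2⟩
      (piElt_iff_zpowers.2 (piGrp_of_isPGroup (isPGroup_zpowers (k := 1) (by rwa [pow_one])) rfl)))
    (mem_max_normed_iff.2 h₁) (mem_max_normed_iff.2 h₂)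
  exact ⟨c, pcore_sub _ _ hc, e⟩

end Cfsg.Agent.S0522
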