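import Cfsg.Statements.S0529
import Mathlib
import Cfsg.Agent.SOLV.Supersolvable

set_option autoImplicit false
open Cfsg

namespace Cfsg.Agent.S0529

/-- A finite supersolvable group has a chain of normal subgroups, from the trivial subgroup to the whole group, in which every step has prime index and the primes occurring are non-increasing as one goes up the chain. -/
theorem result {G : Type*} [Group G] [Finite G] (hG : Cfsg.IsSupersolvable G) : ∃ (n : ℕ) (H : Fin (n + 1) → Subgroup G), H 0 = ⊥ ∧ H (Fin.last n) = ⊤ ∧ (∀ i, (H i).Normal) ∧ (∀ i : Fin n, H i.castSucc ≤ H i.succ ∧ ((H i.castSucc).relIndex (H i.succ)).Prime) ∧ ∀ i j : Fin n, i ≤ j → (H j.castSucc).relIndex (H j.succ) ≤ (H i.castSucc).relIndex (H i.succ) := by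
  suffices h : ∃ (n : ℕ) (H : Fin (n + 1) → Subgroup G), H 0 = ⊥ ∧ H (Fin.last n) = ⊤ ∧
      (∀ i, (H i).Normal) ∧ (∀ i : Fin n, H i.castSucc ≤ H i.succ ∧
        ((H i.castSucc).relIndex (H i.succ)).Prime ∧
        (H i.castSucc).relIndex (H i.succ) ∣ Nat.card G) ∧
      ∀ i j : Fin n, i ≤ j → (H j.castSucc).relIndex (H j.succ) ≤
        (H i.castSucc).relIndex (H i.succ) by
    obtain ⟨n, H, h1, h2, h3, h4, h5⟩ := h
    exact ⟨n, H, h1, h2, h3, fun i => ⟨(h4 i).1, (h4 i).2.1⟩, h5⟩
  induction hn : Nat.card G using Nat.strong_induction_on generalizing G with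
  | _ n ih =>
  subst hn
  rcases subsingleton_or_nontrivial G with hG' | hG'
  · exact ⟨0, fun _ => ⊥, rfl, Subsingleton.elim _ _, fun _ => inferInstance, fun i => i.elim0,
      fun i => i.elim0⟩
  have hne : (Nat.card G).primeFactors.Nonempty :=
    Nat.nonempty_primeFactors.2 Finite.one_lt_card
  set p := (Nat.card G).primeFactors.max' hne
  have hp := Nat.mem_primeFactors.1 (Finset.max'_mem _ hne)
  have hmax : ∀ q : ℕ, q.Prime → q ∣ Nat.card G → q ≤ p := fun q hq hd =>
    Finset.le_max' _ _ (Nat.mem_primeFactors.2 ⟨hq, hd, hp.2.2⟩)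
  obtain ⟨N, hN, hNp⟩ := CL.IsSupersolvable.exists_normal_card_eq_max_prime hG hp.1 hp.2.1 hmax
  obtain ⟨m, H, h0, hl, hn, hs, hm⟩ := ih _
    (CL.card_quotient_lt (CL.ne_bot_of_card_prime (hNp ▸ hp.1)))
    (CL.IsSupersolvable.quotient hG N) rfl
  have hrel : ∀ A B : Subgroup (G ⧸ N), (A.comap (QuotientGroup.mk' N)).relIndex
      (B.comap (QuotientGroup.mk' N)) = A.relIndex B := fun A B => by
    rw [Subgroup.relIndex_comap, CL.map_comap_mk']
  have h00 : (H 0).comap (QuotientGroup.mk' N) = N := by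
    rw [h0, MonoidHom.comap_bot, QuotientGroup.ker_mk']
  refine ⟨m + 1, Fin.cons ⊥ fun i => (H i).comap (QuotientGroup.mk' N), rfl, ?_, fun i => ?_,
    fun i => ?_, fun i j hij => ?_⟩
  · rw [← Fin.succ_last, Fin.cons_succ, hl, Subgroup.comap_top]
  · induction i using Fin.cases with
    | zero => exact inferInstanceAs (⊥ : Subgroup G).Normal
    | succ i => have := hn i; exact inferInstanceAs ((H i).comap (QuotientGroup.mk' N)).Normal
  · induction i using Fin.cases with
    | zero =>
      rw [Fin.castSucc_zero, Fin.cons_zero, Fin.cons_succ, h00, Subgroup.relIndex_bot_left, hNp]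
      exact ⟨bot_le, hp.1, hp.2.1⟩
    | succ i =>
      rw [← Fin.succ_castSucc, Fin.cons_succ, Fin.cons_succ, hrel]
      exact ⟨Subgroup.comap_mono (hs i).1, (hs i).2.1, (hs i).2.2.trans (CL.card_quotient_dvd N)⟩
  · induction j using Fin.cases with
    | zero => rw [Fin.le_zero_iff.1 hij]
    | succ j =>
      rw [← Fin.succ_castSucc, Fin.cons_succ, Fin.cons_succ, hrel]
      induction i using Fin.cases with
      | zero =>
        rw [Fin.castSucc_zero, Fin.cons_zero, Fin.cons_succ, h00, Subgroup.relIndex_bot_left, hNp]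
        exact hmax _ (hs j).2.1 ((hs j).2.2.trans (CL.card_quotient_dvd N))
      | succ i =>
        rw [← Fin.succ_castSucc, Fin.cons_succ, Fin.cons_succ, hrel]
        exact hm i j (Fin.succ_le_succ_iff.1 hij)

end Cfsg.Agent.S0529
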