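import Cfsg.Statements.S0530
import Mathlib
import Cfsg.Agent.SOLV.Supersolvable
import Cfsg.Agent.SOLV.Fitting

set_option autoImplicit false
open Cfsg

namespace Cfsg.Agent.S0530

/-- A finite group whose order is twice a prime power is supersolvable. -/
theorem result {G : Type*} [Group G] [Finite G] (p n : ℕ) (hp : p.Prime) (hG : Nat.card G = 2 * p ^ n) : Cfsg.IsSupersolvable G := by
  induction n using Nat.strong_induction_on generalizing G with
  | _ n ih =>
  have := Fact.mk hp
  by_cases hp2 : p = 2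
  · subst hp2
    exact CL.IsSupersolvable.of_isPGroup (p := 2) (IsPGroup.of_card (n := n + 1) (by
      rw [hG, pow_succ']))
  rcases Nat.eq_zero_or_pos n with rfl | hn
  · have : IsCyclic G := isCyclic_of_prime_card (p := 2) (by simpa using hG)
    exact CL.IsSupersolvable.of_isCyclic
  obtain ⟨P⟩ : Nonempty (Sylow p G) := inferInstance
  have hP : Nat.card P = p ^ n := by
    rw [P.card_eq_multiplicity, hG, Nat.factorization_mul two_ne_zero (pow_pos hp.pos n).ne',
      Finsupp.add_apply, hp.factorization_pow, Finsupp.single_eq_same,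
      Nat.factorization_eq_zero_of_not_dvd
        (fun h => hp2 ((Nat.prime_dvd_prime_iff_eq hp Nat.prime_two).1 h)), zero_add]
  have hi : (P : Subgroup G).index = 2 := by
    have := (P : Subgroup G).index_mul_card
    rw [hG] at this
    exact Nat.eq_of_mul_eq_mul_right (pow_pos hp.pos n) (by rw [← this]; congr 1; exact hP.symm)
  have hPn : (P : Subgroup G).Normal := Subgroup.normal_of_index_eq_two hi
  have hP1 : (P : Subgroup G) ≠ ⊥ := P.ne_bot_of_dvd_card (by
    rw [hG]; exact Dvd.dvd.mul_left (dvd_pow_self p hn.ne') 2)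
  -- a nontrivial cyclic normal subgroup inside `P`
  obtain ⟨w, hwP, hw1, hwn⟩ : ∃ w ∈ (P : Subgroup G), w ≠ 1 ∧ (Subgroup.zpowers w).Normal := by
    have hZ := CL.inf_centralizer_ne_bot_of_isPGroup P.isPGroup' P.isPGroup'
      Subgroup.le_normalizer hP1
    obtain ⟨⟨z, hzP, hzC⟩, hz1⟩ := Subgroup.ne_bot_iff_exists_ne_one.1 hZ
    replace hz1 : z ≠ 1 := fun h => hz1 (Subtype.ext h)
    obtain ⟨t, ht⟩ : ∃ t, t ∉ (P : Subgroup G) := by
      by_contra hc
      push Not at hc
      rw [(Subgroup.eq_top_iff' _).2 hc, Subgroup.index_top] at hi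
      exact absurd hi (by norm_num)
    have key : ∀ w : G, w ∈ Subgroup.centralizer ((P : Subgroup G) : Set G) →
        t * w * t⁻¹ ∈ Subgroup.zpowers w → (Subgroup.zpowers w).Normal := by
      intro w hwC hwt
      have h1 : ∀ g : G, g * w * g⁻¹ ∈ Subgroup.zpowers w := by
        intro g
        by_cases hg : g ∈ (P : Subgroup G)
        · rw [Subgroup.mem_centralizer_iff.1 hwC g hg, mul_inv_cancel_right]
          exact Subgroup.mem_zpowers w
        · have h2 : t⁻¹ * g ∈ (P : Subgroup G) := by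
            rw [Subgroup.mul_mem_iff_of_index_two hi, inv_mem_iff]
            exact iff_of_false ht hg
          have h3 := Subgroup.mem_centralizer_iff.1 hwC _ h2
          have : g * w * g⁻¹ = t * w * t⁻¹ := by
            calc g * w * g⁻¹ = t * (t⁻¹ * g * w) * g⁻¹ := by group
              _ = t * w * t⁻¹ := by rw [h3]; group
          rwa [this]
      refine ⟨fun x hx g => ?_⟩
      obtain ⟨k, rfl⟩ := Subgroup.mem_zpowers_iff.1 hx
      rw [← conj_zpow]
      exact zpow_mem (h1 g) k
    have hzt : t * z * t⁻¹ ∈ Subgroup.centralizer ((P : Subgroup G) : Set G) :=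
      (inferInstance : (Subgroup.centralizer ((P : Subgroup G) : Set G)).Normal).conj_mem z hzC t
    by_cases hw : z * (t * z * t⁻¹) = 1
    · refine ⟨z, hzP, hz1, key z hzC ?_⟩
      rw [← inv_eq_of_mul_eq_one_right hw]
      exact inv_mem (Subgroup.mem_zpowers z)
    · refine ⟨_, mul_mem hzP (hPn.conj_mem z hzP t), hw, key _ (mul_mem hzC hzt) ?_⟩
      have h1 := Subgroup.mem_centralizer_iff.1 hzC _ (Subgroup.mul_self_mem_of_index_two hi t)
      have h2 := Subgroup.mem_centralizer_iff.1 hzC _ (hPn.conj_mem z hzP t)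
      have : t * (z * (t * z * t⁻¹)) * t⁻¹ = z * (t * z * t⁻¹) := by
        calc t * (z * (t * z * t⁻¹)) * t⁻¹ = (t * z * t⁻¹) * (t * t * z) * (t * t)⁻¹ := by group
          _ = (t * z * t⁻¹) * z := by rw [h1]; group
          _ = z * (t * z * t⁻¹) := h2
      rw [this]
      exact Subgroup.mem_zpowers _
  obtain ⟨k, hk⟩ := IsPGroup.iff_card.1 (P.isPGroup'.to_le (Subgroup.zpowers_le.2 hwP))
  have hk0 : k ≠ 0 := by
    rintro rfl
    rw [pow_zero, Subgroup.card_eq_one, Subgroup.zpowers_eq_bot] at hk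
    exact hw1 hk
  have hkn : k ≤ n := by
    rw [← Nat.pow_dvd_pow_iff_le_right hp.one_lt, ← hk, ← hP]
    exact Subgroup.card_dvd_of_le (Subgroup.zpowers_le.2 hwP)
  refine CL.IsSupersolvable.of_cyclic_normal (Subgroup.zpowers w) (ih (n - k) (by omega) ?_)
  have h1 := Subgroup.card_eq_card_quotient_mul_card_subgroup (Subgroup.zpowers w)
  rw [hG, hk, ← Nat.sub_add_cancel hkn, pow_add, ← mul_assoc] at h1
  exact (Nat.eq_of_mul_eq_mul_right (pow_pos hp.pos k) h1).symm

end Cfsg.Agent.S0530
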