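import Cfsg.Statements.S0532
import Mathlib
import Cfsg.Agent.SOLV.Basic

set_option autoImplicit false
open Cfsg

namespace Cfsg.Agent.S0532

theorem hered {G : Type*} [Group G] (h : ∀ H : Subgroup G, Cfsg.HasSubgroupOfEveryOrder H)
    (K : Subgroup G) (H : Subgroup K) : Cfsg.HasSubgroupOfEveryOrder H := by
  intro d hd
  let e := H.equivMapOfInjective K.subtype K.subtype_injective
  obtain ⟨L, hL⟩ := h (H.map K.subtype) d (by rwa [Subgroup.card_subtype])
  exact ⟨L.map (e.symm : _ →* H), by
    rw [Subgroup.card_map_of_injective e.symm.injective, hL]⟩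

theorem exists_index {G : Type*} [Group G] [Finite G]
    (h : ∀ H : Subgroup G, Cfsg.HasSubgroupOfEveryOrder H) {d : ℕ} (hd : d ∣ Nat.card G) :
    ∃ K : Subgroup G, K.index = d := by
  obtain ⟨e, he⟩ := hd
  obtain ⟨L, hL⟩ := h ⊤ e (by rw [Subgroup.card_top, he]; exact dvd_mul_left e d)
  refine ⟨L.map (⊤ : Subgroup G).subtype, ?_⟩
  have h1 := (L.map (⊤ : Subgroup G).subtype).index_mul_card
  rw [Subgroup.card_subtype, hL, he] at h1
  exact Nat.eq_of_mul_eq_mul_right (hL ▸ Nat.card_pos) h1

/-- If each subgroup of a finite group satisfies the converse of Lagrange's theorem, then a Sylow subgroup for the largest prime dividing the group order is normal. -/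
theorem result {G : Type*} [Group G] [Finite G] (h : ∀ H : Subgroup G, Cfsg.HasSubgroupOfEveryOrder H) (p : ℕ) [Fact p.Prime] (hdvd : p ∣ Nat.card G) (hmax : ∀ q : ℕ, q.Prime → q ∣ Nat.card G → q ≤ p) (P : Sylow p G) : (P : Subgroup G).Normal := by
  induction hn : Nat.card G using Nat.strong_induction_on generalizing G with
  | _ n ih =>
  subst hn
  have hp : p.Prime := Fact.out
  have h1 : Nat.card G ≠ 1 := fun h => hp.one_lt.ne' (Nat.dvd_one.1 (h ▸ hdvd))
  by_cases hq : (Nat.card G).minFac = p
  · have : (P : Subgroup G) = ⊤ := by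
      rw [← Subgroup.index_eq_one]
      by_contra hne
      obtain ⟨r, hr, hrd⟩ := Nat.exists_prime_and_dvd hne
      have h2 := hrd.trans (P : Subgroup G).index_dvd_card
      have h3 : r = p := le_antisymm (hmax r hr h2) (hq ▸ Nat.minFac_le_of_dvd hr.two_le h2)
      exact P.not_dvd_index (h3 ▸ hrd)
    rw [this]; infer_instance
  obtain ⟨K, hK⟩ := exists_index h (Nat.minFac_dvd (Nat.card G))
  have hKn : K.Normal := Subgroup.normal_of_index_eq_minFac_card hK
  have hqp := Nat.minFac_prime h1
  have hcop : p.Coprime K.index := by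
    rw [hK]; exact (Nat.coprime_primes hp hqp).2 (Ne.symm hq)
  have hPK : (P : Subgroup G) ≤ K := by
    obtain ⟨k, hk⟩ := IsPGroup.iff_card.1 P.isPGroup'
    exact CL.le_of_coprime_index (by rw [hk]; exact hcop.pow_left k)
  have hKtop : K ≠ ⊤ := by
    rintro rfl
    rw [Subgroup.index_top] at hK
    exact hqp.one_lt.ne hK
  have h2 := ih _ (CL.card_lt_of_ne_top hKtop) (hered h K)
    (by rw [← K.card_mul_index] at hdvd; exact hcop.dvd_of_dvd_mul_right hdvd)
    (fun q hq hd => hmax q hq (hd.trans K.card_subgroup_dvd_card)) (P.subtype hPK) rfl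
  have := (P.subtype hPK).characteristic_of_normal h2
  have h3 : (((P.subtype hPK : Sylow p K) : Subgroup K).map K.subtype).Normal := inferInstance
  rwa [Sylow.coe_subtype, Subgroup.map_subgroupOf_eq_of_le hPK] at h3

end Cfsg.Agent.S0532
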