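import Cfsg.Statements.S0533
import Mathlib
import Cfsg.Agent.S0532
import Cfsg.Agent.SOLV.Huppert
import Cfsg.Agent.PLOC.PNormal

set_option autoImplicit false
open Cfsg

namespace Cfsg.Agent.S0533

/-- If every subgroup of a finite group has subgroups of all orders dividing its order, then the group is supersolvable. -/
theorem result {G : Type*} [Group G] [Finite G] (h : ∀ H : Subgroup G, Cfsg.HasSubgroupOfEveryOrder H) : Cfsg.IsSupersolvable G := by
  induction hn : Nat.card G using Nat.strong_induction_on generalizing G with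
  | _ n ih =>
  subst hn
  rcases subsingleton_or_nontrivial G with hG | hG
  · exact CL.IsSupersolvable.of_subsingleton
  obtain ⟨p, hp, hdvd, hmax⟩ := CL.exists_max_prime_dvd_card G
  have := Fact.mk hp
  obtain ⟨P⟩ : Nonempty (Sylow p G) := inferInstance
  have hPn := S0532.result h p hdvd hmax P
  have hsub : ∀ K : Subgroup G, K ≠ ⊤ → IsSupersolvable K := fun K hK =>
    ih _ (CL.card_lt_of_ne_top hK) (S0532.hered h K) rfl
  obtain ⟨K, hK⟩ := Subgroup.exists_right_complement'_of_coprime P.card_coprime_index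
  have hKtop : K ≠ ⊤ := by
    rintro rfl
    exact P.ne_bot_of_dvd_card hdvd (Subgroup.isComplement'_top_right.1 hK)
  refine CL.IsSupersolvable.of_ssChain_quotient (P : Subgroup G) ?_
    (CL.IsSupersolvable.of_equiv (hsub K hKtop) hK.symm.QuotientMulEquiv.symm)
  obtain ⟨M, hM⟩ := S0532.exists_index h hdvd
  have hMtop : M ≠ ⊤ := by
    rintro rfl
    rw [Subgroup.index_top] at hM
    exact hp.one_lt.ne hM
  have hPM : ¬ (P : Subgroup G) ≤ M := fun hle =>
    P.not_dvd_index (hM.symm.dvd.trans (Subgroup.index_dvd_of_le hle))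
  have hsup : (P : Subgroup G) ⊔ M = ⊤ := by
    rw [← Subgroup.index_eq_one]
    have h1 := Subgroup.index_dvd_of_le (le_sup_right : M ≤ (P : Subgroup G) ⊔ M)
    rw [hM, Nat.dvd_prime hp] at h1
    refine h1.resolve_right fun h2 => ?_
    exact P.not_dvd_index (h2.symm.dvd.trans (Subgroup.index_dvd_of_le le_sup_left))
  have hidx : ((P : Subgroup G) ⊓ M).relIndex P = p := by
    have h1 := CL.card_sup_mul_card_inf M (P : Subgroup G)
    rw [sup_comm, hsup, Subgroup.card_top, ← M.card_mul_index, hM, mul_assoc,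
      ← CL.card_inf_mul_relIndex M (P : Subgroup G), mul_comm p] at h1
    rw [Subgroup.inf_relIndex_left]
    exact (Nat.eq_of_mul_eq_mul_left Nat.card_pos (Nat.eq_of_mul_eq_mul_left Nat.card_pos h1)).symm
  have hQn : ((P : Subgroup G) ⊓ M).Normal := by
    rw [← Subgroup.normalizer_eq_top_iff, eq_top_iff, ← hsup]
    refine sup_le ?_ (CL.le_normalizer_inf Subgroup.le_normalizer_of_normal Subgroup.le_normalizer)
    rw [← Subgroup.normal_subgroupOf_iff_le_normalizer inf_le_left]
    exact CL.PN.normal_of_index_eq_prime P.isPGroup' _ hidx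
  have h1 : CL.SSChain G ((P : Subgroup G) ⊓ M) :=
    CL.SSChain.of_le_inf P.isPGroup' (hsub M hMtop) hsup inf_le_left inf_le_right
  obtain ⟨x, hxP, hxM⟩ := SetLike.not_le_iff_exists.1 hPM
  have h2 : (P : Subgroup G) ⊓ M ⊔ Subgroup.zpowers x = P := by
    have hle : (P : Subgroup G) ⊓ M ⊔ Subgroup.zpowers x ≤ P :=
      sup_le inf_le_left (Subgroup.zpowers_le.2 hxP)
    have h3 := Subgroup.relIndex_mul_relIndex _ _ _ (le_sup_left :
      (P : Subgroup G) ⊓ M ≤ (P : Subgroup G) ⊓ M ⊔ Subgroup.zpowers x) hle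
    rw [hidx] at h3
    rcases (Nat.dvd_prime hp).1 (Dvd.intro_left _ h3) with h4 | h4
    · exact le_antisymm hle (Subgroup.relIndex_eq_one.1 h4)
    · rw [h4] at h3
      have h5 := Subgroup.relIndex_eq_one.1 ((Nat.mul_eq_right hp.ne_zero).1 h3)
      exact absurd (h5 (Subgroup.mem_sup_right (Subgroup.mem_zpowers x))).2 hxM
  have := CL.SSChain.step _ x h1 (h2.symm ▸ hPn)
  rwa [h2] at this

end Cfsg.Agent.S0533
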