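import Cfsg.Statements.S0535
import Mathlib
import Cfsg.Agent.SOLV.HallConverse

set_option autoImplicit false
open Cfsg

namespace Cfsg.Agent.S0535

/-- Suppose that for every nontrivial subgroup H of a finite group and every prime p dividing the order of H there is a proper subgroup of H whose index in H is a power of p. Then the group is solvable. -/
theorem result {G : Type*} [Group G] [Finite G] (h : ∀ H : Subgroup G, H ≠ ⊥ → ∀ p : ℕ, p.Prime → p ∣ Nat.card H → ∃ K : Subgroup H, K ≠ ⊤ ∧ ∃ k : ℕ, K.index = p ^ k) : Group.IsSolvable G := by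
  refine CL.isSolvable_of_forall_exists_pComplement fun p hp => ?_
  obtain ⟨H, -, hH⟩ := exists_minimal_le_of_wellFoundedLT
    (fun H : Subgroup G => ∃ k, H.index = p ^ k) ⊤ ⟨0, by simp⟩
  refine ⟨H, fun hd => ?_, hH.1⟩
  obtain ⟨K, hK, k, hk⟩ := h H (by
    rintro rfl
    exact hp.one_lt.ne' (by simpa using hd)) p hp hd
  obtain ⟨j, hj⟩ := hH.1
  have h1 := hH.2 (y := K.map H.subtype) ⟨k + j, by
    rw [Subgroup.index_map_subtype, hk, hj, pow_add]⟩ (Subgroup.map_subtype_le K)
  refine hK (eq_top_iff.2 fun x _ => ?_)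
  obtain ⟨y, hy, e⟩ := h1 x.2
  rwa [← Subtype.ext e]

end Cfsg.Agent.S0535
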