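import Cfsg.Statements.S0536
import Cfsg.Agent.SOLV.Schmidt

set_option autoImplicit false
open Cfsg

namespace Cfsg.Agent.S0536

/-- Structure of minimal non-nilpotent groups: if a finite group is not nilpotent but all its proper subgroups are, then there are distinct primes p and q, a cyclic Sylow p-subgroup P and a normal Sylow q-subgroup Q with G generated by P and Q. -/
theorem result {G : Type*} [Group G] [Finite G] (hG : Cfsg.IsMinimalNonNilpotent G) : ∃ p q : ℕ, p.Prime ∧ q.Prime ∧ p ≠ q ∧ ∃ (P : Sylow p G) (Q : Sylow q G), IsCyclic P ∧ (Q : Subgroup G).Normal ∧ (P : Subgroup G) ⊔ Q = ⊤ := by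
  obtain ⟨p, q, x, Q, h⟩ := CL.exists_schmidtData hG
  obtain ⟨P, hP⟩ := h.exists_sylow
  refine ⟨p, q, h.prime_p, h.prime_q, h.ne, P, Q, ?_, h.normal, ?_⟩
  · show IsCyclic (P : Subgroup G)
    rw [hP]
    infer_instance
  · rw [hP, sup_comm, h.sup_eq_top]

end Cfsg.Agent.S0536
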