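import Cfsg.Statements.S0537
import Cfsg.Agent.SOLV.Schmidt
import Cfsg.Agent.S0055

set_option autoImplicit false
open Cfsg

namespace Cfsg.Agent.S0537

/-- A finite non-abelian group in which every proper subgroup is abelian is either of prime-power order, or is generated by a cyclic Sylow p-subgroup and a normal Sylow q-subgroup that is elementary abelian, for distinct primes p and q. -/
theorem result {G : Type*} [Group G] [Finite G] (hna : ¬ IsMulCommutative G) (h : ∀ H : Subgroup G, H ≠ ⊤ → IsMulCommutative H) : (∃ p : ℕ, p.Prime ∧ IsPGroup p G) ∨ ∃ p q : ℕ, p.Prime ∧ q.Prime ∧ p ≠ q ∧ ∃ (P : Sylow p G) (Q : Sylow q G), IsCyclic P ∧ (Q : Subgroup G).Normal ∧ Cfsg.IsElementaryAbelian q (Q : Subgroup G) ∧ (P : Subgroup G) ⊔ Q = ⊤ := by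
  by_cases hG : Group.IsNilpotent G
  · left
    by_contra! hp
    have : Nontrivial G := by
      by_contra hn
      rw [not_nontrivial_iff_subsingleton] at hn
      exact hna ⟨⟨fun x y => Subsingleton.elim _ _⟩⟩
    obtain ⟨q, hq, hd⟩ := Nat.exists_prime_and_dvd (Finite.one_lt_card (α := G)).ne'
    have : Fact q.Prime := ⟨hq⟩
    refine hna (CL.isMulCommutative_of_pCore_of_pPrimeCore q (h _ fun e => ?_) (h _ fun e => ?_))
    · exact hp q hq (CL.pCore_eq_top_iff.mp e)
    · exact (Nat.Prime.coprime_iff_not_dvd hq).mp (CL.pPrimeCore_eq_top_iff.mp e).symm hd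
  · right
    obtain ⟨p, q, x, Q, hS⟩ := CL.exists_schmidtData ⟨hG, fun H hH =>
      have := h H hH
      CL.isNilpotent_of_isMulCommutative H⟩
    obtain ⟨P, hP⟩ := hS.exists_sylow
    have : Fact q.Prime := ⟨hS.prime_q⟩
    have hn := hS.normal
    have hQ : IsMulCommutative (Q : Subgroup G) := h _ fun e => hG (by
      have := Q.2.isNilpotent
      rwa [e, Group.isNilpotent_top] at this)
    refine ⟨p, q, hS.prime_p, hS.prime_q, hS.ne, P, Q, ?_, hn, ⟨hQ, ?_⟩, ?_⟩
    · show IsCyclic (P : Subgroup G)
      rw [hP]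
      infer_instance
    · have h1 := (Cfsg.Agent.S0055.result (Subgroup.zpowers x) Q
        Subgroup.le_normalizer_of_normal hS.coprime).1
      rw [hS.commutator_eq, inf_right_comm, inf_idem] at h1
      let U : Subgroup G :=
        { carrier := {y | y ∈ (Q : Subgroup G) ∧ y ^ q = 1}
          one_mem' := ⟨one_mem _, one_pow _⟩
          mul_mem' := fun {a b} ha hb => ⟨mul_mem ha.1 hb.1, by
            rw [Commute.mul_pow (setLike_mul_comm ha.1 hb.1), ha.2, hb.2, mul_one]⟩
          inv_mem' := fun {a} ha => ⟨inv_mem ha.1, by rw [inv_pow, ha.2, inv_one]⟩ }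
      have hUQ : U ≤ Q := fun y hy => hy.1
      rcases hUQ.lt_or_eq with hlt | heq
      · exfalso
        have h2 := hS.le_centralizer_of_lt hlt (Subgroup.le_normalizer_iff.mpr fun a _ y hy =>
          ⟨hn.conj_mem _ hy.1 _, by rw [conj_pow, hy.2, mul_one, mul_inv_cancel]⟩)
        have h3 : U = ⊥ := le_bot_iff.mp (h1 ▸ le_inf hUQ h2)
        rcases Q.2.card_eq_or_dvd with h4 | h4
        · exact hS.ne_bot (Subgroup.card_eq_one.mp h4)
        · obtain ⟨y, hy⟩ := exists_prime_orderOf_dvd_card' q h4
          have h5 : (y : G) ∈ U := ⟨y.2, by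
            have := pow_orderOf_eq_one y
            rw [hy] at this
            exact congrArg Subtype.val this⟩
          rw [h3, Subgroup.mem_bot] at h5
          have h6 : y = 1 := Subtype.ext h5
          rw [h6, orderOf_one] at hy
          exact hS.prime_q.one_lt.ne hy
      · intro y hy
        exact (heq.ge hy).2
    · rw [hP, sup_comm, hS.sup_eq_top]

end Cfsg.Agent.S0537
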