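import Cfsg.Statements.S0541
import Mathlib
import Cfsg.Agent.SOLV.Subnormal

set_option autoImplicit false
open Pointwise
open Cfsg

namespace Cfsg.Agent.S0541

/-- Let Z and Y be subgroups of a finite group G and p a prime. Suppose that for every g in G the subgroup generated by the conjugates of g Z g⁻¹ under Y is a p-group. Then there is a Sylow p-subgroup P of G such that Y normalizes the subgroup generated by all conjugates of Z contained in P. -/
theorem result {G : Type*} [Group G] [Finite G] (p : ℕ) [Fact p.Prime] (Z Y : Subgroup G) (h : ∀ g : G, IsPGroup p ↥(⨆ y ∈ Y, MulAut.conj (y * g) • Z)) : ∃ P : Sylow p G, Y ≤ Subgroup.normalizer ((⨆ g ∈ {g : G | MulAut.conj g • Z ≤ (P : Subgroup G)}, MulAut.conj g • Z : Subgroup G) : Set G) := by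
  classical
  -- a maximal `Y`-invariant `p`-subgroup generated by conjugates of `Z`
  obtain ⟨Q, -, hQ⟩ := Finite.exists_le_maximal
    (p := fun Q : Subgroup G => IsPGroup p Q ∧ Y ≤ Subgroup.normalizer (Q : Set G) ∧
      Q ≤ sSup {U | (∃ g : G, U = MulAut.conj g • Z) ∧ U ≤ Q})
    (a := ⊥) ⟨IsPGroup.of_bot, Subgroup.le_normalizer_of_normal, bot_le⟩
  obtain ⟨hQp, hQY, hQs⟩ := hQ.1
  have hQeq : sSup {U | (∃ g : G, U = MulAut.conj g • Z) ∧ U ≤ Q} = Q :=
    le_antisymm (sSup_le fun U hU => hU.2) hQs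
  obtain ⟨P, hP⟩ := hQp.exists_le_sylow
  refine ⟨P, ?_⟩
  have hsub : {U | (∃ g : G, U = MulAut.conj g • Z) ∧ U ≤ Q} ⊆
      {U | (∃ g : G, U = MulAut.conj g • Z) ∧ U ≤ (P : Subgroup G)} :=
    fun U hU => ⟨hU.1, hU.2.trans hP⟩
  rcases hsub.eq_or_ssubset with heq | hss
  · have : (⨆ g ∈ {g : G | MulAut.conj g • Z ≤ (P : Subgroup G)}, MulAut.conj g • Z) = Q := by
      rw [← hQeq, heq]
      refine le_antisymm (iSup₂_le fun g hg => le_sSup ⟨⟨g, rfl⟩, hg⟩) (sSup_le ?_)
      rintro _ ⟨⟨g, rfl⟩, hg⟩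
      exact le_iSup₂ (f := fun g (_ : g ∈ {g : G | MulAut.conj g • Z ≤ (P : Subgroup G)}) =>
        MulAut.conj g • Z) g hg
    rw [this]
    exact hQY
  · exfalso
    obtain ⟨X, ⟨⟨g, rfl⟩, -⟩, hX₀, hXn⟩ := CL.SnIn.exists_mem_le_normalizer_sSup
      (V := (P : Subgroup G)) (fun U hU => CL.SnIn.of_isPGroup P.isPGroup' hU.2) (by
        rintro _ ⟨⟨g, rfl⟩, hg⟩ x hx
        exact ⟨⟨x * g, CL.conj_smul_conj_smul _ _ _⟩,
          CL.conj_smul_le_of_mem_normalizer hg (Subgroup.le_normalizer hx)⟩) hss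
    rw [hQeq] at hXn
    set R : Subgroup G := ⨆ y ∈ Y, MulAut.conj (y * g) • Z with hR
    have hle : ∀ y ∈ Y, MulAut.conj (y * g) • Z ≤ R := fun y hy =>
      le_iSup₂ (f := fun y (_ : y ∈ Y) => MulAut.conj (y * g) • Z) y hy
    have hRQ : R ≤ Subgroup.normalizer (Q : Set G) := by
      refine iSup₂_le fun y hy => ?_
      rw [← CL.conj_smul_conj_smul]
      exact CL.conj_smul_le_of_mem_normalizer hXn (Subgroup.le_normalizer (hQY hy))
    have hYR : Y ≤ Subgroup.normalizer (R : Set G) := by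
      intro y hy
      refine CL.mem_normalizer_iff_conj_smul_eq.2 (CL.conj_smul_eq_of_le ?_)
      rw [hR, CL.conj_smul_iSup]
      refine iSup_le fun z => ?_
      rw [CL.conj_smul_iSup]
      refine iSup_le fun hz => ?_
      rw [CL.conj_smul_conj_smul, ← mul_assoc]
      exact hle _ (mul_mem hy hz)
    have := hQ.le_of_ge (y := Q ⊔ R) ⟨hQp.to_sup_of_normal_left' (h g) hRQ,
      (le_inf hQY hYR).trans (Subgroup.normalizer_inf_normalizer_le_normalizer_sup Q R), ?_⟩
      le_sup_left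
    · refine hX₀ ⟨⟨g, rfl⟩, le_trans ?_ (le_sup_right.trans this)⟩
      simpa using hle 1 (one_mem Y)
    · refine sup_le (hQs.trans (sSup_le_sSup fun U hU => ⟨hU.1, hU.2.trans le_sup_left⟩)) ?_
      exact iSup₂_le fun y hy => le_sSup ⟨⟨_, rfl⟩, (hle y hy).trans le_sup_right⟩

end Cfsg.Agent.S0541
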