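import Cfsg.Statements.S0548
import Cfsg.Agent.S0547

set_option autoImplicit false
open Cfsg

namespace Cfsg.Agent.S0548

/-- Let a finite solvable group G act faithfully and primitively on a set, let M be a minimal normal subgroup and H the stabilizer of a point. Then H is a complement to M, no non-identity element of H centralizes M, and the only subgroups of M normalized by H are the trivial subgroup and M. -/
theorem result {G : Type*} [Group G] [Finite G] [Group.IsSolvable G] {Ω : Type*} [MulAction G Ω] [FaithfulSMul G Ω] (hprim : MulAction.IsPreprimitive G Ω) (M : Subgroup G) [M.Normal] (hM : M ≠ ⊥) (hmin : ∀ K : Subgroup G, K.Normal → K ≤ M → K = ⊥ ∨ K = M) (ω : Ω) : Subgroup.IsComplement' M (MulAction.stabilizer G ω) ∧ MulAction.stabilizer G ω ⊓ Subgroup.centralizer (M : Set G) = ⊥ ∧ ∀ K : Subgroup G, K ≤ M → MulAction.stabilizer G ω ≤ Subgroup.normalizer (K : Set G) → K = ⊥ ∨ K = M := by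
  have hM' : CL.IsMinNormal M := ⟨inferInstance, hM, hmin⟩
  have := hM'.isMulCommutative_of_isSolvable inferInstance
  obtain ⟨ht, hr⟩ := Cfsg.Agent.S0547.regular hprim M hM
  have hsup : M ⊔ MulAction.stabilizer G ω = ⊤ := by
    rw [eq_top_iff]
    intro g _
    obtain ⟨m, hm⟩ := ht.exists_smul_eq ω (g • ω)
    have : g = m * ((m : G)⁻¹ * g) := by group
    rw [this]
    refine Subgroup.mul_mem_sup m.2 ?_
    rw [MulAction.mem_stabilizer_iff, mul_smul, ← hm, Subgroup.smul_def, inv_smul_smul]
  refine ⟨CL.Prim.isComplement'_of_inf_of_sup (eq_bot_iff.2 fun m hm => hr ω m hm.1 hm.2) hsup,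
    eq_bot_iff.2 fun g hg => eq_of_smul_eq_smul (α := Ω) fun β => ?_, fun K hK hn => ?_⟩
  · obtain ⟨n, rfl⟩ := ht.exists_smul_eq ω β
    obtain ⟨h1, h2⟩ := Subgroup.mem_inf.1 hg
    rw [one_smul, Subgroup.smul_def, ← mul_smul, ← h2 n n.2, mul_smul, h1]
  · refine hmin K (CL.Prim.normal_of_sup_eq_top hsup ?_ hn) hK
    exact ((Subgroup.le_centralizer M).trans (Subgroup.centralizer_le hK)).trans
      (Subgroup.centralizer_le_normalizer _)

end Cfsg.Agent.S0548
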