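import Cfsg.Statements.S0550
import Cfsg.Agent.SOLV.Primitive

set_option autoImplicit false
open Cfsg

namespace Cfsg.Agent.S0550

/-- Let U be a maximal subgroup with trivial normal core in a finite group G, and A ≠ B two minimal normal subgroups. Then A is the centralizer of B and B that of A, U complements each of them, A and B are non-abelian, and A, B and (A ⊔ B) ∩ U are pairwise isomorphic. -/
theorem result {G : Type*} [Group G] [Finite G] (U : Subgroup G) (hU : IsCoatom U) (hcore : U.normalCore = ⊥) (A B : Subgroup G) [A.Normal] [B.Normal] (hA : A ≠ ⊥) (hB : B ≠ ⊥) (hAmin : ∀ K : Subgroup G, K.Normal → K ≤ A → K = ⊥ ∨ K = A) (hBmin : ∀ K : Subgroup G, K.Normal → K ≤ B → K = ⊥ ∨ K = B) (hAB : A ≠ B) : Subgroup.centralizer (B : Set G) = A ∧ Subgroup.centralizer (A : Set G) = B ∧ Subgroup.IsComplement' A U ∧ Subgroup.IsComplement' B U ∧ ¬ IsMulCommutative A ∧ Nonempty (A ≃* B) ∧ Nonempty (A ≃* ↥((A ⊔ B) ⊓ U)) := by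
  have hA' : CL.IsMinNormal A := ⟨inferInstance, hA, hAmin⟩
  have hB' : CL.IsMinNormal B := ⟨inferInstance, hB, hBmin⟩
  have h1 := CL.Prim.eq_centralizer hU hcore hB hA (hA'.le_centralizer_of_ne hB' hAB)
  have h2 := CL.Prim.eq_centralizer hU hcore hA hB (hB'.le_centralizer_of_ne hA' hAB.symm)
  have hAU : A ⊓ U = ⊥ := h1 ▸ CL.Prim.centralizer_inf_eq_bot hU hcore hB
  have hBU : B ⊓ U = ⊥ := h2 ▸ CL.Prim.centralizer_inf_eq_bot hU hcore hA
  have hsA := CL.Prim.sup_eq_top hU hcore hA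
  have hsB := CL.Prim.sup_eq_top hU hcore hB
  have hABi : A ⊓ B = ⊥ := by
    rcases hA'.inf_eq_bot_or_le B with h | h
    · exact h
    · exact absurd (hB'.eq_of_le h hA) hAB
  have ded : ∀ X : Subgroup G, X.Normal → X ⊔ U = ⊤ → X ≤ A ⊔ B → ((A ⊔ B) ⊓ U) ⊔ X = A ⊔ B := by
    intro X hX hs hle
    have := CL.sup_inf_assoc_of_le_of_le_normalizer (K := U) hle
      (Or.inr (by rw [Subgroup.normalizer_eq_top]; exact le_top))
    rw [hs, top_inf_eq, inf_comm, sup_comm X] at this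
    exact this.symm
  obtain ⟨e⟩ := CL.Prim.nonempty_mulEquiv_of_sup_eq (X := A) (Y := (A ⊔ B) ⊓ U) (B := B) hABi
    (eq_bot_iff.2 (hBU ▸ le_inf inf_le_right (inf_le_left.trans inf_le_right)))
    (ded B inferInstance hsB le_sup_right).symm
  obtain ⟨f⟩ := CL.Prim.nonempty_mulEquiv_of_sup_eq (X := B) (Y := (A ⊔ B) ⊓ U) (B := A)
    (by rw [inf_comm, hABi])
    (eq_bot_iff.2 (hAU ▸ le_inf inf_le_right (inf_le_left.trans inf_le_right)))
    (by rw [ded A inferInstance hsA le_sup_left, sup_comm])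
  refine ⟨h1.symm, h2.symm, CL.Prim.isComplement'_of_inf_of_sup hAU hsA,
    CL.Prim.isComplement'_of_inf_of_sup hBU hsB, fun hc => hA ?_, ⟨e.trans f.symm⟩, ⟨e⟩⟩
  have : A ≤ B := h2 ▸ Subgroup.le_centralizer A
  exact eq_bot_iff.2 (hABi ▸ le_inf le_rfl this)

end Cfsg.Agent.S0550
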