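import Cfsg.Statements.S0552
import Cfsg.Agent.SOLV.CoprimeAut

set_option autoImplicit false
open Cfsg

namespace Cfsg.Agent.S0552

/-- Let σ be an automorphism of a finite solvable group G fixing every element of the Fitting subgroup. If σ is not the identity then the order of σ and the order of G have a common prime factor. -/
theorem result {G : Type*} [Group G] [Finite G] [Group.IsSolvable G] (σ : G ≃* G) (hσ : ∀ x ∈ Cfsg.fittingSubgroup G, σ x = x) (hne : σ ≠ MulEquiv.refl G) : ¬ (orderOf σ).Coprime (Nat.card G) := by
  intro hcop
  let τ : MulAut G := σ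
  have : Finite (Subgroup.zpowers τ) := inferInstance
  have h := CL.act_trivial_of_centralizer_le (G := G) (Subgroup.zpowers τ) (fittingSubgroup G)
    (CL.centralizer_fittingSubgroup_le G)
    (by rw [Nat.card_zpowers]; exact hcop.coprime_dvd_right (Subgroup.card_subgroup_dvd_card _))
    (fun x hx => CL.mem_actFix_zpowers.mpr (hσ x hx))
  exact hne (MulEquiv.ext fun x => CL.mem_actFix_zpowers.mp (h ▸ Subgroup.mem_top x :
    x ∈ CL.actFix G (Subgroup.zpowers τ)))

end Cfsg.Agent.S0552
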