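import Cfsg.Statements.S0555
import Cfsg.Agent.SOLV.SectionAut

set_option autoImplicit false
open Cfsg

namespace Cfsg.Agent.S0555

/-- Let i ≥ 1. If in the derived series of a group the quotient of the i-th term by the (i+1)-st and the quotient of the (i+1)-st by the (i+2)-nd are both cyclic, then the (i+1)-st and (i+2)-nd terms coincide. -/
theorem result {G : Type*} [Group G] (i : ℕ) (hi : 1 ≤ i) (h₁ : IsCyclic (↥(derivedSeries G i) ⧸ (derivedSeries G (i + 1)).subgroupOf (derivedSeries G i))) (h₂ : IsCyclic (↥(derivedSeries G (i + 1)) ⧸ (derivedSeries G (i + 2)).subgroupOf (derivedSeries G (i + 1)))) : derivedSeries G (i + 1) = derivedSeries G (i + 2) := by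
  set A := derivedSeries G i with hA
  set B := derivedSeries G (i + 1) with hB
  set C := derivedSeries G (i + 2) with hC
  have hBA : B ≤ A := derivedSeries_antitone G (Nat.le_succ i)
  have hCB : C ≤ B := derivedSeries_antitone G (Nat.le_succ (i + 1))
  let φ := CL.sectionAut ⊤ B C Subgroup.le_normalizer_of_normal Subgroup.le_normalizer_of_normal
  have hcomm : IsMulCommutative (MulAut (B ⧸ C.subgroupOf B)) := ⟨⟨fun σ τ =>
    (IsCyclic.mulAutMulEquiv _).injective (by rw [map_mul, map_mul, mul_comm])⟩⟩
  have h1 : commutator (⊤ : Subgroup G) ≤ φ.ker := by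
    rw [commutator_def, Subgroup.commutator_le]
    intro a _ b _
    rw [MonoidHom.mem_ker, map_commutatorElement, commutatorElement_eq_one_iff_mul_comm, mul_comm']
  have h2 : A ≤ φ.ker.map (⊤ : Subgroup G).subtype := by
    refine (derivedSeries_antitone G hi).trans (le_trans ?_ (Subgroup.map_mono h1))
    rw [Subgroup.map_subtype_commutator]
    exact le_rfl
  have h3 : ⁅B, A⁆ ≤ C := (Subgroup.commutator_mono le_rfl h2).trans
    (CL.commutator_map_ker_sectionAut_le _ _ _ _ _)
  let f : A ⧸ C.subgroupOf A →* A ⧸ B.subgroupOf A :=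
    QuotientGroup.map _ _ (MonoidHom.id A) (fun x hx => hCB hx)
  have h4 : IsMulCommutative (A ⧸ C.subgroupOf A) :=
    f.isMulCommutative_of_isCyclic_of_ker_le_center (by
      intro x hx
      induction x using QuotientGroup.induction_on with | H x => ?_
      have hx' : (x : G) ∈ B := (QuotientGroup.eq_one_iff (N := B.subgroupOf A) x).mp hx
      rw [Subgroup.mem_center_iff]
      intro y
      induction y using QuotientGroup.induction_on with | H y => ?_
      rw [← QuotientGroup.mk_mul, ← QuotientGroup.mk_mul, eq_comm, QuotientGroup.eq,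
        Subgroup.mem_subgroupOf]
      have := h3 (Subgroup.commutator_mem_commutator (inv_mem hx') (inv_mem y.2))
      have h5 := inv_mem this
      simpa [commutatorElement_def, mul_assoc] using h5)
  have h5 := Subgroup.Normal.quotient_commutative_iff_commutator_le.mp h4
  refine le_antisymm ?_ hCB
  rw [hB, derivedSeries_succ, ← hA, ← Subgroup.map_subtype_commutator, Subgroup.map_le_iff_le_comap]
  exact h5

end Cfsg.Agent.S0555
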