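import Cfsg.Statements.S0557
import Cfsg.Agent.PLOC.HallTransfer
import Cfsg.Agent.SOLV.Subnormal

set_option autoImplicit false
open Cfsg

namespace Cfsg.Agent.S0557

theorem map_focal_le {G G' : Type*} [Group G] [Group G'] (f : G →* G') {K : Subgroup G}
    {L : Subgroup G'} (h : K.map f ≤ L) : K.focalSubgroup.map f ≤ L.focalSubgroup := by
  rw [Subgroup.map_le_iff_le_comap, Subgroup.focalSubgroup_def, Subgroup.closure_le]
  rintro g ⟨hg, x, hx, u, rfl⟩
  exact Subgroup.subset_closure ⟨h ⟨_, hg, rfl⟩, f x, h ⟨x, hx, rfl⟩, f u,
    map_commutatorElement f x u⟩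

theorem map_iterate_le {G G' : Type*} [Group G] [Group G'] (f : G →* G') (n : ℕ) {K : Subgroup G}
    {L : Subgroup G'} (h : K.map f ≤ L) :
    ((fun K : Subgroup G => Subgroup.focalSubgroup K)^[n] K).map f ≤
      (fun K : Subgroup G' => Subgroup.focalSubgroup K)^[n] L := by
  induction n generalizing K L with
  | zero => exact h
  | succ n ih => exact ih (map_focal_le f h)


/-- Let H be a subgroup of a finite group G with order coprime to its index. If iterating the focal-subgroup construction starting from H reaches the trivial subgroup after finitely many steps, then H has a normal complement in G. -/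
theorem result {G : Type*} [Group G] [Finite G] (H : Subgroup G) (hHall : (Nat.card H).Coprime H.index) (n : ℕ) (hfoc : (fun K : Subgroup G => Subgroup.focalSubgroup K)^[n] H = ⊥) : ∃ N : Subgroup G, N.Normal ∧ Subgroup.IsComplement' N H := by
  induction n generalizing G with
  | zero =>
    obtain rfl : H = ⊥ := hfoc
    exact ⟨⊤, inferInstance, Subgroup.isComplement'_top_bot⟩
  | succ n ih =>
    obtain ⟨h1, h2⟩ := CL.Tr.ker_transferFocal_of_coprime H
      (hHall.symm.coprime_dvd_right (Subgroup.relIndex_dvd_card _ _))
    set N := H.transferFocal.ker with hN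
    have hidx : (H.subgroupOf N).index = H.index :=
      by rw [← Subgroup.relIndex, ← CL.relIndex_sup_of_normal N H, h2, Subgroup.relIndex_top_right]
    have hcard : Nat.card (H.subgroupOf N) ∣ Nat.card H :=
      Subgroup.card_comap_dvd_of_injective H N.subtype N.subtype_injective
    have hcop : (Nat.card (H.subgroupOf N)).Coprime (H.subgroupOf N).index :=
      hidx ▸ hHall.coprime_dvd_left hcard
    obtain ⟨M, hM, hc⟩ := ih (H.subgroupOf N) hcop (by
        have := map_iterate_le N.subtype n (K := H.subgroupOf N) (L := H.focalSubgroup)
          (by rw [Subgroup.subgroupOf_map_subtype, inf_comm, h1])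
        rw [Function.iterate_succ_apply] at hfoc
        rw [hfoc, le_bot_iff, Subgroup.map_eq_bot_iff_of_injective _ N.subtype_injective] at this
        exact this)
    have hMc : Nat.card M = H.index := by rw [← hc.index_eq_card, hidx]
    have hchar : M.Characteristic := by
      rw [Subgroup.characteristic_iff_map_le]
      intro φ
      apply CL.le_of_coprime_index
      rw [Subgroup.card_map_of_injective φ.injective, hc.symm.index_eq_card, hMc]
      exact (hHall.coprime_dvd_left hcard).symm
    refine ⟨M.map N.subtype, inferInstance, Subgroup.isComplement'_of_coprime ?_ ?_⟩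
    · rw [Subgroup.card_subtype, hMc, H.index_mul_card]
    · rw [Subgroup.card_subtype, hMc]
      exact hHall.symm

end Cfsg.Agent.S0557
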