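import Cfsg.Statements.S0558
import Cfsg.Agent.PLOC.HallTransfer
import Cfsg.Agent.SOLV.Fitting
import Cfsg.Agent.SOLV.CoprimeSylow

set_option autoImplicit false
open Cfsg

namespace Cfsg.Agent.S0558

/-- Let H be a subgroup of a finite group G that is not a Sylow subgroup of G for any prime, and suppose that for every prime p dividing the order of H and every Sylow p-subgroup P of H the normalizer of P in G is exactly H. Then some normal subgroup of G is a complement to H. -/
theorem result {G : Type*} [Group G] [Finite G] (H : Subgroup G) (hnot : ∀ p : ℕ, p.Prime → ∀ P : Sylow p G, (P : Subgroup G) ≠ H) (hnorm : ∀ p : ℕ, p.Prime → p ∣ Nat.card H → ∀ P : Sylow p H, Subgroup.normalizer (((P : Subgroup H).map H.subtype : Subgroup G) : Set G) = H) : ∃ N : Subgroup G, N.Normal ∧ Subgroup.IsComplement' N H := by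
  -- each Sylow subgroup of `H` is normal in `H` and Sylow in `G`
  have hsyl : ∀ (p : ℕ) [Fact p.Prime], p ∣ Nat.card H → ∀ P : Sylow p H,
      ∃ S : Sylow p G, (S : Subgroup G) = (P : Subgroup H).map H.subtype := by
    intro p hp hd P
    obtain ⟨S, hS⟩ := CL.exists_sylow_map_subtype_eq_of_maximal_in_normalizer (K := ⊤) le_top
      (P.2.map H.subtype) (fun V hV h1 h2 => CL.eq_map_sylow_of_le P
        (h2.trans (inf_le_right.trans (hnorm p hp.out hd P).le)) hV h1)
    exact ⟨S.mapSurjective (f := (⊤ : Subgroup G).subtype) (fun x => ⟨⟨x, trivial⟩, rfl⟩), hS⟩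
  have hnil : Group.IsNilpotent H := by
    rw [CL.isNilpotent_iff_sylow_normal]
    intro p hp P
    by_cases hd : p ∣ Nat.card H
    · have h1 := Subgroup.normal_subgroupOf_of_le_normalizer (hnorm p hp.out hd P).ge
      rwa [Subgroup.subgroupOf, Subgroup.comap_map_eq_self_of_injective H.subtype_injective] at h1
    · have : (P : Subgroup H) = ⊥ := by
        by_contra hne
        rcases P.2.card_eq_or_dvd with h | h
        · exact hne (Subgroup.card_eq_one.mp h)
        · exact hd (h.trans (Subgroup.card_subgroup_dvd_card _))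
      rw [this]
      infer_instance
  have hHall : (Nat.card H).Coprime H.index := by
    refine Nat.coprime_of_dvd fun p hp hd hi => ?_
    have : Fact p.Prime := ⟨hp⟩
    obtain ⟨S, hS⟩ := hsyl p hd default
    exact S.not_dvd_index (hi.trans (Subgroup.index_dvd_of_le (hS ▸ Subgroup.map_subtype_le _)))
  refine CL.Tr.exists_normal_complement_of_forall_hasNPC H hHall fun p hp hd => ?_
  have : Fact p.Prime := ⟨hp⟩
  obtain ⟨S, hS⟩ := hsyl p hd default
  have hSH : (S : Subgroup G) ≤ H := hS ▸ Subgroup.map_subtype_le _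
  obtain ⟨q, hq, hqd, hqp⟩ : ∃ q : ℕ, q.Prime ∧ q ∣ Nat.card H ∧ q ≠ p := by
    by_contra! h
    have h1 : IsPGroup p H := CL.isPGroup_iff_isPiNum.mpr h
    exact hnot p hp S (S.3 h1 hSH).symm
  have : Fact q.Prime := ⟨hq⟩
  obtain ⟨Q, hQ⟩ := hsyl q hqd default
  have hQH : (Q : Subgroup G) ≤ H := hQ ▸ Subgroup.map_subtype_le _
  have hQS : (Q : Subgroup G) ≤ Subgroup.centralizer ((S : Subgroup G) : Set G) :=
    CL.le_centralizer_of_coprime_of_le_nilpotent hnil hQH hSH
      (IsPGroup.coprime_card_of_ne q p hqp _ _ Q.2 S.2)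
  refine CL.Tr.hasNPC_of_controls S hSH (fun x hx g hg => ?_) CL.hasNPC_of_isNilpotent
  obtain ⟨c, hc, h⟩ := CL.Tr.exists_mul_mem_normalizer_sylow Q
    (H := Subgroup.centralizer {g * x * g⁻¹}) (fun y hy => by
      rw [Subgroup.mem_centralizer_singleton_iff]
      exact (hQS hy _ hg).symm) g (fun y hy => by
      rw [Subgroup.mem_centralizer_singleton_iff]
      have := hQS hy _ hx
      calc g * y * g⁻¹ * (g * x * g⁻¹) = g * (y * x) * g⁻¹ := by group
        _ = _ := by rw [← this]; group)
  refine ⟨c * g, ?_, ?_⟩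
  · rw [← hnorm q hq hqd default, ← hQ]
    exact h
  · rw [Subgroup.mem_centralizer_singleton_iff] at hc
    calc c * g * x * (c * g)⁻¹ = c * (g * x * g⁻¹) * c⁻¹ := by group
      _ = _ := by rw [hc]; group

end Cfsg.Agent.S0558
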