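import Cfsg.Statements.S0563
import Mathlib
import Cfsg.Agent.SOLV.KegelWielandt2

set_option autoImplicit false
open Pointwise
open Cfsg

namespace Cfsg.Agent.S0563

/-- If a finite group G is the product AB of two nilpotent subgroups of coprime orders, then G is solvable, and for every Sylow p-subgroup P of A and Sylow q-subgroup Q of B the product set PQ is a subgroup. -/
theorem result {G : Type*} [Group G] [Finite G] (A B : Subgroup G) (hA : Group.IsNilpotent A) (hB : Group.IsNilpotent B) (hcop : (Nat.card A).Coprime (Nat.card B)) (hAB : ∀ g : G, ∃ a ∈ A, ∃ b ∈ B, g = a * b) : Group.IsSolvable G ∧ ∀ (p q : ℕ) [Fact p.Prime] [Fact q.Prime] (P : Sylow p A) (Q : Sylow q B), ∃ S : Subgroup G, (S : Set G) = (((P : Subgroup A).map A.subtype : Subgroup G) : Set G) * (((Q : Subgroup B).map B.subtype : Subgroup G) : Set G) := by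
  have h : CL.IsFact A B := hAB
  have := CL.isSolvable_of_isFact_of_coprime hA hB hcop h
  refine ⟨this, fun p q hp hq P Q => ?_⟩
  have key : ∀ (A B : Subgroup G) (p : ℕ) [Fact p.Prime], Group.IsNilpotent A →
      (Nat.card A).Coprime (Nat.card B) → CL.IsFact A B →
      (Nat.card (CL.Op p A)).Coprime (CL.Op p A).index := by
    intro A B p hp hA hc h
    by_cases hd : p ∣ Nat.card A
    · obtain ⟨k, hk⟩ := IsPGroup.iff_card.1 (CL.isPGroup_Op p A)
      rw [hk]
      exact Nat.Coprime.pow_left k (hp.out.coprime_iff_not_dvd.2 (CL.not_dvd_index_Op hA fun h' =>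
        hp.out.one_lt.ne' (Nat.eq_one_of_dvd_coprimes hc hd (h'.trans h.symm.index_dvd_card))))
    · rw [CL.Op, CL.pCore_eq_bot_of_coprime (hp.out.coprime_iff_not_dvd.2 hd).symm]
      simp
  rw [CL.sylow_eq_pCore_of_isNilpotent P, CL.sylow_eq_pCore_of_isNilpotent Q]
  exact ⟨_, (h.permutes_of_hall (CL.le_normalizer_Op p A) (CL.le_normalizer_Op q B)
    (key A B p hA hcop h) (key B A q hB hcop.symm h.symm)).coe_sup⟩

end Cfsg.Agent.S0563
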