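import Cfsg.Statements.S0576
import Cfsg.Agent.SOLV.Basic

set_option autoImplicit false
open Cfsg

namespace Cfsg.Agent.S0576

theorem le_frattini_of_normal {A : Type*} [Group A] [Finite A] (N U : Subgroup A) [N.Normal]
    (h : N ≤ (frattini U).map U.subtype) : N ≤ frattini A := by
  have hNU : N ≤ U := h.trans (Subgroup.map_subtype_le _)
  refine le_iInf₂ fun M hM => ?_
  by_contra hNM
  have h1 : N ⊔ M = ⊤ := hM.2 _ (lt_of_le_of_ne le_sup_right fun e => hNM (e ▸ le_sup_left))
  have h2 : N ⊔ (M ⊓ U) = U := by
    rw [← CL.sup_inf_assoc_of_le_of_le_normalizer hNU (Or.inr Subgroup.le_normalizer_of_normal),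
      h1, top_inf_eq]
  have h3 : M.subgroupOf U ⊔ frattini U = ⊤ := by
    apply Subgroup.map_injective U.subtype_injective
    rw [Subgroup.map_sup, Subgroup.subgroupOf_map_subtype, ← MonoidHom.range_eq_map,
      Subgroup.range_subtype]
    refine le_antisymm (sup_le inf_le_right (Subgroup.map_subtype_le _)) ?_
    exact h2.ge.trans (sup_le (h.trans le_sup_right) le_sup_left)
  exact hNM (hNU.trans (Subgroup.subgroupOf_eq_top.mp (frattini_nongenerating h3)))


/-- Let H be a normal subgroup of a finite group G with H contained in the Frattini subgroup of G. Then the group of inner automorphisms of H is contained in the Frattini subgroup of the automorphism group of H. -/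
theorem result {G : Type*} [Group G] [Finite G] (H : Subgroup G) [H.Normal] (hH : H ≤ frattini G) : (MulAut.conj : ↥H →* MulAut ↥H).range ≤ frattini (MulAut ↥H) := by
  have hn : (MulAut.conj : ↥H →* MulAut ↥H).range.Normal := ⟨by
    rintro _ ⟨x, rfl⟩ σ
    exact ⟨σ x, by ext y; simp⟩⟩
  let α : G →* MulAut H := MulAut.conjNormal
  refine le_frattini_of_normal _ α.range ?_
  rintro _ ⟨x, rfl⟩
  refine ⟨α.rangeRestrict x,
    frattini_le_comap_frattini_of_surjective α.rangeRestrict_surjective (hH x.2), ?_⟩
  exact MulAut.conjNormal_val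

end Cfsg.Agent.S0576
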