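import Cfsg.Statements.S0577
import Cfsg.Agent.SOLV.Schmidt

set_option autoImplicit false
open Cfsg

namespace Cfsg.Agent.S0577

/-- Let G be a finite minimal non-nilpotent group and Q a normal Sylow q-subgroup of G, and let D be the commutator subgroup of Q regarded in G (a normal subgroup). Then G modulo D is non-abelian and all its proper subgroups are abelian. -/
theorem result {G : Type*} [Group G] [Finite G] (hG : Cfsg.IsMinimalNonNilpotent G) (q : ℕ) [Fact q.Prime] (hq : q ∣ Nat.card G) (Q : Sylow q G) (hQ : (Q : Subgroup G).Normal) (D : Subgroup G) [D.Normal] (hD : D = (commutator ↥(Q : Subgroup G)).map (Q : Subgroup G).subtype) : ¬ IsMulCommutative (G ⧸ D) ∧ ∀ K : Subgroup (G ⧸ D), K ≠ ⊤ → IsMulCommutative K := by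
  obtain ⟨p, q', x, Q', hS⟩ := CL.exists_schmidtData hG
  obtain ⟨rfl, hQQ⟩ := hS.eq_of_normal_sylow hq Q hQ
  rw [Subgroup.map_subtype_commutator] at hD
  have hcomm : commutator G = Q := hQQ ▸ hS.commutator_eq_sylow
  have hlt : D < Q := hD ▸ CL.commutator_lt_of_isSolvable (CL.isSolvable_of_isPGroup Q.2)
    (hQQ ▸ hS.ne_bot)
  refine ⟨fun hc => hlt.not_ge (hcomm ▸
    Subgroup.Normal.quotient_commutative_iff_commutator_le.mp hc), fun K hK => ?_⟩
  have hf := QuotientGroup.mk'_surjective D
  have hKn : Group.IsNilpotent K := by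
    have := hG.2 (K.comap (QuotientGroup.mk' D)) fun e => hK (by
      rw [← CL.map_comap_mk' D K, e, Subgroup.map_top_of_surjective _ hf])
    rw [← CL.map_comap_mk' D K]
    exact CL.isNilpotent_map _ _
  set R : Sylow q (G ⧸ D) := Q.mapSurjective hf with hR
  have hRc : (R : Subgroup (G ⧸ D)) = (Q : Subgroup G).map (QuotientGroup.mk' D) := rfl
  have hRn : (R : Subgroup (G ⧸ D)).Normal := hQ.map _ hf
  have hRa : IsMulCommutative (R : Subgroup (G ⧸ D)) := by
    rw [← Subgroup.commutator_self_eq_bot_iff, hRc, ← Subgroup.map_commutator, ← hD,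
      CL.map_mk'_eq_bot_iff]
  have hcR : commutator (G ⧸ D) ≤ R := by
    rw [hRc, ← hcomm, map_commutator_eq, MonoidHom.range_eq_top.mpr hf]
    exact le_rfl
  refine CL.isMulCommutative_of_pCore_of_pPrimeCore q ?_ ?_
  · have h1 : (pCore q K).map K.subtype ≤ R := by
      obtain ⟨S, hS⟩ := ((CL.isPGroup_pCore q K).map K.subtype).exists_le_sylow
      have := Sylow.unique_of_normal R hRn
      exact Subsingleton.elim S R ▸ hS
    have := CL.isMulCommutative_of_le hRa h1
    rw [← Subgroup.commutator_self_eq_bot_iff] at this ⊢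
    rwa [← Subgroup.map_commutator,
      Subgroup.map_eq_bot_iff_of_injective _ K.subtype_injective] at this
  · rw [← Subgroup.commutator_self_eq_bot_iff,
      ← Subgroup.map_eq_bot_iff_of_injective _ K.subtype_injective, Subgroup.map_commutator,
      eq_bot_iff, ← CL.inf_eq_bot_of_coprime_card (CL.coprime_card_of_isPGroup R.2
        (CL.coprime_card_map_pPrimeCore (p := q) K.subtype))]
    exact le_inf (Subgroup.commutator_le_self _)
      ((Subgroup.commutator_mono le_top le_top).trans hcR)

end Cfsg.Agent.S0577
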