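import Cfsg.Statements.S0578
import Cfsg.Agent.SOLV.Schmidt

set_option autoImplicit false
open Cfsg

namespace Cfsg.Agent.S0578

/-- If in a finite group the normalizer of each abelian subgroup coincides with its centralizer, then the group is abelian. -/
theorem result {G : Type*} [Group G] [Finite G] (h : ∀ A : Subgroup G, IsMulCommutative A → Subgroup.normalizer (A : Set G) = Subgroup.centralizer (A : Set G)) : IsMulCommutative G := by
  by_contra hna
  obtain ⟨H, -, hmin⟩ := exists_minimal_le_of_wellFoundedLT
    (fun H : Subgroup G => ¬ IsMulCommutative H) ⊤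
    (fun hc => hna ⟨⟨fun x y => setLike_mul_comm (s := (⊤ : Subgroup G)) trivial trivial⟩⟩)
  have hprop : ∀ L : Subgroup H, L ≠ ⊤ → IsMulCommutative (L.map H.subtype) := by
    intro L hL
    by_contra hn
    have := hmin.le_of_le hn (Subgroup.map_subtype_le L)
    apply hL
    rw [eq_top_iff, ← Subgroup.map_subtype_le_map_subtype, ← MonoidHom.range_eq_map,
      Subgroup.range_subtype]
    exact this
  have hs : Group.IsSolvable H := CL.isSolvable_of_forall_proper_isNilpotent fun L hL => by
    have := hprop L hL
    exact CL.isNilpotent_map_subtype_iff.mp (CL.isNilpotent_of_isMulCommutative _)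
  have : Nontrivial H := by
    by_contra hn
    rw [not_nontrivial_iff_subsingleton] at hn
    exact hmin.prop ⟨⟨fun x y => Subsingleton.elim _ _⟩⟩
  obtain ⟨M, hM, hp⟩ := CL.exists_normal_index_prime H
  have h1 := h _ (hprop M fun e => hp.one_lt.ne' (by rw [e, Subgroup.index_top]))
  have h2 := CL.le_normalizer_map_subtype H M
  rw [h1] at h2
  have : Fact M.index.Prime := ⟨hp⟩
  have hcyc : IsCyclic (H ⧸ M) := isCyclic_of_prime_card (p := M.index) rfl
  refine hmin.prop ((QuotientGroup.mk' M).isMulCommutative_of_isCyclic_of_ker_le_center ?_)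
  rw [QuotientGroup.ker_mk']
  intro x hx
  rw [Subgroup.mem_center_iff]
  exact fun y => Subtype.ext (h2 y.2 x ⟨x, hx, rfl⟩).symm

end Cfsg.Agent.S0578
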