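import Cfsg.Statements.S0582
import Mathlib
import Cfsg.Agent.SOLV.Huppert

set_option autoImplicit false
open Pointwise
open Cfsg

namespace Cfsg.Agent.S0582

theorem exists_sylow {G : Type*} [Group G] [Finite G] (H : Subgroup G) (hH : Cfsg.IsSupersolvable H)
    (hHall : (Nat.card H).Coprime H.index) {p : ℕ} [hp : Fact p.Prime] (hdvd : p ∣ Nat.card H)
    (hmax : ∀ q : ℕ, q.Prime → q ∣ Nat.card H → q ≤ p) :
    ∃ P : Sylow p G, (P : Subgroup G) ≤ H ∧
      H ≤ Subgroup.normalizer ((P : Subgroup G) : Set G) := by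
  obtain ⟨Q⟩ : Nonempty (Sylow p H) := inferInstance
  have := CL.IsSupersolvable.sylow_normal_of_max_prime hH hmax Q
  refine ⟨(Q.isPGroup'.map H.subtype).toSylow ?_, Subgroup.map_subtype_le _,
    CL.le_normalizer_map_subtype H _⟩
  rw [Subgroup.index_map_subtype, hp.out.dvd_mul, not_or]
  exact ⟨Q.not_dvd_index, fun h => hp.out.one_lt.ne' (Nat.eq_one_of_dvd_coprimes hHall hdvd h)⟩

/-- Let H and K be supersolvable subgroups of a finite group G of the same order, that order being coprime to their index. Then H and K are conjugate in G. -/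
theorem result {G : Type*} [Group G] [Finite G] (H K : Subgroup G) (hH : Cfsg.IsSupersolvable H) (hK : Cfsg.IsSupersolvable K) (hcard : Nat.card H = Nat.card K) (hHall : (Nat.card H).Coprime H.index) : ∃ x : G, MulAut.conj x • H = K := by
  induction hn : Nat.card G using Nat.strong_induction_on generalizing G with
  | _ n ih =>
  subst hn
  by_cases hH1 : H = ⊥
  · subst hH1
    rw [Subgroup.card_bot, eq_comm, Subgroup.card_eq_one] at hcard
    exact ⟨1, by rw [hcard, Subgroup.smul_bot]⟩
  have := (Subgroup.nontrivial_iff_ne_bot H).2 hH1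
  obtain ⟨p, hp, hdvd, hmax⟩ := CL.exists_max_prime_dvd_card H
  have := Fact.mk hp
  have hidx : H.index = K.index := by
    have h1 := H.card_mul_index
    rw [← K.card_mul_index, hcard] at h1
    exact Nat.eq_of_mul_eq_mul_left Nat.card_pos h1
  obtain ⟨P, hPH, hHP⟩ := exists_sylow H hH hHall hdvd hmax
  obtain ⟨Q, hQK, hKQ⟩ := exists_sylow K hK (hcard ▸ hidx ▸ hHall) (hcard ▸ hdvd) (hcard ▸ hmax)
  obtain ⟨g, rfl⟩ := MulAction.exists_smul_eq G P Q
  suffices ∃ x : G, MulAut.conj x • MulAut.conj g • H = K by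
    obtain ⟨x, hx⟩ := this
    exact ⟨x * g, by rw [← CL.conj_smul_conj_smul, hx]⟩
  have h1 : ((g • P : Sylow p G) : Subgroup G) ≤ MulAut.conj g • H := CL.conj_smul_mono g hPH
  have h2 : MulAut.conj g • H ≤
      Subgroup.normalizer (((g • P : Sylow p G) : Subgroup G) : Set G) := by
    rw [Sylow.coe_subgroup_smul, CL.normalizer_conj_smul]
    exact CL.conj_smul_mono g hHP
  have h3 : IsSupersolvable ↥(MulAut.conj g • H) := CL.IsSupersolvable.map hH _
  have h4 : Nat.card ↥(MulAut.conj g • H) = Nat.card K := by rw [CL.card_conj_smul, hcard]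
  have h5 : (Nat.card ↥(MulAut.conj g • H)).Coprime (MulAut.conj g • H).index := by
    rwa [CL.card_conj_smul, CL.index_conj_smul]
  have hQ1 : ((g • P : Sylow p G) : Subgroup G) ≠ ⊥ :=
    (g • P).ne_bot_of_dvd_card (hdvd.trans H.card_subgroup_dvd_card)
  generalize ((g • P : Sylow p G) : Subgroup G) = Q at *
  generalize MulAut.conj g • H = H' at *
  by_cases hL : Subgroup.normalizer (Q : Set G) = ⊤
  · have : Q.Normal := Subgroup.normalizer_eq_top_iff.1 hL
    obtain ⟨x, hx⟩ := ih _ (CL.card_quotient_lt hQ1) (H'.map (QuotientGroup.mk' Q))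
      (K.map (QuotientGroup.mk' Q)) (CL.IsSupersolvable.map h3 _) (CL.IsSupersolvable.map hK _)
      (by
        have e1 := CL.card_map_mk'_mul H' Q
        have e2 := CL.card_map_mk'_mul K Q
        rw [inf_eq_right.2 h1] at e1
        rw [inf_eq_right.2 hQK, ← h4, ← e1] at e2
        exact (Nat.eq_of_mul_eq_mul_right Nat.card_pos e2).symm)
      (by
        rw [CL.index_map_mk', sup_eq_left.2 h1]
        exact h5.coprime_dvd_left (Subgroup.card_map_dvd _ _)) rfl
    obtain ⟨x, rfl⟩ := QuotientGroup.mk'_surjective Q x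
    refine ⟨x, ?_⟩
    rw [← CL.map_conj_smul] at hx
    have := congrArg (Subgroup.comap (QuotientGroup.mk' Q)) hx
    rwa [CL.comap_map_mk', CL.comap_map_mk', sup_eq_left.2 hQK, sup_eq_left.2] at this
    rw [← Subgroup.Normal.conj_smul_eq_self x Q]
    exact CL.conj_smul_mono x h1
  · set L := Subgroup.normalizer (Q : Set G)
    obtain ⟨x, hx⟩ := ih _ (CL.card_lt_of_ne_top hL) (H'.subgroupOf L) (K.subgroupOf L)
      (CL.IsSupersolvable.of_equiv h3 (Subgroup.subgroupOfEquivOfLe h2).symm)
      (CL.IsSupersolvable.of_equiv hK (Subgroup.subgroupOfEquivOfLe hKQ).symm)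
      (by rw [CL.card_subgroupOf_of_le h2, CL.card_subgroupOf_of_le hKQ, h4])
      (by
        rw [CL.card_subgroupOf_of_le h2]
        exact h5.coprime_dvd_right (Subgroup.relIndex_dvd_index_of_le h2)) rfl
    refine ⟨x, ?_⟩
    have := congrArg (Subgroup.map L.subtype) hx
    rwa [CL.map_conj_smul, Subgroup.map_subgroupOf_eq_of_le h2,
      Subgroup.map_subgroupOf_eq_of_le hKQ] at this

end Cfsg.Agent.S0582
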