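import Cfsg.Statements.S0586
import Cfsg.Agent.SOLV.Frattini

set_option autoImplicit false
open Cfsg

namespace Cfsg.Agent.S0586

/-- If the Frattini subgroup of a finite group G is trivial, then the Fitting subgroup of G equals the join of all abelian minimal normal subgroups of G. -/
theorem result {G : Type*} [Group G] [Finite G] (hΦ : frattini G = ⊥) : Cfsg.fittingSubgroup G = sSup {N : Subgroup G | N.Normal ∧ N ≠ ⊥ ∧ IsMulCommutative N ∧ ∀ K : Subgroup G, K.Normal → K ≤ N → K = ⊥ ∨ K = N} := by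
  have hF := CL.isMulCommutative_fittingSubgroup_of_frattini_eq_bot hΦ
  rw [CL.eq_sSup_isMinNormal_of_inf_frattini_eq_bot (Cfsg.fittingSubgroup G)
    (by rw [hΦ, inf_bot_eq])]
  congr 1
  ext N
  constructor
  · rintro ⟨h1, h2⟩
    exact ⟨h1.normal, h1.ne_bot, CL.isMulCommutative_of_le hF h2, h1.eq_bot_or_eq⟩
  · rintro ⟨h1, h2, h3, h4⟩
    exact ⟨⟨h1, h2, h4⟩, CL.le_fittingSubgroup (CL.isNilpotent_of_isMulCommutative _)⟩

end Cfsg.Agent.S0586
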