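import Cfsg.Statements.S0587
import Cfsg.Agent.SOLV.Primitive

set_option autoImplicit false
open Cfsg

namespace Cfsg.Agent.S0587

/-- Let G be a finite group whose largest normal p-subgroup L is nontrivial, and M a maximal subgroup of G with trivial normal core. Then L is elementary abelian, M is a complement to L, L is a minimal normal subgroup of G, the centralizer of L is L, and for every prime q such that the largest normal q-subgroup of M is nontrivial, the order of L is congruent to 1 modulo q and q ≠ p. -/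
theorem result {G : Type*} [Group G] [Finite G] (p : ℕ) [Fact p.Prime] (hL : Cfsg.pCore p G ≠ ⊥) (M : Subgroup G) (hM : IsCoatom M) (hcore : M.normalCore = ⊥) : Cfsg.IsElementaryAbelian p (Cfsg.pCore p G) ∧ Subgroup.IsComplement' (Cfsg.pCore p G) M ∧ (∀ K : Subgroup G, K.Normal → K ≤ Cfsg.pCore p G → K = ⊥ ∨ K = Cfsg.pCore p G) ∧ Subgroup.centralizer ((Cfsg.pCore p G : Subgroup G) : Set G) = Cfsg.pCore p G ∧ ∀ (q : ℕ) [Fact q.Prime], Cfsg.pCore q ↥M ≠ ⊥ → Nat.card (Cfsg.pCore p G) % q = 1 % q ∧ q ≠ p := by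
  have hp := CL.isPGroup_pCore p G
  have := CL.Prim.isMulCommutative_of_isPGroup hM hcore hp
  obtain ⟨h1, h2, h3⟩ := CL.Prim.abelian_normal hM hcore hL
  refine ⟨h3.isElementaryAbelian_of_isPGroup hp, h2, h3.eq_bot_or_eq, h1, fun q _ hq => ?_⟩
  have hQb : (pCore q M).map M.subtype ≠ ⊥ := by
    rwa [Ne, Subgroup.map_eq_bot_iff_of_injective _ M.subtype_injective]
  have h4 := CL.Prim.inf_centralizer_eq_bot hM hcore hL hQb (Subgroup.map_subtype_le _)
    (Subgroup.le_normalizer.trans (CL.normalizer_le_normalizer_map_pCore M))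
  have hQq : IsPGroup q ((pCore q M).map M.subtype) := CL.isPGroup_map_pCore _
  have hn : (pCore q M).map M.subtype ≤ Subgroup.normalizer (pCore p G : Set G) := by
    rw [Subgroup.normalizer_eq_top]; exact le_top
  have h5 := CL.Prim.card_modEq_card_inf_centralizer hQq hn
  rw [h4, Subgroup.card_bot] at h5
  refine ⟨h5, ?_⟩
  rintro rfl
  exact CL.inf_centralizer_ne_bot_of_isPGroup hp hQq hn hL h4

end Cfsg.Agent.S0587
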