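import Cfsg.Statements.S0592
import Mathlib
import Cfsg.Agent.PLOC.QuadPair

set_option autoImplicit false
open Cfsg

namespace Cfsg.Agent.S0592

/-- Two quadratically acting generators of a linear group that is not a p-group, with the p'-part of the order of their product dividing q - 1, give a homomorphism onto a subgroup of SL(2, q) that is not a p-group. -/
theorem result {K : Type*} [Field K] [Fintype K] {p : ℕ} [Fact p.Prime] [CharP K p] {W : Type*} [AddCommGroup W] [Module K W] [FiniteDimensional K W] [Finite W] [Nontrivial W] (H : Subgroup (W ≃ₗ[K] W)) (a b : W ≃ₗ[K] W) (hH : H = Subgroup.closure {a, b}) (ha : ∀ w : W, a (a w - w) = a w - w) (hb : ∀ w : W, b (b w - w) = b w - w) (hnp : ¬ IsPGroup p H) (hk : ∃ e k : ℕ, orderOf (a * b) = p ^ e * k ∧ k ∣ Fintype.card K - 1) : ∃ φ : H →* Matrix.SpecialLinearGroup (Fin 2) K, ¬ IsPGroup p φ.range := by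
  classical
  subst hH
  let ρ : (W ≃ₗ[K] W) →* Module.End K W := LinearEquiv.automorphismGroup.toLinearMapMonoidHom
  have hρ : ∀ g w, ρ g w = g w := fun g w => rfl
  have hρinj : Function.Injective ρ := fun g h hgh => LinearEquiv.ext fun w => by
    rw [← hρ, ← hρ, hgh]
  have ha' : (ρ a - 1) * (ρ a - 1) = 0 := LinearMap.ext fun w => by
    simp only [Module.End.mul_apply, LinearMap.sub_apply, Module.End.one_apply, hρ, ha, sub_self,
      LinearMap.zero_apply]
  have hb' : (ρ b - 1) * (ρ b - 1) = 0 := LinearMap.ext fun w => by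
    simp only [Module.End.mul_apply, LinearMap.sub_apply, Module.End.one_apply, hρ, hb, sub_self,
      LinearMap.zero_apply]
  have hp0 : ((p : ℕ) : Module.End K W) = 0 := by
    rw [← map_natCast (algebraMap K (Module.End K W)), CharP.cast_eq_zero, map_zero]
  set α := ρ a - 1 with hα
  set β := ρ b - 1 with hβ
  have hc : ¬ IsNilpotent (α * β + β * α) := by
    intro hc
    obtain ⟨N, hN⟩ := CL.Quad.unipotent_of_nilpotent ρ ha' hb' hc
    refine hnp fun g => ⟨N, Subtype.ext (hρinj ?_)⟩
    rw [Subgroup.coe_pow, map_pow, Subgroup.coe_one, map_one]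
    exact CL.Quad.pow_eq_one_of_unipotent hp0 (hN g g.2)
  set x := ρ (a * b) with hx
  have hxe : x = (1 + α) * (1 + β) := by rw [hx, map_mul, hα, hβ]; simp
  have hy1 : (1 - β) * (1 - α) * x = 1 := by
    rw [hxe, mul_assoc, ← mul_assoc (1 - α)]
    have h1 : (1 - α) * (1 + α) = 1 := by rw [sub_mul, one_mul, mul_add, mul_one, ha']; simp
    have h2 : (1 - β) * (1 + β) = 1 := by rw [sub_mul, one_mul, mul_add, mul_one, hb']; simp
    rw [h1, one_mul, h2]
  have hcx : α * β + β * α = x + (1 - β) * (1 - α) - 2 := by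
    rw [hxe]
    simp only [mul_add, add_mul, mul_sub, sub_mul, mul_one, one_mul, ← one_add_one_eq_two]
    abel
  -- an eigenvalue of `x` different from `1`
  obtain ⟨e, k, hek, hkq⟩ := hk
  have hint : IsIntegral K x := Algebra.IsIntegral.isIntegral x
  have hsplit : (minpoly K x).Splits := by
    have h1 : (Polynomial.X ^ Fintype.card K - Polynomial.X : Polynomial K).Splits := by
      rw [Polynomial.splits_iff_card_roots, FiniteField.roots_X_pow_card_sub_X,
        FiniteField.X_pow_card_sub_X_natDegree_eq K Fintype.one_lt_card]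
      rfl
    have h0 : (Polynomial.X ^ Fintype.card K - Polynomial.X : Polynomial K) ≠ 0 :=
      FiniteField.X_pow_card_sub_X_ne_zero K Fintype.one_lt_card
    refine (h1.pow (p ^ e)).of_dvd (pow_ne_zero _ h0) (minpoly.dvd K x ?_)
    have : CharP (Module.End K W) p := (CharP.charP_iff_prime_eq_zero Fact.out).2 hp0
    rw [map_pow, map_sub, map_pow, Polynomial.aeval_X,
      sub_pow_char_pow_of_commute _ _ ((Commute.refl x).pow_left _), sub_eq_zero, ← pow_mul]
    obtain ⟨r, hr⟩ := hkq
    have hq : Fintype.card K = k * r + 1 := by have := @Fintype.one_lt_card K _ _; omega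
    rw [hq, add_mul, one_mul, pow_add, show k * r * p ^ e = p ^ e * k * r by ring, pow_mul, ← hek,
      hx, ← map_pow, pow_orderOf_eq_one, map_one, one_pow, one_mul]
  obtain ⟨μ, hμ, hμ1⟩ : ∃ μ ∈ (minpoly K x).roots, μ ≠ 1 := by
    by_contra hcon
    push Not at hcon
    apply hc
    have h1 := hsplit.eq_prod_roots_of_monic (minpoly.monic hint)
    rw [Multiset.eq_replicate_card.2 hcon, Multiset.map_replicate, Multiset.prod_replicate] at h1
    have h2 := minpoly.aeval K x
    rw [h1] at h2
    simp only [map_pow, map_sub, Polynomial.aeval_X, map_one] at h2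
    have h3 : α * β + β * α = (1 - β) * (1 - α) * ((x - 1) * (x - 1)) := by
      rw [hcx]
      generalize (1 - β) * (1 - α) = y at hy1 ⊢
      rw [← mul_assoc, mul_sub y x, hy1, mul_one, sub_mul, one_mul, mul_sub y x, hy1, mul_one,
        ← one_add_one_eq_two]
      abel
    have hy2 : x * ((1 - β) * (1 - α)) = 1 := mul_eq_one_comm.1 hy1
    have hcm : Commute ((1 - β) * (1 - α)) (x - 1) :=
      Commute.sub_right (hy1.trans hy2.symm) (Commute.one_right _)
    rw [h3]
    exact Commute.isNilpotent_mul_left (hcm.mul_right hcm)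
      (Commute.isNilpotent_mul_left (Commute.refl _) ⟨_, h2⟩)
  have hev : Module.End.HasEigenvalue x μ :=
    Module.End.hasEigenvalue_of_isRoot (Polynomial.isRoot_of_mem_roots hμ)
  obtain ⟨v, hv⟩ := hev.exists_hasEigenvector
  have hv0 := hv.2
  have hxv : x v = μ • v := hv.apply_eq_smul
  have hyv : μ • ((1 - β) * (1 - α)) v = v := by
    rw [← map_smul, ← hxv, ← Module.End.mul_apply, hy1, Module.End.one_apply]
  have hμ0 : μ ≠ 0 := by rintro rfl; rw [zero_smul] at hyv; exact hv0 hyv.symm
  have hyv' : ((1 - β) * (1 - α)) v = μ⁻¹ • v := by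
    rw [eq_inv_smul_iff₀ hμ0, hyv]
  have hlam : μ + μ⁻¹ - 2 ≠ 0 := by
    intro h
    apply hμ1
    have : (μ - 1) ^ 2 = 0 := by
      field_simp at h
      linear_combination h
    exact sub_eq_zero.1 (pow_eq_zero_iff two_ne_zero |>.1 this)
  have hcv : (α * β + β * α) v = (μ + μ⁻¹ - 2) • v := by
    rw [hcx, LinearMap.sub_apply, LinearMap.add_apply, hxv, hyv', sub_smul, add_smul,
      ← one_add_one_eq_two, ← one_add_one_eq_two, LinearMap.add_apply, add_smul, one_smul,
      Module.End.one_apply]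
  obtain ⟨-, -, -, -, -, hβc⟩ := CL.Quad.exists_ker ha' hb' (fun _ => True) (fun _ _ => trivial)
    hv0 trivial
  obtain ⟨w, hw0, hcw, hβw, -, -⟩ := CL.Quad.exists_ker ha' hb'
    (fun v => (α * β + β * α) v = (μ + μ⁻¹ - 2) • v) (fun v hv => by
      show (α * β + β * α) (β v) = _
      rw [← Module.End.mul_apply, ← hβc.eq, Module.End.mul_apply, hv, map_smul]) hv0 hcv
  obtain ⟨j, φ, -, -, hφa, hφb⟩ := CL.Quad.exists_plane ρ (a := a) (b := b) ha'
    ((LinearMap.toSpanSingleton K W w).toAddMonoidHom)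
    (fun s t h => smul_left_injective K hw0 h) hlam
    (fun t => by
      have : ρ b w = w := by simpa [hβ, sub_eq_zero] using hβw
      simp [this])
    (fun t => by
      rw [LinearMap.add_apply, Module.End.mul_apply, hβw, map_zero, zero_add,
        Module.End.mul_apply] at hcw
      simp only [LinearMap.toAddMonoidHom_coe, LinearMap.toSpanSingleton_apply, map_smul]
      rw [← hα, ← hβ, hcw, smul_smul, mul_comm])
  refine ⟨φ, fun hP => ?_⟩
  -- a `p`-subgroup of `SL₂` cannot contain two opposite transvections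
  have : Finite φ.range := Subtype.finite
  have : Nontrivial φ.range := ⟨⟨⟨_, _, hφa⟩, 1, fun h => by
    have := congrArg (fun g : φ.range => (g : Matrix.SpecialLinearGroup (Fin 2) K) 0 1) h
    simp [CL.Dickson.u01] at this⟩⟩
  have := hP.center_nontrivial
  obtain ⟨⟨z, hz⟩, hz1⟩ := exists_ne (1 : Subgroup.center φ.range)
  have h1 := congrArg Subtype.val (Subgroup.mem_center_iff.1 hz ⟨_, _, hφa⟩)
  have h2 := congrArg Subtype.val (Subgroup.mem_center_iff.1 hz ⟨_, _, hφb⟩)
  simp only [Subgroup.coe_mul] at h1 h2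
  have e1 := congrArg (fun g : Matrix.SpecialLinearGroup (Fin 2) K => g 0 0) h1
  have e2 := congrArg (fun g : Matrix.SpecialLinearGroup (Fin 2) K => g 0 1) h1
  have e3 := congrArg (fun g : Matrix.SpecialLinearGroup (Fin 2) K => g 0 0) h2
  simp only [CL.Dickson.mul_apply2, CL.Dickson.u00, CL.Dickson.u01, CL.Dickson.u10, CL.Dickson.u11,
    CL.Dickson.l00, CL.Dickson.l01, CL.Dickson.l10] at e1 e2 e3
  have hc0 : (z : Matrix.SpecialLinearGroup (Fin 2) K) 1 0 = 0 := by linear_combination e1
  have hb0 : (z : Matrix.SpecialLinearGroup (Fin 2) K) 0 1 = 0 := by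
    apply mul_right_cancel₀ hlam
    linear_combination -e3
  have had : (z : Matrix.SpecialLinearGroup (Fin 2) K) 0 0 =
      (z : Matrix.SpecialLinearGroup (Fin 2) K) 1 1 := by linear_combination -e2
  obtain ⟨n, hn⟩ := hP z
  have hn' := congrArg (fun g : φ.range => (g : Matrix.SpecialLinearGroup (Fin 2) K) 0 0) hn
  simp only [Subgroup.coe_pow, (CL.Dickson.pow_apply_of_upper hc0 _).2.1, Subgroup.coe_one,
    CL.Dickson.one00] at hn'
  have h00 : (z : Matrix.SpecialLinearGroup (Fin 2) K) 0 0 = 1 := by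
    have : ((z : Matrix.SpecialLinearGroup (Fin 2) K) 0 0 - 1) ^ p ^ n = 0 := by
      rw [sub_pow_char_pow, hn', one_pow, sub_self]
    exact sub_eq_zero.1 (pow_eq_zero_iff (pow_ne_zero _ (Fact.out : p.Prime).ne_zero) |>.1 this)
  apply hz1
  apply Subtype.ext
  apply Subtype.ext
  exact CL.Dickson.ext2 h00 hb0 hc0 (had ▸ h00)

end Cfsg.Agent.S0592
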