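import Cfsg.Statements.S0593
import Cfsg.Agent.PLOC.QdFree

set_option autoImplicit false
open Cfsg

namespace Cfsg.Agent.S0593

/-- For odd p, a faithful group on an elementary abelian p-group generated by two quadratically acting elements is a p-group or has non-abelian Sylow 2-subgroups. -/
theorem result {G : Type*} [Group G] [Finite G] {p : ℕ} [Fact p.Prime] (hp : p ≠ 2) (V H : Subgroup G) (hV : Cfsg.IsElementaryAbelian p V) (hHV : H ≤ Subgroup.normalizer (V : Set G)) (hf : H ⊓ Subgroup.centralizer (V : Set G) = ⊥) (a b : G) (hab : H = Subgroup.closure {a, b}) (ha : ⁅⁅V, Subgroup.zpowers a⁆, Subgroup.zpowers a⁆ = ⊥) (hb : ⁅⁅V, Subgroup.zpowers b⁆, Subgroup.zpowers b⁆ = ⊥) (hnp : ¬ IsPGroup p H) (T : Sylow 2 H) : ¬ IsMulCommutative T := by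
  subst hab
  have h1 : ∃ g ∈ Subgroup.closure ({a, b} : Set G),
      ∀ k : ℕ, g ^ p ^ k ∉ Subgroup.centralizer (V : Set G) := by
    by_contra hcon
    push Not at hcon
    refine hnp fun g => ?_
    obtain ⟨k, hk⟩ := hcon g g.2
    have : (g : G) ^ p ^ k ∈ (⊥ : Subgroup G) := hf ▸ ⟨pow_mem g.2 _, hk⟩
    exact ⟨k, Subtype.ext this⟩
  exact fun hT => CL.PSt.not_involves_sl2_of_abelian hp hT
    (CL.PSt.involves_sl2_of_pair hp hV (hHV (Subgroup.subset_closure (by simp)))
      (hHV (Subgroup.subset_closure (by simp))) ha hb h1)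

end Cfsg.Agent.S0593
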