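import Cfsg.Statements.S0594
import Cfsg.Agent.PLOC.QdFree

set_option autoImplicit false
open Cfsg
open scoped commutatorElement

namespace Cfsg.Agent.S0594

/-- For odd p, two quadratic generators of a faithful group that is not a p-group, one of which acts nontrivially on a normal subgroup of order prime to p, force p = 3 and a section isomorphic to SL(2,3). -/
theorem result {G : Type*} [Group G] [Finite G] {p : ℕ} [Fact p.Prime] (hp : p ≠ 2) (V H : Subgroup G) (hV : Cfsg.IsElementaryAbelian p V) (hHV : H ≤ Subgroup.normalizer (V : Set G)) (hf : H ⊓ Subgroup.centralizer (V : Set G) = ⊥) (a b : G) (hab : H = Subgroup.closure {a, b}) (ha : ⁅⁅V, Subgroup.zpowers a⁆, Subgroup.zpowers a⁆ = ⊥) (hb : ⁅⁅V, Subgroup.zpowers b⁆, Subgroup.zpowers b⁆ = ⊥) (hnp : ¬ IsPGroup p H) (Q : Subgroup G) (hQH : Q ≤ H) (hQn : H ≤ Subgroup.normalizer (Q : Set G)) (hQ : (Nat.card Q).Coprime p) (hQa : ⁅Q, Subgroup.zpowers a⁆ ≠ ⊥) : p = 3 ∧ ∃ (K L : Subgroup G) (hL : (L.subgroupOf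 K).Normal), K ≤ H ∧ Nonempty ((K ⧸ L.subgroupOf K) ≃* Matrix.SpecialLinearGroup (Fin 2) (ZMod 3)) := by
  have haH : a ∈ H := hab ▸ Subgroup.subset_closure (by simp)
  obtain ⟨g, hg, hga⟩ : ∃ g ∈ Q, ⁅g, a⁆ ≠ 1 := by
    by_contra hcon
    push Not at hcon
    apply hQa
    rw [Subgroup.commutator_comm, Subgroup.commutator_eq_bot_iff_le_centralizer, Subgroup.zpowers_le]
    exact fun g hg => commutatorElement_eq_one_iff_mul_comm.1 (hcon g hg)
  have hgaQ : ⁅g, a⁆ ∈ Q := by
    rw [commutatorElement_def, mul_assoc, mul_assoc, ← mul_assoc a]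
    exact mul_mem hg ((Subgroup.mem_normalizer_iff.1 (hQn haH) _).1 (inv_mem hg))
  have h1 : Involves (Matrix.SpecialLinearGroup (Fin 2) (ZMod p))
      (Subgroup.closure ({a, g * a * g⁻¹} : Set G)) := by
    refine CL.PSt.involves_sl2_of_pair hp hV (hHV haH)
      (hHV (mul_mem (mul_mem (hQH hg) haH) (inv_mem (hQH hg)))) ha
      (CL.PSt.quadratic_conj (hHV (hQH hg)) ha) ⟨⁅g, a⁆, ?_, fun k hk => hga ?_⟩
    · exact mul_mem (Subgroup.subset_closure (by simp)) (inv_mem (Subgroup.subset_closure (by simp)))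
    · have h2 : ⁅g, a⁆ ^ p ^ k ∈ (⊥ : Subgroup G) := hf ▸ ⟨pow_mem (hQH hgaQ) _, hk⟩
      exact orderOf_eq_one_iff.1 (Nat.eq_one_of_dvd_coprimes (hQ.pow_right k)
        (Subgroup.orderOf_dvd_natCard Q hgaQ) (orderOf_dvd_of_pow_eq_one h2))
  have hle : Subgroup.closure ({a, g * a * g⁻¹} : Set G) ≤ Q ⊔ Subgroup.zpowers a := by
    rw [Subgroup.closure_le]
    have h3 : a ∈ Q ⊔ Subgroup.zpowers a := Subgroup.mem_sup_right (Subgroup.mem_zpowers a)
    rintro x (rfl | rfl)
    · exact h3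
    · exact mul_mem (mul_mem (Subgroup.mem_sup_left hg) h3) (inv_mem (Subgroup.mem_sup_left hg))
  have hleH : Q ⊔ Subgroup.zpowers a ≤ H := sup_le hQH (Subgroup.zpowers_le.2 haH)
  have hap : a ^ p ^ 1 = 1 := by
    have h2 : a ^ p ∈ Subgroup.centralizer (V : Set G) := by
      rw [← CL.Abelem.rep_eq_one_iff (hE := hV) (hA := hHV) ⟨a ^ p, pow_mem haH p⟩]
      have h3 : (CL.Abelem.rep hV hHV ⟨a, haH⟩ - 1) ^ 2 = 0 := by
        rw [pow_two]
        ext v
        exact CL.PSt.quadratic_iff_of_normalizer ha v.mem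
      have h4 : (p : Module.End (ZMod p) (CL.Abelem.V hV)) = 0 := by
        rw [← map_natCast (algebraMap (ZMod p) _), ZMod.natCast_self, map_zero]
      have h5 : (CL.Abelem.rep hV hHV ⟨a, haH⟩) ^ p = 1 := by
        rcases subsingleton_or_nontrivial (Module.End (ZMod p) (CL.Abelem.V hV)) with h | h
        · exact Subsingleton.elim _ _
        have : CharP (Module.End (ZMod p) (CL.Abelem.V hV)) p :=
          (CharP.charP_iff_prime_eq_zero Fact.out).2 h4
        have h6 := pow_eq_zero_of_le (Fact.out : p.Prime).two_le h3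
        rwa [sub_pow_char_of_commute _ (Commute.one_right _), one_pow, sub_eq_zero] at h6
      rw [← map_pow] at h5
      exact h5
    have : a ^ p ∈ (⊥ : Subgroup G) := hf ▸ ⟨pow_mem haH _, h2⟩
    rw [pow_one]
    exact this
  have hn : (Q.subgroupOf (Q ⊔ Subgroup.zpowers a)).Normal :=
    Subgroup.normal_subgroupOf_of_le_normalizer (hleH.trans hQn)
  have hnpc : HasNormalPComplement p ↥(Q ⊔ Subgroup.zpowers a) := by
    refine CL.hasNPC_of_normal (Q.subgroupOf _) (by rwa [CL.card_subgroupOf_of_le le_sup_left])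
      (CL.isPGroup_quotient_of_sup_eq_top _ (P := (Subgroup.zpowers a).subgroupOf _)
        (CL.MSS.isPGroup_zpowers hap).comap_subtype ?_)
    rw [← Subgroup.subgroupOf_sup le_sup_left le_sup_right, Subgroup.subgroupOf_self]
  obtain rfl : p = 3 := CL.Sec.eq_three_of_not_five_le hp fun h5 =>
    CL.Sec.not_hasNPC_sl2 h5 (CL.Sec.hasNPC_of_involves (CL.Sec.involves_mono h1 hle) hnpc)
  exact ⟨rfl, (CL.Sec.involves_subgroup_iff H).1 (CL.Sec.involves_mono h1 (hle.trans hleH))⟩

end Cfsg.Agent.S0594
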