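import Cfsg.Statements.S0596
import Cfsg.Agent.PLOC.QdFree

set_option autoImplicit false
open Cfsg

namespace Cfsg.Agent.S0596

/-- For odd p, a p-separable group with a faithful action on an elementary abelian p-group that is not p-stable has p = 3 and involves SL(2,3). -/
theorem result {G : Type*} [Group G] [Finite G] {p : ℕ} [Fact p.Prime] (hp : p ≠ 2) (V H : Subgroup G) (hV : Cfsg.IsElementaryAbelian p V) (hHV : H ≤ Subgroup.normalizer (V : Set G)) (hf : H ⊓ Subgroup.centralizer (V : Set G) = ⊥) (hsep : Cfsg.IsPSolvable p H) (a : G) (haH : a ∈ H) (hq : ⁅⁅V, Subgroup.zpowers a⁆, Subgroup.zpowers a⁆ = ⊥) (hna : a ∉ (Cfsg.pCore p H).map H.subtype) : p = 3 ∧ ∃ (K L : Subgroup G) (hL : (L.subgroupOf K).Normal), K ≤ H ∧ Nonempty ((K ⧸ L.subgroupOf K) ≃* Matrix.SpecialLinearGroup (Fin 2) (ZMod 3)) := by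
  have h1 : Involves (Matrix.SpecialLinearGroup (Fin 2) (ZMod p)) H := by
    refine CL.PSt.involves_sl2_of_not_inOp hp hV hHV (a := ⟨a, haH⟩) hq ?_
    rintro ⟨K, hK, haK, h⟩
    refine hna ⟨⟨a, haH⟩, CL.le_pCore (N := K) (fun g => ?_) haK, rfl⟩
    obtain ⟨k, hk⟩ := h g g.2
    have : ((g : H) : G) ^ p ^ k ∈ (⊥ : Subgroup G) := hf ▸ ⟨pow_mem (g : H).2 _, hk⟩
    exact ⟨k, Subtype.ext (Subtype.ext this)⟩
  obtain rfl : p = 3 := CL.Sec.eq_three_of_not_five_le hp fun h5 =>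
    CL.PSt.not_involves_sl2_of_isPSolvable h5 hsep h1
  exact ⟨rfl, (CL.Sec.involves_subgroup_iff H).1 h1⟩

end Cfsg.Agent.S0596
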