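import Cfsg.Statements.S0607
import Cfsg.Agent.PLOC.Offender

set_option autoImplicit false
open Cfsg

namespace Cfsg.Agent.S0607

/-- The replacement Theorem for the Thompson subgroup: from A of maximal order among elementary abelian p-subgroups one obtains A₀ = [V, A] C_A([V, A]) of the same kind, quadratic on V and nontrivial on V when A is. -/
theorem result {G : Type*} [Group G] [Finite G] {p : ℕ} [Fact p.Prime] (V : Subgroup G) [V.Normal] (hV : Cfsg.IsElementaryAbelian p V) (A : Subgroup G) (hA : A ∈ Cfsg.maxElementaryAbelianSubgroups p G) : (⁅V, A⁆ ⊔ (A ⊓ Subgroup.centralizer ((⁅V, A⁆ : Subgroup G) : Set G))) ∈ Cfsg.maxElementaryAbelianSubgroups p G ∧ ⁅⁅V, ⁅V, A⁆ ⊔ (A ⊓ Subgroup.centralizer ((⁅V, A⁆ : Subgroup G) : Set G))⁆, ⁅V, A⁆ ⊔ (A ⊓ Subgroup.centralizer ((⁅V, A⁆ : Subgroup G) : Set G))⁆ = ⊥ ∧ (⁅V, A⁆ ≠ ⊥ → ⁅V, ⁅V, A⁆ ⊔ (A ⊓ Subgroup.centralizer ((⁅V, A⁆ : Subgroup G) : Set G))⁆ ≠ ⊥) :=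 by
  rw [← CL.Th.maxElemAbIn_top] at hA ⊢
  have hAV : A ≤ Subgroup.normalizer (V : Set G) := Subgroup.le_normalizer_of_normal
  obtain ⟨h1, h2, h3⟩ := CL.Th.thompson_replacement hV le_top hA hAV le_rfl
  refine ⟨h1, le_bot_iff.1 (h2 ▸ Subgroup.commutator_mono ?_ le_rfl), h3⟩
  rw [CL.Th.comm_sup_right Subgroup.le_normalizer_of_normal Subgroup.le_normalizer_of_normal]
  refine sup_le ?_ (Subgroup.commutator_mono le_rfl inf_le_left)
  refine le_trans (Subgroup.commutator_mono le_rfl (CL.Th.comm_le hAV le_rfl)) ?_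
  rw [CL.Th.elemAb_commutator_eq_bot hV]
  exact bot_le

end Cfsg.Agent.S0607
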