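import Cfsg.Statements.S0615
import Cfsg.Agent.PLOC.FF2

set_option autoImplicit false
open Cfsg

namespace Cfsg.Agent.S0615

/-- Two subnormal subgroups acting irreducibly on their incomparable commutator modules, in a faithful group with trivial largest normal p-subgroup, generate their direct product, and the commutator module splits accordingly. -/
theorem result {G : Type*} [Group G] [Finite G] {p : ℕ} [Fact p.Prime] (V E E₁ E₂ : Subgroup G) (hV : Cfsg.IsElementaryAbelian p V) (hEV : E ≤ Subgroup.normalizer (V : Set G)) (hf : E ⊓ Subgroup.centralizer (V : Set G) = ⊥) (hgen : E = E₁ ⊔ E₂) (hs₁ : (E₁.subgroupOf E).IsSubnormal) (hs₂ : (E₂.subgroupOf E).IsSubnormal) (hOp : Cfsg.pCore p ↥E = ⊥) (hirr₁ : (∀ U : Subgroup G, U ≤ ⁅V, E₁⁆ → E₁ ≤ Subgroup.normalizer (U : Set G) → U = ⊥ ∨ U = ⁅V, E₁⁆)) (hirr₂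 : (∀ U : Subgroup G, U ≤ ⁅V, E₂⁆ → E₂ ≤ Subgroup.normalizer (U : Set G) → U = ⊥ ∨ U = ⁅V, E₂⁆)) (h12 : ¬ ⁅V, E₁⁆ ≤ ⁅V, E₂⁆) (h21 : ¬ ⁅V, E₂⁆ ≤ ⁅V, E₁⁆) (hc₁ : 2 < Nat.card E₁) (hc₂ : 2 < Nat.card E₂) : ⁅E₁, E₂⁆ = ⊥ ∧ E₁ ⊓ E₂ = ⊥ ∧ ⁅V, E₁⁆ ⊓ ⁅V, E₂⁆ = ⊥ ∧ ⁅V, E⁆ = ⁅V, E₁⁆ ⊔ ⁅V, E₂⁆ := by
  have h₁ : CL.SnIn E E₁ := CL.SnIn.iff_subgroupOf.2 ⟨hgen ▸ le_sup_left, hs₁⟩
  have h₂ : CL.SnIn E E₂ := CL.SnIn.iff_subgroupOf.2 ⟨hgen ▸ le_sup_right, hs₂⟩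
  obtain ⟨a, b⟩ := CL.Th.pair_irreducible hV hEV hf hOp h₁ h₂ hirr₁ hirr₂ h12 h21 hc₁ hc₂
  refine ⟨a, ?_, b, ?_⟩
  · have h3 := CL.Th.inf_centralizer_comm_eq_bot hV hEV hf hOp h₁
    have h4 : ⁅⁅V, E₁⁆, E₁ ⊓ E₂⁆ = ⊥ := by
      refine le_bot_iff.1 (b ▸ le_inf ?_ ?_)
      · exact CL.Th.comm_le (inf_le_left.trans (Subgroup.normalizer_commutator_ge_right V E₁))
          le_rfl
      · exact Subgroup.commutator_mono (CL.Th.comm_le (h₁.le.trans hEV) le_rfl) inf_le_right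
    exact le_bot_iff.1 (h3 ▸ le_inf inf_le_left (CL.Th.comm_eq_bot_iff'.1 h4))
  · rw [hgen, CL.Th.comm_sup_right (h₁.le.trans hEV) (h₂.le.trans hEV)]

end Cfsg.Agent.S0615
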