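import Cfsg.Statements.S0617
import Cfsg.Agent.PLOC.FF3

set_option autoImplicit false
open Cfsg

namespace Cfsg.Agent.S0617

/-- Structure Theorem for failure of factorization: a faithful group generated by best offenders, with self-centralizing p'-core, is a direct product of copies of SL(2, p) (p = 2 or 3), each acting on its own plane in V, which is the direct product of these planes and C_V(H). -/
theorem result {G : Type*} [Group G] [Finite G] {p : ℕ} [Fact p.Prime] (V H : Subgroup G) (hV : Cfsg.IsElementaryAbelian p V) (hHV : H ≤ Subgroup.normalizer (V : Set G)) (hf : H ⊓ Subgroup.centralizer (V : Set G) = ⊥) (hS1 : Subgroup.centralizer (Cfsg.pPrimeCore p ↥H : Set ↥H) ≤ Cfsg.pPrimeCore p ↥H) (hS3 : H = ⨆ A : {A : Subgroup G // A ≤ H ∧ Cfsg.IsBestOffenderOn p V A}, (A : Subgroup G)) (hH1 : H ≠ ⊥) : (p = 2 ∨ p = 3) ∧ (∀ E : {E : Subgroup G //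 ∃ A : Subgroup G, A ≤ H ∧ Cfsg.IsBestOffenderOn p V A ∧ ⁅V, A⁆ ≠ ⊥ ∧ (∀ B : Subgroup G, B ≤ A → Cfsg.IsBestOffenderOn p V B → ⁅V, B⁆ ≠ ⊥ → B = A) ∧ E = ⁅((Cfsg.pPrimeCore p ↥H).map H.subtype), A⁆ ⊔ A}, H ≤ Subgroup.normalizer ((E : Subgroup G) : Set G) ∧ Nonempty (↥(E : Subgroup G) ≃* Matrix.SpecialLinearGroup (Fin 2) (ZMod p)) ∧ Nat.card ↥(⁅V, (E : Subgroup G)⁆) = p ^ 2) ∧ iSupIndep (fun E : {E : Subgroup G // ∃ A : Subgroup G, A ≤ H ∧ Cfsg.IsBestOffenderOn p V A ∧ ⁅V, A⁆ ≠ ⊥ ∧ (∀ B : Subgroup G, B ≤ A → Cfsg.IsBestOffenderOn p V B → ⁅V, B⁆ ≠ ⊥ → B = A) ∧ E = ⁅((Cfsg.pPrimeCore p ↥H).map H.subtype), A⁆ ⊔ A} => (E : Subgroup G)) ∧ (⨆ E : {E : Subgroup G // ∃ A : Subgroup G, A ≤ H ∧ Cfsg.IsBestOffenderOn p V A ∧ ⁅V, A⁆ ≠ ⊥ ∧ (∀ B : Subgroup G, B ≤ A → Cfsg.IsBestOffenderOn p V B → ⁅V, B⁆ ≠ ⊥ → B = A) ∧ E = ⁅((Cfsg.pPrimeCore p ↥H).map H.subtype),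 A⁆ ⊔ A}, (E : Subgroup G)) = H ∧ iSupIndep (fun o : Option {E : Subgroup G // ∃ A : Subgroup G, A ≤ H ∧ Cfsg.IsBestOffenderOn p V A ∧ ⁅V, A⁆ ≠ ⊥ ∧ (∀ B : Subgroup G, B ≤ A → Cfsg.IsBestOffenderOn p V B → ⁅V, B⁆ ≠ ⊥ → B = A) ∧ E = ⁅((Cfsg.pPrimeCore p ↥H).map H.subtype), A⁆ ⊔ A} => o.elim (V ⊓ Subgroup.centralizer (H : Set G)) (fun E => ⁅V, (E : Subgroup G)⁆)) ∧ (V ⊓ Subgroup.centralizer (H : Set G)) ⊔ (⨆ E : {E : Subgroup G // ∃ A : Subgroup G, A ≤ H ∧ Cfsg.IsBestOffenderOn p V A ∧ ⁅V, A⁆ ≠ ⊥ ∧ (∀ B : Subgroup G, B ≤ A → Cfsg.IsBestOffenderOn p V B → ⁅V, B⁆ ≠ ⊥ → B = A) ∧ E = ⁅((Cfsg.pPrimeCore p ↥H).map H.subtype), A⁆ ⊔ A}, ⁅V, (E : Subgroup G)⁆) = V := by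
  have h : CL.Th.FFHyp p V H := ⟨hV, hHV, hf, hS1⟩
  have hgen := h.eq_sSup_transv hS3
  set 𝓔 := {E : Subgroup G // ∃ A : Subgroup G, A ≤ H ∧ Cfsg.IsBestOffenderOn p V A ∧ ⁅V, A⁆ ≠ ⊥ ∧ (∀ B : Subgroup G, B ≤ A → Cfsg.IsBestOffenderOn p V B → ⁅V, B⁆ ≠ ⊥ → B = A) ∧ E = ⁅((Cfsg.pPrimeCore p ↥H).map H.subtype), A⁆ ⊔ A} with h𝓔
  have h1 : ∀ E : 𝓔, ∃ A, CL.Th.Transv p V H A ∧ (E : Subgroup G) = CL.Th.ffE p H A := by
    rintro ⟨E, A, a1, a2, a3, a4, rfl⟩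
    exact ⟨A, h.transv_of_minimal a1 a2 a3 a4, rfl⟩
  have h2 : ∀ A, CL.Th.Transv p V H A → ∃ E : 𝓔, (E : Subgroup G) = CL.Th.ffE p H A :=
    fun A hA => ⟨⟨_, A, hA.le, hA.bestOff hV.1 (hA.le.trans hHV), hA.comm_ne_bot,
      fun B hB _ hne => hA.minimal B hB hne, rfl⟩, rfl⟩
  have hs : ∀ E : 𝓔, CL.Th.SL2On p V H E := fun E => by
    obtain ⟨A, hA, hE⟩ := h1 E
    rw [hE]
    exact h.sl2On_ffE hA
  have hc : ∀ E F : 𝓔, F ≠ E →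
      (F : Subgroup G) ≤ Subgroup.centralizer ((⁅V, (E : Subgroup G)⁆ : Subgroup G) : Set G) := by
    intro E F hne
    obtain ⟨A, hA, hE⟩ := h1 E
    obtain ⟨B, hB, hF⟩ := h1 F
    rw [hE, hF]
    exact h.ffE_le_centralizer_of_ne hA hB fun h0 => hne (Subtype.ext (by rw [hE, hF, h0]))
  have hsup : (⨆ E : 𝓔, (E : Subgroup G)) = H := by
    refine le_antisymm (iSup_le fun E => (hs E).le) (hgen.le.trans (sSup_le fun T hT => ?_))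
    obtain ⟨E, hE⟩ := h2 T hT
    exact le_iSup_of_le E (hE ▸ le_sup_right)
  have hcomm : (⨆ E : 𝓔, ⁅V, (E : Subgroup G)⁆) = ⁅V, H⁆ := by
    rw [← CL.Th.comm_iSup_right fun E : 𝓔 => (hs E).le.trans hHV, hsup]
  refine ⟨?_, fun E => ⟨?_, (hs E).equiv, (hs E).card_comm⟩, fun E => ?_, hsup, ?_, ?_⟩
  · by_contra hcon
    refine hH1 (hsup.symm.trans (iSup_eq_bot.2 fun E => absurd (hs E).two_or_three hcon))
  · obtain ⟨A, hA, hE⟩ := h1 E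
    rw [hE]
    exact h.le_normalizer_ffE hgen hA
  · exact disjoint_iff_inf_le.2 (le_trans (inf_le_inf_left _
      (iSup_le fun F => iSup_le fun hF => hc E F hF)) (hs E).faith.le)
  · rintro (_ | E)
    · refine disjoint_iff_inf_le.2 (le_trans (inf_le_inf_left _ ?_) (h.split_top hgen).1.le)
      refine iSup_le fun o => iSup_le fun ho => ?_
      obtain _ | F := o
      · exact absurd rfl ho
      · exact Subgroup.commutator_mono le_rfl (hs F).le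
    · refine disjoint_iff_inf_le.2
        (le_trans (inf_le_inf_left _ ?_) ((hs E).comm_inf_centralizer h).le)
      refine iSup_le fun o => iSup_le fun ho => ?_
      obtain _ | F := o
      · exact inf_le_right.trans (Subgroup.centralizer_le (hs E).le)
      · exact Subgroup.le_centralizer_iff.1 (hc F E fun h0 => ho (by rw [h0]))
  · rw [hcomm]
    exact (h.split_top hgen).2

end Cfsg.Agent.S0617
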