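import Cfsg.Statements.S0621
import Cfsg.Agent.PLOC.FF5

set_option autoImplicit false
open Cfsg

namespace Cfsg.Agent.S0621

/-- Let K be p-separable with O_p'(K) = 1, normalized by an elementary abelian q-group X for a prime q not dividing the order of K. If the Thompson factorization fails in K, then p is 2 or 3 and the fixed points of X contain a plane W of order p² and a subgroup inducing SL(2, p) on it. -/
theorem result {G : Type*} [Group G] [Finite G] {p : ℕ} [Fact p.Prime] {q : ℕ} [Fact q.Prime] (K X : Subgroup G) (hXK : X ≤ Subgroup.normalizer (K : Set G)) (hX : Cfsg.IsElementaryAbelian q X) (hq : ¬ q ∣ Nat.card K) (hsep : Cfsg.IsPSolvable p ↥K) (hO : Cfsg.pPrimeCore p ↥K = ⊥) (hnf : ¬ Cfsg.IsThompsonFactorizable p ↥K) : (p = 2 ∨ p = 3) ∧ ∃ W D : Subgroup G, W ≤ K ⊓ Subgroup.centralizer (X : Set G) ∧ D ≤ K ⊓ Subgroup.centralizer (X : Set G) ∧ Cfsg.IsElementaryAbelian p W ∧ Nat.card W = p ^ 2 ∧ D ≤ Subgroup.normalizer (W : Set G) ∧ ∃ hn : ((Subgroup.centralizer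 (W : Set G)).subgroupOf D).Normal, Nonempty ((↥D ⧸ (Subgroup.centralizer (W : Set G)).subgroupOf D) ≃* Matrix.SpecialLinearGroup (Fin 2) (ZMod p)) := by
  obtain ⟨h23, W, D, hW, hD, hWe, hWc, hDW, φ, hφ, hker⟩ := CL.Th.exists_sl2_centralizer_comap
    (Subgroup.inclusion_injective (Subgroup.le_normalizer : K ≤ Subgroup.normalizer (K : Set G)))
    (CL.Th.normal_map_inclusion K) (CL.Th.elemAb_subgroupOf hX _) hq hsep hO hnf
  rw [CL.Th.comap_inclusion_centralizer _ hXK] at hW hD
  refine ⟨h23, W.map K.subtype, D.map K.subtype, ?_, ?_, CL.Th.elemAb_map hWe _,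
    (Subgroup.card_map_of_injective K.subtype_injective).trans hWc,
    CL.map_le_normalizer_map _ hDW, ?_⟩
  · rintro _ ⟨w, hw, rfl⟩
    exact ⟨w.2, hW hw⟩
  · rintro _ ⟨w, hw, rfl⟩
    exact ⟨w.2, hD hw⟩
  · let e := D.equivMapOfInjective K.subtype K.subtype_injective
    refine CL.Th.exists_quotient_equiv (φ.comp e.symm.toMonoidHom)
      (hφ.comp e.symm.surjective) ?_
    ext x
    obtain ⟨d, rfl⟩ := e.surjective x
    rw [MonoidHom.mem_ker, MonoidHom.comp_apply, MulEquiv.coe_toMonoidHom, e.symm_apply_apply,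
      ← MonoidHom.mem_ker, hker, Subgroup.mem_subgroupOf, Subgroup.mem_subgroupOf,
      Subgroup.mem_centralizer_iff, Subgroup.mem_centralizer_iff]
    constructor
    · rintro h _ ⟨w, hw, rfl⟩
      exact congrArg Subtype.val (h w hw)
    · intro h w hw
      exact Subtype.ext (h w ⟨w, hw, rfl⟩)

end Cfsg.Agent.S0621
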