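import Cfsg.Statements.S0633
import Cfsg.Agent.FGS.HHCore

set_option autoImplicit false
open Cfsg

namespace Cfsg.Agent.S0633

open Subgroup CL CL.HH Polynomial TensorProduct


/-- Theorem B of Hall and Higman on the minimal polynomial of a p-element of order p^n in a p-solvable linear group on a nonzero vector space in characteristic p with no nontrivial normal p-subgroup: its degree is p^n, except when some p^n₀ - 1 (n₀ ≤ n) is a power of a prime q for which the Sylow q-subgroups are non-abelian, in which case the degree is at least p^(n-n₀)(p^n₀ - 1). -/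
theorem result {F : Type*} [Field F] {p : ℕ} [Fact p.Prime] [CharP F p] {V : Type*} [AddCommGroup V] [Module F V] [FiniteDimensional F V] [Nontrivial V] (H : Subgroup (V ≃ₗ[F] V)) [Finite H] (hsol : Cfsg.IsPSolvable p H) (hOp : Cfsg.pCore p H = ⊥) (x : V ≃ₗ[F] V) (hx : x ∈ H) (n : ℕ) (hn : orderOf x = p ^ n) (r : ℕ) (hr : minpoly F (x : Module.End F V) = (Polynomial.X - 1) ^ r) : r = p ^ n ∨ ∃ n₀ q m : ℕ, 1 ≤ n₀ ∧ n₀ ≤ n ∧ q.Prime ∧ 1 ≤ m ∧ p ^ n₀ - 1 = q ^ m ∧ (∀ Q : Sylow q H, ¬ IsMulCommutative Q) ∧ p ^ (n - n₀) * (p ^ n₀ - 1) ≤ r := by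
  have hp : p.Prime := Fact.out
  let ρ : Representation F H V :=
    { toFun := fun g => ((g : V ≃ₗ[F] V) : Module.End F V)
      map_one' := rfl
      map_mul' := fun _ _ => rfl }
  have hk : ρ.ker = ⊥ := by
    refine eq_bot_iff.2 fun g hg => ?_
    exact Subtype.ext (LinearEquiv.toLinearMap_injective hg)
  have hd : (minpoly F (ρ ⟨x, hx⟩)).natDegree = r := by
    change (minpoly F (x : Module.End F V)).natDegree = r
    rw [hr, ← C_1, natDegree_pow, natDegree_X_sub_C, mul_one]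
  have ho : orderOf (⟨x, hx⟩ : H) = p ^ n := by rw [← hn, orderOf_mk]
  have h1 : (⟨x, hx⟩ : H) ^ p ^ n = 1 := by rw [← ho, pow_orderOf_eq_one]
  have hle : r ≤ p ^ n := by
    rw [← hd]
    have h2 : aeval (ρ ⟨x, hx⟩) (X ^ p ^ n - C 1 : F[X]) = 0 := by
      rw [map_sub, map_pow, aeval_X, ← map_pow, h1, map_one, C_1, map_one, sub_self]
    have h3 : (X ^ p ^ n - C 1 : F[X]) ≠ 0 := X_pow_sub_C_ne_zero (pow_pos hp.pos _) 1
    exact natDegree_X_pow_sub_C (R := F) (n := p ^ n) (r := 1) ▸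
      natDegree_le_of_dvd (minpoly.dvd _ _ h2) h3
  rcases hle.eq_or_lt with e | hlt
  · exact Or.inl e
  right
  have hpos : 0 < r := hd ▸ natDegree_minpoly_pos _
  obtain _ | n := n
  · simp at hlt; omega
  have hy : (⟨x, hx⟩ : H) ^ p ^ n ≠ 1 := by
    intro e
    have := Nat.le_of_dvd (pow_pos hp.pos _) (ho ▸ orderOf_dvd_of_pow_eq_one e)
    exact absurd this (not_le.2 (Nat.pow_lt_pow_right hp.one_lt n.lt_succ_self))
  have hann : ∀ N, r < N → Ann (bc (AlgebraicClosure F) ρ ⟨x, hx⟩) ⊤ N := fun N hN => by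
    rw [bc_apply]
    exact Ann.baseChange _ (ann_top_iff.2 (hd ▸ hN))
  obtain ⟨q, k, l, a, hq, -, h2, h3, h4, ⟨Q, -, hQ, hQ'⟩, h5⟩ :=
    hall_higman_core (ρ := bc (AlgebraicClosure F) ρ) (by rw [ker_bc, hk]) hsol hOp h1 hy
      (hann _ hlt)
  refine ⟨l + 1, q, a, by omega, by omega, hq, h3, by omega, fun P hP => hQ' ?_, ?_⟩
  · have := Fact.mk hq
    obtain ⟨S, hS⟩ := hQ.exists_le_sylow
    have : IsMulCommutative (S : Subgroup H) :=
      ⟨⟨fun a b => (Sylow.equiv P S).symm.injective (by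
        rw [map_mul, map_mul, mul_comm'])⟩⟩
    exact eq_bot_iff.2 ((commutator_mono hS hS).trans
      (commutator_eq_bot_iff_le_centralizer.2 (le_centralizer _)).le)
  · rw [show n + 1 - (l + 1) = k by omega]
    exact not_lt.1 fun e => h5 (hann _ e)

end Cfsg.Agent.S0633
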