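import Cfsg.Statements.S0641

set_option autoImplicit false
open Cfsg

namespace Cfsg.Agent.S0641

theorem map_powerClosure {G H : Type*} [Group G] [Group H] (f : G →* H) (p n : ℕ) (K : Subgroup G) :
    (Cfsg.powerClosure p n K).map f = Cfsg.powerClosure p n (K.map f) := by
  unfold Cfsg.powerClosure
  rw [MonoidHom.map_closure]
  congr 1
  ext y
  constructor
  · rintro ⟨z, ⟨x, hx, rfl⟩, rfl⟩
    exact ⟨f x, ⟨x, hx, rfl⟩, by simp⟩
  · rintro ⟨z, ⟨x, hx, rfl⟩, rfl⟩
    exact ⟨x ^ p ^ n, ⟨x, hx, rfl⟩, by simp⟩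

/-- Regularity of a p-group passes to quotient groups. -/
theorem result {G : Type*} [Group G] {p : ℕ} [Fact p.Prime] (hG : Cfsg.IsRegularPGroup p G) (N : Subgroup G) [N.Normal] : Cfsg.IsRegularPGroup p (G ⧸ N) := by
  refine ⟨hG.1.to_quotient N, fun a b n => ?_⟩
  obtain ⟨a, rfl⟩ := QuotientGroup.mk'_surjective N a
  obtain ⟨b, rfl⟩ := QuotientGroup.mk'_surjective N b
  obtain ⟨c, hc, h⟩ := hG.2 a b n
  refine ⟨QuotientGroup.mk' N c, ?_, ?_⟩
  · have := Subgroup.mem_map_of_mem (QuotientGroup.mk' N) hc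
    rw [map_powerClosure, Subgroup.map_commutator, MonoidHom.map_closure, Set.image_pair] at this
    exact this
  · rw [← map_mul, ← map_pow, h]
    simp

end Cfsg.Agent.S0641
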