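import Cfsg.Statements.S0642
import Cfsg.Agent.FGS.Regular

set_option autoImplicit false
open Cfsg

namespace Cfsg.Agent.S0642

open Subgroup CL.Reg
open scoped commutatorElement

/-- Among finite 2-groups the regular ones are exactly the abelian ones. -/
theorem result {G : Type*} [Group G] [Finite G] (hG : IsPGroup 2 G) : Cfsg.IsRegularPGroup 2 G ↔ ∀ a b : G, a * b = b * a := by
  refine ⟨fun h a b => ?_, fun h => ⟨hG, fun a b n => ⟨1, one_mem _, ?_⟩⟩⟩
  · obtain ⟨c, hc, e⟩ := h.2 a b 1
    set K := closure ({a, b} : Set G) with hK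
    have hn : K ≤ normalizer (powerClosure 2 1 ⁅K, K⁆ : Set G) := by
      refine le_trans ?_ (normalizer_le_normalizer_powerClosure _ _)
      intro g hg
      refine mem_normalizer_of_conj fun n hn => ?_
      have h1 : (⁅K, K⁆ : Subgroup G).map (MulAut.conj g).toMonoidHom ≤ ⁅K, K⁆ := by
        have h2 : K.map (MulAut.conj g).toMonoidHom ≤ K := by
          rintro _ ⟨x, hx, rfl⟩
          exact K.mul_mem (K.mul_mem hg hx) (K.inv_mem hg)
        rw [map_commutator]
        exact commutator_mono h2 h2
      exact h1 ⟨n, hn, rfl⟩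
    have ha := left_mem_pair a b
    have hb := right_mem_pair a b
    have h1 : ⁅a, b⁆ ∈ powerClosure 2 1 ⁅K, K⁆ := by
      have h2 := (mem_normalizer_iff.1 (hn (K.mul_mem (K.mul_mem ha hb) hb)) c).1 hc
      have h3 : c = (a ^ 2 * b ^ 2)⁻¹ * (a * b) ^ 2 := by
        rw [pow_one] at e
        rw [e]; group
      have h4 : ⁅a, b⁆ = (a * b * b * c * (a * b * b)⁻¹)⁻¹ := by
        rw [h3, commutatorElement_def]
        simp only [pow_two]
        group
      rw [h4]
      exact inv_mem h2
    have h2 := commutator_pair_le (hn ha) (hn hb) h1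
    by_contra hne
    have h3 : ¬ (⁅K, K⁆ : Subgroup G) ≤ ⊥ := fun h => hne (commutatorElement_eq_one_iff_mul_comm.1
      (mem_bot.1 (h (commutator_mem_commutator ha hb))))
    obtain ⟨M, -, h4, -, -, h5⟩ := exists_maximal_ge (p := 2) (hG.to_subgroup _) bot_le h3
    exact h4.not_ge (h2.trans (powerClosure_le_iff.2 fun x hx => by simpa using h5.1 x hx))
  · rw [mul_one]
    exact (show Commute a b from h a b).mul_pow _

end Cfsg.Agent.S0642
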