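import Cfsg.Statements.S0646
import Cfsg.Agent.SOLV.PGroupCyclicMax

set_option autoImplicit false
open Cfsg

namespace Cfsg.Agent.S0646

/-- Classification of non-abelian 2-groups with a cyclic maximal subgroup: dihedral, generalized quaternion, and for order at least 16 the modular group and the semidihedral group, each given by generators a (of index 2) and b with the stated relations. -/
theorem result {G : Type*} [Group G] [Finite G] (n : ℕ) (hn : 3 ≤ n) (hG : Nat.card G = 2 ^ n) (C : Subgroup G) (hC : IsCyclic C) (hCi : C.index = 2) (hna : ∃ x y : G, x * y ≠ y * x) : ∃ a b : G, orderOf a = 2 ^ (n - 1) ∧ b ∉ Subgroup.zpowers a ∧ ((b ^ 2 = 1 ∧ b * a * b⁻¹ = a⁻¹) ∨ (b ^ 2 = a ^ (2 ^ (n - 2)) ∧ b * a * b⁻¹ = a⁻¹) ∨ (4 ≤ n ∧ b ^ 2 = 1 ∧ b * a * b⁻¹ = a ^ (1 + 2 ^ (n - 2))) ∨ (4 ≤ n ∧ b ^ 2 = 1 ∧ b * a * b⁻¹ = a ^ (2 ^ (n - 2) - 1))) := by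
  obtain ⟨m, rfl⟩ : ∃ m, n = m + 1 := ⟨n - 1, by omega⟩
  obtain ⟨a, -, ha⟩ := CL.PCyc.exists_generator_of_index Nat.prime_two hG hC hCi
  have e : m + 1 - 2 = m - 1 := by omega
  rw [e]
  rcases CL.PCyc.isDQS_or_modular hG ha (by
    rintro ⟨⟨h⟩⟩
    obtain ⟨x, y, hxy⟩ := hna
    exact hxy (h x y)) with ⟨b, hb⟩ | ⟨h3, b, hb, hb1, hb2⟩
  · refine ⟨a, b, ha, hb.notMem, ?_⟩
    rcases hb.rel with h | h | h
    · exact Or.inl h
    · exact Or.inr (Or.inl h)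
    · exact Or.inr (Or.inr (Or.inr ⟨by omega, h.2⟩))
  · exact ⟨a, b, ha, hb1, Or.inr (Or.inr (Or.inl ⟨by omega, by rw [← hb, pow_orderOf_eq_one], hb2⟩))⟩

end Cfsg.Agent.S0646
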