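import Cfsg.Statements.S0656
import Cfsg.Agent.PLOC.QdFree

set_option autoImplicit false
open Cfsg

namespace Cfsg.Agent.S0656

/-- For odd p, a faithful group on an elementary abelian p-group with no nontrivial normal p-subgroup in which some nontrivial p-element acts quadratically has a section isomorphic to SL(2, p). -/
theorem result {G : Type*} [Group G] [Finite G] {p : ℕ} [Fact p.Prime] (hp : p ≠ 2) (V H : Subgroup G) (hV : Cfsg.IsElementaryAbelian p V) (hHV : H ≤ Subgroup.normalizer (V : Set G)) (hf : H ⊓ Subgroup.centralizer (V : Set G) = ⊥) (hO : Cfsg.pCore p ↥H = ⊥) (x : G) (hxH : x ∈ H) (hx1 : x ≠ 1) (hxp : ∃ k : ℕ, orderOf x = p ^ k) (hq : ⁅⁅V, Subgroup.zpowers x⁆, Subgroup.zpowers x⁆ = ⊥) : ∃ (K L : Subgroup G) (hL : (L.subgroupOf K).Normal), K ≤ H ∧ Nonempty ((K ⧸ L.subgroupOf K) ≃* Matrix.SpecialLinearGroup (Fin 2) (ZMod p)) := by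
  refine (CL.Sec.involves_subgroup_iff H).1
    (CL.PSt.involves_sl2_of_not_inOp hp hV hHV (a := ⟨x, hxH⟩) hq ?_)
  rintro ⟨K, hK, haK, h⟩
  have h1 : K ≤ pCore p H := by
    refine CL.le_pCore (N := K) (fun g => ?_)
    obtain ⟨k, hk⟩ := h g g.2
    have : ((g : H) : G) ^ p ^ k ∈ (⊥ : Subgroup G) := hf ▸ ⟨pow_mem (g : H).2 _, hk⟩
    exact ⟨k, Subtype.ext (Subtype.ext this)⟩
  have h2 := h1 haK
  rw [hO] at h2
  exact hx1 (congrArg Subtype.val (Subgroup.mem_bot.1 h2))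

end Cfsg.Agent.S0656
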