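import Cfsg.Statements.S0657
import Cfsg.Agent.PLOC.QdFree

set_option autoImplicit false
open Cfsg

namespace Cfsg.Agent.S0657

/-- For odd p, a group that fails to be p-stable modulo its largest normal subgroup of order prime to p, and whose upper p-series does not stop there, has a section isomorphic to SL(2, p). -/
theorem result {G : Type*} [Group G] [Finite G] {p : ℕ} [Fact p.Prime] (hp : p ≠ 2) (hO : Cfsg.pPrimeCore p G < Cfsg.pPrimePCore p G) (hns : ¬ Cfsg.IsPStable p (G ⧸ Cfsg.pPrimeCore p G)) : ∃ (K L : Subgroup G) (hL : (L.subgroupOf K).Normal), K ≤ ⊤ ∧ Nonempty ((K ⧸ L.subgroupOf K) ≃* Matrix.SpecialLinearGroup (Fin 2) (ZMod p)) := by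
  rw [← CL.Sec.involves_subgroup_iff]
  by_contra hcon
  refine hns (CL.PSt.isPStable_of_isNormalizerPStable ((Fact.out : p.Prime).odd_of_ne_two hp) ?_
    (CL.PSt.isNormalizerPStable_of_not_involves hp (CL.PSt.not_involves_qd_of_not_involves_sl2
      fun h => hcon (CL.Sec.involves_trans (CL.Sec.involves_of_quotient h)
        (CL.Sec.involves_of_equiv Subgroup.topEquiv)))))
  intro h
  rw [← CL.PC.map_mk'_pPrimePCore, Subgroup.map_eq_bot_iff, QuotientGroup.ker_mk'] at h
  exact hO.not_ge h

end Cfsg.Agent.S0657
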