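import Cfsg.Statements.S0658
import Cfsg.Agent.PLOC.PStable

set_option autoImplicit false
open Cfsg

namespace Cfsg.Agent.S0658

open Subgroup CL.MSS in
theorem aux {G : Type*} [Group G] [Finite G] {p : ℕ} [Fact p.Prime]
    (hzj : ∀ Q R : Subgroup G, IsPGroup p Q → Q ≠ ⊥ → SylIn p R (normalizer (Q : Set G)) →
      normalizer (Q : Set G) ≤ normalizer (Cfsg.centerThompsonAOf R : Set G))
    (M : Subgroup G) (P : Subgroup G) (hPM : SylIn p P M)
    (hM : normalizer (Cfsg.centerThompsonAOf P : Set G) ≤ M) (hP : SylIn p P ⊤) (n : ℕ) :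
    ∀ Q R : Subgroup G, IsPGroup p Q → Q ≠ ⊥ → Q ≤ M → SylIn p R (normalizer (Q : Set G) ⊓ M) →
      Nat.card P - Nat.card R = n → normalizer (Q : Set G) ≤ M := by
  induction n using Nat.strong_induction_on with
  | _ n ih =>
  intro Q R hQ hQ1 hQM hR hn
  obtain ⟨x, hxM, hx⟩ := hPM.exists_le_conj hR.pgroup (hR.le.trans inf_le_right)
  have hQR : Q ≤ R := hR.le_of_normalized hQ (le_inf le_normalizer hQM) (hR.le.trans inf_le_left)
  have hR1 : R ≠ ⊥ := fun h => hQ1 (le_bot_iff.1 (h ▸ hQR))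
  have key : normalizer (Cfsg.centerThompsonAOf R : Set G) ≤ M := by
    rcases hx.eq_or_lt with h | h
    · rw [h, ← CL.ThA.map_centerThompsonAOf _ (MulAut.conj x).injective, ← cj_normalizer]
      exact cj_le_of_mem hM hxM
    · have hxP : SylIn p (x •ᶜ P) M := hPM.cj_of_mem hxM
      have h1 := lt_inf_normalizer_of_lt hxP.pgroup h
      obtain ⟨T, hT, hT'⟩ := exists_sylIn_ge (H := normalizer
        (Cfsg.centerThompsonAOf R : Set G) ⊓ M) (hxP.pgroup.to_le inf_le_left)
        (le_inf (inf_le_right.trans (CL.ThA.normalizer_le_normalizer_centerThompsonAOf R))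
          (inf_le_left.trans hxP.le))
      have h2 : Nat.card R < Nat.card T := CL.PN.card_lt_of_lt (h1.trans_le hT')
      have h3 : Nat.card T ≤ Nat.card P := hP.card_le hT.pgroup le_top
      exact ih _ (by omega) _ T (hR.pgroup.to_le (CL.ThA.centerThompsonAOf_le R))
        (CL.ThA.centerThompsonAOf_ne_bot hR.pgroup hR1)
        ((CL.ThA.centerThompsonAOf_le R).trans (hR.le.trans inf_le_right)) hT rfl
  have hR' : SylIn p R (normalizer (Q : Set G)) :=
    hR.of_normalizer_le (hR.le.trans inf_le_left) (inf_le_inf_left _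
      ((CL.ThA.normalizer_le_normalizer_centerThompsonAOf R).trans key))
  exact (hzj Q R hQ hQ1 hR').trans key

/-- In a group of characteristic p type all of whose p-locals are p-stable (p odd), the normalizer of Z(J(P)) contains the normalizer of every nontrivial subgroup of the Sylow p-subgroup P. -/
theorem result {G : Type*} [Group G] [Finite G] {p : ℕ} [Fact p.Prime] (hp : p ≠ 2) (hloc : ∀ Q : Subgroup G, IsPGroup p Q → Q ≠ ⊥ → Cfsg.pPrimeCore p ↥(Subgroup.normalizer (Q : Set G)) = ⊥ ∧ Cfsg.IsPConstrained p ↥(Subgroup.normalizer (Q : Set G)) ∧ Cfsg.IsPStable p ↥(Subgroup.normalizer (Q : Set G))) (P : Sylow p G) (Q : Subgroup G) (hQP : Q ≤ (P : Subgroup G)) (hQ1 : Q ≠ ⊥) : Subgroup.normalizer (Q : Set G) ≤ Subgroup.normalizer (Cfsg.centerThompsonAOf ((P : Subgroup G)) : Set G) := by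
  obtain ⟨R, hR⟩ := CL.MSS.exists_sylIn p (Subgroup.normalizer (Q : Set G) ⊓
    Subgroup.normalizer (Cfsg.centerThompsonAOf ((P : Subgroup G)) : Set G))
  refine aux (p := p) (fun Q R hQ hQ1 hR => ?_) _ (P : Subgroup G)
    (CL.MSS.sylIn_sylow P (CL.ThA.le_normalizer_centerThompsonAOf _)) le_rfl (CL.MSS.sylIn_top P)
    (Nat.card (P : Subgroup G) - Nat.card R)
    Q R (P.isPGroup'.to_le hQP) hQ1 (hQP.trans (CL.ThA.le_normalizer_centerThompsonAOf _)) hR rfl
  obtain ⟨h1, h2, h3⟩ := hloc Q hQ hQ1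
  exact CL.PC.le_normalizer_centerThompsonAOf_of_sylIn hp hR (CL.PC.charPIn_iff.2 ⟨h2, h1⟩)
    h3.qstable

end Cfsg.Agent.S0658
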