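import Cfsg.Statements.S0660
import Cfsg.Agent.SOLV.Gaschutz
import Cfsg.Agent.TECH.Conj
import Cfsg.Agent.PLOC.ElemAb

set_option autoImplicit false
open Cfsg

namespace Cfsg.Agent.S0660

open Subgroup CL.MSS

/-- Under a coprime action on an abelian group, an invariant subgroup that is complemented admits an invariant complement. -/
theorem result {G : Type*} [Group G] [Finite G] (V A U : Subgroup G) (hVab : IsMulCommutative V) (hAV : A ≤ Subgroup.normalizer (V : Set G)) (hcop : (Nat.card A).Coprime (Nat.card V)) (hUV : U ≤ V) (hAU : A ≤ Subgroup.normalizer (U : Set G)) (W : Subgroup G) (hWV : W ≤ V) (hUW : U ⊓ W = ⊥) (hUWV : U ⊔ W = V) : ∃ W' : Subgroup G, W' ≤ V ∧ A ≤ Subgroup.normalizer (W' : Set G) ∧ U ⊓ W' = ⊥ ∧ U ⊔ W' = V := by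
  set L := V ⊔ A with hL
  have hc : V ≤ centralizer (V : Set G) := le_centralizer V
  have hLU : L ≤ normalizer (U : Set G) :=
    sup_le ((hc.trans (centralizer_le hUV)).trans (centralizer_le_normalizer _)) hAU
  have hLV : L ≤ normalizer (V : Set G) := sup_le le_normalizer hAV
  have hVL : V ≤ L := le_sup_left
  have : (U.subgroupOf L).Normal := CL.normal_subgroupOf_of_le_normalizer hLU
  have : IsMulCommutative (U.subgroupOf L) := CL.Th.comm_iff.2 fun a ha b hb =>
    Subtype.ext (CL.Th.comm_iff.1 hVab _ (hUV ha) _ (hUV hb))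
  obtain ⟨H, hH⟩ := CL.gaschutz_exists (U.subgroupOf L) (V.subgroupOf L) (comap_mono hUV) (by
      rw [CL.card_subgroupOf_of_le (hUV.trans hVL)]
      refine ((hcop.coprime_dvd_right (card_dvd_of_le hUV)).coprime_dvd_left ?_).symm
      have h1 := CL.card_sup_dvd_mul_of_le_normalizer hAV
      rw [sup_comm, ← hL, ← CL.card_mul_relIndex_of_le hVL, mul_comm] at h1
      exact Nat.dvd_of_mul_dvd_mul_right Nat.card_pos h1) (W.subgroupOf L)
    (by rw [subgroupOf, subgroupOf, ← comap_inf, inf_comm, hUW]; exact bot_subgroupOf L)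
    (by rw [← subgroupOf_sup (hUV.trans hVL) (hWV.trans hVL), hUWV])
  have h1 : U ⊔ H.map L.subtype = L := by
    have := congrArg (map L.subtype) hH.sup_eq_top
    rwa [Subgroup.map_sup, subgroupOf_map_subtype, inf_of_le_left (hUV.trans hVL), ← MonoidHom.range_eq_map,
      range_subtype] at this
  have h2 : U ⊓ H.map L.subtype = ⊥ := by
    rw [eq_bot_iff]
    rintro _ ⟨hx, y, hy, rfl⟩
    have : y ∈ U.subgroupOf L ⊓ H := ⟨hx, hy⟩
    rw [hH.disjoint.eq_bot, mem_bot] at this
    rw [this]; exact one_mem _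
  refine ⟨V ⊓ H.map L.subtype, inf_le_left, le_sup_right.trans (h1.ge.trans (sup_le ?_ ?_)), ?_, ?_⟩
  · exact (hUV.trans (hc.trans (centralizer_le (SetLike.coe_subset_coe.2 inf_le_left)))).trans
      (centralizer_le_normalizer _)
  · exact le_normalizer_inf ((map_subtype_le _).trans hLV) le_normalizer
  · rw [inf_left_comm, h2, inf_bot_eq]
  · rw [← inf_sup_of_normalizes' hUV ((map_subtype_le _).trans hLU), h1, inf_of_le_left hVL]

end Cfsg.Agent.S0660
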