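import Cfsg.Statements.S0662
import Cfsg.Agent.SOLV.MaxClass
import Cfsg.Agent.FGS.FiberCount

set_option autoImplicit false
open Cfsg

namespace Cfsg.Agent.S0662

open Subgroup CL.PCyc

theorem commutator_eq_bot {G : Type*} [Group G] [Finite G] {p : ℕ} [Fact p.Prime]
    (hG : IsPGroup p G) (h : IsCyclic (G ⧸ commutator G)) : commutator G = ⊥ := by
  obtain ⟨x, hx⟩ := h.exists_zpow_surjective
  obtain ⟨x, rfl⟩ := QuotientGroup.mk_surjective x
  have h1 : zpowers x = ⊤ := by
    refine CL.PG.zpowers_eq_top_of_sup_frattini (eq_top_iff.2 fun g _ => ?_)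
    obtain ⟨k, hk⟩ := hx (g : G ⧸ commutator G)
    have h2 : (x ^ k)⁻¹ * g ∈ commutator G := QuotientGroup.eq.1 hk
    have h3 : g = x ^ k * ((x ^ k)⁻¹ * g) := by group
    rw [h3]
    exact mul_mem_sup ⟨k, rfl⟩ (CL.PG.commutator_le_frattini hG h2)
  have : IsCyclic G := isCyclic_iff_exists_zpowers_eq_top.2 ⟨x, h1⟩
  exact (commutator_eq_bot_iff G).2 inferInstance

theorem lcs_eq_bot {G : Type*} [Group G] [Finite G] {p r : ℕ} [hp : Fact p.Prime]
    (hG : Nat.card G = p ^ (r + 2)) : (⊤ : Subgroup G).lowerCentralSeries (r + 1) = ⊥ := by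
  have hP : IsPGroup p G := IsPGroup.of_card hG
  by_contra h
  have h1 := pow_le_card_lowerCentralSeries hP r 1 (by rwa [add_comm])
  rw [top_lowerCentralSeries_one] at h1
  obtain ⟨k, hk⟩ := IsPGroup.iff_card.1 (hP.to_quotient (commutator G))
  have h2 := (commutator G).card_mul_index
  rw [index, hk, hG] at h2
  have h3 : p ^ (r + 1 + k) ≤ p ^ (r + 2) := by
    rw [pow_add, ← h2]; exact Nat.mul_le_mul_right _ h1
  have h4 := (Nat.pow_le_pow_iff_right hp.out.one_lt).1 h3
  have h5 : IsCyclic (G ⧸ commutator G) :=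
    isCyclic_of_card_dvd_prime (p := p) (hk ▸ (pow_dvd_pow p (by omega : k ≤ 1)).trans (by simp))
  rw [commutator_eq_bot hP h5, card_bot] at h1
  exact absurd h1 (not_le.2 (Nat.one_lt_pow (by omega) hp.out.one_lt))

/-- In a p-group of maximal class of order at least p³ the normal subgroups of index at least p² are exactly the terms of the lower central series, and there are exactly p + 1 normal subgroups of index p. -/
theorem result {G : Type*} [Group G] [Finite G] {p : ℕ} [Fact p.Prime] (n : ℕ) (hG : Nat.card G = p ^ n) (hcl : Group.nilpotencyClass G = n - 1) (hn : 3 ≤ n) : (∀ (N : Subgroup G) [N.Normal] (r : ℕ), 2 ≤ r → N.index = p ^ r → N = (⊤ : Subgroup G).lowerCentralSeries (r - 1)) ∧ Nat.card {N : Subgroup G // N.Normal ∧ N.index = p} = p + 1 := by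
  have hp : p.Prime := Fact.out
  have hP : IsPGroup p G := IsPGroup.of_card hG
  have := hP.isNilpotent
  obtain ⟨n, rfl⟩ : ∃ m, n = m + 3 := ⟨n - 3, by omega⟩
  have h0 : (⊤ : Subgroup G).lowerCentralSeries (n + 1) ≠ ⊥ :=
    lowerCentralSeries_ne_bot_iff.2 (by omega)
  refine ⟨fun N _ r hr hN => ?_, ?_⟩
  · obtain ⟨r, rfl⟩ : ∃ m, r = m + 2 := ⟨r - 2, by omega⟩
    have h1 : (⊤ : Subgroup G).lowerCentralSeries (r + 1) ≤ N := by
      rw [← CL.map_mk'_eq_bot_iff, map_lowerCentralSeries, ← MonoidHom.range_eq_map,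
        QuotientGroup.range_mk']
      exact lcs_eq_bot hN
    refine (eq_of_le_of_card_ge h1 ?_).symm
    have h2 := N.card_mul_index
    rw [hN, hG] at h2
    have h3 : r + 2 ≤ n + 3 := (Nat.pow_dvd_pow_iff_le_right hp.one_lt).1 (Dvd.intro_left _ h2)
    obtain ⟨k, hk⟩ := Nat.exists_eq_add_of_le h3
    rw [hk, pow_add p (r + 2) k, mul_comm] at h2
    have h4 : Nat.card N = p ^ k := Nat.eq_of_mul_eq_mul_left (pow_pos hp.pos _) h2
    rw [h4]
    rcases k with _ | k
    · exact Nat.card_pos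
    · exact pow_le_card_lowerCentralSeries hP k _ (by rwa [show r + 1 + k = n + 1 by omega])
  · have hc : commutator G ≠ ⊥ := fun h => h0 (le_bot_iff.1 (h ▸ top_lowerCentralSeries_one (G := G) ▸
      Subgroup.lowerCentralSeries_antitone _ (by omega)))
    have hnc : ¬ IsCyclic (G ⧸ commutator G) := fun h => hc (commutator_eq_bot hP h)
    obtain ⟨k, hk⟩ := IsPGroup.iff_card.1 (hP.to_quotient (commutator G))
    have h1 : k ≤ 2 := (Nat.pow_le_pow_iff_right hp.one_lt).1 (hk ▸ index_commutator_le hG h0)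
    have h2 : k = 2 := by
      by_contra h
      exact hnc (isCyclic_of_card_dvd_prime (p := p)
        (hk ▸ (pow_dvd_pow p (by omega : k ≤ 1)).trans (by simp)))
    subst h2
    have h3 := CL.Cnt.ncard_orderOf_eq (G := G ⧸ commutator G) (n := p)
    have h4 : {g : G ⧸ commutator G | orderOf g = p} = {1}ᶜ := by
      ext g
      simp only [Set.mem_setOf_eq, Set.mem_compl_iff, Set.mem_singleton_iff]
      refine ⟨fun h h' => hp.one_lt.ne (by rw [← h, h', orderOf_one]), fun h => ?_⟩
      obtain ⟨i, hi, h5⟩ := (Nat.dvd_prime_pow hp).1 (hk ▸ orderOf_dvd_natCard g)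
      interval_cases i
      · exact absurd (orderOf_eq_one_iff.1 h5) h
      · simpa using h5
      · exact absurd (isCyclic_of_orderOf_eq_card g (h5.trans hk.symm)) hnc
    rw [h4, Set.ncard_compl, Set.ncard_singleton, hk, Nat.totient_prime hp] at h3
    have h5 : {H : Subgroup (G ⧸ commutator G) | IsCyclic H ∧ Nat.card H = p}.ncard = p + 1 := by
      refine Nat.eq_of_mul_eq_mul_left (Nat.sub_pos_of_lt hp.one_lt) (h3.symm.trans ?_)
      rw [mul_comm, ← Nat.sq_sub_sq, one_pow]
    rw [← h5, ← Nat.card_coe_set_eq]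
    have key : ∀ H : Subgroup (G ⧸ commutator G), Nat.card H = p ↔ H.index = p := fun H => by
      have := H.card_mul_index
      rw [hk, sq] at this
      exact ⟨fun h => Nat.eq_of_mul_eq_mul_left hp.pos (h ▸ this),
        fun h => Nat.eq_of_mul_eq_mul_right hp.pos (h ▸ this)⟩
    refine (Nat.card_congr (Equiv.ofBijective (fun H => ⟨H.1.comap (QuotientGroup.mk' _),
      CL.PG.normal_of_index_eq hP (by rw [CL.index_comap_mk', (key _).1 H.2.2]),
      by rw [CL.index_comap_mk', (key _).1 H.2.2]⟩) ⟨fun H K h => Subtype.ext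
        (comap_injective (QuotientGroup.mk'_surjective _) (congrArg Subtype.val h)),
      fun N => ?_⟩)).symm
    have h6 : commutator G ≤ N.1 :=
      CL.PG.commutator_le_coatom hP (CL.PG.isCoatom_of_index_eq_prime hp N.2.2)
    have h7 : Nat.card (N.1.map (QuotientGroup.mk' (commutator G))) = p := by
      rw [key, CL.index_map_mk', sup_eq_left.2 h6, N.2.2]
    exact ⟨⟨N.1.map (QuotientGroup.mk' _), isCyclic_of_prime_card h7, h7⟩,
      Subtype.ext ((CL.comap_map_mk' _ _).trans (sup_eq_left.2 h6))⟩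

end Cfsg.Agent.S0662
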