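import Cfsg.Statements.S0663
import Cfsg.Agent.PLOC.Uniserial

set_option autoImplicit false
open Cfsg

namespace Cfsg.Agent.S0663

/-- A p-group acts uniserially on a p-group N of order p^n exactly when the iterated commutator chain from N has length n; in that case the chain terms are all the invariant subgroups of N and they are normal in N. -/
theorem result {L : Type*} [Group L] [Finite L] {p : ℕ} [Fact p.Prime] (N G : Subgroup L) (hN : IsPGroup p N) (hG : IsPGroup p G) (hGN : G ≤ Subgroup.normalizer (N : Set L)) (n : ℕ) (hn : Nat.card N = p ^ n) : ((∀ H : Subgroup L, H ≤ N → G ≤ Subgroup.normalizer (H : Set L) → H ≠ ⊥ → (⁅H, G⁆).relIndex H = p) ↔ Cfsg.iterCommutator N G (n - 1) ≠ ⊥ ∨ n = 0) ∧ ((∀ H : Subgroup L, H ≤ N → G ≤ Subgroup.normalizer (H : Set L) → H ≠ ⊥ → (⁅H, G⁆).relIndex H = p) → ∀ H : Subgroup L, H ≤ N → G ≤ Subgroup.normalizer (H : Set L) → (∃ i ≤ n, H = Cfsg.iterCommutator N G i) ∧ N ≤ Subgroup.normalizer (H : Set L)) := by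
  have hp : p.Prime := Fact.out
  have h1 : (∀ H : Subgroup L, H ≤ N → G ≤ Subgroup.normalizer (H : Set L) → H ≠ ⊥ →
      (⁅H, G⁆).relIndex H = p) → Cfsg.iterCommutator N G (n - 1) ≠ ⊥ ∨ n = 0 := by
    intro hu
    have key : ∀ i ≤ n, p ^ i * Nat.card (Cfsg.iterCommutator N G i) = p ^ n := by
      intro i hi
      induction i with
      | zero => rw [pow_zero, one_mul]; exact hn
      | succ i ih =>
        have h2 := ih (by omega)
        have h3 := hu _ (CL.PG.iterCommutator_le hGN i) (CL.PG.le_normalizer_iterCommutator hGN i)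
          (fun h0 => by
            rw [h0, Subgroup.card_bot, mul_one] at h2
            have := Nat.pow_right_injective hp.two_le h2
            omega)
        have h4 := CL.PN.card_mul_relIndex (CL.PG.iterCommutator_succ_le hGN i)
        rw [← h2, ← h4, CL.PG.iterCommutator_succ, h3]
        ring
    rw [or_iff_not_imp_right]
    intro h0 h5
    have h2 := key (n - 1) (by omega)
    rw [h5, Subgroup.card_bot, mul_one] at h2
    have := Nat.pow_right_injective hp.two_le h2
    omega
  refine ⟨⟨h1, fun h H hH hGH hne => ?_⟩, fun hu H hH hGH => ?_⟩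
  · obtain ⟨i, hi, rfl⟩ := CL.PG.exists_eq_iterCommutator hN hG hGN hn h hH hGH
    have hi' : i < n := lt_of_le_of_ne hi fun h0 => hne (by
      rw [← Subgroup.card_eq_one, CL.PG.card_iterCommutator hN hG hGN hn h hi, h0, Nat.sub_self,
        pow_zero])
    have h4 := CL.PN.card_mul_relIndex (CL.PG.iterCommutator_succ_le hGN i)
    rw [CL.PG.card_iterCommutator_eq_mul hN hG hGN hn h hi', mul_comm p] at h4
    exact Nat.eq_of_mul_eq_mul_left Nat.card_pos h4
  · obtain ⟨i, hi, rfl⟩ := CL.PG.exists_eq_iterCommutator hN hG hGN hn (h1 hu) hH hGH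
    exact ⟨⟨i, hi, rfl⟩, le_sup_right.trans
      (CL.PG.sup_le_normalizer_iterCommutator hN hG hGN hn (h1 hu) hi)⟩

end Cfsg.Agent.S0663
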