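import Cfsg.Statements.S0668
import Mathlib
import Mathlib.LinearAlgebra.Dimension.Constructions
import Mathlib.LinearAlgebra.FiniteDimensional.Lemmas

set_option autoImplicit false
open Cfsg

namespace Cfsg.Agent.S0668

open MulAction

/-- the linear map attached to a function on orbits -/
noncomputable def toHom (G : Type*) [Group G] (K : Type*) [Field K] (Ω₁ Ω₂ : Type*) [Fintype Ω₁]
    [MulAction G Ω₁] [MulAction G Ω₂] :
    (orbitRel.Quotient G (Ω₁ × Ω₂) → K) →ₗ[K] ((Ω₁ → K) →ₗ[K] (Ω₂ → K)) where
  toFun u :=
    { toFun := fun f y => ∑ x, u (Quotient.mk'' (x, y)) * f x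
      map_add' := fun f g => by ext y; simp [mul_add, Finset.sum_add_distrib]
      map_smul' := fun c f => by ext y; simp [Finset.mul_sum, mul_left_comm] }
  map_add' u v := by ext f y; simp [add_mul, Finset.sum_add_distrib]
  map_smul' c u := by ext f y; simp [Finset.mul_sum, mul_assoc]

theorem toHom_apply {G : Type*} [Group G] {K : Type*} [Field K] {Ω₁ Ω₂ : Type*} [Fintype Ω₁]
    [MulAction G Ω₁] [MulAction G Ω₂] (u : orbitRel.Quotient G (Ω₁ × Ω₂) → K) (f : Ω₁ → K)
    (y : Ω₂) : toHom G K Ω₁ Ω₂ u f y = ∑ x, u (Quotient.mk'' (x, y)) * f x := rfl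

theorem permRep_apply {G : Type*} [Group G] {K : Type*} [Field K] {Ω : Type*}
    [MulAction G Ω] (g : G) (f : Ω → K) (x : Ω) : Cfsg.permRep K G Ω g f x = f (g⁻¹ • x) := rfl

/-- The equivariant linear maps between the permutation modules of two finite `G`-sets form a space whose dimension is the number of `G`-orbits on the product of the two sets. -/
theorem result {G : Type*} [Group G] {K : Type*} [Field K] {Ω₁ Ω₂ : Type*} [Fintype Ω₁] [Fintype Ω₂] [MulAction G Ω₁] [MulAction G Ω₂] : Module.finrank K ((Cfsg.permRep K G Ω₁).linHom (Cfsg.permRep K G Ω₂)).invariants = Nat.card (MulAction.orbitRel.Quotient G (Ω₁ × Ω₂)) := by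
  classical
  have hinj : Function.Injective (toHom G K Ω₁ Ω₂) := by
    rw [← LinearMap.ker_eq_bot, LinearMap.ker_eq_bot']
    intro u hu
    ext q
    induction q using Quotient.inductionOn' with | _ xy => ?_
    obtain ⟨x, y⟩ := xy
    have := congrFun (LinearMap.congr_fun hu (Pi.single x 1)) y
    rw [toHom_apply] at this
    simpa [Pi.single_apply] using this
  have hrange : LinearMap.range (toHom G K Ω₁ Ω₂) =
      ((Cfsg.permRep K G Ω₁).linHom (Cfsg.permRep K G Ω₂)).invariants := by
    ext φ
    rw [Representation.mem_invariants]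
    constructor
    · rintro ⟨u, rfl⟩ g
      refine LinearMap.ext fun f => funext fun y => ?_
      simp only [Representation.linHom_apply, LinearMap.comp_apply, permRep_apply, toHom_apply,
        inv_inv]
      refine Fintype.sum_equiv (MulAction.toPerm g) _ _ fun x => ?_
      simp only [toPerm_apply]
      congr 2
      refine Quotient.sound' (orbitRel_apply.2 ⟨g⁻¹, ?_⟩)
      simp
    · intro h
      have key : ∀ (g : G) (x : Ω₁) (y : Ω₂),
          φ (Pi.single (g • x) 1) (g • y) = φ (Pi.single x 1) y := by
        intro g x y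
        have := congrFun (LinearMap.congr_fun (h g) (Pi.single (g • x) 1)) (g • y)
        simp only [Representation.linHom_apply, LinearMap.comp_apply, permRep_apply,
          inv_smul_smul] at this
        rw [← this]
        have e : Cfsg.permRep K G Ω₁ g⁻¹ (Pi.single (g • x) 1) = Pi.single x 1 := by
          ext z
          simp [permRep_apply, Pi.single_apply]
        rw [e] at this
        rw [e, this]
      refine ⟨Quotient.lift (fun xy : Ω₁ × Ω₂ => φ (Pi.single xy.1 1) xy.2) ?_, ?_⟩
      · rintro ⟨x, y⟩ ⟨x', y'⟩ hxy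
        obtain ⟨g, hg⟩ := orbitRel_apply.1 hxy
        simp only [Prod.smul_mk, Prod.mk.injEq] at hg
        obtain ⟨rfl, rfl⟩ := hg
        exact key g x' y'
      · refine LinearMap.ext fun f => funext fun y => ?_
        rw [toHom_apply]
        conv_rhs => rw [← Finset.univ_sum_single f]
        simp only [map_sum, Finset.sum_apply]
        refine Finset.sum_congr rfl fun x _ => ?_
        have : (Pi.single x (f x) : Ω₁ → K) = f x • (Pi.single x 1 : Ω₁ → K) := by
          ext z; simp [Pi.single_apply]
        rw [this, map_smul]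
        simp only [Pi.smul_apply, smul_eq_mul]
        rw [mul_comm]; rfl
  rw [← hrange, LinearMap.finrank_range_of_inj hinj]
  let _ : Fintype (orbitRel.Quotient G (Ω₁ × Ω₂)) := Fintype.ofFinite _
  rw [Module.finrank_fintype_fun_eq_card, Nat.card_eq_fintype_card]

end Cfsg.Agent.S0668
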