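import Cfsg.Statements.S0672
import Cfsg.Agent.PERM.PermMod2

set_option autoImplicit false
open Cfsg

namespace Cfsg.Agent.S0672

open CL.PermMod MulAction Matrix

/-- Let a finite group act faithfully and doubly transitively with point stabilisers of even order, and let `K` have characteristic `p` dividing the degree. If the heart of the permutation module admits no non-zero equivariant map to the permutation module on unordered pairs (phrased: every intertwining map from the sum-zero functions vanishing on the constants is zero), the action is triply transitive. -/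
theorem result {G : Type*} [Group G] [Finite G] {K : Type*} [Field K] {p : ℕ} [Fact p.Prime] [CharP K p] {Ω : Type*} [Fintype Ω] [DecidableEq Ω] [MulAction G Ω] [FaithfulSMul G Ω] (h2 : MulAction.IsMultiplyPretransitive G Ω 2) (hp : p ∣ Fintype.card Ω) (heven : ∀ a : Ω, Even (Nat.card (MulAction.stabilizer G a))) (h : ∀ f : Representation.IntertwiningMap (Cfsg.permSumZero K G Ω).toRepresentation (Cfsg.permRep K G (Set.powersetCard Ω 2)), (∀ v : (Cfsg.permSumZero K G Ω).toSubmodule, (v : Ω → K) ∈ (Cfsg.permConstants K G Ω).toSubmodule → f v = 0) → f = 0) : MulAction.IsMultiplyPretransitive G Ω 3 := by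
  rcases isEmpty_or_nonempty Ω with hΩ | ⟨⟨c₀⟩⟩
  · rw [three_transitive_iff]
    intro a
    exact hΩ.elim a
  have : Fact (Nat.Prime 2) := ⟨Nat.prime_two⟩
  obtain ⟨t, ht⟩ := exists_prime_orderOf_dvd_card' (G := stabilizer G c₀) 2
    (even_iff_two_dvd.1 (heven c₀))
  have ht1 : (t : G) ≠ 1 := by
    intro h1
    have : t = 1 := Subtype.ext h1
    rw [this, orderOf_one] at ht
    omega
  have ht2 : (t : G) * t = 1 := by
    have := pow_orderOf_eq_one t
    rw [ht, pow_two] at this
    exact congrArg Subtype.val this
  obtain ⟨a₀, ha₀⟩ : ∃ a : Ω, (t : G) • a ≠ a := by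
    by_contra hc
    push Not at hc
    exact ht1 (eq_of_smul_eq_smul (α := Ω) fun a => by rw [hc, one_smul])
  refine three_transitive_of_hom (K := K) h2 t ht2 t.2 ha₀ fun M hM h1 v hv => ?_
  have := h (LinearMap.intertwiningMap_of_isIntertwiningMap _ _
    (M.mulVecLin ∘ₗ (Cfsg.permSumZero K G Ω).toSubmodule.subtype) (fun g w => hM.mulVec g⁻¹ w.1))
    (fun w hw => by
      obtain ⟨c, hc⟩ := mem_const.1 hw
      change M *ᵥ w.1 = 0
      have : w.1 = c • (fun _ => (1 : K)) := by rw [hc]; ext; simp
      rw [this, Matrix.mulVec_smul, h1, smul_zero])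
  exact congrArg (fun φ : Representation.IntertwiningMap _ _ => φ ⟨v, hv⟩) this

end Cfsg.Agent.S0672
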