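import Cfsg.Statements.S0673
import Cfsg.Agent.PERM.PrimeDeg

set_option autoImplicit false
open Cfsg

namespace Cfsg.Agent.S0673

open CL.PermMod

/-- In characteristic `p`, the translation-invariant subspaces of the space of functions on `ZMod p` are exactly the spaces of polynomial functions of degree less than `r`, one for each `r ≤ p`, of dimension `r`. -/
theorem result {p : ℕ} [Fact p.Prime] {K : Type*} [Field K] [CharP K p] (W : Submodule K (ZMod p → K)) (hW : ∀ f ∈ W, (fun j => f (j - 1)) ∈ W) : ∃ r : ℕ, r ≤ p ∧ Module.finrank K W = r ∧ ∀ f : ZMod p → K, f ∈ W ↔ ∃ P : Polynomial K, P.degree < r ∧ ∀ j : ZMod p, f j = P.eval (ZMod.cast j : K) := by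
  let C : Coord (Multiplicative (ZMod p)) (ZMod p) p :=
    ⟨Multiplicative.ofAdd 1, Equiv.refl _, fun a => add_comm _ _⟩
  have h1 : ∀ n : ℕ, ∀ f ∈ W, (fun j => f (j - n)) ∈ W := by
    intro n
    induction n with
    | zero => simp
    | succ n ih =>
      intro f hf
      convert hW _ (ih f hf) using 3
      push_cast
      ring
  have h2 := C.eq_V K (W := W) fun f hf => by
    convert h1 (p - 1) f hf using 3
    rw [Nat.cast_sub (Fact.out : p.Prime).one_le]
    simp only [CharP.cast_eq_zero, Nat.cast_one, zero_sub, sub_neg_eq_add]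
    exact add_comm _ _
  refine ⟨_, (finrank_le_card W).trans (ZMod.card p).le, rfl, fun f => ?_⟩
  conv_lhs => rw [h2]
  exact C.mem_V K

end Cfsg.Agent.S0673
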