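import Cfsg.Statements.S0676
import Cfsg.Agent.PERM.PrimeDeg2

set_option autoImplicit false
open Cfsg

namespace Cfsg.Agent.S0676

/-- A non-solvable transitive permutation group of prime degree `p` whose Sylow `p`-normaliser has even order is triply transitive. -/
theorem result {α : Type*} [Fintype α] [DecidableEq α] {p : ℕ} [Fact p.Prime] (hα : Fintype.card α = p) (G : Subgroup (Equiv.Perm α)) [MulAction.IsPretransitive G α] (hG : ¬ Group.IsSolvable G) (P : Sylow p G) (heven : Even (Nat.card (Subgroup.normalizer ((P : Subgroup G) : Set G)))) : MulAction.IsMultiplyPretransitive G α 3 := by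
  exact CL.PermMod.neumann_three_transitive hα hG P heven

end Cfsg.Agent.S0676
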