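import Cfsg.Statements.S0681
import Mathlib

set_option autoImplicit false
open Cfsg

namespace Cfsg.Agent.S0681

open MulAction

section
variable {F : Type*} [Cfsg.NearField F]

theorem zero_mul' (a : F) : (0 : F) * a = 0 := by
  have h := NearField.right_distrib (0 : F) 0 a
  rw [add_zero] at h
  exact (left_eq_add.1 h)

theorem neg_mul' (a b : F) : (-a) * b = -(a * b) := by
  have h := NearField.right_distrib (-a) a b
  rw [neg_add_cancel, zero_mul'] at h
  exact eq_neg_of_add_eq_zero_left h.symm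

theorem mul_ne_zero' {a b : F} (ha : a ≠ 0) (hb : b ≠ 0) : a * b ≠ 0 := by
  intro h
  obtain ⟨c, hc, -⟩ := NearField.exists_inv b hb
  apply ha
  calc a = a * b * c := by rw [mul_assoc, hc, mul_one]
    _ = 0 := by rw [h, zero_mul']

/-- the affine group -/
def aff (F : Type*) [Cfsg.NearField F] : Subgroup (Equiv.Perm F) where
  carrier := {σ | ∃ a b : F, a ≠ 0 ∧ ∀ x : F, σ x = x * a + b}
  one_mem' := ⟨1, 0, NearField.zero_ne_one.symm, fun x => by simp⟩
  mul_mem' := by
    rintro σ τ ⟨a, b, ha, hσ⟩ ⟨c, d, hc, hτ⟩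
    refine ⟨c * a, d * a + b, mul_ne_zero' hc ha, fun x => ?_⟩
    simp only [Equiv.Perm.coe_mul, Function.comp_apply, hτ, hσ, NearField.right_distrib,
      mul_assoc, add_assoc]
  inv_mem' := by
    rintro σ ⟨a, b, ha, hσ⟩
    obtain ⟨c, hc, hc'⟩ := NearField.exists_inv a ha
    refine ⟨c, -b * c, ?_, fun x => ?_⟩
    · rintro rfl
      rw [NearField.mul_zero] at hc
      exact NearField.zero_ne_one hc
    · apply σ.injective
      rw [Equiv.Perm.inv_def, Equiv.apply_symm_apply, hσ, ← NearField.right_distrib, mul_assoc,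
        hc', mul_one, neg_add_cancel_right]

/-- an affine permutation -/
def affPerm (a c b : F) (h : a * c = 1) (h' : c * a = 1) : Equiv.Perm F where
  toFun x := x * a + b
  invFun x := (x + -b) * c
  left_inv x := by simp [mul_assoc, h]
  right_inv x := by simp [mul_assoc, h']

theorem exists_aff {x y : F} (hxy : x ≠ y) : ∃ g : aff F, g • (0 : F) = x ∧ g • (1 : F) = y := by
  have h : y + -x ≠ 0 := by
    intro h
    apply hxy
    rw [add_neg_eq_zero] at h
    exact h.symm
  obtain ⟨c, hc, hc'⟩ := NearField.exists_inv _ h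
  refine ⟨⟨affPerm (y + -x) c x hc hc', y + -x, x, h, fun _ => rfl⟩, ?_, ?_⟩
  · change 0 * (y + -x) + x = x
    rw [zero_mul', zero_add]
  · change 1 * (y + -x) + x = y
    simp
end

/-- The affine maps `x ↦ x * a + b`, `a ≠ 0`, of a near-field form a sharply doubly transitive permutation group. -/
theorem result {F : Type*} [Cfsg.NearField F] : ∃ H : Subgroup (Equiv.Perm F), (∀ σ : Equiv.Perm F, σ ∈ H ↔ ∃ a b : F, a ≠ 0 ∧ ∀ x : F, σ x = x * a + b) ∧ MulAction.IsMultiplyPretransitive H F 2 ∧ ∀ x : Fin 2 ↪ F, MulAction.stabilizer H x = ⊥ := by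
  refine ⟨aff F, fun σ => Iff.rfl, ?_, ?_⟩
  · rw [is_two_pretransitive_iff]
    intro a b c d hab hcd
    obtain ⟨g, hg, hg'⟩ := exists_aff hab
    obtain ⟨k, hk, hk'⟩ := exists_aff hcd
    refine ⟨k * g⁻¹, ?_, ?_⟩
    · rw [← hg, mul_smul, inv_smul_smul, hk]
    · rw [← hg', mul_smul, inv_smul_smul, hk']
  · intro x
    rw [eq_bot_iff]
    rintro ⟨σ, a, b, ha, hσ⟩ hg
    rw [mem_stabilizer_iff] at hg
    have h0 : σ (x 0) = x 0 := congrFun (congrArg DFunLike.coe hg) 0
    have h1 : σ (x 1) = x 1 := congrFun (congrArg DFunLike.coe hg) 1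
    have hne : x 0 + -x 1 ≠ 0 := by
      intro h
      rw [add_neg_eq_zero] at h
      exact absurd (x.injective h) (by decide)
    rw [hσ] at h0 h1
    have h2 : (x 0 + -x 1) * a = x 0 + -x 1 := by
      rw [NearField.right_distrib, neg_mul']
      conv_rhs => rw [← h0, ← h1]
      simp [add_assoc]
    obtain ⟨c, hc, hc'⟩ := NearField.exists_inv _ hne
    have ha1 : a = 1 := by
      calc a = c * (x 0 + -x 1) * a := by rw [hc', one_mul]
        _ = 1 := by rw [mul_assoc, h2, hc']
    subst ha1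
    rw [mul_one] at h0
    have hb : b = 0 := by simpa using h0
    subst hb
    rw [Subgroup.mem_bot]
    ext y
    simp [hσ]

end Cfsg.Agent.S0681
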