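import Cfsg.Statements.S0682
import Mathlib
import Mathlib.GroupTheory.PGroup
import Mathlib.GroupTheory.Perm.Cycle.Type
import Cfsg.Agent.S0681

set_option autoImplicit false
open Cfsg

namespace Cfsg.Agent.S0682

open MulAction

section
variable {F : Type*} [Cfsg.NearField F]

theorem nsmul_mul' (n : ℕ) (a b : F) : (n • a) * b = n • (a * b) := by
  induction n with
  | zero => simp [Cfsg.Agent.S0681.zero_mul']
  | succ n ih => rw [succ_nsmul, succ_nsmul, NearField.right_distrib, ih]
end

/-- A finite near-field has prime-power order; its additive group is commutative of prime exponent. -/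
theorem result {F : Type*} [Cfsg.NearField F] [Finite F] : ∃ p j : ℕ, p.Prime ∧ 1 ≤ j ∧ Nat.card F = p ^ j ∧ (∀ x y : F, x + y = y + x) ∧ ∀ x : F, p • x = 0 := by
  classical
  have : Nontrivial F := ⟨0, 1, NearField.zero_ne_one⟩
  have h1 : 1 < Nat.card F := Finite.one_lt_card
  obtain ⟨p, hp, hpd⟩ := Nat.exists_prime_and_dvd h1.ne'
  have := Fact.mk hp
  obtain ⟨z, hz⟩ := exists_prime_addOrderOf_dvd_card' p hpd
  have hz0 : z ≠ 0 := by
    rintro rfl
    rw [addOrderOf_zero] at hz
    exact hp.one_lt.ne hz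
  have hall : ∀ x : F, p • x = 0 := by
    intro x
    obtain ⟨c, hc, -⟩ := NearField.exists_inv z hz0
    have : x = z * (c * x) := by rw [← mul_assoc, hc, one_mul]
    rw [this, ← nsmul_mul', ← hz, addOrderOf_nsmul_eq_zero, Cfsg.Agent.S0681.zero_mul']
  have hP : IsPGroup p (Multiplicative F) := by
    intro g
    refine ⟨1, ?_⟩
    rw [pow_one]
    exact congrArg Multiplicative.ofAdd (hall g.toAdd)
  obtain ⟨j, hj⟩ := IsPGroup.iff_card.1 hP
  have hj' : Nat.card F = p ^ j := hj
  have hc := hP.center_nontrivial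
  obtain ⟨⟨w, hw⟩, hw1⟩ := exists_ne (1 : Subgroup.center (Multiplicative F))
  have hw0 : w.toAdd ≠ 0 := by
    intro h
    apply hw1
    ext
    exact h
  have hwc : ∀ y : F, y + w.toAdd = w.toAdd + y := fun y =>
    congrArg Multiplicative.toAdd (Subgroup.mem_center_iff.1 hw (Multiplicative.ofAdd y))
  refine ⟨p, j, hp, ?_, hj', ?_, hall⟩
  · rcases Nat.eq_zero_or_pos j with rfl | h
    · simp at hj'; omega
    · exact h
  · intro x y
    by_cases hx : x = 0
    · simp [hx]
    obtain ⟨c, hc, hc'⟩ := NearField.exists_inv _ hw0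
    obtain ⟨d, hd, hd'⟩ := NearField.exists_inv _ hx
    have e1 : x = w.toAdd * (c * x) := by rw [← mul_assoc, hc, one_mul]
    have e2 : y = (y * d * w.toAdd) * (c * x) := by
      rw [mul_assoc, ← e1, mul_assoc, hd', mul_one]
    calc x + y = w.toAdd * (c * x) + (y * d * w.toAdd) * (c * x) := by rw [← e1, ← e2]
      _ = (y * d * w.toAdd) * (c * x) + w.toAdd * (c * x) := by
        rw [← NearField.right_distrib, ← NearField.right_distrib, hwc]
      _ = y + x := by rw [← e1, ← e2]

end Cfsg.Agent.S0682
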