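import Cfsg.Statements.S0683
import Cfsg.Agent.PERM.Sharp2

set_option autoImplicit false
open Cfsg

namespace Cfsg.Agent.S0683

open CL.Zass

/-- A finite sharply doubly transitive permutation group is the affine group of a near-field: the permuted set carries a near-field structure for which the group consists exactly of the maps `x ↦ x * a + b` with `a ≠ 0`. -/
theorem result {α : Type*} [Fintype α] [DecidableEq α] (H : Subgroup (Equiv.Perm α)) [MulAction.IsMultiplyPretransitive H α 2] (hsharp : ∀ x : Fin 2 ↪ α, MulAction.stabilizer H x = ⊥) (h2 : 2 ≤ Fintype.card α) : ∃ _ : Cfsg.NearField α, ∀ σ : Equiv.Perm α, σ ∈ H ↔ ∃ a b : α, a ≠ 0 ∧ ∀ x : α, σ x = x * a + b := by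
  classical
  have hnt : Nontrivial α := Fintype.one_lt_card_iff_nontrivial.mp h2
  have htr : MulAction.IsPretransitive H α := MulAction.isPretransitive_of_is_two_pretransitive
  have hs := sharp_two_of_stabilizer hsharp
  obtain ⟨N, hNn, -, hNt, hNr⟩ := exists_regular_normal htr hs
  obtain ⟨o, e, hoe⟩ := exists_pair_ne α
  have hτ : ∀ y : α, ∃ g ∈ N, g • o = y := fun y => by
    obtain ⟨g, hg⟩ := hNt.exists_smul_eq o y
    exact ⟨g, g.2, hg⟩
  choose τ hτN hτ using hτ
  have hτu : ∀ g ∈ N, τ (g • o) = g := fun g hg => eq_of_regular hNr (hτN _) hg (hτ _)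
  have hμ : ∀ a : α, ∃ g : H, a ≠ o → g • o = o ∧ g • e = a := fun a => by
    by_cases ha : a = o
    · exact ⟨1, fun h => absurd ha h⟩
    · obtain ⟨g, hg⟩ := MulAction.is_two_pretransitive_iff.mp ‹_› hoe (Ne.symm ha)
      exact ⟨g, fun _ => hg⟩
  choose μ hμ using hμ
  have hne : ∀ g : H, g • o = o → ∀ x, x ≠ o → g • x ≠ o := fun g hg x hx h =>
    hx (MulAction.injective g (h.trans hg.symm))
  have hμu : ∀ g : H, g • o = o → μ (g • e) = g := fun g hg => by
    have h1 := hμ _ (hne g hg e hoe.symm)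
    have := hs (g⁻¹ * μ (g • e)) o e hoe (by rw [mul_smul, h1.1, inv_smul_eq_iff, hg])
      (by rw [mul_smul, h1.2, inv_smul_smul])
    rw [inv_mul_eq_one] at this
    exact this.symm
  have hτ0 : τ o = 1 := by simpa using hτu 1 N.one_mem
  have hμ1 : μ e = 1 := by simpa using hμu 1 (one_smul _ _)
  let _ : Add α := ⟨fun x y => τ y • x⟩
  let _ : Zero α := ⟨o⟩
  let _ : Neg α := ⟨fun x => (τ x)⁻¹ • o⟩
  let _ : Mul α := ⟨fun x a => if a = o then o else μ a • x⟩
  let _ : One α := ⟨e⟩
  have hadd : ∀ x y : α, x + y = τ y • x := fun _ _ => rfl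
  have hmul : ∀ x a : α, a ≠ o → x * a = μ a • x := fun x a ha => if_neg ha
  have hmul0 : ∀ x : α, x * o = o := fun x => if_pos rfl
  have hτadd : ∀ x y : α, τ (x + y) = τ y * τ x := fun x y => by
    rw [← hτu _ (N.mul_mem (hτN y) (hτN x)), mul_smul, hτ, hadd]
  let AG : AddGroup α := AddGroup.ofLeftAxioms
    (fun x y z => by rw [hadd x (y + z), hτadd, mul_smul]; rfl)
    (fun x => hτ x) (fun x => smul_inv_smul _ _)
  let M : Monoid α :=
    { mul_assoc := fun x a b => by
        by_cases hb : b = o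
        · rw [hb, hmul0, hmul0, hmul0]
        by_cases ha : a = o
        · rw [ha, hmul0, hmul o b hb, (hμ b hb).1, hmul0]
        have h1 : μ (μ b • a) = μ b * μ a := by
          rw [← hμu (μ b * μ a) (by rw [mul_smul, (hμ a ha).1, (hμ b hb).1]), mul_smul,
            (hμ a ha).2]
        rw [hmul _ b hb, hmul _ a ha, hmul a b hb, hmul _ _ (hne _ (hμ b hb).1 a ha), h1, mul_smul]
      one_mul := fun a => by
        by_cases ha : a = o
        · rw [ha, hmul0]
        · rw [hmul _ a ha]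
          exact (hμ a ha).2
      mul_one := fun a => by
        change a * e = a
        rw [hmul _ e hoe.symm, hμ1, one_smul] }
  refine ⟨{ AG, M with
    right_distrib := fun a b c => ?_
    mul_zero := hmul0
    zero_ne_one := hoe
    exists_inv := fun a ha => ?_ }, fun σ => ⟨fun hσ => ?_, ?_⟩⟩
  · change (a + b) * c = a * c + b * c
    by_cases hc : c = o
    · rw [hc, hmul0, hmul0, hmul0, hadd, hτ]
    · have h1 : τ (μ c • b) = μ c * τ b * (μ c)⁻¹ := by
        rw [← hτu _ (hNn.conj_mem _ (hτN b) (μ c)), mul_smul, mul_smul,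
          show (μ c)⁻¹ • o = o by rw [inv_smul_eq_iff, (hμ c hc).1], hτ]
      rw [hmul _ c hc, hmul _ c hc, hmul _ c hc, hadd, hadd, h1, mul_smul, mul_smul, inv_smul_smul]
  · have h0 : (μ a)⁻¹ • o = o := by rw [inv_smul_eq_iff, (hμ a ha).1]
    refine ⟨(μ a)⁻¹ • e, ?_, ?_⟩
    · change a * ((μ a)⁻¹ • e) = e
      rw [hmul _ _ (hne _ h0 e hoe.symm), hμu _ h0, inv_smul_eq_iff, (hμ a ha).2]
    · change ((μ a)⁻¹ • e) * a = e
      rw [hmul _ a ha, smul_inv_smul]
  · let g : H := ⟨σ, hσ⟩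
    have h0 : ((τ (g • o))⁻¹ * g) • o = o := by rw [mul_smul, inv_smul_eq_iff, hτ]
    refine ⟨((τ (g • o))⁻¹ * g) • e, g • o, hne _ h0 e hoe.symm, fun x => ?_⟩
    change g • x = x * (((τ (g • o))⁻¹ * g) • e) + g • o
    rw [hmul _ _ (hne _ h0 e hoe.symm), hμu _ h0, hadd, mul_smul, smul_inv_smul]
  · rintro ⟨a, b, ha, h⟩
    have : σ = (τ b * μ a : H) := Equiv.ext fun x => by
      rw [h x]
      change x * a + b = (τ b * μ a) • x
      rw [hmul _ a ha, hadd, mul_smul]
    rw [this]
    exact Subtype.property _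

end Cfsg.Agent.S0683
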