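import Cfsg.Statements.S0684
import Cfsg.Agent.PERM.RegLin2

set_option autoImplicit false
open Cfsg

namespace Cfsg.Agent.S0684

/-- Point stabiliser of a sharply doubly transitive group not of semilinear type: a maximal normal abelian subgroup `A` of a linear group `H` that is regular on non-zero vectors and has no irreducible cyclic normal subgroup is cyclic and reducible, and the order of `A` divides `p ^ k - 1` for `k` the dimension of a minimal `A`-invariant subspace. -/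
theorem result {p : ℕ} [Fact p.Prime] {V : Type*} [AddCommGroup V] [Module (ZMod p) V] [Finite V] (H : Subgroup (V ≃ₗ[ZMod p] V)) (hreg : ∀ v w : V, v ≠ 0 → w ≠ 0 → ∃! h : H, (h : V ≃ₗ[ZMod p] V) v = w) (hI : ∀ A : Subgroup H, A.Normal → IsCyclic A → ∃ W : Submodule (ZMod p) V, W ≠ ⊥ ∧ W ≠ ⊤ ∧ ∀ a ∈ A, ∀ v ∈ W, ((a : H) : V ≃ₗ[ZMod p] V) v ∈ W) (A : Subgroup H) (hAn : A.Normal) (hAc : IsMulCommutative A) (hAmax : ∀ B : Subgroup H, B.Normal → IsMulCommutative B → A ≤ B → B = A) : IsCyclic A ∧ ∃ W : Submodule (ZMod p) V, W ≠ ⊥ ∧ W ≠ ⊤ ∧ (∀ a ∈ A, ∀ v ∈ W, ((a : H) : V ≃ₗ[ZMod p] V) v ∈ W) ∧ (∀ W' : Submodule (ZMod p) V, W' ≤ W → (∀ a ∈ A, ∀ v ∈ W', ((a : H) : V ≃ₗ[ZMod p] V) v ∈ W') → W' = ⊥ ∨ W' = W) ∧ Nat.card A ∣ p ^ Module.finrank (ZMod p) W - 1 := by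
  have := CL.RegLin.finite_sub H
  have := CL.RegLin.nontrivial_sub hI
  have hT := CL.RegLin.trans_sub hreg
  have hF := CL.RegLin.free_sub hreg
  have hI' := CL.RegLin.not_irr_sub hI
  have hc := (CL.RegLin.isFPF hF).hcyc A hAc
  refine ⟨hc, ?_⟩
  obtain ⟨W, h1, h2, h3⟩ := hI A hAn hc
  obtain ⟨w, hw, hw0⟩ := (Submodule.ne_bot_iff W).mp h1
  refine ⟨CL.RegLin.orb (CL.RegLin.subRep H) A w, CL.RegLin.orb_ne_bot A hw0, fun h => h2 ?_,
    CL.RegLin.inv_orb A w, fun W' h4 h5 => CL.RegLin.orb_min hT A hw0 h5 h4, ?_⟩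
  · exact top_le_iff.mp (h ▸ CL.RegLin.orb_le (ρ := CL.RegLin.subRep H) h3 hw)
  · rw [← CL.RegLin.card_eq_pow]
    exact CL.RegLin.card_dvd hF (CL.RegLin.inv_orb A w)

end Cfsg.Agent.S0684
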