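import Cfsg.Statements.S0690
import Cfsg.Agent.PERM.FCStruct2

set_option autoImplicit false
open Cfsg

namespace Cfsg.Agent.S0690

/-- Zassenhaus: a perfect non-trivial group of fixed-point-free automorphisms of a finite group is isomorphic to `SL(2,5)`. -/
theorem result {K : Type*} [Group K] [Finite K] (G : Subgroup (MulAut K)) (hfpf : ∀ φ ∈ G, φ ≠ 1 → ∀ k : K, φ k = k → k = 1) (hperf : commutator G = ⊤) (hne : G ≠ ⊥) : Nonempty (G ≃* Matrix.SpecialLinearGroup (Fin 2) (ZMod 5)) := by
  haveI := (Subgroup.nontrivial_iff_ne_bot G).mpr hne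
  haveI : Nontrivial K := by
    by_contra h
    haveI := not_nontrivial_iff_subsingleton.mp h
    obtain ⟨g, hg⟩ := exists_ne (1 : G)
    exact hg (Subtype.ext (MulEquiv.ext fun _ => Subsingleton.elim _ _))
  exact (CL.FC.isFPF_of_fpf_aut G.subtype
    (fun g hg => hfpf g g.2 (fun h => hg (Subtype.ext h)))).equiv_SL25_of_perfect hperf

end Cfsg.Agent.S0690
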