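import Cfsg.Statements.S0691
import Cfsg.Agent.PERM.RegMat2

set_option autoImplicit false
open Cfsg

namespace Cfsg.Agent.S0691

/-- table lookup -/
def look (N a c : ℕ) : ℕ := (N >>> (6 * (a * 5 + c))) % 64

/-- table -/
def n1 : ℕ := 0x31010800c40420031010800c40420010c2100
/-- table -/
def n2 : ℕ := 0x20820840410410841041030c30c3040000000
/-- table -/
def nd : ℕ := 0x40821020430c30421040c30c30c20010820c0

theorem chk_ok : CL.RegMat2.chk 5 [(2, 0, 0, 3), (0, 4, 1, 0), (1, 2, 1, 3)] (look n1) (look n2) (look nd) = true := by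
  decide +kernel

/-- An exceptional sharply doubly transitive group of degree 5^2: the listed matrices generate a subgroup of GL(2,5) of order 24 acting regularly on the non-zero vectors. -/
theorem result (A : Matrix.GeneralLinearGroup (Fin 2) (ZMod 5)) (B : Matrix.GeneralLinearGroup (Fin 2) (ZMod 5)) (C : Matrix.GeneralLinearGroup (Fin 2) (ZMod 5)) (hA : (A : Matrix (Fin 2) (Fin 2) (ZMod 5)) = !![2, 0; 0, -2]) (hB : (B : Matrix (Fin 2) (Fin 2) (ZMod 5)) = !![0, -1; 1, 0]) (hC : (C : Matrix (Fin 2) (Fin 2) (ZMod 5)) = !![1, 2; 1, -2]) : Nat.card (Subgroup.closure ({A, B, C} : Set (Matrix.GeneralLinearGroup (Fin 2) (ZMod 5)))) = 24 ∧ ∀ v w : Fin 2 → ZMod 5, v ≠ 0 → w ≠ 0 → ∃! h : Subgroup.closure ({A, B, C} : Set (Matrix.GeneralLinearGroup (Fin 2) (ZMod 5))), Matrix.mulVec ((h : Matrix.GeneralLinearGroup (Fin 2) (ZMod 5)) : Matrix (Fin 2) (Fin 2) (ZMod 5)) v = w := by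
  refine CL.RegMat2.regular_of_chk 5 (by norm_num) _ _ _ _ chk_ok _ ?_ ?_
  · intro g hg
    simp only [Set.mem_insert_iff, Set.mem_singleton_iff] at hg
    rcases hg with rfl | rfl | rfl
    · exact ⟨(2, 0, 0, 3), by simp, by rw [hA]; decide⟩
    · exact ⟨(0, 4, 1, 0), by simp, by rw [hB]; decide⟩
    · exact ⟨(1, 2, 1, 3), by simp, by rw [hC]; decide⟩
  · intro q hq
    simp only [List.mem_cons, List.not_mem_nil, or_false] at hq
    rcases hq with rfl | rfl | rfl
    · exact ⟨A, by simp, by rw [hA]; decide⟩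
    · exact ⟨B, by simp, by rw [hB]; decide⟩
    · exact ⟨C, by simp, by rw [hC]; decide⟩

end Cfsg.Agent.S0691
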