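import Cfsg.Statements.S0692
import Cfsg.Agent.PERM.RegMat2

set_option autoImplicit false
open Cfsg

namespace Cfsg.Agent.S0692

/-- table lookup -/
def look (N a c : ℕ) : ℕ := (N >>> (6 * (a * 11 + c))) % 64

/-- table -/
def n1 : ℕ := 0xa0441c51880832401c920a1460020c11072482821431060010062072411020c52892851c62000c108424a2000c51060421c62091ca0840c50010051c818904308428a2090051810c21070882431461072810011840c90881c5280
/-- table -/
def n2 : ℕ := 0x904014208010404a0c318304114208a1420840831830c31c72000c400410104420618504814224618214508918328614524728a1c70072000c310820814824724910124918a2881482062871c02491802820401012841c1287000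
/-- table -/
def nd : ℕ := 0x71882ca1c908510210a2c32481492c714130a18b1492c924820420c18b30310c24a1c82851873061c724828510730624814b08530920b28618a1cb24b1cc10c28328524b0c61c528808718310724828a20500120720610a2460c0

theorem chk_ok : CL.RegMat2.chk 11 [(0, 10, 1, 0), (2, 4, 1, 8)] (look n1) (look n2) (look nd) = true := by
  decide +kernel

/-- An exceptional sharply doubly transitive group of degree 11^2: the listed matrices generate a subgroup of GL(2,11) of order 120 acting regularly on the non-zero vectors. -/
theorem result (A : Matrix.GeneralLinearGroup (Fin 2) (ZMod 11)) (B : Matrix.GeneralLinearGroup (Fin 2) (ZMod 11)) (hA : (A : Matrix (Fin 2) (Fin 2) (ZMod 11)) = !![0, -1; 1, 0]) (hB : (B : Matrix (Fin 2) (Fin 2) (ZMod 11)) = !![2, 4; 1, -3]) : Nat.card (Subgroup.closure ({A, B} : Set (Matrix.GeneralLinearGroup (Fin 2) (ZMod 11)))) = 120 ∧ ∀ v w : Fin 2 → ZMod 11, v ≠ 0 → w ≠ 0 → ∃! h : Subgroup.closure ({A, B} : Set (Matrix.GeneralLinearGroup (Fin 2) (ZMod 11))), Matrix.mulVec ((h : Matrix.GeneralLinearGroup (Fin 2) (ZMod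 11)) : Matrix (Fin 2) (Fin 2) (ZMod 11)) v = w := by
  refine CL.RegMat2.regular_of_chk 11 (by norm_num) _ _ _ _ chk_ok _ ?_ ?_
  · intro g hg
    simp only [Set.mem_insert_iff, Set.mem_singleton_iff] at hg
    rcases hg with rfl | rfl
    · exact ⟨(0, 10, 1, 0), by simp, by rw [hA]; decide⟩
    · exact ⟨(2, 4, 1, 8), by simp, by rw [hB]; decide⟩
  · intro q hq
    simp only [List.mem_cons, List.not_mem_nil, or_false] at hq
    rcases hq with rfl | rfl
    · exact ⟨A, by simp, by rw [hA]; decide⟩
    · exact ⟨B, by simp, by rw [hB]; decide⟩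

end Cfsg.Agent.S0692
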