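import Cfsg.Statements.S0694
import Mathlib
import Mathlib.NumberTheory.Multiplicity
import Mathlib.Data.ZMod.Basic
import Mathlib.Algebra.Ring.GeomSum

set_option autoImplicit false
open Cfsg

namespace Cfsg.Agent.S0694

open Finset

theorem geom (q i : ℕ) : ((∑ j ∈ range i, q ^ j : ℕ) : ℤ) * ((q : ℤ) - 1) = (q : ℤ) ^ i - 1 := by
  push_cast
  exact geom_sum_mul _ _

theorem dvd_iff_one (q r i : ℕ) (h : (r : ℤ) ∣ (q : ℤ) - 1) :
    r ∣ ∑ j ∈ range i, q ^ j ↔ r ∣ i := by
  have := dvd_geom_sum₂_iff_of_dvd_sub (n := i) h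
  simp only [one_pow, mul_one] at this
  rw [← Int.natCast_dvd_natCast, ← Int.natCast_dvd_natCast]
  push_cast
  exact this

theorem dvd_iff_pow (q r i k : ℕ) (hq : 2 ≤ q) (hr : r.Prime) (h : (r : ℤ) ∣ (q : ℤ) - 1)
    (h4 : r = 2 → (4 : ℤ) ∣ (q : ℤ) - 1) :
    r ^ k ∣ ∑ j ∈ range i, q ^ j ↔ r ^ k ∣ i := by
  have hx : ¬ (r : ℤ) ∣ q := by
    intro h'
    have : (r : ℤ) ∣ 1 := by simpa using dvd_sub h' h
    have := Int.natCast_dvd_natCast.1 (by simpa using this : (r : ℤ) ∣ ((1 : ℕ) : ℤ))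
    exact hr.one_lt.ne' (Nat.dvd_one.1 this)
  have hrp : Prime (r : ℤ) := Nat.prime_iff_prime_int.1 hr
  have key : emultiplicity (r : ℤ) ((q : ℤ) ^ i - 1 ^ i) =
      emultiplicity (r : ℤ) ((q : ℤ) - 1) + emultiplicity r i := by
    rcases hr.eq_two_or_odd' with rfl | hodd
    · have := Int.two_pow_sub_pow' i (h4 rfl) (by simpa using hx)
      rw [← Int.natCast_emultiplicity]
      simpa using this
    · exact Int.emultiplicity_pow_sub_pow hr hodd h hx i
  rw [one_pow, ← geom, emultiplicity_mul hrp, add_comm] at key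
  have hfin : emultiplicity (r : ℤ) ((q : ℤ) - 1) ≠ ⊤ := by
    rw [← finiteMultiplicity_iff_emultiplicity_ne_top]
    refine Int.finiteMultiplicity_iff.2 ⟨?_, by omega⟩
    simpa using hr.one_lt.ne'
  have key' := (ENat.add_right_injective_of_ne_top hfin) key
  rw [Int.natCast_emultiplicity] at key'
  rw [pow_dvd_iff_le_emultiplicity, pow_dvd_iff_le_emultiplicity, key']

theorem modEq_iff (q n i : ℕ) (hq : 2 ≤ q) :
    q ^ i ≡ 1 [MOD n * (q - 1)] ↔ n ∣ ∑ j ∈ range i, q ^ j := by
  rw [Nat.ModEq.comm, Nat.modEq_iff_dvd]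
  push_cast [Nat.cast_sub (by omega : 1 ≤ q)]
  rw [← geom, mul_dvd_mul_iff_right (by omega), Int.natCast_dvd_natCast]

/-- The Dickson pair condition: for a prime power `q` and `n > 1`, (every prime factor of `n` divides `q - 1`, and `4 ∣ n → 4 ∣ q - 1`) holds exactly when `q ^ n ≡ 1` modulo `n * (q - 1)` but `q ^ i` is not, for `0 < i < n`. -/
theorem result (q n : ℕ) (hq : IsPrimePow q) (hn : 1 < n) : ((∀ r : ℕ, r.Prime → r ∣ n → r ∣ q - 1) ∧ (4 ∣ n → 4 ∣ q - 1)) ↔ (q ^ n ≡ 1 [MOD n * (q - 1)] ∧ ∀ i : ℕ, 0 < i → i < n → ¬ q ^ i ≡ 1 [MOD n * (q - 1)]) := by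
  have hq2 : 2 ≤ q := hq.two_le
  have hcast : ∀ r : ℕ, r ∣ q - 1 ↔ (r : ℤ) ∣ (q : ℤ) - 1 := by
    intro r
    rw [← Int.natCast_dvd_natCast, Nat.cast_sub (by omega : 1 ≤ q)]
    simp
  simp only [modEq_iff q n _ hq2]
  constructor
  · rintro ⟨h1, h2⟩
    have key : ∀ i, n ∣ ∑ j ∈ range i, q ^ j ↔ n ∣ i := by
      intro i
      rw [Nat.dvd_iff_prime_pow_dvd_dvd, Nat.dvd_iff_prime_pow_dvd_dvd]
      refine forall_congr' fun r => forall_congr' fun k => forall_congr' fun hr =>
        forall_congr' fun hk => ?_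
      rcases Nat.eq_zero_or_pos k with rfl | hk0
      · simp
      have hrn : r ∣ n := (dvd_pow_self r hk0.ne').trans hk
      by_cases h4 : r = 2 → (4 : ℤ) ∣ (q : ℤ) - 1
      · exact dvd_iff_pow q r i k hq2 hr ((hcast r).1 (h1 r hr hrn)) h4
      · push Not at h4
        obtain ⟨rfl, h4⟩ := h4
        have hk1 : k = 1 := by
          by_contra hk1
          apply h4
          have : 4 ∣ n := (show 2 ^ 2 ∣ 2 ^ k from pow_dvd_pow 2 (by omega)).trans hk
          exact_mod_cast (hcast 4).1 (h2 this)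
        subst hk1
        rw [pow_one]
        exact dvd_iff_one q 2 i ((hcast 2).1 (h1 2 hr hrn))
    refine ⟨(key n).2 dvd_rfl, fun i hi hin h => ?_⟩
    exact absurd (Nat.le_of_dvd hi ((key i).1 h)) (by omega)
  · rintro ⟨h1, h2⟩
    have : NeZero n := ⟨by omega⟩
    -- q is a unit mod n
    have hqn : (q : ZMod n) ^ n = 1 := by
      have := congrArg (Int.cast : ℤ → ZMod n) (geom q n)
      push_cast at this
      have h0 : (∑ j ∈ range n, (q : ZMod n) ^ j) = 0 := by
        have := (ZMod.natCast_eq_zero_iff _ _).2 h1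
        push_cast at this
        exact this
      rw [h0, zero_mul] at this
      exact (sub_eq_zero.1 this.symm)
    have hu : IsUnit (q : ZMod n) := IsUnit.of_pow_eq_one hqn (by omega)
    let S : Fin n → ZMod n := fun i => ((∑ j ∈ range i, q ^ j : ℕ) : ZMod n)
    have hinj : Function.Injective S := by
      have aux : ∀ i j : Fin n, i < j → S i ≠ S j := by
        intro i j hij h
        obtain ⟨d, hd⟩ := Nat.exists_eq_add_of_lt (show (i : ℕ) < j from hij)
        apply h2 (d + 1) (by omega) (by omega)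
        rw [← ZMod.natCast_eq_zero_iff]
        simp only [S] at h
        rw [hd, add_assoc, Finset.sum_range_add] at h
        push_cast at h ⊢
        simp only [pow_add, ← Finset.mul_sum, left_eq_add] at h
        exact ((hu.pow i).mul_right_eq_zero).1 h
      intro i j h
      rcases lt_trichotomy i j with hij | hij | hij
      · exact absurd h (aux i j hij)
      · exact hij
      · exact absurd h.symm (aux j i hij)
    have hsurj : Function.Surjective S := by
      have := (Fintype.bijective_iff_injective_and_card S).2 ⟨hinj, by simp⟩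
      exact this.2
    have hsurj' : ∀ r : ℕ, r ∣ n → ∀ x : ZMod r, ∃ i : ℕ, ∑ j ∈ range i, (q : ZMod r) ^ j = x := by
      intro r hr x
      obtain ⟨y, rfl⟩ := ZMod.castHom_surjective hr x
      obtain ⟨i, rfl⟩ := hsurj y
      refine ⟨i, ?_⟩
      simp only [S]
      rw [map_natCast]
      push_cast
      rfl
    have hprime : ∀ r : ℕ, r.Prime → r ∣ n → r ∣ q - 1 := by
      intro r hr hrn
      have := Fact.mk hr
      by_contra hnd
      have hne : (q : ZMod r) - 1 ≠ 0 := by
        intro h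
        apply hnd
        rw [hcast, ← ZMod.intCast_zmod_eq_zero_iff_dvd]
        push_cast
        exact h
      obtain ⟨i, hi⟩ := hsurj' r hrn (-((q : ZMod r) - 1)⁻¹)
      have h3 := geom_sum_mul (q : ZMod r) i
      rw [hi, neg_mul, inv_mul_cancel₀ hne] at h3
      have h4 : (q : ZMod r) ^ i = 0 := by linear_combination -h3
      have h5 : (q : ZMod r) = 0 := pow_eq_zero_iff (n := i) (by
        rintro rfl; simp at h4) |>.1 h4
      have h6 := hu.map (ZMod.castHom hrn (ZMod r))
      rw [map_natCast, h5] at h6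
      exact not_isUnit_zero h6
    refine ⟨hprime, fun h4 => ?_⟩
    have h2' := hprime 2 Nat.prime_two ((by norm_num : 2 ∣ 4).trans h4)
    by_contra hnd
    have hq3 : (q : ZMod 4) = 3 := by
      have : q % 4 = 3 := by omega
      rw [← ZMod.natCast_mod, this]; rfl
    obtain ⟨i, hi⟩ := hsurj' 4 h4 2
    rw [hq3] at hi
    have : ∀ i : ℕ, (∑ j ∈ range i, (3 : ZMod 4) ^ j = 0 ∧ (3 : ZMod 4) ^ i = 1) ∨
        (∑ j ∈ range i, (3 : ZMod 4) ^ j = 1 ∧ (3 : ZMod 4) ^ i = 3) := by
      intro i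
      induction i with
      | zero => simp
      | succ i ih =>
        rw [Finset.sum_range_succ, pow_succ]
        rcases ih with ⟨a, b⟩ | ⟨a, b⟩ <;> rw [a, b] <;> decide
    rcases this i with ⟨a, -⟩ | ⟨a, -⟩ <;> rw [hi] at a <;> exact absurd a (by decide)

end Cfsg.Agent.S0694
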