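import Cfsg.Statements.S0701
---PRE---
open MulAction

/-- Two points with the same stabiliser in a transitive group are linked by an element of the
centraliser. -/
theorem exists_centralizer_apply_eq {α : Type*} (G : Subgroup (Equiv.Perm α))
    [IsPretransitive G α] {a b : α} (h : stabilizer G a = stabilizer G b) :
    ∃ c ∈ Subgroup.centralizer (G : Set (Equiv.Perm α)), c a = b := by
  have key : ∀ g g' : G, g • a = g' • a ↔ g • b = g' • b := by
    intro g g'
    have h1 : g • a = g' • a ↔ g'⁻¹ * g ∈ stabilizer G a := by
      rw [mem_stabilizer_iff, mul_smul, inv_smul_eq_iff]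
    have h2 : g • b = g' • b ↔ g'⁻¹ * g ∈ stabilizer G b := by
      rw [mem_stabilizer_iff, mul_smul, inv_smul_eq_iff]
    rw [h1, h2, h]
  choose s hs using fun x : α => exists_smul_eq G a x
  choose t ht using fun x : α => exists_smul_eq G b x
  let c : Equiv.Perm α :=
    { toFun := fun x => s x • b
      invFun := fun y => t y • a
      left_inv := fun x => by
        show t (s x • b) • a = x
        rw [(key _ (s x)).2 (ht _), hs]
      right_inv := fun y => by
        show s (t y • a) • b = y
        rw [(key _ (t y)).1 (hs _), ht] }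
  refine ⟨c, ?_, ?_⟩
  · rw [Subgroup.mem_centralizer_iff]
    intro g hg
    ext x
    show (⟨g, hg⟩ : G) • (s x • b) = s ((⟨g, hg⟩ : G) • x) • b
    rw [← mul_smul]
    apply (key _ _).1
    rw [mul_smul, hs, hs]
  · show s a • b = b
    have := (key (s a) 1).1 (by rw [hs, one_smul])
    rwa [one_smul] at this

theorem centralizer_semiregular {α : Type*} (G : Subgroup (Equiv.Perm α))
    [IsPretransitive G α] {c : Equiv.Perm α}
    (hc : c ∈ Subgroup.centralizer (G : Set (Equiv.Perm α))) {a : α} (ha : c a = a) : c = 1 := by
  ext b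
  obtain ⟨g, rfl⟩ := exists_smul_eq G a b
  have := (Subgroup.mem_centralizer_iff.1 hc) g g.2
  have h2 := congrArg (fun σ : Equiv.Perm α => σ a) this
  simp only [Equiv.Perm.coe_mul, Function.comp_apply, ha] at h2
  show c (g.1 a) = g.1 a
  exact h2.symm

set_option autoImplicit false
open Cfsg

namespace Cfsg.Agent.S0701

open MulAction

/-- Two points with the same stabiliser in a transitive group are linked by an element of the
centraliser. -/
theorem exists_centralizer_apply_eq {α : Type*} (G : Subgroup (Equiv.Perm α))
    [IsPretransitive G α] {a b : α} (h : stabilizer G a = stabilizer G b) :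
    ∃ c ∈ Subgroup.centralizer (G : Set (Equiv.Perm α)), c a = b := by
  have key : ∀ g g' : G, g • a = g' • a ↔ g • b = g' • b := by
    intro g g'
    have h1 : g • a = g' • a ↔ g'⁻¹ * g ∈ stabilizer G a := by
      rw [mem_stabilizer_iff, mul_smul, inv_smul_eq_iff]
    have h2 : g • b = g' • b ↔ g'⁻¹ * g ∈ stabilizer G b := by
      rw [mem_stabilizer_iff, mul_smul, inv_smul_eq_iff]
    rw [h1, h2, h]
  choose s hs using fun x : α => exists_smul_eq G a x
  choose t ht using fun x : α => exists_smul_eq G b x
  let c : Equiv.Perm α :=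
    { toFun := fun x => s x • b
      invFun := fun y => t y • a
      left_inv := fun x => by
        show t (s x • b) • a = x
        rw [(key _ (s x)).2 (ht _), hs]
      right_inv := fun y => by
        show s (t y • a) • b = y
        rw [(key _ (t y)).1 (hs _), ht] }
  refine ⟨c, ?_, ?_⟩
  · rw [Subgroup.mem_centralizer_iff]
    intro g hg
    ext x
    show (⟨g, hg⟩ : G) • (s x • b) = s ((⟨g, hg⟩ : G) • x) • b
    rw [← mul_smul]
    apply (key _ _).1
    rw [mul_smul, hs, hs]
  · show s a • b = b
    have := (key (s a) 1).1 (by rw [hs, one_smul])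
    rwa [one_smul] at this

theorem centralizer_semiregular {α : Type*} (G : Subgroup (Equiv.Perm α))
    [IsPretransitive G α] {c : Equiv.Perm α}
    (hc : c ∈ Subgroup.centralizer (G : Set (Equiv.Perm α))) {a : α} (ha : c a = a) : c = 1 := by
  ext b
  obtain ⟨g, rfl⟩ := exists_smul_eq G a b
  have := (Subgroup.mem_centralizer_iff.1 hc) g g.2
  have h2 := congrArg (fun σ : Equiv.Perm α => σ a) this
  simp only [Equiv.Perm.coe_mul, Function.comp_apply, ha] at h2
  show c (g.1 a) = g.1 a
  exact h2.symm

/-- The centraliser in the full symmetric group of a transitive permutation group `G` is semiregular, and it is transitive if and only if `G` is regular. -/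
theorem result {α : Type*} (G : Subgroup (Equiv.Perm α)) [MulAction.IsPretransitive G α] : (∀ c ∈ Subgroup.centralizer (G : Set (Equiv.Perm α)), ∀ a : α, c a = a → c = 1) ∧ (MulAction.IsPretransitive (Subgroup.centralizer (G : Set (Equiv.Perm α))) α ↔ ∀ a : α, MulAction.stabilizer G a = ⊥) := by
  refine ⟨fun c hc a ha => centralizer_semiregular G hc ha, fun h a => ?_, fun h => ⟨fun a b => ?_⟩⟩
  · rw [eq_bot_iff]
    intro g hg
    rw [Subgroup.mem_bot]
    ext b
    obtain ⟨c, rfl⟩ := h.exists_smul_eq a b
    have := (Subgroup.mem_centralizer_iff.1 c.2) g g.2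
    have h2 := congrArg (fun σ : Equiv.Perm α => σ a) this
    have hg' : g.1 a = a := hg
    simp only [Equiv.Perm.coe_mul, Function.comp_apply, hg'] at h2
    exact h2
  · obtain ⟨c, hc, hca⟩ := exists_centralizer_apply_eq G ((h a).trans (h b).symm)
    exact ⟨⟨c, hc⟩, hca⟩

end Cfsg.Agent.S0701
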