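import Cfsg.Statements.S0702
import Cfsg.Agent.S0701
import Mathlib.Algebra.Group.Subgroup.Finite

set_option autoImplicit false
open Cfsg

namespace Cfsg.Agent.S0702

open MulAction

theorem stabilizer_apply_of_mem_centralizer {α : Type*} (G : Subgroup (Equiv.Perm α))
    {c : Equiv.Perm α} (hc : c ∈ Subgroup.centralizer (G : Set (Equiv.Perm α))) (a : α) :
    stabilizer G (c a) = stabilizer G a := by
  ext g
  have := (Subgroup.mem_centralizer_iff.1 hc) g g.2
  have h2 := congrArg (fun σ : Equiv.Perm α => σ a) this
  simp only [Equiv.Perm.coe_mul, Function.comp_apply] at h2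
  show g.1 (c a) = c a ↔ g.1 a = a
  rw [h2, c.injective.eq_iff]

theorem stabilizer_smul_eq_iff {G α : Type*} [Group G] [MulAction G α] (a : α) (n : G) :
    stabilizer G (n⁻¹ • a) = stabilizer G a ↔
      n ∈ Subgroup.normalizer ((stabilizer G a : Subgroup G) : Set G) := by
  rw [Subgroup.mem_set_normalizer_iff, SetLike.ext_iff]
  refine forall_congr' fun g => ?_
  have : g ∈ stabilizer G (n⁻¹ • a) ↔ n * g * n⁻¹ ∈ stabilizer G a := by
    simp only [mem_stabilizer_iff, mul_smul, smul_eq_iff_eq_inv_smul n]
  rw [this]
  exact Iff.comm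

/-- For a transitive permutation group `G` on a finite set, the centraliser of `G` in the symmetric group is isomorphic to `N_G(G_ω)/G_ω`, and its orbit of `ω` is the set of fixed points of `G_ω`. -/
theorem result {α : Type*} [Finite α] (G : Subgroup (Equiv.Perm α)) [MulAction.IsPretransitive G α] (a : α) : Nonempty (Subgroup.centralizer (G : Set (Equiv.Perm α)) ≃* Subgroup.normalizer ((MulAction.stabilizer G a : Subgroup G) : Set G) ⧸ (MulAction.stabilizer G a).subgroupOf (Subgroup.normalizer ((MulAction.stabilizer G a : Subgroup G) : Set G))) ∧ MulAction.orbit (Subgroup.centralizer (G : Set (Equiv.Perm α))) a = MulAction.fixedPoints (MulAction.stabilizer G a) α := by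
  constructor
  · set K := stabilizer G a with hK
    set N := Subgroup.normalizer ((K : Subgroup G) : Set G) with hN
    have hex : ∀ n : N, ∃ c ∈ Subgroup.centralizer (G : Set (Equiv.Perm α)), c a = (n : G)⁻¹ • a :=
      fun n => S0701.exists_centralizer_apply_eq G ((stabilizer_smul_eq_iff a (n : G)).2 n.2).symm
    choose f hf hfa using hex
    have hext : ∀ c d : Subgroup.centralizer (G : Set (Equiv.Perm α)),
        c.1 a = d.1 a → c = d := by
      intro c d hcd
      have : (d⁻¹ * c).1 = 1 := S0701.centralizer_semiregular G (d⁻¹ * c).2 (a := a) (by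
        simp only [Subgroup.coe_mul, Subgroup.coe_inv, Equiv.Perm.coe_mul, Function.comp_apply, hcd]
        simp)
      have h2 : d⁻¹ * c = 1 := Subtype.ext this
      exact (inv_mul_eq_one.1 h2).symm
    let φ : N →* Subgroup.centralizer (G : Set (Equiv.Perm α)) :=
      MonoidHom.mk' (fun n => ⟨f n, hf n⟩) (by
        intro n m
        apply hext
        show f (n * m) a = f n (f m a)
        rw [hfa, hfa]
        have := (Subgroup.mem_centralizer_iff.1 (hf n)) ((m : G)⁻¹ : G) ((m : G)⁻¹).2
        have h2 := congrArg (fun σ : Equiv.Perm α => σ a) this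
        simp only [Equiv.Perm.coe_mul, Function.comp_apply, hfa] at h2
        rw [Subgroup.coe_mul, mul_inv_rev, mul_smul]
        exact h2)
    have hsurj : Function.Surjective φ := by
      intro c
      obtain ⟨g, hg⟩ := exists_smul_eq G (c.1 a) a
      have hg' : g⁻¹ • a = c.1 a := by rw [inv_smul_eq_iff, hg]
      have hgN : g ∈ N := by
        rw [hN, hK, ← stabilizer_smul_eq_iff, hg']
        exact stabilizer_apply_of_mem_centralizer G c.2 a
      refine ⟨⟨g, hgN⟩, hext _ _ ?_⟩
      show f _ a = _
      rw [hfa, hg']
    have hker : φ.ker = K.subgroupOf N := by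
      ext n
      rw [MonoidHom.mem_ker, Subgroup.mem_subgroupOf, hK, mem_stabilizer_iff]
      constructor
      · intro h
        have h2 : f n = 1 := congrArg Subtype.val h
        have h3 := hfa n
        rw [h2, eq_inv_smul_iff] at h3
        exact h3
      · intro h
        apply hext
        show f n a = a
        rw [hfa, inv_smul_eq_iff, h]
    exact ⟨((QuotientGroup.quotientMulEquivOfEq hker.symm).trans
      (QuotientGroup.quotientKerEquivOfSurjective φ hsurj)).symm⟩
  · ext b
    constructor
    · rintro ⟨c, rfl⟩ g
      have := stabilizer_apply_of_mem_centralizer G c.2 a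
      have h2 : g.1 ∈ stabilizer G (c.1 a) := by rw [this]; exact g.2
      exact h2
    · intro hb
      have hle : stabilizer G a ≤ stabilizer G b := fun g hg => hb ⟨g, hg⟩
      have heq : stabilizer G a = stabilizer G b := by
        apply Subgroup.eq_of_le_of_card_ge hle
        obtain ⟨g, rfl⟩ := exists_smul_eq G a b
        rw [stabilizer_smul_eq_stabilizer_map_conj]
        exact (Subgroup.card_map_of_injective (MulAut.conj g).injective).le
      obtain ⟨c, hc, hca⟩ := S0701.exists_centralizer_apply_eq G heq
      exact ⟨⟨c, hc⟩, hca⟩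

end Cfsg.Agent.S0702
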