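import Cfsg.Statements.S0704
import Cfsg.Agent.PERM.TwoTrans
import Cfsg.Agent.S0701

set_option autoImplicit false
open Cfsg

namespace Cfsg.Agent.S0704

open MulAction

/-- A transitive subgroup commuting with a transitive subgroup is its full centraliser in the
symmetric group. -/
theorem centralizer_eq {α : Type*} (G : Subgroup (Equiv.Perm α)) (M N : Subgroup G)
    (hMt : IsPretransitive M α) (hNt : IsPretransitive N α)
    (hc : ∀ m ∈ M, ∀ n ∈ N, m * n = n * m) :
    Subgroup.centralizer ((M.map G.subtype : Subgroup (Equiv.Perm α)) : Set (Equiv.Perm α)) =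
      N.map G.subtype := by
  have hMt' : IsPretransitive (M.map G.subtype) α := ⟨fun a b => by
    obtain ⟨m, hm⟩ := hMt.exists_smul_eq a b
    exact ⟨⟨m.1.1, m.1, m.2, rfl⟩, hm⟩⟩
  have hle : N.map G.subtype ≤
      Subgroup.centralizer ((M.map G.subtype : Subgroup (Equiv.Perm α)) : Set (Equiv.Perm α)) := by
    rintro _ ⟨n, hn, rfl⟩
    rw [Subgroup.mem_centralizer_iff]
    rintro _ ⟨m, hm, rfl⟩
    exact congrArg Subtype.val (hc m hm n hn)
  refine le_antisymm (fun c hc => ?_) hle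
  rcases isEmpty_or_nonempty α with h | ⟨⟨a⟩⟩
  · rw [Subsingleton.elim c 1]; exact Subgroup.one_mem _
  obtain ⟨n, hn⟩ := hNt.exists_smul_eq a (c a)
  have hn' : n.1.1 a = c a := hn
  have h1 : n.1.1 ∈ N.map G.subtype := ⟨n.1, n.2, rfl⟩
  have h2 := S0701.centralizer_semiregular (M.map G.subtype)
    (Subgroup.mul_mem _ (Subgroup.inv_mem _ hc) (hle h1)) (a := a) (by simp [hn'])
  rwa [inv_mul_eq_one.1 h2]

theorem commute_of_ne {H : Type*} [Group H] (M N : Subgroup H) [hM : M.Normal] [hN : N.Normal]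
    (hMmin : ∀ L : Subgroup H, L.Normal → L ≤ M → L = ⊥ ∨ L = M) (hMN : ¬ M ≤ N) :
    ∀ m ∈ M, ∀ n ∈ N, m * n = n * m := by
  have h : M ⊓ N = ⊥ := (hMmin _ inferInstance inf_le_left).resolve_right fun h =>
    hMN (inf_eq_left.1 h)
  intro m hm n hn
  exact Subgroup.commute_of_normal_of_disjoint M N hM hN (disjoint_iff.2 h) m n hm hn

theorem le_of_commute {α : Type*} (G : Subgroup (Equiv.Perm α)) (M N L : Subgroup G)
    (h : Subgroup.centralizer ((M.map G.subtype : Subgroup (Equiv.Perm α)) : Set (Equiv.Perm α)) =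
      N.map G.subtype) (hc : ∀ l ∈ L, ∀ m ∈ M, l * m = m * l) : L ≤ N := by
  intro l hl
  have : l.1 ∈ N.map G.subtype := by
    rw [← h, Subgroup.mem_centralizer_iff]
    rintro _ ⟨m, hm, rfl⟩
    exact congrArg Subtype.val (hc l hl m hm).symm
  obtain ⟨n, hn, hn'⟩ := this
  rwa [← Subtype.ext hn']

/-- Two distinct transitive minimal normal subgroups `M`, `N` of a permutation group are regular, non-abelian, isomorphic, each other's centraliser in the symmetric group, and the only minimal normal subgroups. -/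
theorem result {α : Type*} (G : Subgroup (Equiv.Perm α)) (M N : Subgroup G) [M.Normal] [N.Normal] (hM : M ≠ ⊥) (hN : N ≠ ⊥) (hMmin : ∀ L : Subgroup G, L.Normal → L ≤ M → L = ⊥ ∨ L = M) (hNmin : ∀ L : Subgroup G, L.Normal → L ≤ N → L = ⊥ ∨ L = N) (hMN : M ≠ N) (hMt : MulAction.IsPretransitive M α) (hNt : MulAction.IsPretransitive N α) : (∀ a : α, MulAction.stabilizer M a = ⊥) ∧ (∀ a : α, MulAction.stabilizer N a = ⊥) ∧ ¬ IsMulCommutative M ∧ Nonempty (M ≃* N) ∧ Subgroup.centralizer ((M.map G.subtype : Subgroup (Equiv.Perm α)) : Set (Equiv.Perm α)) = N.map G.subtype ∧ Subgroup.centralizer ((N.map G.subtype : Subgroup (Equiv.Perm α)) : Set (Equiv.Perm α)) = M.map G.subtype ∧ ∀ L : Subgroup G, L.Normal → L ≠ ⊥ → (∀ L' : Subgroup G, L'.Normal → L' ≤ L → L' = ⊥ ∨ L' = L) → L = M ∨ L = N := by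
  have hMN' : ¬ M ≤ N := fun h => hMN ((hNmin M inferInstance h).resolve_left hM)
  have hc := commute_of_ne M N hMmin hMN'
  have hc' : ∀ n ∈ N, ∀ m ∈ M, n * m = m * n := fun n hn m hm => (hc m hm n hn).symm
  have h1 := centralizer_eq G M N hMt hNt hc
  have h2 := centralizer_eq G N M hNt hMt hc'
  have hMr : ∀ m ∈ M, ∀ a : α, m • a = a → m = 1 := fun m hm a ha =>
    CL.Perm.eq_one_of_commute_of_transitive N hNt (hc m hm) ha
  have hNr : ∀ n ∈ N, ∀ a : α, n • a = a → n = 1 := fun n hn a ha =>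
    CL.Perm.eq_one_of_commute_of_transitive M hMt (hc' n hn) ha
  refine ⟨fun a => ?_, fun a => ?_, fun h => hMN' ?_, ?_, h1, h2, fun L hL hLne hLmin => ?_⟩
  · rw [eq_bot_iff]
    exact fun m hm => Subtype.ext (hMr m m.2 a hm)
  · rw [eq_bot_iff]
    exact fun m hm => Subtype.ext (hNr m m.2 a hm)
  · exact le_of_commute G M N M h1 fun l hl m hm =>
      congrArg Subtype.val (h.is_comm.comm (⟨l, hl⟩ : M) ⟨m, hm⟩)
  · have := CL.Perm.nontrivial_of_ne_bot (Ω := α) M hM
    obtain ⟨a, -⟩ := exists_pair_ne α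
    choose f hf using fun m : M => hNt.exists_smul_eq a (m⁻¹ • a)
    have hext : ∀ n n' : N, n • a = n' • a → n = n' := by
      intro n n' h
      have := hNr _ (n'⁻¹ * n).2 a (by
        show (n'⁻¹ * n) • a = a
        rw [mul_smul, h, inv_smul_smul])
      have h3 : n'⁻¹ * n = 1 := Subtype.ext this
      exact (inv_mul_eq_one.1 h3).symm
    have hcomm : ∀ (m : M) (n : N) (x : α), m • n • x = n • m • x := fun m n x => by
      show (m : G) • (n : G) • x = (n : G) • (m : G) • x
      rw [← mul_smul, ← mul_smul, hc m m.2 n n.2]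
    let φ : M →* N := MonoidHom.mk' f fun m m' => hext _ _ (by
      rw [hf, mul_smul (f m), hf, ← hcomm, hf, mul_inv_rev, mul_smul])
    refine ⟨MulEquiv.ofBijective φ ⟨?_, fun n => ?_⟩⟩
    · rw [injective_iff_map_eq_one]
      intro m hm
      have h3 := hf m
      have h4 : f m = 1 := hm
      rw [h4, one_smul, eq_inv_smul_iff] at h3
      exact Subtype.ext (hMr m m.2 a h3)
    · obtain ⟨m, hm⟩ := hMt.exists_smul_eq a (n • a)
      refine ⟨m⁻¹, hext _ _ ?_⟩
      show f m⁻¹ • a = _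
      rw [hf, inv_inv, hm]
  · by_cases hLM : L ≤ M
    · exact Or.inl ((hMmin L hL hLM).resolve_left hLne)
    · exact Or.inr ((hNmin L hL (le_of_commute G M N L h1
        (commute_of_ne L M hLmin hLM))).resolve_left hLne)

end Cfsg.Agent.S0704
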