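import Cfsg.Statements.S0703
import Cfsg.Agent.S0704

set_option autoImplicit false
open Cfsg

namespace Cfsg.Agent.S0703

/-- An abelian transitive minimal normal subgroup `M` of a permutation group on a finite set is self-centralising in the symmetric group, regular, elementary abelian, and is the unique minimal normal subgroup. -/
theorem result {α : Type*} [Finite α] (G : Subgroup (Equiv.Perm α)) (M : Subgroup G) [M.Normal] (hM : M ≠ ⊥) (hmin : ∀ L : Subgroup G, L.Normal → L ≤ M → L = ⊥ ∨ L = M) (hab : IsMulCommutative M) (htrans : MulAction.IsPretransitive M α) : Subgroup.centralizer ((M.map G.subtype : Subgroup (Equiv.Perm α)) : Set (Equiv.Perm α)) = M.map G.subtype ∧ (∀ a : α, MulAction.stabilizer M a = ⊥) ∧ (∃ p : ℕ, p.Prime ∧ ∀ m ∈ M, m ^ p = 1) ∧ ∀ L : Subgroup G, L.Normal → L ≠ ⊥ → (∀ L' : Subgroup G, L'.Normal → L' ≤ L → L' = ⊥ ∨ L' = L) → L = M := by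
  have hc : ∀ m ∈ M, ∀ n ∈ M, m * n = n * m := fun l hl m hm =>
    congrArg Subtype.val (hab.is_comm.comm (⟨l, hl⟩ : M) ⟨m, hm⟩)
  have h1 := S0704.centralizer_eq G M M htrans htrans hc
  refine ⟨h1, fun a => ?_, CL.Perm.elementary_of_minimal_normal_of_comm M hM hmin hab,
    fun L hL hLne hLmin => ?_⟩
  · rw [eq_bot_iff]
    exact fun m hm => Subtype.ext
      (CL.Perm.eq_one_of_commute_of_transitive M htrans (hc m m.2) hm)
  · refine (hmin L hL ?_).resolve_left hLne
    by_contra hLM
    exact hLM (S0704.le_of_commute G M M L h1 (S0704.commute_of_ne L M hLmin hLM))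

end Cfsg.Agent.S0703
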