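import Cfsg.Statements.S0707
import Mathlib.GroupTheory.SpecificGroups.Cyclic
import Cfsg.Agent.S0702

set_option autoImplicit false
open Cfsg

namespace Cfsg.Agent.S0707

open MulAction

/-- A group whose trivial subgroup is maximal has prime order. -/
theorem prime_card_of_isCoatom_bot {G : Type*} [Group G] (h : IsCoatom (⊥ : Subgroup G)) :
    (Nat.card G).Prime := by
  have hnt : Nontrivial G := by
    by_contra hn
    rw [not_nontrivial_iff_subsingleton] at hn
    exact h.1 (Subsingleton.elim _ _)
  have hall : ∀ H : Subgroup G, H = ⊥ ∨ H = ⊤ := fun H => by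
    rcases eq_or_ne H ⊥ with h1 | h1
    · exact Or.inl h1
    · exact Or.inr (h.2 H (bot_lt_iff_ne_bot.2 h1))
  obtain ⟨g, hg⟩ := exists_ne (1 : G)
  have hcyc : IsCyclic G := by
    refine ⟨⟨g, fun x => ?_⟩⟩
    have := (hall (Subgroup.zpowers g)).resolve_left (by simpa using hg)
    have hx : x ∈ Subgroup.zpowers g := this ▸ Subgroup.mem_top x
    exact hx
  have hs : IsSimpleGroup G := ⟨fun H _ => hall H⟩
  let _ := hcyc.commGroup
  exact IsSimpleGroup.prime_card

/-- In a primitive permutation group, distinct points have distinct stabilisers unless the group is regular of prime degree. -/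
theorem result {α : Type*} (G : Subgroup (Equiv.Perm α)) [MulAction.IsPreprimitive G α] (h : ¬ (Nat.card α).Prime ∨ ∃ a : α, MulAction.stabilizer G a ≠ ⊥) {a b : α} (hab : a ≠ b) : MulAction.stabilizer G a ≠ MulAction.stabilizer G b := by
  intro heq
  have hnt : Nontrivial α := ⟨⟨a, b, hab⟩⟩
  have hco := IsPreprimitive.isCoatom_stabilizer_of_isPreprimitive G a
  obtain ⟨g, hg⟩ := exists_smul_eq G b a
  have hg' : g⁻¹ • a = b := by rw [inv_smul_eq_iff, hg]
  have hgN : g ∈ Subgroup.normalizer ((stabilizer G a : Subgroup G) : Set G) := by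
    rw [← S0702.stabilizer_smul_eq_iff, hg', heq]
  have htop : Subgroup.normalizer ((stabilizer G a : Subgroup G) : Set G) = ⊤ := by
    apply hco.2
    refine lt_of_le_of_ne Subgroup.le_normalizer fun h => hab ?_
    rw [← h, mem_stabilizer_iff] at hgN
    exact smul_left_cancel g (hgN.trans hg.symm)
  have hall : ∀ x : α, stabilizer G x = stabilizer G a := by
    intro x
    obtain ⟨k, hk⟩ := exists_smul_eq G x a
    have hk' : k⁻¹ • a = x := by rw [inv_smul_eq_iff, hk]
    rw [← hk', S0702.stabilizer_smul_eq_iff, htop]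
    trivial
  have hbot : stabilizer G a = ⊥ := by
    rw [eq_bot_iff]
    intro k hk
    rw [Subgroup.mem_bot]
    ext x
    rw [← hall x] at hk
    exact hk
  rcases h with h | ⟨x, hx⟩
  · apply h
    rw [← index_stabilizer_of_transitive G a, hbot, Subgroup.index_bot]
    exact prime_card_of_isCoatom_bot (hbot ▸ hco)
  · exact hx ((hall x).trans hbot)

end Cfsg.Agent.S0707
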