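import Cfsg.Statements.S0709


set_option autoImplicit false
open Cfsg

namespace Cfsg.Agent.S0709

/-- A double coset criterion for a transitive extension. -/
theorem dc {M : Type*} [Group M] [Finite M] (A B C : Subgroup M) (a b : M) (hAB : A ≤ B)
    (ha : a ∈ B) (hB : ∀ g ∈ B, g ∈ A ∨ ∃ x ∈ A, ∃ y ∈ A, g = x * a * y)
    (hn : ∀ g ∈ A, b * g * b⁻¹ ∈ A) (hb2 : b ^ 2 ∈ A) (hbr : (a * b) ^ 3 ∈ A)
    (S : Set M) (hC : C = Subgroup.closure S) (hS : ∀ g ∈ S, g ∈ B ∨ g = b) :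
    ∀ g ∈ C, g ∈ B ∨ ∃ x ∈ B, ∃ y ∈ B, g = x * b * y := by
  have hb2' := hAB hb2
  have key : ∀ g ∈ B, b * g * b ∈ B ∨ ∃ x ∈ B, ∃ y ∈ B, b * g * b = x * b * y := by
    intro g hg
    rcases hB g hg with h | ⟨x, hx, y, hy, rfl⟩
    · left
      have : b * g * b = (b * g * b⁻¹) * b ^ 2 := by group
      rw [this]
      exact mul_mem (hAB (hn g h)) hb2'
    · right
      have h1 : b⁻¹ * y * b ∈ A := by
        have : b⁻¹ * y * b = (b ^ 2)⁻¹ * (b * y * b⁻¹) * b ^ 2 := by group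
        rw [this]
        exact mul_mem (mul_mem (inv_mem hb2) (hn y hy)) hb2
      refine ⟨(b * x * b⁻¹) * a⁻¹, mul_mem (hAB (hn x hx)) (inv_mem ha),
        (b ^ 2)⁻¹ * a⁻¹ * (a * b) ^ 3 * (b⁻¹ * y * b),
        mul_mem (mul_mem (mul_mem (inv_mem hb2') (inv_mem ha)) (hAB hbr)) (hAB h1), ?_⟩
      simp only [pow_succ, pow_zero, one_mul]
      group
  intro g hg
  rw [hC, ← Subgroup.mem_toSubmonoid, Subgroup.closure_toSubmonoid_of_finite] at hg
  induction hg using Submonoid.closure_induction_left with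
  | one => exact Or.inl (one_mem _)
  | mul_left s hs g _ ih =>
    rcases hS s hs with h | rfl
    · rcases ih with h2 | ⟨x, hx, y, hy, rfl⟩
      · exact Or.inl (mul_mem h h2)
      · exact Or.inr ⟨s * x, mul_mem h hx, y, hy, by group⟩
    · rcases ih with h2 | ⟨x, hx, y, hy, rfl⟩
      · exact Or.inr ⟨1, one_mem _, g, h2, by group⟩
      · rcases key x hx with h | ⟨x', hx', y', hy', e⟩
        · left
          have : s * (x * s * y) = s * x * s * y := by group
          rw [this]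
          exact mul_mem h hy
        · refine Or.inr ⟨x', hx', y' * y, mul_mem hy' hy, ?_⟩
          calc s * (x * s * y) = s * x * s * y := by group
            _ = _ := by rw [e]; group

/-- Witt's Lemma for constructing transitive extensions. Points `q 1, …, q t` (`t ≥ 2`) of a finite set are given; `G` fixes `q i` for `i ≥ 3` and is doubly transitive on the remaining points; `s 1 ∈ G` swaps `q 1, q 2`; for `2 ≤ i ≤ t-1`, `s i` swaps `q i, q (i+1)` and fixes the other `q j`; with `H` the stabiliser of `q 1, q 2` in `G`: `s i ^ 2 ∈ H`, `(s i * s (i+1)) ^ 3 ∈ H`, `(s i * s j) ^ 2 ∈ H` for `j ≥ i + 2`, and `s i` (`i ≥ 2`) normalises the stabiliser of `q 2` in `G`. Then `G` and the `s i` generate a `t`-transitive group whose pointwise stabiliser of the `q`'s is `H`. -/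
theorem result {α : Type*} [Fintype α] [DecidableEq α] (t : ℕ) (ht : 2 ≤ t) (q : ℕ → α) (hq : ∀ i j : ℕ, 1 ≤ i → i ≤ t → 1 ≤ j → j ≤ t → q i = q j → i = j) (G : Subgroup (Equiv.Perm α)) (hfix : ∀ g ∈ G, ∀ i : ℕ, 3 ≤ i → i ≤ t → g (q i) = q i) (h2 : ∀ a b c d : α, (∀ i, 3 ≤ i → i ≤ t → a ≠ q i ∧ b ≠ q i ∧ c ≠ q i ∧ d ≠ q i) → a ≠ b → c ≠ d → ∃ g ∈ G, g a = c ∧ g b = d) (s : ℕ → Equiv.Perm α) (hs1 : s 1 ∈ G) (hs1q : s 1 (q 1) = q 2 ∧ s 1 (q 2) = q 1) (hsq : ∀ i : ℕ, 2 ≤ i → i + 1 ≤ t → s i (q i) = q (i + 1) ∧ s i (q (i + 1)) = q i ∧ ∀ j : ℕ, 1 ≤ j → j ≤ t → j ≠ i → j ≠ i + 1 → s i (q j) = q j) (H : Subgroup (Equiv.Perm α)) (hH : H = G ⊓ MulAction.stabilizer (Equiv.Perm α) (q 1) ⊓ MulAction.stabilizer (Equiv.Perm α) (q 2)) (hsq2 : ∀ i : ℕ, 1 ≤ i → i + 1 ≤ t → s i ^ 2 ∈ H) (hbraid : ∀ i : ℕ, 1 ≤ i → i + 2 ≤ t → (s i * s (i + 1)) ^ 3 ∈ H) (hcomm : ∀ i j : ℕ, 1 ≤ i → i + 2 ≤ j → j + 1 ≤ t → (s i * s j) ^ 2 ∈ H ∧ (s j * s i) ^ 2 ∈ H) (hnorm : ∀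 i : ℕ, 2 ≤ i → i + 1 ≤ t → ∀ g ∈ G ⊓ MulAction.stabilizer (Equiv.Perm α) (q 2), s i * g * (s i)⁻¹ ∈ G ⊓ MulAction.stabilizer (Equiv.Perm α) (q 2)) : MulAction.IsMultiplyPretransitive ↥(Subgroup.closure ((G : Set (Equiv.Perm α)) ∪ {x | ∃ i : ℕ, 2 ≤ i ∧ i + 1 ≤ t ∧ x = s i})) α t ∧ Subgroup.closure ((G : Set (Equiv.Perm α)) ∪ {x | ∃ i : ℕ, 2 ≤ i ∧ i + 1 ≤ t ∧ x = s i}) ⊓ fixingSubgroup (Equiv.Perm α) {x | ∃ i : ℕ, 1 ≤ i ∧ i ≤ t ∧ x = q i} = H := by
  set K := G ⊓ MulAction.stabilizer (Equiv.Perm α) (q 2) with hK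
  have hHK : H ≤ K := fun g hg => by rw [hH] at hg; exact ⟨hg.1.1, hg.2⟩
  let L : ℕ → Subgroup (Equiv.Perm α) := fun i =>
    Subgroup.closure ((K : Set (Equiv.Perm α)) ∪ {x | ∃ j, 1 ≤ j ∧ j < i ∧ x = s j})
  have hKL : ∀ i, K ≤ L i := fun i g hg => Subgroup.subset_closure (Or.inl hg)
  have hsL : ∀ i j, 1 ≤ j → j < i → s j ∈ L i := fun i j h1 h2 =>
    Subgroup.subset_closure (Or.inr ⟨j, h1, h2, rfl⟩)
  have hmono : ∀ i j, i ≤ j → L i ≤ L j := fun i j h => Subgroup.closure_mono (by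
    rintro g (hg | ⟨k, h1, h2, rfl⟩)
    · exact Or.inl hg
    · exact Or.inr ⟨k, h1, by omega, rfl⟩)
  have hL1 : L 1 = K := le_antisymm ((Subgroup.closure_le _).2 (by
    rintro g (hg | ⟨k, h1, h2, rfl⟩)
    · exact hg
    · omega)) (hKL 1)
  have hqne : ∀ i j : ℕ, 1 ≤ i → i ≤ t → 1 ≤ j → j ≤ t → i ≠ j → q i ≠ q j :=
    fun i j a b c d e h => e (hq i j a b c d h)
  have hLfix : ∀ i, 1 ≤ i → ∀ g ∈ L i, ∀ j, i < j → j ≤ t → g (q j) = q j := by
    intro i hi g hg j h1 h2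
    have : L i ≤ MulAction.stabilizer (Equiv.Perm α) (q j) := (Subgroup.closure_le _).2 (by
      rintro g (hg | ⟨k, h3, h4, rfl⟩)
      · by_cases h : j = 2
        · subst h; exact hg.2
        · exact hfix g hg.1 j (by omega) h2
      · by_cases h : k = 1
        · subst h; exact hfix _ hs1 j (by omega) h2
        · exact (hsq k (by omega) (by omega)).2.2 j (by omega) h2 (by omega) (by omega))
    exact this hg
  have hswap : ∀ i, 1 ≤ i → i + 1 ≤ t → s i (q i) = q (i + 1) ∧ s i (q (i + 1)) = q i := by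
    intro i h1 h2
    by_cases h : i = 1
    · subst h; exact hs1q
    · exact ⟨(hsq i (by omega) h2).1, (hsq i (by omega) h2).2.1⟩
  have hA : ∀ i, 1 ≤ i → i ≤ t → ∀ x, (∀ j, i < j → j ≤ t → x ≠ q j) →
      ∃ g ∈ L i, g x = q i := by
    intro i hi
    induction i, hi using Nat.le_induction with
    | base =>
      intro _ x hx
      obtain ⟨g, hg, e1, e2⟩ := h2 x (q 2) (q 1) (q 2) (fun i h1 h2 =>
        ⟨hx i (by omega) h2, hqne _ _ (by omega) ht (by omega) h2 (by omega),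
          hqne _ _ le_rfl (by omega) (by omega) h2 (by omega),
          hqne _ _ (by omega) ht (by omega) h2 (by omega)⟩) (hx 2 (by omega) ht)
        (hqne _ _ le_rfl (by omega) (by omega) ht (by omega))
      exact ⟨g, hKL 1 ⟨hg, e2⟩, e1⟩
    | succ i hi ih =>
      intro hit x hx
      by_cases h : x = q (i + 1)
      · exact ⟨1, one_mem _, h⟩
      · obtain ⟨g, hg, e⟩ := ih (by omega) x fun j h1 h2 => by
          by_cases h3 : j = i + 1
          · rwa [h3]
          · exact hx j (by omega) h2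
        refine ⟨s i * g, mul_mem (hsL _ _ hi (by omega)) (hmono _ _ (by omega) hg), ?_⟩
        rw [Equiv.Perm.mul_apply, e, (hswap i hi hit).1]
  have hG2 : ∀ g ∈ G, g ∈ L 1 ∨ ∃ x ∈ L 1, ∃ y ∈ L 1, g = x * s 1 * y := by
    intro g hg
    rw [hL1]
    by_cases h : g (q 2) = q 2
    · exact Or.inl ⟨hg, h⟩
    right
    obtain ⟨k, hk, e⟩ := hA 1 le_rfl (by omega) (g (q 2)) fun j h1 h2 => by
      by_cases h3 : j = 2
      · rwa [h3]
      · rw [← hfix g hg j (by omega) h2]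
        exact g.injective.ne (hqne _ _ (by omega) ht (by omega) h2 (by omega))
    rw [hL1] at hk
    have h3 : s 1 * k * g ∈ K := ⟨mul_mem (mul_mem hs1 hk.1) hg, by
      change (s 1 * k * g) (q 2) = q 2
      rw [Equiv.Perm.mul_apply, Equiv.Perm.mul_apply, e, hs1q.1]⟩
    refine ⟨k⁻¹, inv_mem hk, (s 1 ^ 2)⁻¹ * (s 1 * k * g),
      mul_mem (inv_mem (hHK (hsq2 1 le_rfl ht))) h3, by group⟩
  have hL2 : L 2 = G := by
    apply le_antisymm
    · refine (Subgroup.closure_le _).2 ?_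
      rintro g (hg | ⟨k, h1, h2, rfl⟩)
      · exact hg.1
      · obtain rfl : k = 1 := by omega
        exact hs1
    · intro g hg
      rcases hG2 g hg with h | ⟨x, hx, y, hy, rfl⟩
      · exact hmono _ _ (by omega) h
      · exact mul_mem (mul_mem (hmono _ _ (by omega) hx) (hsL _ _ le_rfl (by omega)))
          (hmono _ _ (by omega) hy)
  have hD : ∀ i, 1 ≤ i → i + 1 ≤ t → ∀ g ∈ L (i + 1),
      g ∈ L i ∨ ∃ x ∈ L i, ∃ y ∈ L i, g = x * s i * y := by
    intro i hi
    induction i, hi using Nat.le_induction with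
    | base => intro _; rw [hL2]; exact hG2
    | succ i hi ih =>
      intro hit
      refine dc (L i) (L (i + 1)) (L (i + 1 + 1)) (s i) (s (i + 1)) (hmono _ _ (by omega))
        (hsL _ _ hi (by omega)) (ih (by omega)) ?_ (hKL _ (hHK (hsq2 _ (by omega) hit)))
        (hKL _ (hHK (hbraid i hi hit))) _ rfl ?_
      · have : L i ≤ (L i).comap (MulAut.conj (s (i + 1))).toMonoidHom := by
          refine (Subgroup.closure_le _).2 ?_
          rintro g (hg | ⟨k, h1, h2, rfl⟩)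
          · exact hKL _ (hnorm (i + 1) (by omega) hit g hg)
          · change s (i + 1) * s k * (s (i + 1))⁻¹ ∈ L i
            have e : s (i + 1) * s k * (s (i + 1))⁻¹ =
                (s (i + 1) * s k) ^ 2 * (s k)⁻¹ * (s (i + 1) ^ 2)⁻¹ := by
              simp only [pow_succ, pow_zero, one_mul]; group
            rw [e]
            exact mul_mem (mul_mem (hKL _ (hHK (hcomm k (i + 1) h1 (by omega) hit).2))
              (inv_mem (hsL _ _ h1 h2))) (inv_mem (hKL _ (hHK (hsq2 _ (by omega) hit))))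
        exact fun g hg => this hg
      · rintro g (hg | ⟨k, h1, h2, rfl⟩)
        · exact Or.inl (hKL _ hg)
        · by_cases h : k = i + 1
          · exact Or.inr (by rw [h])
          · exact Or.inl (hsL _ _ h1 (by omega))
  have hstab : ∀ i, 1 ≤ i → i + 1 ≤ t → ∀ g ∈ L (i + 1), g (q (i + 1)) = q (i + 1) →
      g ∈ L i := by
    intro i hi hit g hg e
    rcases hD i hi hit g hg with h | ⟨x, hx, y, hy, rfl⟩
    · exact h
    · exfalso
      rw [Equiv.Perm.mul_apply, Equiv.Perm.mul_apply, hLfix i hi y hy _ (by omega) hit,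
        (hswap i hi hit).2, ← hLfix i hi x hx (i + 1) (by omega) hit] at e
      exact hqne _ _ hi (by omega) (by omega) hit (by omega) (x.injective e)
  have hLt : Subgroup.closure ((G : Set (Equiv.Perm α)) ∪
      {x | ∃ i : ℕ, 2 ≤ i ∧ i + 1 ≤ t ∧ x = s i}) = L t := by
    apply le_antisymm
    · refine (Subgroup.closure_le _).2 ?_
      rintro g (hg | ⟨k, h1, h2, rfl⟩)
      · exact hmono 2 t ht (hL2 ▸ hg)
      · exact hsL _ _ (by omega) (by omega)
    · refine (Subgroup.closure_le _).2 ?_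
      rintro g (hg | ⟨k, h1, h2, rfl⟩)
      · exact Subgroup.subset_closure (Or.inl hg.1)
      · by_cases h : k = 1
        · subst h; exact Subgroup.subset_closure (Or.inl hs1)
        · exact Subgroup.subset_closure (Or.inr ⟨k, by omega, by omega, rfl⟩)
  have hT : ∀ i, 1 ≤ i → i ≤ t → ∀ x : ℕ → α,
      (∀ a b, 1 ≤ a → a ≤ i → 1 ≤ b → b ≤ i → x a = x b → a = b) →
      (∀ a j, 1 ≤ a → a ≤ i → i < j → j ≤ t → x a ≠ q j) →
      ∃ g ∈ L i, ∀ a, 1 ≤ a → a ≤ i → g (x a) = q a := by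
    intro i hi
    induction i, hi using Nat.le_induction with
    | base =>
      intro h x _ hx
      obtain ⟨g, hg, e⟩ := hA 1 le_rfl h (x 1) fun j => hx 1 j le_rfl le_rfl
      refine ⟨g, hg, fun a h1 h2 => ?_⟩
      obtain rfl : a = 1 := by omega
      exact e
    | succ i hi ih =>
      intro hit x hinj hx
      obtain ⟨g, hg, e⟩ := hA (i + 1) (by omega) hit (x (i + 1))
        fun j => hx (i + 1) j (by omega) le_rfl
      obtain ⟨g', hg', e'⟩ := ih (by omega) (fun a => g (x a))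
        (fun a b h1 h2 h3 h4 h => hinj a b h1 (by omega) h3 (by omega) (g.injective h))
        (fun a j h1 h2 h3 h4 h => by
          by_cases h5 : j = i + 1
          · rw [h5, ← e] at h
            have := hinj a (i + 1) h1 (by omega) (by omega) le_rfl (g.injective h)
            omega
          · rw [← hLfix (i + 1) (by omega) g hg j (by omega) h4] at h
            exact hx a j h1 (by omega) (by omega) h4 (g.injective h))
      refine ⟨g' * g, mul_mem (hmono _ _ (by omega) hg') hg, fun a h1 h2 => ?_⟩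
      rw [Equiv.Perm.mul_apply]
      by_cases h : a = i + 1
      · rw [h, e, hLfix i hi g' hg' _ (by omega) hit]
      · exact e' a h1 (by omega)
  rw [hLt]
  constructor
  · have key : ∀ x : Fin t ↪ α, ∃ g ∈ L t, ∀ a : Fin t, g (x a) = q (a + 1) := by
      intro x
      obtain ⟨g, hg, e⟩ := hT t (by omega) le_rfl
        (fun a => if h : a - 1 < t then x ⟨a - 1, h⟩ else q 1)
        (fun a b h1 h2 h3 h4 h => by
          rw [dif_pos (by omega), dif_pos (by omega)] at h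
          have := congrArg Fin.val (x.injective h)
          simp only at this
          omega)
        (fun a j _ _ h3 h4 => by omega)
      refine ⟨g, hg, fun a => ?_⟩
      have := e (a + 1) (by omega) a.2
      rw [dif_pos (by simp)] at this
      exact this
    refine ⟨fun x y => ?_⟩
    obtain ⟨g, hg, e⟩ := key x
    obtain ⟨g', hg', e'⟩ := key y
    refine ⟨⟨g'⁻¹ * g, mul_mem (inv_mem hg') hg⟩, Function.Embedding.ext fun a => ?_⟩
    change (g'⁻¹ * g) (x a) = y a
    rw [Equiv.Perm.mul_apply, e, ← e']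
    simp
  · apply le_antisymm
    · intro g hg
      have hf : ∀ i, 1 ≤ i → i ≤ t → g (q i) = q i := fun i h1 h2 =>
        (mem_fixingSubgroup_iff _).1 hg.2 _ ⟨i, h1, h2, rfl⟩
      have : ∀ i, 1 ≤ i → i ≤ t → g ∈ L i → g ∈ L 1 := by
        intro i hi
        induction i, hi using Nat.le_induction with
        | base => exact fun _ h => h
        | succ i hi ih =>
          exact fun hit h => ih (by omega) (hstab i hi hit g h (hf _ (by omega) hit))
      have h1 := this t (by omega) le_rfl hg.1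
      rw [hL1] at h1
      rw [hH]
      exact ⟨⟨h1.1, hf 1 le_rfl (by omega)⟩, h1.2⟩
    · intro g hg
      refine ⟨hKL _ (hHK hg), (mem_fixingSubgroup_iff _).2 ?_⟩
      rintro _ ⟨i, h1, h2, rfl⟩
      by_cases h : i = 1
      · subst h; rw [hH] at hg; exact hg.1.2
      · exact hLfix 1 le_rfl g (hKL _ (hHK hg)) i (by omega) h2

end Cfsg.Agent.S0709
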