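import Cfsg.Statements.S0712
---PRE---
open MulAction SubMulAction

/-- An `m`-transitive action in which the pointwise stabiliser of an `m`-set is `k`-transitive on
the other points is `(m + k)`-transitive. -/
theorem isMultiplyPretransitive_add {G α : Type*} [Group G] [MulAction G α] {m k : ℕ}
    (hm : IsMultiplyPretransitive G α m) (s : Set α) [Finite s] (hs : s.ncard = m)
    (hk : IsMultiplyPretransitive (fixingSubgroup G s) (ofFixingSubgroup G s) k) :
    IsMultiplyPretransitive G α (m + k) := by
  obtain ⟨e⟩ : Nonempty (Fin m ≃ s) := Finite.card_eq.mp (by simp [Nat.card_coe_set_eq, hs])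
  let e' : Fin m ↪ α := e.toEmbedding.trans (Function.Embedding.subtype _)
  have key : ∀ x : Fin (m + k) ↪ α, ∃ (g : G) (x' : Fin k ↪ ofFixingSubgroup G s),
      (∀ i, g • x (Fin.castAdd k i) = e i) ∧ ∀ j, g • x (Fin.natAdd m j) = x' j := by
    intro x
    obtain ⟨g, hg⟩ := hm.exists_smul_eq ((Fin.castAddEmb k).trans x) e'
    have hg' : ∀ i, g • x (Fin.castAdd k i) = e i := fun i => DFunLike.congr_fun hg i
    have hmem : ∀ j, g • x (Fin.natAdd m j) ∈ ofFixingSubgroup G s := by
      intro j
      rw [mem_ofFixingSubgroup_iff]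
      intro hj
      obtain ⟨i, hi⟩ := e.surjective ⟨_, hj⟩
      have h1 := hg' i
      rw [hi] at h1
      have h2 := x.injective (smul_left_cancel g h1)
      have h3 := congrArg Fin.val h2
      simp only [Fin.val_castAdd, Fin.val_natAdd] at h3
      omega
    refine ⟨g, ⟨fun j => ⟨_, hmem j⟩, fun j j' h => ?_⟩, hg', fun j => rfl⟩
    have h1 : g • x (Fin.natAdd m j) = g • x (Fin.natAdd m j') := congrArg Subtype.val h
    have h2 := x.injective (smul_left_cancel g h1)
    have h3 := congrArg Fin.val h2
    simp only [Fin.val_natAdd] at h3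
    exact Fin.ext (by omega)
  refine ⟨fun x y => ?_⟩
  obtain ⟨g, x', hg1, hg2⟩ := key x
  obtain ⟨h, y', hh1, hh2⟩ := key y
  obtain ⟨f, hf⟩ := hk.exists_smul_eq x' y'
  refine ⟨h⁻¹ * f * g, ?_⟩
  ext i
  rw [Function.Embedding.smul_apply, mul_smul, mul_smul, inv_smul_eq_iff]
  induction i using Fin.addCases with
  | left i =>
    rw [hg1, hh1]
    exact (mem_fixingSubgroup_iff G).1 f.2 _ (e i).2
  | right j =>
    rw [hg2, hh2, ← hf]
    rfl

set_option autoImplicit false
open Cfsg

namespace Cfsg.Agent.S0712

open MulAction SubMulAction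

/-- An `m`-transitive action in which the pointwise stabiliser of an `m`-set is `k`-transitive on
the other points is `(m + k)`-transitive. -/
theorem isMultiplyPretransitive_add {G α : Type*} [Group G] [MulAction G α] {m k : ℕ}
    (hm : IsMultiplyPretransitive G α m) (s : Set α) [Finite s] (hs : s.ncard = m)
    (hk : IsMultiplyPretransitive (fixingSubgroup G s) (ofFixingSubgroup G s) k) :
    IsMultiplyPretransitive G α (m + k) := by
  obtain ⟨e⟩ : Nonempty (Fin m ≃ s) := Finite.card_eq.mp (by simp [Nat.card_coe_set_eq, hs])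
  let e' : Fin m ↪ α := e.toEmbedding.trans (Function.Embedding.subtype _)
  have key : ∀ x : Fin (m + k) ↪ α, ∃ (g : G) (x' : Fin k ↪ ofFixingSubgroup G s),
      (∀ i, g • x (Fin.castAdd k i) = e i) ∧ ∀ j, g • x (Fin.natAdd m j) = x' j := by
    intro x
    obtain ⟨g, hg⟩ := hm.exists_smul_eq ((Fin.castAddEmb k).trans x) e'
    have hg' : ∀ i, g • x (Fin.castAdd k i) = e i := fun i => DFunLike.congr_fun hg i
    have hmem : ∀ j, g • x (Fin.natAdd m j) ∈ ofFixingSubgroup G s := by
      intro j
      rw [mem_ofFixingSubgroup_iff]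
      intro hj
      obtain ⟨i, hi⟩ := e.surjective ⟨_, hj⟩
      have h1 := hg' i
      rw [hi] at h1
      have h2 := x.injective (smul_left_cancel g h1)
      have h3 := congrArg Fin.val h2
      simp only [Fin.val_castAdd, Fin.val_natAdd] at h3
      omega
    refine ⟨g, ⟨fun j => ⟨_, hmem j⟩, fun j j' h => ?_⟩, hg', fun j => rfl⟩
    have h1 : g • x (Fin.natAdd m j) = g • x (Fin.natAdd m j') := congrArg Subtype.val h
    have h2 := x.injective (smul_left_cancel g h1)
    have h3 := congrArg Fin.val h2
    simp only [Fin.val_natAdd] at h3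
    exact Fin.ext (by omega)
  refine ⟨fun x y => ?_⟩
  obtain ⟨g, x', hg1, hg2⟩ := key x
  obtain ⟨h, y', hh1, hh2⟩ := key y
  obtain ⟨f, hf⟩ := hk.exists_smul_eq x' y'
  refine ⟨h⁻¹ * f * g, ?_⟩
  ext i
  rw [Function.Embedding.smul_apply, mul_smul, mul_smul, inv_smul_eq_iff]
  induction i using Fin.addCases with
  | left i =>
    rw [hg1, hh1]
    exact (mem_fixingSubgroup_iff G).1 f.2 _ (e i).2
  | right j =>
    rw [hg2, hh2, ← hf]
    rfl

/-- Jordan: a primitive group in which the pointwise stabiliser of a set `s` is doubly transitive on the complement of `s` (which has at least 2 points) is `(|s| + 2)`-transitive. -/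
theorem result {α : Type*} [Fintype α] [DecidableEq α] (G : Subgroup (Equiv.Perm α)) (hG : MulAction.IsPreprimitive G α) (s : Set α) {m : ℕ} (hsm : s.ncard = m) (hm : m + 2 ≤ Fintype.card α) (h2 : MulAction.IsMultiplyPretransitive (fixingSubgroup G s) (SubMulAction.ofFixingSubgroup G s) 2) : MulAction.IsMultiplyPretransitive G α (m + 2) := by
  refine isMultiplyPretransitive_add ?_ s hsm h2
  rcases m with _ | n
  · exact is_zero_pretransitive'
  · have h := hG.isMultiplyPreprimitive hsm (by rw [Nat.card_eq_fintype_card]; omega)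
      (isPreprimitive_of_is_two_pretransitive h2)
    exact isMultiplyPretransitive_of_le (n := n + 2) (by omega)
      (by rw [Nat.card_eq_fintype_card]; omega)

end Cfsg.Agent.S0712
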