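import Cfsg.Statements.S0714
import Cfsg.Agent.PERM.PermMod2

set_option autoImplicit false
open Cfsg

namespace Cfsg.Agent.S0714

open CL.PermMod in
theorem aux {α : Type*} [Fintype α] [DecidableEq α] (hα : 5 ≤ Fintype.card α) {K : Type*}
    [Field K] (W : Submodule K (α → K)) (hW : Inv (alternatingGroup α) W)
    (h : ¬ W ≤ const K α) : sum0 K α ≤ W := by
  obtain ⟨f, hf, hfc⟩ := SetLike.not_le_iff_exists.1 h
  obtain ⟨a, b, hab⟩ : ∃ a b, f a ≠ f b := by
    by_contra hc
    push Not at hc
    obtain ⟨a⟩ : Nonempty α := Fintype.card_pos_iff.1 (by omega)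
    exact hfc (mem_const.2 ⟨f a, funext fun x => hc x a⟩)
  have hab' : a ≠ b := fun h => hab (h ▸ rfl)
  have hex : ∀ s : Finset α, s.card < 5 → ∃ x, x ∉ s := fun s hs => by
    by_contra hc
    push Not at hc
    have := Finset.card_le_card (fun x _ => hc x : Finset.univ ⊆ s)
    rw [Finset.card_univ] at this
    omega
  obtain ⟨c, hc⟩ := hex {a, b} (Finset.card_le_two.trans_lt (by norm_num))
  obtain ⟨d, hd⟩ := hex {a, b, c} (Finset.card_le_three.trans_lt (by norm_num))
  obtain ⟨e, he⟩ := hex {a, b, c, d} (Finset.card_le_four.trans_lt (by norm_num))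
  simp only [Finset.mem_insert, Finset.mem_singleton, not_or] at hc hd he
  have h3 : ∀ x y z : α, x ≠ y → x ≠ z → Equiv.swap x y * Equiv.swap x z ∈ alternatingGroup α := by
    intro x y z h1 h2
    simp [Equiv.Perm.mem_alternatingGroup, Equiv.Perm.sign_swap h1, Equiv.Perm.sign_swap h2]
  have hg := W.sub_mem (hW ⟨_, h3 a c b (Ne.symm hc.1) hab'⟩ f hf) hf
  have hk := W.sub_mem (hW ⟨_, h3 a d e (Ne.symm hd.1) (Ne.symm he.1)⟩ _ hg) hg
  have hda : (Pi.single d 1 - Pi.single a 1 : α → K) ∈ W := by
    have := W.smul_mem (f b - f a)⁻¹ hk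
    convert this using 1
    have h0 : f b - f a ≠ 0 := sub_ne_zero.2 hab.symm
    ext x
    simp only [Pi.sub_apply, Pi.smul_apply, smul_eq_mul, Subgroup.mk_smul, Equiv.Perm.smul_def,
      Equiv.Perm.mul_apply, Pi.single_apply, Equiv.swap_apply_def]
    rw [eq_comm, inv_mul_eq_iff_eq_mul₀ h0]
    by_cases h1 : x = a
    · subst h1
      grind
    by_cases h2 : x = d
    · subst h2
      grind
    by_cases h2 : x = e
    · subst h2
      grind
    · grind
  have h2 : MulAction.IsMultiplyPretransitive (alternatingGroup α) α 2 := by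
    have := alternatingGroup.isMultiplyPretransitive α
    refine MulAction.isMultiplyPretransitive_of_le (n := Nat.card α - 2) ?_ (by omega)
    rw [Nat.card_eq_fintype_card]
    omega
  have hall : ∀ y, (Pi.single y 1 - Pi.single a 1 : α → K) ∈ W := by
    intro y
    by_cases hy : y = a
    · simp [hy]
    obtain ⟨g, hg1, hg2⟩ := MulAction.is_two_pretransitive_iff.1 h2 hy hd.1
    convert hW g _ hda using 1
    ext x
    simp only [Pi.sub_apply, Pi.single_apply]
    rw [← hg1]
    conv_rhs => rw [← hg2]
    simp
  intro v hv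
  rw [mem_sum0] at hv
  have : v = ∑ y, v y • (Pi.single y 1 - Pi.single a 1 : α → K) := by
    simp only [smul_sub, Finset.sum_sub_distrib, ← Finset.sum_smul, hv, zero_smul, sub_zero]
    exact pi_eq_sum_univ' v
  rw [this]
  exact W.sum_mem fun y _ => W.smul_mem _ (hall y)

/-- Over any field, the permutation module of the alternating group of degree at least 5 has exactly four invariant subspaces: zero, the constant functions, the functions with coordinate sum zero, and everything. -/
theorem result {α : Type*} [Fintype α] [DecidableEq α] (hα : 5 ≤ Fintype.card α) {K : Type*} [Field K] (W : Subrepresentation (Cfsg.permRep K (alternatingGroup α) α)) : W.toSubmodule = ⊥ ∨ W = Cfsg.permConstants K (alternatingGroup α) α ∨ W = Cfsg.permSumZero K (alternatingGroup α) α ∨ W.toSubmodule = ⊤ := by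
  have : Nonempty α := Fintype.card_pos_iff.1 (by omega)
  by_cases h : W.toSubmodule ≤ CL.PermMod.const K α
  · by_cases h0 : W.toSubmodule = ⊥
    · exact Or.inl h0
    · refine Or.inr (Or.inl (Subrepresentation.toSubmodule_injective ?_))
      refine Submodule.eq_of_le_of_finrank_le h ?_
      rw [CL.PermMod.permConstants_eq, CL.PermMod.finrank_const]
      exact Submodule.one_le_finrank_iff.2 h0
  · have h1 := aux hα _ (CL.PermMod.inv_subrep W) h
    by_cases h0 : W.toSubmodule = ⊤
    · exact Or.inr (Or.inr (Or.inr h0))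
    · refine Or.inr (Or.inr (Or.inl (Subrepresentation.toSubmodule_injective ?_)))
      refine (Submodule.eq_of_le_of_finrank_le h1 ?_).symm
      have := Submodule.finrank_lt h0
      rw [CL.PermMod.finrank_sum0]
      simp only [Module.finrank_pi] at this
      omega

end Cfsg.Agent.S0714
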