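import Cfsg.Statements.S0724
import Mathlib.GroupTheory.GroupAction.Quotient
import Mathlib.Data.Fintype.Perm
import Mathlib.Algebra.Polynomial.Eval.Degree
import Mathlib.Algebra.Polynomial.Inductions
import Mathlib.Algebra.Polynomial.BigOperators

set_option autoImplicit false
open Cfsg

namespace Cfsg.Agent.S0724

open MulAction

/-- The sum over a finite group of the `k`-th powers of the fixed-point numbers is divisible by the
group order. -/
theorem card_dvd_sum_pow {G α : Type*} [Group G] [Fintype G] [MulAction G α] [Finite α] (k : ℕ) :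
    Nat.card G ∣ ∑ g : G, Nat.card (fixedBy α g) ^ k := by
  classical
  have := Fintype.ofFinite α
  have h := sum_card_fixedBy_eq_card_orbits_mul_card_group G (Fin k → α)
  have h2 : ∀ g : G, Fintype.card (fixedBy (Fin k → α) g) = Nat.card (fixedBy α g) ^ k := by
    intro g
    have e : fixedBy (Fin k → α) g ≃ (Fin k → fixedBy α g) :=
      { toFun := fun f i => ⟨f.1 i, congrFun f.2 i⟩
        invFun := fun f => ⟨fun i => f i, funext fun i => (f i).2⟩
        left_inv := fun f => rfl
        right_inv := fun f => rfl }
    rw [← Nat.card_eq_fintype_card, Nat.card_congr e, Nat.card_fun, Nat.card_eq_fintype_card (α := Fin k),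
      Fintype.card_fin]
  simp only [h2] at h
  rw [h, Nat.card_eq_fintype_card]
  exact Dvd.intro_left _ rfl

theorem card_dvd_sum_eval {G α : Type*} [Group G] [Fintype G] [MulAction G α] [Finite α]
    (f : Polynomial ℤ) :
    (Nat.card G : ℤ) ∣ ∑ g : G, f.eval (Nat.card (fixedBy α g) : ℤ) := by
  induction f using Polynomial.induction_on' with
  | add p q hp hq =>
    simp only [Polynomial.eval_add, Finset.sum_add_distrib]
    exact dvd_add hp hq
  | monomial n a =>
    simp only [Polynomial.eval_monomial, ← Finset.mul_sum]
    apply Dvd.dvd.mul_left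
    exact_mod_cast card_dvd_sum_pow (G := G) (α := α) n

/-- Blichfeldt's Theorem: if a finite set `L` of natural numbers contains the number of fixed points of every non-identity element of a permutation group `G` of degree `n`, then the order of `G` divides `∏ (n - l)` over `l ∈ L`. -/
theorem result {α : Type*} [Fintype α] [DecidableEq α] (G : Subgroup (Equiv.Perm α)) (L : Finset ℕ) (hL : ∀ g ∈ G, g ≠ 1 → Nat.card (MulAction.fixedBy α g) ∈ L) : Nat.card G ∣ ∏ l ∈ L, (Fintype.card α - l) := by
  classical
  by_cases hl : ∃ l ∈ L, Fintype.card α ≤ l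
  · obtain ⟨l, hl, hl'⟩ := hl
    rw [Finset.prod_eq_zero hl (Nat.sub_eq_zero_of_le hl')]
    exact dvd_zero _
  push Not at hl
  have := Fintype.ofFinite G
  have h := card_dvd_sum_eval (G := G) (α := α) (∏ l ∈ L, (Polynomial.X - Polynomial.C (l : ℤ)))
  rw [Finset.sum_eq_single (1 : G)] at h
  · rw [← Int.natCast_dvd_natCast]
    convert h using 1
    rw [Polynomial.eval_prod, Nat.cast_prod]
    refine Finset.prod_congr rfl fun l hl' => ?_
    rw [Nat.cast_sub (hl l hl').le, fixedBy_one_eq_univ, Nat.card_univ, Nat.card_eq_fintype_card]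
    simp
  · intro g _ hg
    rw [Polynomial.eval_prod]
    refine Finset.prod_eq_zero (hL g.1 g.2 (fun h => hg (Subtype.ext h))) ?_
    simp only [Polynomial.eval_sub, Polynomial.eval_X, Polynomial.eval_C]
    exact sub_self _
  · intro h
    exact absurd (Finset.mem_univ _) h

end Cfsg.Agent.S0724
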