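import Cfsg.Statements.S0726
---PRE---
open MulAction

theorem centralizer_eq {G : Type*} [Group G] :
    Subgroup.centralizer ((MulAction.toPermHom G G).range : Set (Equiv.Perm G)) =
      (MulAction.toPermHom Gᵐᵒᵖ G).range := by
  ext c
  rw [Subgroup.mem_centralizer_iff]
  constructor
  · intro h
    refine ⟨MulOpposite.op (c 1), ?_⟩
    ext x
    have := congrArg (fun σ : Equiv.Perm G => σ 1) (h _ ⟨x, rfl⟩)
    simpa using this
  · rintro ⟨g, rfl⟩ _ ⟨k, rfl⟩
    ext x
    simp [mul_assoc]

set_option autoImplicit false
open Cfsg

namespace Cfsg.Agent.S0726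

open MulAction

theorem centralizer_eq {G : Type*} [Group G] :
    Subgroup.centralizer ((MulAction.toPermHom G G).range : Set (Equiv.Perm G)) =
      (MulAction.toPermHom Gᵐᵒᵖ G).range := by
  ext c
  rw [Subgroup.mem_centralizer_iff]
  constructor
  · intro h
    refine ⟨MulOpposite.op (c 1), ?_⟩
    ext x
    have := congrArg (fun σ : Equiv.Perm G => σ 1) (h _ ⟨x, rfl⟩)
    simpa using this
  · rintro ⟨g, rfl⟩ _ ⟨k, rfl⟩
    ext x
    simp [mul_assoc]

/-- The left and right regular permutation representations of a group are each other's centralisers in the symmetric group: the centraliser of the left regular image is the right regular image, and a transitive subgroup centralising the left regular image is the whole right regular image. -/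
theorem result {G : Type*} [Group G] : Subgroup.centralizer ((MulAction.toPermHom G G).range : Set (Equiv.Perm G)) = (MulAction.toPermHom Gᵐᵒᵖ G).range ∧ ∀ H : Subgroup (Equiv.Perm G), H ≤ Subgroup.centralizer ((MulAction.toPermHom G G).range : Set (Equiv.Perm G)) → MulAction.IsPretransitive H G → H = (MulAction.toPermHom Gᵐᵒᵖ G).range := by
  refine ⟨centralizer_eq, fun H hH htr => ?_⟩
  rw [centralizer_eq] at hH
  refine le_antisymm hH ?_
  rintro _ ⟨g, rfl⟩
  obtain ⟨h, hh⟩ := htr.exists_smul_eq 1 g.unop
  obtain ⟨k, hk⟩ := hH h.2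
  have h1 : h.1 1 = g.unop := hh
  rw [← hk] at h1
  have h2 : k = g := by
    apply MulOpposite.unop_injective
    simpa using h1
  rw [← h2, hk]
  exact h.2

end Cfsg.Agent.S0726
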