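import Cfsg.Statements.S0728
import Mathlib.GroupTheory.SpecificGroups.Cyclic

set_option autoImplicit false
open Cfsg

namespace Cfsg.Agent.S0728

/-- The embedding `Fin 3 ↪ α` given by three distinct points. -/
def emb3 {α : Type*} {a b c : α} (hab : a ≠ b) (hac : a ≠ c) (hbc : b ≠ c) : Fin 3 ↪ α :=
  ⟨![a, b, c], by
    intro i j h
    fin_cases i <;> fin_cases j <;> simp_all [eq_comm]⟩

/-- In a sharply triply transitive group of even degree at least 6 (degree `q + 1`, `q` odd), a two-point stabiliser has at most one subgroup of order 3. -/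
theorem result {α : Type*} [Fintype α] [DecidableEq α] (heven : Even (Fintype.card α)) (h6 : 6 ≤ Fintype.card α) (G : Subgroup (Equiv.Perm α)) (h3 : MulAction.IsMultiplyPretransitive G α 3) (hsharp : ∀ x : Fin 3 ↪ α, MulAction.stabilizer G x = ⊥) {a b : α} (hab : a ≠ b) (A B : Subgroup G) (hA : A ≤ MulAction.stabilizer G a ⊓ MulAction.stabilizer G b) (hB : B ≤ MulAction.stabilizer G a ⊓ MulAction.stabilizer G b) (hA3 : Nat.card A = 3) (hB3 : Nat.card B = 3) : A = B := by
  have sharp : ∀ (g : G) {x y z : α}, x ≠ y → x ≠ z → y ≠ z → g • x = x → g • y = y → g • z = z →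
      g = 1 := by
    intro g x y z hxy hxz hyz hx hy hz
    have : g ∈ MulAction.stabilizer G (emb3 hxy hxz hyz) := by
      rw [MulAction.mem_stabilizer_iff]
      ext i
      fin_cases i
      · exact hx
      · exact hy
      · exact hz
    rwa [hsharp, Subgroup.mem_bot] at this
  have sharp' : ∀ (g h : G) {x y z : α}, x ≠ y → x ≠ z → y ≠ z → g • x = h • x → g • y = h • y →
      g • z = h • z → g = h := by
    intro g h x y z hxy hxz hyz hx hy hz
    have := sharp (h⁻¹ * g) hxy hxz hyz (by rw [mul_smul, hx, inv_smul_smul])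
      (by rw [mul_smul, hy, inv_smul_smul]) (by rw [mul_smul, hz, inv_smul_smul])
    rw [inv_mul_eq_one] at this
    exact this.symm
  have trans : ∀ {x y z x' y' z' : α}, x ≠ y → x ≠ z → y ≠ z → x' ≠ y' → x' ≠ z' → y' ≠ z' →
      ∃ g : G, g • x = x' ∧ g • y = y' ∧ g • z = z' := by
    intro x y z x' y' z' h1 h2 h3' h4 h5 h6'
    obtain ⟨g, hg⟩ := h3.exists_smul_eq (emb3 h1 h2 h3') (emb3 h4 h5 h6')
    exact ⟨g, DFunLike.congr_fun hg 0, DFunLike.congr_fun hg 1, DFunLike.congr_fun hg 2⟩
  obtain ⟨c, hc⟩ : ∃ c : α, c ∉ ({a, b} : Finset α) := by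
    apply Finset.exists_mem_notMem_of_card_lt_card (s := {a, b}) (t := Finset.univ) ?_ |>.imp
      fun c hc => hc.2
    rw [Finset.card_pair hab, Finset.card_univ]
    omega
  simp only [Finset.mem_insert, Finset.mem_singleton, not_or] at hc
  obtain ⟨hca, hcb⟩ := hc
  obtain ⟨s, hsa, hsb, hsc⟩ := trans hab (Ne.symm hca) (Ne.symm hcb) hab.symm (Ne.symm hcb)
    (Ne.symm hca)
  -- the three points of the cycle of an element of order three through `c`
  have cyc : ∀ x : G, x ≠ 1 → x ^ 3 = 1 → x • a = a → x • b = b →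
      c ≠ x • c ∧ c ≠ x • x • c ∧ x • c ≠ x • x • c ∧ x • x • x • c = c := by
    intro x hx1 hx3 hxa hxb
    have h1 : c ≠ x • c := fun h =>
      hx1 (sharp x hab (Ne.symm hca) (Ne.symm hcb) hxa hxb h.symm)
    have h4 : x • x • x • c = c := by
      rw [← mul_smul, ← mul_smul, ← pow_three', hx3, one_smul]
    refine ⟨h1, fun h => h1 ?_, fun h => h1 (MulAction.injective x h), h4⟩
    rw [← h] at h4
    exact h4.symm
  have key : ∀ x y : G, x ≠ 1 → x ^ 3 = 1 → x • a = a → x • b = b →
      y ≠ 1 → y ^ 3 = 1 → y • a = a → y • b = b → y = x ∨ y = s * x * s⁻¹ := by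
    intro x y hx1 hx3 hxa hxb hy1 hy3 hya hyb
    obtain ⟨x1, x2, x3, x4⟩ := cyc x hx1 hx3 hxa hxb
    obtain ⟨y1, y2, y3, y4⟩ := cyc y hy1 hy3 hya hyb
    obtain ⟨h, h1, h2, h3⟩ := trans x1 x2 x3 y1 y2 y3
    have hy : y = h * x * h⁻¹ := by
      apply sharp' _ _ y1 y2 y3
      · rw [mul_smul, mul_smul, ← h2]
        congr 2
        rw [eq_inv_smul_iff, h1]
      · rw [mul_smul, mul_smul, ← h2, inv_smul_smul, h3, h2]
      · rw [mul_smul, mul_smul, y4, ← h3, inv_smul_smul, x4, h1]
    have fixy : ∀ z, x • z = z → h • z = a ∨ h • z = b := by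
      intro z hz
      by_contra hcon
      push Not at hcon
      apply hy1
      apply sharp y hab hcon.1.symm hcon.2.symm hya hyb
      rw [hy, mul_smul, mul_smul, inv_smul_smul, hz]
    have hne : h • a ≠ h • b := fun e => hab (MulAction.injective h e)
    rcases fixy a hxa with ha | ha <;> rcases fixy b hxb with hb | hb
    · exact absurd (ha.trans hb.symm) hne
    · left
      rw [hy, sharp h hab (Ne.symm hca) (Ne.symm hcb) ha hb h1]
      simp
    · right
      rw [hy, sharp' h s hab (Ne.symm hca) (Ne.symm hcb) (ha.trans hsa.symm) (hb.trans hsb.symm)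
        (h1.trans hsc.symm)]
    · exact absurd (ha.trans hb.symm) hne
  have hnt : Nontrivial A := Finite.one_lt_card_iff_nontrivial.mp (by omega)
  obtain ⟨⟨x, hxA⟩, hx1⟩ := exists_ne (1 : A)
  have hx1' : x ≠ 1 := fun h => hx1 (Subtype.ext h)
  have hx3 : x ^ 3 = 1 := by
    have := pow_card_eq_one' (x := (⟨x, hxA⟩ : A))
    rw [hA3] at this
    exact congrArg Subtype.val this
  have hxa : x • a = a := (hA hxA).1
  have hxb : x • b = b := (hA hxA).2
  have hinv : x⁻¹ = s * x * s⁻¹ := by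
    rcases key x x⁻¹ hx1' hx3 hxa hxb (by simpa using hx1') (by simp [hx3])
      (hA (A.inv_mem hxA)).1 (hA (A.inv_mem hxA)).2 with h | h
    · exfalso
      apply hx1'
      have h2 : x * x = 1 := by
        nth_rewrite 1 [← h]
        simp
      rwa [pow_three', h2, one_mul] at hx3
    · exact h
  symm
  apply Subgroup.eq_of_le_of_card_ge _ (by omega)
  intro y hyB
  by_cases hy1 : y = 1
  · exact hy1 ▸ A.one_mem
  have hy3 : y ^ 3 = 1 := by
    have := pow_card_eq_one' (x := (⟨y, hyB⟩ : B))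
    rw [hB3] at this
    exact congrArg Subtype.val this
  rcases key x y hx1' hx3 hxa hxb hy1 hy3 (hB hyB).1 (hB hyB).2 with h | h
  · exact h ▸ hxA
  · rw [h, ← hinv]
    exact A.inv_mem hxA

end Cfsg.Agent.S0728
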