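import Cfsg.Statements.S0733
import Mathlib.Algebra.Module.ZMod
import Mathlib.Algebra.Group.Action.Pointwise.Set.Finite
import Mathlib.Data.Set.Card.Arithmetic
import Mathlib.Algebra.Group.Pointwise.Set.Card

set_option autoImplicit false
open Cfsg

namespace Cfsg.Agent.S0733

open scoped Pointwise

/-- A permutation group of affine type — generated by the translations of a finite vector space `V` over `ZMod p` together with a group `G₀` of linear automorphisms — is primitive on `V` if and only if `G₀` is irreducible on `V`. -/
theorem result {p : ℕ} [Fact p.Prime] {V : Type*} [AddCommGroup V] [Module (ZMod p) V] [Finite V] [Nontrivial V] (G₀ : Subgroup (V ≃ₗ[ZMod p] V)) (G : Subgroup (Equiv.Perm V)) (hG : ∀ σ : Equiv.Perm V, σ ∈ G ↔ ∃ g ∈ G₀, ∃ b : V, ∀ x : V, σ x = (g : V ≃ₗ[ZMod p] V) x + b) : MulAction.IsPreprimitive G V ↔ ∀ W : Submodule (ZMod p) V, (∀ g ∈ G₀, ∀ v ∈ W, (g : V ≃ₗ[ZMod p] V) v ∈ W) → W = ⊥ ∨ W = ⊤ := by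
  constructor
  · intro hprim W hW
    have hB : MulAction.IsBlock G (W : Set V) := by
      rw [MulAction.isBlock_iff_smul_eq_of_mem]
      intro σ x hx hσx
      obtain ⟨g, hg, b, hb⟩ := (hG σ).mp σ.2
      have hσ : ∀ y, σ • y = g y + b := hb
      rw [hσ] at hσx
      have hbW : b ∈ W := by
        have := W.sub_mem hσx (hW g hg x hx)
        simpa using this
      apply Set.eq_of_subset_of_ncard_le
      · rintro _ ⟨y, hy, rfl⟩
        change σ • y ∈ W
        rw [hσ]
        exact W.add_mem (hW g hg y hy) hbW
      · rw [Set.ncard_smul_set]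
      · exact Set.toFinite _
    rcases hprim.isTrivialBlock_of_isBlock hB with h | h
    · left
      rw [eq_bot_iff]
      intro x hx
      exact h hx W.zero_mem
    · right
      rw [eq_top_iff]
      intro x _
      rw [← SetLike.mem_coe, h]
      trivial
  · intro hirr
    have htr : ∀ b : V, Equiv.addRight b ∈ G := fun b =>
      (hG _).mpr ⟨1, G₀.one_mem, b, fun x => rfl⟩
    have : MulAction.IsPretransitive G V :=
      ⟨fun x y => ⟨⟨Equiv.addRight (y - x), htr _⟩, by
        change x + (y - x) = y
        abel⟩⟩
    apply MulAction.IsPreprimitive.of_isTrivialBlock_base (0 : V)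
    intro B h0 hB
    rw [MulAction.isBlock_iff_smul_eq_of_mem] at hB
    have hadd : ∀ a ∈ B, (⟨Equiv.addRight a, htr a⟩ : G) • B = B := fun a ha =>
      hB h0 (by
        change 0 + a ∈ B
        simpa using ha)
    let A : AddSubgroup V :=
      { carrier := B
        zero_mem' := h0
        add_mem' := by
          intro a b ha hb
          rw [← hadd b hb]
          exact ⟨a, ha, rfl⟩
        neg_mem' := by
          intro a ha
          have h1 := h0
          rw [← hadd a ha] at h1
          obtain ⟨x, hx, hxa⟩ := h1
          have : x + a = 0 := hxa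
          rw [← eq_neg_of_add_eq_zero_left this]
          exact hx }
    have hW := hirr (AddSubgroup.toZModSubmodule p A) (by
      intro g hg v hv
      have hgG : g.toEquiv ∈ G := (hG _).mpr ⟨g, hg, 0, fun x => by simp⟩
      have h1 : (⟨g.toEquiv, hgG⟩ : G) • B = B := hB h0 (by
        change g 0 ∈ B
        simpa using h0)
      change g v ∈ B
      rw [← h1]
      exact ⟨v, hv, rfl⟩)
    rcases hW with h | h
    · left
      intro x hx y hy
      have hx' : x ∈ AddSubgroup.toZModSubmodule p A := hx
      have hy' : y ∈ AddSubgroup.toZModSubmodule p A := hy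
      rw [h, Submodule.mem_bot] at hx' hy'
      rw [hx', hy']
    · right
      rw [Set.eq_univ_iff_forall]
      intro x
      change x ∈ AddSubgroup.toZModSubmodule p A
      rw [h]
      trivial

end Cfsg.Agent.S0733
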