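import Cfsg.Statements.S0734

set_option autoImplicit false
open Cfsg

namespace Cfsg.Agent.S0734

open scoped Pointwise

/-- Higman's criterion for primitivity: a transitive action on a finite set is primitive if and only if every non-trivial orbital graph (edges = images of a fixed pair of distinct points) is connected. -/
theorem result {G : Type*} [Group G] {Ω : Type*} [Finite Ω] [MulAction G Ω] [MulAction.IsPretransitive G Ω] [Nontrivial Ω] : MulAction.IsPreprimitive G Ω ↔ ∀ a b : Ω, a ≠ b → (SimpleGraph.fromRel fun x y : Ω => ∃ g : G, g • a = x ∧ g • b = y).Connected := by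
  constructor
  · intro hprim a b hab
    set Γ := SimpleGraph.fromRel fun x y : Ω => ∃ g : G, g • a = x ∧ g • b = y with hΓ
    have hadj : ∀ (g : G) (x y : Ω), Γ.Adj x y → Γ.Adj (g • x) (g • y) := by
      intro g x y hxy
      rw [hΓ, SimpleGraph.fromRel_adj] at hxy ⊢
      refine ⟨fun h => hxy.1 (MulAction.injective g h), ?_⟩
      rcases hxy.2 with ⟨h, h1, h2⟩ | ⟨h, h1, h2⟩
      · exact Or.inl ⟨g * h, by rw [mul_smul, h1], by rw [mul_smul, h2]⟩
      · exact Or.inr ⟨g * h, by rw [mul_smul, h1], by rw [mul_smul, h2]⟩
    have hreach : ∀ (g : G) (x y : Ω), Γ.Reachable x y → Γ.Reachable (g • x) (g • y) := by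
      intro g x y hxy
      let φ : Γ →g Γ := ⟨fun x => g • x, fun h => hadj g _ _ h⟩
      exact hxy.map φ
    have hB : MulAction.IsBlock G {x | Γ.Reachable a x} := by
      rw [MulAction.isBlock_iff_smul_eq_of_mem]
      intro g x hx hgx
      have h1 : Γ.Reachable a (g • a) := hgx.trans (hreach g _ _ hx).symm
      ext y
      rw [Set.mem_smul_set_iff_inv_smul_mem]
      constructor
      · intro hy
        have := hreach g _ _ hy
        rw [smul_inv_smul] at this
        exact h1.trans this
      · intro hy
        have := hreach g⁻¹ _ _ (h1.symm.trans hy)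
        rwa [inv_smul_smul] at this
    rcases hprim.isTrivialBlock_of_isBlock hB with h | h
    · exfalso
      apply hab
      apply h (SimpleGraph.Reachable.refl a)
      apply SimpleGraph.Adj.reachable
      rw [hΓ, SimpleGraph.fromRel_adj]
      exact ⟨hab, Or.inl ⟨1, one_smul _ _, one_smul _ _⟩⟩
    · rw [Set.eq_univ_iff_forall] at h
      exact ⟨fun x y => (h x).symm.trans (h y)⟩
  · intro h
    constructor
    intro B hB
    rcases B.subsingleton_or_nontrivial with hs | ⟨a, ha, b, hb, hab⟩
    · exact Or.inl hs
    right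
    rw [MulAction.isBlock_iff_smul_eq_of_mem] at hB
    rw [Set.eq_univ_iff_forall]
    intro x
    have hr := (h a b hab).preconnected a x
    rw [SimpleGraph.reachable_iff_reflTransGen] at hr
    induction hr with
    | refl => exact ha
    | tail _ hadj ih =>
      rw [SimpleGraph.fromRel_adj] at hadj
      rcases hadj.2 with ⟨g, h1, h2⟩ | ⟨g, h1, h2⟩
      · rw [← hB (g := g) ha (h1 ▸ ih), ← h2]
        exact Set.smul_mem_smul_set hb
      · rw [← hB (g := g) hb (h2 ▸ ih), ← h1]
        exact Set.smul_mem_smul_set ha

end Cfsg.Agent.S0734
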