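import Cfsg.Statements.S0735
import Mathlib.GroupTheory.Perm.Cycle.Type

set_option autoImplicit false
open Cfsg

namespace Cfsg.Agent.S0735

open scoped Pointwise

theorem pair_move {G α : Type*} [Group G] [MulAction G α] [DecidableEq α]
    (h2 : MulAction.IsPretransitive G (Set.powersetCard α 2)) {a b c d : α} (hab : a ≠ b)
    (hcd : c ≠ d) : ∃ g : G, (g • a = c ∧ g • b = d) ∨ (g • a = d ∧ g • b = c) := by
  obtain ⟨g, hg⟩ := h2.exists_smul_eq (Set.powersetCard.ofCard (Finset.card_pair hab))
    (Set.powersetCard.ofCard (Finset.card_pair hcd))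
  have h1 : g • ({a, b} : Finset α) = {c, d} := congrArg Subtype.val hg
  have ha : g • a ∈ ({c, d} : Finset α) := h1 ▸ Finset.smul_mem_smul_finset (by simp)
  have hb : g • b ∈ ({c, d} : Finset α) := h1 ▸ Finset.smul_mem_smul_finset (by simp)
  have hne : g • a ≠ g • b := fun h => hab (MulAction.injective g h)
  simp only [Finset.mem_insert, Finset.mem_singleton] at ha hb
  refine ⟨g, ?_⟩
  rcases ha with ha | ha <;> rcases hb with hb | hb
  · exact absurd (ha.trans hb.symm) hne
  · exact Or.inl ⟨ha, hb⟩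
  · exact Or.inr ⟨ha, hb⟩
  · exact absurd (ha.trans hb.symm) hne

/-- A 2-homogeneous permutation group (transitive on 2-subsets) of even order is doubly transitive; a non-trivial 2-homogeneous group is primitive. -/
theorem result {α : Type*} [Fintype α] [DecidableEq α] (G : Subgroup (Equiv.Perm α)) (h2 : MulAction.IsPretransitive G (Set.powersetCard α 2)) (hα : 3 ≤ Fintype.card α) : (Even (Nat.card G) → MulAction.IsMultiplyPretransitive G α 2) ∧ (G ≠ ⊥ → MulAction.IsPreprimitive G α) := by
  have hmove : ∀ t : G, t ≠ 1 → ∃ x : α, t • x ≠ x := by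
    intro t ht
    by_contra h
    push Not at h
    exact ht (Subtype.ext (Equiv.ext h))
  constructor
  · intro hev
    have : Fact (Nat.Prime 2) := ⟨Nat.prime_two⟩
    obtain ⟨t, ht⟩ := exists_prime_orderOf_dvd_card' (G := G) 2 hev.two_dvd
    obtain ⟨x, hx⟩ := hmove t (by rintro rfl; simp at ht)
    have htt : t • t • x = x := by
      rw [← mul_smul, ← sq, ← ht, pow_orderOf_eq_one, one_smul]
    have key : ∀ {c d : α}, c ≠ d → ∃ g : G, g • x = c ∧ g • t • x = d := by
      intro c d hcd
      obtain ⟨g, hg | hg⟩ := pair_move h2 hx.symm hcd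
      · exact ⟨g, hg⟩
      · exact ⟨g * t, by rw [mul_smul, hg.2], by rw [mul_smul, htt, hg.1]⟩
    rw [MulAction.is_two_pretransitive_iff]
    intro a b c d hab hcd
    obtain ⟨g, hg1, hg2⟩ := key hab
    obtain ⟨h, hh1, hh2⟩ := key hcd
    exact ⟨h * g⁻¹, by rw [mul_smul, ← hg1, inv_smul_smul, hh1],
      by rw [mul_smul, ← hg2, inv_smul_smul, hh2]⟩
  · intro hG
    have := (Subgroup.nontrivial_iff_ne_bot G).mpr hG
    obtain ⟨t, ht⟩ := exists_ne (1 : G)
    obtain ⟨x, hx⟩ := hmove t ht
    have : MulAction.IsPretransitive G α := by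
      constructor
      intro c d
      by_cases hcd : c = d
      · exact ⟨1, by simp [hcd]⟩
      obtain ⟨g, hg | hg⟩ := pair_move h2 hx.symm hcd
      · exact ⟨g * t * g⁻¹, by rw [mul_smul, mul_smul, ← hg.1, inv_smul_smul, hg.2]⟩
      · exact ⟨g * t⁻¹ * g⁻¹, by
          rw [mul_smul, mul_smul, ← hg.2, inv_smul_smul, inv_smul_smul, hg.1]⟩
    constructor
    intro B hB
    rcases B.subsingleton_or_nontrivial with hs | ⟨a, ha, b, hb, hab⟩
    · exact Or.inl hs
    right
    rw [MulAction.isBlock_iff_smul_eq_of_mem] at hB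
    rw [Set.eq_univ_iff_forall]
    intro c
    by_cases hac : a = c
    · exact hac ▸ ha
    obtain ⟨g, hg | hg⟩ := pair_move h2 hab hac
    · rw [← hB (g := g) ha (hg.1.symm ▸ ha), ← hg.2]
      exact Set.smul_mem_smul_set hb
    · rw [← hB (g := g) hb (hg.2.symm ▸ ha), ← hg.1]
      exact Set.smul_mem_smul_set ha

end Cfsg.Agent.S0735
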