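import Cfsg.Statements.S0736
import Mathlib

set_option autoImplicit false
open Cfsg

namespace Cfsg.Agent.S0736

open scoped Pointwise

theorem coprime_choose {p a k : ℕ} (hp : p.Prime) (hk : p ^ a ∣ k) (hk0 : 0 < k) :
    (p ^ a).Coprime ((k + (p ^ a - 1)).choose k) := by
  apply Nat.Coprime.pow_left
  rw [hp.coprime_iff_not_dvd, Nat.choose_symm_add, Nat.add_choose_eq]
  intro h
  have hm : (0, p ^ a - 1) ∈ Finset.HasAntidiagonal.antidiagonal (p ^ a - 1) := by simp
  rw [← Finset.add_sum_erase _ _ hm] at h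
  simp only [Nat.choose_zero_right, Nat.choose_self, mul_one] at h
  refine hp.one_lt.ne' (Nat.dvd_one.1 ((Nat.dvd_add_left (Finset.dvd_sum fun ij hij => ?_)).1 h))
  obtain ⟨h1, h2⟩ := Finset.mem_erase.1 hij
  rw [Finset.HasAntidiagonal.mem_antidiagonal] at h2
  obtain ⟨i, j⟩ := ij
  simp only at h2 ⊢
  apply Dvd.dvd.mul_right
  by_contra h3
  obtain ⟨i, rfl⟩ : ∃ i', i = i' + 1 := ⟨i - 1, by
    rcases i with _ | i
    · exact absurd (by simp [← h2]) h1
    · rfl⟩
  obtain ⟨k, rfl⟩ : ∃ k', k = k' + 1 := ⟨k - 1, by omega⟩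
  have h4 : p ^ a ∣ (k + 1).choose (i + 1) * (i + 1) := by
    rw [← Nat.add_one_mul_choose_eq]; exact hk.mul_right _
  have h5 := Nat.le_of_dvd (by omega) ((Nat.Coprime.pow_left a
    (hp.coprime_iff_not_dvd.2 h3)).dvd_of_dvd_mul_left h4)
  have := Nat.pos_of_ne_zero (pow_ne_zero a hp.ne_zero)
  omega

theorem card_above {α : Type*} [DecidableEq α] {j : ℕ} {S Y : Finset α} (hS : S ⊆ Y)
    (hj : S.card = j) :
    ((Finset.powersetCard (j + 1) Y).filter fun X => S ⊆ X).card = Y.card - j := by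
  rw [← hj, ← Finset.card_sdiff_of_subset hS]
  symm
  refine Finset.card_bij (fun y _ => insert y S) (fun y hy => ?_) (fun y hy z hz h => ?_)
    (fun X hX => ?_)
  · obtain ⟨h1, h2⟩ := Finset.mem_sdiff.1 hy
    simp [Finset.insert_subset h1 hS, Finset.card_insert_of_notMem h2]
  · have : y ∈ insert z S := h ▸ Finset.mem_insert_self y S
    exact (Finset.mem_insert.1 this).resolve_right (Finset.mem_sdiff.1 hy).2
  · obtain ⟨h1, h2⟩ := Finset.mem_filter.1 hX
    obtain ⟨h3, h4⟩ := Finset.mem_powersetCard.1 h1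
    obtain ⟨y, hy, hy'⟩ := Finset.exists_mem_notMem_of_card_lt_card (show S.card < X.card by omega)
    exact ⟨y, Finset.mem_sdiff.2 ⟨h3 hy, hy'⟩, Finset.eq_of_subset_of_card_le
      (Finset.insert_subset hy h2) (by rw [Finset.card_insert_of_notMem hy', h4])⟩

/-- A `k`-homogeneous permutation group of degree `n`, `k ≥ 2`, with `k + q - 1 ≤ n` for every prime power `q` dividing `k`, is `(k-1)`-homogeneous. -/
theorem result {α : Type*} [Fintype α] [DecidableEq α] (G : Subgroup (Equiv.Perm α)) {k : ℕ} (hk : 2 ≤ k) (hG : MulAction.IsPretransitive G (Set.powersetCard α k)) (hq : ∀ q : ℕ, IsPrimePow q → q ∣ k → k + q - 1 ≤ Fintype.card α) : MulAction.IsPretransitive G (Set.powersetCard α (k - 1)) := by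
  classical
  obtain ⟨j, rfl⟩ : ∃ j, k = j + 1 := ⟨k - 1, by omega⟩
  have hn : j + 1 ≤ Fintype.card α := by
    have h1 := Nat.minFac_prime (show j + 1 ≠ 1 by omega)
    have := hq _ h1.isPrimePow (Nat.minFac_dvd _)
    have := h1.two_le
    omega
  have hext : ∀ S : Finset α, S.card = j → ∃ X : Finset α, S ⊆ X ∧ X.card = j + 1 := fun S hS => by
    obtain ⟨X, h1, -, h2⟩ := Finset.exists_subsuperset_card_eq (Finset.subset_univ S)
      (show S.card ≤ j + 1 by omega) (by simpa using hn)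
    exact ⟨X, h1, h2⟩
  refine ⟨fun S0 S1 => ?_⟩
  let f : Finset α → ℕ := fun X =>
    ((Finset.powersetCard j X).filter fun S => ∃ g : G, g • S0.1 = S).card
  have hf1 : ∀ (g : G) (X : Finset α), f X ≤ f (g • X) := fun g X => by
    refine Finset.card_le_card_of_injOn (fun S => g • S) (fun S hS => ?_)
      (fun S _ S' _ h => MulAction.injective g h)
    simp only [Finset.coe_filter, Finset.mem_powersetCard, Set.mem_setOf_eq] at hS ⊢
    obtain ⟨⟨h1, h2⟩, h, rfl⟩ := hS
    exact ⟨⟨Finset.smul_finset_subset_smul_finset h1, by rw [Finset.card_smul_finset, h2]⟩,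
      g * h, mul_smul _ _ _⟩
  have hf2 : ∀ X X' : Finset α, X.card = j + 1 → X'.card = j + 1 → f X ≤ f X' := fun X X' h h' => by
    obtain ⟨g, hg⟩ := hG.exists_smul_eq ⟨X, h⟩ ⟨X', h'⟩
    have : g • X = X' := congrArg Subtype.val hg
    exact this ▸ hf1 g X
  obtain ⟨X0, hX0, hX0'⟩ := hext S0.1 S0.2
  have hpos : 0 < f X0 := Finset.card_pos.2 ⟨S0.1, Finset.mem_filter.2
    ⟨Finset.mem_powersetCard.2 ⟨hX0, S0.2⟩, 1, one_smul _ _⟩⟩
  have hdvd : j + 1 ∣ f X0 := by
    refine (Nat.dvd_iff_prime_pow_dvd_dvd _ _).2 fun p a hp ha => ?_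
    rcases a with _ | a
    · simp
    have h1 := hq (p ^ (a + 1)) (hp.isPrimePow.pow (by omega)) ha
    have h0 := Nat.pos_of_ne_zero (pow_ne_zero (a + 1) hp.ne_zero)
    obtain ⟨Y, -, hY⟩ := Finset.exists_subset_card_eq (s := (Finset.univ : Finset α))
      (n := j + 1 + (p ^ (a + 1) - 1)) (by rw [Finset.card_univ]; omega)
    have h2 := Finset.card_mul_eq_card_mul
      (s := (Finset.powersetCard j Y).filter fun S => ∃ g : G, g • S0.1 = S)
      (t := Finset.powersetCard (j + 1) Y) (fun S X => S ⊆ X) (m := p ^ (a + 1)) (n := f X0)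
      (fun S hS => by
        obtain ⟨h3, h4⟩ := Finset.mem_powersetCard.1 (Finset.mem_filter.1 hS).1
        rw [Finset.bipartiteAbove, card_above h3 h4]
        omega)
      (fun X hX => by
        obtain ⟨h3, h4⟩ := Finset.mem_powersetCard.1 hX
        rw [← (hf2 X X0 h4 hX0').antisymm (hf2 X0 X hX0' h4), Finset.bipartiteBelow]
        congr 1
        ext S
        simp only [Finset.mem_filter, Finset.mem_powersetCard]
        exact ⟨fun h => ⟨⟨h.2, h.1.1.2⟩, h.1.2⟩, fun h => ⟨⟨⟨h.1.1.trans h3, h.1.2⟩, h.2⟩, h.1.1⟩⟩)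
    rw [Finset.card_powersetCard, hY] at h2
    exact (coprime_choose hp ha (by omega)).dvd_of_dvd_mul_left (h2 ▸ Dvd.intro_left _ rfl)
  obtain ⟨X1, hX1, hX1'⟩ := hext S1.1 S1.2
  have h1 := (Nat.le_of_dvd hpos hdvd).trans (hf2 X0 X1 hX0' hX1')
  have h2 : (Finset.powersetCard j X1).filter (fun S => ∃ g : G, g • S0.1 = S) =
      Finset.powersetCard j X1 := Finset.eq_of_subset_of_card_le (Finset.filter_subset _ _) (by
    rwa [Finset.card_powersetCard, hX1', Nat.choose_succ_self_right])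
  have h3 : S1.1 ∈ Finset.powersetCard j X1 := Finset.mem_powersetCard.2 ⟨hX1, S1.2⟩
  rw [← h2] at h3
  obtain ⟨g, hg⟩ := (Finset.mem_filter.1 h3).2
  exact ⟨g, Subtype.ext hg⟩

end Cfsg.Agent.S0736
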