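import Cfsg.Statements.S0737
import Cfsg.Agent.S0735
import Cfsg.Agent.S0547
import Cfsg.Agent.S0205
import Cfsg.Agent.S3360
import Cfsg.Agent.ODD.AbelemRep
import Cfsg.Agent.PERM.MinNormal

set_option autoImplicit false
open Cfsg

namespace Cfsg.Agent.S0737

open CL MulAction

theorem semilinear {p : ℕ} [Fact p.Prime] {V : Type*} [AddCommGroup V] [Module (ZMod p) V]
    [Finite V] [Nontrivial V] {S : Type*} [Group S] [Finite S] [Group.IsSolvable S]
    (ρ : S →* Module.End (ZMod p) V) (h4 : Nat.card V % 4 = 3)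
    (ht : ∀ v w : V, v ≠ 0 → w ≠ 0 → ∃ g : S, ρ g v = w ∨ ρ g v = -w) :
    ∃ (F : Type) (_ : Field F) (_ : Fintype F) (e : V ≃+ F),
      ∀ g : S, ∃ (a : F) (σ : F ≃+* F), ∀ v : V, e (ρ g v) = a * σ (e v) := by
  let φ : S × ℤˣ →* Module.End (ZMod p) V :=
    { toFun := fun x => (x.2 : ℤ) • ρ x.1
      map_one' := by simp
      map_mul' := fun x y => by
        simp only [Prod.fst_mul, Prod.snd_mul, Units.val_mul, map_mul, smul_mul_smul_comm] }
  let ψ : S × ℤˣ →* (V ≃ₗ[ZMod p] V) :=
    (LinearMap.GeneralLinearGroup.generalLinearEquiv (ZMod p) V).toMonoidHom.comp φ.toHomUnits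
  have hψ : ∀ x v, ψ x v = (x.2 : ℤ) • ρ x.1 v := fun x v => rfl
  have hsol : Group.IsSolvable ψ.range :=
    Group.isSolvable_of_surjective ψ.rangeRestrict_surjective
  have : Finite ψ.range := Finite.of_surjective _ ψ.rangeRestrict_surjective
  rcases Cfsg.Agent.S3360.result p hsol ψ.range.subtype ψ.range.subtype_injective (by
    intro v w hv hw
    obtain ⟨g, hg | hg⟩ := ht v w hv hw
    · exact ⟨⟨ψ (g, 1), _, rfl⟩, by simp [hψ, hg]⟩
    · exact ⟨⟨ψ (g, -1), _, rfl⟩, by simp [hψ, hg]⟩) with ⟨F, _, _, e, he⟩ | h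
  · refine ⟨F, inferInstance, inferInstance, e, fun g => ?_⟩
    obtain ⟨a, σ, h⟩ := he ⟨ψ (g, 1), _, rfl⟩
    refine ⟨a, σ, fun v => ?_⟩
    rw [← h v]
    simp [hψ]
  · simp only [Set.mem_insert_iff, Set.mem_singleton_iff] at h
    omega


/-- A non-trivial 2-homogeneous permutation group that is not doubly transitive has odd order and degree `p^f ≡ 3 (mod 4)`, and is permutation-isomorphic to a group of semi-affine transformations `x ↦ a φ(x) + b` of the field with `p^f` elements containing all translations. -/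
theorem result {α : Type*} [Fintype α] [DecidableEq α] (G : Subgroup (Equiv.Perm α)) (hne : G ≠ ⊥) (h2 : MulAction.IsPretransitive G (Set.powersetCard α 2)) (hn2 : ¬ MulAction.IsMultiplyPretransitive G α 2) : Odd (Nat.card G) ∧ ∃ (p f : ℕ) (_ : Fact p.Prime), p ≠ 2 ∧ Fintype.card α = p ^ f ∧ p ^ f % 4 = 3 ∧ ∃ e : α ≃ GaloisField p f, (∀ g : G, e.symm.trans (((g : Equiv.Perm α)).trans e) ∈ Cfsg.semiaffineGroup (GaloisField p f)) ∧ ∀ b : GaloisField p f, ∃ g : G, ∀ x : α, e ((g : Equiv.Perm α) x) = e x + b := by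
  have hα : 3 ≤ Fintype.card α := by
    by_contra hlt
    apply hn2
    have hnt := (Subgroup.nontrivial_iff_ne_bot G).mpr hne
    obtain ⟨t, ht⟩ := exists_ne (1 : G)
    have ⟨x, hx⟩ : ∃ x : α, t • x ≠ x := by
      by_contra h
      push Not at h
      exact ht (Subtype.ext (Equiv.ext h))
    have hall : ∀ z : α, z = x ∨ z = t • x := by
      intro z
      by_contra hz
      push Not at hz
      have : ({z, x, t • x} : Finset α).card ≤ Fintype.card α := Finset.card_le_univ _
      rw [Finset.card_eq_three.2 ⟨z, x, t • x, hz.1, hz.2, hx.symm, rfl⟩] at this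
      omega
    have htt : t • t • x = x :=
      (hall (t • t • x)).resolve_right fun h => hx (MulAction.injective t h)
    rw [MulAction.is_two_pretransitive_iff]
    intro a b c d hab hcd
    rcases hall a with rfl | rfl <;> rcases hall b with hb | hb <;> rcases hall c with hc | hc <;>
      rcases hall d with hd | hd <;>
      first
      | exact absurd hb.symm hab
      | exact absurd (hc.trans hd.symm) hcd
      | (refine ⟨1, ?_, ?_⟩ <;> simp [hb, hc, hd]; done)
      | (refine ⟨t, ?_, ?_⟩ <;> simp [hb, hc, hd, htt])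
  obtain ⟨h1, hprim⟩ := Cfsg.Agent.S0735.result G h2 hα
  have hodd : Odd (Nat.card G) := Nat.not_even_iff_odd.1 fun h => hn2 (h1 h)
  refine ⟨hodd, ?_⟩
  have hsol := Cfsg.Agent.S0205.result hodd
  have hnt := (Subgroup.nontrivial_iff_ne_bot G).mpr hne
  obtain ⟨N, hN, hN1, -, hmin⟩ := CL.Perm.exists_minimal_normal_le (⊤ : Subgroup G) top_ne_bot
  have : Nonempty α := Fintype.card_pos_iff.1 (by omega)
  obtain ⟨hNt, hNr, p, f, hp, hf, hc, hcN⟩ :=
    Cfsg.Agent.S0547.result (hprim hne) N hN1 hmin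
  have := Fact.mk hp
  have hE : Cfsg.IsElementaryAbelian p N :=
    CL.Perm.elementary_of_minimal_normal_of_isPGroup N hN1 hmin (IsPGroup.of_card hcN)
  have hoddn : Odd (p ^ f) := Odd.of_dvd_nat hodd (hcN ▸ N.card_subgroup_dvd_card)
  have hp2 : p ≠ 2 := by
    rintro rfl
    exact (Nat.not_odd_iff_even.2 (Even.pow_of_ne_zero even_two hf.ne')) hoddn
  have h4 : p ^ f % 4 = 3 := by
    have hs : Nonempty (Set.powersetCard α 2) := by
      obtain ⟨x, y, hxy⟩ := Fintype.exists_pair_of_one_lt_card (α := α) (by omega)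
      exact ⟨Set.powersetCard.ofCard (Finset.card_pair hxy)⟩
    obtain ⟨s⟩ := hs
    have h5 : Odd (Nat.card (Set.powersetCard α 2)) := by
      rw [← MulAction.index_stabilizer_of_transitive G s]
      exact Odd.of_dvd_nat hodd (Subgroup.index_dvd_card _)
    rw [Set.powersetCard.card, hc, Nat.choose_two_right] at h5
    obtain ⟨k, hk⟩ := hoddn
    rw [hk] at h5 ⊢
    have : (2 * k + 1) * (2 * k + 1 - 1) / 2 = (2 * k + 1) * k := by
      rw [Nat.add_sub_cancel, mul_left_comm, Nat.mul_div_cancel_left _ two_pos]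
    rw [this, Nat.odd_mul] at h5
    obtain ⟨l, hl⟩ := h5.2
    omega
  obtain ⟨a⟩ := ‹Nonempty α›
  have hA : stabilizer G a ≤ Subgroup.normalizer (N : Set G) := Subgroup.le_normalizer_of_normal
  let ev0 : Abelem.V hE → α := fun v => v.val • a
  have hev : Function.Bijective ev0 := by
    constructor
    · intro v w h
      have h3 : (⟨w.val⁻¹ * v.val, N.mul_mem (N.inv_mem w.mem) v.mem⟩ : N) ∈ stabilizer N a := by
        change (w.val⁻¹ * v.val) • a = a
        rw [mul_smul, inv_smul_eq_iff]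
        exact h
      rw [hNr a, Subgroup.mem_bot, Subtype.ext_iff] at h3
      exact Abelem.V.ext (inv_mul_eq_one.1 h3).symm
    · intro b
      obtain ⟨n, hn⟩ := hNt.exists_smul_eq a b
      exact ⟨⟨n, n.2⟩, hn⟩
  let ev := Equiv.ofBijective ev0 hev
  have hev1 : ∀ (g : stabilizer G a) v, ev (Abelem.rep hE hA g v) = (g : G) • ev v := by
    intro g v
    change ((g : G) * v.val * (g : G)⁻¹) • a = (g : G) • v.val • a
    rw [mul_smul, mul_smul, show (g : G)⁻¹ • a = a from (g⁻¹).2]
  have hev2 : ∀ u v, ev (u + v) = u.val • ev v := fun u v => mul_smul u.val v.val a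
  have hev0 : ev 0 = a := one_smul G a
  have hcV : Nat.card (Abelem.V hE) = p ^ f := Abelem.card_V.trans hcN
  have : Finite (Abelem.V hE) := Finite.of_equiv _ ev.symm
  have : Nontrivial (Abelem.V hE) := Abelem.nontrivial_V_iff.2 hN1
  obtain ⟨F, _, _, e, he⟩ := semilinear (Abelem.rep hE hA) (hcV ▸ h4) (by
    intro v w hv hw
    obtain ⟨g, hg | hg⟩ := Cfsg.Agent.S0735.pair_move h2 (a := a) (b := ev v) (c := a) (d := ev w)
      (fun h => hv (ev.injective (h.symm.trans hev0.symm)))
      (fun h => hw (ev.injective (h.symm.trans hev0.symm)))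
    · exact ⟨⟨g, hg.1⟩, Or.inl (ev.injective (by rw [hev1]; exact hg.2))⟩
    · refine ⟨⟨(-w).val * g, ?_⟩, Or.inr (ev.injective ?_)⟩
      · rw [mem_stabilizer_iff, mul_smul, hg.1, ← hev2, neg_add_cancel, hev0]
      · rw [hev1]
        change ((-w).val * g) • ev v = _
        rw [mul_smul, hg.2]
        rfl)
  have : Fintype (GaloisField p f) := Fintype.ofFinite _
  let r : F ≃+* GaloisField p f := FiniteField.ringEquivOfCardEq (by
    rw [← Nat.card_eq_fintype_card, ← Nat.card_eq_fintype_card, GaloisField.card p f hf.ne',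
      ← Nat.card_congr e.toEquiv, hcV])
  refine ⟨p, f, inferInstance, hp2, by rw [← Nat.card_eq_fintype_card, hc], h4,
    ev.symm.trans (e.toEquiv.trans r.toEquiv), fun g => ?_, fun b => ?_⟩
  · obtain ⟨n, hn⟩ := hev.2 (g • a)
    let g0 : stabilizer G a := ⟨n.val⁻¹ * g, by
      rw [mem_stabilizer_iff, mul_smul, inv_smul_eq_iff]; exact hn.symm⟩
    obtain ⟨c, σ, hσ⟩ := he g0
    have hc0 : c ≠ 0 := by
      rintro rfl
      obtain ⟨v, hv⟩ := exists_ne (0 : Abelem.V hE)
      have h3 := hσ (Abelem.rep hE hA g0⁻¹ v)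
      rw [zero_mul, ← Module.End.mul_apply, ← map_mul, mul_inv_cancel, map_one,
        Module.End.one_apply, map_eq_zero_iff e e.injective] at h3
      exact hv h3
    refine ⟨Units.mk0 (r c) ((map_ne_zero r).2 hc0), r (e n), r.symm.trans (σ.trans r), fun x => ?_⟩
    obtain ⟨v, rfl⟩ : ∃ v, r (e v) = x := ⟨e.symm (r.symm x), by simp⟩
    have h3 : g • ev v = ev (n + Abelem.rep hE hA g0 v) := by
      rw [hev2, hev1, ← mul_smul]
      simp [g0]
    have h5 : (g : Equiv.Perm α) (ev v) = g • ev v := rfl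
    simp [h5, h3, hσ, add_comm]
  · refine ⟨(e.symm (r.symm b)).val, fun x => ?_⟩
    obtain ⟨v, rfl⟩ := ev.surjective x
    have h5 : ((e.symm (r.symm b)).val : Equiv.Perm α) (ev v) = ev (e.symm (r.symm b) + v) :=
      (hev2 _ _).symm
    simp [h5, add_comm]

end Cfsg.Agent.S0737
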