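import Cfsg.Statements.S0739
import Cfsg.Agent.PERM.ZassNormal

set_option autoImplicit false
open Cfsg

namespace Cfsg.Agent.S0739

open CL.Zass

/-- In a finite Zassenhaus group whose two-point stabiliser `H = G_{a,b}` has odd order `d`, and which has no normal `q`-complement for any prime `q ∣ d`, `H` is cyclic, `C_G(H) = H`, and every element swapping `a` and `b` inverts each element of `H`. -/
theorem result {G Ω : Type*} [Group G] [Finite G] [MulAction G Ω] [Fintype Ω] (hZ : Cfsg.IsZassenhausGroup G Ω) {a b : Ω} (hab : a ≠ b) (hodd : Odd (Nat.card ↥(MulAction.stabilizer G a ⊓ MulAction.stabilizer G b))) (hnil : ∀ q : ℕ, q.Prime → q ∣ Nat.card ↥(MulAction.stabilizer G a ⊓ MulAction.stabilizer G b) → ¬ ∃ N : Subgroup G, N.Normal ∧ N.index = q ^ (Nat.card G).factorization q) : IsCyclic ↥(MulAction.stabilizer G a ⊓ MulAction.stabilizer G b) ∧ Subgroup.centralizer ((MulAction.stabilizer G a ⊓ MulAction.stabilizer G b : Subgroup G) : Set G) = MulAction.stabilizer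 G a ⊓ MulAction.stabilizer G b ∧ ∀ s : G, s • a = b → s • b = a → ∀ h ∈ MulAction.stabilizer G a ⊓ MulAction.stabilizer G b, s * h * s⁻¹ = h⁻¹ := by
  have hz := Z2.of_isZassenhaus hZ
  obtain ⟨s, hs, hsa, hsb⟩ := hz.exists_invol_swap hab
  have h1 := hz.inverted_of_odd hab hodd hnil hs hsa hsb
  have h2 : ∀ t : G, t • a = b → t • b = a → ∀ h ∈ St G a b, t * h * t⁻¹ = h⁻¹ :=
    fun t hta htb => Z2.inverted_of_inverted hsa hsb h1 hta htb
  have hc := comm_of_inverted h1
  have := isMulCommutative_of_comm hc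
  refine ⟨hz.isCyclic_of_comm hab le_rfl, le_antisymm (fun g hg => ?_) (Subgroup.le_centralizer _),
    h2⟩
  obtain ⟨x, hx1, c, d, hcd, hc, hd⟩ := hZ.2.2.2.1
  have hnt : Nontrivial (St G a b) := by
    rw [← Finite.one_lt_card_iff_nontrivial, hz.card_St_eq hab hcd,
      Finite.one_lt_card_iff_nontrivial]
    exact ⟨⟨x, hc, hd⟩, 1, fun e => hx1 (congrArg Subtype.val e)⟩
  obtain ⟨⟨y, hy⟩, hy1⟩ := exists_ne (1 : St G a b)
  have hy1' : y ≠ 1 := fun e => hy1 (Subtype.ext e)
  have hgy : g * y * g⁻¹ = y := by rw [← hg y hy]; simp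
  rcases hz.fix_or_swap_of_conj hab hy1' hy.1 hy.2 (g := g) (hgy.symm ▸ hy) with h | h
  · exact h
  · exfalso
    have h3 := h2 g h.1 h.2 y hy
    rw [hgy, eq_inv_iff_mul_eq_one] at h3
    obtain ⟨j, ⟨i, rfl⟩, hjj⟩ := exists_sq_root (u := y) hodd
      (congrArg Subtype.val (pow_card_eq_one' (x := (⟨_, hy⟩ : St G a b))))
    apply hy1'
    rw [← hjj]
    simp only
    rw [← Commute.mul_zpow (Commute.refl y), h3, one_zpow]

end Cfsg.Agent.S0739
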