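import Cfsg.Statements.S0740
import Cfsg.Agent.PERM.MultiTrans

set_option autoImplicit false
open Cfsg

namespace Cfsg.Agent.S0740

open scoped Pointwise

/-- In a finite Zassenhaus group any two points `a ≠ b` are swapped by an involution; every such involution has exactly one fixed point when the degree is odd and 0 or 2 fixed points when the degree is even; and if the two-point stabiliser has even order, some such involution has exactly 2 fixed points. -/
theorem result {G Ω : Type*} [Group G] [Finite G] [MulAction G Ω] [Fintype Ω] (hZ : Cfsg.IsZassenhausGroup G Ω) {a b : Ω} (hab : a ≠ b) : (∃ s : G, orderOf s = 2 ∧ s • a = b ∧ s • b = a) ∧ (∀ s : G, orderOf s = 2 → s • a = b → s • b = a → (Odd (Fintype.card Ω) → Nat.card (MulAction.fixedBy Ω s) = 1) ∧ (Even (Fintype.card Ω) → Nat.card (MulAction.fixedBy Ω s) = 0 ∨ Nat.card (MulAction.fixedBy Ω s) = 2)) ∧ (Even (Fintype.card Ω) → Even (Nat.card ↥(MulAction.stabilizer G a ⊓ MulAction.stabilizer G b)) → ∃ s : G, orderOf s = 2 ∧ s •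 a = b ∧ s • b = a ∧ Nat.card (MulAction.fixedBy Ω s) = 2) := by
  obtain ⟨hf, h2, h3, -, -⟩ := hZ
  have : Fact (Nat.Prime 2) := ⟨Nat.prime_two⟩
  rw [MulAction.is_two_pretransitive_iff] at h2
  -- every involution is conjugate to one interchanging `a` and `b`
  have conj : ∀ t : G, orderOf t = 2 → ∃ s : G, orderOf s = 2 ∧ s • a = b ∧ s • b = a ∧
      Nat.card (MulAction.fixedBy Ω s) = Nat.card (MulAction.fixedBy Ω t) := by
    intro t ht
    obtain ⟨x, hx⟩ : ∃ x : Ω, t • x ≠ x := by
      by_contra h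
      push Not at h
      have : t = 1 := FaithfulSMul.eq_of_smul_eq_smul (α := Ω) fun x => by rw [h x, one_smul]
      rw [this, orderOf_one] at ht
      omega
    have htt : t • t • x = x := by
      rw [← mul_smul, ← sq, ← ht, pow_orderOf_eq_one, one_smul]
    obtain ⟨g, hg1, hg2⟩ := h2 hx.symm hab
    refine ⟨g * t * g⁻¹, ?_, ?_, ?_, ?_⟩
    · rw [← ht]
      exact (MulAut.conj g).orderOf_eq t
    · rw [mul_smul, mul_smul, ← hg1, inv_smul_smul, hg2]
    · rw [mul_smul, mul_smul, ← hg2, inv_smul_smul, htt, hg1]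
    · rw [← MulAction.smul_fixedBy, Nat.card_coe_set_eq, Nat.card_coe_set_eq, Set.ncard_smul_set]
  have hle : ∀ s : G, orderOf s = 2 → Nat.card (MulAction.fixedBy Ω s) ≤ 2 := by
    intro s hs
    by_contra h
    rw [not_le, Nat.card_coe_set_eq, Set.two_lt_ncard_iff] at h
    obtain ⟨x, y, z, hx, hy, hz, hxy, hxz, hyz⟩ := h
    rw [h3 s x y z hxy hyz hxz hx hy hz, orderOf_one] at hs
    omega
  have hmod : ∀ s : G, orderOf s = 2 →
      Fintype.card Ω ≡ Nat.card (MulAction.fixedBy Ω s) [MOD 2] := by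
    intro s hs
    rw [← Nat.card_eq_fintype_card]
    apply CL.Perm.card_fixedBy_modEq (k := 1)
    rw [pow_one, ← hs, pow_orderOf_eq_one]
  refine ⟨?_, ?_, ?_⟩
  · obtain ⟨g, hg1, hg2⟩ := h2 hab hab.symm
    have hev : 2 ∣ orderOf g := by
      by_contra hodd
      have key : ∀ n : ℕ, g ^ (2 * n + 1) • a = b := by
        intro n
        induction n with
        | zero => simpa using hg1
        | succ n ih =>
          rw [show 2 * (n + 1) + 1 = 1 + 1 + (2 * n + 1) by ring, pow_add, pow_add, pow_one,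
            mul_smul, mul_smul, ih, hg2, hg1]
      have h4 := key (orderOf g / 2)
      rw [show 2 * (orderOf g / 2) + 1 = orderOf g by omega, pow_orderOf_eq_one, one_smul] at h4
      exact hab h4
    obtain ⟨t, ht⟩ := exists_prime_orderOf_dvd_card' (G := G) 2 (hev.trans (orderOf_dvd_natCard g))
    obtain ⟨s, hs1, hs2, hs3, -⟩ := conj t ht
    exact ⟨s, hs1, hs2, hs3⟩
  · intro s hs _ _
    have h4 := hle s hs
    have h5 := hmod s hs
    unfold Nat.ModEq at h5
    constructor
    · rintro ⟨n, hn⟩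
      omega
    · rintro ⟨n, hn⟩
      omega
  · intro _ hev
    obtain ⟨t, ht⟩ := exists_prime_orderOf_dvd_card' 2 hev.two_dvd
    have ht' : orderOf (t : G) = 2 := by rw [Subgroup.orderOf_coe, ht]
    obtain ⟨s, hs1, hs2, hs3, hs4⟩ := conj t ht'
    refine ⟨s, hs1, hs2, hs3, ?_⟩
    rw [hs4]
    apply le_antisymm (hle _ ht')
    rw [Nat.card_coe_set_eq]
    exact (Set.one_lt_ncard_iff (Set.toFinite _)).mpr ⟨a, b, t.2.1, t.2.2, hab⟩

end Cfsg.Agent.S0740
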