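import Cfsg.Statements.S0744
import Cfsg.Agent.PERM.MultiTrans
import Mathlib.GroupTheory.Sylow

set_option autoImplicit false
open Cfsg

namespace Cfsg.Agent.S0744

/-- If for some `k > 1` the pointwise stabilisers of all `(k-1)`-subsets have the same order `> 1` and those of all `k`-subsets have the same order, then the group is `(k-1)`-transitive. -/
theorem result {α : Type*} [Fintype α] [DecidableEq α] (G : Subgroup (Equiv.Perm α)) {k : ℕ} (hk : 1 < k) (hkn : k ≤ Fintype.card α) (l m : ℕ) (hl : 1 < l) (hkm1 : ∀ s : Finset α, s.card = k - 1 → Nat.card (fixingSubgroup G (s : Set α)) = l) (hkm : ∀ s : Finset α, s.card = k → Nat.card (fixingSubgroup G (s : Set α)) = m) : MulAction.IsMultiplyPretransitive G α (k - 1) := by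
  have hins : ∀ s : Finset α, s.card = k - 1 → ∀ a ∉ s,
      Nat.card (fixingSubgroup G ((insert a s : Finset α) : Set α)) = m := fun s hs a ha =>
    hkm _ (by rw [Finset.card_insert_of_notMem ha, hs]; omega)
  have hle : ∀ (s : Finset α) (a : α), fixingSubgroup G ((insert a s : Finset α) : Set α) ≤
      fixingSubgroup G (s : Set α) := fun s a =>
    fixingSubgroup_antitone G α (by simp)
  obtain ⟨s₀, -, hs₀⟩ := Finset.exists_subset_card_eq (s := (Finset.univ : Finset α)) (n := k - 1)
    (by rw [Finset.card_univ]; omega)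
  obtain ⟨a₀, -, ha₀⟩ := Finset.exists_mem_notMem_of_card_lt_card (s := s₀) (t := Finset.univ)
    (by rw [Finset.card_univ]; omega)
  have hml : m ∣ l := by
    rw [← hins s₀ hs₀ a₀ ha₀, ← hkm1 s₀ hs₀]
    exact Subgroup.card_dvd_of_le (hle _ _)
  obtain ⟨r, hr⟩ := hml
  have hr1 : r ≠ 1 := by
    rintro rfl
    have hbot : fixingSubgroup G (s₀ : Set α) = ⊥ := by
      rw [eq_bot_iff]
      intro g hg
      rw [Subgroup.mem_bot]
      refine Subtype.ext (Equiv.ext fun x => ?_)
      by_cases hx : x ∈ s₀
      · exact (mem_fixingSubgroup_iff G).mp hg x hx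
      · have := Subgroup.eq_of_le_of_card_ge (hle s₀ x) (by rw [hins s₀ hs₀ x hx, hkm1 s₀ hs₀]; omega)
        rw [← this] at hg
        exact (mem_fixingSubgroup_iff G).mp hg x (by simp)
    have := hkm1 s₀ hs₀
    rw [hbot, Subgroup.card_bot] at this
    omega
  obtain ⟨p, hp, hpr⟩ := Nat.exists_prime_and_dvd hr1
  have : Fact p.Prime := ⟨hp⟩
  apply CL.Perm.isMultiplyPretransitive_of_fixedPoints_eq (p := p) (by omega)
  intro s hs
  let F := fixingSubgroup G (s : Set α)
  obtain ⟨P⟩ : Nonempty (Sylow p F) := inferInstance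
  refine ⟨(P : Subgroup F).map F.subtype, P.isPGroup'.map _, ?_⟩
  apply Set.Subset.antisymm
  · intro a ha
    by_contra has
    have h1 : (P : Subgroup F).map F.subtype ≤ fixingSubgroup G ((insert a s : Finset α) : Set α) := by
      intro g hg
      rw [mem_fixingSubgroup_iff]
      intro y hy
      rcases Finset.mem_insert.mp hy with rfl | hy
      · exact ha ⟨g, hg⟩
      · obtain ⟨g', -, rfl⟩ := hg
        exact (mem_fixingSubgroup_iff G).mp g'.2 y hy
    have h2 := Subgroup.card_dvd_of_le h1
    rw [hins s hs a has, Subgroup.card_map_of_injective F.subtype_injective,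
      P.card_eq_multiplicity, hkm1 s hs] at h2
    have hm0 : m ≠ 0 := by rintro rfl; omega
    have hr0 : r ≠ 0 := by rintro rfl; omega
    have h3 := (hp.pow_dvd_iff_le_factorization hm0).mp h2
    rw [hr, Nat.factorization_mul hm0 hr0, Finsupp.add_apply] at h3
    have := hp.factorization_pos_of_dvd hr0 hpr
    omega
  · rintro a ha ⟨_, g, -, rfl⟩
    exact (mem_fixingSubgroup_iff G).mp g.2 a ha

end Cfsg.Agent.S0744
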