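import Cfsg.Statements.S0745
import Cfsg.Agent.PERM.LW2
import Cfsg.Agent.S0744

set_option autoImplicit false
open Cfsg

namespace Cfsg.Agent.S0745

/-- Let `G` have degree `n` and `3 ≤ k ≤ n`; suppose `G` is `(k-2)`-transitive but not `(k-1)`-transitive, and is `(k-1)`-homogeneous and `k`-homogeneous. Then `k = n` and `G` is the alternating group, or `n = 5, k = 4, |G| = 20`, or `n = 6, k = 5, |G| = 120`, or `n = 9, k = 5, |G| ∈ {504, 1512}`. -/
theorem result {α : Type*} [Fintype α] [DecidableEq α] (G : Subgroup (Equiv.Perm α)) {k : ℕ} (hk : 3 ≤ k) (hkn : k ≤ Fintype.card α) (ht : MulAction.IsMultiplyPretransitive G α (k - 2)) (hnt : ¬ MulAction.IsMultiplyPretransitive G α (k - 1)) (hh1 : MulAction.IsPretransitive G (Set.powersetCard α (k - 1))) (hh : MulAction.IsPretransitive G (Set.powersetCard α k)) : (k = Fintype.card α ∧ G = alternatingGroup α) ∨ (Fintype.card α = 5 ∧ k = 4 ∧ Nat.card G = 20) ∨ (Fintype.card α = 6 ∧ k = 5 ∧ Nat.card G = 120) ∨ (Fintype.card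 α = 9 ∧ k = 5 ∧ (Nat.card G = 504 ∨ Nat.card G = 1512)) := by
  obtain ⟨t, rfl⟩ : ∃ t, k = t + 2 := ⟨k - 2, by omega⟩
  have hc : Nat.card α = Fintype.card α := Nat.card_eq_fintype_card
  change MulAction.IsMultiplyPretransitive G α t at ht
  change ¬ MulAction.IsMultiplyPretransitive G α (t + 1) at hnt
  change MulAction.IsPretransitive G (Set.powersetCard α (t + 1)) at hh1
  have free : ∀ g : G, ∀ S : Finset α, S.card = t + 1 → (∀ x ∈ S, g • x = x) → g = 1 := by
    intro g S hS hg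
    obtain ⟨T, -, hT⟩ := Finset.exists_subset_card_eq (s := (Finset.univ : Finset α)) (n := t + 2)
      (by rwa [Finset.card_univ])
    have h1 : ¬ 1 < Nat.card (fixingSubgroup G (S : Set α)) := fun h =>
      hnt (Cfsg.Agent.S0744.result G (k := t + 2) (by omega) hkn _ _ h
        (fun s hs => CL.LW.card_fixing_eq hh1 hs hS) (fun s hs => CL.LW.card_fixing_eq hh hs hT))
    have h2 : fixingSubgroup G (S : Set α) = ⊥ := Subgroup.eq_bot_of_card_le _ (by omega)
    rw [← Subgroup.mem_bot, ← h2]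
    exact (mem_fixingSubgroup_iff G).2 hg
  rcases CL.LW.core (by omega) (by omega) ht hnt free hh1 hh with h | h | h | h
  · refine Or.inl ⟨by omega, CL.HallK.eq_alt (by rw [h]; exact ht) ?_⟩
    rintro rfl
    refine hnt ⟨fun x y => ?_⟩
    obtain ⟨g, hg⟩ := Equiv.Perm.exists_smul_eq_embedding x y
    exact ⟨⟨g, Subgroup.mem_top g⟩, hg⟩
  · exact Or.inr (Or.inl ⟨by omega, by omega, h.2.2⟩)
  · exact Or.inr (Or.inr (Or.inl ⟨by omega, by omega, h.2.2⟩))
  · exact Or.inr (Or.inr (Or.inr ⟨by omega, by omega, h.2.2⟩))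

end Cfsg.Agent.S0745
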