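import Cfsg.Statements.S0746
import Cfsg.Agent.S0745
import Cfsg.Agent.S0736

set_option autoImplicit false
open Cfsg

namespace Cfsg.Agent.S0746

open scoped Pointwise

/-- The Livingstone–Wagner Theorem, first form: a `k`-homogeneous group of degree `n` with `4 ≤ 2k ≤ n` is `(k-1)`-transitive. -/
theorem result {α : Type*} [Fintype α] [DecidableEq α] (G : Subgroup (Equiv.Perm α)) {k : ℕ} (hk : 2 ≤ k) (hkn : 2 * k ≤ Fintype.card α) (hh : MulAction.IsPretransitive G (Set.powersetCard α k)) : MulAction.IsMultiplyPretransitive G α (k - 1) := by
  have hdesc : ∀ i, i + 1 ≤ k → MulAction.IsPretransitive G (Set.powersetCard α (k - i)) := by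
    intro i
    induction i with
    | zero => exact fun _ => hh
    | succ i ih =>
      intro hi
      exact Cfsg.Agent.S0736.result G (k := k - i) (by omega) (ih (by omega)) fun q _ hq => by
        have := Nat.le_of_dvd (by omega) hq
        omega
  have hj : ∀ j, 1 ≤ j → j ≤ k → MulAction.IsPretransitive G (Set.powersetCard α j) := by
    intro j h1 h2
    have := hdesc (k - j) (by omega)
    rwa [show k - (k - j) = j by omega] at this
  have key : ∀ j, j + 2 ≤ k → MulAction.IsMultiplyPretransitive G α (j + 1) := by
    intro j
    induction j with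
    | zero =>
      intro _
      rw [MulAction.is_one_pretransitive_iff]
      have := hj 1 le_rfl (by omega)
      refine ⟨fun a b => ?_⟩
      obtain ⟨g, hg⟩ := this.exists_smul_eq ⟨{a}, by simp⟩ ⟨{b}, by simp⟩
      have h1 : g • ({a} : Finset α) = {b} := congrArg Subtype.val hg
      rw [Finset.smul_finset_singleton, Finset.singleton_inj] at h1
      exact ⟨g, h1⟩
    | succ j ih =>
      intro hjk
      by_contra hn
      have := Cfsg.Agent.S0745.result G (k := j + 3) (by omega) (by omega) (ih (by omega)) hn
        (hj (j + 2) (by omega) (by omega)) (hj (j + 3) (by omega) (by omega))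
      omega
  have := key (k - 2) (by omega)
  rwa [show k - 2 + 1 = k - 1 by omega] at this

end Cfsg.Agent.S0746
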