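import Cfsg.Statements.S0748
import Cfsg.Agent.S0746

set_option autoImplicit false
open Cfsg

namespace Cfsg.Agent.S0748

open scoped Pointwise

/-- The Livingstone–Wagner Theorem: a `k`-homogeneous permutation group of degree `n` with `10 ≤ 2k ≤ n` is `k`-transitive. -/
theorem result {α : Type*} [Fintype α] [DecidableEq α] (G : Subgroup (Equiv.Perm α)) {k : ℕ} (hk : 5 ≤ k) (hkn : 2 * k ≤ Fintype.card α) (hh : MulAction.IsPretransitive G (Set.powersetCard α k)) : MulAction.IsMultiplyPretransitive G α k := by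
  have hc : Nat.card α = Fintype.card α := Nat.card_eq_fintype_card
  have ht := Cfsg.Agent.S0746.result G (by omega) hkn hh
  obtain ⟨t, rfl⟩ : ∃ t, k = t + 1 := ⟨k - 1, by omega⟩
  change MulAction.IsMultiplyPretransitive G α t at ht
  obtain ⟨Δ, hΔ, h3⟩ := CL.LW.exists_ind3 (G := G) (Ω := α) (k := t) (by omega) (by omega) ht
  by_contra hn
  have key : ∀ x : G, x * x = 1 → ∀ S : Finset α, t - 1 ≤ S.card → (∀ s ∈ S, x • s = s) →
      x = 1 := by
    intro x hx S hS hfix
    by_contra hx1
    obtain ⟨T, hTS, hT⟩ := Finset.exists_subset_card_eq hS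
    obtain ⟨a, ha⟩ := CL.Hall4.O4.exists_moved (Ω := α) hx1
    have haT : a ∉ T := fun h => ha (hfix a (hTS h))
    have hbT : x • a ∉ T := fun h => ha (by
      have := hfix _ (hTS h)
      rw [CL.Hall4.inv_smul_inv hx] at this
      exact this.symm)
    obtain ⟨g, hg⟩ := hh.exists_smul_eq ⟨insert a (insert (x • a) T), by
      rw [Set.powersetCard.mem_iff, Finset.card_insert_of_notMem (by simp [haT, ha.symm]),
        Finset.card_insert_of_notMem hbT, hT]
      omega⟩ ⟨Δ, hΔ⟩
    have hg' : g • insert a (insert (x • a) T) = Δ := congrArg Subtype.val hg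
    have m1 : g • a ∈ Δ := hg' ▸ Finset.smul_mem_smul_finset (by simp)
    have m2 : g • x • a ∈ Δ := hg' ▸ Finset.smul_mem_smul_finset (by simp)
    have hsw := CL.LW.swap_mem_indSub (G := G) (Δ := Δ) (a := ⟨_, m1⟩) (b := ⟨_, m2⟩)
      (g := g * x * g⁻¹) (by simp only [mul_smul, inv_smul_smul])
      (by simp only [mul_smul, inv_smul_smul, CL.Hall4.inv_smul_inv hx]) (by
        intro y hy h1 h2
        rw [← hg'] at hy
        obtain ⟨y, hy', rfl⟩ := Finset.mem_smul_finset.1 hy
        simp only [Finset.mem_insert] at hy'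
        rcases hy' with rfl | rfl | hy'
        · exact absurd rfl h1
        · exact absurd rfl h2
        · simp only [mul_smul, inv_smul_smul, hfix y (hTS hy')])
    have hne : (⟨_, m1⟩ : Δ) ≠ ⟨_, m2⟩ := fun e =>
      ha (MulAction.injective g (congrArg Subtype.val e)).symm
    refine hn (CL.LW.trans_of_ind hh hΔ ?_)
    rw [eq_top_iff]
    intro σ _
    rcases Int.units_eq_one_or (Equiv.Perm.sign σ) with hσ | hσ
    · exact h3.alt_le (Equiv.Perm.mem_alternatingGroup.2 hσ)
    · have : σ * Equiv.swap ⟨_, m1⟩ ⟨_, m2⟩ ∈ alternatingGroup Δ := by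
        rw [Equiv.Perm.mem_alternatingGroup, map_mul, hσ, Equiv.Perm.sign_swap hne]; simp
      simpa [mul_assoc] using mul_mem (h3.alt_le this) hsw
  have H : CL.HallK.Ok G α t := ⟨ht, fun x hx S hS => key x hx S (by omega)⟩
  obtain ⟨z, hz, hz1, S, hS, hzS⟩ := H.exists_inv (by omega) (by omega)
  exact hz1 (key z hz S (by omega) hzS)

end Cfsg.Agent.S0748
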