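import Cfsg.Statements.S0752
import Cfsg.Agent.CLAS.WittHyp

set_option autoImplicit false
open Cfsg

namespace Cfsg.Agent.S0752

/-- Classification of alternating forms: for an alternating bilinear form B on a finite-dimensional space over any field there is a basis indexed by (Fin m ⊕ Fin m) ⊕ Fin k such that B (e_i, f_j) = δ_ij, the e's are pairwise orthogonal, the f's are pairwise orthogonal, and the last k basis vectors are orthogonal to everything (they span the radical). -/
theorem result {F V : Type*} [Field F] [AddCommGroup V] [Module F V] [FiniteDimensional F V] (B : LinearMap.BilinForm F V) (hA : B.IsAlt) : ∃ (m k : ℕ) (b : Module.Basis ((Fin m ⊕ Fin m) ⊕ Fin k) F V), (∀ i j : Fin m, B (b (Sum.inl (Sum.inl i))) (b (Sum.inl (Sum.inr j))) = if i = j then 1 else 0) ∧ (∀ i j : Fin m, B (b (Sum.inl (Sum.inl i))) (b (Sum.inl (Sum.inl j))) = 0) ∧ (∀ i j : Fin m, B (b (Sum.inl (Sum.inr i))) (b (Sum.inl (Sum.inr j))) = 0) ∧ (∀ (j : Fin k) (v : V), B (b (Sum.inr j)) v = 0) := by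
  obtain ⟨W, hW⟩ := Submodule.exists_isCompl (LinearMap.ker B)
  have hW' : ((CL.Witt.Form.ofAlt B hA).restrict W).Nondeg := fun x hx => by
    refine Subtype.ext (Submodule.disjoint_def.mp hW.disjoint x ?_ x.2)
    rw [LinearMap.mem_ker]
    ext v
    obtain ⟨r, w, rfl⟩ := CL.Witt.Form.exists_add_of_isCompl hW v
    have h1 : B x r = 0 := hA.isRefl _ _ (by simp [LinearMap.mem_ker.mp r.2])
    have h2 : B x w = 0 := hx w
    simp [h1, h2]
  obtain ⟨m, b, hb⟩ := hW'.exists_symplectic_basis
  let c := Module.finBasis F (LinearMap.ker B)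
  refine ⟨m, _, (b.prod c).map (W.prodEquivOfIsCompl _ hW.symm), fun i j => ?_, fun i j => ?_,
    fun i j => ?_, fun j v => ?_⟩
  · simpa using! hb.B_pair i j
  · simpa using! hb.B_left i j
  · simpa using! hb.B_right i j
  · simp [LinearMap.mem_ker.mp (c j).2]

end Cfsg.Agent.S0752
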