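import Cfsg.Statements.S0757


set_option autoImplicit false
open Cfsg

namespace Cfsg.Agent.S0757

/-- The two diagonal forms Σ x_i^2 and Σ_(i<n) x_i^2 + α x_n^2 on F^(n+1), with α a non-square and 2 ≠ 0 in F, are inequivalent quadratic forms (so over a finite field of odd order there are exactly two classes of non-singular symmetric bilinear forms in each dimension). -/
theorem result {F : Type*} [Field F] (h2 : (2 : F) ≠ 0) (n : ℕ) (α : F) (hα : ¬ IsSquare α) : ¬ (QuadraticMap.weightedSumSquares F (fun _ : Fin (n + 1) => (1 : F))).Equivalent (QuadraticMap.weightedSumSquares F (fun i : Fin (n + 1) => if i = Fin.last n then α else (1 : F))) := by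
  rintro ⟨e⟩
  have key : ∀ w : Fin (n + 1) → F, LinearMap.toMatrix₂ (Pi.basisFun F _) (Pi.basisFun F _)
      (QuadraticMap.polarBilin (QuadraticMap.weightedSumSquares F w)) =
        Matrix.diagonal fun i => 2 * w i := fun w => by
    ext i j
    simp only [LinearMap.toMatrix₂_apply, Pi.basisFun_apply, QuadraticMap.polarBilin_apply_apply,
      QuadraticMap.polar, QuadraticMap.weightedSumSquares_apply, Matrix.diagonal_apply,
      ← Finset.sum_sub_distrib, Pi.add_apply, smul_eq_mul]
    rw [Finset.sum_eq_single i]
    · by_cases h : i = j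
      · subst h; simp; ring
      · simp [h, Pi.single_apply]
    · intro k _ hk
      simp [hk, Pi.single_apply]
    · simp
  have h1 : QuadraticMap.polarBilin (QuadraticMap.weightedSumSquares F fun _ : Fin (n + 1) => (1 : F)) =
      (QuadraticMap.polarBilin (QuadraticMap.weightedSumSquares F
        (fun i : Fin (n + 1) => if i = Fin.last n then α else (1 : F)))).compl₁₂
        (e.toLinearEquiv : _ →ₗ[F] _) (e.toLinearEquiv : _ →ₗ[F] _) := by
    refine LinearMap.ext₂ fun x y => ?_
    simp only [QuadraticMap.polarBilin_apply_apply, QuadraticMap.polar, LinearMap.compl₁₂_apply,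
      LinearEquiv.coe_coe, ← map_add]
    rw [← e.map_app, ← e.map_app x, ← e.map_app y]; rfl
  have h3 := congrArg (fun B => (LinearMap.toMatrix₂ (Pi.basisFun F _) (Pi.basisFun F _) B).det) h1
  simp only [LinearMap.toMatrix₂_compl₁₂ (Pi.basisFun F _) (Pi.basisFun F _), key, Matrix.det_mul,
    Matrix.det_transpose, Matrix.det_diagonal, Finset.prod_mul_distrib] at h3
  simp only [Finset.prod_const_one, Finset.prod_ite_eq', Finset.mem_univ, if_true] at h3
  set d := (LinearMap.toMatrix (Pi.basisFun F _) (Pi.basisFun F _)
    (e.toLinearEquiv : (Fin (n + 1) → F) →ₗ[F] _)).det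
  have h4 : d * α * d = 1 := by
    have : (∏ _x : Fin (n + 1), (2 : F)) ≠ 0 := Finset.prod_ne_zero_iff.mpr fun _ _ => h2
    apply mul_left_cancel₀ this
    linear_combination -h3
  have hd : d ≠ 0 := by rintro h; simp [h] at h4
  exact hα ⟨d⁻¹, by field_simp; linear_combination h4⟩

end Cfsg.Agent.S0757
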