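import Cfsg.Statements.S0759
import Cfsg.Agent.CLAS.OrthSymm

set_option autoImplicit false
open Cfsg

namespace Cfsg.Agent.S0759

open CL.Orth CL.OrthE

/-- Type of the orthonormal form: over a finite field of odd order q and for m ≥ 1, the quadratic form Σ_(i<2m) x_i² on F^(2m) admits an m-dimensional subspace on which it vanishes identically if and only if it is not the case that q ≡ 3 (mod 4) and m is odd. -/
theorem result {F : Type*} [Field F] [Fintype F] (h2 : (2 : F) ≠ 0) (m : ℕ) (hm : 1 ≤ m) : (∃ W : Submodule F (Fin (2 * m) → F), Module.finrank F W = m ∧ ∀ w ∈ W, ∑ i, w i ^ 2 = 0) ↔ ¬ (Fintype.card F % 4 = 3 ∧ Odd m) := by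
  have hodd : Odd (Fintype.card F) := by
    rw [Nat.odd_iff]
    exact FiniteField.odd_card_of_char_ne_two (ringChar_ne_two_of h2)
  have hd : ∀ i : Fin (2 * m), (fun _ => (1 : F)) i ≠ 0 := fun _ => one_ne_zero
  have h := isPlus_iff_dsc h2 (QD_nondeg h2 hd) (m := m) (by simp)
  rw [dsc_QD h2 hd, sqSign_neg_one hodd, sqSign_of_isSquare (by
    simp only [mul_one, Finset.prod_const, Finset.card_univ, Fintype.card_fin]
    exact ⟨2 ^ m, by ring⟩)] at h
  have h1 : IsPlus (QD (fun _ : Fin (2 * m) => (1 : F))) ↔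
      ∃ W : Submodule F (Fin (2 * m) → F), Module.finrank F W = m ∧ ∀ w ∈ W, ∑ i, w i ^ 2 = 0 := by
    simp only [IsPlus, QD_apply, one_mul, Module.finrank_fintype_fun_eq_card, Fintype.card_fin]
    exact exists_congr fun W => ⟨fun h => ⟨by omega, h.1⟩, fun h => ⟨h.2, by omega⟩⟩
  rw [← h1, h]
  obtain ⟨k, hk⟩ := hodd
  split_ifs with h4
  · simp [h4]
  · rw [eq_comm, neg_one_pow_eq_one_iff_even (by decide), ← Nat.not_odd_iff_even]
    have : Fintype.card F % 4 = 3 := by omega
    simp [this]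

end Cfsg.Agent.S0759
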