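import Cfsg.Statements.S0761
import Cfsg.Agent.CLAS.WittStd

set_option autoImplicit false
open Cfsg

namespace Cfsg.Agent.S0761

/-- Hyperbolic partners: let B be a non-degenerate bilinear form on a finite-dimensional space, either alternating, or symmetric with 2 ≠ 0. If Z is a subspace on which B vanishes, x ∉ Z is isotropic and orthogonal to Z, then there is an isotropic y with B x y = 1 which is orthogonal to Z. -/
theorem result {F V : Type*} [Field F] [AddCommGroup V] [Module F V] [FiniteDimensional F V] (B : LinearMap.BilinForm F V) (hB : B.Nondegenerate) (hform : B.IsAlt ∨ (B.IsSymm ∧ (2 : F) ≠ 0)) (x : V) (Z : Submodule F V) (hxZ : x ∉ Z) (hx : B x x = 0) (hxz : ∀ z ∈ Z, B x z = 0) (hZ : ∀ z ∈ Z, ∀ z' ∈ Z, B z z' = 0) : ∃ y : V, B y y = 0 ∧ B x y = 1 ∧ ∀ z ∈ Z, B z y = 0 := by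
  rcases hform with hA | ⟨hS, h2⟩
  · have hf := (CL.Witt.Form.ofAlt_nondeg_iff B hA).mpr hB
    obtain ⟨w, hw, -, h⟩ := hf.exists_partner (p := x) rfl hxZ
      ((CL.Witt.Form.mem_perp' _).mpr hxz)
    exact ⟨w, hA w, h, hw⟩
  · let Q : QuadraticForm F V := LinearMap.BilinMap.toQuadraticMap ((2 : F)⁻¹ • B)
    have hQ : ∀ x y, QuadraticMap.polar Q x y = B x y := fun x y => by
      rw [LinearMap.BilinMap.polar_toQuadraticMap]
      simp only [LinearMap.smul_apply, smul_eq_mul]
      rw [hS.eq y x]; field_simp; ring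
    have hf : (CL.Witt.Form.ofQuad Q).Nondeg := fun x hx => hB.1 x fun y => (hQ x y).symm.trans (hx y)
    obtain ⟨w, hw, hq, h⟩ := hf.exists_partner (p := x)
      (by simp [CL.Witt.Form.ofQuad_q, Q, hx]) hxZ
      ((CL.Witt.Form.mem_perp' _).mpr fun z hz => (hQ x z).trans (hxz z hz))
    refine ⟨w, ?_, (hQ _ _).symm.trans h, fun z hz => (hQ _ _).symm.trans (hw z hz)⟩
    simpa [CL.Witt.Form.ofQuad_q, Q, h2] using hq

end Cfsg.Agent.S0761
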