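import Cfsg.Statements.S0762


set_option autoImplicit false
open Cfsg

namespace Cfsg.Agent.S0762

/-- In characteristic two over a finite field, a quadratic form on a space of dimension at least 3 vanishes on some non-zero vector. -/
theorem result {F V : Type*} [Field F] [Finite F] [CharP F 2] [AddCommGroup V] [Module F V] [FiniteDimensional F V] (Q : QuadraticForm F V) (h3 : 3 ≤ Module.finrank F V) : ∃ v : V, v ≠ 0 ∧ Q v = 0 := by
  by_contra! H
  obtain ⟨r, hr, hr0⟩ : ∃ u v : V, LinearIndependent F ![u, v] ∧ QuadraticMap.polar Q u v = 0 := by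
    have : Nontrivial V := Module.nontrivial_of_finrank_pos (R := F) (by omega)
    obtain ⟨u, hu⟩ := exists_ne (0 : V)
    have h1 := LinearMap.finrank_range_add_finrank_ker (QuadraticMap.polarBilin Q u)
    have h2 : Module.finrank F (LinearMap.range (QuadraticMap.polarBilin Q u)) ≤ 1 := by
      simpa using Submodule.finrank_le (LinearMap.range (QuadraticMap.polarBilin Q u))
    have h4 : ¬ LinearMap.ker (QuadraticMap.polarBilin Q u) ≤ F ∙ u := fun h => by
      have := Submodule.finrank_mono h
      rw [finrank_span_singleton hu] at this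
      omega
    obtain ⟨v, hv, hv'⟩ := SetLike.not_le_iff_exists.mp h4
    refine ⟨u, v, (LinearIndependent.pair_iff' hu).mpr fun a h => hv' ?_, hv⟩
    exact h ▸ Submodule.smul_mem _ _ (Submodule.mem_span_singleton_self u)
  obtain ⟨hli, hp⟩ := hr0
  obtain ⟨c, hc⟩ := (bijective_frobenius F 2).2 (Q hr / Q r)
  have h0 : r ≠ 0 := hli.ne_zero 0
  refine H (c • r + hr) (fun h => ?_) ?_
  · simpa using (LinearIndependent.pair_iff.mp hli c 1 (by simpa using h)).2
  · rw [QuadraticMap.map_add Q, QuadraticMap.polar_smul_left, hp, QuadraticMap.map_smul, ← sq,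
      ← frobenius_def, hc, smul_eq_mul, div_mul_cancel₀ _ (H r h0)]
    simp [CharTwo.add_self_eq_zero]

end Cfsg.Agent.S0762
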