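import Cfsg.Statements.S0763
import Cfsg.Agent.CLAS.OrthSymm

set_option autoImplicit false
open Cfsg

namespace Cfsg.Agent.S0763

open CL.Orth CL.OrthE

/-- Binary quadratic forms in characteristic two over a finite field: if Q is a quadratic form on a 2-dimensional space whose polar form is non-degenerate, then either there are vectors v, w with Q v = Q w = 0 and polar value 1 (Q is xy in these coordinates), or there are v, w and μ with Q v = 1, Q w = μ, polar value 1 and x² + x + μ without roots in F (Q is x² + xy + μy²). -/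
theorem result {F V : Type*} [Field F] [Finite F] [CharP F 2] [AddCommGroup V] [Module F V] (Q : QuadraticForm F V) (h2 : Module.finrank F V = 2) (hQ : (QuadraticMap.polarBilin Q).Nondegenerate) : (∃ v w : V, LinearIndependent F ![v, w] ∧ Q v = 0 ∧ Q w = 0 ∧ QuadraticMap.polar Q v w = 1) ∨ (∃ (v w : V) (μ : F), LinearIndependent F ![v, w] ∧ (∀ x : F, x ^ 2 + x + μ ≠ 0) ∧ Q v = 1 ∧ Q w = μ ∧ QuadraticMap.polar Q v w = 1) := by
  have : FiniteDimensional F V := Module.finite_of_finrank_pos (by omega)
  have h20 : (2 : F) = 0 := CharTwo.two_eq_zero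
  rcases even_structure hQ (m := 0) h2 with ⟨e, f, h⟩ | ⟨-, -, x, y, -, -, -, hx, hxy, hy⟩
  · refine Or.inl ⟨e 0, f 0, ?_, h.Qe 0, h.Qf 0, by simpa using h.ef 0 0⟩
    rw [LinearIndependent.pair_iff]
    intro s t hst
    have h1 := congrArg (QuadraticMap.polar Q (e 0)) hst
    have h3 := congrArg (QuadraticMap.polar Q (f 0)) hst
    simp only [QuadraticMap.polar_add_right, polar_smul_right', h.ee, h.ef, h.ff, h.fe] at h1 h3
    exact ⟨by simpa using h3, by simpa using h1⟩
  · refine Or.inr ⟨x, y, Q y, ?_, hy, hx, rfl, hxy⟩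
    rw [LinearIndependent.pair_iff]
    intro s t hst
    have h1 := congrArg (QuadraticMap.polar Q x) hst
    have h3 := congrArg (QuadraticMap.polar Q y) hst
    simp only [QuadraticMap.polar_add_right, polar_smul_right', polar_self', h20, hxy,
      QuadraticMap.polar_comm Q y x] at h1 h3
    exact ⟨by simpa using h3, by simpa using h1⟩

end Cfsg.Agent.S0763
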