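import Cfsg.Statements.S0767

set_option autoImplicit false
open Cfsg

namespace Cfsg.Agent.S0767

open Matrix

theorem dot_J_self {F : Type*} [Field F] (m : ℕ) (v : Fin m ⊕ Fin m → F) :
    (Matrix.J (Fin m) F *ᵥ v) ⬝ᵥ v = 0 := by
  have hv : v = Sum.elim (v ∘ Sum.inl) (v ∘ Sum.inr) := by ext (i | i) <;> rfl
  rw [hv, Matrix.J, fromBlocks_mulVec]
  simp [dotProduct, mul_comm, neg_mulVec]

/-- The root group of a point: T_v(c) T_v(d) = T_v(c + d), and for A in the symplectic group with A v = a v, the conjugate A T_v(c) A⁻¹ is again some T_v(d). -/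
theorem result {F : Type*} [Field F] (m : ℕ) (v : Fin m ⊕ Fin m → F) : (∀ c d : F, Cfsg.sympTransvection m v c * Cfsg.sympTransvection m v d = Cfsg.sympTransvection m v (c + d)) ∧ ∀ (A : Matrix (Fin m ⊕ Fin m) (Fin m ⊕ Fin m) F) (a : F), A ∈ Matrix.symplecticGroup (Fin m) F → A.mulVec v = a • v → ∀ c : F, ∃ d : F, A * Cfsg.sympTransvection m v c * A⁻¹ = Cfsg.sympTransvection m v d := by
  refine ⟨fun c d => ?_, fun A a hA hv c => ⟨c * a * a, ?_⟩⟩
  · simp only [sympTransvection, add_mul, mul_add, one_mul, mul_one, smul_mul_smul_comm, vecMulVec_mul_vecMulVec,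
      dot_J_self, add_smul]
    simp [add_comm, add_left_comm, add_assoc]
  · have hu : IsUnit A.det := SymplecticGroup.symplectic_det hA
    have hinv : A⁻¹ᵀ * Matrix.J (Fin m) F = Matrix.J (Fin m) F * A := by
      have h := SymplecticGroup.mem_iff'.1 hA
      have huT : IsUnit Aᵀ.det := by rwa [det_transpose]
      conv_lhs => rw [← h, transpose_nonsing_inv, ← Matrix.mul_assoc, ← Matrix.mul_assoc,
        nonsing_inv_mul _ huT, Matrix.one_mul]
    simp only [sympTransvection, add_mul, mul_add, mul_one, mul_nonsing_inv _ hu, Matrix.mul_smul,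
      Matrix.smul_mul, mul_vecMulVec, vecMulVec_mul]
    rw [← mulVec_transpose, mulVec_mulVec, hinv, ← mulVec_mulVec, hv, mulVec_smul]
    congr 1
    ext i j
    simp [vecMulVec_apply]
    ring

end Cfsg.Agent.S0767
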