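import Cfsg.Statements.S0768
import Cfsg.Agent.CLAS.SpForm

set_option autoImplicit false
open scoped LinearAlgebra.Projectivization
open Cfsg

namespace Cfsg.Agent.S0768

/-- Primitivity: for m ≥ 1 and F finite, the symplectic group of the form sympForm (as a subgroup of the general linear group) acts primitively on the projective space of F^(2m). -/
theorem result {F : Type*} [Field F] [Finite F] (m : ℕ) (hm : 1 ≤ m) : MulAction.IsPreprimitive ↥(Cfsg.spGL m F) (ℙ F (Fin m ⊕ Fin m → F)) := by
  have : Nonempty (Fin m) := ⟨⟨0, by omega⟩⟩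
  have := (CL.Sp.spForm_nondeg m F).isPreprimitive_alt
  let e : ℙ F (Fin m ⊕ Fin m → F) →ₑ[(CL.Sp.spGLEquiv m F).symm] ℙ F (Fin m ⊕ Fin m → F) :=
    { toFun := id
      map_smul' := fun g p => by
        obtain ⟨g, rfl⟩ := (CL.Sp.spGLEquiv m F).surjective g
        rw [MulEquiv.symm_apply_apply]
        induction p using Projectivization.ind with | _ v hv => rfl }
  exact MulAction.IsPreprimitive.of_surjective (f := e) Function.surjective_id

end Cfsg.Agent.S0768
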