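import Cfsg.Statements.S0769

set_option autoImplicit false
open Cfsg

namespace Cfsg.Agent.S0769

open Matrix

theorem card_aux {F : Type*} [Field F] [Fintype F] (n : ℕ) :
    Nat.card {g : Matrix.GeneralLinearGroup (Fin n) F //
      ∀ i j : Fin n, i < j → (g : Matrix (Fin n) (Fin n) F) i j = 0} =
    Nat.card ((Fin n → Fˣ) × ({p : Fin n × Fin n // p.2 < p.1} → F)) := by
  classical
  have hdet : ∀ M : Matrix (Fin n) (Fin n) F, (∀ i j : Fin n, i < j → M i j = 0) → M.det = ∏ i, M i i := by
    intro M hM
    apply Matrix.det_of_lowerTriangular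
    intro i j hij
    exact hM i j hij
  let mat : ((Fin n → Fˣ) × ({p : Fin n × Fin n // p.2 < p.1} → F)) → Matrix (Fin n) (Fin n) F :=
    fun x => Matrix.of fun i j => if h : j < i then x.2 ⟨(i, j), h⟩ else if i = j then x.1 i else 0
  have hmat : ∀ x, ∀ i j : Fin n, i < j → mat x i j = 0 := by
    intro x i j hij
    simp [mat, hij.ne, not_lt.2 hij.le]
  have hmatdet : ∀ x, (mat x).det ≠ 0 := by
    intro x
    rw [hdet _ (hmat x), Finset.prod_ne_zero_iff]
    intro i _
    simp [mat]
  symm
  apply Nat.card_congr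
  refine Equiv.ofBijective (fun x => ⟨Matrix.GeneralLinearGroup.mkOfDetNeZero (mat x) (hmatdet x), hmat x⟩) ⟨?_, ?_⟩
  · intro x y h
    have h' : mat x = mat y := congrArg (fun g => (g.1 : Matrix (Fin n) (Fin n) F)) h
    ext
    · rename_i i
      have := congrFun (congrFun h' i) i
      simpa [mat] using this
    · rename_i p
      have := congrFun (congrFun h' p.1.1) p.1.2
      simpa [mat, p.2] using this
  · rintro ⟨g, hg⟩
    have hd : ∀ i, (g : Matrix (Fin n) (Fin n) F) i i ≠ 0 := by
      have h1 : (g : Matrix (Fin n) (Fin n) F).det ≠ 0 := Matrix.GeneralLinearGroup.det_ne_zero g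
      rw [hdet _ hg, Finset.prod_ne_zero_iff] at h1
      exact fun i => h1 i (Finset.mem_univ i)
    refine ⟨(fun i => Units.mk0 _ (hd i), fun p => (g : Matrix (Fin n) (Fin n) F) p.1.1 p.1.2), ?_⟩
    apply Subtype.ext
    apply Units.ext
    ext i j
    change mat _ i j = _
    simp only [mat, Matrix.of_apply, Units.val_mk0]
    split_ifs with h1 h2
    · rfl
    · rw [h2]
    · exact (hg i j (lt_of_le_of_ne (not_lt.1 h1) h2)).symm

theorem card_lt_pairs (n : ℕ) : Fintype.card {p : Fin n × Fin n // p.2 < p.1} = n * (n - 1) / 2 := by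
  classical
  rw [Fintype.card_subtype, ← Finset.sum_range_id, Finset.card_filter, Fintype.sum_prod_type,
    ← Fin.sum_univ_eq_sum_range (fun i => i) n]
  refine Finset.sum_congr rfl fun i _ => ?_
  rw [← Finset.card_filter]
  have : (Finset.univ.filter fun j : Fin n => j < i) = Finset.Iio i := by ext; simp
  simp [this]

/-- Order of the Borel subgroup of GL_n(q): the invertible lower-triangular n × n matrices over a field with q elements number q^(n(n-1)/2) (q-1)^n (unitriangular part times the diagonal torus). -/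
theorem result {F : Type*} [Field F] [Fintype F] {q : ℕ} (hF : Fintype.card F = q) (n : ℕ) : Nat.card {g : Matrix.GeneralLinearGroup (Fin n) F // ∀ i j : Fin n, i < j → (g : Matrix (Fin n) (Fin n) F) i j = 0} = q ^ (n * (n - 1) / 2) * (q - 1) ^ n := by
  classical
  rw [card_aux, Nat.card_eq_fintype_card, Fintype.card_prod, Fintype.card_fun, Fintype.card_fun, card_lt_pairs,
    Fintype.card_units, hF, Fintype.card_fin, mul_comm]

end Cfsg.Agent.S0769
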