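import Cfsg.Statements.S0770

set_option autoImplicit false
open Cfsg

namespace Cfsg.Agent.S0770

open Matrix

/-- For a field with at least 3 elements, an invertible matrix normalises the subgroup of invertible diagonal matrices of GL_n if and only if it is monomial (exactly one non-zero entry in each row). -/
theorem result {F : Type*} [Field F] (hF : ∃ a : F, a ≠ 0 ∧ a ≠ 1) (n : ℕ) (g : Matrix.GeneralLinearGroup (Fin n) F) : g ∈ Subgroup.normalizer ((Units.map (Matrix.diagonalRingHom (Fin n) F).toMonoidHom).range : Subgroup (Matrix.GeneralLinearGroup (Fin n) F)) ↔ ∀ i : Fin n, ∃! j : Fin n, (g : Matrix (Fin n) (Fin n) F) i j ≠ 0 := by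
  classical
  obtain ⟨a, ha0, ha1⟩ := hF
  set D : Subgroup (Matrix.GeneralLinearGroup (Fin n) F) :=
    (Units.map (Matrix.diagonalRingHom (Fin n) F).toMonoidHom).range with hD
  have memD : ∀ h : Matrix.GeneralLinearGroup (Fin n) F,
      h ∈ D ↔ ∃ d : Fin n → F, (h : Matrix (Fin n) (Fin n) F) = Matrix.diagonal d := by
    intro h
    constructor
    · rintro ⟨u, rfl⟩
      exact ⟨(u : Fin n → F), rfl⟩
    · rintro ⟨d, hd⟩
      have hdet : (Matrix.diagonal d).det ≠ 0 := by
        rw [← hd]; exact h.det_ne_zero
      rw [Matrix.det_diagonal, Finset.prod_ne_zero_iff] at hdet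
      have hu : IsUnit d := by
        rw [Pi.isUnit_iff]
        intro i
        exact (hdet i (Finset.mem_univ i)).isUnit
      refine ⟨hu.unit, Units.ext ?_⟩
      rw [hd]
      rfl
  have hdet : (g : Matrix (Fin n) (Fin n) F).det ≠ 0 := g.det_ne_zero
  have hrow : ∀ i, ∃ j, (g : Matrix (Fin n) (Fin n) F) i j ≠ 0 := by
    intro i
    by_contra h
    push Not at h
    exact hdet (Matrix.det_eq_zero_of_row_eq_zero i h)
  have hcol : ∀ j, ∃ i, (g : Matrix (Fin n) (Fin n) F) i j ≠ 0 := by
    intro j
    by_contra h
    push Not at h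
    exact hdet (Matrix.det_eq_zero_of_column_eq_zero j h)
  rw [Subgroup.mem_normalizer_iff]
  constructor
  · intro hg i
    obtain ⟨j, hj⟩ := hrow i
    refine ⟨j, hj, fun k hk => ?_⟩
    by_contra hkj
    have hne : (Matrix.diagonal (Function.update (fun _ => (1 : F)) j a)).det ≠ 0 := by
      rw [Matrix.det_diagonal, Finset.prod_ne_zero_iff]
      intro l _
      by_cases hl : l = j
      · subst hl; simpa using ha0
      · simp [Function.update_of_ne hl]
    set h : Matrix.GeneralLinearGroup (Fin n) F := Matrix.GeneralLinearGroup.mkOfDetNeZero _ hne with hh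
    have hhD : h ∈ D := (memD h).2 ⟨_, rfl⟩
    obtain ⟨e, he⟩ := (memD _).1 ((hg h).1 hhD)
    have h1 : (g : Matrix (Fin n) (Fin n) F) * Matrix.diagonal (Function.update (fun _ => (1 : F)) j a)
        = Matrix.diagonal e * (g : Matrix (Fin n) (Fin n) F) := by
      rw [← he]
      have : (Matrix.diagonal (Function.update (fun _ => (1 : F)) j a)) = (h : Matrix (Fin n) (Fin n) F) := rfl
      rw [this, ← Units.val_mul, ← Units.val_mul, inv_mul_cancel_right]
    have e1 := congrFun (congrFun h1 i) j
    have e2 := congrFun (congrFun h1 i) k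
    rw [Matrix.mul_diagonal, Matrix.diagonal_mul] at e1 e2
    rw [Function.update_self, mul_comm] at e1
    rw [Function.update_of_ne hkj, mul_comm] at e2
    have f1 := mul_right_cancel₀ hj e1
    have f2 := mul_right_cancel₀ hk e2
    exact ha1 (f1.trans f2.symm)
  · intro hg
    choose σ hσ hu using hg
    have hsurj : Function.Surjective σ := by
      intro j
      obtain ⟨i, hi⟩ := hcol j
      exact ⟨i, (hu i j hi).symm⟩
    have hinj : Function.Injective σ := Finite.injective_iff_surjective.2 hsurj
    have key : ∀ d : Fin n → F, (g : Matrix (Fin n) (Fin n) F) * Matrix.diagonal d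
        = Matrix.diagonal (d ∘ σ) * (g : Matrix (Fin n) (Fin n) F) := by
      intro d
      ext i j
      rw [Matrix.mul_diagonal, Matrix.diagonal_mul]
      by_cases hij : (g : Matrix (Fin n) (Fin n) F) i j = 0
      · simp [hij]
      · rw [hu i j hij, mul_comm]; rfl
    intro h
    rw [memD, memD]
    constructor
    · rintro ⟨d, hd⟩
      refine ⟨d ∘ σ, ?_⟩
      rw [Units.val_mul, Units.val_mul, hd, key, mul_assoc, ← Units.val_mul, mul_inv_cancel, Units.val_one, mul_one]
    · rintro ⟨e, he⟩
      let s := Equiv.ofBijective σ ⟨hinj, hsurj⟩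
      refine ⟨e ∘ s.symm, ?_⟩
      have h2 := key (e ∘ s.symm)
      have h3 : (e ∘ s.symm) ∘ σ = e := by
        funext i
        show e (s.symm (s i)) = e i
        rw [Equiv.symm_apply_apply]
      rw [h3, ← he, ← Units.val_mul, inv_mul_cancel_right, Units.val_mul] at h2
      have h4 := congrArg (fun M => ((g⁻¹ : Matrix.GeneralLinearGroup (Fin n) F) : Matrix (Fin n) (Fin n) F) * M) h2
      simp only [← mul_assoc, ← Units.val_mul, inv_mul_cancel, Units.val_one, one_mul] at h4
      exact h4.symm

end Cfsg.Agent.S0770
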