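import Cfsg.Statements.S0773
import Cfsg.Agent.CLAS.CoordStab

set_option autoImplicit false
open Cfsg

namespace Cfsg.Agent.S0773

open CL.Coord

/-- The stabilisers in GL_n(F), F finite, of the coordinate subspaces of dimensions k and n − k are isomorphic groups, but when 2k ≠ n (and 0 < k < n) no element of GL_n conjugates one onto the other. -/
theorem result {F : Type*} [Field F] [Finite F] (n k : ℕ) (hk0 : 0 < k) (hkn : k < n) (h2 : 2 * k ≠ n) : Nonempty (↥(Cfsg.stabilizing (Cfsg.glToMat (Fin n) F) {v : Fin n → F | ∀ i : Fin n, k ≤ (i : ℕ) → v i = 0}) ≃* ↥(Cfsg.stabilizing (Cfsg.glToMat (Fin n) F) {v : Fin n → F | ∀ i : Fin n, n - k ≤ (i : ℕ) → v i = 0})) ∧ ∀ g : Matrix.GeneralLinearGroup (Fin n) F, (Cfsg.stabilizing (Cfsg.glToMat (Fin n) F) {v : Fin n → F | ∀ i : Fin n, k ≤ (i : ℕ) → v i = 0}).map (MulAut.conj g).toMonoidHom ≠ Cfsg.stabilizing (Cfsg.glToMat (Fin n) F) {v : Fin n → F | ∀ i : Fin n, n - k ≤ (i : ℕ) → v i = 0} := by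
  rw [stab_eq, stab_eq]
  constructor
  · rw [← map_dualRev hkn.le]
    exact ⟨(dualRev n F).subgroupMap _⟩
  · intro g hg
    rw [map_conj_stab] at hg
    have h0 : (cs n k F).map (CL.Tv.act g : (Fin n → F) →ₗ[F] (Fin n → F)) ≠ ⊥ := by
      rw [Ne, Submodule.map_eq_bot_iff]
      exact cs_ne_bot hk0 hkn
    have h1 := eq_of_stab_eq h0 (cs_ne_bot (by omega) (by omega)) hg
    have h2' := congrArg (fun W : Submodule F (Fin n → F) => Module.finrank F W) h1
    simp only [LinearEquiv.finrank_map_eq] at h2'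
    rw [finrank_cs hkn.le, finrank_cs (Nat.sub_le n k)] at h2'
    omega

end Cfsg.Agent.S0773
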