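import Cfsg.Statements.S0774
import Cfsg.Agent.CLAS.SpForm
import Cfsg.Agent.CLAS.WittFlag

set_option autoImplicit false
open Cfsg

namespace Cfsg.Agent.S0774

/-- Borel subgroup of the symplectic group: the elements of Sp_2m(q) stabilising each of the totally isotropic coordinate subspaces ⟨e_0, ..., e_k⟩ (k < m) form a subgroup of order q^(m²) (q − 1)^m. -/
theorem result {F : Type*} [Field F] [Fintype F] {q : ℕ} (hF : Fintype.card F = q) (m : ℕ) : Nat.card ↥(⨅ k : Fin m, Cfsg.stabilizing (Cfsg.spToMat m F) {v : Fin m ⊕ Fin m → F | (∀ i : Fin m, (k : ℕ) < (i : ℕ) → v (Sum.inl i) = 0) ∧ ∀ i : Fin m, v (Sum.inr i) = 0}) = q ^ (m ^ 2) * (q - 1) ^ m := by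
  have hf := CL.Sp.spForm_nondeg m F
  have h := CL.Sp.isHyp_std m F
  have h2 : (CL.Witt.FormType.alt F).π.ker = ⊤ := by ext a; simp [CL.Witt.FormType.alt_π]
  have key : ∀ k : Fin m, {v : Fin m ⊕ Fin m → F | (∀ i : Fin m, (k : ℕ) < (i : ℕ) → v (Sum.inl i) = 0) ∧
      ∀ i : Fin m, v (Sum.inr i) = 0} = (Submodule.span F ((fun i => Pi.single (Sum.inl i) 1) ''
        Set.Iic k) : Submodule F (Fin m ⊕ Fin m → F)) := fun k => by
    ext v
    have := (Pi.basisFun F (Fin m ⊕ Fin m)).mem_span_image (m := v) (s := Sum.inl '' Set.Iic k)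
    simp only [Set.image_image, Pi.basisFun_apply] at this
    rw [SetLike.mem_coe, this]
    simp only [Set.subset_def, Finset.mem_coe, Finsupp.mem_support_iff, Pi.basisFun_repr,
      Sum.forall, Set.mem_setOf_eq]
    refine and_congr (forall_congr' fun i => ?_) (forall_congr' fun i => by simp)
    rw [← not_imp_not]; simp
  have e := CL.Sp.subgroupEquiv (H := ⨅ k : Fin m, Cfsg.stabilizing (Cfsg.spToMat m F)
    {v : Fin m ⊕ Fin m → F | (∀ i : Fin m, (k : ℕ) < (i : ℕ) → v (Sum.inl i) = 0) ∧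
      ∀ i : Fin m, v (Sum.inr i) = 0}) (K := (CL.Sp.spForm m F).O ⊓ ⨅ j : Fin m,
        (CL.Sp.spForm m F).stab (Submodule.span F ((fun i => Pi.single (Sum.inl i) 1) ''
        Set.Iic j))) inf_le_left fun A => by
    simp only [key, Subgroup.mem_iInf, Subgroup.mem_inf, CL.Sp.mem_stabilizing_iff]
    exact (and_iff_right (Subtype.prop _)).symm
  rw [Nat.card_congr e.toEquiv, hf.card_flag_stab h.linearIndependent_left h.totSing_left,
    hf.card_fix_isHyp h, h2, AddSubgroup.card_top, CL.Witt.Form.Nondeg.card_O_alt 0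
      (hf.restrict_perp h.restrict_nondeg)
      (by rw [h.finrank_perp, CL.Sp.finrank_sp, Fintype.card_fin]; omega),
    Nat.card_eq_fintype_card, hF, CL.Sp.finrank_sp, Fintype.card_fin]
  have h3 : ∀ j : ℕ, q ^ (j + 1) - q ^ j = q ^ j * (q - 1) := fun j => by
    rw [Nat.mul_sub, pow_succ, mul_one]
  simp only [h3, Finset.prod_mul_distrib, Finset.prod_pow_eq_pow_sum, Finset.prod_const,
    Finset.card_univ, Fintype.card_fin]
  rw [Fin.sum_univ_eq_sum_range (fun i => i) m, Finset.sum_range_id]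
  have h4 : m ^ 2 = m * (m - 1) / 2 + m * (m - 1) / 2 + m := by
    have := Nat.div_mul_cancel (Nat.even_mul_pred_self m).two_dvd
    cases m with
    | zero => rfl
    | succ m => simp only [Nat.add_sub_cancel] at this ⊢; nlinarith
  rw [h4]; simp; ring

end Cfsg.Agent.S0774
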