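import Cfsg.Statements.S0775
import Cfsg.Agent.CLAS.SpForm

set_option autoImplicit false
open Cfsg

namespace Cfsg.Agent.S0775

/-- Maximal parabolics of the symplectic group: if W is a k-dimensional subspace of F^(2m) on which the symplectic form vanishes identically, its stabiliser in Sp_2m(q) has order q^(k(k+1)/2 + 2k(m−k)) · |Sp_(2m−2k)(q)| · |GL_k(q)|. -/
theorem result {F : Type*} [Field F] [Fintype F] {q : ℕ} (hF : Fintype.card F = q) (m k : ℕ) (hk : k ≤ m) (W : Submodule F (Fin m ⊕ Fin m → F)) (hWk : Module.finrank F W = k) (hW : ∀ u ∈ W, ∀ v ∈ W, Cfsg.sympForm m F u v = 0) : Nat.card ↥(Cfsg.stabilizing (Cfsg.spToMat m F) (W : Set (Fin m ⊕ Fin m → F))) = q ^ (k * (k + 1) / 2 + 2 * k * (m - k)) * (q ^ ((m - k) ^ 2) * ∏ i ∈ Finset.range (m - k), (q ^ (2 * (i + 1)) - 1)) * ∏ i : Fin k, (q ^ k - q ^ (i : ℕ)) := by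
  have hf := CL.Sp.spForm_nondeg m F
  have hW' : (CL.Sp.spForm m F).TotSing W := ((CL.Sp.spForm m F).alt_totSing_iff W).mpr
    fun u hu v hv => (CL.Sp.spForm_B m F _ _).trans (hW u hu v hv)
  obtain ⟨e, e', h, rfl⟩ := hf.exists_isHyp_of_totSing hW' hWk
  have h2 : (CL.Witt.FormType.alt F).π.ker = ⊤ := by ext a; simp [CL.Witt.FormType.alt_π]
  rw [Nat.card_congr (CL.Sp.stabilizingEquiv _).toEquiv, hf.card_stab_isHyp h, h2,
    AddSubgroup.card_top, CL.Witt.Form.Nondeg.card_O_alt (m - k)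
      (hf.restrict_perp h.restrict_nondeg)
      (by rw [h.finrank_perp, CL.Sp.finrank_sp, Fintype.card_fin]; omega),
    Nat.card_eq_fintype_card, hF, CL.Sp.finrank_sp, ← pow_add, mul_comm]
  congr 3
  have h1 : k * (k + 1) / 2 = k * (k - 1) / 2 + k := by
    rw [← Nat.add_mul_div_right _ _ two_pos]
    congr 1
    cases k with
    | zero => rfl
    | succ k => simp; ring
  rw [h1, ← Nat.mul_sub]; ring

end Cfsg.Agent.S0775
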