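import Cfsg.Statements.S0776
import Cfsg.Agent.CLAS.SpForm

set_option autoImplicit false
open Cfsg

namespace Cfsg.Agent.S0776

/-- If W ≤ F^(2m) is a 2k-dimensional subspace on which the symplectic form is non-degenerate, then the stabiliser of W in Sp_2m(F) is isomorphic to Sp_2k(F) × Sp_(2m−2k)(F). -/
theorem result {F : Type*} [Field F] (m k : ℕ) (hk : k ≤ m) (W : Submodule F (Fin m ⊕ Fin m → F)) (hWk : Module.finrank F W = 2 * k) (hW : ∀ u ∈ W, (∀ v ∈ W, Cfsg.sympForm m F u v = 0) → u = 0) : Nonempty (↥(Cfsg.stabilizing (Cfsg.spToMat m F) (W : Set (Fin m ⊕ Fin m → F))) ≃* Matrix.symplecticGroup (Fin k) F × Matrix.symplecticGroup (Fin (m - k)) F) := by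
  have hf := CL.Sp.spForm_nondeg m F
  have hW' : ((CL.Sp.spForm m F).restrict W).Nondeg := fun x hx =>
    Subtype.ext (hW x x.2 fun v hv => (CL.Sp.spForm_B m F _ _).symm.trans (hx ⟨v, hv⟩))
  obtain ⟨e1⟩ := CL.Sp.nonempty_O_equiv hW' hWk
  obtain ⟨e2⟩ := CL.Sp.nonempty_O_equiv (m := m - k) (hf.restrict_perp hW')
    (by rw [hf.finrank_perp, hWk, CL.Sp.finrank_sp]; omega)
  exact ⟨((CL.Sp.stabilizingEquiv W).trans ((CL.Sp.spForm m F).stabEquivProd
    ((CL.Sp.spForm m F).isCompl_perp_of_restrict_nondeg hW'))).trans (e1.prodCongr e2)⟩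

end Cfsg.Agent.S0776
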