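import Cfsg.Statements.S0777
import Cfsg.Agent.CLAS.SpForm
import Cfsg.Agent.CLAS.SLBasic

set_option autoImplicit false
open Cfsg

namespace Cfsg.Agent.S0777

open CL.Witt Matrix

variable {F : Type*} [Field F] {m : ℕ}

/-- The coordinate vectors. -/
abbrev ee (x : Fin m ⊕ Fin m) : Fin m ⊕ Fin m → F := Pi.single x 1

theorem ee_ne (x : Fin m ⊕ Fin m) : (ee x : _ → F) ≠ 0 := by simp

theorem mem_T_iff (A : symplecticGroup (Fin m) F) :
    A ∈ (⨅ i : Fin m ⊕ Fin m, Cfsg.stabilizing (Cfsg.spToMat m F) ((Submodule.span F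
      {(Pi.single i (1 : F) : Fin m ⊕ Fin m → F)} : Submodule F (Fin m ⊕ Fin m → F)) :
        Set (Fin m ⊕ Fin m → F))) ↔ ∀ x, ∃ c : F, A.1 *ᵥ ee x = c • ee x := by
  simp only [Subgroup.mem_iInf, CL.Sp.mem_stabilizing_iff, Form.mem_stab_iff_le]
  refine forall_congr' fun x => ⟨fun h => ?_, fun ⟨c, hc⟩ => ⟨Subtype.prop _, fun v hv => ?_⟩⟩
  · obtain ⟨c, hc⟩ := Submodule.mem_span_singleton.mp (h.2 _ (Submodule.mem_span_singleton_self _))
    exact ⟨c, hc.symm⟩
  · obtain ⟨a, rfl⟩ := Submodule.mem_span_singleton.mp hv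
    rw [map_smul, CL.Sp.spEquiv_apply, hc]
    exact Submodule.smul_mem _ _ (Submodule.smul_mem _ _ (Submodule.mem_span_singleton_self _))

theorem mulVec_ne_zero (A : symplecticGroup (Fin m) F) {v : Fin m ⊕ Fin m → F} (hv : v ≠ 0) :
    A.1 *ᵥ v ≠ 0 := by
  rw [← CL.Sp.spEquiv_apply]; simpa using hv

theorem inv_mulVec (A : symplecticGroup (Fin m) F) (v : Fin m ⊕ Fin m → F) :
    (A⁻¹).1 *ᵥ (A.1 *ᵥ v) = v := by
  rw [mulVec_mulVec, ← Submonoid.coe_mul, inv_mul_cancel]; simp

theorem exists_diag {a : F} (ha : a ≠ 0) (y : Fin m ⊕ Fin m) :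
    ∃ t : symplecticGroup (Fin m) F, t.1 = diagonal
      fun z => if z = y then a else if z = y.swap then a⁻¹ else 1 := by
  refine ⟨⟨diagonal fun z => if z = y then a else if z = y.swap then a⁻¹ else 1,
    CL.Sp.mem_symplecticGroup_iff.mpr fun u v => ?_⟩, rfl⟩
  simp only [CL.Sp.sympForm_eq]
  simp only [mulVec_diagonal]
  refine Finset.sum_congr rfl fun i _ => ?_
  rcases y with y | y <;> by_cases h : i = y <;> simp [h] <;> field_simp

theorem mem_N_iff {a : F} (ha : a ≠ 0) (ha2 : a ^ 2 ≠ 1) (A : symplecticGroup (Fin m) F) :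
    A ∈ Subgroup.normalizer ((⨅ i : Fin m ⊕ Fin m, Cfsg.stabilizing (Cfsg.spToMat m F)
      ((Submodule.span F {(Pi.single i (1 : F) : Fin m ⊕ Fin m → F)} :
        Submodule F (Fin m ⊕ Fin m → F)) : Set (Fin m ⊕ Fin m → F)) :
          Subgroup (symplecticGroup (Fin m) F)) : Set (symplecticGroup (Fin m) F)) ↔
      ∀ x, ∃ (y : _) (c : F), A.1 *ᵥ ee x = c • ee y := by
  rw [Subgroup.mem_normalizer_iff'']
  simp only [mem_T_iff]
  constructor
  · intro h x
    obtain ⟨y, hy⟩ := Function.ne_iff.mp (mulVec_ne_zero A (ee_ne x))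
    refine ⟨y, (A.1 *ᵥ ee x) y, ?_⟩
    obtain ⟨t, ht⟩ := exists_diag ha y
    obtain ⟨c, hc⟩ := (h t).mp (fun z => ⟨if z = y then a else if z = y.swap then a⁻¹ else 1, by
      rw [ht]; ext w; by_cases hw : w = z <;> simp [hw, mulVec_diagonal]⟩) x
    have h1 : t.1 *ᵥ (A.1 *ᵥ ee x) = c • (A.1 *ᵥ ee x) := by
      rw [← mulVec_smul, ← hc, mulVec_mulVec, mulVec_mulVec, ← Submonoid.coe_mul,
        ← Submonoid.coe_mul]
      congr 2; group
    generalize A.1 *ᵥ ee x = v at h1 hy ⊢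
    have h2 : ∀ z, (if z = y then a else if z = y.swap then a⁻¹ else 1) * v z = c * v z :=
      fun z => by
        have := congrFun h1 z
        rwa [ht, mulVec_diagonal, Pi.smul_apply, smul_eq_mul] at this
    have h3 : a = c := by simpa [show v y ≠ 0 from hy] using h2 y
    ext z
    by_cases hz : z = y
    · simp [hz]
    · have := h2 z
      rw [if_neg hz, ← h3] at this
      have h4 : (if z = y.swap then a⁻¹ else 1) ≠ a := by
        split_ifs
        · intro h; exact ha2 (by rw [sq]; nth_rw 1 [← h]; exact inv_mul_cancel₀ ha)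
        · rintro rfl; simp at ha2
      rcases mul_eq_mul_right_iff.mp this with h5 | h5
      · exact absurd h5 h4
      · simp [hz, h5]
  · intro h
    choose y c hc using h
    have hc0 : ∀ x, c x ≠ 0 := fun x h0 => mulVec_ne_zero A (ee_ne x) (by simp [hc, h0])
    have hy : Function.Injective y := fun x x' hx => by
      by_contra hne
      have h1 : A.1 *ᵥ (c x' • ee x) = A.1 *ᵥ (c x • ee x') := by
        rw [mulVec_smul, mulVec_smul, hc, hc, hx, smul_comm]
      have h2 := congrArg (fun v => ((A⁻¹).1 *ᵥ v) x) h1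
      simp only [inv_mulVec] at h2
      simp [hne, hc0] at h2
    have hinv : ∀ x, (A⁻¹).1 *ᵥ ee (y x) = (c x)⁻¹ • ee x := fun x => by
      rw [eq_inv_smul_iff₀ (hc0 x), ← mulVec_smul, ← hc, inv_mulVec]
    intro t
    simp only [Submonoid.coe_mul, ← mulVec_mulVec]
    constructor
    · intro ht x
      obtain ⟨d, hd⟩ := ht (y x)
      exact ⟨d, by rw [hc, mulVec_smul, hd, mulVec_smul, mulVec_smul, hinv, smul_comm, smul_inv_smul₀ (hc0 x)]⟩
    · intro ht z
      obtain ⟨x, rfl⟩ := Finite.injective_iff_surjective.mp hy z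
      obtain ⟨d, hd⟩ := ht x
      refine ⟨d, ?_⟩
      have h1 := congrArg (fun v => A.1 *ᵥ v) hd
      beta_reduce at h1
      rw [mulVec_mulVec, ← Submonoid.coe_mul, mul_inv_cancel, OneMemClass.coe_one, one_mulVec,
        mulVec_smul, hc, mulVec_smul, smul_comm] at h1
      exact smul_right_injective _ (hc0 x) h1

/-- The index of the coordinate vector on axis `j` with colour `b`. -/
def ix (b : Bool) (j : Fin m) : Fin m ⊕ Fin m := if b then Sum.inr j else Sum.inl j

theorem B_ee (b b' : Bool) (i j : Fin m) : (CL.Sp.spForm m F).B (ee (ix b i)) (ee (ix b' j)) =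
    if i = j ∧ b ≠ b' then (if b then 1 else -1) else 0 := by
  by_cases h : i = j <;> cases b <;> cases b' <;>
    simp [ix, CL.Sp.spForm_B_single_inl, CL.Sp.spForm_B_single_inr, h]

theorem exists_ix (y : Fin m ⊕ Fin m) : ∃ b j, y = ix b j := by
  rcases y with j | j
  exacts [⟨false, j, rfl⟩, ⟨true, j, rfl⟩]

theorem ix_inj {b b' : Bool} {i j : Fin m} (h : ix b i = ix b' j) : b = b' ∧ i = j := by
  cases b <;> cases b' <;> simpa [ix] using h

theorem card_mono : Nat.card {A : symplecticGroup (Fin m) F //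
    ∀ x, ∃ (y : _) (c : F), A.1 *ᵥ ee x = c • ee y} =
      Nat.card ((Fin m → Bool) × Equiv.Perm (Fin m) × (Fin m → Fˣ)) := by
  have hf := CL.Sp.spForm_nondeg m F
  have hex : ∀ p : (Fin m → Bool) × Equiv.Perm (Fin m) × (Fin m → Fˣ),
      ∃ A : symplecticGroup (Fin m) F,
        (∀ i, A.1 *ᵥ ee (ix false i) = (p.2.2 i : F) • ee (ix (p.1 i) (p.2.1 i))) ∧
        ∀ i, ∃ c : F, A.1 *ᵥ ee (ix true i) = c • ee (ix (!p.1 i) (p.2.1 i)) := by
    rintro ⟨b, τ, a⟩
    have h : (CL.Sp.spForm m F).IsHyp (fun i => (a i : F) • ee (ix (b i) (τ i)))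
        fun i => ((a i : F)⁻¹ * if b i then 1 else -1) • ee (ix (!b i) (τ i)) := by
      refine ⟨fun _ => rfl, fun _ => rfl, fun i j => ?_, fun i j => ?_, fun i j => ?_⟩ <;>
        simp only [Form.B_smul_left, Form.B_smul_right, B_ee, FormType.alt_σ] <;>
        by_cases h : i = j <;> simp [h]
      cases b j <;> simp
    obtain ⟨g, hg, h1, h2⟩ := (CL.Sp.isHyp_std m F).conj hf h
    refine ⟨(CL.Sp.spEquiv m F).symm ⟨g, hg⟩, fun i => (CL.Sp.spEquiv_symm_mulVec _ _).trans (h1 i),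
      fun i => ⟨-((a i : F)⁻¹ * if b i then 1 else -1), (CL.Sp.spEquiv_symm_mulVec _ _).trans ?_⟩⟩
    rw [neg_smul, ← h2, ← map_neg]
    simp [ix, ← Pi.single_neg]
  choose Φ hΦ1 hΦ2 using hex
  have hB : ∀ (A : symplecticGroup (Fin m) F) u v,
      (CL.Sp.spForm m F).B (A.1 *ᵥ u) (A.1 *ᵥ v) = (CL.Sp.spForm m F).B u v := fun A u v =>
    Form.mem_O_B (CL.Sp.spEquiv m F A).2 u v
  have hmem : ∀ p x, ∃ (y : _) (c : F), (Φ p).1 *ᵥ ee x = c • ee y := fun p x => by
    obtain ⟨b, j, rfl⟩ := exists_ix x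
    cases b
    · exact ⟨_, _, hΦ1 p j⟩
    · exact ⟨_, hΦ2 p j⟩
  refine (Nat.card_congr (Equiv.ofBijective (fun p => ⟨Φ p, hmem p⟩) ⟨?_, ?_⟩)).symm
  · intro p p' h
    have h1 : ∀ i, (p.2.2 i : F) • (ee (ix (p.1 i) (p.2.1 i)) : _ → F) =
        (p'.2.2 i : F) • ee (ix (p'.1 i) (p'.2.1 i)) := fun i => by
      rw [← hΦ1, ← hΦ1, show Φ p = Φ p' from Subtype.ext_iff.mp h]
    have h2 : ∀ i, ix (p.1 i) (p.2.1 i) = ix (p'.1 i) (p'.2.1 i) := fun i => by
      by_contra hne
      simpa [hne] using congrFun (h1 i) (ix (p.1 i) (p.2.1 i))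
    refine Prod.ext (funext fun i => (ix_inj (h2 i)).1) (Prod.ext (Equiv.ext fun i =>
      (ix_inj (h2 i)).2) (funext fun i => Units.ext ?_))
    simpa [h2] using congrFun (h1 i) (ix (p.1 i) (p.2.1 i))
  · rintro ⟨A, hA⟩
    have hpair : ∀ (A : symplecticGroup (Fin m) F) (i j : Fin m) (b : Bool) (c : F),
        A.1 *ᵥ ee (ix false i) = c • ee (ix b j) → (∃ y, ∃ d : F, A.1 *ᵥ ee (ix true i) = d • ee y) →
        A.1 *ᵥ ee (ix true i) = (c⁻¹ * if b then -1 else 1) • ee (ix (!b) j) := by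
      rintro A i j b c h1 ⟨y, d, h2⟩
      obtain ⟨b', j', rfl⟩ := exists_ix y
      have h3 := hB A (ee (ix false i)) (ee (ix true i))
      rw [h1, h2] at h3
      simp only [Form.B_smul_left, Form.B_smul_right, B_ee, FormType.alt_σ] at h3
      by_cases h4 : j = j' ∧ b ≠ b'
      · obtain ⟨rfl, h5⟩ := h4
        obtain rfl : b' = !b := by revert h5; cases b <;> cases b' <;> simp
        rw [h2]
        congr 1
        have hc : c ≠ 0 := by rintro rfl; simp at h3
        cases b <;> simp at h3 ⊢ <;> field_simp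
        · linear_combination h3
        · linear_combination h3
      · simp [h4] at h3
    choose y c hc using fun i => hA (ix false i)
    choose b τ hy using fun i => exists_ix (y i)
    simp only [hy] at hc
    have hc0 : ∀ x, c x ≠ 0 := fun x h0 => mulVec_ne_zero A (ee_ne (ix false x)) (by rw [hc, h0, zero_smul])
    have hτ : Function.Injective τ := fun i j hij => by
      by_contra hne
      have h1 := hB A (ee (ix false i)) (ee (ix false j))
      have h2 := hB A (ee (ix true i)) (ee (ix false j))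
      rw [hpair A _ _ _ _ (hc i) (hA _)] at h2
      simp only [hc, Form.B_smul_left, Form.B_smul_right, B_ee, FormType.alt_σ, hij] at h1 h2
      revert h1 h2
      cases b i <;> cases b j <;> simp [hc0, hne]
    refine ⟨(b, Equiv.ofBijective τ (Finite.injective_iff_bijective.mp hτ),
      fun i => Units.mk0 _ (hc0 i)), Subtype.ext (Subtype.ext (Matrix.ext_of_mulVec_single fun x => ?_))⟩
    obtain ⟨b', j, rfl⟩ := exists_ix x
    cases b'
    · exact (hΦ1 _ j).trans (hc j).symm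
    · exact (hpair _ _ _ _ _ (hΦ1 _ j) ⟨_, hΦ2 _ j⟩).trans (hpair A _ _ _ _ (hc j) (hA _)).symm


/-- Weyl group of type C_m: for q ≥ 4 the diagonal matrices of Sp_2m(q) form a torus T ≅ (C_(q−1))^m (the elements stabilising every coordinate axis), and the normaliser of T in Sp_2m(q) has order 2^m · m! · (q − 1)^m. -/
theorem result {F : Type*} [Field F] [Fintype F] {q : ℕ} (hF : Fintype.card F = q) (hq : 4 ≤ q) (m : ℕ) : Nat.card ↥(Subgroup.normalizer (⨅ i : Fin m ⊕ Fin m, Cfsg.stabilizing (Cfsg.spToMat m F) ((Submodule.span F {(Pi.single i (1 : F) : Fin m ⊕ Fin m → F)} : Submodule F (Fin m ⊕ Fin m → F)) : Set (Fin m ⊕ Fin m → F)) : Set (Matrix.symplecticGroup (Fin m) F))) = 2 ^ m * Nat.factorial m * (q - 1) ^ m := by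
  obtain ⟨a, ha, ha2⟩ := CL.SL.exists_sq_ne_one_of_four_le_card (F := F)
    (by rwa [Nat.card_eq_fintype_card, hF])
  classical
  rw [Set.iInf_eq_iInter, ← Subgroup.coe_iInf]
  refine (Nat.card_congr (Equiv.subtypeEquivRight (mem_N_iff ha ha2))).trans ?_
  rw [card_mono]
  simp [Fintype.card_perm, Fintype.card_units, hF, mul_assoc]

end Cfsg.Agent.S0777
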