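import Cfsg.Statements.S0778

set_option autoImplicit false
open Cfsg

namespace Cfsg.Agent.S0778

open Matrix

/-- The elements of Sp_2m(F) stabilising both W = ⟨e_1..e_m⟩ and U = ⟨f_1..f_m⟩ form a subgroup isomorphic to GL_m(F) (block-diagonal matrices diag(X, X^(−ᵀ)) up to the sign convention of J), for m ≥ 1 or m = 0 alike. -/
theorem result {F : Type*} [Field F] (m : ℕ) : Nonempty (↥(Cfsg.stabilizing (Cfsg.spToMat m F) {v : Fin m ⊕ Fin m → F | ∀ i : Fin m, v (Sum.inr i) = 0} ⊓ Cfsg.stabilizing (Cfsg.spToMat m F) {v : Fin m ⊕ Fin m → F | ∀ i : Fin m, v (Sum.inl i) = 0}) ≃* Matrix.GeneralLinearGroup (Fin m) F) := by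
  classical
  have key : ∀ g : Matrix.symplecticGroup (Fin m) F,
      g ∈ (Cfsg.stabilizing (Cfsg.spToMat m F) {v : Fin m ⊕ Fin m → F | ∀ i : Fin m, v (Sum.inr i) = 0} ⊓
        Cfsg.stabilizing (Cfsg.spToMat m F) {v : Fin m ⊕ Fin m → F | ∀ i : Fin m, v (Sum.inl i) = 0}) →
      (g.1).toBlocks₁₂ = 0 ∧ (g.1).toBlocks₂₁ = 0 := by
    rintro g ⟨h1, h2⟩
    constructor
    · ext i j
      have := (h2 (Pi.single (Sum.inr j) 1)).1 (fun k => by simp) i
      simpa [toBlocks₁₂] using this
    · ext i j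
      have := (h1 (Pi.single (Sum.inl j) 1)).1 (fun k => by simp) i
      simpa [toBlocks₂₁] using this
  have hmem : ∀ X : Matrix.GeneralLinearGroup (Fin m) F,
      fromBlocks (X : Matrix (Fin m) (Fin m) F) 0 0 ((X⁻¹ : Matrix.GeneralLinearGroup (Fin m) F) :
        Matrix (Fin m) (Fin m) F)ᵀ ∈ Matrix.symplecticGroup (Fin m) F := by
    intro X
    rw [SymplecticGroup.fromBlocks_mem_iff]
    refine ⟨by simp, by simp, ?_⟩
    rw [← transpose_mul, ← Units.val_mul]
    simp
  let φ : Matrix.GeneralLinearGroup (Fin m) F →* Matrix.symplecticGroup (Fin m) F :=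
    { toFun := fun X => ⟨_, hmem X⟩
      map_one' := by
        apply Subtype.ext
        simp
      map_mul' := fun X Y => by
        apply Subtype.ext
        simp [fromBlocks_multiply, -coe_units_inv] }
  have hφ : Function.Injective φ := by
    intro X Y h
    have := congrArg Subtype.val h
    exact Units.ext (fromBlocks_inj.1 this).1
  have hinj : ∀ (X : Matrix.GeneralLinearGroup (Fin m) F) (w : Fin m → F),
      (X : Matrix (Fin m) (Fin m) F) *ᵥ w = 0 ↔ w = 0 := by
    intro X w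
    refine ⟨fun h => ?_, fun h => by simp [h]⟩
    have := congrArg (fun u => ((X⁻¹ : Matrix.GeneralLinearGroup (Fin m) F) : Matrix (Fin m) (Fin m) F) *ᵥ u) h
    simpa [-coe_units_inv, ← Units.val_mul] using this
  have hinj' : ∀ (X : Matrix.GeneralLinearGroup (Fin m) F) (w : Fin m → F),
      (X : Matrix (Fin m) (Fin m) F)ᵀ *ᵥ w = 0 ↔ w = 0 := by
    intro X w
    refine ⟨fun h => ?_, fun h => by simp [h]⟩
    have := congrArg (fun u => ((X⁻¹ : Matrix.GeneralLinearGroup (Fin m) F) : Matrix (Fin m) (Fin m) F)ᵀ *ᵥ u) h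
    simpa [-coe_units_inv, ← Units.val_mul, ← transpose_mul] using this
  have hr : φ.range = (Cfsg.stabilizing (Cfsg.spToMat m F) {v : Fin m ⊕ Fin m → F | ∀ i : Fin m, v (Sum.inr i) = 0} ⊓
        Cfsg.stabilizing (Cfsg.spToMat m F) {v : Fin m ⊕ Fin m → F | ∀ i : Fin m, v (Sum.inl i) = 0}) := by
    ext g
    constructor
    · rintro ⟨X, rfl⟩
      constructor
      · intro v
        have := hinj' X⁻¹ (v ∘ Sum.inr)
        simp only [funext_iff] at this
        change _ ↔ ∀ i, (fromBlocks _ _ _ _ *ᵥ v) _ = 0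
        simp only [fromBlocks_mulVec, Sum.elim_inr, zero_mulVec, zero_add]
        exact this.symm
      · intro v
        have := hinj X (v ∘ Sum.inl)
        simp only [funext_iff] at this
        change _ ↔ ∀ i, (fromBlocks _ _ _ _ *ᵥ v) _ = 0
        simp only [fromBlocks_mulVec, Sum.elim_inl, zero_mulVec, add_zero]
        exact this.symm
    · intro hg
      obtain ⟨h1, h2⟩ := key g hg
      have hg' := g.2
      rw [← fromBlocks_toBlocks g.1, h1, h2, SymplecticGroup.fromBlocks_mem_iff] at hg'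
      have h3 : g.1.toBlocks₂₂ᵀ * g.1.toBlocks₁₁ = 1 := by
        have := congrArg transpose hg'.2.2
        simpa using this
      refine ⟨⟨g.1.toBlocks₁₁, g.1.toBlocks₂₂ᵀ, mul_eq_one_comm.1 h3, h3⟩, ?_⟩
      apply Subtype.ext
      conv_rhs => rw [← fromBlocks_toBlocks g.1, h1, h2]
      rfl
  exact ⟨(MulEquiv.subgroupCongr hr.symm).trans (MonoidHom.ofInjective hφ).symm⟩

end Cfsg.Agent.S0778
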