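import Cfsg.Statements.S0779
import Cfsg.Agent.CLAS.SqField

set_option autoImplicit false
open Cfsg

namespace Cfsg.Agent.S0779

open Matrix CL.SqField

section
variable {F : Type*} [Field F] [Fintype F] {q : ℕ}

omit [Fintype F] in
theorem ut_mulVec (n : ℕ) (v : Fin n → F) (c : F) (x : Fin n → F) :
    (Cfsg.unitaryTransvection n q v c).mulVec x = x + (c * Cfsg.hermForm n F q x v) • v := by
  rw [Cfsg.unitaryTransvection, add_mulVec, one_mulVec, smul_mulVec, vecMulVec_mulVec]
  ext i
  simp [Cfsg.hermForm, dotProduct, mul_comm, mul_left_comm]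

theorem herm_expand (hF : Fintype.card F = q ^ 2) (n : ℕ) (x y v : Fin n → F) (a b : F) :
    Cfsg.hermForm n F q (x + a • v) (y + b • v) =
      Cfsg.hermForm n F q x y + a * Cfsg.hermForm n F q v y + b ^ q * Cfsg.hermForm n F q x v +
        a * b ^ q * Cfsg.hermForm n F q v v := by
  simp only [Cfsg.hermForm, Pi.add_apply, Pi.smul_apply, smul_eq_mul, add_pow_q hF, mul_pow, Finset.mul_sum,
    ← Finset.sum_add_distrib]
  exact Finset.sum_congr rfl fun i _ => by ring

theorem herm_conj (hF : Fintype.card F = q ^ 2) (n : ℕ) (x y : Fin n → F) :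
    Cfsg.hermForm n F q x y ^ q = Cfsg.hermForm n F q y x := by
  simp only [Cfsg.hermForm, sum_pow_q hF, mul_pow, pow_q_pow_q hF, mul_comm]

end

/-- Unitary transvections: let |F| = q², h the standard Hermitian form Σ x_i y_i^q and v ≠ 0 with h(v, v) = 0. The linear map x ↦ x + c h(x, v) v is an isometry of h if and only if c = 0 or c^(q−1) = −1. -/
theorem result {F : Type*} [Field F] [Fintype F] {q : ℕ} (hF : Fintype.card F = q ^ 2) (n : ℕ) (v : Fin n → F) (hv : v ≠ 0) (hv0 : Cfsg.hermForm n F q v v = 0) (c : F) : (∀ x y : Fin n → F, Cfsg.hermForm n F q ((Cfsg.unitaryTransvection n q v c).mulVec x) ((Cfsg.unitaryTransvection n q v c).mulVec y) = Cfsg.hermForm n F q x y) ↔ (c = 0 ∨ c ^ (q - 1) = -1) := by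
  have key : ∀ x y : Fin n → F, Cfsg.hermForm n F q ((Cfsg.unitaryTransvection n q v c).mulVec x)
      ((Cfsg.unitaryTransvection n q v c).mulVec y) = Cfsg.hermForm n F q x y +
        (c + c ^ q) * (Cfsg.hermForm n F q x v * Cfsg.hermForm n F q v y) := by
    intro x y
    rw [ut_mulVec, ut_mulVec, herm_expand hF, hv0, mul_pow, herm_conj hF]
    ring
  have h2 := two_le hF
  have hc : c + c ^ q = 0 ↔ (c = 0 ∨ c ^ (q - 1) = -1) := by
    obtain ⟨r, rfl⟩ : ∃ r, q = r + 1 := ⟨q - 1, by omega⟩
    rw [Nat.add_sub_cancel, pow_succ', ← mul_one_add, mul_eq_zero, add_comm, add_eq_zero_iff_eq_neg]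
  rw [← hc]
  constructor
  · intro h
    obtain ⟨i, hi⟩ := Function.ne_iff.1 hv
    have h1 : Cfsg.hermForm n F q (Pi.single i 1) v ≠ 0 := by
      have : Cfsg.hermForm n F q (Pi.single i 1) v = v i ^ q := by
        simp [Cfsg.hermForm, Pi.single_apply]
      rw [this]
      exact pow_ne_zero _ hi
    have h3 : Cfsg.hermForm n F q v (Pi.single i 1) ≠ 0 := by
      rw [← herm_conj hF]; exact pow_ne_zero _ h1
    have := h (Pi.single i 1) (Pi.single i 1)
    rw [key, add_eq_left, mul_eq_zero] at this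
    exact this.resolve_right (mul_ne_zero h1 h3)
  · intro h x y
    rw [key, h, zero_mul, add_zero]

end Cfsg.Agent.S0779
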