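import Cfsg.Statements.S0782
import Cfsg.Agent.CLAS.UniGen

set_option autoImplicit false
open Cfsg

namespace Cfsg.Agent.S0782

/-- Maximal parabolics of SU_n(q): if W is a k-dimensional subspace of F^n (n ≥ 1, |F| = q²) on which the Hermitian form vanishes, then (q + 1) times the order of its stabiliser in SU_n(q) equals q^(k(2n−3k)) · |GL_k(q²)| · |GU_(n−2k)(q)|, where |GU_m(q)| = q^(m(m−1)/2) Π_(i=1..m) (q^i − (−1)^i). -/
theorem result {F : Type*} [Field F] [Fintype F] {q : ℕ} (hF : Fintype.card F = q ^ 2) (n k : ℕ) (hn : 1 ≤ n) (hk : 2 * k ≤ n) (W : Submodule F (Fin n → F)) (hWk : Module.finrank F W = k) (hW : ∀ u ∈ W, ∀ v ∈ W, Cfsg.hermForm n F q u v = 0) : (q + 1) * Nat.card ↥((Cfsg.stabilizing (Cfsg.slToMat n F) (W : Set (Fin n → F))).subgroupOf (Cfsg.SU n F q)) = q ^ (k * (2 * n - 3 * k)) * (∏ i : Fin k, ((q ^ 2) ^ k - (q ^ 2) ^ (i : ℕ))) * (q ^ ((n - 2 * k) * ((n - 2 * k) - 1) / 2) * ∏ i ∈ Finset.range (n - 2 * k), (if Even i then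 q ^ (i + 1) + 1 else q ^ (i + 1) - 1)) := by
  let f := CL.Uni.std hF (Fin n)
  have hf : f.Nondeg := CL.Uni.std_nondeg hF _
  have hW' : f.TotSing W := (f.herm_totSing_iff W).2 fun u hu v hv => hW v hv u hu
  obtain ⟨e, e', h, rfl⟩ := hf.exists_isHyp_of_totSing hW' hWk
  have hc := hf.card_stab_isHyp h
  rw [CL.Uni.card_ker_π, CL.Uni.card_O (hf.restrict_perp h.restrict_nondeg), h.finrank_perp,
    Nat.card_eq_fintype_card (α := F), hF] at hc
  simp only [Module.finrank_fintype_fun_eq_card, Fintype.card_fin] at hc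
  set W := Submodule.span F (Set.range e) with hWdef
  have e0 : Nat.card ↥((Cfsg.stabilizing (Cfsg.slToMat n F) (W : Set (Fin n → F))).subgroupOf
      (Cfsg.SU n F q)) = Nat.card (f.stab W ⊓ f.SO : Subgroup _) := Nat.card_congr
    { toFun := fun g => ⟨(CL.Uni.suEquiv hF n g.1).1,
        ⟨f.SO_le_O (CL.Uni.suEquiv hF n g.1).2, g.2⟩, (CL.Uni.suEquiv hF n g.1).2⟩
      invFun := fun g => ⟨(CL.Uni.suEquiv hF n).symm ⟨g.1, g.2.2⟩, fun v => by
        change _ ↔ (CL.Uni.suEquiv hF n ((CL.Uni.suEquiv hF n).symm ⟨g.1, g.2.2⟩)).1 v ∈ W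
        rw [MulEquiv.apply_symm_apply]
        exact g.2.1.2 v⟩
      left_inv := fun g => by simp
      right_inv := fun g => by simp }
  rw [e0, CL.Uni.card_inf_SO hf (f.stab_le_O W), hc]
  · have : k * (2 * n - 3 * k) = 2 * (k * (n - 2 * k) + k * (k - 1) / 2) + k := by
      obtain ⟨m, rfl⟩ : ∃ m, n = 2 * k + m := ⟨n - 2 * k, by omega⟩
      have h2 : 2 * (k * (k - 1) / 2) = k * (k - 1) :=
        Nat.mul_div_cancel' (Nat.even_mul_pred_self k).two_dvd
      rw [show 2 * (2 * k + m) - 3 * k = k + 2 * m by omega,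
        show 2 * k + m - 2 * k = m by omega, mul_add 2, h2]
      cases k with
      | zero => simp
      | succ k => simp; ring
    rw [this, CL.Uni.guOrder, ← pow_mul q 2 (k * (n - 2 * k) + k * (k - 1) / 2), pow_add]
    ring
  · intro d hd
    rcases hk.lt_or_eq with hlt | heq
    · obtain ⟨p, hp, hq⟩ := CL.Uni.exists_perp_q_eq (CL.Uni.sig_ne_id hF) hf h.restrict_nondeg
        (by rw [h.finrank_span]; simpa using hlt) (b := 1) (map_one _)
      obtain ⟨g, hg, -, hgx, hdet⟩ := CL.Uni.exists_quasiRefl (f := f) (p := p) hq hd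
      refine ⟨g, f.fix_le_stab W (f.mem_fix_span.2 ⟨hg, ?_⟩), hdet⟩
      rintro _ ⟨i, rfl⟩
      exact hgx _ (f.B_eq_zero_symm ((h.mem_perp_span.1 hp).1 i))
    · obtain ⟨y, hy0, hy⟩ := CL.SqField.exists_div_of_norm_one hF (x := d) (by rw [pow_succ, hd])
      let i : Fin k := ⟨0, by omega⟩
      obtain ⟨g, hg, hgu, -, hgx, hdet⟩ := hf.exists_torus (h.q_left i) (h.q_right i)
        (h.B_self i) hy0
      refine ⟨g, f.mem_stab_iff_le.2 ⟨hg, fun v hv => ?_⟩, ?_⟩
      · refine Submodule.span_induction (fun x hx => ?_) (by simp) (fun x y _ _ hx hy => ?_)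
          (fun a x _ hx => ?_) hv
        · obtain ⟨j, rfl⟩ := hx
          by_cases hij : i = j
          · subst hij
            rw [hgu]
            exact W.smul_mem _ (Submodule.subset_span ⟨i, rfl⟩)
          · rw [hgx _ (h.B_left i j) (h.B_ne' hij)]
            exact Submodule.subset_span ⟨j, rfl⟩
        · rw [map_add]; exact W.add_mem hx hy
        · rw [map_smul]; exact W.smul_mem _ hx
      · rw [hdet, CL.Uni.HT_σ, mul_inv_eq_iff_eq_mul₀ (pow_ne_zero _ hy0), hy]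

end Cfsg.Agent.S0782
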