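import Cfsg.Statements.S0783
import Cfsg.Agent.CLAS.UniGen

set_option autoImplicit false
open Cfsg

namespace Cfsg.Agent.S0783

/-- PGU_n(q)/PSU_n(q) is cyclic of order (n, q+1): for n ≥ 2 and |F| = q² there is a surjective homomorphism from GU_n(q) onto the cyclic group of order gcd(n, q + 1) whose kernel is generated by the determinant-one elements together with the centre. -/
theorem result {F : Type*} [Field F] [Fintype F] {q : ℕ} (hF : Fintype.card F = q ^ 2) (n : ℕ) (hn : 2 ≤ n) : ∃ φ : ↥(Cfsg.GU n F q) →* Multiplicative (ZMod (Nat.gcd n (q + 1))), Function.Surjective φ ∧ φ.ker = (Matrix.GeneralLinearGroup.det : Matrix.GeneralLinearGroup (Fin n) F →* Fˣ).ker.subgroupOf (Cfsg.GU n F q) ⊔ Subgroup.center ↥(Cfsg.GU n F q) := by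
  have : Nonempty (Fin n) := ⟨⟨0, by omega⟩⟩
  have hf := CL.Uni.std_nondeg hF (Fin n)
  let R : Subgroup Fˣ := rootsOfUnity (q + 1) F
  have hR : Nat.card R = q + 1 := CL.Uni.card_rootsOfUnity_of_dvd hF dvd_rfl
  have hmem : ∀ g : Cfsg.GU n F q, Matrix.GeneralLinearGroup.det g.1 ∈ R := fun g => by
    have := hf.σ_det_mul_det ((CL.Uni.mem_GU_iff hF).1 g.2)
    rw [CL.Uni.det_glEquiv, CL.Uni.HT_σ] at this
    rw [mem_rootsOfUnity', pow_succ]
    exact this
  let d : Cfsg.GU n F q →* R :=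
    ((Matrix.GeneralLinearGroup.det : GL (Fin n) F →* Fˣ).comp (Cfsg.GU n F q).subtype).codRestrict
      R hmem
  have hd : Function.Surjective d := fun c => by
    obtain ⟨g, hg, hdet⟩ := CL.Uni.exists_det_eq (CL.Uni.sig_ne_id hF) hf (by simp; omega)
      (d := c.1) (by rw [CL.Uni.sig_apply, ← pow_succ]; exact (mem_rootsOfUnity' _ _).1 c.2)
    refine ⟨(CL.Uni.guEquiv hF n).symm ⟨g, hg⟩, Subtype.ext (Units.ext ?_)⟩
    rw [← hdet]
    change Matrix.det _ = _
    rw [← CL.Uni.det_glEquiv]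
    congr 2
    exact congrArg Subtype.val ((CL.Uni.guEquiv hF n).apply_symm_apply ⟨g, hg⟩)
  set P : Subgroup R := (powMonoidHom n : R →* R).range with hP
  have hcard : Nat.card (R ⧸ P) = Nat.gcd n (q + 1) := by
    rw [← Subgroup.index_eq_card, hP, IsCyclic.index_powMonoidHom_range, hR, Nat.gcd_comm]
  have hcyc : IsCyclic (R ⧸ P) := isCyclic_of_surjective _ (QuotientGroup.mk'_surjective P)
  let e : Multiplicative (ZMod (Nat.gcd n (q + 1))) ≃* R ⧸ P := hcard ▸ zmodCyclicMulEquiv hcyc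
  refine ⟨e.symm.toMonoidHom.comp ((QuotientGroup.mk' P).comp d),
    e.symm.surjective.comp ((QuotientGroup.mk'_surjective P).comp hd), ?_⟩
  have hs : ∀ u : R, ∃ z ∈ Subgroup.center (Cfsg.GU n F q), d z = u ^ n := fun u => by
    have hu : Matrix.GeneralLinearGroup.scalar (Fin n) u.1 ∈ Cfsg.GU n F q := by
      rw [CL.Uni.mem_GU_iff hF]
      have : CL.Orth.glEquiv (Fin n) F (Matrix.GeneralLinearGroup.scalar (Fin n) u.1) =
          CL.Uni.scal _ u.1 := by
        ext v i
        simp [CL.Orth.glEquiv_apply]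
      rw [this]
      exact CL.Uni.scal_mem_O (by
        rw [CL.Uni.HT_σ, ← pow_succ]; exact (mem_rootsOfUnity' _ _).1 u.2)
    refine ⟨⟨_, hu⟩, (CL.Uni.mem_center_GU_iff hF hn).2 ⟨u.1, by
      simp [Matrix.smul_one_eq_diagonal]⟩, Subtype.ext (Units.ext (by
        change Matrix.det _ = _
        simp))⟩
  ext x
  simp only [MonoidHom.mem_ker, MonoidHom.comp_apply, MulEquiv.coe_toMonoidHom,
    MulEquiv.map_eq_one_iff, QuotientGroup.mk'_apply, QuotientGroup.eq_one_iff]
  constructor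
  · rintro ⟨u, hu⟩
    obtain ⟨z, hz, hdz⟩ := hs u
    rw [show x = (x * z⁻¹) * z by simp]
    refine Subgroup.mul_mem_sup ?_ hz
    have : d (x * z⁻¹) = 1 := by rw [map_mul, map_inv, hdz, ← hu]; simp
    exact congrArg Subtype.val this
  · intro hx
    have : (Matrix.GeneralLinearGroup.det : GL (Fin n) F →* Fˣ).ker.subgroupOf (Cfsg.GU n F q) ⊔
        Subgroup.center (Cfsg.GU n F q) ≤ P.comap d := by
      refine sup_le (fun g hg => ?_) fun g hg => ?_
      · have : d g = 1 := Subtype.ext hg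
        rw [Subgroup.mem_comap, this]; exact one_mem _
      · obtain ⟨c, hc⟩ := (CL.Uni.mem_center_iff_scal (CL.Uni.sig_ne_id hF) hf
          (by simpa using hn) (CL.Witt.Form.Tv_le_O _)).1
          ((CL.Sp.mem_center_of_mulEquiv (CL.Uni.guEquiv hF n)).2 hg)
        have h1 := (CL.Uni.scal_mem_O_iff hf).1 (hc ▸ (CL.Uni.guEquiv hF n g).2)
        have h2 := CL.Uni.det_scal (V := Fin n → F) c
        rw [hc] at h2
        refine ⟨⟨c, by rw [mem_rootsOfUnity', pow_succ]; exact h1⟩, Subtype.ext (Units.ext ?_)⟩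
        change _ = Matrix.det _
        rw [← CL.Uni.det_glEquiv]
        refine Eq.trans ?_ h2.symm
        simp
    exact this hx

end Cfsg.Agent.S0783
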