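import Mathlib
import Cfsg.Statements.S0786
import Cfsg.Agent.KSG.OrthOmega

set_option autoImplicit false
open Cfsg

namespace Cfsg.Agent.S0786


/-- Generation by reflections: if F is finite, Q is a quadratic form on F^n with non-degenerate polar form, and (|F|, n) ≠ (2, 4), then the isometry group of Q is generated by the reflections r_v, Q(v) ≠ 0. -/
theorem result {F : Type*} [Field F] [Fintype F] {n : ℕ} (Q : QuadraticForm F (Fin n → F)) (hQ : (QuadraticMap.polarBilin Q).Nondegenerate) (h : Fintype.card F ≠ 2 ∨ n ≠ 4) : Subgroup.closure {g : ↥(Cfsg.isometryGroup F ⇑Q) | ∃ v : Fin n → F, Q v ≠ 0 ∧ ((g : Matrix.GeneralLinearGroup (Fin n) F) : Matrix (Fin n) (Fin n) F) = Cfsg.reflectionMatrix ⇑Q v} = ⊤ := by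
  have h1 := CL.Orth.reflGroup_eq_top hQ (CL.Orth.good_of_card (by simpa using h))
  have h2 := CL.Orth.closure_preimage_equiv (CL.Orth.toO Q) {g | ∃ v, Q v ≠ 0 ∧ g = CL.Orth.refl Q v}
  rw [CL.Orth.reflGroup] at h1
  rw [h1, Subgroup.comap_top] at h2
  rw [← h2]
  congr 1
  ext g
  simp only [Set.mem_ofPred_eq, Set.mem_preimage, CL.Orth.toO_eq_refl_iff]

end Cfsg.Agent.S0786
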