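import Mathlib
import Cfsg.Statements.S0787
import Cfsg.Agent.KSG.OrthOmega

set_option autoImplicit false
open Cfsg

namespace Cfsg.Agent.S0787


/-- Existence and uniqueness of Ω: if F is finite, n ≥ 2, Q is a quadratic form on F^n with non-degenerate polar form and (|F|, n) ≠ (2, 4), then the group of isometries of determinant one has a unique subgroup of index 2. -/
theorem result {F : Type*} [Field F] [Fintype F] {n : ℕ} (hn : 2 ≤ n) (Q : QuadraticForm F (Fin n → F)) (hQ : (QuadraticMap.polarBilin Q).Nondegenerate) (h : Fintype.card F ≠ 2 ∨ n ≠ 4) : ∃! H : Subgroup ↥(Cfsg.specialIsometryGroup F ⇑Q), H.index = 2 := by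
  have hF := CL.Orth.good_of_card (ι := Fin n) (K := F) (by simpa using h)
  have hn' : 2 ≤ Module.finrank F (Fin n → F) := by simpa using hn
  let e := CL.Orth.toO Q
  have hle : Cfsg.Omega F ⇑Q ≤ Cfsg.specialIsometryGroup F ⇑Q := by
    intro g hg
    rw [CL.Orth.mem_Omega_iff, CL.Orth.mem_commutator_iff hQ hF] at hg
    rw [CL.Orth.mem_specialIsometryGroup, CL.Orth.det_eq_dsign hQ hF, hg.1]
    simp
  have hind : ((Cfsg.Omega F ⇑Q).subgroupOf (Cfsg.specialIsometryGroup F ⇑Q)).index = 2 := by
    have h1 := Subgroup.relIndex_mul_index hle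
    rw [CL.Orth.index_Omega] at h1
    by_cases h2 : (2 : F) = 0
    · have : Cfsg.specialIsometryGroup F ⇑Q = ⊤ := by
        rw [eq_top_iff]
        intro g _
        rw [CL.Orth.mem_specialIsometryGroup, CL.Orth.det_eq_dsign hQ hF]
        rcases Int.units_eq_one_or (CL.Orth.dsign (CL.Orth.toO Q g)) with h | h
        · simp [h]
        · simp only [h, Units.val_neg, Units.val_one, Int.cast_neg, Int.cast_one]
          linear_combination (-1) * h2
      rw [CL.Orth.index_commutator_of_two_eq_zero hQ h2 hF (by omega)] at h1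
      have h3 : (Cfsg.specialIsometryGroup F ⇑Q).index = 1 := by rw [this, Subgroup.index_top]
      rw [h3, mul_one] at h1
      exact h1
    · have : Cfsg.specialIsometryGroup F ⇑Q = ((CL.Orth.dickson hQ hF).comp e.toMonoidHom).ker := by
        ext g
        rw [CL.Orth.mem_specialIsometryGroup, CL.Orth.det_eq_one_iff_dsign hQ h2]
        rfl
      obtain ⟨g, hg, -⟩ := CL.Orth.exists_dsign_spin_eq hQ h2 hn' (-1) 1
      have h3 : (Cfsg.specialIsometryGroup F ⇑Q).index = 2 := by
        rw [this]
        refine CL.Orth.index_ker_signHom _ (g := e.symm g) ?_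
        change CL.Orth.dsign (e (e.symm g)) = -1
        rwa [e.apply_symm_apply]
      rw [CL.Orth.index_commutator_of_two_ne_zero hQ h2 hn', h3] at h1
      change (Cfsg.Omega F ⇑Q).relIndex _ = 2
      omega
  refine ⟨_, hind, fun H hH => ?_⟩
  have hsub : (Cfsg.Omega F ⇑Q).subgroupOf (Cfsg.specialIsometryGroup F ⇑Q) ≤ H := by
    have h1 : commutator (CL.Orth.O Q) ≤
        (H.map (Cfsg.specialIsometryGroup F ⇑Q).subtype).map e.toMonoidHom := by
      refine CL.Orth.commutator_le_of_sq_mem hQ hF fun u v hu hv => ?_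
      have hm : e.symm (CL.Orth.refl Q u * CL.Orth.refl Q v) ∈ Cfsg.specialIsometryGroup F ⇑Q := by
        rw [CL.Orth.mem_specialIsometryGroup, MulEquiv.apply_symm_apply, CL.Orth.det_O_mul,
          CL.Orth.det_refl hu, CL.Orth.det_refl hv]
        ring
      refine ⟨_, ⟨_, Subgroup.sq_mem_of_index_two hH ⟨_, hm⟩, rfl⟩, ?_⟩
      simp
    intro g hg
    obtain ⟨_, ⟨x, hx, rfl⟩, h2⟩ := h1 ((CL.Orth.mem_Omega_iff g.1).1 hg)
    have : x = g := Subtype.ext (e.injective h2)
    exact this ▸ hx
  symm
  exact Subgroup.eq_of_le_of_card_ge hsub (by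
    have h1 := Subgroup.card_mul_index H
    have h2 := Subgroup.card_mul_index ((Cfsg.Omega F ⇑Q).subgroupOf (Cfsg.specialIsometryGroup F ⇑Q))
    rw [hH] at h1
    rw [hind] at h2
    omega)

end Cfsg.Agent.S0787
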