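import Mathlib
import Cfsg.Statements.S0791
import Cfsg.Agent.KSG.OrthOmega

set_option autoImplicit false
open Cfsg

namespace Cfsg.Agent.S0791


/-- −1 ∈ Ω⁻_2m(q) iff q^m ≡ −1 (mod 4), for q odd and m ≥ 1; for the minus-type form quadFormMinus (m−1) with anisotropic binary part. -/
theorem result {F : Type*} [Field F] [Fintype F] {q : ℕ} (hF : Fintype.card F = q) (hodd : Odd q) (m : ℕ) (hm : 1 ≤ m) (a b : F) (hab : ∀ z₁ z₂ : F, z₁ ^ 2 + a * z₁ * z₂ + b * z₂ ^ 2 = 0 → z₁ = 0 ∧ z₂ = 0) : (∃ g : ↥(Cfsg.isometryGroup F (Cfsg.quadFormMinus (m - 1) F a b)), g ∈ Cfsg.Omega F (Cfsg.quadFormMinus (m - 1) F a b) ∧ ((g : Matrix.GeneralLinearGroup ((Fin (m - 1) ⊕ Fin (m - 1)) ⊕ Fin 2) F) : Matrix ((Fin (m - 1) ⊕ Fin (m - 1)) ⊕ Fin 2) ((Fin (m - 1) ⊕ Fin (m - 1)) ⊕ Fin 2) F) = -1) ↔ q ^ m % 4 = 3 := by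
  subst hF
  have h2 := CL.Orth.two_ne_zero_of_odd_card hodd
  refine (CL.Orth.exists_mem_Omega_iff (CL.Orth.negOne (CL.Orth.QMinus (m - 1) F a b)) (-1)
    (fun v => by rw [CL.Orth.negOne_apply, Matrix.neg_mulVec, Matrix.one_mulVec])).trans ?_
  rw [CL.Orth.negOne_mem_commutator_iff h2 (CL.Orth.QMinus_nondeg (m - 1) F hab),
    CL.Orth.dsc_QMinus h2 _ hab, CL.Orth.sqSign_neg_one_pow hodd, Nat.sub_add_cancel hm]
  obtain ⟨k, hk⟩ : Odd (Fintype.card F ^ m) := hodd.pow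
  have he : Even (Module.finrank F ((Fin (m - 1) ⊕ Fin (m - 1)) ⊕ Fin 2 → F)) := ⟨m, by simp; omega⟩
  split_ifs with h4
  · simp [h4]
  · simp only [he, neg_neg, true_and, true_iff]
    omega

end Cfsg.Agent.S0791
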