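import Mathlib
import Cfsg.Statements.S0792
import Cfsg.Agent.KSG.OrthOmega

set_option autoImplicit false
open Cfsg

namespace Cfsg.Agent.S0792


/-- For q odd and Q with non-degenerate polar form on F^n, the determinant-one isometries form the subgroup generated by all products r_u r_v of two reflections (Q(u), Q(v) ≠ 0). -/
theorem result {F : Type*} [Field F] [Fintype F] (h2 : (2 : F) ≠ 0) {n : ℕ} (Q : QuadraticForm F (Fin n → F)) (hQ : (QuadraticMap.polarBilin Q).Nondegenerate) : Cfsg.specialIsometryGroup F ⇑Q = Subgroup.closure {g : ↥(Cfsg.isometryGroup F ⇑Q) | ∃ u v : Fin n → F, Q u ≠ 0 ∧ Q v ≠ 0 ∧ ((g : Matrix.GeneralLinearGroup (Fin n) F) : Matrix (Fin n) (Fin n) F) = Cfsg.reflectionMatrix ⇑Q u * Cfsg.reflectionMatrix ⇑Q v} := by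
  rw [CL.Orth.closure_two_refl_eq]
  ext g
  rw [CL.Orth.mem_specialIsometryGroup, CL.Orth.det_eq_one_iff_dsign hQ h2, Subgroup.mem_comap,
    CL.Orth.mem_evenGroup_iff hQ (Or.inl (CL.Orth.card_ne_two_of_two_ne_zero h2))]
  rfl

end Cfsg.Agent.S0792
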