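import Cfsg.Statements.S0794
import Cfsg.Agent.CLAS.OrthOmega

set_option autoImplicit false
open Cfsg

namespace Cfsg.Agent.S0794

/-- For q odd, n ≥ 5 and Q with non-degenerate polar form: an isometry whose matrix is a Siegel transformation T_(u,v)(c) (u, v singular and orthogonal) is a commutator in the isometry group, so lies in Ω. -/
theorem result {F : Type*} [Field F] [Fintype F] (h2 : (2 : F) ≠ 0) {n : ℕ} (hn : 5 ≤ n) (Q : QuadraticForm F (Fin n → F)) (hQ : (QuadraticMap.polarBilin Q).Nondegenerate) (u v : Fin n → F) (hu : Q u = 0) (hv : Q v = 0) (huv : QuadraticMap.polar ⇑Q u v = 0) (c : F) (g : ↥(Cfsg.isometryGroup F ⇑Q)) (hg : ((g : Matrix.GeneralLinearGroup (Fin n) F) : Matrix (Fin n) (Fin n) F) = Cfsg.siegelMatrix ⇑Q u v c) : g ∈ commutatorSet ↥(Cfsg.isometryGroup F ⇑Q) ∧ g ∈ Cfsg.Omega F ⇑Q := by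
  have h5 : 5 ≤ Module.finrank F (Fin n → F) := by simpa using hn
  have h1 := (CL.OrthE.toO_eq_ei_iff hu hv huv c g).2 hg
  have hcu : Q (c • u) = 0 := by rw [CL.Orth.Q_smul, hu, mul_zero]
  have hvu : QuadraticMap.polar Q v (c • u) = 0 := by
    rw [CL.Orth.polar_smul_right', CL.OrthE.polar_symm_zero huv, mul_zero]
  obtain ⟨y, z, h⟩ := CL.OrthE.ei_eq_commutator hQ h5 hv hcu hvu
  have h3 : g ∈ commutatorSet ↥(Cfsg.isometryGroup F ⇑Q) := by
    refine ⟨(CL.Orth.toO Q).symm (CL.OrthE.ei Q (c • u) z), (CL.Orth.toO Q).symm (CL.OrthE.ei Q v y), ?_⟩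
    rw [← map_commutatorElement, ← h, ← h1, MulEquiv.symm_apply_apply]
  refine ⟨h3, ?_⟩
  rw [Cfsg.Omega, commutator_eq_closure]
  exact Subgroup.subset_closure h3

end Cfsg.Agent.S0794
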