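import Cfsg.Statements.S0795
import Cfsg.Agent.CLAS.OrthOmega

set_option autoImplicit false
open Cfsg

namespace Cfsg.Agent.S0795

/-- Generation of Ω by root elements: for q odd, n ≥ 5 and Q with non-degenerate polar form on F^n, the commutator subgroup of the isometry group equals the subgroup generated by the isometries whose matrices are Siegel transformations T_(u,v)(c) with u, v singular and orthogonal. -/
theorem result {F : Type*} [Field F] [Fintype F] (h2 : (2 : F) ≠ 0) {n : ℕ} (hn : 5 ≤ n) (Q : QuadraticForm F (Fin n → F)) (hQ : (QuadraticMap.polarBilin Q).Nondegenerate) : Cfsg.Omega F ⇑Q = Subgroup.closure {g : ↥(Cfsg.isometryGroup F ⇑Q) | ∃ (u v : Fin n → F) (c : F), Q u = 0 ∧ Q v = 0 ∧ QuadraticMap.polar ⇑Q u v = 0 ∧ ((g : Matrix.GeneralLinearGroup (Fin n) F) : Matrix (Fin n) (Fin n) F) = Cfsg.siegelMatrix ⇑Q u v c} := by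
  have h5 : 5 ≤ Module.finrank F (Fin n → F) := by simpa using hn
  apply Subgroup.map_injective (f := (CL.Orth.toO Q).toMonoidHom) (CL.Orth.toO Q).injective
  rw [CL.OrthE.map_commutator_mulEquiv, CL.OrthE.commutator_O_eq_E hQ h5, CL.OrthE.E_eq_S hQ h5,
    MonoidHom.map_closure, CL.OrthE.S]
  congr 1
  ext g
  constructor
  · rintro ⟨w, y, hw, hy, hwy, rfl⟩
    refine ⟨(CL.Orth.toO Q).symm (CL.OrthE.ei Q w y), ⟨y, w, 1, hy, hw, CL.OrthE.polar_symm_zero hwy, ?_⟩,
      (CL.Orth.toO Q).apply_symm_apply _⟩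
    rw [← CL.OrthE.toO_eq_ei_iff hy hw (CL.OrthE.polar_symm_zero hwy), MulEquiv.apply_symm_apply, one_smul]
  · rintro ⟨k, ⟨u, v, c, hu, hv, huv, hk⟩, rfl⟩
    refine ⟨v, c • u, hv, by rw [CL.Orth.Q_smul, hu, mul_zero], ?_, (CL.OrthE.toO_eq_ei_iff hu hv huv c k).2 hk⟩
    rw [CL.Orth.polar_smul_right', CL.OrthE.polar_symm_zero huv, mul_zero]

end Cfsg.Agent.S0795
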