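import Cfsg.Statements.S0796

set_option autoImplicit false
open Cfsg

namespace Cfsg.Agent.S0796

/-- If G is finite and acts faithfully and primitively on X, H is the stabiliser of a point, A is a normal subgroup of H whose normal closure in G is G, then for every non-trivial normal subgroup K of G the quotient G ⧸ K is isomorphic to A ⧸ B for some normal subgroup B of A. -/
theorem result {G X : Type*} [Group G] [Finite G] [MulAction G X] [FaithfulSMul G X] (hprim : MulAction.IsPreprimitive G X) (x : X) (A : Subgroup G) (hA : A ≤ MulAction.stabilizer G x) (hAn : (A.subgroupOf (MulAction.stabilizer G x)).Normal) (hgen : Subgroup.normalClosure (A : Set G) = ⊤) (K : Subgroup G) [K.Normal] (hK : K ≠ ⊥) : ∃ (B : Subgroup A) (_ : B.Normal), Nonempty (G ⧸ K ≃* A ⧸ B) := by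
  classical
  -- K is transitive
  have htr : MulAction.IsPretransitive K X := by
    have : Nontrivial K := (Subgroup.nontrivial_iff_ne_bot K).2 hK
    have hq := hprim.isQuasiPreprimitive
    apply hq.isPretransitive_of_normal
    intro h
    apply hK
    rw [eq_bot_iff]
    intro k hk
    rw [Subgroup.mem_bot]
    apply eq_of_smul_eq_smul (α := X)
    intro a
    have : a ∈ MulAction.fixedPoints K X := h ▸ Set.mem_univ a
    rw [one_smul]
    exact this ⟨k, hk⟩
  -- every element of G is k * h with h in the stabilizer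
  have hdec : ∀ g : G, ∃ k ∈ K, k⁻¹ * g ∈ MulAction.stabilizer G x := by
    intro g
    obtain ⟨k, hk⟩ := htr.exists_smul_eq x (g • x)
    refine ⟨k, k.2, ?_⟩
    rw [MulAction.mem_stabilizer_iff, mul_smul, ← hk]
    exact inv_smul_smul _ _
  have hnorm : (A ⊔ K).Normal := by
    constructor
    intro n hn g
    obtain ⟨k, hk, hh⟩ := hdec g
    have hg : g = k * (k⁻¹ * g) := by group
    set h := k⁻¹ * g with hh'
    have h1 : h * n * h⁻¹ ∈ A ⊔ K := by
      have : n ∈ ((A ⊔ K : Subgroup G) : Set G) := hn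
      rw [Subgroup.mul_normal] at this
      obtain ⟨a, ha, c, hc, rfl⟩ := this
      have h2 : h * a * h⁻¹ ∈ A := by
        have := hAn.conj_mem ⟨a, hA ha⟩ ha ⟨h, hh⟩
        exact this
      have h3 : h * c * h⁻¹ ∈ K := ‹K.Normal›.conj_mem c hc h
      have : h * (a * c) * h⁻¹ = (h * a * h⁻¹) * (h * c * h⁻¹) := by group
      show h * (a * c) * h⁻¹ ∈ _
      rw [this]
      exact Subgroup.mul_mem_sup h2 h3
    have : g * n * g⁻¹ = k * (h * n * h⁻¹) * k⁻¹ := by rw [hg]; group
    rw [this]
    have hk' : k ∈ A ⊔ K := Subgroup.mem_sup_right hk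
    exact Subgroup.mul_mem _ (Subgroup.mul_mem _ hk' h1) (Subgroup.inv_mem _ hk')
  have htop : A ⊔ K = ⊤ := by
    rw [eq_top_iff, ← hgen]
    exact Subgroup.normalClosure_le_normal (fun a ha => Subgroup.mem_sup_left ha)
  let φ : A →* G ⧸ K := (QuotientGroup.mk' K).comp A.subtype
  have hφ : Function.Surjective φ := by
    intro y
    obtain ⟨g, rfl⟩ := QuotientGroup.mk'_surjective K y
    have : g ∈ ((A ⊔ K : Subgroup G) : Set G) := by rw [htop]; trivial
    rw [Subgroup.mul_normal] at this
    obtain ⟨a, ha, c, hc, rfl⟩ := this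
    refine ⟨⟨a, ha⟩, ?_⟩
    simp [φ, (QuotientGroup.eq_one_iff c).2 hc]
  exact ⟨φ.ker, inferInstance, ⟨(QuotientGroup.quotientKerEquivOfSurjective φ hφ).symm⟩⟩

end Cfsg.Agent.S0796
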