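import Mathlib
import Cfsg.Statements.S0797
import Cfsg.Agent.KSG.OrthOmega

set_option autoImplicit false
open Cfsg

namespace Cfsg.Agent.S0797


/-- O^ε_2m(q) ≅ Ω.2² for q odd: if F is finite of odd characteristic, n ≥ 2 is even and Q has non-degenerate polar form on F^n, the isometry group of Q has exactly three subgroups of index 2. -/
theorem result {F : Type*} [Field F] [Fintype F] (h2 : (2 : F) ≠ 0) {n : ℕ} (hn : 2 ≤ n) (heven : Even n) (Q : QuadraticForm F (Fin n → F)) (hQ : (QuadraticMap.polarBilin Q).Nondegenerate) : Nat.card {H : Subgroup ↥(Cfsg.isometryGroup F ⇑Q) // H.index = 2} = 3 := by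
  have hF : Nat.card F ≠ 2 ∨ Module.finrank F (Fin n → F) ≠ 4 :=
    Or.inl (CL.Orth.card_ne_two_of_two_ne_zero h2)
  have hn' : 2 ≤ Module.finrank F (Fin n → F) := by simpa using hn
  let e := CL.Orth.toO Q
  let D := (CL.Orth.dickson hQ hF).comp e.toMonoidHom
  let S := (CL.Orth.spinor hQ hF).comp e.toMonoidHom
  have hex : ∀ s t : ℤˣ, ∃ g, D g = s ∧ S g = t := by
    intro s t
    obtain ⟨g, h1, h2⟩ := CL.Orth.exists_dsign_spin_eq hQ h2 hn' s t
    refine ⟨e.symm g, ?_, ?_⟩
    · change CL.Orth.dsign (e (e.symm g)) = s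
      rwa [e.apply_symm_apply]
    · change CL.Orth.spin (e (e.symm g)) = t
      rwa [e.apply_symm_apply]
  obtain ⟨a, ha1, ha2⟩ := hex (-1) 1
  obtain ⟨b, hb1, hb2⟩ := hex 1 (-1)
  have hset : {H : Subgroup ↥(Cfsg.isometryGroup F ⇑Q) | H.index = 2} =
      {D.ker, S.ker, (D * S).ker} := by
    ext H
    simp only [Set.mem_ofPred_eq, Set.mem_insert_iff, Set.mem_singleton_iff]
    constructor
    · intro hH
      obtain ⟨φ, rfl⟩ := CL.Orth.exists_signHom_ker_eq hH
      have hφ : φ = (φ.comp e.symm.toMonoidHom).comp e.toMonoidHom := by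
        ext g; simp
      rcases CL.Orth.hom_sign_cases hQ hF (φ.comp e.symm.toMonoidHom) with h | h | h | h
      · rw [hφ, h] at hH
        simp at hH
      · left; rw [hφ, h]
      · right; left; rw [hφ, h]
      · right; right; rw [hφ, h]; rfl
    · rintro (rfl | rfl | rfl)
      · exact CL.Orth.index_ker_signHom _ ha1
      · exact CL.Orth.index_ker_signHom _ hb2
      · exact CL.Orth.index_ker_signHom _ (g := a) (by rw [MonoidHom.mul_apply, ha1, ha2, mul_one])
  change Nat.card {H : Subgroup ↥(Cfsg.isometryGroup F ⇑Q) | H.index = 2} = 3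
  rw [hset, Nat.card_coe_set_eq, Set.ncard_eq_three]
  refine ⟨_, _, _, ?_, ?_, ?_, rfl⟩
  · intro h
    have : a ∈ S.ker := ha2
    rw [← h, MonoidHom.mem_ker, ha1] at this
    exact absurd this (by decide)
  · intro h
    have : b ∈ D.ker := hb1
    rw [h, MonoidHom.mem_ker, MonoidHom.mul_apply, hb1, hb2] at this
    exact absurd this (by decide)
  · intro h
    have : a ∈ S.ker := ha2
    rw [h, MonoidHom.mem_ker, MonoidHom.mul_apply, ha1, ha2] at this
    exact absurd this (by decide)

end Cfsg.Agent.S0797
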