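import Mathlib
import Cfsg.Statements.S0798
import Cfsg.Agent.KSG.OrthMaxTS

set_option autoImplicit false
open Cfsg

namespace Cfsg.Agent.S0798

open CL.Orth Module QuadraticMap

section
variable {F V : Type*} [Field F] [Finite F] [AddCommGroup V] [Module F V] [FiniteDimensional F V]
  {Q : QuadraticForm F V}

theorem plane_step (hQ : (polarBilin Q).Nondegenerate) {c : F} (hc : c ≠ 0) (R : Subgroup (O Q))
    (hR : ∀ v, Q v ≠ 0 → sqSign (Q v) = sqSign c → refl Q v ∈ R) {W : Submodule F V}
    (hW : W ⊓ perp Q W = ⊥) (hd : finrank F W = 2) {u v : V} (hu : u ∈ W) (hv : v ∈ W)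
    (hu0 : Q u ≠ 0) (hv0 : Q v ≠ 0) (huv : sqSign (Q u) = sqSign (Q v)) :
    refl Q u * refl Q v ∈ R := by
  obtain ⟨a, ha, hQa⟩ := exists_Q_eq_mem hW hd.ge c
  have ha0 : Q a ≠ 0 := by rwa [hQa]
  have hm : moved (refl Q a * (refl Q u * (refl Q v * 1))) ≤ W := by
    refine (moved_refl_mul_le _ _).trans (sup_le ((moved_refl_mul_le _ _).trans (sup_le
      ((moved_refl_mul_le _ _).trans (sup_le (by rw [moved_one]; exact bot_le) ?_)) ?_)) ?_) <;>
      rwa [Submodule.span_singleton_le_iff_mem]
  have hds : dsign (refl Q a * (refl Q u * (refl Q v * 1))) = -1 := by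
    rw [dsign_refl_mul hQ _ ha0, dsign_refl_mul hQ _ hu0, dsign_refl_mul hQ _ hv0, dsign_one]; simp
  have h1 : finrank F (moved (refl Q a * (refl Q u * (refl Q v * 1)))) = 1 := by
    have h2 := Submodule.finrank_mono hm
    have h3 : ¬ Even (finrank F (moved (refl Q a * (refl Q u * (refl Q v * 1))))) := by
      rw [← dsign_eq_one_iff, hds]; decide
    rw [Nat.even_iff] at h3
    omega
  obtain ⟨z, -, hz0, hz⟩ := eq_refl_of_finrank_moved hQ h1
  have hs : sqSign (Q z) = sqSign c := by
    rw [← spin_refl hQ hz0, ← hz, spin_refl_mul hQ _ ha0, spin_refl_mul hQ _ hu0,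
      spin_refl_mul hQ _ hv0, spin_one, huv, hQa, mul_one, Int.units_mul_self, mul_one]
  have : refl Q u * refl Q v = refl Q a * refl Q z := by
    rw [← hz, refl_mul_refl_mul, mul_one]
  rw [this]
  exact R.mul_mem (hR a ha0 (by rw [hQa])) (hR z hz0 hs)

omit [Finite F] [FiniteDimensional F V] in
theorem pair_nondeg {u v : V} (h : polar Q u v ^ 2 ≠ 4 * Q u * Q v) :
    Submodule.span F {u, v} ⊓ perp Q (Submodule.span F {u, v}) = ⊥ ∧
      finrank F (Submodule.span F {u, v}) = 2 := by
  have key : ∀ a b : F, polar Q u (a • u + b • v) = 0 → polar Q v (a • u + b • v) = 0 →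
      a = 0 ∧ b = 0 := by
    intro a b h1 h2
    simp only [polar_add_right, polar_smul_right', polar_self', polar_comm Q v u] at h1 h2
    have hd : polar Q u v ^ 2 - 4 * Q u * Q v ≠ 0 := sub_ne_zero.2 h
    constructor
    · apply mul_left_cancel₀ hd
      linear_combination (polar Q u v) * h2 - 2 * Q v * h1
    · apply mul_left_cancel₀ hd
      linear_combination (polar Q u v) * h1 - 2 * Q u * h2
  constructor
  · rw [eq_bot_iff]
    rintro x ⟨hx, hx'⟩
    obtain ⟨a, b, rfl⟩ := Submodule.mem_span_pair.1 hx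
    obtain ⟨rfl, rfl⟩ := key a b (mem_perp_span.1 hx' u (by simp)) (mem_perp_span.1 hx' v (by simp))
    simp
  · have hli : LinearIndependent F ![u, v] :=
      LinearIndependent.pair_iff.2 fun a b hab => key a b (by simp [hab]) (by simp [hab])
    have := finrank_span_eq_card hli
    rw [Matrix.range_cons_cons_empty] at this
    simpa using this

theorem same_class (hQ : (polarBilin Q).Nondegenerate) (h2 : (2 : F) ≠ 0)
    (he : Even (finrank F V)) (h43 : ¬ (finrank F V = 4 ∧ Nat.card F = 3)) {c : F} (hc : c ≠ 0)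
    (R : Subgroup (O Q)) (hR : ∀ v, Q v ≠ 0 → sqSign (Q v) = sqSign c → refl Q v ∈ R) {u v : V}
    (hu0 : Q u ≠ 0) (hv0 : Q v ≠ 0) (huv : sqSign (Q u) = sqSign (Q v)) :
    refl Q u * refl Q v ∈ R := by
  have step : ∀ x y : V, Q x ≠ 0 → Q x = Q y → polar Q x y ^ 2 ≠ 4 * Q x * Q y →
      refl Q x * refl Q y ∈ R := fun x y hx hxy h =>
    plane_step hQ hc R hR (pair_nondeg h).1 (pair_nondeg h).2 (Submodule.subset_span (by simp))
      (Submodule.subset_span (by simp)) hx (hxy ▸ hx) (by rw [hxy])
  have main : ∀ x y : V, Q x ≠ 0 → Q x = Q y → polar Q x y = 2 * Q x →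
      refl Q x * refl Q y ∈ R := by
    intro x y hx hxy h
    by_cases hr : y - x = 0
    · rw [sub_eq_zero.1 hr, refl_mul_self]; exact R.one_mem
    have hQr : Q (y - x) = 0 := by rw [Q_sub, polar_comm, h, ← hxy]; ring
    have hxr : polar Q x (y - x) = 0 := by rw [polar_sub_right, h, polar_self']; ring
    have hx0 : x ≠ 0 := by rintro rfl; simp at hx
    have hX : (F ∙ x) ⊓ perp Q (F ∙ x) = ⊥ := by
      rw [eq_bot_iff]
      rintro z ⟨hz, hz'⟩
      obtain ⟨a, rfl⟩ := Submodule.mem_span_singleton.1 hz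
      have := mem_perp_singleton.1 hz'
      rw [polar_smul_right', polar_self'] at this
      simp [(mul_eq_zero.1 this).resolve_right (mul_ne_zero h2 hx)]
    obtain ⟨s, hs, hrs⟩ := exists_hyp_partner (restrict_perp_nondeg hQ hX)
      (v := ⟨y - x, mem_perp_singleton.2 hxr⟩) (fun h => hr (congrArg Subtype.val h)) hQr
    have hs' : Q (s : V) = 0 := hs
    have hrs' : polar Q (y - x) s = 1 := hrs
    have hxs : polar Q x s = 0 := mem_perp_singleton.1 s.2
    obtain ⟨z, hz, hxz, hyz⟩ : ∃ z, Q z = Q x ∧ polar Q x z = 0 ∧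
        polar Q z y ^ 2 ≠ 4 * Q x * Q x := by
      by_cases hq : Nat.card F = 3
      · have hP := pair_nondeg (Q := Q) (u := y - x) (v := s) (by rw [hrs', hQr]; simp)
        have hPx : Submodule.span F {y - x, (s : V)} ≤ perp Q (F ∙ x) :=
          Submodule.span_le.2 (by
            rintro _ (rfl | rfl)
            · exact mem_perp_singleton.2 hxr
            · exact s.2)
        have hW : ((F ∙ x) ⊔ Submodule.span F {y - x, (s : V)}) ⊓
            perp Q ((F ∙ x) ⊔ Submodule.span F {y - x, (s : V)}) = ⊥ := by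
          rw [eq_bot_iff]
          rintro w ⟨hw, hw'⟩
          rw [SetLike.mem_coe, perp_sup] at hw'
          obtain ⟨a, ha, b, hb, rfl⟩ := Submodule.mem_sup.1 hw
          have ha0 : a = 0 := (Submodule.mem_bot F).1 (hX ▸ ⟨ha, by
            simpa using Submodule.sub_mem _ hw'.1 (hPx hb)⟩)
          subst ha0
          rw [zero_add] at hw' ⊢
          exact hP.1 ▸ ⟨hb, hw'.2⟩
        have hd1 := finrank_perp hQ ((F ∙ x) ⊔ Submodule.span F {y - x, (s : V)})
        have hd2 := Submodule.finrank_sup_add_finrank_inf_eq (F ∙ x)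
          (Submodule.span F {y - x, (s : V)})
        have hd3 : (F ∙ x) ⊓ Submodule.span F {y - x, (s : V)} = ⊥ :=
          eq_bot_iff.2 (hX ▸ inf_le_inf_left _ hPx)
        rw [hd3, finrank_bot, hP.2, finrank_span_singleton hx0] at hd2
        rw [Nat.even_iff] at he
        obtain ⟨z, hz, hQz⟩ := exists_Q_eq_mem (perp_inf_perp_perp hQ hW) (by omega) (Q x)
        rw [perp_sup] at hz
        have h3 : polar Q x z = 0 := mem_perp_singleton.1 hz.1
        have h4 : polar Q (y - x) z = 0 := mem_perp_span.1 hz.2 _ (by simp)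
        refine ⟨z, hQz, h3, ?_⟩
        rw [polar_sub_left, h3, sub_zero, polar_comm] at h4
        rw [h4]
        have : (4 : F) = 2 * 2 := by norm_num
        simp [this, h2, hx]
      · obtain ⟨γ, hγ⟩ : ∃ γ : F, γ ∉ ({0, 2 * Q x, -(2 * Q x)} : Set F) := by
          classical
          by_contra hcon
          push Not at hcon
          have := Fintype.ofFinite F
          have h5 : (Finset.univ : Finset F) ⊆ {0, 2 * Q x, -(2 * Q x)} := fun a _ => by
            simpa using hcon a
          have h6 := (Finset.card_le_card h5).trans Finset.card_le_three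
          have h7 := FiniteField.odd_card_of_char_ne_two (ringChar_ne_two_of h2)
          have h8 := Fintype.one_lt_card (α := F)
          rw [Nat.card_eq_fintype_card] at hq
          rw [Finset.card_univ] at h6
          omega
        simp only [Set.mem_insert_iff, Set.mem_singleton_iff, not_or] at hγ
        refine ⟨(Q x * γ⁻¹) • (y - x) + γ • (s : V), ?_, ?_, ?_⟩
        · rw [Q_add, Q_smul, Q_smul, hQr, hs', polar_smul_left', polar_smul_right', hrs']
          field_simp [hγ.1]; ring
        · rw [polar_add_right, polar_smul_right', polar_smul_right', hxr, hxs]; ring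
        · have e1 : polar Q (y - x) y = 0 := by
            rw [polar_sub_left, polar_self', h, hxy, sub_self]
          have e2 : polar Q (s : V) y = 1 := by
            rw [polar_sub_left, hxs, sub_zero, polar_comm] at hrs'; exact hrs'
          rw [polar_add_left, polar_smul_left', polar_smul_left', e1, e2, mul_zero, zero_add,
            mul_one]
          intro h9
          have : (γ - 2 * Q x) * (γ + 2 * Q x) = 0 := by linear_combination h9
          rcases mul_eq_zero.1 this with h | h
          · exact hγ.2.1 (sub_eq_zero.1 h)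
          · exact hγ.2.2 (eq_neg_of_add_eq_zero_left h)
    have e : refl Q x * refl Q y = (refl Q x * refl Q z) * (refl Q z * refl Q y) := by
      rw [mul_assoc, refl_mul_refl_mul]
    rw [e]
    refine R.mul_mem (step x z hx hz.symm ?_) (step z y (hz ▸ hx) (hz.trans hxy) ?_)
    · have : (4 : F) = 2 * 2 := by norm_num
      rw [hxz, hz]; simp [this, h2, hx]
    · rwa [hz, ← hxy]
  obtain ⟨t, ht, htv⟩ := exists_mul_self_mul_eq hv0 hu0 huv.symm
  rw [← Q_smul] at htv
  rw [← refl_smul ht v]
  by_cases h : polar Q u (t • v) ^ 2 = 4 * Q u * Q (t • v)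
  · have : (polar Q u (t • v) - 2 * Q u) * (polar Q u (t • v) + 2 * Q u) = 0 := by
      rw [htv] at h; linear_combination h
    rcases mul_eq_zero.1 this with h' | h'
    · exact main u _ hu0 htv.symm (sub_eq_zero.1 h')
    · rw [← refl_smul (neg_ne_zero.2 one_ne_zero) (t • v)]
      refine main u _ hu0 (by rw [Q_smul, htv]; ring) ?_
      rw [polar_smul_right']; linear_combination -h'
  · exact step u _ hu0 htv.symm h

theorem index_closure (hQ : (polarBilin Q).Nondegenerate) (h2 : (2 : F) ≠ 0)
    (hn : 2 ≤ finrank F V) (he : Even (finrank F V))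
    (h43 : ¬ (finrank F V = 4 ∧ Nat.card F = 3)) {c : F} (hc : c ≠ 0) :
    (Subgroup.closure {g : O Q | ∃ (v : V) (t : F), t ≠ 0 ∧ Q v = c * t ^ 2 ∧ g = refl Q v}).index
      = 2 := by
  have hF : Nat.card F ≠ 2 ∨ finrank F V ≠ 4 := Or.inl (card_ne_two_of_two_ne_zero h2)
  set R := Subgroup.closure {g : O Q | ∃ (v : V) (t : F), t ≠ 0 ∧ Q v = c * t ^ 2 ∧ g = refl Q v}
    with hRdef
  have hR : ∀ v, Q v ≠ 0 → sqSign (Q v) = sqSign c → refl Q v ∈ R := fun v hv h => by
    obtain ⟨t, ht, htv⟩ := exists_mul_self_mul_eq hc hv h.symm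
    exact Subgroup.subset_closure ⟨v, t, ht, by rw [← htv]; ring, rfl⟩
  let φ : O Q →* ℤˣ := spinor hQ hF * (signHom (sqSign c) (Int.units_mul_self _)).comp (dickson hQ hF)
  have hφ : ∀ v, Q v ≠ 0 → φ (refl Q v) = sqSign (Q v) * sqSign c := fun v hv => by
    simp only [φ, MonoidHom.mul_apply, MonoidHom.comp_apply, spinor_apply, dickson_apply,
      spin_refl hQ hv, dsign_refl hQ hv, signHom_neg_one]
  obtain ⟨w, hw, hws⟩ := exists_Q_sqSign_eq hQ h2 hn (-sqSign c)
  have hφw : φ (refl Q w) = -1 := by rw [hφ w hw, hws, neg_mul, Int.units_mul_self]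
  have hnorm : ∀ g : O Q, ∀ r ∈ R, g * r * g⁻¹ ∈ R := by
    intro g r hr
    have : R.map (MulAut.conj g).toMonoidHom ≤ R := by
      rw [hRdef, MonoidHom.map_closure]
      apply Subgroup.closure_mono
      rintro _ ⟨_, ⟨v, t, ht, hv, rfl⟩, rfl⟩
      exact ⟨g.1 v, t, ht, by rw [O_map, hv], conj_refl g v⟩
    exact this ⟨r, hr, rfl⟩
  have hall : ∀ g : O Q, g ∈ R ∨ refl Q w * g ∈ R := by
    intro g
    induction g using refl_induction hQ hF with
    | h1 => exact Or.inl R.one_mem
    | hstep v g hv ih =>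
      by_cases hvc : sqSign (Q v) = sqSign c
      · rcases ih with ih | ih
        · exact Or.inl (R.mul_mem (hR v hv hvc) ih)
        · right
          have := R.mul_mem (hnorm (refl Q w) _ (hR v hv hvc)) ih
          rwa [refl_inv, mul_assoc, refl_mul_refl_mul, mul_assoc] at this
      · have hvw : sqSign (Q w) = sqSign (Q v) := by
          rw [hws]; exact (Int.units_ne_iff_eq_neg.1 hvc).symm
        rcases ih with ih | ih
        · right
          rw [← mul_assoc]
          exact R.mul_mem (same_class hQ h2 he h43 hc R hR hw hv hvw) ih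
        · left
          have := R.mul_mem (same_class hQ h2 he h43 hc R hR hv hw hvw.symm) ih
          rwa [mul_assoc, refl_mul_refl_mul] at this
  have hle : R ≤ φ.ker := by
    rw [hRdef, Subgroup.closure_le]
    rintro _ ⟨v, t, ht, hv, rfl⟩
    have hv0 : Q v ≠ 0 := by rw [hv]; exact mul_ne_zero hc (pow_ne_zero _ ht)
    rw [SetLike.mem_coe, MonoidHom.mem_ker, hφ v hv0, hv, sqSign_mul hc (pow_ne_zero _ ht), pow_two,
      sqSign_mul_self, mul_one, Int.units_mul_self]
  have : R = φ.ker := le_antisymm hle fun g hg => (hall g).resolve_right fun h => by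
    have := hle h
    rw [MonoidHom.mem_ker, map_mul, hφw, MonoidHom.mem_ker.1 hg] at this
    exact absurd this (by decide)
  rw [this, index_ker_signHom φ hφw]

end


/-- For q odd, n ≥ 2 even, Q with non-degenerate polar form (n, |F|) ≠ (4, 3), and a fixed c ≠ 0: the subgroup of the isometry group generated by the reflections r_v with Q(v) ∈ c·(F^×)² has index 2. -/
theorem result {F : Type*} [Field F] [Fintype F] (h2 : (2 : F) ≠ 0) {n : ℕ} (hn : 2 ≤ n) (heven : Even n) (Q : QuadraticForm F (Fin n → F)) (hQ : (QuadraticMap.polarBilin Q).Nondegenerate) (h43 : ¬ (n = 4 ∧ Fintype.card F = 3)) (c : F) (hc : c ≠ 0) : (Subgroup.closure {g : ↥(Cfsg.isometryGroup F ⇑Q) | ∃ (v : Fin n → F) (t : F), t ≠ 0 ∧ Q v = c * t ^ 2 ∧ ((g : Matrix.GeneralLinearGroup (Fin n) F) : Matrix (Fin n) (Fin n) F) = Cfsg.reflectionMatrix ⇑Q v}).index = 2 := by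
  have h := index_closure hQ h2 (by simpa using hn) (by simpa using heven)
    (by simpa [Nat.card_eq_fintype_card] using h43) hc
  rw [← Subgroup.index_comap_of_surjective _ (f := (toO Q).toMonoidHom) (toO Q).surjective,
    ← closure_preimage_equiv] at h
  refine Eq.trans ?_ h
  congr 2
  ext g
  simp only [Set.mem_preimage, Set.mem_ofPred_eq, toO_eq_refl_iff]

end Cfsg.Agent.S0798
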