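import Cfsg.Statements.S0800


set_option autoImplicit false
open Cfsg

namespace Cfsg.Agent.S0800

open Matrix Polynomial

theorem aux {F K : Type*} [Field F] [Field K] [IsAlgClosed K] (φ : F →+* K) [Fintype F] {q : ℕ}
    (hF : Fintype.card F = q) (p : ℕ) [Fact p.Prime] [CharP F p] [CharP K p]
    (g : Matrix.SpecialLinearGroup (Fin 2) F) (hg : Nat.Coprime (orderOf g) p) :
    orderOf g ∣ q - 1 ∨ orderOf g ∣ q + 1 := by
  let A : Matrix (Fin 2) (Fin 2) K := (g : Matrix (Fin 2) (Fin 2) F).map φ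
  have hd : A 0 0 * A 1 1 - A 0 1 * A 1 0 = 1 := by
    have := congrArg φ ((det_fin_two _).symm.trans g.det_coe)
    simpa [A] using this
  obtain ⟨l, hl⟩ : ∃ l : K, l ^ 2 - (A 0 0 + A 1 1) * l + 1 = 0 := by
    obtain ⟨l, hl⟩ := IsAlgClosed.exists_root (C 1 * X ^ 2 + C (-(A 0 0 + A 1 1)) * X + C (1 : K))
      (by rw [degree_quadratic one_ne_zero]; decide)
    exact ⟨l, by simp at hl; linear_combination hl⟩
  have l0 : l ≠ 0 := by rintro rfl; simp at hl
  have hA : ∀ n : ℕ, A ^ n = 1 ↔ g ^ n = 1 := fun n => by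
    have : A ^ n = ((g ^ n : SpecialLinearGroup (Fin 2) F) : Matrix (Fin 2) (Fin 2) F).map φ := by
      simp [A, Matrix.map_pow]
    rw [this, ← Matrix.map_one φ (map_zero φ) (map_one φ), (Matrix.map_injective φ.injective).eq_iff]
    exact ⟨fun h => Subtype.ext h, fun h => congrArg Subtype.val h⟩
  have hq : Nat.card F = q := by rw [Nat.card_eq_fintype_card, hF]
  have q0 : 1 ≤ q := hF ▸ Fintype.card_pos
  obtain ⟨n, -, hn⟩ := FiniteField.card F p
  have hfr : ∀ a : F, φ a ^ q = φ a := fun a => by rw [← map_pow, ← hF, FiniteField.pow_card]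
  have hlq : l ^ q = l ∨ l ^ q = l⁻¹ := by
    have h1 := congrArg (· ^ q) hl
    have h2 : (A 0 0 + A 1 1) ^ q = A 0 0 + A 1 1 := by
      simpa [A] using hfr (g 0 0 + g 1 1)
    rw [← hF, hn] at h1 h2 ⊢
    simp only [add_pow_char_pow, sub_pow_char_pow, mul_pow, one_pow, h2] at h1
    rw [zero_pow (by simp [(Fact.out : p.Prime).ne_zero]), ← pow_mul, mul_comm 2, pow_mul] at h1
    have h3 : A 0 0 + A 1 1 = l + l⁻¹ := by field_simp; linear_combination -hl
    rw [← sub_eq_zero, ← sub_eq_zero (b := l⁻¹), ← mul_eq_zero]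
    linear_combination h1 + l ^ p ^ (n : ℕ) * h3 + mul_inv_cancel₀ l0
  have hCH : (A - l • 1) * (A - l⁻¹ • 1) = 0 := by
    have h3 : A 1 1 = l + l⁻¹ - A 0 0 := by field_simp; linear_combination -hl
    ext i j
    fin_cases i <;> fin_cases j <;> simp [Matrix.mul_apply, Fin.sum_univ_two, h3] at hd ⊢
    · linear_combination -hd + mul_inv_cancel₀ l0
    · ring
    · ring
    · linear_combination -hd + mul_inv_cancel₀ l0
  have key : ∀ m : ℕ, l ^ m = 1 → orderOf g ∣ m := fun m hm => by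
    refine (hg.pow_right 1).dvd_of_dvd_mul_right (orderOf_dvd_of_pow_eq_one ((hA _).1 ?_))
    have h1 : ∀ k : ℕ, A ^ k * (A - l⁻¹ • 1) = l ^ k • (A - l⁻¹ • 1) := fun k => by
      induction k with
      | zero => simp
      | succ k ih =>
        have : A * (A - l⁻¹ • 1) = l • (A - l⁻¹ • 1) := by
          rw [← sub_eq_zero, ← hCH, sub_mul, smul_mul_assoc, one_mul]
        rw [pow_succ, mul_assoc, this, mul_smul_comm, ih, smul_smul, pow_succ']
    have h2 : ∃ B, A ^ m - 1 = (A - l⁻¹ • 1) * B := by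
      have := (Commute.sub_dvd_pow_sub_pow (x := A) (y := l⁻¹ • 1) ((Commute.one_right A).smul_right _) m)
      rwa [_root_.smul_pow, inv_pow, hm, one_pow, inv_one, one_smul] at this
    obtain ⟨B, hB⟩ := h2
    have h3 : (A ^ m - 1) ^ 2 = 0 := by
      rw [pow_two]
      nth_rewrite 2 [hB]
      rw [← mul_assoc, sub_mul, h1, hm, one_smul, one_mul, sub_self, zero_mul]
    have h4 := sub_pow_char_of_commute p (x := A ^ m) (y := 1) (Commute.one_right _)
    rw [pow_eq_zero_of_le (Fact.out : p.Prime).two_le h3, one_pow, eq_comm, sub_eq_zero] at h4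
    rw [pow_one, pow_mul, h4]
  rcases hlq with h | h
  · left
    refine key _ (mul_right_cancel₀ l0 ?_)
    rw [← pow_succ, Nat.sub_add_cancel q0, h, one_mul]
  · exact Or.inr (key _ (by rw [pow_succ, h, inv_mul_cancel₀ l0]))

/-- Tori of SL_2(q): if g ∈ SL_2(q) has order coprime to the characteristic p, then the order of g divides q − 1 or q + 1. -/
theorem result {F : Type*} [Field F] [Fintype F] {q : ℕ} (hF : Fintype.card F = q) (p : ℕ) [Fact p.Prime] [CharP F p] (g : Matrix.SpecialLinearGroup (Fin 2) F) (hg : Nat.Coprime (orderOf g) p) : orderOf g ∣ q - 1 ∨ orderOf g ∣ q + 1 := by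
  have := charP_of_injective_algebraMap (algebraMap F (AlgebraicClosure F)).injective p
  exact aux (algebraMap F (AlgebraicClosure F)) hF p g hg

end Cfsg.Agent.S0800
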