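import Cfsg.Statements.S0805
import Cfsg.Agent.CLAS.PGL2Subfield

set_option autoImplicit false
open Cfsg

namespace Cfsg.Agent.S0805

open CL.Dk CL.PGL2

/-- Subfield subgroups: let F be a finite field of odd order q and K a finite field with |K|^m = q, m ≥ 1. Then PSL_2(F) has a subgroup isomorphic to PSL_2(K), and has a subgroup isomorphic to PGL_2(K) if and only if m is even. -/
theorem result {F K : Type*} [Field F] [Fintype F] [Field K] [Fintype K] {q : ℕ} (hF : Fintype.card F = q) (hodd : Odd q) (m : ℕ) (hm : 1 ≤ m) (hK : Fintype.card K ^ m = q) : (∃ H : Subgroup (Matrix.ProjectiveSpecialLinearGroup (Fin 2) F), Nonempty (H ≃* Matrix.ProjectiveSpecialLinearGroup (Fin 2) K)) ∧ ((∃ H : Subgroup (Matrix.ProjectiveSpecialLinearGroup (Fin 2) F), Nonempty (H ≃* Matrix.ProjGenLinGroup (Fin 2) K)) ↔ Even m) := by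
  have hq : Nat.card F = q := by rw [Nat.card_eq_fintype_card, hF]
  rw [← Nat.card_eq_fintype_card, ← hq] at hK
  obtain ⟨f⟩ := nonempty_ringHom_of_card_pow hK
  rw [exists_psl_subgroup_iff, exists_psl_subgroup_iff]
  refine ⟨⟨pslOf f, pslOf_le_pslIn f, ⟨(pslOfEquiv f).symm⟩⟩, ?_, fun h => ?_⟩
  · rintro ⟨H, h1, ⟨e⟩⟩
    refine even_of_card_pgl_dvd (hq ▸ hodd) hK ?_
    rw [← card_PGL2, ← Nat.card_congr e.toEquiv]
    exact Subgroup.card_dvd_of_le h1
  · exact ⟨pglOf f, pglOf_le_pslIn_of_even f hK h, ⟨(pglOfEquiv f).symm⟩⟩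

end Cfsg.Agent.S0805
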