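import Cfsg.Statements.S0807
import Cfsg.Agent.CLAS.PGL2Four

set_option autoImplicit false
open Cfsg

namespace Cfsg.Agent.S0807

open CL.Dk CL.PGL2

/-- For q odd, twelve times the number of Klein four-subgroups of PSL_2(q) equals the order of PSL_2(q). -/
theorem result {F : Type*} [Field F] [Fintype F] {q : ℕ} (hF : Fintype.card F = q) (hodd : Odd q) : 12 * Nat.card {V : Subgroup (Matrix.ProjectiveSpecialLinearGroup (Fin 2) F) // IsKleinFour V} = Nat.card (Matrix.ProjectiveSpecialLinearGroup (Fin 2) F) := by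
  have hq : Nat.card F = q := by rw [Nat.card_eq_fintype_card, hF]
  rw [← hq] at hodd
  have h1 := card_kleinFour_pslIn (two_ne_zero_of_odd hodd)
  have h2 := CL.SL.gcd_mul_card_PSL_two (F := F)
  rw [gcd_two_of_odd hodd, ← card_PGL2, ← h1] at h2
  have h3 : Nat.card {V : Subgroup (Matrix.ProjectiveSpecialLinearGroup (Fin 2) F) // IsKleinFour V} =
      Nat.card {W : Subgroup (Matrix.ProjGenLinGroup (Fin 2) F) // IsKleinFour W ∧ W ≤ pslIn F} :=
    Nat.card_congr
      { toFun := fun V => ⟨V.1.map (psl2pgl F), isKleinFour_map psl2pgl_injective V.2,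
          map_psl2pgl_le _⟩
        invFun := fun W => ⟨W.1.comap (psl2pgl F), isKleinFour_comap_psl2pgl W.2.1 W.2.2⟩
        left_inv := fun V => Subtype.ext
          (Subgroup.comap_map_eq_self_of_injective psl2pgl_injective _)
        right_inv := fun W => Subtype.ext (map_comap_psl2pgl W.2.2) }
  omega

end Cfsg.Agent.S0807
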