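import Cfsg.Statements.S0808
import Cfsg.Agent.CLAS.PGL2Four

set_option autoImplicit false
open Cfsg

namespace Cfsg.Agent.S0808

open CL.Dk CL.PGL2

/-- Conjugacy classes of four-groups in PSL_2(q), q odd: if q ≡ 3 or 5 (mod 8) all Klein four-subgroups are conjugate; if q ≡ 1 or 7 (mod 8) there are two Klein four-subgroups which are not conjugate, and every Klein four-subgroup is conjugate to one of them. -/
theorem result {F : Type*} [Field F] [Fintype F] {q : ℕ} (hF : Fintype.card F = q) (hodd : Odd q) : ((q % 8 = 3 ∨ q % 8 = 5) → ∀ V W : Subgroup (Matrix.ProjectiveSpecialLinearGroup (Fin 2) F), IsKleinFour V → IsKleinFour W → ∃ g : Matrix.ProjectiveSpecialLinearGroup (Fin 2) F, W = V.map (MulAut.conj g).toMonoidHom) ∧ ((q % 8 = 1 ∨ q % 8 = 7) → ∃ V₁ V₂ : Subgroup (Matrix.ProjectiveSpecialLinearGroup (Fin 2) F), IsKleinFour V₁ ∧ IsKleinFour V₂ ∧ (¬ ∃ g : Matrix.ProjectiveSpecialLinearGroup (Fin 2) F, V₂ = V₁.map (MulAut.conj g).toMonoidHom) ∧ ∀ W : Subgroup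 (Matrix.ProjectiveSpecialLinearGroup (Fin 2) F), IsKleinFour W → (∃ g : Matrix.ProjectiveSpecialLinearGroup (Fin 2) F, W = V₁.map (MulAut.conj g).toMonoidHom) ∨ (∃ g : Matrix.ProjectiveSpecialLinearGroup (Fin 2) F, W = V₂.map (MulAut.conj g).toMonoidHom)) := by
  have hq : Nat.card F = q := by rw [Nat.card_eq_fintype_card, hF]
  rw [← hq] at hodd ⊢
  have h2 := two_ne_zero_of_odd hodd
  constructor
  · intro h V W hV hW
    rw [exists_conj_psl_iff]
    obtain ⟨g, hg⟩ := exists_cjs_of_kleinFour h2 (isKleinFour_map psl2pgl_injective hV)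
      (isKleinFour_map psl2pgl_injective hW) (map_psl2pgl_le V) (map_psl2pgl_le W)
    rw [hg]
    apply exists_cjs_pslIn_of_not_le
    obtain ⟨B, hB⟩ := exists_eq_fourQ h2 (isKleinFour_map psl2pgl_injective hV) (map_psl2pgl_le V)
    rw [hB]
    intro hle
    have := (isSquare_two_iff_of_odd hodd).1 ((octa_le_pslIn_iff h2 B).1 hle)
    omega
  · intro h
    obtain ⟨B⟩ := nonempty_QB_of_finite (F := F)
    have hN := (octa_le_pslIn_iff h2 B).2 ((isSquare_two_iff_of_odd hodd).2 h)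
    obtain ⟨t, ht⟩ : ∃ t, t ∉ pslIn F := by
      by_contra! hh
      have := index_pslIn_of_odd hodd
      rw [(Subgroup.eq_top_iff' _).2 hh, Subgroup.index_top] at this
      omega
    have hV := isKleinFour_fourQ h2 B
    have hL := fourQ_le_pslIn h2 B
    have hL' : cjs t (fourQ B) ≤ pslIn F := cjs_le_pslIn_iff.2 hL
    refine ⟨(fourQ B).comap (psl2pgl F), (cjs t (fourQ B)).comap (psl2pgl F),
      isKleinFour_comap_psl2pgl hV hL, isKleinFour_comap_psl2pgl (isKleinFour_cjs t hV) hL', ?_,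
      fun W hW => ?_⟩
    · rw [exists_conj_psl_iff, map_comap_psl2pgl hL, map_comap_psl2pgl hL']
      rintro ⟨g, hg, e⟩
      have : g⁻¹ * t ∈ octa B := cjs_eq_iff_mem_normalizer.1 (by rw [cjs_mul, e, cjs_inv_cjs])
      exact ht ((Subgroup.mul_mem_cancel_left _ (inv_mem hg)).1 (hN this))
    · rw [exists_conj_psl_iff, exists_conj_psl_iff, map_comap_psl2pgl hL, map_comap_psl2pgl hL']
      obtain ⟨g, hg⟩ := exists_cjs_of_kleinFour h2 hV (isKleinFour_map psl2pgl_injective hW) hL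
        (map_psl2pgl_le W)
      by_cases hg' : g ∈ pslIn F
      · exact Or.inl ⟨g, hg', hg⟩
      · refine Or.inr ⟨g * t⁻¹, ?_, by rw [hg, ← cjs_mul, inv_mul_cancel_right]⟩
        rw [Subgroup.mul_mem_iff_of_index_two (index_pslIn_of_odd hodd), inv_mem_iff]
        exact iff_of_false hg' ht

end Cfsg.Agent.S0808
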