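import Cfsg.Statements.S0816
import Cfsg.Agent.CLAS.OutOrth3

set_option autoImplicit false
open Cfsg

namespace Cfsg.Agent.S0816

open CL.OutOrth


/-- |Aut(PΩ_(2m+1)(q))| = 2 f · |PΩ_(2m+1)(q)| for q = p^f odd and m ≥ 3 (for the form quadFormOdd). -/
theorem result {F : Type*} [Field F] [Fintype F] (p f : ℕ) [Fact p.Prime] (hf : 1 ≤ f) (hF : Fintype.card F = p ^ f) (hodd : Odd p) (m : ℕ) (hm : 3 ≤ m) : Nat.card (MulAut (Cfsg.POmega F (Cfsg.quadFormOdd m F))) = 2 * f * Nat.card (Cfsg.POmega F (Cfsg.quadFormOdd m F)) := by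
  have hp : p ≠ 2 := by rintro rfl; exact absurd hodd (by decide)
  have : NeZero f := ⟨by omega⟩
  obtain ⟨e⟩ := out_QOdd hF hp (m := m) (by omega)
  refine (ok_odd (by omega) (CL.Orth.two_ne_zero_of_odd_card (odd_card hF hp))).card_mulAut.trans ?_
  congr 1
  rw [CL.Orth.coe_QOdd, Nat.card_congr e.toEquiv]
  simp

end Cfsg.Agent.S0816
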