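import Cfsg.Statements.S0818
import Cfsg.Agent.CLAS.OutOrth3

set_option autoImplicit false
open Cfsg

namespace Cfsg.Agent.S0818

open CL.OutOrth


/-- |Aut(PΩ⁻_2m(q))| for q = p^f, m ≥ 4 (form quadFormMinus (m−1) with anisotropic binary part): |PΩ⁻_2m(q)| times f, times 2 if p = 2, and times 4 or 8 if p is odd according as m(q−1)/2 is even or odd. -/
theorem result {F : Type*} [Field F] [Fintype F] (p f : ℕ) [Fact p.Prime] (hf : 1 ≤ f) (hF : Fintype.card F = p ^ f) (m : ℕ) (hm : 4 ≤ m) (a b : F) (hab : ∀ z₁ z₂ : F, z₁ ^ 2 + a * z₁ * z₂ + b * z₂ ^ 2 = 0 → z₁ = 0 ∧ z₂ = 0) : Nat.card (MulAut (Cfsg.POmega F (Cfsg.quadFormMinus (m - 1) F a b))) = (if p = 2 then 2 else (if Even (m * (p ^ f - 1) / 2) then 4 else 8)) * f * Nat.card (Cfsg.POmega F (Cfsg.quadFormMinus (m - 1) F a b)) := by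
  have : NeZero f := ⟨by omega⟩
  refine (ok_minus (by omega) hab).card_mulAut.trans ?_
  congr 1
  rw [CL.Orth.coe_QMinus]
  by_cases hp : p = 2
  · subst hp
    rw [(out_QMinus_two hF (by omega) hab).2, if_pos rfl]
  · have := out_QMinus_odd hF hp (m := m - 1) (by omega) hab
    rw [Nat.sub_add_cancel (by omega)] at this
    simp only [even_iff_not hF hp, if_neg hp]
    split_ifs at this ⊢ with h1 <;> obtain ⟨e⟩ := this <;> rw [Nat.card_congr e.toEquiv]
    · simp [DihedralGroup.card]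
    · simp; ring

end Cfsg.Agent.S0818
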