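import Cfsg.Statements.S0821
import Cfsg.Agent.CLAS.AutSim

set_option autoImplicit false
open Cfsg

namespace Cfsg.Agent.S0821

open CL.AutForm

/-- PSp_2m(q) ≇ PΩ_(2m+1)(q) for q odd and m ≥ 3 (they have the same order). -/
theorem result {F : Type*} [Field F] [Fintype F] (hodd : Odd (Fintype.card F)) (m : ℕ) (hm : 3 ≤ m) : IsEmpty (Cfsg.PSp m F ≃* Cfsg.POmega F (Cfsg.quadFormOdd m F)) := by
  have h2 := CL.FGL.two_ne_zero_of_odd hodd
  have hj := real_Om _ (nondeg_QOdd m h2) (five_le_odd (m := m) (by omega))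
  have hf := good_Om _ (nondeg_QOdd m h2) (five_le_odd (m := m) (by omega))
  have hf' := good_Sp (F := F) (m := m) (by omega)
  exact ⟨fun θ => isEmpty_corr_quad_alt hf hf' h2 (by simp [add_comm]) (by simp; omega)
    (corr hf hf' hj.inj_jE hj.range_jE (real_Sp m).inj_jE (real_Sp m).range_jE θ.symm)⟩

end Cfsg.Agent.S0821
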