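import Cfsg.Statements.S0823
import Cfsg.Agent.CLAS.OrthIsoPerm

set_option autoImplicit false
open Cfsg

namespace Cfsg.Agent.S0823

open CL.Orth CL.OrthE Matrix

/-- SO_3(3) ≅ S_4: the determinant-one isometries of the form x_0² + x_1y_1 over the field with 3 elements form a group isomorphic to the symmetric group on 4 letters. -/
theorem result {F : Type*} [Field F] [Fintype F] (hF : Fintype.card F = 3) : Nonempty (↥(Cfsg.specialIsometryGroup F (Cfsg.quadFormOdd 1 F)) ≃* Equiv.Perm (Fin 4)) := by
  have : CharP F 3 := charP_of_card_prime Nat.prime_three hF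
  have h3 : (3 : F) = 0 := by exact_mod_cast CharP.cast_eq_zero F 3
  have h2 : (2 : F) ≠ 0 := fun h => one_ne_zero (by linear_combination h3 - h : (1 : F) = 0)
  have hsq : ∀ u : Fˣ, u * u = 1 := fun u => by
    have := pow_card_eq_one' (x := u)
    rwa [Nat.card_units, Nat.card_eq_fintype_card, hF, pow_two] at this
  let c : (Fin 4 → ℤ) →+ (Unit ⊕ (Fin 1 ⊕ Fin 1) → F) :=
    { toFun := fun x => Sum.elim (fun _ => x 2 - x 3)
        (Sum.elim (fun _ => x 0 + x 2 + x 3) fun _ => -x 1 - x 2 - x 3)
      map_zero' := by ext (_ | _ | _) <;> simp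
      map_add' := fun x y => by ext (_ | _ | _) <;> simp <;> ring }
  have hc : ∀ x, QOdd 1 F (c x) = ((∑ i, x i : ℤ) : F) ^ 2 - ((∑ i, x i ^ 2 : ℤ) : F) := fun x => by
    simp only [QOdd_apply, c, Fin.sum_univ_four, Fin.sum_univ_one]
    simp
    linear_combination (-(x 0 * x 1 + x 0 * x 2 + x 0 * x 3 + x 1 * x 2 + x 1 * x 3 + x 2 * x 3 :
      F) - x 2 * x 3) * h3 + 0 * h3
  obtain ⟨φ, hφ⟩ := exists_hom_of_surj (exists_natCast_of_card_prime Nat.prime_three hF)
    (QOdd_nondeg 1 F h2) (H := Equiv.Perm (Fin 4))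
    (fun g => AddMonoidHom.mk' (fun x => x ∘ g.symm) fun _ _ => rfl) (fun _ => rfl)
    (fun _ _ _ => rfl) ⊤ (fun _ _ _ => trivial) c (fun v => by
      choose n hn using exists_natCast_of_card_prime Nat.prime_three hF
      refine ⟨![n (v (.inr (.inl 0))) - n (v (.inl ())), -n (v (.inr (.inr 0))) - n (v (.inl ())),
        n (v (.inl ())), 0], trivial, ?_⟩
      ext (_ | i | i) <;> simp [c, ← hn, Subsingleton.elim _ (0 : Fin 1)]) fun g x _ => by
      rw [hc, hc]
      congr 2
      · congr 1; exact Equiv.sum_comp g.symm x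
      · exact Equiv.sum_comp g.symm fun i => x i ^ 2
  let G := isometryGroup F ⇑(QOdd 1 F)
  let d : G →* Fˣ := GeneralLinearGroup.det.comp G.subtype
  let s : Fˣ →* G := (GeneralLinearGroup.scalar _).codRestrict G fun u =>
    (mem_isometryGroup (Q := QOdd 1 F)).2 fun v => by
      have : (u : F) * u = 1 := congrArg Units.val (hsq u)
      simp [QuadraticMap.map_smul, this]
  have hs' : ∀ u, (s u).1.1 = (u : F) • 1 :=
    fun u => (Matrix.smul_one_eq_diagonal _).symm
  have hs : ∀ u g, s u * g = g * s u := fun u g => Subtype.ext (Units.ext (by simp [hs']))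
  have hd : ∀ u, d (s u) = u := fun u => by
    ext
    have : (u : F) * u = 1 := congrArg Units.val (hsq u)
    simp [d, hs', pow_succ, this]
  let π : G →* d.ker :=
    { toFun := fun g => ⟨s (d g) * g, by rw [MonoidHom.mem_ker, map_mul, hd, hsq]⟩
      map_one' := by ext1; simp
      map_mul' := fun g k => by
        ext1
        simp only [map_mul, Subgroup.coe_mul, mul_assoc]
        rw [← mul_assoc g, ← hs, mul_assoc] }
  let ψ := π.comp ((toO (QOdd 1 F)).symm.toMonoidHom.comp φ)
  have hψ : Function.Injective ψ := by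
    rw [injective_iff_map_eq_one]
    intro g hg
    have h4 : ∀ x, (d ((toO (QOdd 1 F)).symm (φ g)) : F) • c (x ∘ g.symm) = c x := fun x => by
      have := congrArg (fun k : d.ker => k.1.1.1 *ᵥ c x) hg
      simp only [ψ, π] at this
      simpa [hs', smul_mulVec, toO_symm_mulVec, hφ g x trivial] using this
    have h5 := hsq (d ((toO (QOdd 1 F)).symm (φ g)))
    generalize d ((toO (QOdd 1 F)).symm (φ g)) = u at h4 h5
    have h6 : (u : F) = 1 ∨ (u : F) = -1 := mul_self_eq_one_iff.1 (congrArg Units.val h5)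
    have h7 : ∀ i j : Fin 4, (u : F) • c (Pi.single j 1) = c (Pi.single i 1) → j = i := by
      intro i j h
      have a := congrFun h (.inl ())
      have b := congrFun h (.inr (.inl 0))
      have e := congrFun h (.inr (.inr 0))
      have h1 : (1 : F) ≠ -1 := fun h => h2 (by linear_combination h)
      rcases h6 with h6 | h6 <;> fin_cases i <;> fin_cases j <;> simp [c, h6, h1, h1.symm] at a b e ⊢
    ext i
    refine congrArg _ (h7 i (g i) ?_)
    rw [← h4 (Pi.single i 1)]
    congr 2
    ext k
    simp [Pi.single_apply, Equiv.symm_apply_eq]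
  have hcard : Nat.card d.ker = 24 := by
    have e1 : Nat.card G = 48 := by
      rw [Nat.card_congr (toO (QOdd 1 F)).toEquiv, card_O_QOdd hF h2]; simp
    have e2 := d.ker.card_mul_index
    rw [Subgroup.index_ker, MonoidHom.range_eq_top.2 fun u => ⟨_, hd u⟩, Subgroup.card_top,
      Nat.card_units, Nat.card_eq_fintype_card (α := F), hF, e1] at e2
    omega
  have : Finite d.ker := Nat.finite_of_card_ne_zero (by omega)
  exact ⟨(MulEquiv.ofBijective ψ ((Nat.bijective_iff_injective_and_card ψ).2
    ⟨hψ, by rw [hcard]; simp [Fintype.card_perm, Nat.factorial]⟩)).symm⟩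

end Cfsg.Agent.S0823
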