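import Cfsg.Statements.S0825
import Cfsg.Agent.CLAS.OrthIsoPerm

set_option autoImplicit false
open Cfsg

namespace Cfsg.Agent.S0825

open CL.Orth CL.OrthE

/-- O⁺_6(2) ≅ S_8: the isometry group of the hyperbolic form x_1y_1 + x_2y_2 + x_3y_3 over the field with 2 elements is isomorphic to the symmetric group on 8 letters. -/
theorem result {F : Type*} [Field F] [Fintype F] (hF : Fintype.card F = 2) : Nonempty (↥(Cfsg.isometryGroup F (Cfsg.quadFormPlus 3 F)) ≃* Equiv.Perm (Fin 8)) := by
  exact ⟨(toO (QPlus 3 F)).trans (nonempty_O_QPlus_three_equiv hF).some⟩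

end Cfsg.Agent.S0825
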