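import Cfsg.Statements.S0828
import Cfsg.Agent.CLAS.SpForm
import Cfsg.Agent.CLAS.WittFlag

set_option autoImplicit false
open Cfsg

namespace Cfsg.Agent.S0828

/-- The symplectic generalised quadrangle over a field with q elements: the number of 2-dimensional subspaces of F^4 on which the symplectic form vanishes is (q + 1)(q² + 1), and every non-zero vector lies in exactly q + 1 of them. -/
theorem result {F : Type*} [Field F] [Fintype F] {q : ℕ} (hF : Fintype.card F = q) : Nat.card {W : Submodule F (Fin 2 ⊕ Fin 2 → F) // Module.finrank F W = 2 ∧ ∀ u ∈ W, ∀ v ∈ W, Cfsg.sympForm 2 F u v = 0} = (q + 1) * (q ^ 2 + 1) ∧ ∀ v : Fin 2 ⊕ Fin 2 → F, v ≠ 0 → Nat.card {W : Submodule F (Fin 2 ⊕ Fin 2 → F) // Module.finrank F W = 2 ∧ v ∈ W ∧ ∀ u ∈ W, ∀ w ∈ W, Cfsg.sympForm 2 F u w = 0} = q + 1 := by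
  have hf := CL.Sp.spForm_nondeg 2 F
  have hq : 2 ≤ q := hF ▸ Fintype.one_lt_card
  have hq' : Nat.card F = q := by rw [Nat.card_eq_fintype_card, hF]
  obtain ⟨r, rfl⟩ : ∃ r, q = r + 1 := ⟨q - 1, by omega⟩
  have hr : 0 < r := by omega
  have e1 : (r + 1) ^ 2 - (r + 1) = (r + 1) * r := by
    rw [Nat.sub_eq_iff_eq_add (by nlinarith)]; ring
  constructor
  · have h := CL.Sp.isHyp_std 2 F
    have h2 : (CL.Witt.FormType.alt F).π.ker = ⊤ := by ext a; simp [CL.Witt.FormType.alt_π]
    have h1 := hf.card_O_eq_card_totSing_mul h.totSing_left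
    rw [hf.card_stab_isHyp h, h2, AddSubgroup.card_top, CL.Witt.Form.Nondeg.card_O_alt 0
      (hf.restrict_perp h.restrict_nondeg)
      (by rw [h.finrank_perp, CL.Sp.finrank_sp, Fintype.card_fin]),
      CL.Witt.Form.Nondeg.card_O_alt 2 hf (CL.Sp.finrank_sp 2 F), hq',
      finrank_span_eq_card h.linearIndependent_left] at h1
    simp only [CL.Witt.Form.alt_totSing_iff, CL.Sp.spForm_B, Fintype.card_fin] at h1
    have e2 : (r + 1) ^ 2 - 1 = r * (r + 2) := by
      rw [Nat.sub_eq_iff_eq_add (by nlinarith)]; ring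
    have e3 : (r + 1) ^ 4 - 1 = r * (r + 2) * ((r + 1) ^ 2 + 1) := by
      rw [Nat.sub_eq_iff_eq_add (Nat.one_le_pow _ _ (by omega))]; ring
    simp [Finset.prod_range_succ, e1, e2, e3] at h1
    refine Nat.eq_of_mul_eq_mul_right (m := r * (r + 2) * ((r + 1) * r) * ((r + 1) * (r + 1) ^ 2))
      (by positivity) ?_
    rw [← h1]; ring
  · intro v hv
    simp only [← CL.Sp.spForm_B]
    set f := CL.Sp.spForm 2 F
    let S := {W : Submodule F (Fin 2 ⊕ Fin 2 → F) // Module.finrank F W = 2 ∧ v ∈ W ∧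
      ∀ u ∈ W, ∀ w ∈ W, f.B u w = 0}
    have hrank : ∀ w, w ∉ F ∙ v → Module.finrank F (Submodule.span F {v, w}) = 2 := fun w hw => by
      have hli : LinearIndependent F ![v, w] := (LinearIndependent.pair_iff' hv).mpr fun a h =>
        hw (h ▸ Submodule.smul_mem _ _ (Submodule.mem_span_singleton_self v))
      have := finrank_span_eq_card hli
      rwa [Matrix.range_cons_cons_empty, Fintype.card_fin] at this
    let φ : {w // w ∈ f.perp (F ∙ v) ∧ w ∉ F ∙ v} → S := fun w =>
      ⟨Submodule.span F {v, w.1}, hrank _ w.2.2, Submodule.subset_span (by simp),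
        (f.totSing_span (fun _ _ => rfl) (by
          have h1 := f.mem_perp_span_singleton.mp w.2.1
          rintro _ (rfl | rfl) _ (rfl | rfl)
          exacts [f.alt_B_self _, h1, f.B_eq_zero_symm h1, f.alt_B_self _])).2⟩
    have h1 := Nat.card_congr (Equiv.sigmaFiberEquiv φ)
    have := Fintype.ofFinite S
    have h2 : ∀ W : S, Nat.card {w // φ w = W} = (r + 1) * r := fun W => by
      have hle : (F ∙ v) ≤ W.1 := (Submodule.span_singleton_le_iff_mem _ _).mpr W.2.2.1
      have := CL.Witt.card_mem_notMem hle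
      rw [W.2.1, finrank_span_singleton hv, hq', pow_one, e1] at this
      rw [← this]
      refine Nat.card_congr
        { toFun := fun w => ⟨w.1.1, (congrArg Subtype.val w.2).le (Submodule.subset_span (by simp)),
            w.1.2.2⟩
          invFun := fun w => ⟨⟨w.1, f.mem_perp_span_singleton.mpr (W.2.2.2 _ W.2.2.1 _ w.2.1),
            w.2.2⟩, Subtype.ext (Submodule.eq_of_le_of_finrank_eq (Submodule.span_le.mpr (by
              rintro _ (rfl | rfl)
              exacts [W.2.2.1, w.2.1])) ((hrank _ w.2.2).trans W.2.1.symm))⟩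
          left_inv := fun _ => rfl
          right_inv := fun _ => rfl }
    rw [Nat.card_sigma, CL.Witt.card_mem_notMem (f.totSing_span_singleton rfl).le_perp,
      hf.finrank_perp, finrank_span_singleton hv, CL.Sp.finrank_sp, hq'] at h1
    simp only [h2, Finset.sum_const, Finset.card_univ, smul_eq_mul] at h1
    rw [Nat.card_eq_fintype_card]
    refine Nat.eq_of_mul_eq_mul_right (m := (r + 1) * r) (by positivity) ?_
    rw [h1, Nat.sub_eq_iff_eq_add (Nat.pow_le_pow_right (by omega) (by omega))]; ring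

end Cfsg.Agent.S0828
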