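import Cfsg.Statements.S0829
import Cfsg.Agent.CLAS.UniGen

set_option autoImplicit false
open Cfsg

namespace Cfsg.Agent.S0829

/-- The unitary quadrangle of PSU_4(q): with |F| = q², the number of 2-dimensional subspaces of F^4 on which the Hermitian form Σ x_i y_i^q vanishes is (q + 1)(q³ + 1). -/
theorem result {F : Type*} [Field F] [Fintype F] {q : ℕ} (hF : Fintype.card F = q ^ 2) : Nat.card {W : Submodule F (Fin 4 → F) // Module.finrank F W = 2 ∧ ∀ u ∈ W, ∀ v ∈ W, Cfsg.hermForm 4 F q u v = 0} = (q + 1) * (q ^ 3 + 1) := by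
  let f := CL.Uni.std hF (Fin 4)
  have hf : f.Nondeg := CL.Uni.std_nondeg hF _
  obtain ⟨x, y, x', y', hx, hy, hxy, hx', hy', hxy', h1, h2, h3, h4⟩ :=
    CL.Uni.idx2 (CL.Uni.sig_ne_id hF) hf (by simp)
  have h : f.IsHyp ![x, x'] ![y, y'] := by
    have := f.B_self_eq_zero hx
    have := f.B_self_eq_zero hy
    have := f.B_self_eq_zero hx'
    have := f.B_self_eq_zero hy'
    have := f.B_eq_zero_symm h1
    have := f.B_eq_zero_symm h2
    have := f.B_eq_zero_symm h3
    have := f.B_eq_zero_symm h4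
    refine ⟨fun i => ?_, fun i => ?_, fun i j => ?_, fun i j => ?_, fun i j => ?_⟩ <;>
      fin_cases i <;> (try fin_cases j) <;> simp [*]
  have hc := hf.card_stab_isHyp h
  have hO := hf.card_O_eq_card_totSing_mul h.totSing_left
  rw [hc, CL.Uni.card_ker_π, CL.Uni.card_O (hf.restrict_perp h.restrict_nondeg), h.finrank_perp,
    Nat.card_eq_fintype_card (α := F), hF, CL.Uni.card_O hf,
    finrank_span_eq_card h.linearIndependent_left] at hO
  have e : Nat.card {W : Submodule F (Fin 4 → F) // Module.finrank F W = 2 ∧ ∀ u ∈ W, ∀ v ∈ W, Cfsg.hermForm 4 F q u v = 0} = Nat.card {U : Submodule F (Fin 4 → F) // Module.finrank F U = Fintype.card (Fin 2) ∧ f.TotSing U} :=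
    Nat.card_congr (Equiv.subtypeEquivRight fun W => and_congr (by simp) (by
      rw [f.herm_totSing_iff]
      exact ⟨fun h u hu v hv => h v hv u hu, fun h u hu v hv => h v hv u hu⟩))
  rw [e]
  generalize Nat.card {U : Submodule F (Fin 4 → F) // Module.finrank F U = Fintype.card (Fin 2) ∧ f.TotSing U} = N at hO
  simp [CL.Uni.guOrder, Finset.prod_range_succ, Fin.prod_univ_succ, Nat.even_iff] at hO
  have hq := CL.SqField.two_le hF
  have p1 : ∀ k, 1 ≤ q ^ k := fun k => Nat.one_le_pow _ _ (by omega)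
  have p2 : q ^ 2 ≤ (q ^ 2) ^ 2 := Nat.le_self_pow (by omega) _
  zify [p1, p2, Nat.one_le_pow _ _ (p1 2)] at hO ⊢
  have hq' : (2 : ℤ) ≤ q := by exact_mod_cast hq
  have a1 : (1 : ℤ) < q ^ 2 := by nlinarith
  have a2 : (0 : ℤ) < (q ^ 2) ^ 2 - 1 := by nlinarith
  have a3 : (0 : ℤ) < (q ^ 2) ^ 2 - q ^ 2 := by nlinarith
  have a4 : (0 : ℤ) < (((q : ℤ) ^ 2) ^ 2 - 1) * (((q : ℤ) ^ 2) ^ 2 - q ^ 2) * ((q : ℤ) ^ 2 * q ^ 2) := by
    positivity
  apply mul_right_cancel₀ a4.ne'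
  rw [← hO]
  ring

end Cfsg.Agent.S0829
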