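import Mathlib
import Cfsg.Statements.S0831
import Cfsg.Agent.KSG.OrthMaxTS

set_option autoImplicit false
open Cfsg

namespace Cfsg.Agent.S0831


/-- The two families of maximal totally singular subspaces of the hyperbolic quadric: for the form Σ x_i y_i on F^(2m), m ≥ 1, and m-dimensional subspaces U, W, X on which it vanishes, the parities of m − dim(U ∩ W), m − dim(W ∩ X) and m − dim(U ∩ X) sum to an even number (so 'even codimension of the intersection' is an equivalence relation), and there exist two such subspaces meeting in codimension 1 (so there are exactly two classes). -/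
theorem result {F : Type*} [Field F] (m : ℕ) (hm : 1 ≤ m) : (∀ U W X : Submodule F (Fin m ⊕ Fin m → F), (Module.finrank F U = m ∧ ∀ w ∈ U, Cfsg.quadFormPlus m F w = 0) → (Module.finrank F W = m ∧ ∀ w ∈ W, Cfsg.quadFormPlus m F w = 0) → (Module.finrank F X = m ∧ ∀ w ∈ X, Cfsg.quadFormPlus m F w = 0) → Even ((m - Module.finrank F ↥(U ⊓ W)) + (m - Module.finrank F ↥(W ⊓ X)) + (m - Module.finrank F ↥(U ⊓ X)))) ∧ ∃ U W : Submodule F (Fin m ⊕ Fin m → F), (Module.finrank F U = m ∧ ∀ w ∈ U, Cfsg.quadFormPlus m F w = 0) ∧ (Module.finrank F W = m ∧ ∀ w ∈ W, Cfsg.quadFormPlus m F w = 0) ∧ Module.finrank F ↥(U ⊓ W) + 1 = m := by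
  refine ⟨fun U W X hU hW hX => CL.Orth.even_three_max (CL.Orth.QPlus_nondeg m F)
    (CL.Orth.finrank_sum_fin m) hU.1 hU.2 hW.1 hW.2 hX.1 hX.2, ?_⟩
  obtain ⟨U', h1, h2, h3, -⟩ := CL.Orth.exists_adjacent_max (CL.Orth.QPlus_nondeg m F)
    (CL.Orth.finrank_sum_fin m) (CL.Orth.finrank_EPlus m) (CL.Orth.singular_EPlus m)
    (w := Pi.single (Sum.inr ⟨0, hm⟩) 1) ((CL.Orth.QPlus_hypFam F m).Qf ⟨0, hm⟩)
    (fun h => by simpa using CL.Orth.mem_EPlus.1 h ⟨0, hm⟩)
  exact ⟨_, U', ⟨CL.Orth.finrank_EPlus m, CL.Orth.singular_EPlus m⟩, ⟨h1, h2⟩, h3⟩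

end Cfsg.Agent.S0831
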