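import Cfsg.Statements.S0832
import Cfsg.Agent.CLAS.OrthSubmax

set_option autoImplicit false
open Cfsg

namespace Cfsg.Agent.S0832

open CL.Orth CL.OrthE

/-- For the form Σ x_i y_i on F^(2m) over a finite field, m ≥ 1: an (m−1)-dimensional subspace on which the form vanishes is contained in exactly two m-dimensional subspaces on which it vanishes. -/
theorem result {F : Type*} [Field F] [Finite F] (m : ℕ) (hm : 1 ≤ m) (U : Submodule F (Fin m ⊕ Fin m → F)) (hU : Module.finrank F U + 1 = m ∧ ∀ u ∈ U, Cfsg.quadFormPlus m F u = 0) : Nat.card {W : Submodule F (Fin m ⊕ Fin m → F) // Module.finrank F W = m ∧ (∀ w ∈ W, Cfsg.quadFormPlus m F w = 0) ∧ U ≤ W} = 2 := by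
  obtain ⟨hUd, hU⟩ := hU
  obtain ⟨x, y, hx, hy, hxy, hxU, hyU, h⟩ := exists_two_maximal (QPlus_nondeg m F) (isPlus_QPlus m) (U := U) hU
    (by simp; omega)
  have hx' : x ∉ U := fun h => by
    rw [mem_perp.1 hyU x h] at hxy; exact zero_ne_one hxy
  have hy' : y ∉ U := fun h => by
    rw [mem_perp'.1 hxU y h] at hxy; exact zero_ne_one hxy
  rw [Nat.card_eq_two_iff]
  refine ⟨⟨U ⊔ F ∙ x, by rw [finrank_sup_span_singleton' hx', hUd], singular_sup_span hU hx hxU, le_sup_left⟩,
    ⟨U ⊔ F ∙ y, by rw [finrank_sup_span_singleton' hy', hUd], singular_sup_span hU hy hyU, le_sup_left⟩, ?_, ?_⟩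
  · intro he
    have he' : U ⊔ F ∙ x = U ⊔ F ∙ y := congrArg Subtype.val he
    have := mem_perp.1 (le_perp_of_singular (singular_sup_span hU hx hxU)
      (he' ▸ Submodule.mem_sup_right (Submodule.mem_span_singleton_self y))) x
      (Submodule.mem_sup_right (Submodule.mem_span_singleton_self x))
    rw [this] at hxy; exact zero_ne_one hxy
  · rw [Set.eq_univ_iff_forall]
    rintro ⟨W, h1, h2, h3⟩
    rcases h W h3 h2 (by omega) with rfl | rfl
    · exact Or.inl rfl
    · exact Or.inr rfl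

end Cfsg.Agent.S0832
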