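import Cfsg.Statements.S0833
import Cfsg.Agent.CLAS.WittHyp

set_option autoImplicit false
open Cfsg

namespace Cfsg.Agent.S0833

/-- If B₁, B₂ are non-degenerate alternating forms on U (dim 2k) and W (dim 2l), then B₁ ⊗ B₂ on U ⊗ W is symmetric, non-degenerate, and vanishes identically on some subspace of dimension 2kl (half of dim U ⊗ W). -/
theorem result {F U W : Type*} [Field F] [Fintype F] [AddCommGroup U] [Module F U] [FiniteDimensional F U] [AddCommGroup W] [Module F W] [FiniteDimensional F W] (B₁ : LinearMap.BilinForm F U) (B₂ : LinearMap.BilinForm F W) (h₁ : B₁.Nondegenerate) (h₂ : B₂.Nondegenerate) (hA₁ : B₁.IsAlt) (hA₂ : B₂.IsAlt) (k l : ℕ) (hU : Module.finrank F U = 2 * k) (hW : Module.finrank F W = 2 * l) : (B₁.tmul B₂).IsSymm ∧ (B₁.tmul B₂).Nondegenerate ∧ (∃ X : Submodule F (TensorProduct F U W), Module.finrank F X = 2 * k * l ∧ ∀ x ∈ X, ∀ y ∈ X, (B₁.tmul B₂) x y = 0) := by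
  classical
  obtain ⟨b, hb⟩ := ((CL.Witt.Form.ofAlt_nondeg_iff B₁ hA₁).mpr h₁).exists_symplectic_basis' hU
  let c := Module.finBasisOfFinrankEq F W hW
  refine ⟨?_, ?_, ?_⟩
  · rw [LinearMap.isSymm_iff_eq_flip]
    refine TensorProduct.ext' fun x₁ x₂ => TensorProduct.ext' fun y₁ y₂ => ?_
    change B₂ x₂ y₂ • B₁ x₁ y₁ = B₂ y₂ x₂ • B₁ y₁ x₁
    rw [← hA₁.neg_eq, ← hA₂.neg_eq]; simp
  · refine (LinearMap.BilinForm.nondegenerate_toMatrix_iff (b.tensorProduct c)).mp ?_
    rw [Matrix.nondegenerate_iff_det_ne_zero]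
    have : LinearMap.BilinForm.toMatrix (b.tensorProduct c) (B₁.tmul B₂) =
        Matrix.kroneckerMap (· * ·) (LinearMap.BilinForm.toMatrix b B₁)
          (LinearMap.BilinForm.toMatrix c B₂) := by
      ext ⟨i, j⟩ ⟨i', j'⟩
      simp [mul_comm]
    rw [this, Matrix.det_kronecker]
    exact mul_ne_zero (pow_ne_zero _ (h₁.toMatrix b).det_ne_zero)
      (pow_ne_zero _ (h₂.toMatrix c).det_ne_zero)
  · have hli := (b.tensorProduct c).linearIndependent.comp (Prod.map Sum.inl id)
      (Sum.inl_injective.prodMap Function.injective_id)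
    refine ⟨_, (finrank_span_eq_card hli).trans (by simp; ring), fun x hx y hy => ?_⟩
    induction hx using Submodule.span_induction with
    | mem x hx =>
      induction hy using Submodule.span_induction with
      | mem y hy =>
        obtain ⟨⟨i, j⟩, rfl⟩ := hx
        obtain ⟨⟨i', j'⟩, rfl⟩ := hy
        have : B₁ (b (Sum.inl i)) (b (Sum.inl i')) = 0 := hb.B_left i i'
        simp [this]
      | zero => simp
      | add y z _ _ h1 h2 => rw [map_add, h1, h2, add_zero]
      | smul c y _ h1 => rw [map_smul, h1, smul_zero]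
    | zero => simp
    | add y z _ _ h1 h2 => rw [map_add, LinearMap.add_apply, h1, h2, add_zero]
    | smul c y _ h1 => rw [map_smul, LinearMap.smul_apply, h1, smul_zero]

end Cfsg.Agent.S0833
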