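import Cfsg.Statements.S0837
import Cfsg.Agent.CLAS.UniBasic

set_option autoImplicit false
open Cfsg

namespace Cfsg.Agent.S0837

/-- If W ≤ F^n (|F| = q²) is a k-dimensional subspace on which the Hermitian form Σ x_i y_i^q is non-degenerate, then the stabiliser of W in GU_n(q) is isomorphic to GU_k(q) × GU_(n−k)(q). -/
theorem result {F : Type*} [Field F] [Fintype F] {q : ℕ} (hF : Fintype.card F = q ^ 2) (n k : ℕ) (hk : k ≤ n) (W : Submodule F (Fin n → F)) (hWk : Module.finrank F W = k) (hW : ∀ u ∈ W, (∀ v ∈ W, Cfsg.hermForm n F q u v = 0) → u = 0) : Nonempty (↥((Cfsg.stabilizing (Cfsg.glToMat (Fin n) F) (W : Set (Fin n → F))).subgroupOf (Cfsg.GU n F q)) ≃* ↥(Cfsg.GU k F q) × ↥(Cfsg.GU (n - k) F q)) := by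
  let f := CL.Uni.std hF (Fin n)
  have hf : f.Nondeg := CL.Uni.std_nondeg hF _
  have hW' : (f.restrict W).Nondeg := fun u hu =>
    Subtype.ext (hW u u.2 fun v hv => f.B_eq_zero_symm (hu ⟨v, hv⟩))
  obtain ⟨e1⟩ := CL.Uni.nonempty_O_equiv_GU hW' hWk
  obtain ⟨e2⟩ := CL.Uni.nonempty_O_equiv_GU (hf.restrict_perp hW') (n := n - k) (by
    rw [hf.finrank_perp, hWk]; simp)
  let e0 : ↥((Cfsg.stabilizing (Cfsg.glToMat (Fin n) F) (W : Set (Fin n → F))).subgroupOf
      (Cfsg.GU n F q)) ≃* f.stab W :=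
    { toFun := fun g => ⟨(CL.Uni.guEquiv hF n g.1).1, (CL.Uni.guEquiv hF n g.1).2, g.2⟩
      invFun := fun g => ⟨(CL.Uni.guEquiv hF n).symm ⟨g.1, g.2.1⟩, fun v => by
        change _ ↔ (CL.Uni.guEquiv hF n ((CL.Uni.guEquiv hF n).symm ⟨g.1, g.2.1⟩)).1 v ∈ W
        rw [MulEquiv.apply_symm_apply]
        exact g.2.2 v⟩
      left_inv := fun g => by simp
      right_inv := fun g => by simp
      map_mul' := fun g h => Subtype.ext (by simp) }
  exact ⟨e0.trans ((f.stabEquivProd (f.isCompl_perp_of_restrict_nondeg hW')).trans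
    (e1.prodCongr e2))⟩

end Cfsg.Agent.S0837
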