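import Mathlib
import Cfsg.Statements.S0838
import Cfsg.Agent.KSG.OrthOmega

set_option autoImplicit false
open Cfsg

namespace Cfsg.Agent.S0838


/-- Over a finite field with 2 ≠ 0 and n odd: two quadratic forms Q₁, Q₂ on F^n with non-degenerate polar forms are similar — there are an invertible linear map g and a scalar c ≠ 0 with Q₂ (g v) = c · Q₁ v for all v. -/
theorem result {F : Type*} [Field F] [Fintype F] (h2 : (2 : F) ≠ 0) {n : ℕ} (hn : Odd n) (Q₁ Q₂ : QuadraticForm F (Fin n → F)) (h₁ : (QuadraticMap.polarBilin Q₁).Nondegenerate) (h₂ : (QuadraticMap.polarBilin Q₂).Nondegenerate) : ∃ (g : (Fin n → F) ≃ₗ[F] (Fin n → F)) (c : F), c ≠ 0 ∧ ∀ v, Q₂ (g v) = c * Q₁ v := by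
  obtain ⟨m, hm⟩ := hn
  obtain ⟨c₁, φ₁, hc₁, h1⟩ := CL.Orth.odd_classification h₁ (m := m) (by simpa using hm)
  obtain ⟨c₂, φ₂, hc₂, h2'⟩ := CL.Orth.odd_classification h₂ (m := m) (by simpa using hm)
  refine ⟨φ₁.symm.trans φ₂, c₂ * c₁⁻¹, mul_ne_zero hc₂ (inv_ne_zero hc₁), fun v => ?_⟩
  rw [LinearEquiv.trans_apply, h2']
  conv_rhs => rw [← φ₁.apply_symm_apply v, h1]
  field_simp

end Cfsg.Agent.S0838
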