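import Cfsg.Statements.S0839
import Cfsg.Agent.CLAS.ExtF2

set_option autoImplicit false
open Cfsg

namespace Cfsg.Agent.S0839

open Matrix Module

/-- Every transvection t ∈ SL_(n+2)(F) (rank(t − 1) = 1, (t − 1)² = 0) is conjugate in SL_(n+2)(F) to 1 + v·e_0ᵀ for some column vector v with v_0 = 0 (the group A of matrices that are the identity except in the first column below the diagonal); the dimension is written n + 2 ≥ 2. -/
theorem result {F : Type*} [Field F] (n : ℕ) (t : Matrix.SpecialLinearGroup (Fin (n + 2)) F) (ht : Cfsg.IsTransvection (t : Matrix (Fin (n + 2)) (Fin (n + 2)) F)) : ∃ (g : Matrix.SpecialLinearGroup (Fin (n + 2)) F) (v : Fin (n + 2) → F), v 0 = 0 ∧ ((g⁻¹ * t * g : Matrix.SpecialLinearGroup (Fin (n + 2)) F) : Matrix (Fin (n + 2)) (Fin (n + 2)) F) = 1 + Matrix.vecMulVec v (Pi.single 0 1) := by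
  obtain ⟨h1, h2⟩ := ht
  set N := (t : Matrix (Fin (n + 2)) (Fin (n + 2)) F) - 1 with hN
  obtain ⟨a, a0, ha⟩ := finrank_eq_one_iff'.1 h1
  choose b hb using fun j => ha ⟨N *ᵥ Pi.single j 1, _, rfl⟩
  have e : N = vecMulVec a b := by
    ext i j
    have := congrFun (congrArg Subtype.val (hb j)) i
    simp at this
    simp [vecMulVec_apply, ← this, mul_comm]
  have a0' : (a : Fin (n + 2) → F) ≠ 0 := fun h => a0 (Subtype.ext h)
  have b0 : b ≠ 0 := by rintro rfl; rw [e] at h1; simp at h1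
  have hab : b ⬝ᵥ a = 0 := by
    rw [e, vecMulVec_mul_vecMulVec, vecMulVec_eq_zero, smul_eq_zero] at h2
    simpa [a0', b0] using h2
  obtain ⟨k, hk, -, hkb⟩ := (CL.ExtF.hk_of_Gam (K := F) (V := Fin (n + 2) → F)
    (X := (LinearEquiv.det : _ →* Fˣ).ker) fun g _ hg => Units.ext
      ((LinearEquiv.coe_det g).trans hg)).trans (by simp) b0
    (v := Pi.single 0 1) (by simp)
  let g : SpecialLinearGroup (Fin (n + 2)) F := ⟨(LinearMap.toMatrix' k.toLinearMap)ᵀ, by
    rw [det_transpose, LinearMap.det_toMatrix']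
    exact (LinearEquiv.coe_det k).symm.trans (congrArg Units.val hk)⟩
  have hg : b ᵥ* g.1 = Pi.single 0 1 := by
    rw [← hkb, vecMul_transpose, LinearMap.toMatrix'_mulVec]; rfl
  have hi : g.1 * g⁻¹.1 = 1 := congrArg Subtype.val (mul_inv_cancel g)
  have hi' : g⁻¹.1 * g.1 = 1 := congrArg Subtype.val (inv_mul_cancel g)
  refine ⟨g, g⁻¹.1 *ᵥ (a : Fin (n + 2) → F), ?_, ?_⟩
  · have := single_dotProduct (g⁻¹.1 *ᵥ (a : Fin (n + 2) → F)) 1 0
    rwa [← hg, ← dotProduct_mulVec, mulVec_mulVec, hi, one_mulVec, hab, one_mul, eq_comm] at this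
  · change g⁻¹.1 * t.1 * g.1 = _
    rw [eq_add_of_sub_eq' (hN.symm.trans e), mul_add, add_mul, mul_one, hi', mul_vecMulVec,
      vecMulVec_mul, hg]

end Cfsg.Agent.S0839
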