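import Cfsg.Statements.S0841
import Mathlib.Tactic.Group
import Mathlib.Tactic.Ring
import Mathlib.Tactic.NormNum

set_option autoImplicit false
open Cfsg
open scoped commutatorElement

namespace Cfsg.Agent.S0841

/-- If the commutator subgroup of G lies in the centre, then for all x, y in G and every natural number n one has (x * y) ^ n = x ^ n * y ^ n * c ^ (n * (n - 1) / 2) with c = y⁻¹ * x⁻¹ * y * x. -/
theorem result {G : Type*} [Group G] (hG : commutator G ≤ Subgroup.center G) (x y : G) (n : ℕ) : (x * y) ^ n = x ^ n * y ^ n * (y⁻¹ * x⁻¹ * y * x) ^ (n * (n - 1) / 2) := by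
  set c := y⁻¹ * x⁻¹ * y * x with hc
  have hcc : c ∈ Subgroup.center G := by
    apply hG
    have : c = ⁅y⁻¹, x⁻¹⁆ := by rw [commutatorElement_def]; simp [hc]
    rw [this, commutator_def]
    exact Subgroup.commutator_mem_commutator (Subgroup.mem_top _) (Subgroup.mem_top _)
  have hcomm : ∀ (k : ℕ) (z : G), z * c ^ k = c ^ k * z := fun k z =>
    Subgroup.mem_center_iff.mp (Subgroup.pow_mem _ hcc k) z
  have hyx : y * x = x * y * c := by rw [hc]; group
  have h1 : ∀ k : ℕ, y ^ k * x = x * y ^ k * c ^ k := by
    intro k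
    induction k with
    | zero => simp
    | succ k ih =>
      calc y ^ (k + 1) * x = y * (y ^ k * x) := by rw [pow_succ', mul_assoc]
        _ = (y * x) * y ^ k * c ^ k := by rw [ih]; group
        _ = x * y * (c ^ 1 * y ^ k) * c ^ k := by rw [hyx]; group
        _ = x * y * (y ^ k * c ^ 1) * c ^ k := by rw [hcomm 1 (y ^ k)]
        _ = _ := by group
  induction n with
  | zero => simp
  | succ n ih =>
    have hn : (n + 1) * (n + 1 - 1) / 2 = n + n * (n - 1) / 2 := by
      rcases n with _ | n
      · simp
      · simp only [Nat.add_sub_cancel]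
        have : (n + 1 + 1) * (n + 1) = (n + 1) * n + 2 * (n + 1) := by ring
        rw [this, Nat.add_mul_div_left _ _ (by norm_num : 0 < 2)]
        ring
    rw [hn, pow_succ, ih]
    set T := n * (n - 1) / 2
    calc x ^ n * y ^ n * c ^ T * (x * y) = x ^ n * y ^ n * (c ^ T * (x * y)) := by group
      _ = x ^ n * y ^ n * ((x * y) * c ^ T) := by rw [hcomm]
      _ = x ^ n * (y ^ n * x) * y * c ^ T := by group
      _ = x ^ n * x * y ^ n * (c ^ n * y) * c ^ T := by rw [h1]; group
      _ = x ^ n * x * y ^ n * (y * c ^ n) * c ^ T := by rw [hcomm n y]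
      _ = _ := by group

end Cfsg.Agent.S0841
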