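import Cfsg.Statements.S0849
import Cfsg.Agent.CHAR.IndPairs

set_option autoImplicit false
open Cfsg

namespace Cfsg.Agent.S0849

/-- Let H be a subgroup of a finite group G and S a subset of H that is mapped to itself under conjugation by H, is disjoint from its conjugate by any element outside H, and is closed under inverses. Let φ be a class function of H vanishing on H away from S, and let u, v be involutions of G. Then the sum of the induced function of φ over all products a * b with a conjugate to u and b conjugate to v equals the index of H times the sum of φ (a * b) over such pairs with a and b in H. -/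
theorem result {G : Type*} [Group G] [Fintype G] (H : Subgroup G) (S : Set G) (hSH : S ⊆ H) (hHS : ∀ h ∈ H, ∀ s ∈ S, h * s * h⁻¹ ∈ S) (hTI : ∀ g : G, g ∉ H → ∀ s ∈ S, g * s * g⁻¹ ∉ S) (hinv : ∀ s ∈ S, s⁻¹ ∈ S) (φ : H → ℂ) (hφ : Cfsg.IsClassFunction H φ) (hφS : ∀ x : H, (x : G) ∉ S → φ x = 0) (u v : G) (hu : orderOf u = 2) (hv : orderOf v = 2) : ∑ᶠ p ∈ {p : G × G | IsConj u p.1 ∧ IsConj v p.2}, Cfsg.indFun H φ (p.1 * p.2) = (H.index : ℂ) * ∑ᶠ p ∈ {p : H × H | IsConj u (p.1 : G) ∧ IsConj v (p.2 : G)}, φ (p.1 * p.2) := by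
  classical
  rw [finsum_mem_eq_toFinset_sum, finsum_mem_eq_toFinset_sum]
  have hc : ∀ (w g a : G), IsConj w a ↔ IsConj w (g⁻¹ * a * g) := fun w g a =>
    ⟨fun h => h.trans (isConj_iff.2 ⟨g⁻¹, by simp⟩),
      fun h => h.trans (isConj_iff.2 ⟨g, by simp [mul_assoc]⟩)⟩
  rw [CL.Char.sum_indFun_of_equivariant _ (fun p : G × G => p.1 * p.2)
    (fun g => Equiv.prodCongr (MulAut.conj g⁻¹).toEquiv (MulAut.conj g⁻¹).toEquiv)
    (fun g p => by
      simp only [Set.mem_toFinset, Set.mem_setOf_eq, Equiv.prodCongr_apply, Prod.map_fst,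
        Prod.map_snd, MulEquiv.toEquiv_eq_coe, EquivLike.coe_coe, MulAut.conj_apply, inv_inv]
      rw [← hc, ← hc]) (fun g p => by simp [mul_assoc]) H φ]
  congr 1
  symm
  refine Finset.sum_bij_ne_zero (fun p _ _ => ((p.1 : G), (p.2 : G))) (fun p hp _ => ?_)
    (fun p _ _ q _ _ h => ?_) (fun p hp h0 => ?_) (fun p _ _ => ?_)
  · simpa using hp
  · exact Prod.ext (Subtype.ext (congrArg Prod.fst h)) (Subtype.ext (congrArg Prod.snd h))
  · obtain ⟨a, b⟩ := p
    simp only [Set.mem_toFinset, Set.mem_setOf_eq] at hp h0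
    have hab : a * b ∈ H := by
      by_contra h
      exact h0 (CL.Char.extendByZero_of_not_mem H φ h)
    rw [CL.Char.extendByZero_of_mem H φ hab] at h0
    have hS : a * b ∈ S := by
      by_contra h
      exact h0 (hφS _ h)
    have sq : ∀ w c : G, orderOf w = 2 → IsConj w c → c * c = 1 := by
      intro w c hw hwc
      obtain ⟨x, rfl⟩ := isConj_iff.1 hwc
      have : w * w = 1 := by rw [← pow_two, ← hw, pow_orderOf_eq_one]
      calc x * w * x⁻¹ * (x * w * x⁻¹) = x * (w * w) * x⁻¹ := by group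
        _ = 1 := by rw [this]; simp
    have ha2 := sq u a hu hp.1
    have hb2 := sq v b hv hp.2
    have haH : a ∈ H := by
      by_contra haH
      apply hTI a haH _ hS
      have : a * (a * b) * a⁻¹ = (a * b)⁻¹ := by
        rw [← mul_assoc, ha2, one_mul, mul_inv_rev, inv_eq_of_mul_eq_one_right hb2]
      rw [this]
      exact hinv _ hS
    have hbH : b ∈ H := by simpa using H.mul_mem (H.inv_mem haH) hab
    exact ⟨(⟨a, haH⟩, ⟨b, hbH⟩), by simpa using hp, h0, rfl⟩
  · exact (CL.Char.extendByZero_coe H φ (p.1 * p.2)).symm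

end Cfsg.Agent.S0849
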