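import Cfsg.Statements.S0850

set_option autoImplicit false
open Cfsg

namespace Cfsg.Agent.S0850

/-- Let K be a subgroup of the finite group G that meets each conjugate by an element outside its normalizer N trivially, is properly contained in N, and contains the centralizer of each of its non-identity elements (a T.I. subgroup with Frobenius normalizer). Then no element of N outside K is conjugate in G to an element of K, and for every class function ϑ of N that vanishes on N away from K and at the identity, the function induced from ϑ to G agrees with ϑ on all of N. -/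
theorem result {G : Type*} [Group G] [Fintype G] (K : Subgroup G) (hTI : ∀ g : G, g ∉ Subgroup.normalizer (K : Set G) → ∀ k ∈ K, g * k * g⁻¹ ∈ K → k = 1) (hlt : K < Subgroup.normalizer (K : Set G)) (hC : ∀ k ∈ K, k ≠ 1 → Subgroup.centralizer ({k} : Set G) ≤ K) : (∀ x ∈ Subgroup.normalizer (K : Set G), x ∉ K → ∀ g : G, g * x * g⁻¹ ∉ K) ∧ ∀ (ϑ : Subgroup.normalizer (K : Set G) → ℂ), Cfsg.IsClassFunction (Subgroup.normalizer (K : Set G)) ϑ → (∀ x : Subgroup.normalizer (K : Set G), (x : G) ∉ K → ϑ x = 0) → ϑ 1 = 0 → ∀ x : Subgroup.normalizer (K : Set G), Cfsg.indFun (Subgroup.normalizer (K : Set G)) ϑ x = ϑ x := by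
  classical
  have part1 : ∀ x ∈ Subgroup.normalizer (K : Set G), x ∉ K → ∀ g : G, g * x * g⁻¹ ∉ K := by
    intro x hxN hxK g hg
    -- the cyclic group generated by `x` acts freely on the non-identity elements of `K`
    have hzK : ∀ z ∈ Subgroup.zpowers x, z ∈ K → z = 1 := by
      intro z hz hzK
      by_contra hz1
      apply hxK
      apply hC z hzK hz1
      rw [Subgroup.mem_centralizer_singleton_iff]
      obtain ⟨m, rfl⟩ := Subgroup.mem_zpowers_iff.mp hz
      exact ((Commute.refl x).zpow_right m).eq
    have hzN : Subgroup.zpowers x ≤ Subgroup.normalizer (K : Set G) := by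
      rw [Subgroup.zpowers_le]; exact hxN
    let X := {k : G // k ∈ K ∧ k ≠ 1}
    let act : MulAction (Subgroup.zpowers x) X :=
      { smul := fun z k => ⟨z * k * (z : G)⁻¹,
          (Subgroup.mem_normalizer_iff.mp (hzN z.2) k).mp k.2.1, by
          intro h
          apply k.2.2
          have : (k : G) = (z : G)⁻¹ * (z * k * (z : G)⁻¹) * z := by group
          rw [this, h]; group⟩
        one_smul := fun k => Subtype.ext (by
          show ((1 : Subgroup.zpowers x) : G) * k * ((1 : Subgroup.zpowers x) : G)⁻¹ = k; simp)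
        mul_smul := fun a b k => Subtype.ext (by
          show ((a * b : Subgroup.zpowers x) : G) * k * ((a * b : Subgroup.zpowers x) : G)⁻¹
            = a * (b * k * (b : G)⁻¹) * (a : G)⁻¹
          simp only [Subgroup.coe_mul]; group) }
    have hstab : ∀ k : X, MulAction.stabilizer (Subgroup.zpowers x) k = ⊥ := by
      intro k
      rw [eq_bot_iff]
      intro z hz
      rw [MulAction.mem_stabilizer_iff, Subtype.ext_iff] at hz
      have hz' : (z : G) * k * (z : G)⁻¹ = k := hz
      rw [mul_inv_eq_iff_eq_mul] at hz'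
      have : (z : G) ∈ K := hC k k.2.1 k.2.2 (Subgroup.mem_centralizer_singleton_iff.mpr hz')
      rw [Subgroup.mem_bot]
      exact Subtype.ext (hzK z z.2 this)
    have hX : Nat.card X = Nat.card K - 1 := by
      have e : X ≃ {a : K // a ≠ 1} :=
        { toFun := fun x => ⟨⟨x.1, x.2.1⟩, fun h => x.2.2 (congrArg Subtype.val h)⟩
          invFun := fun a => ⟨a.1.1, a.1.2, fun h => a.2 (Subtype.ext h)⟩
          left_inv := fun x => rfl
          right_inv := fun a => rfl }
      rw [Nat.card_congr e]
      rw [Nat.card_eq_fintype_card, Nat.card_eq_fintype_card, Fintype.card_subtype_compl]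
      simp
    have h1 : orderOf x ∣ Nat.card K - 1 := by
      rw [← hX, Nat.card_congr (MulAction.selfEquivOrbitsQuotientProd hstab), Nat.card_prod,
        Nat.card_zpowers]
      exact Dvd.intro_left _ rfl
    have h2 : orderOf x ∣ Nat.card K := by
      have := orderOf_dvd_natCard (⟨g * x * g⁻¹, hg⟩ : K)
      rw [← Subgroup.orderOf_coe] at this
      have h3 : orderOf (g * x * g⁻¹) = orderOf x := by
        have := (MulAut.conj g).orderOf_eq x
        simpa using this
      rwa [h3] at this
    have hpos : 0 < Nat.card K := Nat.card_pos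
    have h3 : orderOf x ∣ 1 := by
      have := Nat.dvd_sub h2 h1
      rwa [show Nat.card K - (Nat.card K - 1) = 1 by omega] at this
    apply hxK
    rw [orderOf_eq_one_iff.mp (Nat.dvd_one.mp h3)]
    exact K.one_mem
  refine ⟨part1, ?_⟩
  generalize Subgroup.normalizer (K : Set G) = N at *
  intro ϑ hϑ hvan h1 x
  have hext : ∀ y : N, Cfsg.extendByZero N ϑ y = ϑ y := fun y =>
    Subtype.val_injective.extend_apply _ _ y
  have hext0 : ∀ y : G, y ∉ N → Cfsg.extendByZero N ϑ y = 0 := by
    intro y hy
    unfold Cfsg.extendByZero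
    rw [Function.extend_apply']
    · rfl
    · rintro ⟨a, rfl⟩; exact hy a.2
  have key : ∀ g : G, Cfsg.extendByZero N ϑ (g⁻¹ * x * g) = if g ∈ N then ϑ x else 0 := by
    intro g
    split_ifs with hg
    · have := hext ((⟨g, hg⟩ : N)⁻¹ * x * (⟨g, hg⟩ : N)⁻¹⁻¹)
      rw [hϑ] at this
      simpa using this
    · by_cases hy : g⁻¹ * x * g ∈ N
      · rw [hext ⟨_, hy⟩]
        by_cases hyK : g⁻¹ * x * g ∈ K
        · have hxK : (x : G) ∈ K := by
            by_contra hxK
            exact part1 x x.2 hxK g⁻¹ (by simpa using hyK)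
          have := hTI g hg _ hyK (by simpa [mul_assoc] using hxK)
          have h2 : (⟨_, hy⟩ : N) = 1 := Subtype.ext this
          rw [h2, h1]
        · exact hvan ⟨_, hy⟩ hyK
      · exact hext0 _ hy
  unfold Cfsg.indFun
  simp only [key]
  rw [Finset.sum_ite, Finset.sum_const_zero, add_zero, Finset.sum_const, nsmul_eq_mul]
  have hc : ((Finset.univ.filter (fun g : G => g ∈ N)).card : ℂ) = Nat.card N := by
    rw [Nat.card_eq_fintype_card, Fintype.card_subtype]
  rw [hc, ← mul_assoc, inv_mul_cancel₀, one_mul]
  exact Nat.cast_ne_zero.mpr Nat.card_pos.ne'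

end Cfsg.Agent.S0850
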