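import Cfsg.Statements.S0851
import Cfsg.Agent.CHAR.TIFN

set_option autoImplicit false
open Cfsg

namespace Cfsg.Agent.S0851

/-- Let K be a subgroup of the finite group G that meets each conjugate by an element outside its normalizer N trivially, is properly contained in N, and contains the centralizer of each of its non-identity elements (a T.I. subgroup with Frobenius normalizer). Suppose K is abelian, let e be the index of K in N, and call an irreducible character of N relevant when it takes at some element of K a value different from its degree. Then either there is exactly one relevant character and K is an elementary abelian p-group of order e + 1 for some prime p, or there are a sign ε and an injective map f from the relevant characters to the irreducible characters of G such that inducing χ - ξ to G gives ε (f χ - f ξ) for all relevant χ and ξ. -/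
theorem result {G : Type*} [Group G] [Fintype G] (K : Subgroup G) (hTI : ∀ g : G, g ∉ Subgroup.normalizer (K : Set G) → ∀ k ∈ K, g * k * g⁻¹ ∈ K → k = 1) (hlt : K < Subgroup.normalizer (K : Set G)) (hC : ∀ k ∈ K, k ≠ 1 → Subgroup.centralizer ({k} : Set G) ≤ K) (hab : ∀ a ∈ K, ∀ b ∈ K, a * b = b * a) : (Nat.card {χ : Cfsg.IrrCharacter (Subgroup.normalizer (K : Set G)) // ∃ k : Subgroup.normalizer (K : Set G), (k : G) ∈ K ∧ (χ : ↥(Subgroup.normalizer (K : Set G)) → ℂ) k ≠ (χ : ↥(Subgroup.normalizer (K : Set G)) → ℂ) 1} = 1 ∧ ∃ p : ℕ, p.Prime ∧ Cfsg.IsElementaryAbelian p K ∧ Nat.card K = (K.subgroupOf (Subgroup.normalizer (K : Set G))).index + 1) ∨ ∃ (ε : ℂ) (f : {χ : Cfsg.IrrCharacter (Subgroup.normalizer (K : Set G)) // ∃ k : Subgroup.normalizer (K : Set G), (k : G) ∈ K ∧ (χ : ↥(Subgroup.normalizer (K : Set G)) → ℂ) k ≠ (χ : ↥(Subgroup.normalizer (K : Set G)) → ℂ) 1} → Cfsg.IrrCharacter G), (ε = 1 ∨ ε = -1) ∧ Function.Injective f ∧ ∀ χ ξ, Cfsg.indFun (Subgroup.normalizer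 (K : Set G)) ((χ.1 : ↥(Subgroup.normalizer (K : Set G)) → ℂ) - (ξ.1 : ↥(Subgroup.normalizer (K : Set G)) → ℂ)) = ε • ((f χ : G → ℂ) - (f ξ : G → ℂ)) := by
  classical
  right
  have hn : (K.subgroupOf (Subgroup.normalizer (K : Set G))).Normal := Subgroup.normal_in_normalizer
  generalize Subgroup.normalizer (K : Set G) = N at *
  have hF := CL.Char.fpf_subgroupOf_of_centralizer_le (N := N) hC
  rcases isEmpty_or_nonempty {χ : Cfsg.IrrCharacter N // ∃ k : N, (k : G) ∈ K ∧
      (χ : N → ℂ) k ≠ (χ : N → ℂ) 1} with h | h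
  · exact ⟨1, fun χ => h.elim χ, Or.inl rfl, fun χ => h.elim χ, fun χ => h.elim χ⟩
  have hk : ∀ χ : {χ : Cfsg.IrrCharacter N // ∃ k : N, (k : G) ∈ K ∧
      (χ : N → ℂ) k ≠ (χ : N → ℂ) 1}, ¬ ∀ k ∈ K.subgroupOf N, χ.1.1 k = χ.1.1 1 := by
    rintro ⟨χ, k, hk, hk'⟩ h
    exact hk' (h k hk)
  have hdeg : ∀ χ : {χ : Cfsg.IrrCharacter N // ∃ k : N, (k : G) ∈ K ∧
      (χ : N → ℂ) k ≠ (χ : N → ℂ) 1}, χ.1.1 1 = (K.subgroupOf N).index := by
    intro χ
    obtain ⟨θ, hθ, -, e⟩ := CL.Char.frob_exists_ind hF χ.1.2 (hk χ)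
    rw [← e, CL.Char.indFun_one, hθ.one_eq_one_of_comm
      (fun a b => Subtype.ext (Subtype.ext (hab _ a.2 _ b.2))), mul_one]
  obtain ⟨ε, hε, μ, hμ, hinj, hind⟩ := CL.Char.exists_exceptional_of_ti N (K : Set G) hTI
    (fun χ : {χ : Cfsg.IrrCharacter N // ∃ k : N, (k : G) ∈ K ∧
      (χ : N → ℂ) k ≠ (χ : N → ℂ) 1} => χ.1.1) (fun χ => χ.1.2)
    (fun a b h => Subtype.ext (Subtype.ext h))
    (fun a b x hx => by
      rw [CL.Char.frob_eq_zero hF a.1.2 (hk a) hx, CL.Char.frob_eq_zero hF b.1.2 (hk b) hx])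
    (fun a b => by rw [hdeg, hdeg])
  exact ⟨ε, fun χ => ⟨μ χ, hμ χ⟩, hε, fun a b h => hinj (congrArg Subtype.val h), hind⟩

end Cfsg.Agent.S0851
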