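import Cfsg.Statements.S0855
import Cfsg.Agent.CHAR.Clifford
import Cfsg.Agent.CHAR.Constit
import Cfsg.Agent.CHAR.Quot
import Cfsg.Agent.CHAR.Values
import Cfsg.Agent.PLOC.NPC
import Cfsg.Agent.S0169

set_option autoImplicit false
open Cfsg

namespace Cfsg.Agent.S0855

open Cfsg CL CL.Char
open scoped commutatorElement

theorem aux {R : Type*} [Group R] [Finite R] {p : ℕ} [hp : Fact p.Prime]
    (hR : pResidual p R = ⊤)
    (h : ∀ θ : R → ℂ, IsIrrCharacter R θ → ∃ k : ℕ, charDegree θ = p ^ k) :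
    (Nat.card R).Coprime p ∧ ∀ a b : R, a * b = b * a := by
  classical
  have h1 : ((commutator R).index).Coprime p := by
    have e := map_pResidual_of_surjective (p := p) (QuotientGroup.mk' (commutator R))
      (QuotientGroup.mk'_surjective _)
    rw [hR, ← MonoidHom.range_eq_map,
      MonoidHom.range_eq_top.2 (QuotientGroup.mk'_surjective _)] at e
    have : Group.IsNilpotent (R ⧸ commutator R) :=
      inferInstanceAs (Group.IsNilpotent (Abelianization R))
    have h2 := (hasNPC_iff_coprime_card_pResidual (G := R ⧸ commutator R) (p := p)).1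
      hasNPC_of_isNilpotent
    rwa [← e, Subgroup.card_top] at h2
  have h2 := sum_not_ker_degree_sq (commutator R)
  have h3 : ∑ χ ∈ Finset.univ.filter
      (fun χ : IrrCharacter R => ¬ ∀ n ∈ commutator R, (χ : R → ℂ) n = (χ : R → ℂ) 1),
      charDegree (χ : R → ℂ) ^ 2 + (commutator R).index = Nat.card R := by
    have : ((∑ χ ∈ Finset.univ.filter
      (fun χ : IrrCharacter R => ¬ ∀ n ∈ commutator R, (χ : R → ℂ) n = (χ : R → ℂ) 1),
      charDegree (χ : R → ℂ) ^ 2 + (commutator R).index : ℕ) : ℂ) = Nat.card R := by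
      push_cast
      rw [← eq_sub_iff_add_eq, ← h2]
      exact Finset.sum_congr rfl fun χ _ => by rw [← χ.2.apply_one_eq_charDegree]
    exact_mod_cast this
  have h4 : p ∣ ∑ χ ∈ Finset.univ.filter
      (fun χ : IrrCharacter R => ¬ ∀ n ∈ commutator R, (χ : R → ℂ) n = (χ : R → ℂ) 1),
      charDegree (χ : R → ℂ) ^ 2 := by
    refine Finset.dvd_sum fun χ hχ => ?_
    obtain ⟨k, hk⟩ := h χ χ.2
    rcases k with _ | k
    · exfalso
      refine (Finset.mem_filter.1 hχ).2 ?_
      rw [← χ.2.isCharacter.le_charKer_iff, χ.2.commutator_le_charKer_iff,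
        χ.2.apply_one_eq_charDegree, hk]
      simp
    · rw [hk]
      exact dvd_pow (dvd_pow_self _ k.succ_ne_zero) two_ne_zero
  have h5 : (Nat.card R).Coprime p := by
    rw [Nat.coprime_comm, hp.out.coprime_iff_not_dvd] at h1 ⊢
    rw [← h3]
    exact fun hd => h1 ((Nat.dvd_add_right h4).1 hd)
  refine ⟨h5, fun a b => ?_⟩
  have h6 : commutator R ≤ ⊥ := by
    rw [← iInf_charKer]
    refine le_iInf fun χ => χ.2.commutator_le_charKer_iff.2 ?_
    obtain ⟨k, hk⟩ := h χ χ.2
    have hd := χ.2.charDegree_dvd_card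
    rw [hk] at hd
    have : p ^ k = 1 := Nat.Coprime.eq_one_of_dvd (Nat.Coprime.pow_left k h5.symm) hd
    rw [χ.2.apply_one_eq_charDegree, hk, this, Nat.cast_one]
  have : ⁅a, b⁆ ∈ commutator R := Subgroup.commutator_mem_commutator trivial trivial
  exact commutatorElement_eq_one_iff_mul_comm.1 (h6 this)

/-- For a finite group G and a prime p: every irreducible character of G has degree a power of p if and only if G has an abelian normal subgroup whose order is prime to p and whose index is a power of p. -/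
theorem result {G : Type*} [Group G] [Finite G] (p : ℕ) (hp : p.Prime) : (∀ χ : Cfsg.IrrCharacter G, ∃ k : ℕ, (χ : G → ℂ) 1 = (p : ℂ) ^ k) ↔ ∃ A : Subgroup G, A.Normal ∧ (∀ a ∈ A, ∀ b ∈ A, a * b = b * a) ∧ Nat.Coprime (Nat.card A) p ∧ ∃ k : ℕ, A.index = p ^ k := by
  have := Fact.mk hp
  constructor
  · intro h
    have := Fintype.ofFinite (pResidual p G)
    obtain ⟨h1, h2⟩ := aux (R := pResidual p G) (p := p) pResidual_pResidual fun θ hθ => by
      obtain ⟨χ, hχ, hne⟩ := hθ.exists_over
      obtain ⟨k, hk⟩ := h ⟨χ, hχ⟩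
      have hd := degree_dvd_of_under hχ hθ hne (c := p ^ k) (by simpa using hk)
        hθ.apply_one_eq_charDegree
      obtain ⟨j, -, hj⟩ := (Nat.dvd_prime_pow hp).1 hd
      exact ⟨j, hj⟩
    exact ⟨pResidual p G, inferInstance,
      fun a ha b hb => congrArg Subtype.val (h2 ⟨a, ha⟩ ⟨b, hb⟩), h1, exists_pResidual_index⟩
  · rintro ⟨A, hA, hab, -, k, hk⟩ ⟨χ, n, ρ, hρ, rfl⟩
    have hd := Cfsg.Agent.S0169.result ρ A hab
    rw [hk] at hd
    obtain ⟨j, -, hj⟩ := (Nat.dvd_prime_pow hp).1 hd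
    refine ⟨j, ?_⟩
    change ρ.character 1 = _
    rw [Representation.char_one, hj, Nat.cast_pow]

end Cfsg.Agent.S0855
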