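import Cfsg.Statements.S0861
import Cfsg.Agent.CHAR.Quot
import Cfsg.Agent.CHAR.Galois
import Cfsg.Agent.CHAR.PowCongr
import Cfsg.Agent.S0169

set_option autoImplicit false
open Cfsg

namespace Cfsg.Agent.S0861

open CL.Char in
theorem centralizer_pow {G : Type*} [Group G] [Finite G] {g : G} {k : ℕ}
    (hk : k.Coprime (Nat.card G)) :
    Subgroup.centralizer ({g ^ k} : Set G) = Subgroup.centralizer ({g} : Set G) := by
  ext x
  simp only [Subgroup.mem_centralizer_singleton_iff]
  constructor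
  · intro h
    obtain ⟨m, hm⟩ := exists_pow_eq_self_of_coprime (hk.coprime_dvd_right (orderOf_dvd_natCard g))
    rw [← hm]
    exact (Commute.pow_right h m).eq
  · intro h
    exact (Commute.pow_right h k).eq

/-- Let P be a normal abelian Sylow p-subgroup of the finite group G and suppose some element g of P has centralizer exactly P. Then the number of irreducible characters of G is at most the order of P, and if equality holds then G / P is abelian (the commutator subgroup lies in P). -/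
theorem result {G : Type*} [Group G] [Finite G] (p : ℕ) [Fact p.Prime] (P : Sylow p G) [(P : Subgroup G).Normal] (hab : ∀ a ∈ P, ∀ b ∈ P, a * b = b * a) (g : G) (hg : g ∈ P) (hC : Subgroup.centralizer ({g} : Set G) = P) : Nat.card (Cfsg.IrrCharacter G) ≤ Nat.card P ∧ (Nat.card (Cfsg.IrrCharacter G) = Nat.card P → commutator G ≤ P) := by
  classical
  have hp : p.Prime := Fact.out
  have := Fintype.ofFinite G
  let S : Finset G := Finset.univ.filter fun x => x ∈ P ∧ Subgroup.centralizer ({x} : Set G) = P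
  have hgS : g ∈ S := by simp [S, hg, hC]
  have hS : ∀ x ∈ S, ∀ k : ℕ, k.Coprime (Nat.card G) → x ^ k ∈ S := by
    intro x hx k hk
    simp only [S, Finset.mem_filter, Finset.mem_univ, true_and] at hx ⊢
    exact ⟨(P : Subgroup G).pow_mem hx.1 k, by rw [centralizer_pow hk, hx.2]⟩
  have hne : ∀ χ : IrrCharacter G, ∀ x ∈ S, (χ : G → ℂ) x ≠ 0 := by
    rintro χ x hx h0
    obtain ⟨k, hk⟩ := P.isPGroup' ⟨x, (Finset.mem_filter.1 hx).2.1⟩
    have h1 := χ.2.isCharacter.dvd_degree_of_eq_zero hp (congrArg Subtype.val hk) h0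
    obtain ⟨χ, n, ρ, hρ, rfl⟩ := χ
    rw [CL.Char.charDegree_character] at h1
    exact P.not_dvd_index (h1.trans (Cfsg.Agent.S0169.result ρ P hab))
  have hle : ∀ χ : IrrCharacter G, (S.card : ℝ) ≤ ∑ x ∈ S, ‖(χ : G → ℂ) x‖ ^ 2 := fun χ =>
    χ.2.isGen.card_le_sum_norm_sq S hS (hne χ)
  have htot : ∑ χ : IrrCharacter G, ∑ x ∈ S, ‖(χ : G → ℂ) x‖ ^ 2 = S.card * (Nat.card P : ℝ) := by
    rw [Finset.sum_comm, Finset.sum_congr rfl (g := fun _ => (Nat.card P : ℝ)), Finset.sum_const,
      nsmul_eq_mul]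
    intro x hx
    rw [CL.Char.sum_norm_sq_eq_card_centralizer, (Finset.mem_filter.1 hx).2.2]
  have hpos : (0 : ℝ) < S.card := by exact_mod_cast Finset.card_pos.2 ⟨g, hgS⟩
  have hc : ∑ _χ : IrrCharacter G, (S.card : ℝ) = S.card * (Nat.card (IrrCharacter G) : ℝ) := by
    rw [Finset.sum_const, Finset.card_univ, nsmul_eq_mul, Fintype.card_eq_nat_card, mul_comm]
  constructor
  · have h1 := Finset.sum_le_sum (s := Finset.univ) fun χ _ => hle χ
    rw [htot, hc] at h1
    exact_mod_cast le_of_mul_le_mul_left h1 hpos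
  · intro heq
    have h1 : ∑ _χ : IrrCharacter G, (S.card : ℝ) =
        ∑ χ : IrrCharacter G, ∑ x ∈ S, ‖(χ : G → ℂ) x‖ ^ 2 := by rw [htot, hc, heq]
    rw [Finset.sum_eq_sum_iff_of_le fun χ _ => hle χ] at h1
    intro x hx
    rw [CL.Char.mem_normal_iff_irr]
    intro χ hχ hk
    have h2 := h1 ⟨χ, hχ⟩ (Finset.mem_univ _)
    rw [Finset.sum_congr rfl (g := fun _ => (charDegree χ : ℝ) ^ 2) fun y hy => by
      rw [← hχ.isCharacter.norm_one]
      exact congrArg (fun z => ‖z‖ ^ 2) (hk y (Finset.mem_filter.1 hy).2.1),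
      Finset.sum_const, nsmul_eq_mul] at h2
    have h3 : (charDegree χ : ℝ) ^ 2 = 1 := by
      apply mul_left_cancel₀ hpos.ne'
      rw [← h2, mul_one]
    have h4 : charDegree χ = 1 := by
      have : charDegree χ ^ 2 = 1 := by exact_mod_cast h3
      exact (Nat.pow_eq_one.1 this).resolve_right two_ne_zero
    exact (hχ.one_eq_one_iff_commutator.1 (hχ.isCharacter.charDegree_eq_one_iff.1 h4)) x hx

end Cfsg.Agent.S0861
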