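import Cfsg.Statements.S0875
import Cfsg.Agent.CHAR.BrauerCong

set_option autoImplicit false
open Cfsg

namespace Cfsg.Agent.S0875

/-- Let G be a finite group of order m * n with m and n coprime, and g an element whose order is coprime to m. Every x in G factors uniquely as x = u * v with u, v commuting, the order of u coprime to n and the order of v coprime to m; let ϑ be the function on G equal to n at those x whose factor v is conjugate to g and equal to 0 elsewhere. Then ϑ is a linear combination of the irreducible characters of G with algebraic-integer coefficients. -/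
theorem result {G : Type*} [Group G] [Fintype G] (m n : ℕ) (hmn : Nat.card G = m * n) (hcop : Nat.Coprime m n) (g : G) (hg : Nat.Coprime (orderOf g) m) (ϑ : G → ℂ) (hϑ1 : ∀ x : G, (∃ v : G, IsConj v g ∧ (∃ u : G, x = u * v ∧ Commute u v ∧ Nat.Coprime (orderOf u) n ∧ Nat.Coprime (orderOf v) m)) → ϑ x = n) (hϑ0 : ∀ x : G, (¬ ∃ v : G, IsConj v g ∧ (∃ u : G, x = u * v ∧ Commute u v ∧ Nat.Coprime (orderOf u) n ∧ Nat.Coprime (orderOf v) m)) → ϑ x = 0) : ∃ c : Cfsg.IrrCharacter G → ℂ, (∀ χ, c χ ∈ Cfsg.AlgInt) ∧ ϑ = ∑ᶠ χ : Cfsg.IrrCharacter G, c χ • (χ : G → ℂ) := by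
  classical
  obtain ⟨k, hk0, hk1⟩ := Nat.chineseRemainder hcop 0 1
  have hθ : ϑ = fun x => if IsConj (x ^ k) g then (n : ℂ) else 0 := by
    funext x
    split_ifs with h
    · refine hϑ1 x ⟨x ^ k, h, x * (x ^ k)⁻¹, by simp, ?_, ?_, ?_⟩
      · exact ((Commute.refl x).pow_right k).mul_left (Commute.refl _).inv_left
      · exact Nat.Coprime.coprime_dvd_left (CL.Char.pow_copart_order hmn.dvd hk1 x) hcop
      · exact Nat.Coprime.coprime_dvd_left (CL.Char.pow_part_order hmn.dvd hk0 x) hcop.symm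
    · refine hϑ0 x ?_
      rintro ⟨v, hv, u, rfl, hc, hu, hv'⟩
      apply h
      rwa [CL.Char.mul_pow_eq_of_modEq hk0 hk1 hc
        (hu.dvd_of_dvd_mul_right (hmn ▸ orderOf_dvd_natCard u))
        (hv'.dvd_of_dvd_mul_left (hmn ▸ orderOf_dvd_natCard v))]
  refine ⟨fun χ => classInner ϑ χ, fun χ => ?_, ?_⟩
  · rw [hθ]
    exact CL.Char.isIntegral_inner_partIndicator hmn.dvd hcop hk0 hk1 g χ.2.isCharacter
  · rw [finsum_eq_sum_of_fintype]
    refine IsClassFunction.eq_sum ?_
    rw [hθ]
    exact CL.Char.isClassFunction_partIndicator k g _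

end Cfsg.Agent.S0875
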