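import Cfsg.Statements.S0893
import Cfsg.Agent.CHAR.Extraspecial

set_option autoImplicit false
open Cfsg

namespace Cfsg.Agent.S0893

/-- Let P be an extraspecial p-group of order p ^ (2 * n + 1), A an abelian subgroup of order p ^ (n + 1), and λ a character of A of degree 1 that is not identically 1 on the elements of A lying in the centre of P. Then the function induced from λ to P is an irreducible character of P and vanishes at every element outside the centre. -/
theorem result {P : Type*} [Group P] [Fintype P] (p n : ℕ) [Fact p.Prime] (hP : Cfsg.IsExtraspecial p P) (hcard : Nat.card P = p ^ (2 * n + 1)) (A : Subgroup P) (hab : ∀ a ∈ A, ∀ b ∈ A, a * b = b * a) (hA : Nat.card A = p ^ (n + 1)) (lam : A → ℂ) (hlam : Cfsg.IsCharacter A lam ∧ lam 1 = 1) (hZ : ∃ a : A, (a : P) ∈ Subgroup.center P ∧ lam a ≠ 1) : Cfsg.IsIrrCharacter P (Cfsg.indFun A lam) ∧ ∀ x : P, x ∉ Subgroup.center P → Cfsg.indFun A lam x = 0 := by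
  have hp : p.Prime := Fact.out
  have := Fintype.ofFinite A
  have hirr := hlam.1.isIrrCharacter_of_apply_one hlam.2
  obtain ⟨χ, hχ, hne⟩ := hirr.exists_over
  have hk : ¬ ∀ z ∈ Subgroup.center P, χ z = χ 1 := by
    intro hk
    have h1 := CL.Char.extraspecial_degree_one hP hχ hk
    have h2 := ((hχ.isCharacter.res A).isIrrCharacter_of_apply_one h1).eq_of_inner_ne_zero hirr hne
    obtain ⟨a, ha, hla⟩ := hZ
    exact hla ((congrFun h2 a).symm.trans ((hk a ha).trans h1))
  have hidx : A.index = p ^ n := by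
    have h := A.card_mul_index
    rw [hA, hcard, show 2 * n + 1 = (n + 1) + n by ring, pow_add p (n + 1) n] at h
    exact Nat.eq_of_mul_eq_mul_left (pow_pos hp.pos _) h
  have he : Cfsg.indFun A lam = χ := by
    refine hlam.1.ind.eq_of_inner_ne_zero_of_degree hχ ?_ ?_
    · rwa [CL.Char.inner_ind_eq_inner_res hlam.1 hχ.isCharacter]
    · rw [CL.Char.indFun_one, hlam.2, hidx, CL.Char.extraspecial_degree hP hcard hχ hk]
      simp
  rw [he]
  exact ⟨hχ, fun x hx => CL.Char.eq_zero_of_not_mem_center hp hP.2 hP.1.2.2.le hχ hk hx⟩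

end Cfsg.Agent.S0893
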