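import Cfsg.Statements.S0897
import Cfsg.Agent.CHAR.Triple
import Cfsg.Agent.CHAR.Dade

set_option autoImplicit false
open Cfsg

open CL.Char
open scoped commutatorElement

namespace Cfsg.Agent.S0897

theorem commutator_le_of_isElementary {G : Type*} [Group G] [Finite G] {p : ℕ} [hp : Fact p.Prime]
    (E : Subgroup G) (hE : IsElementary p E) :
    ∃ Q : Subgroup G, IsPGroup p Q ∧ ⁅E, E⁆ ≤ ⁅Q, Q⁆ := by
  obtain ⟨x, hx, -, k, hk⟩ := hE
  obtain ⟨Q⟩ : Nonempty (Sylow p E) := inferInstance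
  refine ⟨(Q : Subgroup E).map E.subtype, Q.isPGroup'.map _, ?_⟩
  have hZ : Subgroup.zpowers x ≤ Subgroup.center E := by rwa [Subgroup.zpowers_le]
  have htop : Subgroup.center E ⊔ (Q : Subgroup E) = ⊤ := by
    rw [← Subgroup.index_eq_one]
    refine Nat.eq_one_of_dvd_coprimes
      (((Nat.Prime.coprime_iff_not_dvd hp.out).2 Q.not_dvd_index).pow_left k) ?_ ?_
    · rw [← hk]; exact Subgroup.index_dvd_of_le (hZ.trans le_sup_left)
    · exact Subgroup.index_dvd_of_le le_sup_right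
  have hdec : ∀ e : E, ∃ z ∈ Subgroup.center E, ∃ q ∈ (Q : Subgroup E), z * q = e := fun e =>
    Subgroup.mem_sup_of_normal_left.1 (htop ▸ Subgroup.mem_top e)
  rw [Subgroup.commutator_le]
  intro a ha b hb
  obtain ⟨z, hz, q, hq, h1⟩ := hdec ⟨a, ha⟩
  obtain ⟨w, hw, r, hr, h2⟩ := hdec ⟨b, hb⟩
  have h3 : ⁅z * q, w * r⁆ = ⁅q, r⁆ := by
    have hz' := Subgroup.mem_center_iff.1 hz
    have hw' := Subgroup.mem_center_iff.1 hw
    rw [commutatorElement_def, commutatorElement_def]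
    calc z * q * (w * r) * (z * q)⁻¹ * (w * r)⁻¹ = z * (q * (w * r) * q⁻¹) * z⁻¹ * (w * r)⁻¹ := by
          group
      _ = (q * w) * (r * q⁻¹ * r⁻¹) * w⁻¹ := by rw [← hz']; group
      _ = w * (q * r * q⁻¹ * r⁻¹) * w⁻¹ := by rw [hw']; group
      _ = _ := by rw [← hw']; group
  rw [h1, h2] at h3
  have h4 : ⁅a, b⁆ = ⁅(q : G), (r : G)⁆ := congrArg Subtype.val h3
  rw [h4]
  exact Subgroup.commutator_mem_commutator ⟨q, hq, rfl⟩ ⟨r, hr, rfl⟩

/-- Let N be a normal subgroup of the finite group G with the index of N a power of the prime p, and P a Sylow p-subgroup of G such that P ⊓ N lies in the centre of P and every character of degree 1 of P ⊓ N is the restriction of a character of degree 1 of P. Then every irreducible character of N invariant under conjugation by G is the restriction of an irreducible character of G. -/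
theorem result {G : Type*} [Group G] [Fintype G] (p : ℕ) [Fact p.Prime] (N : Subgroup G) [hN : N.Normal] (hind : ∃ k : ℕ, N.index = p ^ k) (P : Sylow p G) (hcent : ∀ x ∈ (P : Subgroup G) ⊓ N, ∀ y ∈ (P : Subgroup G), x * y = y * x) (hlin : ∀ lam : ↥((P : Subgroup G) ⊓ N) → ℂ, Cfsg.IsCharacter ↥((P : Subgroup G) ⊓ N) lam → lam 1 = 1 → ∃ μ : ↥(P : Subgroup G) → ℂ, Cfsg.IsCharacter ↥(P : Subgroup G) μ ∧ μ 1 = 1 ∧ ∀ x : ↥((P : Subgroup G) ⊓ N), μ ⟨(x : G), x.2.1⟩ = lam x) (ϑ : N → ℂ) (hϑ : Cfsg.IsIrrCharacter N ϑ) (hinv : ∀ (g : G) (n : N), ϑ ⟨g * n * g⁻¹, hN.conj_mem (n : G) n.2 g⟩ = ϑ n) : ∃ χ : G → ℂ, Cfsg.IsIrrCharacter G χ ∧ ∀ n : N, χ n = ϑ n := by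
  classical
  have hp : p.Prime := Fact.out
  obtain ⟨k, hk⟩ := hind
  -- the derived group of `P` meets `N` trivially
  have h1 : ∀ y ∈ N, y ∈ ⁅(P : Subgroup G), (P : Subgroup G)⁆ → y = 1 := by
    intro y hyN hy
    rw [← Subgroup.map_subtype_commutator] at hy
    obtain ⟨y, hy', rfl⟩ := hy
    by_contra hne
    have hc : ∀ a b : ((P : Subgroup G) ⊓ N : Subgroup G), a * b = b * a := fun a b =>
      Subtype.ext (hcent a a.2 b b.2.1)
    obtain ⟨lam, hlam⟩ := exists_hom_apply_ne_one_of_comm hc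
      (x := ⟨y, y.2, hyN⟩) (fun h => hne (congrArg Subtype.val h))
    obtain ⟨μ, hμ, hμ1, hext⟩ := hlin (fun x => lam x) (isIrrCharacter_hom lam).isCharacter (by simp)
    apply hlam
    apply Units.ext
    rw [← hext ⟨y, y.2, hyN⟩]
    exact hμ.eq_one_of_mem_commutator hμ1 hy'
  obtain ⟨E, φ, hE, htop, hφ, -, hm⟩ := dade_elementary hp N hk hϑ hinv
  obtain ⟨m, hpm, hm⟩ := hm
  have h2 : ∀ y ∈ N, y ∈ ⁅E, E⁆ → y = 1 := by
    intro y hyN hy
    obtain ⟨Q, hQ, hQE⟩ := commutator_le_of_isElementary E hE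
    obtain ⟨P', hP'⟩ := hQ.exists_le_sylow
    obtain ⟨g, rfl⟩ := MulAction.exists_smul_eq G P P'
    have h3 : y ∈ ⁅((g • P : Sylow p G) : Subgroup G), ((g • P : Sylow p G) : Subgroup G)⁆ :=
      Subgroup.commutator_mono hP' hP' (hQE hy)
    have h4 : ((g • P : Sylow p G) : Subgroup G) =
        (P : Subgroup G).map (MulAut.conj g).toMonoidHom := rfl
    rw [h4, ← Subgroup.map_commutator] at h3
    obtain ⟨z, hz, rfl⟩ := h3
    have hzN : z ∈ N := by
      have := hN.conj_mem _ hyN g⁻¹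
      simpa [mul_assoc] using this
    rw [h1 z hzN hz, map_one]
  have hc : ∀ a b : (E ⊓ N : Subgroup G), a * b = b * a := fun a b => by
    apply Subtype.ext
    apply commutatorElement_eq_one_iff_mul_comm.1
    exact h2 _ (N.mul_mem (N.mul_mem (N.mul_mem a.2.2 b.2.2) (N.inv_mem a.2.2)) (N.inv_mem b.2.2))
      (Subgroup.commutator_mem_commutator a.2.1 b.2.1)
  obtain ⟨lam, rfl⟩ := hφ.exists_hom_of_comm hc
  let e : N.subgroupOf E →* (E ⊓ N : Subgroup G) :=
    (E.subtype.comp (N.subgroupOf E).subtype).codRestrict _ fun x => ⟨x.1.2, x.2⟩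
  obtain ⟨ν, hν⟩ := exists_hom_extend (N.subgroupOf E) (lam.comp e) (fun x hx => by
    have : e x = 1 := Subtype.ext (h2 _ x.2 (by
      rw [← Subgroup.map_subtype_commutator]; exact ⟨x, hx, rfl⟩))
    rw [MonoidHom.comp_apply, this, map_one])
  have hνc := (isIrrCharacter_hom ν).isCharacter
  have h3 := classInner_res_indFun_of_invariant N E (fun x => (ν x : ℂ)) ϑ hinv
  have h4 : (fun d : (E ⊓ N : Subgroup G) => (ν ⟨d, d.2.1⟩ : ℂ)) = fun d => (lam d : ℂ) :=
    funext fun d => congrArg Units.val (hν ⟨⟨d, d.2.1⟩, d.2.2⟩)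
  rw [htop, Subgroup.index_top, Nat.cast_one, one_mul, h4,
    ← classInner_conj_symm _ (fun d : (E ⊓ N : Subgroup G) => (lam d : ℂ)), hm, map_natCast] at h3
  obtain ⟨c, -, hc⟩ := hνc.ind.exists_nat_coeffs
  have h5 : ∀ χ : IrrCharacter G, ∃ e : ℕ, classInner (fun n : N => (χ : G → ℂ) n) ϑ = e :=
    fun χ => (χ.2.isCharacter.res N).exists_nat_inner hϑ.isCharacter
  choose r hr using h5
  have h6 : m = ∑ χ, c χ * r χ := by
    have h7 : (fun n : N => indFun E (fun x => (ν x : ℂ)) n) =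
        ∑ χ : IrrCharacter G, (c χ : ℂ) • fun n : N => (χ : G → ℂ) n := by
      funext n
      rw [hc]
      simp only [Finset.sum_apply, Pi.smul_apply]
    rw [h7, classInner_sum_left] at h3
    simp only [classInner_smul_left, hr] at h3
    exact_mod_cast h3.symm
  have h8 : ∃ χ, ¬ p ∣ r χ := by
    by_contra hcon
    push Not at hcon
    exact hpm (h6 ▸ Finset.dvd_sum fun χ _ => (hcon χ).mul_left _)
  obtain ⟨χ, hχ⟩ := h8
  have hr0 : r χ ≠ 0 := fun h => hχ (h ▸ dvd_zero p)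
  have h9 := inner_res_dvd_index χ.2 hϑ (hr χ) hr0
  rw [hk] at h9
  have h10 : r χ = 1 := Nat.eq_one_of_dvd_coprimes
    (((Nat.Prime.coprime_iff_not_dvd hp).2 hχ).pow_left k) h9 dvd_rfl
  have h11 := clifford_of_invariant χ.2 hϑ (inertia_eq_top_iff.2 hinv)
    (by rw [hr]; exact_mod_cast hr0)
  rw [hr, h10, Nat.cast_one, one_smul] at h11
  exact ⟨χ, χ.2, congrFun h11⟩

end Cfsg.Agent.S0897
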