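import Cfsg.Statements.S0898
import Cfsg.Agent.CHAR.FTLinear

set_option autoImplicit false
open Cfsg

namespace Cfsg.Agent.S0898

/-- Let H be an abelian subgroup of the finite group G meeting the centre of G trivially, such that for every non-central g the centralizer of g has nontrivial intersection with at most one conjugate of H. Let χ be an irreducible character of G with χ h ≠ χ 1 for some h in H, and let c be the inner product of the restriction of χ to H with the principal character. Then χ(1)² > (order of H)·c²; and if in addition χ 1 ≠ 1 and no proper normal subgroup of G contains H, then (1 + χ 1)² > order of H (both sides read as real numbers). -/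
theorem result {G : Type*} [Group G] [Fintype G] (H : Subgroup G) [Fintype H] (hab : ∀ a ∈ H, ∀ b ∈ H, a * b = b * a) (hZ : H ⊓ Subgroup.center G = ⊥) (hone : ∀ g : G, g ∉ Subgroup.center G → ∀ a b : G, Subgroup.centralizer ({g} : Set G) ⊓ H.map (MulAut.conj a).toMonoidHom ≠ ⊥ → Subgroup.centralizer ({g} : Set G) ⊓ H.map (MulAut.conj b).toMonoidHom ≠ ⊥ → H.map (MulAut.conj a).toMonoidHom = H.map (MulAut.conj b).toMonoidHom) (χ : G → ℂ) (hχ : Cfsg.IsIrrCharacter G χ) (hker : ∃ h ∈ H, χ h ≠ χ 1) : (χ 1).re ^ 2 > (Nat.card H : ℝ) * (Cfsg.classInner (fun h : H => χ h) (fun _ => 1)).re ^ 2 ∧ (χ 1 ≠ 1 → (∀ M : Subgroup G, M.Normal → H ≤ M → M = ⊤) → (1 + (χ 1).re) ^ 2 > (Nat.card H : ℝ)) := by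
  have hTI : ∀ g : G, g ∉ Subgroup.normalizer (H : Set G) → ∀ t, t ∉ Subgroup.center G →
      ∀ h ∈ H, ∀ h' ∈ H, h ≠ 1 → h' ≠ 1 → t * h = h * t →
        g * t * g⁻¹ * h' = h' * (g * t * g⁻¹) → False := by
    intro g hg t ht h hh h' hh' h1 h1' e e'
    have key := hone t ht 1 g⁻¹ (fun hb => h1 ?_) (fun hb => h1' ?_)
    · apply hg
      rw [← inv_mem_iff, Subgroup.mem_normalizer_iff]
      intro x
      have := SetLike.ext_iff.1 key (g⁻¹ * x * g⁻¹⁻¹)
      simp only [Subgroup.mem_map, MulEquiv.coe_toMonoidHom, MulAut.conj_apply] at this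
      constructor
      · intro hx
        obtain ⟨y, hy, e⟩ := this.2 ⟨x, hx, rfl⟩
        rw [← e]; simpa using hy
      · intro hx
        obtain ⟨y, hy, e⟩ := this.1 ⟨_, hx, by simp⟩
        have : y = x := by simpa using e
        exact this ▸ hy
    · rw [← Subgroup.mem_bot, ← hb]
      exact ⟨Subgroup.mem_centralizer_singleton_iff.2 e.symm, h, hh, by simp⟩
    · have : g⁻¹ * h' * g ∈ (⊥ : Subgroup G) := by
        rw [← hb]
        refine ⟨Subgroup.mem_centralizer_singleton_iff.2 ?_, h', hh', by simp⟩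
        calc g⁻¹ * h' * g * t = g⁻¹ * (h' * (g * t * g⁻¹)) * g := by group
          _ = t * (g⁻¹ * h' * g) := by rw [← e']; group
      rw [Subgroup.mem_bot] at this
      calc h' = g * (g⁻¹ * h' * g) * g⁻¹ := by group
        _ = 1 := by rw [this]; group
  rw [hχ.isCharacter.re_one]
  constructor
  · obtain ⟨c, hc⟩ := (hχ.isCharacter.res H).exists_nat_inner CL.Char.isCharacter_one
    have := CL.Char.feit_thompson_bound H hZ hTI hχ hker hc
    rw [hc, Complex.natCast_re]
    exact_mod_cast this
  · intro h1 hM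
    have := CL.Char.feit_thompson_bound' H hZ hTI hab hM hχ h1
    exact_mod_cast this

end Cfsg.Agent.S0898
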