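import Cfsg.Statements.S0900
import Cfsg.Agent.CHAR.Ramified

set_option autoImplicit false
open Cfsg

namespace Cfsg.Agent.S0900

/-- Let N be a normal subgroup of the finite group G, χ an irreducible character of G and ϑ an irreducible character of N having nonzero inner product with the restriction of χ. Consider: (a) the restriction of χ to N is e • ϑ for a natural number e with e ^ 2 equal to the index of N; (b) χ vanishes outside N and ϑ is invariant under conjugation by G; (c) ϑ is invariant and every irreducible character of G having nonzero inner product with the function induced from ϑ equals χ. Then (a) ↔ (b) and (a) ↔ (c). -/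
theorem result {G : Type*} [Group G] [Fintype G] (N : Subgroup G) [hN : N.Normal] [Fintype N] (χ : G → ℂ) (hχ : Cfsg.IsIrrCharacter G χ) (ϑ : N → ℂ) (hϑ : Cfsg.IsIrrCharacter N ϑ) (hcon : Cfsg.classInner (fun n : N => χ n) ϑ ≠ 0) : ((∃ e : ℕ, (fun n : N => χ n) = (e : ℂ) • ϑ ∧ e ^ 2 = N.index) ↔ ((∀ g : G, g ∉ N → χ g = 0) ∧ ∀ (g : G) (n : N), ϑ ⟨g * n * g⁻¹, hN.conj_mem (n : G) n.2 g⟩ = ϑ n)) ∧ ((∃ e : ℕ, (fun n : N => χ n) = (e : ℂ) • ϑ ∧ e ^ 2 = N.index) ↔ (∀ (g : G) (n : N), ϑ ⟨g * n * g⁻¹, hN.conj_mem (n : G) n.2 g⟩ = ϑ n ∧ ∀ ψ : G → ℂ, Cfsg.IsIrrCharacter G ψ → Cfsg.classInner (Cfsg.indFun N ϑ) ψ ≠ 0 → ψ = χ)) := by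
  have hinv : ∀ e : ℕ, (fun n : N => χ n) = (e : ℂ) • ϑ → CL.Char.inertia N ϑ = ⊤ := by
    intro e he
    refine CL.Char.inertia_eq_top_of_res_eq_smul hχ.isClassFunction (fun h0 => hcon ?_) he
    rw [he, h0, zero_smul, CL.Char.classInner_zero_left]
  refine ⟨⟨fun ⟨e, he, h⟩ => ⟨(CL.Char.sq_eq_index_iff_vanish hχ hϑ he).mp h,
    CL.Char.inertia_eq_top_iff.mp (hinv e he)⟩, fun ⟨h1, h2⟩ => ?_⟩,
    ⟨fun ⟨e, he, h⟩ g n => ⟨CL.Char.inertia_eq_top_iff.mp (hinv e he) g n, fun ψ hψ hne => ?_⟩,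
      fun h => ?_⟩⟩
  · obtain ⟨e, -, he⟩ := CL.Char.exists_res_eq_smul_of_invariant hχ hϑ
      (CL.Char.inertia_eq_top_iff.mpr h2) hcon
    exact ⟨e, he, (CL.Char.sq_eq_index_iff_vanish hχ hϑ he).mpr h1⟩
  · rw [CL.Char.inner_ind_eq_inner_res hϑ.isCharacter hψ.isCharacter] at hne
    exact (CL.Char.sq_eq_index_iff_unique hχ hϑ he).mp h ψ hψ hne
  · obtain ⟨e, -, he⟩ := CL.Char.exists_res_eq_smul_of_invariant hχ hϑ
      (CL.Char.inertia_eq_top_iff.mpr fun g n => (h g n).1) hcon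
    refine ⟨e, he, (CL.Char.sq_eq_index_iff_unique hχ hϑ he).mpr fun ψ hψ hne => (h 1 1).2 ψ hψ ?_⟩
    rwa [CL.Char.inner_ind_eq_inner_res hϑ.isCharacter hψ.isCharacter]

end Cfsg.Agent.S0900
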