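import Cfsg.Statements.S0901
import Cfsg.Agent.BLK.Val2

set_option autoImplicit false
open Cfsg

namespace Cfsg.Agent.S0901

open CL.Blk Polynomial

theorem exists_pow_red_eq_one {p : ℕ} {M : Ideal AlgInt} (hM : IsPModular p M) (a : AlgInt)
    (h0 : red M (a : ℂ) ≠ 0) : ∃ m : ℕ, ¬ p ∣ m ∧ red M (a : ℂ) ^ m = 1 := by
  have := charP_F hM
  have := Fact.mk hM.1
  let _ : Algebra (ZMod p) (F M) := ZMod.algebra _ _
  set x := red M (a : ℂ) with hx
  have hint' : IsIntegral (ZMod p) x := by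
    obtain ⟨f, hf, h1⟩ := a.2
    refine ⟨f.map (Int.castRingHom (ZMod p)), hf.map _, ?_⟩
    have h2 : f.eval₂ (Int.castRingHom (V M)) ⟨a, algInt_mem a⟩ = 0 := by
      apply Subtype.ext
      have := hom_eval₂ f (Int.castRingHom (V M)) (V M).subtype ⟨a, algInt_mem a⟩
      refine this.trans ?_
      rw [RingHom.ext_int ((V M).subtype.comp _) (algebraMap ℤ ℂ)]
      exact h1
    have h3 := hom_eval₂ f (Int.castRingHom (V M)) (IsLocalRing.residue (V M)) ⟨a, algInt_mem a⟩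
    rw [h2, map_zero] at h3
    rw [eval₂_map, hx, red_of_mem (algInt_mem a), h3]
    congr 1
    exact RingHom.ext_int _ _
  have hfin : Finite (Algebra.adjoin (ZMod p) {x}) := by
    have : Module.Finite (ZMod p) (Algebra.adjoin (ZMod p) {x}) :=
      Algebra.finite_adjoin_simple_of_isIntegral hint'
    exact Module.finite_of_finite (ZMod p)
  obtain ⟨i, j, hij, h⟩ := Finite.exists_ne_map_eq_of_infinite
    (fun n : ℕ => (⟨x ^ n, pow_mem (Algebra.self_mem_adjoin_singleton _ x) n⟩ :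
      Algebra.adjoin (ZMod p) {x}))
  have h' : x ^ i = x ^ j := congrArg Subtype.val h
  have hex : ∃ n, n ≠ 0 ∧ x ^ n = 1 := by
    wlog hlt : i < j generalizing i j
    · exact this j i hij.symm h.symm h'.symm (by omega)
    refine ⟨j - i, by omega, ?_⟩
    apply mul_left_cancel₀ (pow_ne_zero i h0)
    rw [← pow_add, mul_one, h']; congr 1; omega
  obtain ⟨n, hn0, hn⟩ := hex
  refine ⟨ordCompl[p] n, Nat.not_dvd_ordCompl hM.1 hn0, ?_⟩
  have h2 : (x ^ ordCompl[p] n - 1) ^ p ^ n.factorization p = 0 := by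
    rw [sub_pow_char_pow, ← pow_mul, mul_comm, Nat.ordProj_mul_ordCompl_eq_self, hn, one_pow,
      sub_self]
  exact sub_eq_zero.1 (pow_eq_zero_iff (pow_ne_zero _ hM.1.ne_zero) |>.1 h2)


/-- Let M be a maximal ideal of the ring of algebraic integers containing the prime p, and let U be the set of complex roots of unity of order prime to p. Then reduction modulo M is injective on U, and every algebraic integer not in M is congruent modulo M to an element of U (so U maps bijectively onto the nonzero residues). -/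
theorem result (p : ℕ) [Fact p.Prime] (M : Ideal Cfsg.AlgInt) (hM : Cfsg.IsPModular p M) : (∀ ε₁ ε₂ : Cfsg.AlgInt, (∃ m : ℕ, ¬ p ∣ m ∧ (ε₁ : ℂ) ^ m = 1) → (∃ m : ℕ, ¬ p ∣ m ∧ (ε₂ : ℂ) ^ m = 1) → ε₁ - ε₂ ∈ M → ε₁ = ε₂) ∧ (∀ a : Cfsg.AlgInt, a ∉ M → ∃ ε : Cfsg.AlgInt, (∃ m : ℕ, ¬ p ∣ m ∧ (ε : ℂ) ^ m = 1) ∧ a - ε ∈ M) := by
  constructor
  · rintro ε₁ ε₂ ⟨m₁, hm₁, h₁⟩ ⟨m₂, hm₂, h₂⟩ h
    apply Subtype.ext
    refine eq_of_red_eq_of_pow_eq_one hM hm₁ hm₂ h₁ h₂ ?_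
    rw [red_eq_red_iff (algInt_mem _) (algInt_mem _)]
    exact_mod_cast (algInt_mem_nonunits_iff hM.2.1 _).2 h
  · intro a ha
    have h0 : red M (a : ℂ) ≠ 0 := by
      rwa [Ne, red_eq_zero_iff (algInt_mem a), algInt_mem_nonunits_iff hM.2.1]
    obtain ⟨m, hm, h⟩ := exists_pow_red_eq_one hM a h0
    have hm0 : m ≠ 0 := by rintro rfl; exact hm (dvd_zero _)
    obtain ⟨ε, hε1, hε2⟩ := exists_pow_eq_one_red_eq hm0 h
    have hi : IsIntegral ℤ ε := IsIntegral.of_pow (Nat.pos_of_ne_zero hm0) (hε1 ▸ isIntegral_one)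
    refine ⟨⟨ε, hi⟩, ⟨m, hm, hε1⟩, ?_⟩
    rw [← algInt_mem_nonunits_iff hM.2.1]
    exact (red_eq_red_iff (algInt_mem a) (mem_V_of_isIntegral hi)).1 hε2.symm

end Cfsg.Agent.S0901
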