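import Cfsg.Statements.S0902
import Cfsg.Agent.BLK.GRoots

set_option autoImplicit false
open Cfsg

namespace Cfsg.Agent.S0902

open CL.Blk CL.Char CL.Glb Polynomial in
theorem mem_nonunits_of_conj {p : ℕ} {M M' : Ideal AlgInt} (hM : IsPModular p M)
    (hM' : IsPModular p M') {α : ℂ} (hα : IsIntegral ℤ α)
    (h : ∀ β : ℂ, aeval β (minpoly ℚ α) = 0 → β ∈ (V M).nonunits) : α ∈ (V M').nonunits := by
  set f := minpoly ℤ α with hf
  have hfm : f.Monic := minpoly.monic hα
  have hfq : minpoly ℚ α = f.map (algebraMap ℤ ℚ) :=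
    minpoly.isIntegrallyClosed_eq_field_fractions' ℚ hα
  let g : Polynomial (V M) := f.map (Int.castRingHom _)
  have hgm : g.Monic := hfm.map _
  have hs := splits_V hgm
  have hprod := hs.eq_prod_roots_of_monic hgm
  have hres : g.map (IsLocalRing.residue (V M)) = X ^ f.natDegree := by
    rw [hprod, Polynomial.map_multiset_prod, Multiset.map_map]
    have : ∀ a ∈ g.roots, ((Polynomial.map (IsLocalRing.residue (V M))) ∘ fun a => X - C a) a =
        X := by
      intro a ha
      have h0 : aeval (a : ℂ) (minpoly ℚ α) = 0 := by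
        rw [hfq, aeval_map_algebraMap]
        have h1 : g.eval a = 0 := (mem_roots hgm.ne_zero).mp ha
        have h2 : (V M).subtype (g.eval a) = aeval (a : ℂ) f := by
          simp only [g, eval_map, aeval_def]
          rw [Polynomial.hom_eval₂]
          congr 1
        rw [← h2, h1, map_zero]
      have h3 : red M (a : ℂ) = 0 := red_eq_zero_of_mem (h _ h0)
      rw [red_coe] at h3
      simp [h3]
    rw [Multiset.map_congr rfl this, Multiset.map_const', Multiset.prod_replicate,
      hs.natDegree_eq_card_roots.symm, hfm.natDegree_map]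
  have hc : ∀ i, i < f.natDegree → (p : ℤ) ∣ f.coeff i := by
    intro i hi
    have := congrArg (fun q => q.coeff i) hres
    simp only [g, coeff_map, coeff_X_pow, if_neg hi.ne] at this
    rw [← intCast_F_eq_zero_iff hM]
    simpa using this
  have h0 : aeval α f = 0 := minpoly.aeval ℤ α
  rw [aeval_eq_sum_range, Finset.sum_range_succ] at h0
  have hl : f.coeff f.natDegree = 1 := hfm
  rw [hl, one_smul] at h0
  have hαV : α ∈ V M' := mem_V_of_isIntegral hα
  apply mem_nonunits_of_pow (n := f.natDegree)
  rw [eq_neg_of_add_eq_zero_right h0, ← red_eq_zero_iff (neg_mem (sum_mem fun i _ =>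
    zsmul_mem (pow_mem hαV i) _)), red_neg, red_sum _ fun i _ => zsmul_mem (pow_mem hαV i) _,
    neg_eq_zero]
  refine Finset.sum_eq_zero fun i hi => ?_
  rw [zsmul_eq_mul]
  exact red_eq_zero_of_mem (mul_mem_nonunits_right
    ((intCast_mem_nonunits_iff hM' _).mpr (hc i (Finset.mem_range.mp hi))) (pow_mem hαV i))

theorem centralizer_pow_eq {G : Type*} [Group G] [Finite G] (g : G) {k : ℕ}
    (hk : k.Coprime (orderOf g)) :
    Subgroup.centralizer ({g ^ k} : Set G) = Subgroup.centralizer ({g} : Set G) := by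
  ext x
  simp only [Subgroup.mem_centralizer_singleton_iff]
  constructor
  · intro h
    obtain ⟨m, hm⟩ := exists_pow_eq_self_of_coprime hk
    rw [← hm]
    exact (Commute.pow_right (show Commute x (g ^ k) from h) m).eq
  · intro h
    exact (Commute.pow_right (show Commute x g from h) k).eq

/-- If two irreducible characters of a finite group lie in the same block relative to one maximal ideal M of the algebraic integers containing the prime p, then at every element the difference of their central characters is an algebraic integer lying in every maximal ideal containing p; in particular they lie in the same block relative to any such ideal. -/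
theorem result {G : Type*} [Group G] [Finite G] (p : ℕ) [Fact p.Prime] (M : Ideal Cfsg.AlgInt) (hM : Cfsg.IsPModular p M) (χ ψ : Cfsg.IrrCharacter G) (h : Cfsg.SameBlock M (χ : G → ℂ) (ψ : G → ℂ)) (M' : Ideal Cfsg.AlgInt) (hM' : Cfsg.IsPModular p M') (g : G) : ∃ r : Cfsg.AlgInt, r ∈ M' ∧ (r : ℂ) = Cfsg.centralChar (χ : G → ℂ) g - Cfsg.centralChar (ψ : G → ℂ) g := by
  obtain ⟨d, ε, h1, h2, h3⟩ := CL.Glb.exists_eigen χ.2.isCharacter g
  obtain ⟨d', ε', h1', h2', h3'⟩ := CL.Glb.exists_eigen ψ.2.isCharacter g
  have hint : IsIntegral ℤ (centralChar (χ : G → ℂ) g - centralChar (ψ : G → ℂ) g) :=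
    (χ.2.isIntegral_centralChar g).sub (ψ.2.isIntegral_centralChar g)
  let c : Fin d ⊕ Fin d' → ℚ := Sum.elim
    (fun _ => ((Subgroup.centralizer ({g} : Set G)).index : ℚ) / d)
    (fun _ => -((Subgroup.centralizer ({g} : Set G)).index : ℚ) / d')
  let e : Fin d ⊕ Fin d' → ℂ := Sum.elim ε ε'
  have key : ∀ k : ℕ, k.Coprime (orderOf g) → ∑ i, (c i : ℂ) * e i ^ k =
      centralChar (χ : G → ℂ) (g ^ k) - centralChar (ψ : G → ℂ) (g ^ k) := by
    intro k hk
    simp only [centralChar, centralizer_pow_eq g hk, h3, h3', h1, h1', Fintype.sum_sum_type, c, e,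
      Sum.elim_inl, Sum.elim_inr, ← Finset.mul_sum]
    push_cast
    ring
  refine ⟨⟨_, hint⟩, ?_, rfl⟩
  rw [← CL.Blk.algInt_mem_nonunits_iff hM'.2.1]
  refine mem_nonunits_of_conj hM hM' hint fun β hβ => ?_
  have k1 := key 1 (Nat.coprime_one_left _)
  simp only [pow_one] at k1
  change Polynomial.aeval β (minpoly ℚ (centralChar (χ : G → ℂ) g - centralChar (ψ : G → ℂ) g)) = 0
    at hβ
  rw [← k1] at hβ
  obtain ⟨k, hk, rfl⟩ := CL.Glb.root_minpoly_eq (orderOf_pos g).ne' c e
    (by rintro (i | i); exacts [h2 i, h2' i]) hβ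
  rw [key k hk]
  exact (h _).mem_nonunits hM

end Cfsg.Agent.S0902
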