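import Cfsg.Statements.S0905
import Cfsg.Agent.BLK.Brauer
import Cfsg.Agent.SOLV.Core

set_option autoImplicit false
open Cfsg

namespace Cfsg.Agent.S0905

/-- Let F be a field of characteristic p and let g be an element of the finite group G no conjugate of which centralizes O_p(G). Then the class sum of g is a nilpotent element of the group algebra F[G]. -/
theorem result {G : Type*} [Group G] [Finite G] (p : ℕ) [Fact p.Prime] (F : Type*) [Field F] [CharP F p] (g : G) (hg : ∀ x : G, IsConj g x → x ∉ Subgroup.centralizer (Cfsg.pCore p G : Set G)) : IsNilpotent (∑ᶠ x ∈ ConjClasses.carrier (ConjClasses.mk g), MonoidAlgebra.single x (1 : F) : MonoidAlgebra F G) := by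
  have hp : p.Prime := Fact.out
  rw [CL.Blk.finsum_single_eq_classSum]
  refine CL.Blk.isNilpotent_of_not_brNe hp (CharP.cast_eq_zero F p) (P := pCore p G)
    (CL.isPGroup_pCore p G) ((CL.Blk.isCentral_classSum g).isFixed _) ?_
  rw [CL.Blk.brNe_classSum_iff]
  rintro ⟨c, h1, h2⟩
  exact hg c h1 h2

end Cfsg.Agent.S0905
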