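import Cfsg.Statements.S0911
import Mathlib
import Cfsg.Agent.BLK.Dict

set_option autoImplicit false
open Cfsg

namespace Cfsg.Agent.S0911

open CL CL.Blk CL.Char MonoidAlgebra
open scoped CL.MSS

/-- The min–max Theorem for defect classes. Let B be a block of the finite group G relative to a maximal ideal M of the algebraic integers containing the prime p, let g represent a defect class of B and let D be a Sylow p-subgroup of the centralizer of g (viewed in G). For any h: (a) if the idempotent coefficient of B at h is a local integer outside the local ideal, then some conjugate of D contains a Sylow p-subgroup of the centralizer of h; (b) if the central character of some member of B at h is outside the local ideal, then some conjugate of D is contained in a Sylow p-subgroup of the centralizer of h. -/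
theorem result {G : Type*} [Group G] [Finite G] (p : ℕ) [Fact p.Prime] (M : Ideal Cfsg.AlgInt) (hM : Cfsg.IsPModular p M) (B : Set (Cfsg.IrrCharacter G)) (hB : Cfsg.IsPBlock M B) (g : G) (hg : Cfsg.IsDefectClass M B g) (D : Sylow p (Subgroup.centralizer ({g} : Set G))) (h : G) : (Cfsg.MemLocalRing M (Cfsg.blockCoeff B h) → ¬ Cfsg.MemLocalIdeal M (Cfsg.blockCoeff B h) → ∃ (x : G) (Q : Sylow p (Subgroup.centralizer ({h} : Set G))), (Q : Subgroup (Subgroup.centralizer ({h} : Set G))).map (Subgroup.centralizer ({h} : Set G)).subtype ≤ ((D : Subgroup (Subgroup.centralizer ({g} : Set G))).map (Subgroup.centralizer ({g} : Set G)).subtype).map (MulAut.conj x).toMonoidHom) ∧ ((∃ χ ∈ B, ¬ Cfsg.MemLocalIdeal M (Cfsg.centralChar (χ : G → ℂ) h)) → ∃ (x : G) (Q : Sylow p (Subgroup.centralizer ({h} : Set G))), ((D : Subgroup (Subgroup.centralizer ({g} : Set G))).map (Subgroup.centralizer ({g} : Set G)).subtype).map (MulAut.conj x).toMonoidHom ≤ (Q : Subgroup (Subgroup.centralizer ({h} : Set G))).map (Subgroup.centralizer ({h} : Set G)).subtype)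 := by
  have hD : IsDef p (eB M B) ((D : Subgroup (Subgroup.centralizer ({g} : Set G))).map
      (Subgroup.centralizer ({g} : Set G)).subtype) :=
    (isDefectGroup_iff hM hB).1 ⟨g, hg, D, rfl⟩
  obtain ⟨Q, hQ⟩ := MSS.exists_sylIn p (Subgroup.centralizer ({h} : Set G))
  obtain ⟨T, hT⟩ := hQ.exists_sylow
  constructor
  · intro _ h2
    rw [memLocalIdeal_blockCoeff_iff hM hB] at h2
    obtain ⟨x, hx⟩ := IsBlk.exists_cj_le_of_coeff_ne_zero hD h2 hQ.pgroup hQ.le
    exact ⟨x⁻¹, T, hT ▸ MSS.cj_le_iff.1 hx⟩
  · rintro ⟨χ, hχ, h2⟩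
    rw [memLocalIdeal_centralChar_iff hM, ← lamB_eq hM hB hχ] at h2
    obtain ⟨x, hx⟩ := (isBlk_eB hM hB).exists_cj_le_of_map_classSum_ne_zero hM.1 (natCast_F hM)
      hD h2 hQ
    exact ⟨x, T, hT ▸ hx⟩

end Cfsg.Agent.S0911
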