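import Cfsg.Statements.S0916
import Mathlib.GroupTheory.Nilpotent
-- import your own Cfsg.Agent.* helpers here

set_option autoImplicit false
open Cfsg
open scoped Pointwise

namespace Cfsg.Agent.S0916

/-- ambient description of a Sylow subgroup of a subgroup -/
theorem sylowIn_iff {G : Type*} [Group G] (p : ℕ) (D H : Subgroup G) :
    (∃ S : Sylow p H, (S : Subgroup H).map H.subtype = D) ↔
      D ≤ H ∧ IsPGroup p D ∧ ∀ Q : Subgroup G, Q ≤ H → IsPGroup p Q → D ≤ Q → Q = D := by
  constructor
  · rintro ⟨S, rfl⟩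
    refine ⟨Subgroup.map_subtype_le _, S.isPGroup'.map _, fun Q hQ hp hle => ?_⟩
    have h1 : IsPGroup p (Q.subgroupOf H) := hp.comap_subtype
    have h2 : (S : Subgroup H) ≤ Q.subgroupOf H := fun x hx => hle ⟨x, hx, rfl⟩
    have := S.is_maximal' h1 h2
    rw [← this, Subgroup.subgroupOf_map_subtype, inf_eq_left.mpr hQ]
  · rintro ⟨hD, hp, hmax⟩
    refine ⟨⟨D.subgroupOf H, hp.comap_subtype, fun {Q} hQ hle => ?_⟩, ?_⟩
    · have := hmax (Q.map H.subtype) (Subgroup.map_subtype_le _) (hQ.map _)
        (fun x hx => ⟨⟨x, hD hx⟩, hle hx, rfl⟩)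
      rw [← this]
      exact (Subgroup.comap_map_eq_self_of_injective H.subtype_injective Q).symm
    · change (D.subgroupOf H).map H.subtype = D
      rw [Subgroup.subgroupOf_map_subtype, inf_eq_left.mpr hD]

theorem sylowIn_conj {G : Type*} [Group G] [Finite G] (p : ℕ) [Fact p.Prime] {D E H : Subgroup G}
    (hD : ∃ S : Sylow p H, (S : Subgroup H).map H.subtype = D)
    (hE : ∃ S : Sylow p H, (S : Subgroup H).map H.subtype = E) :
    ∃ z ∈ H, ∀ x, x ∈ D ↔ z * x * z⁻¹ ∈ E := by
  obtain ⟨S, rfl⟩ := hD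
  obtain ⟨T, rfl⟩ := hE
  obtain ⟨z, rfl⟩ := MulAction.exists_smul_eq H S T
  refine ⟨z, z.2, fun x => ⟨?_, ?_⟩⟩
  · rintro ⟨y, hy, rfl⟩
    refine ⟨z * y * z⁻¹, ?_, rfl⟩
    change z * y * z⁻¹ ∈ (z • S : Sylow p H)
    rw [Sylow.smul_def]
    change _ ∈ MulAut.conj z • (S : Subgroup H)
    rw [Subgroup.mem_pointwise_smul_iff_inv_smul_mem]
    have hy2 : y ∈ (S : Subgroup H) := hy
    simpa [mul_assoc] using hy2
  · rintro ⟨y, hy, h⟩
    have hy' : y ∈ MulAut.conj z • (S : Subgroup H) := hy
    rw [Subgroup.mem_pointwise_smul_iff_inv_smul_mem] at hy'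
    have hy2 : z⁻¹ * y * z ∈ (S : Subgroup H) := by simpa [mul_assoc] using hy'
    refine ⟨z⁻¹ * y * z, hy2, ?_⟩
    have h' : (y : G) = z * x * (z : G)⁻¹ := h
    simp [h', mul_assoc]

theorem sylowIn_of_card {G : Type*} [Group G] [Finite G] (p : ℕ) [Fact p.Prime] {D H : Subgroup G}
    (hD : D ≤ H) (hc : Nat.card D = p ^ (Nat.card H).factorization p) :
    ∃ S : Sylow p H, (S : Subgroup H).map H.subtype = D := by
  refine ⟨Sylow.ofCard (D.subgroupOf H) ?_, ?_⟩
  · rw [← hc]; exact Nat.card_congr (Subgroup.subgroupOfEquivOfLe hD).toEquiv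
  · rw [Sylow.coe_ofCard, Subgroup.subgroupOf_map_subtype, inf_eq_left.mpr hD]

theorem card_of_sylowIn {G : Type*} [Group G] [Finite G] (p : ℕ) [Fact p.Prime] {D H : Subgroup G}
    (h : ∃ S : Sylow p H, (S : Subgroup H).map H.subtype = D) :
    Nat.card D = p ^ (Nat.card H).factorization p := by
  obtain ⟨S, rfl⟩ := h
  rw [Subgroup.card_map_of_injective H.subtype_injective, S.card_eq_multiplicity]

theorem card_centralizer_conj {G : Type*} [Group G] {g c : G} (h : IsConj g c) :
    Nat.card (Subgroup.centralizer ({g} : Set G)) = Nat.card (Subgroup.centralizer ({c} : Set G)) := by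
  obtain ⟨y, rfl⟩ := isConj_iff.mp h
  refine Nat.card_congr
    { toFun := fun x => ⟨y * x.1 * y⁻¹, ?_⟩
      invFun := fun z => ⟨y⁻¹ * z.1 * y, ?_⟩
      left_inv := fun x => by ext; simp [mul_assoc]
      right_inv := fun z => by ext; simp [mul_assoc] }
  · have := Subgroup.mem_centralizer_singleton_iff.mp x.2
    rw [Subgroup.mem_centralizer_singleton_iff]
    calc y * x.1 * y⁻¹ * (y * g * y⁻¹) = y * (x.1 * g) * y⁻¹ := by group
      _ = y * (g * x.1) * y⁻¹ := by rw [this]
      _ = _ := by group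
  · have := Subgroup.mem_centralizer_singleton_iff.mp z.2
    rw [Subgroup.mem_centralizer_singleton_iff]
    calc y⁻¹ * z.1 * y * g = y⁻¹ * (z.1 * (y * g * y⁻¹)) * y := by group
      _ = y⁻¹ * ((y * g * y⁻¹) * z.1) * y := by rw [this]
      _ = _ := by group

/-- Let P be a p-subgroup of the finite group G, C its centralizer and N its normalizer. Say that a conjugacy class (of G, or of N) has defect group P when P is a Sylow p-subgroup of the centralizer (in G, respectively in N) of some element of the class. Then: (i) if the class of g in G has defect group P, the elements of that class lying in C form a single N-class, again with defect group P; (ii) every N-class with defect group P arises this way from exactly one G-class with defect group P. -/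
theorem result {G : Type*} [Group G] [Finite G] (p : ℕ) [Fact p.Prime] (P : Subgroup G) (hP : IsPGroup p P) : (∀ g : G, (∃ S : Sylow p (Subgroup.centralizer ({g} : Set G)), (S : Subgroup (Subgroup.centralizer ({g} : Set G))).map (Subgroup.centralizer ({g} : Set G)).subtype = P) → (∃ c : G, IsConj g c ∧ c ∈ Subgroup.centralizer (P : Set G)) ∧ (∀ c₁ c₂ : G, IsConj g c₁ → IsConj g c₂ → c₁ ∈ Subgroup.centralizer (P : Set G) → c₂ ∈ Subgroup.centralizer (P : Set G) → ∃ n ∈ Subgroup.normalizer (P : Set G), n * c₁ * n⁻¹ = c₂)) ∧ (∀ c : G, c ∈ Subgroup.centralizer (P : Set G) → (∃ S : Sylow p (Subgroup.centralizer ({c} : Set G) ⊓ Subgroup.normalizer (P : Set G) : Subgroup G), (S : Subgroup ↥(Subgroup.centralizer ({c} : Set G) ⊓ Subgroup.normalizer (P : Set G))).map (Subgroup.centralizer ({c} : Set G) ⊓ Subgroup.normalizer (P : Set G)).subtype = P) → ∃ S : Sylow p (Subgroup.centralizer ({c} : Set G)), (S : Subgroup (Subgroup.centralizer ({c} : Set G))).map (Subgroup.centralizer ({c} : Set G)).subtype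 = P) := by
  classical
  have hle : ∀ c : G, c ∈ Subgroup.centralizer (P : Set G) →
      P ≤ Subgroup.centralizer ({c} : Set G) := fun c hc x hx => by
    rw [Subgroup.mem_centralizer_singleton_iff]
    exact (Subgroup.mem_centralizer_iff.mp hc) x hx
  refine ⟨fun g hg => ⟨⟨g, IsConj.refl g, ?_⟩, fun c₁ c₂ h₁ h₂ hc₁ hc₂ => ?_⟩, fun c hc hS => ?_⟩
  · rw [Subgroup.mem_centralizer_iff]
    intro x hx
    exact Subgroup.mem_centralizer_singleton_iff.mp (((sylowIn_iff p P _).mp hg).1 hx)
  · have hcard := card_of_sylowIn p hg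
    obtain ⟨y, hy⟩ := isConj_iff.mp (h₁.symm.trans h₂)
    have hS2 := sylowIn_of_card p (hle c₂ hc₂) (by rw [hcard, card_centralizer_conj h₂])
    have hS1 : ∃ S : Sylow p (Subgroup.centralizer ({c₂} : Set G)),
        (S : Subgroup _).map (Subgroup.centralizer ({c₂} : Set G)).subtype =
          P.map (MulAut.conj y).toMonoidHom := by
      refine sylowIn_of_card p ?_ ?_
      · rintro _ ⟨x, hx, rfl⟩
        have := Subgroup.mem_centralizer_singleton_iff.mp (hle c₁ hc₁ hx)
        rw [Subgroup.mem_centralizer_singleton_iff, ← hy]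
        change y * x * y⁻¹ * _ = _ * (y * x * y⁻¹)
        calc y * x * y⁻¹ * (y * c₁ * y⁻¹) = y * (x * c₁) * y⁻¹ := by group
          _ = y * (c₁ * x) * y⁻¹ := by rw [this]
          _ = _ := by group
      · rw [Subgroup.card_map_of_injective (MulAut.conj y).injective, hcard,
          card_centralizer_conj h₂]
    obtain ⟨z, hz, hzz⟩ := sylowIn_conj p hS1 hS2
    refine ⟨z * y, ?_, ?_⟩
    · rw [Subgroup.mem_normalizer_iff]
      intro x
      have := hzz (y * x * y⁻¹)
      have e : z * (y * x * y⁻¹) * z⁻¹ = z * y * x * (z * y)⁻¹ := by group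
      rw [e] at this
      rw [← this]
      constructor
      · intro hx; exact ⟨x, hx, rfl⟩
      · rintro ⟨w, hw, hw'⟩
        have : w = x := (MulAut.conj y).injective hw'
        exact this ▸ hw
    · have := Subgroup.mem_centralizer_singleton_iff.mp hz
      calc z * y * c₁ * (z * y)⁻¹ = z * (y * c₁ * y⁻¹) * z⁻¹ := by group
        _ = c₂ := by rw [hy, this]; simp
  · rw [sylowIn_iff] at hS ⊢
    refine ⟨hle c hc, hP, fun Q hQ hQp hPQ => ?_⟩
    by_contra hne
    have hlt : P.subgroupOf Q < ⊤ := by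
      rw [lt_top_iff_ne_top, Ne, Subgroup.subgroupOf_eq_top]
      exact fun h => hne (le_antisymm h hPQ)
    have := hQp.isNilpotent
    have hN := Group.normalizerCondition_of_isNilpotent (G := Q) _ hlt
    obtain ⟨x, hxN, hxP⟩ := SetLike.exists_of_lt hN
    have key := hS.2.2 (Q ⊓ Subgroup.normalizer (P : Set G)) (inf_le_inf_right _ hQ)
      (hQp.to_le inf_le_left) (le_inf hPQ Subgroup.le_normalizer)
    apply hxP
    rw [Subgroup.mem_subgroupOf, ← key]
    refine ⟨x.2, ?_⟩
    rw [Subgroup.mem_normalizer_iff] at hxN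
    change (x : G) ∈ Subgroup.normalizer (P : Set G)
    rw [Subgroup.mem_normalizer_iff]
    intro h
    by_cases hh : h ∈ Q
    · exact hxN ⟨h, hh⟩
    · constructor
      · intro h'; exact absurd (hPQ h') hh
      · intro h'
        exfalso; apply hh
        have := Q.mul_mem (Q.mul_mem (Q.inv_mem x.2) (hPQ h')) x.2
        simpa [mul_assoc] using this

end Cfsg.Agent.S0916
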