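import Cfsg.Statements.S0918
import Mathlib
import Cfsg.Agent.BLK.Dict

set_option autoImplicit false
open Cfsg

namespace Cfsg.Agent.S0918

open CL CL.Blk CL.Char MonoidAlgebra
open scoped CL.MSS

/-- Let P be a p-subgroup of the finite group G and H a subgroup with P·C_G(P) ≤ H ≤ N_G(P); let b be a block of H and B a block of G relative to a maximal ideal M of the algebraic integers containing p. Then b induces B if and only if, for every g ∈ G, every ξ ∈ b and every χ ∈ B, the central character of χ at g is congruent modulo the local ideal at M to the sum of ξ h / ξ 1 over the elements h of H conjugate in G to g and centralizing P. -/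
theorem result {G : Type*} [Group G] [Finite G] (p : ℕ) [Fact p.Prime] (M : Ideal Cfsg.AlgInt) (hM : Cfsg.IsPModular p M) (P H : Subgroup G) (hP : IsPGroup p P) (hPH : P ≤ H) (hCH : Subgroup.centralizer (P : Set G) ≤ H) (hHN : H ≤ Subgroup.normalizer (P : Set G)) (b : Set (Cfsg.IrrCharacter H)) (hb : Cfsg.IsPBlock M b) (B : Set (Cfsg.IrrCharacter G)) (hB : Cfsg.IsPBlock M B) : Cfsg.IsInducedBlock M H b B ↔ ∀ ξ ∈ b, ∀ χ ∈ B, ∀ g : G, Cfsg.MemLocalIdeal M (Cfsg.brauerCentralChar P H (ξ : H → ℂ) g - Cfsg.centralChar (χ : G → ℂ) g) := by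
  have hc : ∀ g : G, IsCentral (res H.subtype (trunc (Subgroup.centralizer (P : Set G) : Set G)
      (classSum ℂ g))) := fun g =>
    (((isCentral_classSum g).isFixed H).trunc_centralizer hHN).isCentral_res _ fun x => x.2
  have key : ∀ (ξ : IrrCharacter H) (χ : IrrCharacter G) (g : G),
      MemLocalIdeal M (brauerCentralChar P H (ξ : H → ℂ) g - centralChar (χ : G → ℂ) g) ↔
      MemLocalIdeal M (inducedCentralChar H (ξ : H → ℂ) g - centralChar (χ : G → ℂ) g) := by
    intro ξ χ g
    rw [brauerCentralChar_eq, inducedCentralChar_eq, ← omega_classSum χ.2.isClassFunction g,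
      memLocalIdeal_omega_sub_iff hM ξ χ (hc g) (((isInt_classSum g).trunc _).res _)
        (((isAlgc_classSum g).trunc _).res _) (isCentral_classSum g) (isInt_classSum g)
        (isAlgc_classSum g),
      memLocalIdeal_omega_sub_iff hM ξ χ ((isCentral_classSum g).res _) ((isInt_classSum g).res _)
        ((isAlgc_classSum g).res _) (isCentral_classSum g) (isInt_classSum g)
        (isAlgc_classSum g), redA_res, redA_res, redA_trunc, redA_classSum,
      (isCChar_lam ξ).map_res_trunc hM.1 (natCast_F hM) hP H.subtype_injective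
        (by rwa [Subgroup.range_subtype]) (by rwa [Subgroup.range_subtype])
        ((isCentral_classSum g).isFixed _)]
  simp only [key]
  exact ⟨fun h => h.2.2, fun h => ⟨hb, hB, h⟩⟩

end Cfsg.Agent.S0918
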