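import Cfsg.Statements.S0920
import Mathlib
import Cfsg.Agent.BLK.Dict

set_option autoImplicit false
open Cfsg

namespace Cfsg.Agent.S0920

open CL CL.Blk CL.Char MonoidAlgebra
open scoped CL.MSS

/-- Brauer's First Main Theorem. Let D be a p-subgroup of the finite group G with normalizer N, and fix a maximal ideal M of the algebraic integers containing p. Then (i) every block b of N having D as a defect group induces some block B of G having D as a defect group; (ii) every block of G with defect group D is induced by exactly one block of N with defect group D. -/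
theorem result {G : Type*} [Group G] [Finite G] (p : ℕ) [Fact p.Prime] (M : Ideal Cfsg.AlgInt) (hM : Cfsg.IsPModular p M) (D : Subgroup G) (hD : IsPGroup p D) : (∀ b : Set (Cfsg.IrrCharacter (Subgroup.normalizer (D : Set G))), Cfsg.IsPBlock M b → Cfsg.IsDefectGroup p M b (D.subgroupOf (Subgroup.normalizer (D : Set G))) → ∃ B : Set (Cfsg.IrrCharacter G), Cfsg.IsPBlock M B ∧ Cfsg.IsDefectGroup p M B D ∧ Cfsg.IsInducedBlock M (Subgroup.normalizer (D : Set G)) b B) ∧ (∀ B : Set (Cfsg.IrrCharacter G), Cfsg.IsPBlock M B → Cfsg.IsDefectGroup p M B D → ∃! b : Set (Cfsg.IrrCharacter (Subgroup.normalizer (D : Set G))), Cfsg.IsPBlock M b ∧ Cfsg.IsDefectGroup p M b (D.subgroupOf (Subgroup.normalizer (D : Set G))) ∧ Cfsg.IsInducedBlock M (Subgroup.normalizer (D : Set G)) b B) := by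
  have hinj := (Subgroup.normalizer (D : Set G)).subtype_injective
  have hr := Subgroup.range_subtype (Subgroup.normalizer (D : Set G))
  constructor
  · intro b hb hbD
    obtain ⟨B, hB⟩ := inducedBlockDefined_of_local hM hD Subgroup.le_normalizer
      (Subgroup.centralizer_le_normalizer _) le_rfl hb
    exact ⟨B, hB.2.1, (isDefectGroup_iff hM hB.2.1).2 (first_main_isDef hM.1 (natCast_F hM) hinj hr
      hD (isBlk_eB hM hb) (hbD.isDef hM hb) (isBlk_eB hM hB.2.1) (hB.indAlong hM)), hB⟩
  · intro B hB hBD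
    obtain ⟨b, μ, hb, hbD, hi⟩ := first_main_surj hM.1 (natCast_F hM) hinj
      (by rw [hr]; exact Subgroup.le_normalizer)
      (by rw [hr]; exact Subgroup.centralizer_le_normalizer _) hr.le (isBlk_eB hM hB)
      (hBD.isDef hM hB)
    obtain ⟨c, hc, rfl, hi'⟩ := exists_block_of_indAlong hM hb hi
    refine ⟨c, ⟨hc, (isDefectGroup_iff hM hc).2 hbD, (isInducedBlock_iff hM).2 ⟨hc, hB, hi'⟩⟩, ?_⟩
    rintro c' ⟨hc', -, hi''⟩
    exact (eq_of_eB_eq hM hc hc' (first_main_inj hM.1 (natCast_F hM) hinj hr hD (isBlk_eB hM hc)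
      hbD (isBlk_eB hM hc') hi' (hi''.indAlong hM))).symm

end Cfsg.Agent.S0920
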