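import Cfsg.Statements.S0926
import Mathlib
import Cfsg.Agent.BLK.Section2

set_option autoImplicit false
open Cfsg

namespace Cfsg.Agent.S0926

open CL.Blk

/-- Let B be a block of the finite group G with defect group D (relative to a maximal ideal M of the algebraic integers containing p), let χ ∈ B have height zero, and let x be a p-element. Then some conjugate of x lies in D if and only if χ does not vanish on the whole p-section of x (the elements whose p-part is conjugate to x). -/
theorem result {G : Type*} [Group G] [Finite G] (p : ℕ) [Fact p.Prime] (M : Ideal Cfsg.AlgInt) (hM : Cfsg.IsPModular p M) (B : Set (Cfsg.IrrCharacter G)) (hB : Cfsg.IsPBlock M B) (D : Subgroup G) (hD : Cfsg.IsDefectGroup p M B D) (χ : Cfsg.IrrCharacter G) (hχ : χ ∈ B) (h0 : Cfsg.blockHeight p B (χ : G → ℂ) = 0) (x : G) (hx : ∃ k : ℕ, orderOf x = p ^ k) : (∃ g : G, g * x * g⁻¹ ∈ D) ↔ ∃ u : G, (∃ z : G, Cfsg.IsPPart p u z ∧ IsConj x z) ∧ (χ : G → ℂ) u ≠ 0 := by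
  constructor
  · intro h
    obtain ⟨b, hb⟩ := exists_isInducedBlock_of_brNe hM hx rfl hB ((brNe_zpowers_iff hM hx hB hD).2 h)
    obtain ⟨y, hy, hne⟩ := hb.exists_blockPart_sh_ne_zero hM (isSec_centralizer hx) hχ h0
    by_contra hc
    push Not at hc
    apply hne
    rw [blockPart_congr_pReg hM ((isBlockUnion_of_block hM hb.1).isInt hM) (ϑ' := 0) ?_ hy,
      blockPart_zero]
    · rfl
    · intro g hg
      exact hc _ ⟨x, (isSec_centralizer hx).isPPart hg, IsConj.refl x⟩
  · rintro ⟨u, ⟨z, hz, hc⟩, hne⟩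
    by_contra hcon
    push Not at hcon
    obtain ⟨c, rfl⟩ := isConj_iff.1 hc
    refine hne (irr_eq_zero_of_not_conj_mem hM hB hD hχ hz fun v => ?_)
    have := hcon (v * c)
    simpa [mul_assoc] using this

end Cfsg.Agent.S0926
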