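import Cfsg.Statements.S0927
import Mathlib
import Cfsg.Agent.BLK.DefZero

set_option autoImplicit false
open Cfsg

namespace Cfsg.Agent.S0927

open CL.Blk Cfsg

theorem aux {G : Type*} [Group G] [Finite G] {p : ℕ} {M : Ideal Cfsg.AlgInt} (hM : Cfsg.IsPModular p M)
    {B : Set (Cfsg.IrrCharacter G)} {χ : IrrCharacter G} (hχ : χ ∈ B)
    (h0 : blockHeight p B χ.1 = 0) {g : G}
    (hg : (Nat.card (Subgroup.centralizer ({g} : Set G))).factorization p = blockDefect p B) :
    centralChar χ.1 g ∈ (V M).nonunits ↔ χ.1 g ∈ (V M).nonunits := by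
  have h1 := factorization_card_centralizer_add p g
  have h2 := minVal_add_blockDefect p ⟨χ, hχ⟩
  have h3 := (blockHeight_eq_zero_iff hχ).1 h0
  have hi : (Subgroup.centralizer ({g} : Set G)).index ≠ 0 := Subgroup.index_ne_zero_of_finite
  rw [centralChar, mul_div_right_comm, irr_one_eq]
  refine unit_mul_mem_nonunits_iff ?_ ?_
  · rw [natCast_div_mem_V_iff hM hi (charDegree_ne_zero χ)]; omega
  · rw [natCast_div_mem_nonunits_iff hM hi (charDegree_ne_zero χ)]; omega

/-- Let B be a block of the finite group G relative to a maximal ideal M of the algebraic integers containing p, let y represent a defect class of B and let P be a Sylow p-subgroup of the centralizer of y. (a) If x ∈ P and χ ∈ B has height zero, then χ (x * y) is not in the local ideal at M. (b) If x lies in the centre of P, then for every χ ∈ B the central character of χ at x * y is not in the local ideal at M. -/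
theorem result {G : Type*} [Group G] [Finite G] (p : ℕ) [Fact p.Prime] (M : Ideal Cfsg.AlgInt) (hM : Cfsg.IsPModular p M) (B : Set (Cfsg.IrrCharacter G)) (hB : Cfsg.IsPBlock M B) (y : G) (hy : Cfsg.IsDefectClass M B y) (P : Sylow p (Subgroup.centralizer ({y} : Set G))) (x : Subgroup.centralizer ({y} : Set G)) (hx : x ∈ (P : Subgroup (Subgroup.centralizer ({y} : Set G)))) : (∀ χ ∈ B, Cfsg.blockHeight p B (χ : G → ℂ) = 0 → ¬ Cfsg.MemLocalIdeal M ((χ : G → ℂ) ((x : G) * y))) ∧ ((∀ w ∈ (P : Subgroup (Subgroup.centralizer ({y} : Set G))), x * w = w * x) → ∀ χ ∈ B, ¬ Cfsg.MemLocalIdeal M (Cfsg.centralChar (χ : G → ℂ) ((x : G) * y))) := by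
  have hp : p.Prime := Fact.out
  have hy' := (isDefectClass_iff hM hB y).1 hy
  have hyr := not_dvd_orderOf_of_coeff_eB hM hB hy'.1
  have hxp : ∃ k, orderOf (x : G) = p ^ k := by
    rw [Subgroup.orderOf_coe]; exact pElt_of_mem_isPGroup hp P.isPGroup' hx
  have hc : Commute (x : G) y := Subgroup.mem_centralizer_singleton_iff.1 x.2
  have hpp := isPPart_mul hc hxp hyr
  have h1 : ∀ χ ∈ B, Cfsg.blockHeight p B (χ : G → ℂ) = 0 →
      (χ : G → ℂ) ((x : G) * y) ∉ (V M).nonunits := by
    intro χ hχ h0
    have h2 := (χ.2.isCharacter.memLocalIdeal_sub_regular hM hpp).mem_nonunits hM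
    rw [inv_mul_cancel_left] at h2
    rw [mem_nonunits_iff_of_sub h2, ← aux hM hχ h0 (hy.factorization_eq hM hB),
      ← red_eq_zero_iff (centralChar_mem_V χ y), ← lamB_classSum hM hB hχ]
    exact hy'.2
  refine ⟨fun χ hχ h0 h => h1 χ hχ h0 (h.mem_nonunits hM), fun hZ χ hχ h => ?_⟩
  obtain ⟨ψ, hψ, h0⟩ := exists_height_zero p ⟨χ, hχ⟩
  have h2 := (sameBlock_iff hM χ ψ).1 (sameBlock_of_mem hM hB hχ hψ) ((x : G) * y)
  have h3 := h.mem_nonunits hM
  rw [mem_nonunits_iff_of_sub h2, aux hM hψ h0] at h3
  · exact h1 ψ hψ h0 h3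
  · rw [← hy.factorization_eq hM hB]
    have hle : Subgroup.centralizer ({(x : G) * y} : Set G) ≤ Subgroup.centralizer ({y} : Set G) := by
      intro c hc'
      rw [Subgroup.mem_centralizer_singleton_iff] at hc' ⊢
      have h4 : Commute ((x : G) * y) c := hc'.symm
      have h5 := hpp.commute_of_commute hp h4
      have h6 : Commute ((x : G)⁻¹ * ((x : G) * y)) c := h5.inv_left.mul_left h4
      rw [inv_mul_cancel_left] at h6
      exact h6.symm
    have hge : (P : Subgroup (Subgroup.centralizer ({y} : Set G))).map (Subgroup.subtype _) ≤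
        Subgroup.centralizer ({(x : G) * y} : Set G) := by
      rintro _ ⟨w, hw, rfl⟩
      rw [Subgroup.mem_centralizer_singleton_iff]
      have h4 : Commute (w : G) (x : G) := congrArg Subtype.val (hZ w hw).symm
      have h5 : Commute (w : G) y := Subgroup.mem_centralizer_singleton_iff.1 w.2
      exact h4.mul_right h5
    apply le_antisymm
    · exact (Nat.factorization_le_iff_dvd Nat.card_pos.ne' Nat.card_pos.ne').2
        (Subgroup.card_dvd_of_le hle) p
    · have h4 := Subgroup.card_dvd_of_le hge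
      rw [Subgroup.card_map_of_injective (Subgroup.subtype_injective _), P.card_eq_multiplicity] at h4
      exact (hp.pow_dvd_iff_le_factorization Nat.card_pos.ne').1 h4

end Cfsg.Agent.S0927
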