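import Cfsg.Statements.S0929
import Mathlib
import Cfsg.Agent.BLK.DefZero

set_option autoImplicit false
open Cfsg

namespace Cfsg.Agent.S0929

open CL.Blk

/-- Let B be a block of the finite group G with defect group P (relative to a maximal ideal M of the algebraic integers containing p), and let g be an element at which the central character of some member of B is not in the local ideal at M. Then some conjugate x of g centralizes P and has its p-part in the centre of P. -/
theorem result {G : Type*} [Group G] [Finite G] (p : ℕ) [Fact p.Prime] (M : Ideal Cfsg.AlgInt) (hM : Cfsg.IsPModular p M) (B : Set (Cfsg.IrrCharacter G)) (hB : Cfsg.IsPBlock M B) (P : Subgroup G) (hP : Cfsg.IsDefectGroup p M B P) (g : G) (hg : ∃ χ ∈ B, ¬ Cfsg.MemLocalIdeal M (Cfsg.centralChar (χ : G → ℂ) g)) : ∃ x : G, IsConj g x ∧ x ∈ Subgroup.centralizer (P : Set G) ∧ ∀ z : G, Cfsg.IsPPart p x z → z ∈ P ∧ ∀ w ∈ P, z * w = w * z := by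
  classical
  have hp : p.Prime := Fact.out
  obtain ⟨χ, hχ, hg⟩ := hg
  have hg1 : lamB M B (classSum (F M) g) ≠ 0 := by
    rw [lamB_eq hM hB hχ]
    exact fun h => hg ((memLocalIdeal_centralChar_iff hM χ g).2 h)
  have hD := hP.isDef hM hB
  set N := Subgroup.normalizer (P : Set G) with hN
  have hPN : P ≤ N.subtype.range := by rw [Subgroup.range_subtype]; exact Subgroup.le_normalizer
  have hNN : N.subtype.range ≤ Subgroup.normalizer (P : Set G) := by
    rw [Subgroup.range_subtype]
  obtain ⟨b, μ, hb, hbD, hi⟩ := first_main_surj hp (natCast_F hM) N.subtype_injective hPN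
    (by rw [Subgroup.range_subtype]; exact Subgroup.centralizer_le_normalizer _) hNN
    (isBlk_eB hM hB) hD
  obtain ⟨c, hc, rfl, hi'⟩ := exists_block_of_indAlong hM hb hi
  have h1 := hi' _ (isCentral_classSum g)
  rw [← (isCChar_lamB hM hc).map_res_trunc hp (natCast_F hM) hP.isPGroup N.subtype_injective hPN
    hNN ((isCentral_classSum g).isFixed _)] at h1
  have h2 : IsCentral (res N.subtype (trunc (Subgroup.centralizer (P : Set G) : Set G)
      (classSum (F M) g))) :=
    (((isCentral_classSum g).isFixed N).trunc_centralizer le_rfl).isCentral_res _ fun h => h.2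
  obtain ⟨h, hh1, hh2⟩ := h2.exists_classSum_ne_zero (lamB M c) (h1 ▸ hg1)
  rw [coeff_res, coeff_trunc, coeff_classSum] at hh1
  have hh3 : (h : G) ∈ Subgroup.centralizer (P : Set G) := by
    by_contra hn
    exact hh1 (if_neg hn)
  have hh4 : IsConj g (h : G) := by
    by_contra hn
    exact hh1 (by rw [if_neg (show ¬ IsConj g (N.subtype h) from hn), ite_self])
  refine ⟨h, hh4, hh3, fun z hz => ⟨?_, fun w hw => ?_⟩⟩
  · obtain ⟨ψ, hψ⟩ := block_nonempty hM hc
    have hzN : z ∈ N := hz.mem hp h.2
    have hz' : Cfsg.IsPPart p h ⟨z, hzN⟩ := isPPart_coe_iff.1 hz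
    by_contra hzP
    apply hh2
    rw [lamB_classSum hM hc hψ, Cfsg.centralChar,
      irr_eq_zero_of_not_conj_mem hM hc ((isDefectGroup_iff hM hc).2 hbD) hψ hz', mul_zero,
      zero_div, red_zero]
    intro u hu
    apply hzP
    have := (Subgroup.mem_normalizer_iff.1 u.2 z).2 hu
    exact this
  · exact (hz.commute_of_commute hp (Subgroup.mem_centralizer_iff.1 hh3 w hw).symm).eq

end Cfsg.Agent.S0929
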