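import Cfsg.Statements.S0930
import Cfsg.Agent.S0927
import Cfsg.Agent.S0929
import Cfsg.Agent.BLK.QuotP
import Cfsg.Agent.BLK.IndTilde
-- import your own Cfsg.Agent.* helpers here

set_option autoImplicit false
open Cfsg

namespace Cfsg.Agent.S0930

/-- Let H be a subgroup of the finite group G and fix a maximal ideal M of the algebraic integers containing the prime p. If the block b of H with defect group D induces the block B of G with defect group P, then every element of the centre of P is conjugate in G to an element of the centre of D. -/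
theorem result {G : Type*} [Group G] [Finite G] (p : ℕ) [Fact p.Prime] (M : Ideal Cfsg.AlgInt) (hM : Cfsg.IsPModular p M) (H : Subgroup G) (b : Set (Cfsg.IrrCharacter H)) (B : Set (Cfsg.IrrCharacter G)) (hind : Cfsg.IsInducedBlock M H b B) (D : Subgroup H) (hD : Cfsg.IsDefectGroup p M b D) (P : Subgroup G) (hP : Cfsg.IsDefectGroup p M B P) (x : G) (hx : x ∈ P) (hxc : ∀ w ∈ P, x * w = w * x) : ∃ g : G, g * x * g⁻¹ ∈ D.map H.subtype ∧ ∀ w ∈ D.map H.subtype, (g * x * g⁻¹) * w = w * (g * x * g⁻¹) := by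
  classical
  have hp := hM.1
  have := Fintype.ofFinite G
  have := Fintype.ofFinite (ConjClasses H)
  obtain ⟨y, hy, Q, rfl⟩ := hP
  obtain ⟨x, hxQ, rfl⟩ := hx
  have hyr : ¬ p ∣ orderOf y := fun h => hy.2.1 (by
    rw [CL.Blk.blockCoeff_eq_zero_of_sing hM hind.2.1 h]; exact CL.Blk.memLocalIdeal_zero hM)
  obtain ⟨χ, hχ⟩ := CL.Blk.block_nonempty hM hind.2.1
  obtain ⟨ξ, hξ⟩ := CL.Blk.block_nonempty hM hind.1
  have h1 := (Cfsg.Agent.S0927.result p M hM B hind.2.1 y hy Q x hxQ).2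
    (fun w hw => Subtype.ext (hxc w ⟨w, hw, rfl⟩)) χ hχ
  rw [CL.Blk.memLocalIdeal_iff_of_alg hM
    (CL.Blk.isAlgebraic_of_isIntegral (CL.Blk.centralChar_isIntegral χ _)),
    ← CL.Blk.mem_nonunits_iff_of_sub (hind.sub_mem hM hξ hχ _), CL.Blk.inducedCentralChar_eq_sum,
    CL.Blk.sum_mul_div_eq (@CL.Blk.isClassFunction_res_indicator _ _ H ((x : G) * y)
      (fun _ => Classical.propDecidable _)) ξ.2.isClassFunction] at h1
  obtain ⟨h, hh, h2⟩ : ∃ h : H, IsConj ((x : G) * y) (h : G) ∧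
      centralChar ξ.1 h ∉ (CL.Blk.V M).nonunits := by
    by_contra hne
    push Not at hne
    refine h1 (sum_mem fun C _ => ?_)
    split_ifs with hC
    · rw [one_mul]; exact hne _ hC
    · rw [zero_mul]; exact zero_mem _
  obtain ⟨h', hc, -, h3⟩ := Cfsg.Agent.S0929.result p M hM b hind.1 D hD h
    ⟨ξ, hξ, fun h' => h2 (h'.mem_nonunits hM)⟩
  obtain ⟨z, hz⟩ := CL.Blk.exists_isPPart hp h'
  obtain ⟨hzD, hzc⟩ := h3 z hz
  have hxp : IsPPart p ((x : G) * y) x := CL.Blk.isPPart_mul (Subgroup.mem_centralizer_singleton_iff.1 x.2)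
    (by rw [Subgroup.orderOf_coe]; exact CL.Blk.pElt_of_mem_isPGroup hp Q.isPGroup' hxQ) hyr
  obtain ⟨g, hg⟩ := isConj_iff.1 (hxp.isConj hp (CL.Blk.isPPart_coe_iff.2 hz)
    (hh.trans (H.subtype.map_isConj hc)))
  refine ⟨g, ?_, ?_⟩
  · change g * (x : G) * g⁻¹ ∈ _
    rw [hg]; exact ⟨z, hzD, rfl⟩
  · rintro _ ⟨w, hw, rfl⟩
    change g * (x : G) * g⁻¹ * (w : G) = w * (g * (x : G) * g⁻¹)
    rw [hg]; exact congrArg Subtype.val (hzc w hw)

end Cfsg.Agent.S0930
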