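import Cfsg.Statements.S0931
import Cfsg.Agent.S0930
import Cfsg.Agent.BLK.DefCard
-- import your own Cfsg.Agent.* helpers here

set_option autoImplicit false
open Cfsg

namespace Cfsg.Agent.S0931

/-- Let H be a subgroup of the finite group G and fix a maximal ideal M of the algebraic integers containing the prime p. If the block b of H induces the block B of G, then b has defect 0 if and only if B has defect 0. -/
theorem result {G : Type*} [Group G] [Finite G] (p : ℕ) [Fact p.Prime] (M : Ideal Cfsg.AlgInt) (hM : Cfsg.IsPModular p M) (H : Subgroup G) (b : Set (Cfsg.IrrCharacter H)) (B : Set (Cfsg.IrrCharacter G)) (hind : Cfsg.IsInducedBlock M H b B) : Cfsg.blockDefect p b = 0 ↔ Cfsg.blockDefect p B = 0 := by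
  have hp := hM.1
  obtain ⟨D, hD⟩ := CL.Blk.exists_isDefectGroup hM hind.1
  obtain ⟨E, hE, hDE⟩ := hind.exists_isDefectGroup_ge hM hD
  have h1 := hD.card_eq_pow hM hind.1
  have h2 := hE.card_eq_pow hM hind.2.1
  constructor
  · intro h
    rw [h, pow_zero, Subgroup.card_eq_one] at h1
    by_contra hne
    have : Nontrivial E := Finite.one_lt_card_iff_nontrivial.1 (h2 ▸ Nat.one_lt_pow hne hp.one_lt)
    have := hE.isPGroup.center_nontrivial
    obtain ⟨⟨z, hz⟩, hz1⟩ := exists_ne (1 : Subgroup.center E)
    obtain ⟨g, hg, -⟩ := Cfsg.Agent.S0930.result p M hM H b B hind D hD E hE z z.2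
      fun w hw => (congrArg Subtype.val (Subgroup.mem_center_iff.1 hz ⟨w, hw⟩)).symm
    rw [h1, Subgroup.map_bot, Subgroup.mem_bot, conj_eq_one_iff] at hg
    exact hz1 (Subtype.ext (Subtype.ext hg))
  · intro h
    rw [h, pow_zero, Subgroup.card_eq_one] at h2
    rw [h2, le_bot_iff, Subgroup.map_eq_bot_iff_of_injective _ H.subtype_injective] at hDE
    rw [hDE, Subgroup.card_bot] at h1
    exact (Nat.pow_eq_one.1 h1.symm).resolve_left hp.one_lt.ne'

end Cfsg.Agent.S0931
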