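import Cfsg.Statements.S0932
import Mathlib.Algebra.BigOperators.Field
-- import your own Cfsg.Agent.* helpers here

set_option autoImplicit false
open Cfsg

namespace Cfsg.Agent.S0932

open Classical in
theorem card_fiber_conj {G : Type*} [Group G] [Fintype G] (g y : G) (h : IsConj g y) :
    (Finset.univ.filter (fun x : G => x⁻¹ * g * x = y)).card =
      Nat.card (Subgroup.centralizer ({g} : Set G)) := by
  obtain ⟨c, hc⟩ := isConj_iff.mp h
  rw [← Fintype.card_subtype, ← Nat.card_eq_fintype_card]
  refine Nat.card_congr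
    { toFun := fun x => ⟨x.1 * c, ?_⟩
      invFun := fun z => ⟨z.1 * c⁻¹, ?_⟩
      left_inv := fun x => by simp
      right_inv := fun z => by simp }
  · rw [Subgroup.mem_centralizer_singleton_iff]
    have := x.2.trans hc.symm
    calc x.1 * c * g = x.1 * (c * g * c⁻¹) * c := by group
      _ = x.1 * (x.1⁻¹ * g * x.1) * c := by rw [this]
      _ = g * (x.1 * c) := by group
  · have := Subgroup.mem_centralizer_singleton_iff.mp z.2
    rw [← hc]
    calc (z.1 * c⁻¹)⁻¹ * g * (z.1 * c⁻¹) = c * z.1⁻¹ * (g * z.1) * c⁻¹ := by group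
      _ = c * z.1⁻¹ * (z.1 * g) * c⁻¹ := by rw [this]
      _ = c * g * c⁻¹ := by group

open Classical in
theorem sum_conj {G : Type*} [Group G] [Fintype G] (f : G → ℂ) (g : G) :
    ∑ x : G, f (x⁻¹ * g * x) = (Nat.card (Subgroup.centralizer ({g} : Set G)) : ℂ) *
      ∑ y ∈ Finset.univ.filter (fun y : G => IsConj g y), f y := by
  rw [← Finset.sum_fiberwise_of_maps_to (s := Finset.univ)
    (t := Finset.univ.filter (fun y : G => IsConj g y)) (g := fun x : G => x⁻¹ * g * x)
    (fun x _ => by
      simp only [Finset.mem_filter, Finset.mem_univ, true_and]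
      exact isConj_iff.mpr ⟨x⁻¹, by simp⟩), Finset.mul_sum]
  refine Finset.sum_congr rfl fun y hy => ?_
  rw [Finset.sum_congr rfl (g := fun _ => f y) (fun x hx => by rw [(Finset.mem_filter.mp hx).2]),
    Finset.sum_const, card_fiber_conj g y (Finset.mem_filter.mp hy).2, nsmul_eq_mul]

/-- Let H be a subgroup of the finite group G and ξ a character of H. For every g ∈ G, the sum of ξ h / ξ 1 over the elements h ∈ H that are conjugate in G to g equals the central character at g of the character of G induced from ξ (class size times value divided by degree). -/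
theorem result {G : Type*} [Group G] [Fintype G] (H : Subgroup G) (ξ : H → ℂ) (hξ : Cfsg.IsCharacter H ξ) (g : G) : Cfsg.inducedCentralChar H ξ g = Cfsg.centralChar (Cfsg.indFun H ξ) g := by
  classical
  have hext : ∀ h : H, Cfsg.extendByZero H ξ h = ξ h := fun h =>
    Subtype.val_injective.extend_apply _ _ h
  have hext0 : ∀ y : G, y ∉ H → Cfsg.extendByZero H ξ y = 0 := fun y hy => by
    unfold Cfsg.extendByZero
    rw [Function.extend_apply' _ _ _ (by rintro ⟨a, rfl⟩; exact hy a.2)]; rfl
  have hS : ∑ y ∈ Finset.univ.filter (fun y : G => IsConj g y), Cfsg.extendByZero H ξ y =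
      ∑ h ∈ Finset.univ.filter (fun h : H => IsConj g (h : G)), ξ h := by
    symm
    refine Finset.sum_of_injOn (fun h : H => (h : G)) Subtype.val_injective.injOn ?_ ?_ ?_
    · intro h hh; simpa using hh
    · intro y _ hy
      apply hext0
      intro hyH
      apply hy
      refine ⟨⟨y, hyH⟩, ?_, rfl⟩
      simpa using ‹y ∈ Finset.univ.filter (fun y : G => IsConj g y)›
    · intro h _; exact (hext h).symm
  have h1 : Cfsg.indFun H ξ 1 = (Nat.card H : ℂ)⁻¹ * ((Nat.card G : ℂ) * ξ 1) := by
    unfold Cfsg.indFun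
    have : ∀ x : G, Cfsg.extendByZero H ξ (x⁻¹ * 1 * x) = ξ 1 := fun x => by
      have := hext 1
      simpa using this
    simp only [this, Finset.sum_const, Finset.card_univ, nsmul_eq_mul, Nat.card_eq_fintype_card]
  have hL : Cfsg.inducedCentralChar H ξ g =
      (∑ h ∈ Finset.univ.filter (fun h : H => IsConj g (h : G)), ξ h) / ξ 1 := by
    unfold Cfsg.inducedCentralChar
    rw [Finset.sum_div, ← finsum_mem_coe_finset]
    congr 1
    ext h
    simp
  rw [hL]
  unfold Cfsg.centralChar
  rw [h1]
  unfold Cfsg.indFun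
  rw [sum_conj, hS]
  have hidx := Subgroup.card_mul_index (Subgroup.centralizer ({g} : Set G))
  have hG : (Nat.card G : ℂ) = (Nat.card (Subgroup.centralizer ({g} : Set G)) : ℂ) *
      ((Subgroup.centralizer ({g} : Set G)).index : ℂ) := by exact_mod_cast hidx.symm
  have hH : (Nat.card H : ℂ) ≠ 0 := by exact_mod_cast Nat.card_pos.ne'
  have hC : (Nat.card (Subgroup.centralizer ({g} : Set G)) : ℂ) ≠ 0 := by
    exact_mod_cast Nat.card_pos.ne'
  have hI : ((Subgroup.centralizer ({g} : Set G)).index : ℂ) ≠ 0 := by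
    exact_mod_cast Subgroup.FiniteIndex.index_ne_zero
  rw [hG]
  by_cases h0 : ξ 1 = 0
  · simp [h0]
  · field_simp

end Cfsg.Agent.S0932
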