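import Cfsg.Statements.S0940
import Cfsg.Agent.BLK.Princ
import Cfsg.Agent.BLK.Osima2
import Cfsg.Agent.BLK.FrobTrace
-- import your own Cfsg.Agent.* helpers here

set_option autoImplicit false
open Cfsg

namespace Cfsg.Agent.S0940

open CL.Blk MonoidAlgebra in
theorem key {G : Type*} [Group G] [Fintype G] {p : ℕ} {M : Ideal Cfsg.AlgInt} (hM : Cfsg.IsPModular p M)
    (g : G) (hg : ¬ p ∣ orderOf g) :
    (Nat.card {x : G // (∃ k : ℕ, orderOf x = p ^ k) ∧ ¬ p ∣ orderOf (x * g)} : F M) =
      (Nat.card {y : G // ¬ p ∣ orderOf y} : F M) * (eB M (principalBlock M G)).coeff g := by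
  classical
  have hp := hM.1
  have := charP_F hM
  have : Fact p.Prime := ⟨hp⟩
  have hB := isPBlock_principalBlock (M := M) (G := G)
  set e := eB M (principalBlock M G) with he
  set R : ℕ := Nat.card {y : G // ¬ p ∣ orderOf y} with hR
  let z : ℂ[G] := ofFun (pRegularPart p fun _ => 1)
  have hz : IsCentral z := isCentral_ofFun (isClassFunction_pRegularPart (CL.Char.isClassFunction_const 1))
  have hzi : IsInt M z := isInt_ofFun (pRegularPart_mem_V fun _ => one_mem _)
  have hn : IsNilpotent (redA M z - (R : F M) • e) := by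
    refine isNilpotent_of_lam hM (hz.redA.sub ((eB_isCentral _).smul _)) fun χ => ?_
    rw [map_sub, map_smul, lam_redA χ hz hzi, omega_apply, charLin_ofFun, ← regSum_eq_mul, he,
      lam_eB hM hB]
    split_ifs with h
    · rw [smul_eq_mul, mul_one, ← red_natCast, sub_eq_zero,
        red_eq_red_iff (regSum_div_mem_V χ) (natCast_mem _ _)]
      exact regSum_div_sub_mem hM h
    · rw [regSum_eq_zero_of_notMem hM h, zero_div, red_zero, smul_zero, sub_zero]
  obtain ⟨N, hN⟩ := hn
  set n := redA M z - (R : F M) • e with hn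
  have hnc : IsCentral n := hz.redA.sub ((eB_isCentral _).smul _)
  let k := (orderOf g).totient * (N + (Nat.card G).factorization p)
  have hk : N + (Nat.card G).factorization p ≤ k :=
    Nat.le_mul_of_pos_left _ (Nat.totient_pos.2 (orderOf_pos g))
  have hgk : g⁻¹ ^ p ^ k = g⁻¹ := by
    have h1 := (Nat.ModEq.pow_totient ((Nat.Prime.coprime_iff_not_dvd hp).2 hg)).pow
      (N + (Nat.card G).factorization p)
    rw [← pow_mul, one_pow] at h1
    rw [inv_pow, pow_eq_pow_iff_modEq.2 h1, pow_one]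
  let S : Set G := {x | ∃ j : ℕ, orderOf x = p ^ j}
  have hS : ∀ g h : G, h * g * h⁻¹ ∈ S ↔ g ∈ S := fun g h => by
    simp only [S, Set.mem_ofPred_eq, orderOf_conj']
  have hS1 : {x : G | x ^ p ^ k ∈ ({1} : Set G)} = S := by
    ext x
    simp only [Set.mem_ofPred_eq, Set.mem_singleton_iff]
    refine ⟨fun h => exists_orderOf_eq_pow_of_pow_eq_one hp h, fun ⟨j, hj⟩ => ?_⟩
    have : j ≤ (Nat.card G).factorization p :=
      (hp.pow_dvd_iff_le_factorization Nat.card_pos.ne').1 (hj ▸ orderOf_dvd_natCard x)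
    rw [← orderOf_dvd_iff_pow_eq_one, hj]
    exact pow_dvd_pow _ (by omega)
  have hS2 : {x : G | x ^ p ^ k ∈ S} = S := by
    ext x
    refine ⟨fun ⟨j, hj⟩ => exists_orderOf_eq_pow_of_pow_eq_one hp (k := k + j) ?_, fun h =>
      exists_orderOf_eq_pow_of_dvd hp h (orderOf_pow_dvd _)⟩
    rw [pow_add, pow_mul, ← hj, pow_orderOf_eq_one]
  have h1 : coeffSum S (n * single g⁻¹ 1) = 0 := by
    have := coeffSum_pow_pow hp k hS (n * single g⁻¹ 1)
    rw [hS2, (show Commute n (single g⁻¹ 1) from hnc.comm _).mul_pow,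
      pow_eq_zero_of_le (le_trans (by omega) (Nat.lt_pow_self hp.one_lt (n := k)).le) hN, zero_mul,
      coeffSum, tauL_zero] at this
    exact pow_eq_zero_iff (pow_ne_zero _ hp.ne_zero) |>.1 this.symm
  have h2 : (e * single g⁻¹ 1) ^ p ^ k = e * single g⁻¹ 1 := by
    rw [(show Commute e (single g⁻¹ 1) from (eB_isCentral _).comm _).mul_pow, single_pow, hgk, one_pow,
      IsIdempotentElem.pow_eq (eB_mul_self hM hB) (pow_ne_zero _ hp.ne_zero)]
  have h3 : coeffSum S (e * single g⁻¹ 1) = e.coeff g := by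
    have a1 := coeffSum_pow_pow hp k hS (e * single g⁻¹ 1)
    have a2 := coeffSum_pow_pow hp k (S := {1}) (fun g h => by simp) (e * single g⁻¹ 1)
    rw [hS2, h2] at a1
    rw [hS1, h2, ← a1, coeffSum_eq] at a2
    rw [← a2, Finset.sum_eq_single 1, coeff_mul_single', inv_inv, one_mul, mul_one]
    · intro x hx h; exact absurd (Finset.mem_filter.1 hx).2 h
    · simp
  rw [hn, sub_mul, smul_mul_assoc, coeffSum, tauL_sub, tauL_smul, sub_eq_zero] at h1
  change coeffSum S _ = _ * coeffSum S _ at h1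
  rw [h3, coeffSum_eq] at h1
  rw [← h1, Nat.card_eq_fintype_card, Fintype.card_subtype, Finset.card_filter, Finset.sum_filter,
    Nat.cast_sum]
  refine Finset.sum_congr rfl fun x _ => ?_
  rw [coeff_mul_single', coeff_redA, inv_inv, mul_one, coeff_ofFun, pRegularPart_apply]
  by_cases a1 : x ∈ S <;> by_cases a2 : p ∣ orderOf (x * g)
  · rw [if_neg (fun h => h.2 a2), if_pos a1, if_pos a2, red_zero, Nat.cast_zero]
  · rw [if_pos ⟨a1, a2⟩, if_pos a1, if_neg a2, red_one, Nat.cast_one]
  · rw [if_neg (fun h => h.2 a2), if_neg a1, Nat.cast_zero]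
  · rw [if_neg (fun h => a1 h.1), if_neg a1, Nat.cast_zero]

/-- Let G be a finite group and M a maximal ideal of the algebraic integers containing the prime p. For every p-regular g, the idempotent coefficient of the principal block at g (the inverse of the group order times the sum over χ in the principal block of χ 1 * conj (χ g)) is congruent modulo the local ideal at M to N / R, where N is the number of pairs (x, y) with x of p-power order, y of order prime to p and x * y = g, and R is the number of elements of G of order prime to p. -/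
theorem result {G : Type*} [Group G] [Finite G] (p : ℕ) [Fact p.Prime] (M : Ideal Cfsg.AlgInt) (hM : Cfsg.IsPModular p M) (g : G) (hg : ¬ p ∣ orderOf g) : Cfsg.MemLocalIdeal M (Cfsg.blockCoeff (Cfsg.principalBlock M G) g - (Nat.card {xy : G × G // (∃ k : ℕ, orderOf xy.1 = p ^ k) ∧ ¬ p ∣ orderOf xy.2 ∧ xy.1 * xy.2 = g} : ℂ) / (Nat.card {y : G // ¬ p ∣ orderOf y} : ℂ)) := by
  have := Fintype.ofFinite G
  have hB := CL.Blk.isPBlock_principalBlock (M := M) (G := G)
  have e : Nat.card {xy : G × G // (∃ k : ℕ, orderOf xy.1 = p ^ k) ∧ ¬ p ∣ orderOf xy.2 ∧ xy.1 * xy.2 = g} =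
      Nat.card {x : G // (∃ k : ℕ, orderOf x = p ^ k) ∧ ¬ p ∣ orderOf (x * g)} :=
    Nat.card_congr
      { toFun := fun x => ⟨x.1.1⁻¹, by rw [orderOf_inv]; exact x.2.1, by
          rw [inv_mul_eq_iff_eq_mul.2 x.2.2.2.symm]; exact x.2.2.1⟩
        invFun := fun x => ⟨(x.1⁻¹, x.1 * g), by rw [orderOf_inv]; exact x.2.1, x.2.2,
          inv_mul_cancel_left _ _⟩
        left_inv := fun ⟨⟨x, y⟩, h⟩ => Subtype.ext (Prod.ext (inv_inv _) (by
          have := h.2.2; simp only at this ⊢; rw [← this, inv_mul_cancel_left]))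
        right_inv := fun x => Subtype.ext (inv_inv _) }
  have hR := CL.Blk.not_dvd_card_reg (G := G) hM
  have hR' := mt (CL.Blk.natCast_mem_nonunits_iff hM _).1 hR
  rw [CL.Blk.memLocalIdeal_iff_of_alg hM ((CL.Blk.blockCoeff_isAlgebraic _ g).sub
      (CL.Blk.isAlgebraic_div (isAlgebraic_natCast _) (isAlgebraic_natCast _))),
    ← CL.Blk.red_eq_red_iff (CL.Blk.blockCoeff_mem_V hM hB g) (CL.Blk.div_mem_V (natCast_mem _ _) hR'),
    CL.Blk.red_div (natCast_mem _ _) hR', CL.Blk.red_natCast, CL.Blk.red_natCast, e, key hM g hg,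
    mul_div_cancel_left₀ _ (mt (CL.Blk.natCast_F_eq_zero_iff hM _).1 hR), CL.Blk.coeff_eB]

end Cfsg.Agent.S0940
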