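import Cfsg.Statements.S0946
import Cfsg.Agent.INV.InvCalc
import Cfsg.Agent.INV.SylowAux
import Cfsg.Agent.PLOC.NPC
import Cfsg.Agent.S0945

set_option autoImplicit false
open Cfsg CL

namespace Cfsg.Agent.S0946

theorem third_involution {A : Type*} [CommGroup A] [IsCyclic A] {s t u : A × A} (hs : s * s = 1)
    (ht : t * t = 1) (hu : u * u = 1) (hs1 : s ≠ 1) (ht1 : t ≠ 1) (hu1 : u ≠ 1) (hst : s ≠ t)
    (hus : u ≠ s) (hut : u ≠ t) : u = s * t := by
  obtain ⟨h, hh, H⟩ : ∃ h : A, h * h = 1 ∧ ∀ x : A, x * x = 1 → x = 1 ∨ x = h := by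
    by_cases h0 : ∃ h : A, orderOf h = 2
    · obtain ⟨h, h2⟩ := h0
      refine ⟨h, Inv.mul_self_of_orderOf_two h2, fun x hx => ?_⟩
      by_cases h1 : x = 1
      · exact Or.inl h1
      · exact Or.inr (SylowAux.eq_of_isCyclic_of_orderOf_eq_two (Inv.orderOf_eq_two_of hx h1) h2)
    · refine ⟨1, mul_one _, fun x hx => Or.inl ?_⟩
      by_contra h1
      exact h0 ⟨x, Inv.orderOf_eq_two_of hx h1⟩
  obtain ⟨s1, s2⟩ := s
  obtain ⟨t1, t2⟩ := t
  obtain ⟨u1, u2⟩ := u
  simp only [Prod.mk_mul_mk, Prod.mk_eq_one] at hs ht hu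
  rcases H _ hs.1 with rfl | rfl <;> rcases H _ hs.2 with rfl | rfl <;>
  rcases H _ ht.1 with h1 | h1 <;> rcases H _ ht.2 with h2 | h2 <;>
  rcases H _ hu.1 with h3 | h3 <;> rcases H _ hu.2 with h4 | h4 <;>
  simp_all

/-- Let P be a Sylow 2-subgroup of the finite group G isomorphic to Z/2^m × Z/2^m with m ≥ 1. Then either P has a normal complement in G, or all involutions of G are conjugate. -/
theorem result {G : Type*} [Group G] [Finite G] (P : Sylow 2 G) (m : ℕ) (hm : 1 ≤ m) (e : (P : Subgroup G) ≃* Multiplicative (ZMod (2 ^ m) × ZMod (2 ^ m))) : (∃ N : Subgroup G, N.Normal ∧ Subgroup.IsComplement' N (P : Subgroup G)) ∨ ∀ s t : G, orderOf s = 2 → orderOf t = 2 → IsConj s t := by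
  by_cases h1 : (Subgroup.centralizer (P : Set G)).relIndex (Subgroup.normalizer (P : Set G)) = 1
  · exact Or.inl ((hasNPC_iff_exists_complement P).1
      (hasNPC_of_normalizer_le_centralizer P (Subgroup.relIndex_eq_one.1 h1)))
  right
  have h2 := (Cfsg.Agent.S0945.result P m hm e).2 h1
  obtain ⟨n, hn, hnC⟩ : ∃ n ∈ Subgroup.normalizer (P : Set G), n ∉ Subgroup.centralizer (P : Set G) := by
    by_contra! h
    exact h1 (Subgroup.relIndex_eq_one.2 h)
  have hfix : ∀ z ∈ (P : Subgroup G), z ≠ 1 → n * z * n⁻¹ ≠ z := fun z hz hz1 h => by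
    apply hnC
    rw [← h2 z hz hz1]
    exact ⟨Inv.mem_centralizer_singleton.2 (mul_inv_eq_iff_eq_mul.1 h), hn⟩
  have hthird : ∀ s ∈ (P : Subgroup G), ∀ t ∈ (P : Subgroup G), ∀ u ∈ (P : Subgroup G),
      orderOf s = 2 → orderOf t = 2 → orderOf u = 2 → s ≠ t → u ≠ s → u ≠ t → u = s * t := by
    intro s hs t ht u hu hs2 ht2 hu2 hst hus hut
    let f : (P : Subgroup G) ≃* Multiplicative (ZMod (2 ^ m)) × Multiplicative (ZMod (2 ^ m)) :=
      e.trans (MulEquiv.prodMultiplicative _ _)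
    have hsq : ∀ x (hx : x ∈ (P : Subgroup G)), orderOf x = 2 → f ⟨x, hx⟩ * f ⟨x, hx⟩ = 1 :=
      fun x hx h => by
        rw [← map_mul, map_eq_one_iff _ f.injective]
        exact Subtype.ext (Inv.mul_self_of_orderOf_two h)
    have hne : ∀ x (hx : x ∈ (P : Subgroup G)), orderOf x = 2 → f ⟨x, hx⟩ ≠ 1 := fun x hx h h' =>
      Inv.ne_one_of_orderOf_two h (congrArg Subtype.val ((map_eq_one_iff _ f.injective).1 h'))
    have := third_involution (hsq s hs hs2) (hsq t ht ht2) (hsq u hu hu2) (hne s hs hs2)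
      (hne t ht ht2) (hne u hu hu2) (fun h => hst (congrArg Subtype.val (f.injective h)))
      (fun h => hus (congrArg Subtype.val (f.injective h)))
      (fun h => hut (congrArg Subtype.val (f.injective h)))
    rw [← map_mul] at this
    exact congrArg Subtype.val (f.injective this)
  have hP : ∀ s ∈ (P : Subgroup G), ∀ t ∈ (P : Subgroup G), orderOf s = 2 → orderOf t = 2 →
      IsConj s t := by
    intro s hs t ht hs2 ht2
    by_cases hst : s = t
    · rw [hst]
    have hs' : n * s * n⁻¹ ∈ (P : Subgroup G) := (Subgroup.mem_normalizer_iff.1 hn s).1 hs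
    have ht' : n * t * n⁻¹ ∈ (P : Subgroup G) := (Subgroup.mem_normalizer_iff.1 hn t).1 ht
    by_cases h3 : n * s * n⁻¹ = t
    · exact isConj_iff.2 ⟨n, h3⟩
    by_cases h4 : n * t * n⁻¹ = s
    · exact (isConj_iff.2 ⟨n, h4⟩).symm
    have e1 := hthird s hs t ht _ hs' hs2 ht2 (by rw [Inv.orderOf_conj', hs2]) hst
      (hfix s hs (Inv.ne_one_of_orderOf_two hs2)) h3
    have e2 := hthird s hs t ht _ ht' hs2 ht2 (by rw [Inv.orderOf_conj', ht2]) hst h4
      (hfix t ht (Inv.ne_one_of_orderOf_two ht2))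
    exact absurd (by simpa using e1.trans e2.symm) hst
  intro s t hs ht
  obtain ⟨g, hg⟩ := Inv.exists_conj_mem_sylow P (Inv.mul_self_of_orderOf_two hs)
  obtain ⟨k, hk⟩ := Inv.exists_conj_mem_sylow P (Inv.mul_self_of_orderOf_two ht)
  exact ((isConj_iff.2 ⟨g, rfl⟩).trans (hP _ hg _ hk (by rw [Inv.orderOf_conj', hs])
    (by rw [Inv.orderOf_conj', ht]))).trans (isConj_iff.2 ⟨k, rfl⟩).symm

end Cfsg.Agent.S0946
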