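import Cfsg.Statements.S0951
import Cfsg.Agent.INV.BSQ8

set_option autoImplicit false
open Cfsg CL CL.Char CL.BS

namespace Cfsg.Agent.S0951

theorem card_eq_of_signed {G : Type*} [Group G] [Fintype G] {ι : Type*} (B : Set (IrrCharacter G))
    (σ : ι → G → ℂ) (h1 : ∀ i, ∃ χ ∈ B, σ i = χ ∨ σ i = -(χ : G → ℂ))
    (h2 : ∀ i j, i ≠ j → classInner (σ i) (σ j) = 0)
    (h3 : ∀ χ ∈ B, ∃ i, σ i = χ ∨ σ i = -(χ : G → ℂ)) : Nat.card B = Nat.card ι := by
  choose f hf hσ using h1
  have key : ∀ i j (χ : IrrCharacter G), (σ i = χ ∨ σ i = -(χ : G → ℂ)) →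
      (σ j = χ ∨ σ j = -(χ : G → ℂ)) → i = j := by
    intro i j χ hi hj
    by_contra hij
    have := h2 i j hij
    rcases hi with hi | hi <;> rcases hj with hj | hj <;>
      simp [hi, hj, classInner_neg_left, classInner_neg_right, χ.2.inner_self] at this
  refine (Nat.card_eq_of_bijective (fun i => (⟨f i, hf i⟩ : B)) ⟨fun i j h => ?_, fun χ => ?_⟩).symm
  · exact key i j (f i) (hσ i) (by rw [show f i = f j from congrArg Subtype.val h]; exact hσ j)
  · obtain ⟨i, hi⟩ := h3 χ χ.2
    refine ⟨i, Subtype.ext (Subtype.ext ((f i).2.eq_of_inner_ne_zero χ.1.2 fun h => ?_))⟩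
    have e : classInner (σ i) (σ i) = 0 := by
      rcases hσ i with h4 | h4 <;> rcases hi with h5 | h5 <;> nth_rewrite 1 [h4] <;> rw [h5] <;>
        simp [classInner_neg_left, classInner_neg_right, h]
    rw [SIrr.inner_self ⟨_, hi⟩] at e
    exact one_ne_zero e

/-- Let S be a Sylow 2-subgroup of the finite group G isomorphic to the quaternion group of order 8. Suppose G has no nontrivial normal subgroup of odd order and G ≠ S. Then, relative to any maximal ideal M of the algebraic integers containing 2, the principal block of G consists of exactly 7 irreducible characters. -/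
theorem result {G : Type*} [Group G] [Finite G] (M : Ideal Cfsg.AlgInt) (hM : Cfsg.IsPModular 2 M) (S : Sylow 2 G) (e : (S : Subgroup G) ≃* QuaternionGroup 2) (hO : ∀ N : Subgroup G, N.Normal → Odd (Nat.card N) → N = ⊥) (hG : (S : Subgroup G) ≠ ⊤) : Nat.card (Cfsg.principalBlock M G) = 7 := by
  classical
  have := Fintype.ofFinite G
  have h := q8Syl_of S e
  have hnpc : ¬ HasNormalPComplement 2 G := fun hnpc => by
    obtain ⟨N, hN, hc⟩ := (hasNPC_iff_exists_complement S).1 hnpc
    have hb := hO N hN (by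
      rw [← hc.index_eq_card]
      exact Nat.odd_iff.2 (Nat.two_dvd_ne_zero.1 S.not_dvd_index))
    have htop := hc.sup_eq_top
    rw [hb, bot_sup_eq] at htop
    exact hG htop
  obtain ⟨z, -, hz⟩ := h.exists_invol S
  have hq : QH G z := ⟨hz, h.mem_center hO hz, h, fun u v => h.conj4 hnpc⟩
  obtain ⟨φ, hφ⟩ := hq.exists_phi hM
  set ψ : Fin 3 → G → ℂ := fun j => 1 + φ j.succ with hψ
  have ψz : ∀ j x, ψ j (z * x) = ψ j x := fun j x => by simp [hψ, hφ.zmul]
  have ψ4 : ∀ j x, 4 ∣ orderOf x → ψ j x = 2 := fun j x hx => by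
    simp [hψ, hφ.four _ x hx, one_add_one_eq_two]
  have ψg : ∀ j, IsGeneralizedCharacter G (ψ j) := fun j => isGen_one.add (hφ.isGen _)
  have φ1 : ∀ j : Fin 3, classInner (φ j.succ) 1 = 0 ∧ classInner 1 (φ j.succ) = 0 := fun j => by
    rw [← hφ.zero, hφ.orth, hφ.orth]; simp [j.succ_ne_zero, j.succ_ne_zero.symm]
  have ηη : ∀ j k, classInner (eta z (ψ j)) (eta z (ψ k)) = if j = k then 1 else 0 := fun j k => by
    rw [hφ.inner_eta_eta hq (ψz j) (ψz k) (ψ4 j) (ψ4 k)]
    simp only [hψ, classInner_add_left, classInner_add_right, classInner_one_one, φ1 j, φ1 k,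
      hφ.orth, add_zero, zero_add, Fin.succ_inj]
    ring
  have ηs : ∀ j, SIrr (eta z (ψ j)) := fun j =>
    sIrr_of_norm_one (isGen_eta hq (ψg j) (ψz j) (ψ4 j)) (by rw [ηη, if_pos rfl])
  have ηodd : ∀ j, oddPart (eta z (ψ j)) = oddPart (ψ j) := fun j => by
    ext x
    by_cases hx : Odd (orderOf x)
    · rw [oddPart_of_odd _ hx, oddPart_of_odd _ hx, eta_of_odd hq _ hx]
    · rw [oddPart_of_not _ hx, oddPart_of_not _ hx]
  have hcard := card_eq_of_signed (principalBlock M G) (Sum.elim φ fun j => eta z (ψ j)) ?_ ?_ ?_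
  · simpa using hcard
  · rintro (i | j)
    · exact hφ.sgn i
    · obtain ⟨χ, hχ⟩ := ηs j
      refine ⟨χ, ?_, hχ⟩
      by_contra hn
      -- the odd part of `χ` is a combination of odd parts of principal block characters
      have h1 : classInner (oddPart (ψ j)) χ = 0 := by
        obtain ⟨ξ, hξ, h2⟩ := hφ.sgn j.succ
        have h3 := classInner_oddPart_of_not_sameBlock hM (oneIrr G) χ hn
        have h4 := classInner_oddPart_of_not_sameBlock hM ξ χ
          fun h => hn (sameBlock_trans hM.2.1 hξ h)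
        rw [show ((oneIrr G : IrrCharacter G) : G → ℂ) = 1 from rfl] at h3
        simp only [hψ]
        rw [oddPart_add, classInner_add_left, h3]
        rcases h2 with h2 | h2 <;> simp [h2, oddPart_neg, classInner_neg_left, h4]
      rw [← ηodd] at h1
      refine inner_oddPart_self_ne_zero χ ?_
      rcases hχ with hχ | hχ
      · rwa [hχ] at h1
      · rwa [hχ, oddPart_neg, classInner_neg_left, neg_eq_zero] at h1
  · rintro (i | i) (j | j) hij
    · simp only [Sum.elim_inl, hφ.orth]
      exact if_neg fun h => hij (by rw [h])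
    · exact classInner_eq_zero_comm.1 (classInner_eta_of_zmul hq _ (hφ.zmul i))
    · exact classInner_eta_of_zmul hq _ (hφ.zmul j)
    · simp only [Sum.elim_inr, ηη]
      exact if_neg fun h => hij (by rw [h])
  · intro χ hχ
    rcases irr_central_invol hq.mul_self hq.central χ.2 with h1 | h1
    · obtain ⟨i, hi⟩ := hφ.cover χ hχ (by simpa using h1 1)
      exact ⟨Sum.inl i, hi⟩
    by_contra hn
    have h2 : ∀ j, classInner (oddPart (χ : G → ℂ)) (ψ j) = 0 := fun j => by
      rcases (ηs j).cases ⟨χ, Or.inl rfl⟩ with h3 | h3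
      · rw [classInner_eta_of_neg hq _ h1] at h3
        rw [classInner_oddPart_comm, classInner_eq_zero_comm]
        simpa using h3
      · exact absurd ⟨Sum.inr j, h3⟩ hn
    have h3 : classInner (oddPart (χ : G → ℂ)) (∑ i, φ i) = 0 := by
      rw [classInner_oddPart_comm]
      have : oddPart (∑ i, φ i) = 0 := by
        ext x
        by_cases hx : Odd (orderOf x)
        · rw [oddPart_of_odd _ hx, Finset.sum_apply, hφ.odd x hx]; rfl
        · rw [oddPart_of_not _ hx]; rfl
      rw [this, classInner_zero_right]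
    refine χ.2.one_ne_zero (hφ.zero_lemma hq χ.2.isClassFunction (fun μ hμ =>
      classInner_oddPart_of_not_sameBlock hM χ μ fun h => hμ (sameBlock_trans hM.2.1 hχ h)) ?_)
    have e1 := h2 0
    have e2 := h2 1
    have e3 := h2 2
    simp only [hψ, classInner_add_right, ← hφ.zero] at e1 e2 e3
    rw [classInner_sum_right, Fin.sum_univ_four] at h3
    change _ + classInner _ (φ 1) = 0 at e1
    change _ + classInner _ (φ 2) = 0 at e2
    change _ + classInner _ (φ 3) = 0 at e3
    have e0 : classInner (oddPart (χ : G → ℂ)) (φ 0) = 0 := by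
      linear_combination (e1 + e2 + e3 - h3) / 2
    intro i
    fin_cases i
    · exact e0
    · change classInner _ (φ 1) = 0
      linear_combination e1 - e0
    · change classInner _ (φ 2) = 0
      linear_combination e2 - e0
    · change classInner _ (φ 3) = 0
      linear_combination e3 - e0

end Cfsg.Agent.S0951
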