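import Cfsg.Statements.S0954
import Cfsg.Agent.BLK.Cover

set_option autoImplicit false
open Cfsg

namespace Cfsg.Agent.S0954

/-- Let N be a normal subgroup of the finite group G of order prime to p and of p-power index (a normal p-complement), and fix a maximal ideal M of the algebraic integers containing p. Then two irreducible characters χ, ψ of G lie in the same block if and only if some irreducible character of N has nonzero inner product with both the restriction of χ and the restriction of ψ. -/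
theorem result {G : Type*} [Group G] [Fintype G] (p : ℕ) [Fact p.Prime] (M : Ideal Cfsg.AlgInt) (hM : Cfsg.IsPModular p M) (N : Subgroup G) [N.Normal] [Fintype N] (hN : ¬ p ∣ Nat.card N) (hidx : ∃ k : ℕ, N.index = p ^ k) (χ ψ : Cfsg.IrrCharacter G) : Cfsg.SameBlock M (χ : G → ℂ) (ψ : G → ℂ) ↔ ∃ θ : Cfsg.IrrCharacter N, Cfsg.classInner (fun n : N => (χ : G → ℂ) n) (θ : N → ℂ) ≠ 0 ∧ Cfsg.classInner (fun n : N => (ψ : G → ℂ) n) (θ : N → ℂ) ≠ 0 := by
  constructor
  · intro h
    obtain ⟨θ, hθ, h1⟩ := χ.2.exists_under_res N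
    exact ⟨⟨θ, hθ⟩, h1, CL.Blk.inner_ne_zero_of_sameBlock hM hN h (θ := ⟨θ, hθ⟩) h1⟩
  · rintro ⟨θ, h1, h2⟩
    obtain ⟨k, hk⟩ := hidx
    have hb := CL.Blk.isPBlock_blockOf (M := M) θ
    have hχ := CL.Blk.isPBlock_blockOf (M := M) χ
    have hψ := CL.Blk.isPBlock_blockOf (M := M) ψ
    have h3 := CL.Blk.block_eq_of_covF_of_index_pow hM hk hχ hψ hb
      ((CL.Blk.covF_eB_iff hM hχ hb).2
        ⟨χ, CL.Blk.mem_blockOf_self hM χ, θ, CL.Blk.mem_blockOf_self hM θ, h1⟩)
      ((CL.Blk.covF_eB_iff hM hψ hb).2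
        ⟨ψ, CL.Blk.mem_blockOf_self hM ψ, θ, CL.Blk.mem_blockOf_self hM θ, h2⟩)
    have h4 := CL.Blk.mem_blockOf_self hM ψ
    rw [← h3] at h4
    exact h4

end Cfsg.Agent.S0954
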