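import Cfsg.Statements.S0957
import Mathlib.GroupTheory.GroupAction.Quotient
import Mathlib.GroupTheory.GroupAction.ConjAct

set_option autoImplicit false
open Cfsg

namespace Cfsg.Agent.S0957

open MulAction

/-- If `d` divides the index of every point stabilizer then `d` divides the number of points. -/
theorem dvd_card_of_dvd_index {P X : Type*} [Group P] [Finite P] [MulAction P X] [Finite X] (d : ℕ)
    (h : ∀ x : X, d ∣ (stabilizer P x).index) : d ∣ Nat.card X := by
  classical
  have := Fintype.ofFinite X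
  have := Fintype.ofFinite (orbitRel.Quotient P X)
  rw [Nat.card_congr (selfEquivSigmaOrbitsQuotientStabilizer P X), Nat.card_sigma]
  apply Finset.dvd_sum
  intro ω _
  exact h _

/-- The conjugation action of `P` on the pairs. -/
@[reducible] def act {G : Type*} [Group G] (P : Subgroup G) (g h : G) :
    MulAction P {yz : G × G // IsConj g yz.1 ∧ IsConj h yz.2 ∧ yz.2 * yz.1⁻¹ ∈ P} where
  smul u yz := ⟨((u : G) * yz.1.1 * (u : G)⁻¹, (u : G) * yz.1.2 * (u : G)⁻¹),
    yz.2.1.trans (isConj_iff.2 ⟨u, rfl⟩), yz.2.2.1.trans (isConj_iff.2 ⟨u, rfl⟩), by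
      have := P.mul_mem (P.mul_mem u.2 yz.2.2.2) (P.inv_mem u.2)
      convert this using 1
      group⟩
  one_smul yz := by
    apply Subtype.ext
    change (((1 : P) : G) * yz.1.1 * ((1 : P) : G)⁻¹, ((1 : P) : G) * yz.1.2 * ((1 : P) : G)⁻¹) = yz.1
    simp
  mul_smul u v yz := by
    apply Subtype.ext
    change (((u * v : P) : G) * yz.1.1 * ((u * v : P) : G)⁻¹,
      ((u * v : P) : G) * yz.1.2 * ((u * v : P) : G)⁻¹) =
      ((u : G) * ((v : G) * yz.1.1 * (v : G)⁻¹) * (u : G)⁻¹,
        (u : G) * ((v : G) * yz.1.2 * (v : G)⁻¹) * (u : G)⁻¹)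
    simp only [Subgroup.coe_mul, Prod.mk.injEq]
    constructor <;> group

/-- Let P be a Sylow p-subgroup of the finite group G, let g, h ∈ G and let p ^ d be the order of a Sylow p-subgroup of the centralizer of g. Then the number of pairs (y, z) with y conjugate to g, z conjugate to h and z * y⁻¹ ∈ P is divisible by the order of P divided by p ^ d. -/
theorem result {G : Type*} [Group G] [Finite G] (p : ℕ) [Fact p.Prime] (P : Sylow p G) (g h : G) (S : Sylow p (Subgroup.centralizer ({g} : Set G))) : Nat.card P / Nat.card S ∣ Nat.card {yz : G × G // IsConj g yz.1 ∧ IsConj h yz.2 ∧ yz.2 * yz.1⁻¹ ∈ (P : Subgroup G)} := by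
  let _ := act (P : Subgroup G) g h
  apply dvd_card_of_dvd_index (P := (P : Subgroup G))
  rintro ⟨⟨y, z⟩, hy, hz, hyz⟩
  set T := stabilizer (P : Subgroup G) (⟨(y, z), hy, hz, hyz⟩ :
    {yz : G × G // IsConj g yz.1 ∧ IsConj h yz.2 ∧ yz.2 * yz.1⁻¹ ∈ (P : Subgroup G)}) with hT
  obtain ⟨c, hc⟩ := isConj_iff.1 hy
  simp only at hc
  -- the stabilizer embeds in the centralizer of `g`
  have hmem : ∀ t : T, c⁻¹ * ((t : (P : Subgroup G)) : G) * c ∈
      Subgroup.centralizer ({g} : Set G) := by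
    intro t
    have ht : (t : (P : Subgroup G)) • (⟨(y, z), hy, hz, hyz⟩ :
      {yz : G × G // IsConj g yz.1 ∧ IsConj h yz.2 ∧ yz.2 * yz.1⁻¹ ∈ (P : Subgroup G)}) =
        ⟨(y, z), hy, hz, hyz⟩ := t.2
    have h1 : ((t : (P : Subgroup G)) : G) * y * ((t : (P : Subgroup G)) : G)⁻¹ = y :=
      congrArg (fun w => w.1.1) ht
    rw [Subgroup.mem_centralizer_singleton_iff]
    rw [← hc] at h1
    generalize ((t : (P : Subgroup G)) : G) = u at h1 ⊢
    calc c⁻¹ * u * c * g = c⁻¹ * (u * (c * g * c⁻¹) * u⁻¹) * u * c := by group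
      _ = c⁻¹ * (c * g * c⁻¹) * u * c := by rw [h1]
      _ = g * (c⁻¹ * u * c) := by group
  let φ : T →* Subgroup.centralizer ({g} : Set G) :=
    { toFun := fun t => ⟨_, hmem t⟩
      map_one' := by ext; simp
      map_mul' := by intro a b; ext; simp [mul_assoc] }
  have hφ : Function.Injective φ := by
    intro a b hab
    have := congrArg Subtype.val hab
    simp only [φ, MonoidHom.coe_mk, OneHom.coe_mk, mul_left_inj, mul_right_inj] at this
    exact Subtype.ext (Subtype.ext this)
  have hTp : IsPGroup p T := P.isPGroup'.to_subgroup T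
  obtain ⟨k, hk⟩ := hTp.exists_card_eq
  have h1 : Nat.card T ∣ Nat.card S := by
    have h2 := Subgroup.card_dvd_of_injective φ hφ
    rw [hk] at h2 ⊢
    exact S.pow_dvd_card_of_pow_dvd_card h2
  have h2 : Nat.card S ∣ Nat.card P := by
    obtain ⟨m, hm⟩ := S.isPGroup'.exists_card_eq
    have h3 : Nat.card S ∣ Nat.card G :=
      (Subgroup.card_subgroup_dvd_card _).trans (Subgroup.card_subgroup_dvd_card _)
    rw [hm] at h3 ⊢
    exact P.pow_dvd_card_of_pow_dvd_card h3
  have h3 : T.index = Nat.card P / Nat.card T := by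
    rw [← T.card_mul_index, Nat.mul_div_cancel_left _ Nat.card_pos]
  rw [h3]
  exact Nat.div_dvd_div_left h2 h1

end Cfsg.Agent.S0957
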