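import Cfsg.Statements.S0970
import Cfsg.Agent.BLK.Cover2

set_option autoImplicit false
open Cfsg

namespace Cfsg.Agent.S0970

/-- Let N be a normal subgroup of the finite group G and fix a maximal ideal M of the algebraic integers containing the prime p. Let b be a block of N that is invariant under conjugation by G, and B a block of G covering b (some χ ∈ B has a constituent in b) whose defect is at least that of every block covering b. If P is a defect group of B, then p does not divide the index of P ⊔ N, the subgroup P ∩ N of N is a defect group of b, and the defect of B equals the defect of b plus the exponent of p in the index of N. -/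
theorem result {G : Type*} [Group G] [Fintype G] (p : ℕ) [Fact p.Prime] (M : Ideal Cfsg.AlgInt) (hM : Cfsg.IsPModular p M) (N : Subgroup G) [hN : N.Normal] [Fintype N] (b : Set (Cfsg.IrrCharacter N)) (hb : Cfsg.IsPBlock M b) (hinv : ∀ g : G, ∀ θ ∈ b, ∀ θ' : Cfsg.IrrCharacter N, (∀ n : N, (θ' : N → ℂ) n = (θ : N → ℂ) ⟨g * n * g⁻¹, hN.conj_mem n n.2 g⟩) → θ' ∈ b) (B : Set (Cfsg.IrrCharacter G)) (hB : Cfsg.IsPBlock M B) (hcov : ∃ χ ∈ B, ∃ θ ∈ b, Cfsg.classInner (fun n : N => (χ : G → ℂ) n) (θ : N → ℂ) ≠ 0) (hmax : ∀ B' : Set (Cfsg.IrrCharacter G), Cfsg.IsPBlock M B' → (∃ χ ∈ B', ∃ θ ∈ b, Cfsg.classInner (fun n : N => (χ : G → ℂ) n) (θ : N → ℂ) ≠ 0) → Cfsg.blockDefect p B' ≤ Cfsg.blockDefect p B) (P : Subgroup G) (hP : Cfsg.IsDefectGroup p M B P) : ¬ p ∣ (P ⊔ N).index ∧ Cfsg.IsDefectGroup p M b ((P ⊓ N).subgroupOf N) ∧ Cfsg.blockDefect p B = Cfsg.blockDefect p b + N.index.factorization p := by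
  have hp := hM.1
  have hF := CL.Blk.natCast_F hM
  have hsb := CL.Blk.isSB_sb hM hb
  have he := CL.Blk.isSB_top_eB hM hB
  have hcov' := (CL.Blk.eB_mul_sb_ne_zero_iff hM hB hb).2 hcov
  have hf : CL.Blk.IsFixed ⊤ (CL.Blk.sb M N b) := CL.Blk.isFixed_iff_cj.2 fun x _ =>
    (CL.Blk.cj_sb_eq_iff b x).2 ((CL.Blk.stab_iff_cjN hM hb x).1 (hinv x))
  have hP' := (CL.Blk.isDefectGroup_iff_sDef_top hM hB).1 hP
  obtain ⟨e, D, he', h1, hD, h2⟩ := hsb.exists_cov_not_dvd hp hF le_top
    Subgroup.le_normalizer_of_normal hf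
  obtain ⟨B', hB', rfl⟩ := he'.exists_block_top hM
  have h3 := hmax B' hB' ((CL.Blk.eB_mul_sb_ne_zero_iff hM hB' hb).1 h1)
  have h4 := CL.Blk.blockDefect_add_of_covF hM hB' hb h1 hD
  have h5 := CL.Blk.blockDefect_add_of_covF hM hB hb hcov' hP'
  rw [Subgroup.relIndex_top_right] at h2
  rw [Nat.factorization_eq_zero_of_not_dvd h2] at h4
  have h6 : (N ⊔ P).index.factorization p = 0 := by omega
  refine ⟨fun h => ?_, ?_, by omega⟩
  · rw [sup_comm] at h
    exact (hp.factorization_pos_of_dvd Subgroup.index_ne_zero_of_finite h).ne' h6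
  · exact (CL.Blk.isDefectGroup_subgroupOf_iff hM hb inf_le_right).2
      (hP'.inf_of_fixed hp hF he hsb le_top Subgroup.le_normalizer_of_normal hcov' hf)

end Cfsg.Agent.S0970
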