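import Cfsg.Statements.S0971
import Cfsg.Agent.BLK.Cover2

set_option autoImplicit false
open Cfsg

namespace Cfsg.Agent.S0971

/-- Let Q be a normal p-subgroup of the finite group G, let N = Q ⊔ C_G(Q) (a normal subgroup) and let b be a block of N relative to a maximal ideal M of the algebraic integers containing p. Then b induces some block of G, and every block B of G containing a character whose restriction to N has a constituent in b is induced by b. -/
theorem result {G : Type*} [Group G] [Fintype G] (p : ℕ) [Fact p.Prime] (M : Ideal Cfsg.AlgInt) (hM : Cfsg.IsPModular p M) (Q : Subgroup G) [Q.Normal] (hQ : IsPGroup p Q) [Fintype ↥(Q ⊔ Subgroup.centralizer (Q : Set G))] (b : Set (Cfsg.IrrCharacter ↥(Q ⊔ Subgroup.centralizer (Q : Set G)))) (hb : Cfsg.IsPBlock M b) : Cfsg.InducedBlockDefined M (Q ⊔ Subgroup.centralizer (Q : Set G)) b ∧ ∀ B : Set (Cfsg.IrrCharacter G), Cfsg.IsPBlock M B → (∃ χ ∈ B, ∃ θ ∈ b, Cfsg.classInner (fun n : ↥(Q ⊔ Subgroup.centralizer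 (Q : Set G)) => (χ : G → ℂ) n) (θ : ↥(Q ⊔ Subgroup.centralizer (Q : Set G)) → ℂ) ≠ 0) → Cfsg.IsInducedBlock M (Q ⊔ Subgroup.centralizer (Q : Set G)) b B := by
  refine ⟨CL.Blk.inducedBlockDefined_of_local hM hQ le_sup_left le_sup_right
    Subgroup.le_normalizer_of_normal hb, fun B hB h => ?_⟩
  refine (CL.Blk.isInducedBlock_iff hM).2 ⟨hb, hB, ?_⟩
  exact ((CL.Blk.covF_eB_iff hM hB hb).2 h).indAlong_of_centralizer_le hM.1 (CL.Blk.natCast_F hM)
    (CL.Blk.isBlk_eB hM hB) (CL.Blk.isBlk_eB hM hb) hQ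
    ((CL.Blk.isBlk_eB hM hB).brNe_of_normal hM.1 (CL.Blk.natCast_F hM) hQ) le_sup_right

end Cfsg.Agent.S0971
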