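import Cfsg.Statements.S0973
import Mathlib
import Cfsg.Agent.BLK.Local

set_option autoImplicit false
open Cfsg

namespace Cfsg.Agent.S0973

open CL CL.Blk CL.Char MonoidAlgebra
open scoped CL.MSS

/-- Let B be a block of the finite group G with defect group P (relative to a maximal ideal M of the algebraic integers containing p), and let L = P ⊔ C_G(P). Then (i) some block b of L with defect group P (viewed in L) induces B, and (ii) if b and b' are blocks of L both inducing B, there is n ∈ N_G(P) carrying b to b': for every θ ∈ b there is θ' ∈ b' with θ' x = θ (n x n⁻¹) for all x ∈ L. -/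
theorem result {G : Type*} [Group G] [Finite G] (p : ℕ) [Fact p.Prime] (M : Ideal Cfsg.AlgInt) (hM : Cfsg.IsPModular p M) (B : Set (Cfsg.IrrCharacter G)) (hB : Cfsg.IsPBlock M B) (P : Subgroup G) (hP : Cfsg.IsDefectGroup p M B P) : (∃ b : Set (Cfsg.IrrCharacter ↥(P ⊔ Subgroup.centralizer (P : Set G))), Cfsg.IsDefectGroup p M b (P.subgroupOf (P ⊔ Subgroup.centralizer (P : Set G))) ∧ Cfsg.IsInducedBlock M (P ⊔ Subgroup.centralizer (P : Set G)) b B) ∧ ∀ b b' : Set (Cfsg.IrrCharacter ↥(P ⊔ Subgroup.centralizer (P : Set G))), Cfsg.IsInducedBlock M (P ⊔ Subgroup.centralizer (P : Set G)) b B → Cfsg.IsInducedBlock M (P ⊔ Subgroup.centralizer (P : Set G)) b' B → ∃ n ∈ Subgroup.normalizer (P : Set G), ∀ θ ∈ b, ∃ θ' ∈ b', ∀ x : ↥(P ⊔ Subgroup.centralizer (P : Set G)), ∀ hx : n * (x : G) * n⁻¹ ∈ P ⊔ Subgroup.centralizer (P : Set G), (θ' : ↥(P ⊔ Subgroup.centralizer (P : Set G)) → ℂ) x = (θ : ↥(P ⊔ Subgroup.centralizer (P : Set G)) → ℂ) ⟨n * (x : G) * n⁻¹,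 hx⟩ := by
  set H := P ⊔ Subgroup.centralizer (P : Set G) with hH
  have hr := Subgroup.range_subtype H
  have hPH : P ≤ H := le_sup_left
  have hCH : Subgroup.centralizer (P : Set G) ≤ H := le_sup_right
  have hHN : H ≤ Subgroup.normalizer (P : Set G) :=
    sup_le Subgroup.le_normalizer (Subgroup.centralizer_le_normalizer _)
  have hNH : Subgroup.normalizer (P : Set G) ≤ Subgroup.normalizer (H : Set G) :=
    MSS.le_normalizer_sup le_rfl (MSS.normalizer_le_normalizer_centralizer P)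
  have hD := hP.isDef hM hB
  constructor
  · obtain ⟨b, μ, hb, hbD, hi⟩ := first_main_surj hM.1 (natCast_F hM) H.subtype_injective
      (by rwa [hr]) (by rwa [hr]) (by rwa [hr]) (isBlk_eB hM hB) hD
    obtain ⟨c, hc, rfl, hi'⟩ := exists_block_of_indAlong hM hb hi
    exact ⟨c, (isDefectGroup_iff hM hc).2 hbD, (isInducedBlock_iff hM).2 ⟨hc, hB, hi'⟩⟩
  · intro b b' hb hb'
    have key : ∀ c : Set (IrrCharacter H), IsInducedBlock M H c B →
        RelPair p ⊤ (eB M B) P (amb H.subtype (eB M c)) := fun c hc =>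
      ⟨(isBlk_eB hM hc.1).isSB_amb.isPair_of_le_sup hM.1 (natCast_F hM) hD.pgroup hPH hCH le_rfl,
        le_top, le_top, (indAlong_iff_Br_mul hM.1 (natCast_F hM) hD.pgroup hPH hCH hHN
          (isBlk_eB hM hc.1) (isBlk_eB hM hB)).1 (hc.indAlong hM)⟩
    obtain ⟨n, hn, h⟩ := (key b hb).exists_cj_of_sDef hM.1 (natCast_F hM)
      (isBlk_eB hM hB).isSB_top (key b' hb') (sDef_top.2 hD)
    refine ⟨n⁻¹, inv_mem hn.2, fun θ hθ => ?_⟩
    obtain ⟨θ', h1, h2⟩ := (forall_exists_conj_mem_iff hM (MSS.cj_eq_of_mem_normalizer (hNH hn.2))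
      hb.1 hb'.1).2 h θ hθ
    exact ⟨θ', h1, fun x hx => h2 ⟨_, hx⟩ x (by simp [mul_assoc])⟩

end Cfsg.Agent.S0973
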