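import Cfsg.Statements.S0986
import Cfsg.Agent.INV.SmallInter

set_option autoImplicit false
open Cfsg

namespace Cfsg.Agent.S0986

/-- Let P and Q be distinct Sylow p-subgroups of a finite group G chosen so that the order of P ∩ Q is as large as possible among intersections of two distinct Sylow p-subgroups, and let N be the normalizer of P ∩ Q. Then N has more than one Sylow p-subgroup, any two distinct Sylow p-subgroups of N intersect exactly in P ∩ Q, and each Sylow p-subgroup of N lies in exactly one Sylow p-subgroup of G. -/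
theorem result {G : Type*} [Group G] [Finite G] (p : ℕ) [Fact p.Prime] (P Q : Sylow p G) (hPQ : P ≠ Q) (hmax : ∀ P' Q' : Sylow p G, P' ≠ Q' → Nat.card ↥((P' : Subgroup G) ⊓ (Q' : Subgroup G)) ≤ Nat.card ↥((P : Subgroup G) ⊓ (Q : Subgroup G))) : 1 < Nat.card (Sylow p ↥(Subgroup.normalizer (((P : Subgroup G) ⊓ (Q : Subgroup G) : Subgroup G) : Set G))) ∧ (∀ S T : Sylow p ↥(Subgroup.normalizer (((P : Subgroup G) ⊓ (Q : Subgroup G) : Subgroup G) : Set G)), S ≠ T → (S : Subgroup _) ⊓ (T : Subgroup _) = ((P : Subgroup G) ⊓ (Q : Subgroup G)).subgroupOf (Subgroup.normalizer (((P : Subgroup G) ⊓ (Q : Subgroup G) : Subgroup G) : Set G))) ∧ ∀ S : Sylow p ↥(Subgroup.normalizer (((P : Subgroup G) ⊓ (Q : Subgroup G) : Subgroup G) : Set G)), ∃! T : Sylow p G, (S : Subgroup _).map (Subgroup.normalizer (((P : Subgroup G) ⊓ (Q : Subgroup G) : Subgroup G) : Set G)).subtype ≤ (T : Subgroup G) := by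
  set D : Subgroup G := (P : Subgroup G) ⊓ (Q : Subgroup G) with hD
  set N : Subgroup G := Subgroup.normalizer (D : Set G) with hN
  have hP1 : D < N ⊓ P := CL.Small.lt_normalizer_inf P.2 (CL.Small.inf_lt_left_of_ne hPQ)
  have hQ1 : D < N ⊓ Q := CL.Small.lt_normalizer_inf Q.2 (CL.Small.inf_lt_right_of_ne hPQ)
  have hlt : ∀ S : Sylow p N, D < (S : Subgroup N).map N.subtype := fun S =>
    CL.Small.lt_map_sylow le_rfl (P.2.to_inf_right) hP1 inf_le_left S
  have huniq : ∀ S : Sylow p N, ∃! T : Sylow p G, (S : Subgroup N).map N.subtype ≤ T := by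
    intro S
    obtain ⟨T, hT⟩ := (S.2.map N.subtype).exists_le_sylow
    exact ⟨T, hT, fun T' hT' => CL.Small.sylow_unique_of_max_inter hmax (hlt S) hT' hT⟩
  have hDN : D ≤ N := Subgroup.le_normalizer
  refine ⟨?_, ?_, huniq⟩
  · rw [Finite.one_lt_card_iff_nontrivial]
    obtain ⟨S, hS⟩ := ((P.2.to_inf_right (H := N)).comap_subtype (K := N)).exists_le_sylow
    obtain ⟨T, hT⟩ := ((Q.2.to_inf_right (H := N)).comap_subtype (K := N)).exists_le_sylow
    refine ⟨S, T, fun h => hPQ ?_⟩
    subst h
    obtain ⟨U, hU, -⟩ := huniq S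
    have h1 : N ⊓ (P : Subgroup G) ≤ U := by
      refine le_trans ?_ hU
      rw [← Subgroup.map_subgroupOf_eq_of_le (inf_le_left : N ⊓ (P : Subgroup G) ≤ N)]
      exact Subgroup.map_mono hS
    have h2 : N ⊓ (Q : Subgroup G) ≤ U := by
      refine le_trans ?_ hU
      rw [← Subgroup.map_subgroupOf_eq_of_le (inf_le_left : N ⊓ (Q : Subgroup G) ≤ N)]
      exact Subgroup.map_mono hT
    exact (CL.Small.sylow_unique_of_max_inter hmax hP1 inf_le_right h1).trans
      (CL.Small.sylow_unique_of_max_inter hmax hQ1 inf_le_right h2).symm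
  · intro S T hST
    have hle : D.subgroupOf N ≤ (S : Subgroup N) ⊓ T := by
      refine le_inf ?_ ?_
      · intro x hx
        obtain ⟨y, hy, hyx⟩ := (hlt S).le hx
        rwa [show y = x from Subtype.ext hyx] at hy
      · intro x hx
        obtain ⟨y, hy, hyx⟩ := (hlt T).le hx
        rwa [show y = x from Subtype.ext hyx] at hy
    by_contra hne
    have hlt' : D < ((S : Subgroup N) ⊓ T).map N.subtype := by
      rw [← Subgroup.map_subgroupOf_eq_of_le hDN]
      exact (Subgroup.map_lt_map_iff_of_injective N.subtype_injective).2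
        (lt_of_le_of_ne hle (Ne.symm hne))
    obtain ⟨U, hU, -⟩ := huniq S
    obtain ⟨V, hV, -⟩ := huniq T
    have hUV : U = V := CL.Small.sylow_unique_of_max_inter hmax hlt'
      ((Subgroup.map_mono inf_le_left).trans hU) ((Subgroup.map_mono inf_le_right).trans hV)
    subst hUV
    apply hST
    have hU' : IsPGroup p ((U : Subgroup G).comap N.subtype) := U.2.comap_subtype
    have e1 := S.3 hU' (Subgroup.map_le_iff_le_comap.1 hU)
    have e2 := T.3 hU' (Subgroup.map_le_iff_le_comap.1 hV)
    exact Sylow.ext (e1.symm.trans e2)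

end Cfsg.Agent.S0986
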