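import Cfsg.Statements.S0987
import Cfsg.Agent.INV.SmallMisc

set_option autoImplicit false
open Cfsg

namespace Cfsg.Agent.S0987

/-- If a finite group has order pqr for primes p < q < r, then its Sylow r-subgroups are normal. -/
theorem result {G : Type*} [Group G] [Finite G] (p q r : ℕ) (hp : p.Prime) (hq : q.Prime) [Fact r.Prime] (hpq : p < q) (hqr : q < r) (hG : Nat.card G = p * q * r) (R : Sylow r G) : (R : Subgroup G).Normal := by
  have hr : r.Prime := Fact.out
  have := Fact.mk hp
  have := Fact.mk hq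
  obtain ⟨P⟩ : Nonempty (Sylow p G) := inferInstance
  have hpq' : ¬ p ∣ q := fun h => hpq.ne ((Nat.prime_dvd_prime_iff_eq hp hq).1 h)
  have hpr' : ¬ p ∣ r := fun h => (hpq.trans hqr).ne ((Nat.prime_dvd_prime_iff_eq hp hr).1 h)
  have hrp' : ¬ r ∣ p := fun h => (hpq.trans hqr).ne' ((Nat.prime_dvd_prime_iff_eq hr hp).1 h)
  have hrq' : ¬ r ∣ q := fun h => hqr.ne' ((Nat.prime_dvd_prime_iff_eq hr hq).1 h)
  have hG' : Nat.card G = p ^ 1 * (q * r) := by rw [hG]; ring
  have hP : Nat.card P = p :=
    (CL.Small.card_sylow_eq_of_factor P hG' (hp.not_dvd_mul hpq' hpr')).trans (pow_one p)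
  have hPi : (P : Subgroup G).index = q * r :=
    CL.Small.index_sylow_eq_of_factor P hG' (hp.not_dvd_mul hpq' hpr')
  have hmin : (Nat.card G).minFac = p := by
    have h1 : Nat.card G ≠ 1 := by
      intro h
      have : p ∣ 1 := by rw [← h, hG']; exact Dvd.intro (q * r) (by ring)
      exact hp.one_lt.ne' (Nat.dvd_one.1 this)
    have h2 := Nat.minFac_prime h1
    have h3 := Nat.minFac_dvd (Nat.card G)
    have h4 : (Nat.card G).minFac ≤ p :=
      Nat.minFac_le_of_dvd hp.two_le (by rw [hG']; exact Dvd.intro (q * r) (by ring))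
    replace h3 : (Nat.card G).minFac ∣ p * q * r := hG ▸ h3
    rcases (h2.dvd_mul).1 h3 with h | h
    · rcases (h2.dvd_mul).1 h with h | h
      · exact (Nat.prime_dvd_prime_iff_eq h2 hp).1 h
      · have := (Nat.prime_dvd_prime_iff_eq h2 hq).1 h
        omega
    · have := (Nat.prime_dvd_prime_iff_eq h2 hr).1 h
      omega
  have hc : IsCyclic P := isCyclic_of_prime_card hP
  have hK := hc.isComplement' hmin
  set K := (MonoidHom.transferSylow P (hc.normalizer_le_centralizer hmin)).ker
  have hKc : Nat.card K = r ^ 1 * q := by rw [← hK.index_eq_card, hPi]; ring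
  have hKi : K.index = p := by rw [hK.symm.index_eq_card]; exact hP
  have hRK : (R : Subgroup G) ≤ K := CL.Small.le_of_normal_of_not_dvd_index R.2 (hKi ▸ hrp')
  refine CL.Small.sylow_normal_of_le_normal R hRK ?_
  have h1 : Nat.card (Sylow r K) ∣ q := CL.Small.card_sylow_dvd_of_factor hKc hrq'
  have h2 : Nat.card (Sylow r K) % r = 1 := CL.Small.card_sylow_mod
  rcases (Nat.dvd_prime hq).1 h1 with h | h
  · exact h
  · rw [h, Nat.mod_eq_of_lt hqr] at h2
    exact absurd h2 hq.one_lt.ne'

end Cfsg.Agent.S0987
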