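import Cfsg.Statements.S0988
import Cfsg.Agent.S0998

set_option autoImplicit false
open Cfsg

namespace Cfsg.Agent.S0988

/-- If a finite simple group has order p^2 * q * r with p, q and r prime, then its order is 60. -/
theorem result {G : Type*} [Group G] [Finite G] [IsSimpleGroup G] (p q r : ℕ) (hp : p.Prime) (hq : q.Prime) (hr : r.Prime) (hG : Nat.card G = p ^ 2 * q * r) : Nat.card G = 60 := by
  have h0 : ¬ (Nat.card G).Prime := by
    rw [hG, sq, mul_assoc, mul_assoc]
    exact Nat.not_prime_mul hp.ne_one fun h => hp.ne_one (Nat.eq_one_of_mul_eq_one_right h)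
  have hc := CL.Small.not_comm_of_not_prime h0
  have h1 : ∀ a b i j : ℕ, a.Prime → b.Prime → Nat.card G ≠ a ^ i * b ^ j := fun a b i j ha hb h =>
    hc ⟨⟨CL.Char.mul_comm_of_simple_of_card_dvd ha hb (dvd_of_eq h)⟩⟩
  have hpq : p ≠ q := by rintro rfl; exact h1 p r 3 1 hp hr (by rw [hG]; ring)
  have hpr : p ≠ r := by rintro rfl; exact h1 p q 3 1 hp hq (by rw [hG]; ring)
  have hqr : q ≠ r := by rintro rfl; exact h1 p q 2 2 hp hq (by rw [hG]; ring)
  have h2 : Nat.card G = 60 ∨ Nat.card G = 168 := by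
    have h2 : ¬ IsCyclic G := fun _ => hc inferInstance
    rcases lt_or_gt_of_ne hqr with h | h
    · exact Cfsg.Agent.S0998.key (b := 2) h2 hr hp hq hpr.symm h hpq (by rw [hG]; ring)
    · exact Cfsg.Agent.S0998.key (b := 2) h2 hq hp hr hpq.symm h hpr (by rw [hG]; ring)
  refine h2.resolve_right fun h => ?_
  rw [hG] at h
  have h3 : p ^ 2 ∣ 168 := h ▸ (dvd_mul_right _ _).mul_right _
  obtain rfl : p = 2 := by
    have := Nat.le_of_dvd (by norm_num) h3
    have h4 : p ≤ 12 := by nlinarith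
    have := hp.two_le
    interval_cases p <;> simp_all
  rcases Nat.prime_two.dvd_mul.1 (show 2 ∣ q * r by rw [mul_assoc] at h; omega) with h4 | h4
  · exact hpq ((Nat.prime_dvd_prime_iff_eq hp hq).1 h4)
  · exact hpr ((Nat.prime_dvd_prime_iff_eq hp hr).1 h4)

end Cfsg.Agent.S0988
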