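import Cfsg.Statements.S0989
import Cfsg.Agent.INV.SmallMisc

set_option autoImplicit false
open Cfsg

namespace Cfsg.Agent.S0989

/-- In the symmetric group on p or p + 1 letters, p a prime, the normalizer of a Sylow p-subgroup has order p * (p - 1). -/
theorem result {α : Type*} [Fintype α] [DecidableEq α] (p : ℕ) [Fact p.Prime] (hα : Fintype.card α = p ∨ Fintype.card α = p + 1) (P : Sylow p (Equiv.Perm α)) : Nat.card ↥(Subgroup.normalizer ((P : Subgroup (Equiv.Perm α)) : Set (Equiv.Perm α))) = p * (p - 1) := by
  have hp : p.Prime := Fact.out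
  have h2 := hp.two_le
  have hG : Nat.card (Equiv.Perm α) = (Fintype.card α).factorial := by
    rw [Nat.card_perm, Nat.card_eq_fintype_card]
  have hf : p.factorial = p * (p - 1).factorial := (Nat.mul_factorial_pred hp.ne_zero).symm
  have hnd : ¬ p ∣ (p - 1).factorial := by
    rw [hp.dvd_factorial]; omega
  have hG' : Nat.card (Equiv.Perm α) = p ^ 1 * ((p - 1).factorial * (Fintype.card α).choose p) := by
    rw [hG]
    rcases hα with h | h
    · rw [h, hf]; simp
    · rw [h, Nat.factorial_succ, hf]; simp; ring
  have hnd' : ¬ p ∣ (p - 1).factorial * (Fintype.card α).choose p := by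
    apply hp.not_dvd_mul hnd
    rcases hα with h | h
    · rw [h]; simpa using hp.one_lt.ne'
    · rw [h]; simpa using hp.one_lt.ne'
  have hP : Nat.card P = p := (CL.Small.card_sylow_eq_of_factor P hG' hnd').trans (pow_one p)
  have h1 := CL.Small.card_orderOf_eq_prime P hP
  have h3 := CL.Small.card_sylow_mul_card_normalizer P
  have h4 : Nat.card {y : Equiv.Perm α // orderOf y = p} =
      (p - 1).factorial * (Fintype.card α).choose p := by
    rw [← Equiv.Perm.card_of_cycleType_singleton h2 (by omega), Nat.card_eq_fintype_card,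
      Fintype.card_subtype]
    congr 1
    ext σ
    simp only [Finset.mem_filter, Finset.mem_univ, true_and]
    constructor
    · intro hσ
      have hc : σ.IsCycle := Equiv.Perm.isCycle_of_prime_order (hσ ▸ hp) (by
        have := σ.support.card_le_univ
        omega)
      rw [hc.cycleType, ← hc.orderOf, hσ]
    · intro hσ
      rw [← Equiv.Perm.lcm_cycleType, hσ]
      simp
  rw [hG', ← h4, h1] at h3
  have h5 : 0 < Nat.card (Sylow p (Equiv.Perm α)) := Nat.card_pos
  apply Nat.eq_of_mul_eq_mul_left h5
  rw [h3]
  ring

end Cfsg.Agent.S0989
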