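import Cfsg.Statements.S0990
import Cfsg.Agent.INV.SmallMisc

set_option autoImplicit false
open Cfsg

namespace Cfsg.Agent.S0990

/-- Let p be an odd prime and P a Sylow p-subgroup of the symmetric group on a finite set with at least two elements. Then P is contained in the alternating group, and twice the order of the normalizer of P inside the alternating group equals the order of the normalizer of P in the symmetric group. -/
theorem result {α : Type*} [Fintype α] [DecidableEq α] (hα : 2 ≤ Fintype.card α) (p : ℕ) [Fact p.Prime] (hp : p ≠ 2) (P : Sylow p (Equiv.Perm α)) : (P : Subgroup (Equiv.Perm α)) ≤ alternatingGroup α ∧ 2 * Nat.card ↥(Subgroup.normalizer ((((P : Subgroup (Equiv.Perm α)).subgroupOf (alternatingGroup α) : Subgroup ↥(alternatingGroup α)) : Set ↥(alternatingGroup α)))) = Nat.card ↥(Subgroup.normalizer ((P : Subgroup (Equiv.Perm α)) : Set (Equiv.Perm α))) := by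
  have hp' : p.Prime := Fact.out
  have : Nontrivial α := Fintype.one_lt_card_iff_nontrivial.1 hα
  have hA : (alternatingGroup α).index = 2 := alternatingGroup.index_eq_two
  have hle : (P : Subgroup (Equiv.Perm α)) ≤ alternatingGroup α :=
    CL.Small.le_of_normal_of_not_dvd_index P.2 (by
      rw [hA]
      exact fun h => hp ((Nat.prime_dvd_prime_iff_eq hp' Nat.prime_two).1 h))
  refine ⟨hle, ?_⟩
  rw [← Subgroup.subgroupOf_normalizer_eq hle]
  set N := Subgroup.normalizer ((P : Subgroup (Equiv.Perm α)) : Set (Equiv.Perm α))
  have h1 : N ⊔ alternatingGroup α = ⊤ := P.normalizer_sup_eq_top' hle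
  have h2 : (alternatingGroup α).relIndex N = 2 := by
    rw [← Subgroup.relIndex_sup_right, h1, Subgroup.relIndex_top_right, hA]
  have h3 := CL.Small.card_inf_mul_relIndex (alternatingGroup α) N
  rw [← h3, h2, mul_comm, ← Subgroup.inf_subgroupOf_right,
    Nat.card_congr (Subgroup.subgroupOfEquivOfLe inf_le_right).toEquiv]

end Cfsg.Agent.S0990
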