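import Cfsg.Statements.S0995
import Cfsg.Agent.INV.SmallMisc

set_option autoImplicit false
open Cfsg

namespace Cfsg.Agent.S0995

/-- Let G be a finite perfect group containing an element z of prime order p whose centralizer is the cyclic group it generates. Let t be the number of conjugacy classes of elements of order p. Then t divides p - 1, the number of Sylow p-subgroups has the form 1 + n * p, and |G| * t = (p - 1) * p * (1 + n * p). -/
theorem result {G : Type*} [Group G] [Finite G] (hperf : commutator G = ⊤) (p : ℕ) [Fact p.Prime] (z : G) (hz : orderOf z = p) (hC : Subgroup.centralizer ({z} : Set G) = Subgroup.zpowers z) : ∃ n t : ℕ, t = Nat.card {c : ConjClasses G // ∃ g : G, ConjClasses.mk g = c ∧ orderOf g = p} ∧ t ∣ p - 1 ∧ Nat.card (Sylow p G) = 1 + n * p ∧ Nat.card G * t = (p - 1) * p * (1 + n * p) := by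
  have hp : p.Prime := Fact.out
  obtain ⟨P, hP⟩ := CL.Small.exists_sylow_eq_zpowers hz hC
  have hPc : Nat.card (P : Subgroup G) = p := by rw [hP, Nat.card_zpowers, hz]
  have hCc : Nat.card (Subgroup.centralizer ((P : Subgroup G) : Set G)) = p := by
    rw [hP, CL.Small.centralizer_zpowers_eq, hC, Nat.card_zpowers, hz]
  have h1 := CL.Small.card_orderOf_eq_prime P hPc
  have h2 := CL.Small.card_sylow_mul_card_normalizer P
  have h3 := CL.Small.card_centralizer_mul_relIndex (P : Subgroup G)
  rw [hCc] at h3
  set e := (Subgroup.centralizer ((P : Subgroup G) : Set G)).relIndex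
    (Subgroup.normalizer ((P : Subgroup G) : Set G))
  have h4 := CL.Small.card_eq_card_classes_mul (fun g : G => orderOf g = p)
    (fun x y h hx => (CL.Small.orderOf_eq_of_isConj h).trans hx) (Nat.card (Sylow p G) * e) (by
      intro x hx
      obtain ⟨g, hg⟩ := CL.Small.exists_conj_mem_sylow P (k := 1) (by simpa using hx)
      have hc : IsConj x (g⁻¹ * x * g) := isConj_iff.2 ⟨g⁻¹, by simp⟩
      have hg1 : g⁻¹ * x * g ≠ 1 := by
        intro h
        have := CL.Small.orderOf_eq_of_isConj hc
        rw [h, orderOf_one, hx] at this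
        exact hp.one_lt.ne this
      have h5 := CL.Small.card_centralizer_eq_of_isConj hc
      rw [← CL.Small.centralizer_zpowers_eq, ← CL.Small.eq_zpowers_of_card_prime hPc hg hg1,
        hCc] at h5
      have h6 := CL.Small.card_centralizer_mul_card_conj x
      rw [← h5, ← h2, ← h3] at h6
      apply Nat.eq_of_mul_eq_mul_left hp.pos
      rw [h6]; ring)
  set t := Nat.card {c : ConjClasses G // ∃ g : G, ConjClasses.mk g = c ∧ orderOf g = p}
  have h5 : 0 < Nat.card (Sylow p G) := Nat.card_pos
  have h6 : p - 1 = t * e := by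
    apply Nat.eq_of_mul_eq_mul_left h5
    rw [← h1, h4]; ring
  have h7 : Nat.card (Sylow p G) = 1 + Nat.card (Sylow p G) / p * p := by
    have := Nat.mod_add_div' (Nat.card (Sylow p G)) p
    rw [CL.Small.card_sylow_mod] at this
    exact this.symm
  refine ⟨Nat.card (Sylow p G) / p, t, rfl, Dvd.intro _ h6.symm, h7, ?_⟩
  rw [← h7, ← h2, ← h3, h6]
  ring

end Cfsg.Agent.S0995
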