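import Cfsg.Statements.S1005
import Cfsg.Agent.INV.O168

set_option autoImplicit false
open Cfsg

namespace Cfsg.Agent.S1005

/-- In a simple group of order 168 every element has order 1, 2, 3, 4 or 7; there are exactly 21 elements of order 2, and any two of them are conjugate. -/
theorem result {G : Type*} [Group G] [Finite G] [IsSimpleGroup G] (h : Nat.card G = 168) : (∀ g : G, orderOf g = 1 ∨ orderOf g = 2 ∨ orderOf g = 3 ∨ orderOf g = 4 ∨ orderOf g = 7) ∧ Nat.card {g : G // orderOf g = 2} = 21 ∧ ∀ s t : G, orderOf s = 2 → orderOf t = 2 → IsConj s t := by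
  obtain ⟨T⟩ : Nonempty (Sylow 2 G) := inferInstance
  obtain ⟨k, s, D⟩ := CL.O168.exists_D8 h T
  refine ⟨CL.O168.orders h, ?_, fun a b ha hb => (D.conj2 a ha).symm.trans (D.conj2 b hb)⟩
  have h1 := CL.Small.card_centralizer_mul_card_conj (k ^ 2)
  rw [D.cent, D.card, h] at h1
  have h2 : Nat.card {g : G // orderOf g = 2} = Nat.card {y : G // IsConj (k ^ 2) y} :=
    Nat.card_congr (Equiv.subtypeEquivRight fun g =>
      ⟨D.conj2 g, fun hg => by rw [CL.Small.orderOf_eq_of_isConj hg, D.z2]⟩)
  omega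

end Cfsg.Agent.S1005
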