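import Cfsg.Statements.S1006
import Cfsg.Agent.INV.O168

set_option autoImplicit false
open Cfsg

namespace Cfsg.Agent.S1006

/-- In a simple group of order 168 there are 56 elements of order 3, all conjugate; 42 elements of order 4, all conjugate; and 48 elements of order 7 falling into two conjugacy classes of size 24, an element of order 7 not being conjugate to its inverse. -/
theorem result {G : Type*} [Group G] [Finite G] [IsSimpleGroup G] (h : Nat.card G = 168) : Nat.card {g : G // orderOf g = 3} = 56 ∧ (∀ s t : G, orderOf s = 3 → orderOf t = 3 → IsConj s t) ∧ Nat.card {g : G // orderOf g = 4} = 42 ∧ (∀ s t : G, orderOf s = 4 → orderOf t = 4 → IsConj s t) ∧ Nat.card {g : G // orderOf g = 7} = 48 ∧ ∀ x : G, orderOf x = 7 → Nat.card {g : G // IsConj x g} = 24 ∧ ¬ IsConj x x⁻¹ := by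
  obtain ⟨T⟩ : Nonempty (Sylow 2 G) := inferInstance
  obtain ⟨k, s, D⟩ := CL.O168.exists_D8 h T
  obtain ⟨P⟩ : Nonempty (Sylow 3 G) := inferInstance
  obtain ⟨Q⟩ : Nonempty (Sylow 7 G) := inferInstance
  have h3 := CL.Small.card_orderOf_eq_prime P (CL.O168.card_three h P)
  have h7 := CL.Small.card_orderOf_eq_prime Q (CL.O168.card_seven h Q)
  rw [CL.O168.n_three h] at h3
  rw [CL.O168.n_seven h] at h7
  refine ⟨h3, fun a b ha hb => ?_, ?_, fun a b ha hb => (D.conj4 a ha).symm.trans (D.conj4 b hb),
    h7, fun x hx => ⟨?_, fun hc => ?_⟩⟩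
  · refine CL.O168.isConj_of_card (Q := fun y => orderOf y = 3)
      (fun x y hxy hx => by rw [CL.Small.orderOf_eq_of_isConj hxy, hx]) ha ?_ hb
    have h1 := CL.Small.card_centralizer_mul_card_conj a
    rw [CL.O168.card_cent_prime h (CL.O168.card_three h) ha, h] at h1
    omega
  · have h1 := CL.Small.card_centralizer_mul_card_conj k
    rw [D.cent_k, Nat.card_zpowers, D.k4, h] at h1
    have h2 : Nat.card {g : G // orderOf g = 4} = Nat.card {y : G // IsConj k y} :=
      Nat.card_congr (Equiv.subtypeEquivRight fun g =>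
        ⟨D.conj4 g, fun hg => by rw [CL.Small.orderOf_eq_of_isConj hg, D.k4]⟩)
    omega
  · have h1 := CL.Small.card_centralizer_mul_card_conj x
    rw [CL.O168.card_cent_prime h (CL.O168.card_seven h) hx, h] at h1
    omega
  · obtain ⟨g, hg⟩ := isConj_iff.1 hc
    obtain ⟨R, hxR⟩ := CL.Small.exists_sylow_mem (p := 7) (k := 1) (x := x) (by rw [hx]; rfl)
    have hx1 : x ≠ 1 := by rintro rfl; simp at hx
    have hR := CL.Small.eq_zpowers_of_card_prime (CL.O168.card_seven h R) hxR hx1
    have hg2 : g ^ 2 ∈ Subgroup.centralizer ({x} : Set G) := by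
      rw [Subgroup.mem_centralizer_singleton_iff]
      have : g * (g * x * g⁻¹) * g⁻¹ = x := by
        rw [hg]
        calc g * x⁻¹ * g⁻¹ = (g * x * g⁻¹)⁻¹ := by group
          _ = x := by rw [hg, inv_inv]
      calc g ^ 2 * x = g * (g * x * g⁻¹) * g⁻¹ * g ^ 2 := by simp [sq, mul_assoc]
        _ = x * g ^ 2 := by rw [this]
    have hgN : g ∈ Subgroup.normalizer ((R : Subgroup G) : Set G) := by
      refine Subgroup.mem_normalizer_fintype fun y hy => ?_
      rw [hR] at hy ⊢
      obtain ⟨n, rfl⟩ := hy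
      simp only [SetLike.mem_coe]
      rw [← conj_zpow, hg]
      exact zpow_mem (inv_mem (Subgroup.mem_zpowers x)) n
    have ho := CL.Small.orderOf_dvd_card_of_mem hgN
    rw [CL.O168.norm_seven h] at ho
    have h21 : g ^ 21 = 1 := orderOf_dvd_iff_pow_eq_one.1 ho
    have hgc : g ∈ Subgroup.centralizer ({x} : Set G) := by
      have := pow_mem hg2 11
      rwa [← pow_mul, show 2 * 11 = 21 + 1 from rfl, pow_succ, h21, one_mul] at this
    rw [Subgroup.mem_centralizer_singleton_iff] at hgc
    rw [hgc, mul_inv_cancel_right] at hg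
    have : x ^ 2 = 1 := by rw [sq]; nth_rw 2 [hg]; simp
    have := orderOf_dvd_of_pow_eq_one this
    rw [hx] at this
    omega

end Cfsg.Agent.S1006
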