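import Cfsg.Statements.S1013
import Cfsg.Agent.PERM.PrimeDeg3

set_option autoImplicit false
open Cfsg

namespace Cfsg.Agent.S1013

/-- Let G be a transitive permutation group of prime degree p having more than one Sylow p-subgroup, and suppose a Sylow p-subgroup P has prime index in its normalizer. Then G is simple. -/
theorem result {α : Type*} [Fintype α] [DecidableEq α] {p : ℕ} [Fact p.Prime] (hα : Fintype.card α = p) (G : Subgroup (Equiv.Perm α)) [MulAction.IsPretransitive ↥G α] (P : Sylow p ↥G) (hn : 1 < Nat.card (Sylow p ↥G)) (ht : (((P : Subgroup ↥G).subgroupOf (Subgroup.normalizer ((P : Subgroup ↥G) : Set ↥G))).index).Prime) : IsSimpleGroup ↥G := by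
  have hp := (Fact.out : p.Prime)
  obtain ⟨h1, h2⟩ := CL.PermMod.sylow_prime_data hα P
  have : Nontrivial G := by
    have := Nat.le_of_dvd Nat.card_pos (Subgroup.card_subgroup_dvd_card (P : Subgroup G))
    exact Finite.one_lt_card_iff_nontrivial.1 (by have := hp.one_lt; omega)
  refine ⟨fun N hN => or_iff_not_imp_left.2 fun h0 => ?_⟩
  have h4 : (P : Subgroup G) ≤ N := by
    obtain ⟨x, hx, hx'⟩ := CL.Small.exists_mem_orderOf_eq_prime N p
      (CL.PermMod.card_dvd_of_normal hα N h0)
    obtain ⟨g, hg⟩ := CL.Small.exists_conj_mem_sylow P (k := 1) (by rw [hx', pow_one])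
    rw [CL.Small.eq_zpowers_of_card_prime h1 hg (fun h => by
      rw [show x = 1 by simpa [mul_assoc, inv_mul_eq_one] using h, orderOf_one] at hx'
      exact hp.one_lt.ne hx'), Subgroup.zpowers_le]
    simpa using hN.conj_mem x hx g⁻¹
  have h5 := Sylow.normalizer_sup_eq_top' P h4
  have h6 := Subgroup.relIndex_mul_relIndex (P : Subgroup G)
    (N ⊓ Subgroup.normalizer ((P : Subgroup G) : Set G)) _ (le_inf h4 Subgroup.le_normalizer)
    inf_le_right
  rcases (Nat.dvd_prime ht).1 (Dvd.intro _ h6) with h7 | h7
  · exfalso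
    rw [Subgroup.relIndex_eq_one] at h7
    let Q := P.subtype h4
    have h8 : Subgroup.normalizer ((Q : Subgroup N) : Set N) ≤
        Subgroup.centralizer ((Q : Subgroup N) : Set N) := by
      intro x hx y hy
      have hx' : (x : G) ∈ Subgroup.normalizer ((P : Subgroup G) : Set G) := by
        have := Subgroup.subgroupOf_normalizer_eq h4
        exact (this ▸ hx : x ∈ (Subgroup.normalizer ((P : Subgroup G) : Set G)).subgroupOf N)
      have := h7 ⟨x.2, hx'⟩
      rw [← h2] at this
      exact Subtype.ext (this y hy)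
    have h9 := MonoidHom.ker_transferSylow_isComplement' Q h8
    set K := (MonoidHom.transferSylow Q h8).ker with hK
    have hQ : Nat.card (Q : Subgroup N) = p := by
      exact (Nat.card_congr (Subgroup.subgroupOfEquivOfLe h4).toEquiv).trans h1
    have hKi : K.index = p := by rw [h9.symm.index_eq_card, hQ]
    have hKc : ¬ p ∣ Nat.card K := by
      rw [← h9.index_eq_card]; exact Q.not_dvd_index
    have hmem : ∀ x : N, (orderOf x).Coprime p → x ∈ K := by
      intro x hx
      rw [← QuotientGroup.eq_one_iff, ← orderOf_eq_one_iff]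
      refine Nat.dvd_one.1 ?_
      rw [← hx]
      refine Nat.dvd_gcd (orderOf_map_dvd (QuotientGroup.mk' K) x) ?_
      exact (orderOf_dvd_natCard _).trans (dvd_of_eq hKi)
    have hn' : (K.map N.subtype).Normal := ⟨by
      rintro _ ⟨k, hk, rfl⟩ g
      refine ⟨⟨g * k * g⁻¹, hN.conj_mem _ k.2 g⟩, hmem _ ?_, rfl⟩
      rw [← Subgroup.orderOf_coe]
      change (orderOf (g * k * g⁻¹)).Coprime p
      have : orderOf (g * k * g⁻¹) = orderOf k := by
        rw [← Subgroup.orderOf_coe k]
        exact orderOf_injective (MulAut.conj g).toMonoidHom (MulAut.conj g).injective _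
      rw [this]
      exact Nat.Coprime.coprime_dvd_left (Subgroup.orderOf_dvd_natCard K hk)
        ((Nat.Prime.coprime_iff_not_dvd hp).2 hKc).symm⟩
    have hb : K.map N.subtype = ⊥ := by
      by_contra hb
      have := CL.PermMod.card_dvd_of_normal hα _ hb
      rw [Subgroup.card_map_of_injective N.subtype_injective] at this
      exact hKc this
    rw [Subgroup.map_eq_bot_iff_of_injective _ N.subtype_injective] at hb
    rw [hb, Subgroup.index_bot] at hKi
    have : (P : Subgroup G) = N := Subgroup.eq_of_le_of_card_ge h4 (by rw [hKi, h1])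
    have h10 : (P : Subgroup G).Normal := this ▸ hN
    have := CL.Small.card_sylow_eq_one_of_normal P h10
    omega
  · change _ = (P : Subgroup G).relIndex _ at h7
    rw [h7] at h6
    have h8 := (Nat.mul_eq_left ht.ne_zero).1 h6
    rw [Subgroup.relIndex_eq_one] at h8
    rw [eq_top_iff, ← h5]
    exact sup_le (h8.trans inf_le_left) le_rfl

end Cfsg.Agent.S1013
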