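import Cfsg.Statements.S1022
import Cfsg.Agent.INV.Def1Ex
import Cfsg.Agent.INV.Def1Spec

set_option autoImplicit false
open Cfsg

namespace Cfsg.Agent.S1022

/-- No finite simple group has order 459648 = 2^7 * 3^3 * 7 * 19. -/
theorem result {G : Type*} [Group G] [Finite G] [IsSimpleGroup G] : Nat.card G ≠ 459648 := by
  intro h
  exact CL.D1.no_459648 (CL.D1.hasData_of_simple
    (CL.Small.not_comm_of_not_prime (G := G) (by rw [h]; norm_num))) h

end Cfsg.Agent.S1022
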