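import Cfsg.Statements.S1024
import Cfsg.Agent.CHEV.Core

set_option autoImplicit false
open Cfsg
open CL.Chev

namespace Cfsg.Agent.S1024

/-- `x_r(0) = 1`, and `x_r(t) = 1` forces `t = 0`: the map `t ↦ x_r(t)` is injective. -/
theorem result {F : Type*} [Field F] (D : Cfsg.Lie.ChevalleyDatum) (hD : D ∈ [Cfsg.Lie.chevG2, Cfsg.Lie.chevB2, Cfsg.Lie.chevD4, Cfsg.Lie.chevF4, Cfsg.Lie.chevE6, Cfsg.Lie.chevE7, Cfsg.Lie.chevE8]) (r : ℕ) (hr : r < D.nroots) (t : F) :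
    D.x F r t = 1 ↔ t = 0 := by
  obtain ⟨g⟩ := good_of_mem hD
  constructor
  · intro h
    apply xg_injective (D := D) ⟨r, hr⟩
    rw [xg_zero]
    exact Units.ext (by rw [xg_val, ← x_eq_xR]; exact h)
  · rintro rfl
    rw [x_eq_xR]
    exact xR_zero ⟨r, hr⟩

end Cfsg.Agent.S1024
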