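import Cfsg.Statements.S1026
import Cfsg.Agent.CHEV.Core
import Cfsg.Agent.CHEV.GlueBN

set_option autoImplicit false
open Cfsg

namespace Cfsg.Agent.S1026

open CL.Chev

/-- Every element of `U` has a unique expression `∏_{r ∈ Φ⁺} x_r(t_r)`, the product over the positive roots in increasing index order (the coefficient family `t`, supported on the positive roots, exists and is unique); and conversely every such ordered product is the matrix of an element of `U`. -/
theorem result {F : Type*} [Field F] (D : Cfsg.Lie.ChevalleyDatum) (hD : D ∈ [Cfsg.Lie.chevG2, Cfsg.Lie.chevB2, Cfsg.Lie.chevD4, Cfsg.Lie.chevF4, Cfsg.Lie.chevE6, Cfsg.Lie.chevE7, Cfsg.Lie.chevE8]) :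
    (∀ g : GL D.Idx F, g ∈ D.posUnipotent F →
      ∃! t : ℕ → F, (∀ r, ¬ D.IsPosRoot r → t r = 0) ∧
        (g : Matrix D.Idx D.Idx F) = D.wordMat F (D.posRoots.map fun r => (r, t r))) ∧
    (∀ t : ℕ → F, ∃ g : GL D.Idx F, g ∈ D.posUnipotent F ∧
      (g : Matrix D.Idx D.Idx F) = D.wordMat F (D.posRoots.map fun r => (r, t r))) := by
  obtain ⟨inst⟩ := CL.Chev.good_of_mem hD
  obtain ⟨L, hL⟩ : ∃ L : List (Rt D), L = (List.finRange D.nroots).filter fun r : Rt D => decide (D.IsPosRoot r) := ⟨_, rfl⟩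
  have h1 : L.map Fin.val = D.posRoots := by
    rw [hL, Cfsg.Lie.ChevalleyDatum.posRoots, ← List.map_coe_finRange_eq_range, List.filter_map]; rfl
  have h2 : ∀ r, r ∈ L ↔ r ∈ {r | (rootSys D).IsPos r} := fun r => by simp [hL, rootSys_isPos']
  have h3 : L.Nodup := hL ▸ (List.nodup_finRange _).filter _
  have h4 : ∀ (t : ℕ → F) (g : GL D.Idx F), (g : Matrix D.Idx D.Idx F) = D.wordMat F (D.posRoots.map fun r => (r, t r)) ↔
      g = (stData D F).prodL L fun r => t r := fun t g => by rw [← h1, ← prodL_val, Units.val_inj]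
  simp only [h4, ← stData_U]
  refine ⟨fun g hg => ?_, fun t => ⟨_, (stData D F).prodL_mem (fun r hr => (h2 r).1 hr) _, rfl⟩⟩
  obtain ⟨t, ht, e⟩ := (stData D F).exists_prodL ((rootSys D).nilp_pos fun _ h => h) (rootSys D).closed_pos h2 h3 hg
  refine ⟨fun r => if h : r < D.nroots then t ⟨r, h⟩ else 0, ⟨fun r hr => ?_, by simpa using e⟩, ?_⟩
  · beta_reduce
    split_ifs with h
    · exact ht _ fun h' => hr ((rootSys_isPos' _).1 h')
    · rfl
  · rintro t' ⟨ht', e'⟩
    funext r
    by_cases hr : D.IsPosRoot r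
    · rw [dif_pos hr.1]
      exact stData_good.prodL_inj_pos (fun _ h => h) (rootSys D).closed_pos h2 h3 (e'.symm.trans e) ⟨r, hr.1⟩
        ((rootSys_isPos' _).2 hr)
    · rw [ht' r hr]
      split_ifs with h
      · exact (ht _ fun h' => hr ((rootSys_isPos' _).1 h')).symm
      · rfl

end Cfsg.Agent.S1026
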