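import Cfsg.Statements.S1028
import Cfsg.Agent.CHEV.Glue
import Cfsg.Agent.CHEV.Core

set_option autoImplicit false
open Cfsg
open CL.Chev

namespace Cfsg.Agent.S1028

/-- Elements of `U` (the subgroup generated by the root elements of the positive roots) are unipotent linear maps: `(u - 1)^n = 0` with `n = rank + nroots` the dimension of the module. -/
theorem result {F : Type*} [Field F] (D : Cfsg.Lie.ChevalleyDatum) (hD : D ∈ [Cfsg.Lie.chevG2, Cfsg.Lie.chevB2, Cfsg.Lie.chevD4, Cfsg.Lie.chevF4, Cfsg.Lie.chevE6, Cfsg.Lie.chevE7, Cfsg.Lie.chevE8]) (g : GL D.Idx F) (hg : g ∈ D.posUnipotent F) :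
    ((g : Matrix D.Idx D.Idx F) - 1) ^ (D.rank + D.nroots) = 0 := by
  obtain ⟨g'⟩ := good_of_mem hD
  rw [← stData_U] at hg
  obtain ⟨h1, h2⟩ := tri_of_mem_XS RootSys.htL (fun r hr => hr) hg
  have h3 : ∀ k : ℕ, ∀ i j, (((g : Matrix D.Idx D.Idx F) - 1) ^ k) i j ≠ 0 →
      RootSys.htL (wI j) + k ≤ RootSys.htL (wI i) := by
    intro k
    induction k with
    | zero =>
      intro i j h
      by_cases e : i = j
      · simp [e]
      · exact absurd (Matrix.one_apply_ne e) h
    | succ k ih =>
      intro i j h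
      rw [pow_succ, Matrix.mul_apply] at h
      obtain ⟨m, -, hm⟩ := Finset.exists_ne_zero_of_sum_ne_zero h
      have a1 := ih i m (left_ne_zero_of_mul hm)
      have a2 := right_ne_zero_of_mul hm
      have e : m ≠ j := by rintro rfl; exact a2 (by simp [h2])
      rw [Matrix.sub_apply, Matrix.one_apply_ne e, sub_zero] at a2
      have a3 := (h1 m j a2).resolve_left e
      push_cast
      simp only at a3
      omega
  have h4 : IsNilpotent ((g : Matrix D.Idx D.Idx F) - 1) := by
    obtain ⟨a, ha⟩ := (Set.finite_range fun p : D.Idx × D.Idx => RootSys.htL (wI p.1) - RootSys.htL (wI p.2)).bddAbove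
    refine ⟨a.toNat + 1, Matrix.ext fun i j => ?_⟩
    by_contra h
    have a1 := h3 _ i j h
    have a2 := ha ⟨(i, j), rfl⟩
    push_cast at a1
    simp only at a2
    omega
  have h5 := sub_eq_zero.1 (Matrix.isNilpotent_charpoly_sub_pow_of_isNilpotent h4).eq_zero
  have h6 := Matrix.aeval_self_charpoly ((g : Matrix D.Idx D.Idx F) - 1)
  rw [h5] at h6
  simpa using h6

end Cfsg.Agent.S1028
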