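import Cfsg.Statements.S1030
import Cfsg.Agent.CHEV.Core
import Cfsg.Agent.CHEV.SL2Hom

set_option autoImplicit false
open Cfsg
open CL.Chev

namespace Cfsg.Agent.S1030

/-- There is a homomorphism `SL₂(F) → GL` with image `⟨X_r, X_{-r}⟩` sending `[[1,t],[0,1]]` to `x_r(t)` and `[[1,0],[t,1]]` to `x_{-r}(t)`. -/
theorem result {F : Type*} [Field F] (D : Cfsg.Lie.ChevalleyDatum) (hD : D ∈ [Cfsg.Lie.chevG2, Cfsg.Lie.chevB2, Cfsg.Lie.chevD4, Cfsg.Lie.chevF4, Cfsg.Lie.chevE6, Cfsg.Lie.chevE7, Cfsg.Lie.chevE8]) (r : ℕ) (hr : r < D.nroots) :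
    ∃ φ : Matrix.SpecialLinearGroup (Fin 2) F →* GL D.Idx F,
      φ.range = D.rootSubgroup F r ⊔ D.rootSubgroup F (D.neg r) ∧
      ∀ (g : Matrix.SpecialLinearGroup (Fin 2) F) (t : F),
        ((g : Matrix (Fin 2) (Fin 2) F) = !![1, t; 0, 1] → ((φ g : GL D.Idx F) : Matrix D.Idx D.Idx F) = D.x F r t) ∧
        ((g : Matrix (Fin 2) (Fin 2) F) = !![1, 0; t, 1] → ((φ g : GL D.Idx F) : Matrix D.Idx D.Idx F) = D.x F (D.neg r) t) := by
  obtain ⟨g⟩ := good_of_mem hD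
  have hn : ∀ (t : F) (ht : t ≠ 0), CL.SL2Hom.nn (xg (D := D) ⟨r, hr⟩) (xg (ng ⟨r, hr⟩)) t = nG ⟨r, hr⟩ (Units.mk0 t ht) := by
    intro t ht
    simp [CL.SL2Hom.nn, nG]
  have hh : ∀ (t : F) (ht : t ≠ 0), CL.SL2Hom.hh (xg (D := D) ⟨r, hr⟩) (xg (ng ⟨r, hr⟩)) t = hG ⟨r, hr⟩ (Units.mk0 t ht) := by
    intro t ht
    rw [CL.SL2Hom.hh, hn t ht, hn (-1) (by simp), hG]
    congr 2
    exact Units.ext (by simp)
  obtain ⟨φ, h1, h2, h3, -⟩ := CL.SL2Hom.exists_hom (x := xg (D := D) (R := F) ⟨r, hr⟩) (y := xg (ng ⟨r, hr⟩))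
    ⟨xg_add _, xg_add _, fun t ht u => by
      rw [hn t ht, nG_conj, rf_self, eta_self, A_self]
      congr 1
      simp [zpow_ofNat]⟩
    (fun t u ht hu => by
      rw [hh t ht, hh u hu, hh (t * u) (mul_ne_zero ht hu), ← hG_mul, Units.mk0_mul])
  refine ⟨φ, ?_, fun a t => ⟨fun ha => ?_, fun ha => ?_⟩⟩
  · have k : ∀ s : Rt D, Subgroup.closure (Set.range (xg (R := F) s)) = D.rootSubgroup F s := fun s => by
      unfold Cfsg.Lie.ChevalleyDatum.rootSubgroup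
      congr 1
      ext a
      exact exists_congr fun t => by rw [val_eq_x_iff_xg, eq_comm]
    rw [h1, k, k, ng_val]
  · rw [show a = CL.SL2Hom.upper t from Subtype.ext ha, h2, xg_val, x_eq_xR]
  · rw [show a = CL.SL2Hom.lower t from Subtype.ext ha, h3, xg_val, x_eq_xR, ng_val]

end Cfsg.Agent.S1030
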