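import Cfsg.Statements.S1034
import Cfsg.Agent.CHEV.Core
import Cfsg.Agent.CHEV.GlueBN
import Cfsg.Agent.CHEV.Torus

set_option autoImplicit false
open Cfsg

namespace Cfsg.Agent.S1034

open CL.Chev

theorem aux {F : Type*} [Field F] {D : Cfsg.Lie.ChevalleyDatum} [Good D] (c : Fin D.rank → Fˣ) (L : List (Fin D.rank)) :
    D.wordMat F ((L.map Fin.val).flatMap fun i => D.hWord (D.simple i) (if h : i < D.rank then (c ⟨i, h⟩ : F) else 1)) =
      ((tor (D := D) (L.map fun i => fun j => c i ^ A (sm i) (sm j)).prod : GL D.Idx F) : Matrix D.Idx D.Idx F) := by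
  induction L with
  | nil => simp [Cfsg.Lie.ChevalleyDatum.wordMat]
  | cons i L ih =>
    rw [List.map_cons, List.flatMap_cons, List.map_cons, List.prod_cons, map_mul, Units.val_mul, ← ih, ← hG_eq_tor,
      hG_val, dif_pos i.2, sm_val]
    simp only [Cfsg.Lie.ChevalleyDatum.wordMat, Cfsg.Lie.ChevalleyDatum.hMat, List.map_append, List.prod_append]

/-- Every element of `H` is a product `h_{p_1}(c_1) ⋯ h_{p_l}(c_l)` over the fundamental roots, with non-zero `c_i`. -/
theorem result {F : Type*} [Field F] (D : Cfsg.Lie.ChevalleyDatum) (hD : D ∈ [Cfsg.Lie.chevG2, Cfsg.Lie.chevB2, Cfsg.Lie.chevD4, Cfsg.Lie.chevF4, Cfsg.Lie.chevE6, Cfsg.Lie.chevE7, Cfsg.Lie.chevE8]) (g : GL D.Idx F) (hg : g ∈ D.diagonalSubgroup F) :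
    ∃ c : ℕ → F, (∀ i < D.rank, c i ≠ 0) ∧
      (g : Matrix D.Idx D.Idx F) = D.wordMat F ((List.range D.rank).flatMap fun i => D.hWord (D.simple i) (c i)) := by
  obtain ⟨inst⟩ := CL.Chev.good_of_mem hD
  rw [← stData_H] at hg
  have h1 : stData_good.chiH ⟨g, hg⟩ ∈ (matHom Fˣ (Matrix.of (rootSys D).A)).range :=
    (stData_good (D := D) (F := F)).range_chiH ▸ ⟨_, rfl⟩
  obtain ⟨c, hc⟩ := h1
  refine ⟨fun i => if h : i < D.rank then (c ⟨i, h⟩ : F) else 1, fun i hi => by simp [hi], ?_⟩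
  rw [← List.map_coe_finRange_eq_range, aux, Units.val_inj]
  obtain ⟨χ, rfl⟩ := exists_tor_of_mem_H hg
  congr 1
  funext j
  have h2 := stData_good.chiH_simple ⟨_, hg⟩ j 1
  rw [← hc, stData_x, stData_x, rootSys_simple, tor_conj, co_sm, chi_single] at h2
  have h3 := Units.ext (mul_right_cancel₀ one_ne_zero (xg_injective _ h2))
  rw [h3, matHom_apply, ← List.ofFn_eq_map, List.prod_ofFn, Finset.prod_apply]
  rfl

end Cfsg.Agent.S1034
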