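import Cfsg.Statements.S1039
import Cfsg.Agent.CHEV.OrderGlue

set_option autoImplicit false
open Cfsg

namespace Cfsg.Agent.S1039

theorem aux {F : Type*} [Field F] (D : Cfsg.Lie.ChevalleyDatum) [CL.Chev.Good D] (M : CoxeterMatrix (Fin D.rank))
    (h : (CL.Chev.rootSys D).IsCox M) :
    ∃ φ : ↥(D.monomialSubgroup F) →* M.Group, Function.Surjective φ ∧
      φ.ker = (D.diagonalSubgroup F).subgroupOf (D.monomialSubgroup F) ∧
      ∀ (i : Fin D.rank) (g : ↥(D.monomialSubgroup F)),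
        ((g : GL D.Idx F) : Matrix D.Idx D.Idx F) = D.nMat F (D.simple i) 1 → φ g = M.simple i := by
  have := (CL.Chev.stData_good (D := D) (F := F)).exists_hom_coxeter h
  simp only [← CL.Chev.val_eq_nMat_simple_iff] at this
  rwa [CL.Chev.stData_N, CL.Chev.stData_H] at this

/-- `N/H ≅ W`: there is a surjective homomorphism from `N` onto the Coxeter group of the type (Mathlib's Coxeter matrix G₂, B₂, F₄, E₆, E₇, E₈, nodes numbered as the fundamental roots) with kernel `H`, mapping each `n_{p_i}` to the `i`-th simple reflection. -/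
theorem result {F : Type*} [Field F]
    (p : Cfsg.Lie.ChevalleyDatum × (Σ n : ℕ, CoxeterMatrix (Fin n)))
    (hp : p ∈ [(Cfsg.Lie.chevG2, ⟨2, CoxeterMatrix.G₂⟩), (Cfsg.Lie.chevB2, ⟨2, CoxeterMatrix.B 2⟩), (Cfsg.Lie.chevD4, ⟨4, Cfsg.Lie.coxeterD4⟩), (Cfsg.Lie.chevF4, ⟨4, CoxeterMatrix.F₄⟩),
      (Cfsg.Lie.chevE6, ⟨6, CoxeterMatrix.E₆⟩), (Cfsg.Lie.chevE7, ⟨7, CoxeterMatrix.E₇⟩), (Cfsg.Lie.chevE8, ⟨8, CoxeterMatrix.E₈⟩)]) :
    ∃ φ : ↥(p.1.monomialSubgroup F) →* p.2.2.Group, Function.Surjective φ ∧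
      φ.ker = (p.1.diagonalSubgroup F).subgroupOf (p.1.monomialSubgroup F) ∧
      ∀ (i : Fin p.2.1) (g : ↥(p.1.monomialSubgroup F)),
        ((g : GL p.1.Idx F) : Matrix p.1.Idx p.1.Idx F) = p.1.nMat F (p.1.simple i) 1 → φ g = p.2.2.simple i := by
  simp only [List.mem_cons, List.not_mem_nil, or_false] at hp
  rcases hp with rfl | rfl | rfl | rfl | rfl | rfl | rfl
  · exact aux Cfsg.Lie.chevG2 _ (CL.Chev.isCox_G2 (CL.Chev.of_rootSys_A Cfsg.Lie.chevG2))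
  · exact aux Cfsg.Lie.chevB2 _ (CL.Chev.isCox_B2 (CL.Chev.of_rootSys_A Cfsg.Lie.chevB2))
  · exact aux Cfsg.Lie.chevD4 _ (CL.Chev.isCox_D4 (CL.Chev.of_rootSys_A Cfsg.Lie.chevD4))
  · exact aux Cfsg.Lie.chevF4 _ (CL.Chev.isCox_F4 (CL.Chev.of_rootSys_A Cfsg.Lie.chevF4))
  · exact aux Cfsg.Lie.chevE6 _ (CL.Chev.isCox_E6 (CL.Chev.of_rootSys_A Cfsg.Lie.chevE6))
  · exact aux Cfsg.Lie.chevE7 _ (CL.Chev.isCox_E7 (CL.Chev.of_rootSys_A Cfsg.Lie.chevE7))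
  · exact aux Cfsg.Lie.chevE8 _ (CL.Chev.isCox_E8 (CL.Chev.of_rootSys_A Cfsg.Lie.chevE8))

end Cfsg.Agent.S1039
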