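import Cfsg.Statements.S1045
import Cfsg.Agent.CHEV.Core
import Cfsg.Agent.CHEV.GlueBN

set_option autoImplicit false
open Cfsg

namespace Cfsg.Agent.S1045

open CL.Chev

/-- For a fundamental root `p`, the subgroup `U_p` generated by the `X_s`, `s` positive and `s ≠ p`, is normalised by `X_p` and `X_{-p}`, and `U = U_p ⊔ X_p`. -/
theorem result {F : Type*} [Field F] (D : Cfsg.Lie.ChevalleyDatum) (hD : D ∈ [Cfsg.Lie.chevG2, Cfsg.Lie.chevB2, Cfsg.Lie.chevD4, Cfsg.Lie.chevF4, Cfsg.Lie.chevE6, Cfsg.Lie.chevE7, Cfsg.Lie.chevE8]) (i : ℕ) (hi : i < D.rank) :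
    D.rootSubgroup F (D.simple i) ⊔ D.rootSubgroup F (D.neg (D.simple i)) ≤
        Subgroup.normalizer (Subgroup.closure {g : GL D.Idx F | ∃ (s : ℕ) (t : F), D.IsPosRoot s ∧ s ≠ D.simple i ∧
          (g : Matrix D.Idx D.Idx F) = D.x F s t} : Set (GL D.Idx F)) ∧
      Subgroup.closure {g : GL D.Idx F | ∃ (s : ℕ) (t : F), D.IsPosRoot s ∧ s ≠ D.simple i ∧
          (g : Matrix D.Idx D.Idx F) = D.x F s t} ⊔ D.rootSubgroup F (D.simple i) = D.posUnipotent F := by
  obtain ⟨inst⟩ := CL.Chev.good_of_mem hD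
  have h := closure_x_eq (D := D) (F := F) (fun s => D.IsPosRoot s ∧ s ≠ D.simple i) fun r h => h.1.1
  simp only [and_assoc] at h
  have h1 : (stData D F).XS {r : Rt D | D.IsPosRoot r ∧ (r : ℕ) ≠ D.simple i} = (stData D F).UJ {⟨i, hi⟩} := by
    rw [StData.UJ_singleton]; congr 1; ext r
    simp only [Set.mem_ofPred_eq, rootSys_isPos', rootSys_simple, ne_eq, Fin.ext_iff, sm_val]
  have h2 : D.simple i = (sm ⟨i, hi⟩ : Rt D) := (sm_val ⟨i, hi⟩).symm
  rw [h, h1, h2, ← ng_val, ← stData_X, ← stData_X, ← stData_U]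
  have hs : (rootSys D).simple ⟨i, hi⟩ ∈ (rootSys D).sub {⟨i, hi⟩} := (rootSys D).simple_mem_sub.2 rfl
  constructor
  · refine le_trans ?_ (((stData D F).LJ_le_P _).trans ((stData D F).P_le_normalizer_UJ _))
    refine le_sup_of_le_right (sup_le ((stData D F).XS_mono ?_) ((stData D F).XS_mono ?_)) <;> rintro _ rfl
    · exact hs
    · exact (rootSys D).neg_mem_sub.2 hs
  · rw [StData.UJ_singleton, StData.X, ← StData.XS_union, StData.U]
    congr 1; ext r
    by_cases hr : r = sm ⟨i, hi⟩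
    · simp [hr, rootSys_isPos, pos_sm]
    · simp [hr, rootSys_simple]

end Cfsg.Agent.S1045
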