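import Cfsg.Statements.S1057
import Cfsg.Agent.PERM.U33
import Cfsg.Agent.PERM.CEGlue
import Cfsg.Agent.CHEV.StbSC
import Cfsg.Agent.KSG.SchurQuo
import Cfsg.Agent.S1059

set_option autoImplicit false
set_option maxRecDepth 100000
set_option exponentiation.threshold 2000
open Cfsg

namespace Cfsg.Agent.S1057

open Cfsg.Lie Subgroup CL CL.K CL.PM CL.CG CL.CE

/-- the letters of a word in the root elements -/
def enc2 (w : List (ℕ × ZMod 2)) : List ℕ := w.map fun c => 2 * c.1 + c.2.val

/-- Steinberg's relations for `G₂(2)` with first root `r` -/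
def g2Eqs (r : ℕ) : List (List ℕ × List ℕ) :=
  [0, 1].flatMap fun t => [0, 1].flatMap fun u =>
    (enc2 [(r, t), (r, u)], enc2 [(r, t + u)]) ::
      (if t = 0 ∨ u = 0 then [] else
        [(enc2 (chevG2.hWord r t ++ chevG2.hWord r u), enc2 (chevG2.hWord r (t * u)))]) ++
      ((List.range 12).filter fun s => s ≠ r ∧ s ≠ chevG2.neg r).map fun s =>
        (enc2 [(s, u), (r, t)], enc2 ((r, t) :: (s, u) :: chevG2.commWord (ZMod 2) r s t u))

theorem exists_g2Hom {G : Type*} [Group G] {g : ℕ → G} (h0 : ∀ a, 24 ≤ a → g a = 1)
    (h : ∀ r < 12, ∀ e ∈ g2Eqs r, ev g e.1 = ev g e.2) :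
    ∃ φ : chevG2.group (ZMod 2) →* G, ∀ a, g a ∈ φ.range := by
  let f : FreeGroup (Fin chevG2.nroots × ZMod 2) →* G :=
    FreeGroup.lift fun c => g (2 * c.1 + c.2.val)
  have hX : ∀ r t, f (chevG2.stX r t) = g (2 * r + t.val) := fun r t => by
    unfold ChevalleyDatum.stX
    split_ifs with hr
    · exact FreeGroup.lift_apply_of
    · exact (map_one f).trans (h0 _ (by have : 12 ≤ r := not_lt.1 hr; omega)).symm
  have hW : ∀ w, f (chevG2.stWord w) = ev g (enc2 w) := fun w => by
    rw [ChevalleyDatum.stWord, map_list_prod, List.map_map, ev, enc2, List.map_map]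
    exact congrArg _ (List.map_congr_left fun c _ => hX _ _)
  have hm : ∀ t : ZMod 2, t ∈ [0, 1] := by decide
  have hr : ∀ x ∈ chevG2.steinbergRels (ZMod 2), f x = 1 := by
    rintro _ ((⟨r, t, u, hr, rfl⟩ | ⟨r, s, t, u, hr, hs, e1, e2, rfl⟩) | ⟨r, t, u, hr, ht, hu, rfl⟩)
    · have := h r hr _ (List.mem_flatMap.2 ⟨t, hm t, List.mem_flatMap.2 ⟨u, hm u,
        List.mem_cons_self⟩⟩)
      simp only [enc2, List.map_cons, List.map_nil, ev_cons, ev_nil, mul_one] at this
      rw [map_mul, map_mul, map_inv, hX, hX, hX, this, mul_inv_cancel]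
    · have := h r hr _ (List.mem_flatMap.2 ⟨t, hm t, List.mem_flatMap.2 ⟨u, hm u,
        List.mem_append_right _ (List.mem_map.2 ⟨s, List.mem_filter.2
          ⟨List.mem_range.2 hs, decide_eq_true ⟨e1, e2⟩⟩, rfl⟩)⟩⟩)
      simp only [enc2, List.map_cons, List.map_nil, ev_cons, ev_nil, mul_one] at this
      simp only [map_mul, map_inv, hX, hW, enc2]
      rw [mul_assoc _ _ (g _), this]
      group
    · have := h r hr (enc2 (chevG2.hWord r t ++ chevG2.hWord r u), enc2 (chevG2.hWord r (t * u)))
        (List.mem_flatMap.2 ⟨t, hm t, List.mem_flatMap.2 ⟨u, hm u, by simp [ht, hu]⟩⟩)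
      rw [enc2, List.map_append, ev_append] at this
      simp only [ChevalleyDatum.stH, map_mul, map_inv, hW]
      exact mul_inv_eq_one.2 this
  let e := MulEquiv.ofBijective (Chev.thetaS chevG2 (ZMod 2))
    ⟨Chev.thetaS_injective (by simp), Chev.thetaS_surjective⟩
  let ψ : chevG2.SteinbergGroup (ZMod 2) →* G := PresentedGroup.toGroup hr
  have hψ : ∀ c, ψ (PresentedGroup.of c) = g (2 * c.1 + c.2.val) := fun c =>
    PresentedGroup.toGroup.of hr
  refine ⟨ψ.comp e.symm.toMonoidHom, fun a => ?_⟩
  by_cases ha : a < 24
  · refine ⟨e (PresentedGroup.of (⟨a / 2, show a / 2 < 12 by omega⟩, (a : ZMod 2))), ?_⟩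
    refine (congrArg ψ (e.symm_apply_apply _)).trans ((hψ _).trans (congrArg g ?_))
    rw [ZMod.val_natCast]
    exact Nat.div_add_mod a 2
  · rw [h0 a (not_lt.1 ha)]; exact one_mem _

/-- the root elements -/
def LX : List ℕ := [0x8000000000000001000000000000000200000000000000040000000000000008000000000000001,
  0x1008080000008040400008080200010080400000040401000040201008000201008080001,
  0x8000000000000001000000000000000200000000000000040000000000000008000000000000001,
  0x8000202010080001010000401000040000008080201000000400008040001008000202008040001,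
  0x8000000000000001000000000000000200000000000000040000000000000008000000000000001,
  0x40400010080400010040001010000001010080401010000001010080402000080001000040200,
  0x8000000000000001000000000000000200000000000000040000000000000008000000000000001,
  0x2010040000008000201000080200010080200008080001010040402010000201000040401,
  0x8000000000000001000000000000000200000000000000040000000000000008000000000000001,
  0x8000002010080202008000001000080000010040200000000201010080401010000001008040401,
  0x8000000000000001000000000000000200000000000000040000000000000008000000000000001,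
  0x2010040000010080200010040200010080200000040401000080201008000402008080001,
  0x8000000000000001000000000000000200000000000000040000000000000008000000000000001,
  0x10080000000000401000000400000000000000080000008040000000000202000000000,
  0x8000000000000001000000000000000200000000000000040000000000000008000000000000001,
  0x80400010080200010040001010000200010040401008080201010080401010000001008040401,
  0x8000000000000001000000000000000200000000000000040000000000000008000000000000001,
  0x10000202008040401010080002008080000000080402000000200008040002008000002008000202,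
  0x8000000000000001000000000000000200000000000000040000000000000008000000000000001,
  0x10000200000080401008080200008000202008040202010080002000080201008000200000080202,
  0x8000000000000001000000000000000200000000000000040000000000000008000000000000001,
  0x8000402000080001010040402008040200008080202000040400010040001000000200008040000,
  0x8000000000000001000000000000000200000000000000040000000000000008000000000000001,
  0x8000002010080001010080401010040000000040200000000201008040202008000202010000001]

/-- a scalar matrix -/
def sc : ℕ := 0x10040000000000200000000000000000401000000000008000000000000000010040000000000200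
/-- its inverse -/
def sci : ℕ := 0x40000000000201000000000000000001000000000008040000000000000000040000000000201

/-- unit test -/
noncomputable def ub (a b : ℕ) : Bool := unitB 3 6 9 511 54 0x7fc00000000001ff000000000007fc00000000001ff000000000007fc00000000001ff 0x3fffffffffffff 11 5 0x783c1e0f0783c1e0f0783c1e0f0783c1e0f0783c1e0f0783c1e0f0783c1e0f0783c1e0f0783c1e0f a b

theorem chkU : (lall (fun c => ub c c) LX && ub sc sci) = true := by decide +kernel

theorem chkR : lall (fun r => lall (fun e : List ℕ × List ℕ => lall (fun i => blt i 24) e.1 &&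
    lall (fun i => blt i 24) e.2 &&
    Nat.beq (word U33.mul LX e.1 U33.one) (word U33.mul LX e.2 U33.one)) (g2Eqs r))
    (List.range 12) = true := by decide +kernel

theorem chkW : wordsB U33.mul U33.one LX [(U33.ct, [13]), (U33.cb, [21, 5, 13, 23, 7])] = true := by
  decide +kernel

theorem chkC : commB U33.mul U33.L sc = true ∧
    U33.mul (lget LX 15) sc ≠ U33.mul sc (lget LX 15) := by decide +kernel

theorem aux {K : Type*} [Field K] [Fintype K] (hK : Fintype.card K = 3 ^ 2) :
    Nonempty (commutator (chevG2.group (ZMod 2)) ≃* PSU 3 K 3) := by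
  let φ : GL (Fin 6) (ZMod 3) → ℕ := fun g => code 9 g.1
  have C : IsCode φ U33.mul U33.one := by
    unfold U33.mul
    exact U33.oneC_eq ▸ isCode_GL U33.ok
  have hU := chkU
  rw [Bool.and_eq_true] at hU
  have hL : ∀ c ∈ LX, Mem φ ⊤ c := fun c hc => mem_of_unitB U33.ok (lall_iff.1 hU.1 c hc)
  have hs : Mem φ ⊤ sc := mem_of_unitB U33.ok hU.2
  have hlen : LX.length = 24 := rfl
  obtain ⟨ψ, hψ⟩ := exists_g2Hom (g := gl φ LX) (fun a ha => if_neg (by rw [hlen]; omega))
    (fun r hr e he => by
      have := lall_iff.1 (lall_iff.1 chkR r (List.mem_range.2 hr)) e he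
      simp only [Bool.and_eq_true] at this
      obtain ⟨⟨h1, h2⟩, h3⟩ := this
      have e3 := eq_of_beq h3
      rw [← C.map_one, C.word_eq hL (fun i hi => hlen ▸ lt_of_blt (lall_iff.1 h1 i hi)),
        C.word_eq hL (fun i hi => hlen ▸ lt_of_blt (lall_iff.1 h2 i hi)), one_mul, one_mul] at e3
      exact C.inj e3)
  have hLr : ∀ c ∈ LX, Mem φ ψ.range c := fun c hc => by
    obtain ⟨a, ha, rfl⟩ := exists_lget_of_mem hc
    exact ⟨_, hψ a, code_gl hL ha⟩
  have hW : ∀ c ∈ U33.L, Mem φ ψ.range c := C.mem_of_wordsB hLr chkW
  obtain ⟨φ', M, -⟩ := U33.exists_model_SU hK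
  have hcS := U33.card_SU33 hK
  have : Finite (SU 3 K 3) := Nat.finite_of_card_ne_zero (by rw [hcS]; norm_num)
  have hm : ∀ g, Mem φ (gen φ U33.L) (φ' g) := fun g =>
    gen_induction (φ := φ') (L := U33.L) (Q := fun g => Mem φ (gen φ U33.L) (φ' g))
      (by rw [M.C.map_one]; exact C.mem_one _) (fun j hj s hs g hg => by
        rw [← M.C.map_mul, hs]
        exact C.mem_mul (mem_gen hW _ (lget_mem hj)) hg) g (M.gen_L ▸ mem_top g)
  let f : SU 3 K 3 →* GL (Fin 6) (ZMod 3) := MonoidHom.mk' (fun g => elt φ (φ' g)) fun a b => by
    rw [← M.C.map_mul, C.elt_mul (hm a) (hm b)]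
  have hf : Function.Injective f := fun a b h => M.C.inj (elt_inj (hm a) (hm b) h)
  have hfg : f.range ≤ gen φ U33.L := by
    rintro _ ⟨g, rfl⟩
    exact C.elt_mem (hm g)
  have hfr : f.range ≤ ψ.range := hfg.trans (C.gen_le hW)
  have hne : f.range ≠ ψ.range := by
    intro h
    have h1 : gl φ LX 15 ∈ gen φ U33.L := hfg (h ▸ hψ 15)
    have h2 := C.comm_of_commB (fun c hc => (hW c hc).top) hs chkC.1 _ h1
    apply chkC.2
    rw [← code_gl hL (show 15 < LX.length by decide), ← hs.code_elt, C.map_mul, C.map_mul, h2]
  have hc : Nat.card (chevG2.group (ZMod 2)) = 12096 :=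
    (Agent.S1059.result (q := 2) (ZMod.card 2)).trans (by norm_num)
  have : Finite (chevG2.group (ZMod 2)) := Nat.finite_of_card_ne_zero (by rw [hc]; norm_num)
  have c1 : Nat.card f.range = 6048 := by
    rw [← Nat.card_congr (MonoidHom.ofInjective hf).toEquiv, hcS]
  have c2 : Nat.card ψ.range = 12096 := by
    have d1 : Nat.card ψ.range ∣ 12096 := hc ▸ card_range_dvd ψ
    obtain ⟨k, hk⟩ := card_dvd_of_le hfr
    rw [c1] at hk
    have d2 : k ∣ 2 := Nat.dvd_of_mul_dvd_mul_left (show 0 < 6048 by norm_num) (by rwa [hk] at d1)
    rcases (Nat.dvd_prime Nat.prime_two).1 d2 with rfl | rfl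
    · exact absurd (eq_of_le_of_card_ge hfr (by omega)) hne
    · omega
  have hinj : Function.Injective ψ := by
    rw [← MonoidHom.ker_eq_bot_iff, ← Subgroup.card_eq_one]
    have := ψ.ker.card_mul_index
    rw [index_ker, c2, hc] at this
    omega
  let H := f.range.comap ψ
  have hmap : H.map ψ = f.range := map_comap_eq_self hfr
  have eH : H ≃* PSU 3 K 3 := (H.equivMapOfInjective ψ hinj).trans
    ((MulEquiv.subgroupCongr hmap).trans ((MonoidHom.ofInjective hf).symm.trans
      (U33.nonempty_equiv hK).some))
  have cH : Nat.card H = 6048 := by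
    rw [← c1, ← hmap, card_map_of_injective hinj]
  have hi : H.index = 2 := by
    have := H.card_mul_index
    rw [cH, hc] at this
    omega
  have hn : H.Normal := normal_of_index_eq_two hi
  have hsimp : IsSimpleGroup H :=
    haveI := Uni.isSimpleGroup_PSU hK (n := 3) (by norm_num) (by norm_num)
    eH.isSimpleGroup
  have heq : commutator (chevG2.group (ZMod 2)) = H := by
    apply le_antisymm
    · have : Fact (Nat.Prime 2) := ⟨Nat.prime_two⟩
      exact Normal.quotient_commutative_iff_commutator_le.1
        (isCyclic_of_prime_card (p := 2) hi).isMulCommutative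
    · have h1 : commutator H = ⊤ := by
        refine (Normal.eq_bot_or_eq_top inferInstance).resolve_left fun h => ?_
        have h' := (commutator_eq_bot_iff_center_eq_top H).1 h
        letI : CommGroup H := { (inferInstance : Group H) with
          mul_comm := fun a b => mem_center_iff.1 (h'.ge (mem_top b)) a }
        have := IsSimpleGroup.prime_card (α := H)
        rw [cH] at this
        exact absurd this (by norm_num)
      intro x hx
      exact (commutator_mono le_top le_top : ⁅H, H⁆ ≤ ⁅⊤, ⊤⁆) (by
        rw [← map_subtype_commutator, h1]; exact ⟨⟨x, hx⟩, trivial, rfl⟩)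
  exact ⟨(MulEquiv.subgroupCongr heq).trans eH⟩

/-- G₂(2)′ ≅ PSU₃(3). -/
theorem result {F K : Type*} [Field F] [Fintype F] [Field K] [Fintype K] (hF : Fintype.card F = 2) (hK : Fintype.card K = 9) :
    Nonempty (↥(commutator ↥(Cfsg.Lie.chevG2.group F)) ≃* Cfsg.PSU 3 K 3) := by
  obtain ⟨e⟩ := aux (K := K) hK
  let c := CL.SchurC.chevCongr (FiniteField.ringEquivOfCardEq (hF.trans (ZMod.card 2).symm)) chevG2
  have : (commutator (chevG2.group F)).map c.toMonoidHom = commutator (chevG2.group (ZMod 2)) := by
    rw [commutator_def, map_commutator, map_top_of_surjective _ c.surjective]; rfl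
  exact ⟨(c.subgroupMap _).trans ((MulEquiv.subgroupCongr this).trans e)⟩

end Cfsg.Agent.S1057
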