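import Cfsg.Statements.S1058
import Cfsg.Agent.CHEV.ClIso
import Cfsg.Agent.S0247
import Cfsg.Agent.CLAS.SpCenter
-- import your own Cfsg.Agent.* helpers here

set_option autoImplicit false
open Cfsg

namespace Cfsg.Agent.S1058

/-- B₂(2) ≅ S₆. -/
theorem result {F : Type*} [Field F] [Fintype F] (hF : Fintype.card F = 2) :
    Nonempty (↥(Cfsg.Lie.chevB2.group F) ≃* Equiv.Perm (Fin 6)) := by
  obtain ⟨e⟩ := Cfsg.Agent.S0247.result hF
  have h : Subgroup.center (Matrix.symplecticGroup (Fin 2) F) = ⊥ := by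
    rw [← Subgroup.card_eq_one, CL.SpCenter.card_center, Nat.card_eq_fintype_card, hF]; rfl
  exact ⟨(CL.Chev.Cl.exists_equiv_C2 F).choose.trans
    ((QuotientGroup.quotientMulEquivOfEq h).trans (QuotientGroup.quotientBot.trans e))⟩

end Cfsg.Agent.S1058
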