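import Cfsg.Statements.S1060
import Cfsg.Agent.CHEV.OrderGlue

set_option autoImplicit false
open Cfsg

namespace Cfsg.Agent.S1060

/-- `gcd(2, q-1) · |B₂(q)| = q⁴ (q² - 1)(q⁴ - 1)`. -/
theorem result {F : Type*} [Field F] [Fintype F] {q : ℕ} (hq : Fintype.card F = q) : Nat.gcd 2 (q - 1) * Nat.card ↥(Cfsg.Lie.chevB2.group F) = q ^ 4 * (q ^ 2 - 1) * (q ^ 4 - 1) := by
  rw [← CL.Chev.stData_grp]
  exact CL.Chev.card_grp_B2 (R := CL.Chev.rootSys Cfsg.Lie.chevB2) CL.Chev.stData_good CL.Chev.stData_adjoint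
    (CL.Chev.of_rootSys_A Cfsg.Lie.chevB2) (Nat.card_fin _) (Nat.card_eq_fintype_card.trans hq)

end Cfsg.Agent.S1060
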