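import Cfsg.Statements.S1078
import Cfsg.Agent.CHEV.StbSC

set_option autoImplicit false
open Cfsg
open CL.Chev

namespace Cfsg.Agent.S1078

/-- For G₂, F₄, E₈ the presented group has trivial centre (the universal and adjoint groups coincide). -/
theorem result {K : Type*} [Field K] (D : Cfsg.Lie.ChevalleyDatum) (hD : D ∈ [Cfsg.Lie.chevG2, Cfsg.Lie.chevF4, Cfsg.Lie.chevE8]) :
    Subgroup.center (D.SteinbergGroup K) = ⊥ := by
  obtain ⟨g⟩ := good_of_mem (D := D) (by
    simp only [List.mem_cons, List.not_mem_nil, or_false] at hD ⊢; tauto)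
  rw [← ker_thetaS]
  exact (MonoidHom.ker_eq_bot_iff _).2 (thetaS_injective hD)

end Cfsg.Agent.S1078
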