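import Cfsg.Statements.S1084
import Cfsg.Agent.CHEV.E6Cubic2

set_option autoImplicit false
open Cfsg

namespace Cfsg.Agent.S1084

open CL.Chev CL.E6C Cfsg.Lie

theorem not_central {F : Type*} [Field F] :
    xe (F := F) (r := 56) (by norm_num) 1 ∉ Subgroup.center (E6univ F) := by
  intro h
  have k := Subgroup.mem_center_iff.1 h (xe (r := 42) (by norm_num) 1)
  have k1 : ∃ i : I27, sz 56 i = 0 ∧ sz 42 i * sz 56 (sr 42 i) * (sz 42 i * sz 56 (sr 42 i)) = 1 := by decide +kernel
  obtain ⟨i, h1, h2⟩ := k1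
  have k2 := congrArg (fun g => act g (fun _ => 1) i) k
  have h3 := congrArg (Int.cast : ℤ → F) h2
  simp only [act_mul, act_xe, h1] at k2
  push_cast at k2 h3
  have h4 : (sz 42 i : F) * sz 56 (sr 42 i) = 0 := by linear_combination k2
  rw [h4, mul_zero] at h3
  exact zero_ne_one h3

/-- E₆ via the 27-dimensional cubic form: for a finite field with at least three elements, (isometries of the cubic form) / centre ≅ the Chevalley group E₆(F). -/
theorem result {F : Type*} [Field F] [Fintype F] (hF : 3 ≤ Fintype.card F) : Nonempty (Cfsg.Lie.E6 F ≃* ↥(Cfsg.Lie.chevE6.group F)) := by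
  classical
  obtain ⟨a, h0, h1⟩ : ∃ a : F, a ≠ 0 ∧ a ≠ 1 := by
    by_contra k
    push Not at k
    have : (Finset.univ : Finset F) ⊆ {0, 1} := fun a _ => by
      by_cases e : a = 0
      · simp [e]
      · simp [k a e]
    have h2 := (Finset.card_le_card this).trans Finset.card_le_two
    rw [Finset.card_univ] at h2
    omega
  have hs := rho_surjective h0 h1
  let π : chevE6.SteinbergCover F →* E6 F := (QuotientGroup.mk' _).comp rho
  have hπ : Function.Surjective π := (QuotientGroup.mk'_surjective _).comp hs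
  have hk : (thetaC chevE6 F).ker ≤ π.ker := by
    rw [ker_thetaC]
    intro g hg
    rw [MonoidHom.mem_ker]
    refine (QuotientGroup.eq_one_iff _).2 (Subgroup.mem_center_iff.2 fun y => ?_)
    obtain ⟨x, rfl⟩ := hs y
    rw [← map_mul, ← map_mul, Subgroup.mem_center_iff.1 hg x]
  let φ : chevE6.group F →* E6 F := (thetaC chevE6 F).liftOfRightInverse (Function.surjInv thetaC_surjective)
    (Function.rightInverse_surjInv thetaC_surjective) ⟨π, hk⟩
  have hφ : ∀ g, φ (thetaC chevE6 F g) = π g := fun g => MonoidHom.liftOfRightInverse_comp_apply _ _ _ _ g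
  have := isSimpleGroup_group (D := chevE6) (F := F) (by simp) fun _ => ⟨a, h0, h1⟩
  refine ⟨(MulEquiv.ofBijective φ ⟨?_, fun y => ?_⟩).symm⟩
  · rw [← MonoidHom.ker_eq_bot_iff]
    refine (IsSimpleGroup.eq_bot_or_eq_top_of_normal φ.ker inferInstance).resolve_right fun h => ?_
    obtain ⟨g, hg⟩ := hs (xe (r := 56) (by norm_num) 1)
    have k : φ (thetaC chevE6 F g) = 1 := (MonoidHom.mem_ker).1 (h ▸ Subgroup.mem_top _)
    rw [hφ] at k
    exact not_central (hg ▸ (QuotientGroup.eq_one_iff _).1 k)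
  · obtain ⟨g, rfl⟩ := hπ y
    exact ⟨_, hφ g⟩

end Cfsg.Agent.S1084
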