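import Cfsg.Statements.S1095
import Cfsg.Agent.CHEV.Core

set_option autoImplicit false
open Cfsg
open CL.Chev

namespace Cfsg.Agent.S1095

/-- `n_p` (p = p_{i+1} fundamental) is the signed monomial matrix `h_{p_j} ↦ h_{p_j} - A_{p_j,p} h_p`, `e_s ↦ η_s e_{w_p(s)}`, with `η_s = ±1`, `η_p = η_{-p} = -1`, `η_s η_{w_p(s)} = (-1)^{A_{p,s}}`, `η_s η_{-s} = 1`. -/
theorem result {F : Type*} [Field F] (D : Cfsg.Lie.ChevalleyDatum) (hD : D ∈ [Cfsg.Lie.chevG2, Cfsg.Lie.chevB2, Cfsg.Lie.chevD4, Cfsg.Lie.chevF4, Cfsg.Lie.chevE6, Cfsg.Lie.chevE7, Cfsg.Lie.chevE8]) (i : ℕ) (hi : i < D.rank) :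
    ∃ η : ℕ → ℤ, (∀ s < D.nroots, η s = 1 ∨ η s = -1) ∧ η (D.simple i) = -1 ∧ η (D.neg (D.simple i)) = -1 ∧
      (∀ s < D.nroots, η s * η (D.reflectRoot i s) = (-1) ^ (D.cartan i s).natAbs ∧ η s * η (D.neg s) = 1) ∧
      D.nMat F (D.simple i) 1 = Matrix.of (fun (row col : D.Idx) =>
        Sum.elim
          (fun j' : Fin D.rank => Sum.elim
            (fun j : Fin D.rank => (if j' = j then (1 : F) else 0) - (if (j' : ℕ) = i then ((D.cartan j (D.simple i) : ℤ) : F) else 0))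
            (fun _ => (0 : F)) col)
          (fun s' : Fin D.nroots => Sum.elim
            (fun _ => (0 : F))
            (fun s : Fin D.nroots => if (s' : ℕ) = D.reflectRoot i s then ((η s : ℤ) : F) else 0) col)
          row) := by
  obtain ⟨g⟩ := good_of_mem hD
  refine ⟨fun s => if h : s < D.nroots then (eta (D := D) (sm ⟨i, hi⟩) ⟨s, h⟩ : ℤ) else 1, fun s hs => ?_, ?_, ?_,
    fun s hs => ⟨?_, ?_⟩, ?_⟩
  · simp only [dif_pos hs]
    rcases Int.units_eq_one_or (eta (D := D) (sm ⟨i, hi⟩) ⟨s, hs⟩) with h | h <;> simp [h]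
  · have h : D.simple i < D.nroots := (sm (D := D) ⟨i, hi⟩).2
    simp only [dif_pos h]
    exact congrArg Units.val (eta_self (D := D) (sm ⟨i, hi⟩))
  · have e : D.neg (D.simple i) = (ng (sm (D := D) ⟨i, hi⟩) : ℕ) := (ng_val (sm (D := D) ⟨i, hi⟩)).symm
    simp only [e, dif_pos (ng (sm (D := D) ⟨i, hi⟩)).2, Fin.eta, eta_ng, eta_self]
    rfl
  · have e : D.reflectRoot i s = (rf (sm (D := D) ⟨i, hi⟩) ⟨s, hs⟩ : ℕ) := (rf_sm_val ⟨i, hi⟩ ⟨s, hs⟩).symm
    simp only [e, dif_pos hs, dif_pos (rf (sm (D := D) ⟨i, hi⟩) ⟨s, hs⟩).2, Fin.eta]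
    rw [← Units.val_mul, eta_mul_eta_rf, A_sm]
    rcases Int.even_or_odd (D.cartan i s) with h | h
    · rw [h.neg_one_zpow, (Int.natAbs_even.2 h).neg_one_pow]; rfl
    · rw [h.neg_one_zpow, (Int.natAbs_odd.2 h).neg_one_pow]; rfl
  · have e : D.neg s = (ng (D := D) ⟨s, hs⟩ : ℕ) := (ng_val (D := D) ⟨s, hs⟩).symm
    simp only [e, dif_pos hs, dif_pos (ng (D := D) ⟨s, hs⟩).2, Fin.eta, eta_ng]
    rw [← Units.val_mul, Int.units_mul_self]; rfl
  · have h := nG_val (D := D) (F := F) (sm ⟨i, hi⟩) 1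
    rw [Units.val_one, sm_val] at h
    rw [← h]
    ext row col
    rcases col with j | s
    · rw [nG_apply_h]
      rcases row with a | a
      · simp only [Sum.elim_inl, Matrix.of_apply, cor_sm, A_sm, sm_val, Pi.single_apply, Fin.ext_iff]
        split_ifs <;> simp
      · rfl
    · rw [nG_apply_root]
      rcases row with a | a
      · simp
      · simp only [Sum.elim_inr, Matrix.of_apply, Sum.inr.injEq, Fin.ext_iff, rf_sm_val, dif_pos s.2, Fin.eta, one_zpow,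
          Units.val_one, mul_one]

end Cfsg.Agent.S1095
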