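import Cfsg.Statements.S1100
import Cfsg.Agent.CHEV.Core
import Cfsg.Agent.CHEV.GlueBN

set_option autoImplicit false
open Cfsg

namespace Cfsg.Agent.S1100

open CL.Chev

theorem aux {F : Type*} [Field F] {D : Cfsg.Lie.ChevalleyDatum} [Good D] {n : GL D.Idx F} {w : Equiv.Perm (Rt D)}
    (h : (stData D F).Acts n w) :
    Subgroup.closure {x : GL D.Idx F | ∃ (r : ℕ) (t : F), D.IsPosRoot r ∧
      (D.rootSubgroup F r).map (MulAut.conj n).toMonoidHom ≤ D.negUnipotent F ∧ (x : Matrix D.Idx D.Idx F) = D.x F r t} =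
      (stData D F).XS ((rootSys D).invs w) := by
  have h1 := closure_x_eq (D := D) (F := F) (fun r => D.IsPosRoot r ∧
    (D.rootSubgroup F r).map (MulAut.conj n).toMonoidHom ≤ D.negUnipotent F) fun r h => h.1.1
  simp only [and_assoc] at h1
  rw [h1]; congr 1; ext r
  simp only [Set.mem_ofPred_eq, RootSys.invs, rootSys_isPos' r, ← stData_X, ← stData_V, StData.X, h.map_conj_XS,
    Set.image_singleton]
  refine and_congr_right fun _ => ⟨fun h2 hp => ?_, fun h2 => (stData D F).XS_le_V (by rintro _ rfl; exact h2)⟩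
  have := stData_good.eq_one_of_mem_B_V ((stData D F).U_le_B ((stData D F).x_mem_U hp 1))
    (h2 ((stData D F).x_mem_X _ 1))
  exact one_ne_zero (stData_good.x_inj _ _ this)

/-- Canonical form `g = b n_w u` (`b ∈ B`, `u ∈ U_w⁻ = ⟨X_r : r > 0, n_w X_r n_w⁻¹ ≤ V⟩`): such a decomposition exists for every element of the group; the coset `n_w H` is determined by `g`; and for a fixed representative `n_w` the factors `b`, `u` are unique. -/
theorem result {F : Type*} [Field F] (D : Cfsg.Lie.ChevalleyDatum) (hD : D ∈ [Cfsg.Lie.chevG2, Cfsg.Lie.chevB2, Cfsg.Lie.chevD4, Cfsg.Lie.chevF4, Cfsg.Lie.chevE6, Cfsg.Lie.chevE7, Cfsg.Lie.chevE8]) :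
    (∀ g ∈ D.group F, ∃ b ∈ D.borelSubgroup F, ∃ n ∈ D.monomialSubgroup F,
      ∃ u ∈ Subgroup.closure {x : GL D.Idx F | ∃ (r : ℕ) (t : F), D.IsPosRoot r ∧
            (D.rootSubgroup F r).map (MulAut.conj n).toMonoidHom ≤ D.negUnipotent F ∧ (x : Matrix D.Idx D.Idx F) = D.x F r t},
        g = b * n * u) ∧
    (∀ (b b' n n' u u' : GL D.Idx F), b ∈ D.borelSubgroup F → b' ∈ D.borelSubgroup F →
      n ∈ D.monomialSubgroup F → n' ∈ D.monomialSubgroup F →
      u ∈ Subgroup.closure {x : GL D.Idx F | ∃ (r : ℕ) (t : F), D.IsPosRoot r ∧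
            (D.rootSubgroup F r).map (MulAut.conj n).toMonoidHom ≤ D.negUnipotent F ∧ (x : Matrix D.Idx D.Idx F) = D.x F r t} →
      u' ∈ Subgroup.closure {x : GL D.Idx F | ∃ (r : ℕ) (t : F), D.IsPosRoot r ∧
            (D.rootSubgroup F r).map (MulAut.conj n').toMonoidHom ≤ D.negUnipotent F ∧ (x : Matrix D.Idx D.Idx F) = D.x F r t} →
      b * n * u = b' * n' * u' → n⁻¹ * n' ∈ D.diagonalSubgroup F ∧ (n = n' → b = b' ∧ u = u')) := by
  obtain ⟨inst⟩ := CL.Chev.good_of_mem hD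
  rw [← stData_B, ← stData_N, ← stData_grp, ← stData_H]
  constructor
  · intro g hg
    obtain ⟨b, hb, m, hm, w, ha, u, hu, e⟩ := (stData D F).exists_normal hg
    exact ⟨b, hb, m, hm, u, by rwa [aux ha], e⟩
  · intro b b' n n' u u' hb hb' hn hn' hu hu' e
    obtain ⟨w, ha⟩ := (stData D F).exists_acts_of_mem_N hn
    obtain ⟨w', ha'⟩ := (stData D F).exists_acts_of_mem_N hn'
    rw [aux ha] at hu
    rw [aux ha'] at hu'
    obtain rfl := stData_good.eq_of_bruhat' ha ha' hb ((stData D F).U_le_B ((stData D F).XS_le_U (fun r hr => hr.1) hu))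
      hb' ((stData D F).U_le_B ((stData D F).XS_le_U (fun r hr => hr.1) hu')) e
    refine ⟨stData_good.inv_mul_mem_H hn hn' ha ha', ?_⟩
    rintro rfl
    exact stData_good.normal_unique ha hb hb' hu hu' e

end Cfsg.Agent.S1100
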