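import Cfsg.Statements.S1101
import Cfsg.Agent.CHEV.TwG2

set_option autoImplicit false
open Cfsg

namespace Cfsg.Agent.S1101

/-- For ²G₂ over `K` with `|K| = 3^(2m+1)`, `θ = 3^m`: `U¹ = G¹ ∩ U` consists exactly of the elements `x_a(t^θ) x_b(t) x_{a+b}(t^{θ+1}+u^θ) x_{2a+b}(t^{2θ+1}+v^θ) x_{3a+b}(u) x_{3a+2b}(v)`, `t, u, v ∈ K`, and it has `|K|³` elements. -/
theorem result {K : Type*} [Field K] [Fintype K] {m : ℕ} (hK : Fintype.card K = 3 ^ (2 * m + 1)) :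
    (∀ g : GL Cfsg.Lie.chevG2.Idx K, g ∈ Cfsg.Lie.chevG2.posUnipotent K ⊓ Cfsg.Lie.twistedG2 K (3 ^ m) ↔
      ∃ t u v : K, (g : Matrix Cfsg.Lie.chevG2.Idx Cfsg.Lie.chevG2.Idx K) = Cfsg.Lie.chevG2.wordMat K (Cfsg.Lie.reeWordU (3 ^ m) t u v)) ∧
    Nat.card ↥(Cfsg.Lie.chevG2.posUnipotent K ⊓ Cfsg.Lie.twistedG2 K (3 ^ m)) = (3 ^ (2 * m + 1)) ^ 3 := by
  obtain ⟨T, θ, h, -, hM, hgen, hz⟩ := CL.Chev.exists_twist_G2 (Nat.card_eq_fintype_card.trans hK)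
  refine ⟨fun g => ?_, (CL.Chev.card_U_jG _).symm.trans (h.card_U CL.Chev.stG_good hM)⟩
  have key : ∀ g : Cfsg.Lie.chevG2.group K,
      (g : GL Cfsg.Lie.chevG2.Idx K) ∈ Cfsg.Lie.chevG2.posUnipotent K ⊓ Cfsg.Lie.twistedG2 K (3 ^ m) ↔
      ∃ t u v : K, g = CL.Chev.evG Cfsg.Lie.chevG2 (Cfsg.Lie.reeWordU (3 ^ m) t u v) := fun g => by
    have e := CL.Chev.mem_U_iff_reeWordU (Nat.card_eq_fintype_card.trans hK) g
    rw [CL.Chev.stG_U] at e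
    exact (and_congr Iff.rfl (CL.Chev.mem_range_inclusion _)).symm.trans e
  constructor
  · intro hg
    obtain ⟨t, u, v, e⟩ := (key ⟨g, CL.Chev.genSub_le _ hg.2⟩).1 hg
    exact ⟨t, u, v, by rw [← CL.Chev.evG_val, ← e]⟩
  · rintro ⟨t, u, v, e⟩
    rw [← CL.Chev.evG_val, Units.val_inj] at e
    exact e ▸ (key _).2 ⟨t, u, v, rfl⟩

end Cfsg.Agent.S1101
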