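import Cfsg.Statements.S1106
import Cfsg.Agent.CHEV.TwD4

set_option autoImplicit false
open Cfsg

namespace Cfsg.Agent.S1106

/-- `|H¹| = |G¹ ∩ H|`: `|H¹| = (q - 1) ^ 2 * (q ^ 2 + q + 1)` for ³D₄(q). -/
theorem result {K : Type*} [Field K] [Fintype K] {q : ℕ} (hq : IsPrimePow q) (hK : Fintype.card K = q ^ 3) :
    Nat.card ↥(Cfsg.Lie.chevD4.diagonalSubgroup K ⊓ Cfsg.Lie.twistedD4 K q) = (q - 1) ^ 2 * (q ^ 2 + q + 1) := by
  obtain ⟨T, h, hM, hgen⟩ := CL.Chev.exists_twist_D4 hq (Nat.card_eq_fintype_card.trans hK)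
  exact (CL.Chev.card_H_jG _).symm.trans (h.card_H CL.Chev.stG_good hM CL.Chev.stG_adjoint)

end Cfsg.Agent.S1106
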