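import Cfsg.Statements.S1108
import Cfsg.Agent.CHEV.TwD4

set_option autoImplicit false
open Cfsg

namespace Cfsg.Agent.S1108

/-- ³D₄(q) equals its derived subgroup. -/
theorem result {K : Type*} [Field K] [Fintype K] {q : ℕ} (hq : IsPrimePow q) (hK : Fintype.card K = q ^ 3) : commutator ↥(Cfsg.Lie.twistedD4 K q) = ⊤ := by
  obtain ⟨T, h, hM, hgen⟩ := CL.Chev.exists_twist_D4 hq (Nat.card_eq_fintype_card.trans hK)
  exact hM.commutator_eq_top CL.Chev.stG_good (CL.Chev.jG_injective _) hgen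
    (h.pos_le_commutator CL.Chev.stG_good hM CL.Chev.stG_adjoint)

end Cfsg.Agent.S1108
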