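import Cfsg.Statements.S1132
import Cfsg.Agent.CHEV.PSCoord
import Cfsg.Agent.S0205
import Cfsg.Agent.S1129

set_option autoImplicit false
open Cfsg

namespace Cfsg.Agent.S1132

/-- In the rank-one set-up (`G` finite and doubly transitive on `Ω`, `t` an involution moving `a`, `Q` normal in `G_a` with `G_a = Q D`, `Q ⊓ D = 1` for the two-point stabiliser `D = G_a ⊓ G_{t • a}`, `|Q|` even, `|D|` odd), with the action faithful and `G` containing two distinct commuting involutions: a Sylow 2-subgroup of `Q` is abelian or a Suzuki 2-group. -/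
theorem result {G Ω : Type*} [Group G] [Finite G] [MulAction G Ω] [FaithfulSMul G Ω] {a : Ω} {t : G} {Q : Subgroup G}
    (hS : Cfsg.IsRankOneSetup G Ω a t Q)
    (h2 : ∃ x y : G, x ≠ 1 ∧ y ≠ 1 ∧ x ≠ y ∧ x * x = 1 ∧ y * y = 1 ∧ x * y = y * x)
    (S : Sylow 2 ↥Q) : IsMulCommutative (S : Subgroup ↥Q) ∨ Cfsg.IsSuzukiTwoGroup ↥(S : Subgroup ↥Q) := by
  obtain ⟨n, -, ⟨C⟩⟩ := CL.PS.exists_FC hS h2 (Cfsg.Agent.S0205.result hS.odd_card)
  have hnil := Cfsg.Agent.S1129.result hS h2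
  have hn : (S : Subgroup Q).Normal := inferInstance
  have hch : (S : Subgroup Q).Characteristic := S.characteristic_of_normal hn
  by_cases hab : IsMulCommutative (S : Subgroup Q)
  · exact Or.inl hab
  right
  let _ := C.act hS
  have hi : CL.PS.KInv (GaloisField 2 n) (S : Subgroup Q) := fun k x hx => by
    have := hch.fixed (MulDistribMulAction.toMulAut _ Q k)
    rw [← this] at hx
    exact hx
  let _ := hi.action
  have hz : ∀ x, (⟨C.z x, C.z_mem x⟩ : Q) ∈ (S : Subgroup Q) := fun x => by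
    refine (S.is_maximal' (Q := (S : Subgroup Q) ⊔ Subgroup.zpowers ⟨C.z x, C.z_mem x⟩) ?_ le_sup_left) ▸
      Subgroup.mem_sup_right (Subgroup.mem_zpowers _)
    refine IsPGroup.to_sup_of_normal_left S.2 ?_
    rintro ⟨_, m, rfl⟩
    refine ⟨1, Subtype.ext (Subtype.ext ?_)⟩
    show (C.z x ^ m) ^ 2 ^ 1 = 1
    rw [pow_one, ← zpow_natCast, ← zpow_mul, mul_comm, zpow_mul, zpow_natCast, pow_two, C.z_mul_self, one_zpow]
  have hv : ∀ (k : (GaloisField 2 n)ˣ) (x : (S : Subgroup Q)),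
      ((MulDistribMulAction.toMulAut _ _ k x : (S : Subgroup Q)) : G) = C.κ k * x * (C.κ k)⁻¹ := fun _ _ => rfl
  have hex : ∀ x : (S : Subgroup Q), x ≠ 1 → x * x = 1 → ∃ u, u ≠ 0 ∧ C.z u = x := by
    intro x h1 h2
    obtain ⟨u, hu⟩ := C.exists_z x.1.2 (congrArg (fun y => y.1.1) h2)
    refine ⟨u, ?_, hu⟩
    rintro rfl
    exact h1 (Subtype.ext (Subtype.ext (hu.symm.trans C.z_zero)))
  refine ⟨inferInstance, S.2, ?_, ?_, (MulDistribMulAction.toMulAut (GaloisField 2 n)ˣ _).range,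
    isCyclic_of_surjective _ (MonoidHom.rangeRestrict_surjective _), fun x y hx1 hx2 hy1 hy2 => ?_⟩
  · by_contra h
    push Not at h
    exact hab ⟨⟨h⟩⟩
  · obtain ⟨c, h0, h1⟩ := C.four
    refine ⟨⟨_, hz 1⟩, ⟨_, hz c⟩, fun h => h1 (C.z_inj (congrArg (fun y => y.1.1) h)).symm,
      fun h => one_ne_zero (C.z_eq_one_iff.mp (congrArg (fun y => y.1.1) h)),
      Subtype.ext (Subtype.ext (C.z_mul_self _)),
      fun h => h0 (C.z_eq_one_iff.mp (congrArg (fun y => y.1.1) h)),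
      Subtype.ext (Subtype.ext (C.z_mul_self _))⟩
  · obtain ⟨u, hu0, hu⟩ := hex x hx1 hx2
    obtain ⟨v, hv0, hv'⟩ := hex y hy1 hy2
    refine ⟨⟨_, Units.mk0 (v / u) (div_ne_zero hv0 hu0), rfl⟩, Subtype.ext (Subtype.ext ?_), ?_⟩
    · rw [hv, ← hu, ← hv', C.conj_z, Units.val_mk0, div_mul_cancel₀ _ hu0]
    · rintro ⟨_, k, rfl⟩ hk
      have h1 := congrArg (fun y => y.1.1) hk
      simp only at h1
      rw [hv, ← hu, ← hv', C.conj_z] at h1
      have h3 : k = Units.mk0 (v / u) (div_ne_zero hv0 hu0) :=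
        Units.ext (by rw [Units.val_mk0, eq_div_iff hu0, C.z_inj h1])
      rw [h3]

end Cfsg.Agent.S1132
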