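import Cfsg.Statements.S1133
import Cfsg.Agent.CHEV.PSCoord
import Cfsg.Agent.S0205

set_option autoImplicit false
open Cfsg

namespace Cfsg.Agent.S1133

/-- In the rank-one set-up (`G` finite and doubly transitive on `Ω`, `t` an involution moving `a`, `Q` normal in `G_a` with `G_a = Q D`, `Q ⊓ D = 1` for the two-point stabiliser `D = G_a ⊓ G_{t • a}`, `|Q|` even, `|D|` odd), with the action faithful and `G` containing two distinct commuting involutions, with `V = C_D(t)`, `K` the elements of `D` inverted by `t` and `W = C_V(K)`: `V/W` is cyclic, i.e. `V = W ⟨v⟩` for some `v ∈ V`. -/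
theorem result {G Ω : Type*} [Group G] [Finite G] [MulAction G Ω] [FaithfulSMul G Ω] {a : Ω} {t : G} {Q : Subgroup G}
    (hS : Cfsg.IsRankOneSetup G Ω a t Q)
    (h2 : ∃ x y : G, x ≠ 1 ∧ y ≠ 1 ∧ x ≠ y ∧ x * x = 1 ∧ y * y = 1 ∧ x * y = y * x) :
    ∃ v ∈ (MulAction.stabilizer G a ⊓ MulAction.stabilizer G (t • a)) ⊓ Subgroup.centralizer {t},
      ((MulAction.stabilizer G a ⊓ MulAction.stabilizer G (t • a)) ⊓ Subgroup.centralizer {t} ⊓ Subgroup.centralizer (Cfsg.invertedBy (MulAction.stabilizer G a ⊓ MulAction.stabilizer G (t • a)) t)) ⊔ Subgroup.closure {v} =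
        (MulAction.stabilizer G a ⊓ MulAction.stabilizer G (t • a)) ⊓ Subgroup.centralizer {t} := by
  obtain ⟨n, -, ⟨C⟩⟩ := CL.PS.exists_FC hS h2 (Cfsg.Agent.S0205.result hS.odd_card)
  obtain ⟨v, hv, h⟩ := C.exists_W_sup_eq_V hS
  refine ⟨v, hv, le_antisymm (sup_le inf_le_left ?_) fun u hu => ?_⟩
  · rw [Subgroup.closure_le]
    rintro _ rfl
    exact hv
  · obtain ⟨w, hw, n, rfl⟩ := h u hu
    have h1 : v ∈ Subgroup.closure ({v} : Set G) := Subgroup.subset_closure (Set.mem_singleton v)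
    exact mul_mem (Subgroup.mem_sup_left hw) (Subgroup.mem_sup_right (zpow_mem h1 n))

end Cfsg.Agent.S1133
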