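import Cfsg.Statements.S1142
import Cfsg.Agent.CHEV.FeitHigman2

set_option autoImplicit false
open Cfsg

namespace Cfsg.Agent.S1142

/-- Feit–Higman: if a finite group has a (B,N)-pair of rank 2, its Weyl group `N/(B ⊓ N)` has order 4, 6, 8, 12 or 16. -/
theorem result {G : Type*} [Group G] [Finite G] (P : Cfsg.BNPair G)
    (h2 : P.rank = 2) :
    ((P.B ⊓ P.N).subgroupOf P.N).index ∈ ({4, 6, 8, 12, 16} : Set ℕ) := by
  obtain ⟨s, t, hst, hall⟩ := Nat.card_eq_two_iff.1 h2
  have hall' : ∀ k : P.S, k = s ∨ k = t := fun k => by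
    have : k ∈ ({s, t} : Set P.S) := hall ▸ Set.mem_univ k
    simpa using this
  have h := CL.BN.feit_higman P hst hall'
  have := CL.BN.finite_W P
  have hst' : CL.BN.sW P s ≠ CL.BN.sW P t := fun e => hst (CL.BN.sW_injective P e)
  rw [← CL.BN.card_W, (CL.BN.exch P).card_dihedral hst' hall']
  simp only [Set.mem_insert_iff, Set.mem_singleton_iff] at h ⊢
  omega

end Cfsg.Agent.S1142
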