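import Cfsg.Statements.S1143
import Cfsg.Agent.CHEV.TB.Main

set_option autoImplicit false
open Cfsg

namespace Cfsg.Agent.S1143

/-- Tits: a finite simple group with an irreducible (B,N)-pair of rank at least `3` is of Lie type: it satisfies one of the classical predicates or is one of the exceptional groups. -/
theorem result {G : Type*} [Group G] [Finite G] [IsSimpleGroup G]
    (P : Cfsg.BNPair G) (h3 : 3 ≤ P.rank) (hirr : P.Irreducible) :
    Cfsg.IsPSL G ∨ Cfsg.IsPSp G ∨ Cfsg.IsPSU G ∨ Cfsg.IsPOmegaOdd G ∨ Cfsg.IsPOmegaPlus G ∨ Cfsg.IsPOmegaMinus G ∨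
      Cfsg.IsExceptionalLieType G :=
  CL.TB.main P h3 hirr

end Cfsg.Agent.S1143
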