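import Cfsg.Statements.S1151
import Mathlib
import Cfsg.Agent.CHEV.ReeConcrete
import Cfsg.Agent.CHEV.ReeBasic

set_option autoImplicit false
open Cfsg

namespace Cfsg.Agent.S1151

theorem card_odd {C : Type*} [Group C] [Finite C] [IsCyclic C] {k : ℕ} (hk : Odd k) (h : Nat.card C = 2 * k) :
    Nat.card {h : C // Odd (orderOf h)} = k := by
  classical
  have := Fintype.ofFinite C
  have e : ∀ g : C, Odd (orderOf g) ↔ g ^ k = 1 := fun g => by
    rw [← orderOf_dvd_iff_pow_eq_one]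
    refine ⟨fun hg => ?_, fun hg => hk.of_dvd_nat hg⟩
    exact (Nat.coprime_two_right.mpr hg).dvd_of_dvd_mul_left (h ▸ orderOf_dvd_natCard g)
  simp only [e]
  let _ := IsCyclic.commGroup (α := C)
  have h2 := IsCyclic.card_powMonoidHom_ker C k
  rw [h, Nat.gcd_eq_right (dvd_mul_left _ _)] at h2
  exact h2

/-- In the small Ree group ²G₂(q), q = 3^(2m+1), realised as G¹ inside the Chevalley group G₂ over the field with q elements (θ the 3^m-th power map), with H¹ = G¹ ∩ H and U¹ = G¹ ∩ U the intersections with the ambient diagonal and positive unipotent subgroups: `H¹` has exactly `(q - 1)/2` elements of odd order, and each non-identity one centralises no non-identity element of `U¹`. -/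
theorem result {K : Type*} [Field K] [Fintype K] {m : ℕ} (hK : Fintype.card K = 3 ^ (2 * m + 1)) :
    2 * Nat.card {h : ↥(Cfsg.Lie.chevG2.diagonalSubgroup K ⊓ Cfsg.Lie.twistedG2 K (3 ^ m)) // Odd (orderOf h)} = 3 ^ (2 * m + 1) - 1 ∧
      ∀ h ∈ (Cfsg.Lie.chevG2.diagonalSubgroup K ⊓ Cfsg.Lie.twistedG2 K (3 ^ m)), h ≠ 1 → Odd (orderOf h) →
        (Cfsg.Lie.chevG2.posUnipotent K ⊓ Cfsg.Lie.twistedG2 K (3 ^ m)) ⊓ Subgroup.centralizer {h} = ⊥ := by
  have := CL.Ree.charP_three hK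
  have hK' := Nat.card_eq_fintype_card.trans hK
  set M := CL.Ree.model hK'
  have := M.finite_G
  have e : M.H ≃* ↥(Cfsg.Lie.chevG2.diagonalSubgroup K ⊓ Cfsg.Lie.twistedG2 K (3 ^ m)) :=
    (MulEquiv.subgroupCongr (CL.Ree.model_H hK')).trans (Subgroup.subgroupOfEquivOfLe inf_le_right)
  constructor
  · have := M.isCyclic_H
    have := isCyclic_of_surjective _ e.surjective
    have := Finite.of_equiv _ e.toEquiv
    have h4 : 3 ^ (2 * m + 1) % 4 = 3 := by rw [pow_succ, pow_mul, Nat.mul_mod, Nat.pow_mod]; simp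
    rw [card_odd (k := 2 * (3 ^ (2 * m + 1) / 4) + 1) (odd_two_mul_add_one _)
      (by rw [← Nat.card_congr e.toEquiv, M.card_H, hK']; omega)]
    omega
  · intro h ⟨h1, h2⟩ h3 h4
    rw [eq_bot_iff]
    rintro u ⟨⟨u1, u2⟩, u3⟩
    by_contra hu
    have hu' : (⟨u, u2⟩ : Cfsg.Lie.twistedG2 K (3 ^ m)) ≠ 1 := fun h => hu (congrArg Subtype.val h)
    have h5 := (CL.Ree.mem_H_iff hK' ⟨h, h2⟩).mpr h1
    have h6 := M.sq_mem_U_of_commute ((CL.Ree.mem_U_iff hK' ⟨u, u2⟩).mpr u1) hu' (k := ⟨h, h2⟩)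
      (Subtype.ext (Subgroup.mem_centralizer_singleton_iff.mp u3).symm)
    obtain ⟨l, hl⟩ := M.mem_H.mp (mul_mem h5 h5)
    rw [hl, M.h_mem_U] at h6
    rw [h6, map_one] at hl
    have h7 : orderOf h ∣ 2 := orderOf_dvd_of_pow_eq_one (by rw [sq]; exact congrArg Subtype.val hl)
    rcases (Nat.dvd_prime Nat.prime_two).mp h7 with h8 | h8
    · exact h3 (orderOf_eq_one_iff.mp h8)
    · rw [h8] at h4; exact absurd h4 (by decide)

end Cfsg.Agent.S1151
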