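import Cfsg.Statements.S1167
import Cfsg.Agent.CHEV.PSZass

set_option autoImplicit false
open Cfsg

namespace Cfsg.Agent.S1167

/-- Let `G` be a finite simple Zassenhaus group on `Ω`, `U` a normal subgroup of `G_a` regular on `Ω` minus `a` which is an abelian 2-group, and `v` an involution with `v • a ≠ a`. Then there is a unique `u₀ ∈ U`, `u₀ ≠ 1`, with `v u₀ v = u₀ v u₀`. -/
theorem result {G Ω : Type*} [Group G] [Finite G] [MulAction G Ω] [Finite Ω]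
    (hZ : Cfsg.IsZassenhausGroup G Ω) [IsSimpleGroup G] {a : Ω}
    (U : Subgroup G) (hUle : U ≤ MulAction.stabilizer G a)
    (hUn : ∀ h ∈ MulAction.stabilizer G a, ∀ u ∈ U, h * u * h⁻¹ ∈ U)
    (hreg : ∀ c d : Ω, c ≠ a → d ≠ a → ∃! u : U, (u : G) • c = d)
    (hU2 : IsPGroup 2 U) (hUab : ∀ u ∈ U, ∀ u' ∈ U, u * u' = u' * u)
    (v : G) (hv1 : v ≠ 1) (hv2 : v * v = 1) (hva : v • a ≠ a) :
    ∃! u₀ : G, u₀ ∈ U ∧ u₀ ≠ 1 ∧ v * u₀ * v = u₀ * v * u₀ := by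
  have := hZ.1
  obtain ⟨hS, hV, h2⟩ := (CL.PS.setup_of_zassenhaus hZ hUle hUn hreg hU2 hva).2.2 v hv2 rfl
  obtain ⟨n, -, ⟨C⟩⟩ := CL.PS.exists_FC hS h2 (CL.PS.isSolvable_D_of_V_eq_bot hS hV)
  have hQ := (CL.PS.elem_or_of_V_eq_bot hS hV C h2).resolve_right
    fun ⟨_, x, hx, y, hy, h⟩ => h (hUab x hx y hy)
  have hs := C.z_mem_I hS one_ne_zero
  have hr := CL.PS.r_eq_of_mul_self hS hs C.r_mem C.tst (hQ _ C.r_mem)
  refine ⟨C.z 1, ⟨C.z_mem 1, hs.2.1, by rw [C.tst, hr, C.z_inv]⟩, fun u ⟨hu, hu1, h⟩ => ?_⟩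
  exact (CL.PS.structure_inj hS (CL.PS.mem_I_of_mem_Q hS hu hu1 (hQ u hu)) hs hu C.r_mem
    (by rw [h, CL.PS.inv_eq_of_mul_self (hQ u hu)]) C.tst).1

end Cfsg.Agent.S1167
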