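import Cfsg.Statements.S1168
import Cfsg.Agent.CHEV.PSField

set_option autoImplicit false
open Cfsg

namespace Cfsg.Agent.S1168

/-- For a finite field `F` of characteristic 2: if `q : F → F` is quadratic over the prime field, i.e. `(x, y) ↦ q (x + y) + q x + q y` is additive in each variable, then `q x = Σ c_{σ,τ} σ(x) τ(x)` for some coefficients indexed by pairs of field automorphisms. -/
theorem result {F : Type*} [Field F] [Fintype F] [CharP F 2]
    (q : F → F)
    (hq : ∀ x y z : F, q (x + y + z) + q (x + y) + q (x + z) + q (y + z) + q x + q y + q z = 0) :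
    ∃ (s : Finset ((F ≃+* F) × (F ≃+* F))) (c : (F ≃+* F) × (F ≃+* F) → F),
      ∀ x : F, q x = ∑ p ∈ s, c p * (p.1 x * p.2 x) := by
  classical
  have := CL.PS.finite_aut (F := F)
  have := Fintype.ofFinite (F ≃+* F)
  have h2 : (2 : F) = 0 := CharTwo.two_eq_zero
  have h0 : q 0 = 0 := by
    have := hq 0 0 0
    simp only [add_zero] at this
    linear_combination this - 3 * q 0 * h2
  let B : F →+ F →+ F := AddMonoidHom.mk' (fun x => AddMonoidHom.mk' (fun y => q (x + y) + q x + q y)
    (fun y z => by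
      have := hq x y z
      rw [← add_assoc]
      linear_combination this - (q (x + y) + q (x + z) + q x + q y + q z) * h2))
    (fun x y => by
      ext z
      have := hq x y z
      simp only [AddMonoidHom.mk'_apply, AddMonoidHom.add_apply]
      linear_combination this - (q (x + z) + q (y + z) + q x + q y + q z) * h2)
  have hB : ∀ x y, B x y = q (x + y) + q x + q y := fun _ _ => rfl
  obtain ⟨c, hc⟩ := CL.PS.exists_sum_aut_two B
  have hsymm : ∀ σ τ, c σ τ = c τ σ := by
    intro σ τ
    have := CL.PS.sum_aut_two_eq_zero (c := fun σ τ => c σ τ - c τ σ) (fun x y => by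
      simp only [sub_mul, Finset.sum_sub_distrib]
      rw [← hc, Finset.sum_comm]
      have : ∑ τ, ∑ σ, c τ σ * (σ x * τ y) = B y x := by
        rw [hc]; simp only [mul_comm]
      rw [this, hB, hB, add_comm y x]; ring) σ τ
    exact sub_eq_zero.mp this
  let _ : LinearOrder (F ≃+* F) := LinearOrder.lift' (Fintype.equivFin _) (Equiv.injective _)
  let c' : (F ≃+* F) → (F ≃+* F) → F := fun σ τ => if σ < τ then c σ τ else 0
  have hc' : ∀ σ τ, c σ τ = c' σ τ + c' τ σ + if σ = τ then c σ σ else 0 := by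
    intro σ τ
    rcases lt_trichotomy σ τ with h | h | h
    · simp [c', h, h.ne, not_lt.mpr h.le]
    · simp [c', h]
    · simp [c', h, h.ne', not_lt.mpr h.le, hsymm σ τ]
  have hB2 : ∀ x y, B x y = ∑ σ, ∑ τ, c' σ τ * (σ x * τ y) + ∑ σ, ∑ τ, c' σ τ * (σ y * τ x) +
      ∑ σ, c σ σ * σ (x * y) := by
    intro x y
    rw [hc, Finset.sum_comm (f := fun σ τ => c' σ τ * (σ y * τ x)), ← Finset.sum_add_distrib,
      ← Finset.sum_add_distrib]
    refine Finset.sum_congr rfl fun σ _ => ?_
    have : c σ σ * σ (x * y) = ∑ τ, (if σ = τ then c σ σ else 0) * (σ x * τ y) := by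
      simp
    rw [this, ← Finset.sum_add_distrib, ← Finset.sum_add_distrib]
    refine Finset.sum_congr rfl fun τ _ => ?_
    rw [hc' σ τ]; ring
  have hdiag : ∀ σ, c σ σ = 0 := by
    apply CL.PS.sum_aut_eq_zero (c := fun σ => c σ σ)
    intro z
    obtain ⟨x, rfl⟩ := (CL.PS.frob F).surjective z
    have e := hB2 x x
    rw [hB, CharTwo.add_self_eq_zero, h0, CharTwo.add_self_eq_zero, zero_add, zero_add,
      CharTwo.add_self_eq_zero] at e
    rw [CL.PS.frob_apply, ← e]
  let f : F →+ F := AddMonoidHom.mk' (fun x => q x - ∑ σ, ∑ τ, c' σ τ * (σ x * τ x)) (fun x y => by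
    have e := hB2 x y
    simp only [hdiag, zero_mul, Finset.sum_const_zero, add_zero, hB] at e
    have e2 : ∑ σ, ∑ τ, c' σ τ * (σ (x + y) * τ (x + y)) = ∑ σ, ∑ τ, c' σ τ * (σ x * τ x) +
        ∑ σ, ∑ τ, c' σ τ * (σ y * τ y) + ∑ σ, ∑ τ, c' σ τ * (σ x * τ y) +
        ∑ σ, ∑ τ, c' σ τ * (σ y * τ x) := by
      simp only [← Finset.sum_add_distrib]
      refine Finset.sum_congr rfl fun σ _ => Finset.sum_congr rfl fun τ _ => ?_
      simp only [map_add]; ring
    rw [e2]
    linear_combination e - (q x + q y) * h2)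
  obtain ⟨d, hd⟩ := CL.PS.exists_sum_aut f
  let r : (F ≃+* F) → (F ≃+* F) := fun σ => (CL.PS.frob F).symm.trans σ
  have hr : ∀ σ x, r σ x * r σ x = σ x := by
    intro σ x
    simp only [r]
    rw [RingEquiv.trans_apply, ← map_mul, ← CL.PS.frob_apply, RingEquiv.apply_symm_apply]
  refine ⟨Finset.univ, fun p => c' p.1 p.2 + ∑ σ, if r σ = p.1 ∧ r σ = p.2 then d σ else 0, fun x => ?_⟩
  have e := hd x
  simp only [f, AddMonoidHom.mk'_apply] at e
  simp only [add_mul, Finset.sum_add_distrib, Finset.sum_mul]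
  rw [Finset.sum_comm, Fintype.sum_prod_type, sub_eq_iff_eq_add.mp e, add_comm]
  congr 1
  refine Finset.sum_congr rfl fun σ _ => ?_
  rw [Finset.sum_eq_single (r σ, r σ)]
  · simp [hr]
  · rintro ⟨a, b⟩ _ hne
    rw [if_neg, zero_mul]
    rintro ⟨rfl, rfl⟩
    exact hne rfl
  · simp

end Cfsg.Agent.S1168
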