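import Cfsg.Statements.S1178

set_option autoImplicit false
open Cfsg

namespace Cfsg.Agent.S1178

/-- Let A be a subgroup of a Sylow 2-subgroup S of the finite group G which is weakly closed in S. If a conjugate g A g⁻¹ commutes elementwise with A, then g A g⁻¹ = A. -/
theorem result {G : Type*} [Group G] [Finite G] (S : Sylow 2 G) (A : Subgroup G) (hW : Cfsg.IsWeaklyClosed A (S : Subgroup G)) (g : G) (hc : ∀ a ∈ A, ∀ b ∈ A.map (MulAut.conj g).toMonoidHom, a * b = b * a) : A.map (MulAut.conj g).toMonoidHom = A := by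
  set B := A.map (MulAut.conj g).toMonoidHom with hB
  have hA : IsPGroup 2 A := S.2.to_le hW.1
  have hB2 : IsPGroup 2 B := hA.map _
  have hAB : IsPGroup 2 (A ⊔ B : Subgroup G) := by
    apply IsPGroup.to_sup_of_normal_right' hA hB2
    intro a ha
    apply Subgroup.centralizer_le_normalizer
    intro b hb
    exact (hc a ha b hb).symm
  obtain ⟨T, hT⟩ := hAB.exists_le_sylow
  obtain ⟨h, rfl⟩ := MulAction.exists_smul_eq G S T
  have key : ∀ X : Subgroup G, X ≤ (h • S : Sylow 2 G) →
      X.map (MulAut.conj h⁻¹).toMonoidHom ≤ S := by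
    rintro X hX _ ⟨x, hx, rfl⟩
    have := hX hx
    rw [Sylow.coe_subgroup_smul, Subgroup.mem_pointwise_smul_iff_inv_smul_mem] at this
    simpa using this
  have h1 := hW.2 _ (key A (le_sup_left.trans hT))
  have h2 : B.map (MulAut.conj h⁻¹).toMonoidHom = A.map (MulAut.conj (h⁻¹ * g)).toMonoidHom := by
    rw [hB, Subgroup.map_map]
    congr 1
    ext x
    simp [mul_assoc]
  have h3 := hW.2 (h⁻¹ * g) (h2 ▸ key B (le_sup_right.trans hT))
  apply Subgroup.map_injective (f := (MulAut.conj h⁻¹).toMonoidHom) (MulAut.conj h⁻¹).injective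
  rw [h1, h2, h3]

end Cfsg.Agent.S1178
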