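import Cfsg.Statements.S1242
import Cfsg.Agent.INV.TransferCtl

set_option autoImplicit false
open Cfsg

namespace Cfsg.Agent.S1242

open scoped IsMulCommutative in

/-- Let G be a finite group, p a prime and H a subgroup of index prime to p such that any two elements of H of p-power order that are conjugate in G are conjugate in H. Then (O^p(G)·G') ∩ H = O^p(H)·H', where O^p denotes the subgroup generated by the elements of order prime to p. -/
theorem result {G : Type*} [Group G] [Finite G] {p : ℕ} [Fact p.Prime] (H : Subgroup G) (hidx : Nat.Coprime p H.index) (hfus : ∀ g ∈ H, (∃ k : ℕ, orderOf g = p ^ k) → ∀ a : G, a * g * a⁻¹ ∈ H → ∃ h ∈ H, h * g * h⁻¹ = a * g * a⁻¹) : (Cfsg.pResidual p G ⊔ commutator G) ⊓ H = (Cfsg.pResidual p ↥H ⊔ commutator ↥H).map H.subtype := by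
  have hn := CL.Iso.pResidual_normal' (G := H) p
  set K := Cfsg.pResidual p ↥H ⊔ commutator ↥H with hK
  have hKn : K.Normal := inferInstance
  apply le_antisymm
  · rintro x ⟨hx, hxH⟩
    have hcomm : IsMulCommutative (H ⧸ K) := by
      rw [Subgroup.Normal.quotient_commutative_iff_commutator_le]
      exact le_sup_right
    have hP : IsPGroup p (H ⧸ K) := CL.Iso.isPGroup_quotient_of_pResidual_le p K le_sup_left
    obtain ⟨i, j, ⟨k, hk⟩, hj, hxij⟩ := CL.Iso.exists_pPart p (⟨x, hxH⟩ : H)
    set y : H := ⟨x, hxH⟩ ^ i with hy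
    have h1 := CL.Iso.transfer_eq_pow_of_ctrl (QuotientGroup.mk' K) y (by
      intro l a h
      have hl : ∃ k : ℕ, orderOf ((y : G) ^ l) = p ^ k := by
        have : orderOf ((y : G) ^ l) ∣ p ^ k := by
          rw [← hk, ← Subgroup.orderOf_coe]
          exact orderOf_pow_dvd l
        obtain ⟨m, -, hm⟩ := (Nat.dvd_prime_pow Fact.out).mp this
        exact ⟨m, hm⟩
      obtain ⟨c, hc, hcy⟩ := hfus _ (H.pow_mem y.2 l) hl a⁻¹ (by simpa using h)
      have : (⟨_, h⟩ : H) = ⟨c, hc⟩ * y ^ l * ⟨c, hc⟩⁻¹ := by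
        apply Subtype.ext
        simpa using hcy.symm
      rw [this, map_mul, map_mul, map_inv, map_pow, mul_inv_cancel_comm])
    have h2 : Cfsg.pResidual p G ⊔ commutator G ≤ (MonoidHom.transfer (QuotientGroup.mk' K)).ker :=
      sup_le (CL.Iso.pResidual_le_ker p hP _) (Abelianization.commutator_subset_ker _)
    have h3 := h2 (Subgroup.pow_mem _ hx i)
    rw [MonoidHom.mem_ker] at h3
    have h4 : (y : G) = x ^ i := by simp [hy]
    rw [← h4, h1, ← map_pow, QuotientGroup.mk'_apply, QuotientGroup.eq_one_iff] at h3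
    have h5 : y ∈ K := CL.Iso.mem_of_pow_mem_of_coprime (n := H.index)
      (by rw [hk]; exact (Nat.Coprime.pow_left k hidx).symm) h3
    refine ⟨⟨x, hxH⟩, ?_, rfl⟩
    rw [hxij]
    exact K.mul_mem h5 (Subgroup.mem_sup_left (Subgroup.subset_closure hj))
  · refine le_inf ?_ (Subgroup.map_subtype_le _)
    rw [hK, Subgroup.map_sup]
    apply sup_le_sup
    · rw [Cfsg.pResidual, MonoidHom.map_closure]
      apply Subgroup.closure_mono
      rintro _ ⟨x, hx, rfl⟩
      change Nat.Coprime (orderOf (x : G)) p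
      rwa [Subgroup.orderOf_coe]
    · rw [commutator_def, commutator_def, Subgroup.map_commutator]
      exact Subgroup.commutator_mono le_top le_top

end Cfsg.Agent.S1242
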