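import Cfsg.Statements.S1183
import Cfsg.Agent.INV.Isolated
import Cfsg.Agent.S1242

set_option autoImplicit false
open Cfsg

namespace Cfsg.Agent.S1183

/-- Let z be an isolated involution of the finite group G and C = C_G(z). Then the subgroup of G generated by its elements of odd order is all of G if and only if the subgroup of C generated by its elements of odd order is all of C. -/
theorem result {G : Type*} [Group G] [Finite G] (z : G) (hz : Cfsg.IsIsolatedInvolution z) : Cfsg.pResidual 2 G = ⊤ ↔ Cfsg.pResidual 2 ↥(Subgroup.centralizer ({z} : Set G)) = ⊤ := by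
  set C := Subgroup.centralizer ({z} : Set G) with hC
  constructor
  · intro h
    have h1 := Cfsg.Agent.S1242.result (p := 2) C
      ((Nat.coprime_two_left).mpr (CL.Iso.iso_odd_index hz)) (by
        intro g hg _ a ha
        obtain ⟨c, -, hcz, hc⟩ := CL.Iso.iso_fusion_set hz ⊤
          (Subgroup.le_normalizer (Subgroup.mem_top z)) {g}
          (by rintro _ rfl; exact Subgroup.mem_centralizer_singleton_iff.mp hg) a (Subgroup.mem_top a)
          (by rintro _ rfl; exact Subgroup.mem_centralizer_singleton_iff.mp ha)
        exact ⟨c, Subgroup.mem_centralizer_singleton_iff.mpr hcz, hc g rfl⟩)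
    rw [h, top_sup_eq, top_inf_eq] at h1
    apply CL.Iso.pResidual_eq_top_of_sup_commutator
    apply Subgroup.map_injective C.subtype_injective
    rw [← h1, ← MonoidHom.range_eq_map, Subgroup.range_subtype]
  · intro h
    rw [eq_top_iff]
    intro g _
    obtain ⟨k, hk, -, hkc, -⟩ := CL.Iso.iso_exists_decomp hz g
    have h1 : k ∈ Cfsg.pResidual 2 G := Subgroup.subset_closure (Nat.coprime_two_right.mpr hk)
    have h2 : C ≤ Cfsg.pResidual 2 G := by
      intro c hc
      have : (⟨c, hc⟩ : C) ∈ Cfsg.pResidual 2 C := by rw [h]; trivial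
      have h3 := Subgroup.mem_map_of_mem C.subtype this
      rw [Cfsg.pResidual, MonoidHom.map_closure] at h3
      refine Subgroup.closure_mono ?_ h3
      rintro _ ⟨x, hx, rfl⟩
      change Nat.Coprime (orderOf (x : G)) 2
      rwa [Subgroup.orderOf_coe]
    have h3 := Subgroup.mul_mem _ h1
      (Subgroup.inv_mem _ (h2 (Subgroup.mem_centralizer_singleton_iff.mpr hkc)))
    simpa using h3

end Cfsg.Agent.S1183
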