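import Cfsg.Statements.S1184
import Cfsg.Agent.INV.Isolated

set_option autoImplicit false
open Cfsg

namespace Cfsg.Agent.S1184

/-- Let z be an isolated involution of the finite group G. If s and t are distinct conjugates of z, then st does not commute with z. -/
theorem result {G : Type*} [Group G] [Finite G] (z : G) (hz : Cfsg.IsIsolatedInvolution z) (g h : G) (hne : g * z * g⁻¹ ≠ h * z * h⁻¹) : ¬ Commute (g * z * g⁻¹ * (h * z * h⁻¹)) z := by
  intro hc
  have hs : IsConj z (g * z * g⁻¹) := isConj_iff.mpr ⟨g, rfl⟩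
  have ht : IsConj z (h * z * h⁻¹) := isConj_iff.mpr ⟨h, rfl⟩
  set s := g * z * g⁻¹
  set t := h * z * h⁻¹
  have hss := CL.Iso.isConj_mul_self (CL.Iso.iso_mul_self hz) hs
  have htt := CL.Iso.isConj_mul_self (CL.Iso.iso_mul_self hz) ht
  have h1 : (s * z) * (s * t) * (s * z)⁻¹ = (s * t)⁻¹ := by
    calc (s * z) * (s * t) * (s * z)⁻¹ = s * (z * (s * t) * z⁻¹) * s⁻¹ := by group
      _ = s * (s * t) * s⁻¹ := by rw [← hc.eq, mul_inv_cancel_right]
      _ = (s * t)⁻¹ := CL.Iso.left_inverts_mul hss htt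
  have h2 := CL.Iso.sq_eq_one_of_odd_inverts (CL.Iso.iso_odd_mul hz hs (IsConj.refl z)) h1
  have h3 := CL.Iso.eq_one_of_sq_of_odd (CL.Iso.iso_odd_mul hz hs ht) h2
  apply hne
  have := eq_inv_of_mul_eq_one_left h3
  rwa [CL.Iso.inv_eq_of_mul_self htt] at this

end Cfsg.Agent.S1184
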