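import Cfsg.Statements.S1185
import Cfsg.Agent.INV.Isolated

set_option autoImplicit false
open Cfsg

namespace Cfsg.Agent.S1185

/-- Let z be an isolated involution of the finite group G with centralizer C. Then for every g ∈ G there is exactly one element k in the coset gC that has odd order and is inverted by z. -/
theorem result {G : Type*} [Group G] [Finite G] (z : G) (hz : Cfsg.IsIsolatedInvolution z) (g : G) : ∃! k : G, (Odd (orderOf k) ∧ z * k * z⁻¹ = k⁻¹) ∧ g⁻¹ * k ∈ Subgroup.centralizer ({z} : Set G) := by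
  obtain ⟨k, hk1, hk2, hk3, -⟩ := CL.Iso.iso_exists_decomp hz g
  refine ⟨k, ⟨⟨hk1, hk2⟩, Subgroup.mem_centralizer_singleton_iff.mpr hk3⟩, ?_⟩
  rintro l ⟨⟨hl1, hl2⟩, hl3⟩
  rw [Subgroup.mem_centralizer_singleton_iff] at hl3
  apply CL.Iso.eq_of_sq_eq_of_odd hl1 hk1
  have e1 := CL.Iso.pow_conj_of_inverts hk2 1
  have e2 := CL.Iso.pow_conj_of_inverts hl2 1
  simp only [pow_one, mul_one] at e1 e2
  have e3 : k * z * k⁻¹ = g * z * g⁻¹ := by
    calc k * z * k⁻¹ = g * ((g⁻¹ * k) * z) * k⁻¹ := by group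
      _ = g * z * g⁻¹ := by rw [hk3.eq]; group
  have e4 : l * z * l⁻¹ = g * z * g⁻¹ := by
    calc l * z * l⁻¹ = g * ((g⁻¹ * l) * z) * l⁻¹ := by group
      _ = g * z * g⁻¹ := by rw [hl3]; group
  apply mul_right_cancel (b := z)
  rw [← e1, ← e2, e3, e4]

end Cfsg.Agent.S1185
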