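import Cfsg.Statements.S1186
import Cfsg.Agent.INV.Isolated
import Cfsg.Agent.S1180
import Cfsg.Agent.S1185

set_option autoImplicit false
open Cfsg

namespace Cfsg.Agent.S1186

open CL.Iso

variable {G : Type*} [Group G]

theorem card_K_eq [Finite G] {z : G} (hz : IsIsolatedInvolution z) (u : G) (hu : Commute u z) :
    Nat.card {k : G // Odd (orderOf k) ∧ z * k * z⁻¹ = k⁻¹ ∧ Commute k u} =
      Nat.card {t : G // IsConj z t ∧ Commute t u} := by
  have hzz := iso_mul_self hz
  refine Nat.card_congr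
    { toFun := fun k => ⟨k.1 * z, isConj_mul_of_odd_inverted k.2.1 k.2.2.1,
        k.2.2.2.mul_left hu.symm⟩
      invFun := fun t => ⟨t.1 * z, iso_odd_mul hz t.2.1 (IsConj.refl z),
        right_inverts_mul (isConj_mul_self hzz t.2.1) hzz, t.2.2.mul_left hu.symm⟩
      left_inv := fun k => Subtype.ext (by simp [mul_assoc, hzz])
      right_inv := fun k => Subtype.ext (by simp [mul_assoc, hzz]) }

theorem card_G_eq [Finite G] {z : G} (hz : IsIsolatedInvolution z) :
    Nat.card G = Nat.card (Subgroup.centralizer ({z} : Set G)) *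
      Nat.card {k : G // Odd (orderOf k) ∧ z * k * z⁻¹ = k⁻¹ ∧ Commute k 1} := by
  rw [← Subgroup.card_mul_index (Subgroup.centralizer ({z} : Set G)), Subgroup.index]
  congr 1
  symm
  apply Nat.card_eq_of_bijective (fun k => (QuotientGroup.mk k.1))
  constructor
  · intro k l hkl
    apply Subtype.ext
    obtain ⟨m, -, hm⟩ := Cfsg.Agent.S1185.result z hz k.1
    rw [hm k.1 ⟨⟨k.2.1, k.2.2.1⟩, by simp⟩, hm l.1 ⟨⟨l.2.1, l.2.2.1⟩, QuotientGroup.eq.mp hkl⟩]
  · intro q
    obtain ⟨g, rfl⟩ := QuotientGroup.mk_surjective q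
    obtain ⟨k, ⟨hk, hk'⟩, -⟩ := Cfsg.Agent.S1185.result z hz g
    exact ⟨⟨k, hk.1, hk.2, Commute.one_right k⟩, (QuotientGroup.eq.mpr hk').symm⟩

theorem card_conj_eq {z : G} (u c : G) :
    Nat.card {t : G // IsConj z t ∧ Commute t (c * u * c⁻¹)} =
      Nat.card {t : G // IsConj z t ∧ Commute t u} := by
  refine Nat.card_congr
    { toFun := fun t => ⟨c⁻¹ * t.1 * c, t.2.1.trans (isConj_iff.mpr ⟨c⁻¹, by simp⟩), ?_⟩
      invFun := fun t => ⟨c * t.1 * c⁻¹, t.2.1.trans (isConj_iff.mpr ⟨c, rfl⟩), ?_⟩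
      left_inv := fun k => Subtype.ext (by simp [mul_assoc])
      right_inv := fun k => Subtype.ext (by simp [mul_assoc]) }
  · have := t.2.2.map (MulAut.conj c⁻¹).toMonoidHom
    simpa [mul_assoc] using this
  · have := t.2.2.map (MulAut.conj c).toMonoidHom
    simpa [mul_assoc] using this

theorem pow_eq_of [Finite G] {z s u t : G} (hz : IsIsolatedInvolution z) (hss : s * s = 1)
    (hu : IsConj z u) (hus : Commute u s) (htu : Commute t (s * u)) {M : ℕ}
    (hM : Odd M) (hd : orderOf (u * t) ∣ M) : (s * t) ^ M = s * u := by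
  have huu := isConj_mul_self (iso_mul_self hz) hu
  have h1 : s * t = (s * u) * (u * t) := by
    rw [mul_assoc, ← mul_assoc u, huu, one_mul]
  have h2 : Commute (s * u) (u * t) :=
    ((hus.symm.mul_left (Commute.refl u)).mul_right htu.symm)
  have h3 : (s * u) ^ 2 = 1 := by
    rw [hus.symm.mul_pow, pow_two, pow_two, hss, huu, one_mul]
  obtain ⟨m, rfl⟩ := hM
  rw [h1, h2.mul_pow, orderOf_dvd_iff_pow_eq_one.mp hd, mul_one, pow_succ, pow_mul, h3, one_pow,
    one_mul]

theorem exists_u [Finite G] {z s t : G} (hz : IsIsolatedInvolution z) (hss : s * s = 1)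
    (hsz : Commute s z) (ht : IsConj z t) :
    ∃ u, (IsConj z u ∧ Commute u s) ∧ Commute t (s * u) := by
  have htt := isConj_mul_self (iso_mul_self hz) ht
  by_cases hs : IsConj z s
  · exact ⟨s, ⟨hs, Commute.refl s⟩, by rw [hss]; exact Commute.one_right t⟩
  rcases Nat.even_or_odd (orderOf (s * t)) with ⟨m, hm⟩ | hodd
  swap
  · obtain ⟨k, hk⟩ := conj_of_odd hss htt hodd
    exact absurd (ht.trans (isConj_iff.mpr ⟨_, hk⟩).symm) hs
  have hpos := orderOf_pos (s * t)
  have hw : (s * t) ^ m ≠ 1 := pow_ne_one_of_lt_orderOf (by omega) (by omega)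
  have hww : (s * t) ^ m * (s * t) ^ m = 1 := by rw [← pow_add, ← hm, pow_orderOf_eq_one]
  have hsw : Commute s ((s * t) ^ m) :=
    commute_of_inverts_of_mul_self (inverts_pow (left_inverts_mul hss htt) m) hww
  have htw : Commute t ((s * t) ^ m) :=
    commute_of_inverts_of_mul_self (inverts_pow (right_inverts_mul hss htt) m) hww
  rcases Nat.even_or_odd' m with ⟨k, rfl | rfl⟩
  · exfalso
    have h1 := pow_conj_of_inverts (right_inverts_mul hss htt) k
    have h2 := iso_eq_of_isConj (iso_of_isConj hz ht) (isConj_iff.mpr ⟨_, h1⟩)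
      (htw.mul_right (Commute.refl t))
    exact hw (by simpa using h2)
  · refine ⟨(s * t) ^ (2 * k + 1) * s,
      ⟨ht.trans (isConj_iff.mpr ⟨_, isConj_odd_pow_mul hss htt k⟩),
        hsw.symm.mul_left (Commute.refl s)⟩, ?_⟩
    rw [← hsw.eq, ← mul_assoc, hss, one_mul]
    exact htw

/-- Let z be an isolated involution of the finite group G, C = C_G(z), K the set of elements of odd order inverted by z, and s an involution of C. Then |G| = |C| · |C_K(sz)| · |C_K(s)|. -/
theorem result {G : Type*} [Group G] [Finite G] (z : G) (hz : Cfsg.IsIsolatedInvolution z) (s : G) (hs : orderOf s = 2) (hsz : Commute s z) : Nat.card G = Nat.card (Subgroup.centralizer ({z} : Set G)) * Nat.card {k : G // Odd (orderOf k) ∧ z * k * z⁻¹ = k⁻¹ ∧ Commute k (s * z)} * Nat.card {k : G // Odd (orderOf k) ∧ z * k * z⁻¹ = k⁻¹ ∧ Commute k s} := by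
  classical
  have hss := mul_self_of_orderOf_two hs
  have hzz := iso_mul_self hz
  rw [card_G_eq hz, card_K_eq hz 1 (Commute.one_left z), card_K_eq hz s hsz,
    card_K_eq hz (s * z) (hsz.mul_left (Commute.refl z)), mul_assoc]
  congr 1
  have : Fintype {u : G // IsConj z u ∧ Commute u s} := Fintype.ofFinite _
  have h1 : Nat.card (Σ u : {u : G // IsConj z u ∧ Commute u s},
      {t : G // IsConj z t ∧ Commute t (s * u.1)}) =
      Nat.card {t : G // IsConj z t ∧ Commute t 1} := by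
    apply Nat.card_eq_of_bijective (fun x => ⟨x.2.1, x.2.2.1, Commute.one_right _⟩)
    constructor
    · rintro ⟨⟨u, hu⟩, ⟨t, ht⟩⟩ ⟨⟨u', hu'⟩, ⟨t', ht'⟩⟩ h
      obtain rfl : t = t' := congrArg Subtype.val h
      have hM := (iso_odd_mul hz hu.1 ht.1).mul (iso_odd_mul hz hu'.1 ht.1)
      have e1 := pow_eq_of hz hss hu.1 hu.2 ht.2 hM (dvd_mul_right _ _)
      have e2 := pow_eq_of hz hss hu'.1 hu'.2 ht'.2 hM (dvd_mul_left _ _)
      obtain rfl : u = u' := mul_left_cancel (e1.symm.trans e2)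
      rfl
    · rintro ⟨t, ht, -⟩
      obtain ⟨u, hu, htu⟩ := exists_u hz hss hsz ht
      exact ⟨⟨⟨u, hu⟩, ⟨t, ht, htu⟩⟩, rfl⟩
  rw [← h1, Nat.card_sigma, Finset.sum_const_nat (m := Nat.card {t : G // IsConj z t ∧ Commute t (s * z)}),
    Finset.card_univ, ← Nat.card_eq_fintype_card, mul_comm]
  rintro ⟨u, hu, hus⟩ -
  obtain ⟨g, rfl⟩ := isConj_iff.mp hu
  obtain ⟨c, hc, hcz⟩ := Cfsg.Agent.S1180.result z hz (Subgroup.centralizer ({s} : Set G))
    (Subgroup.mem_centralizer_singleton_iff.mpr hsz.symm) g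
    (Subgroup.mem_centralizer_singleton_iff.mpr hus)
  rw [← card_conj_eq (s * z) c]
  have : c * (s * z) * c⁻¹ = s * (g * z * g⁻¹) := by
    rw [← hcz, ← mul_assoc, Subgroup.mem_centralizer_singleton_iff.mp hc]
    group
  simp only [this]

end Cfsg.Agent.S1186
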