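import Cfsg.Statements.S1222
import Cfsg.Agent.CHEV.PSSimple

set_option autoImplicit false
open Cfsg

namespace Cfsg.Agent.S1222

/-- Let G be a finite simple group with a strongly embedded subgroup H such that H permutes transitively the cosets gH with g ∉ H, and H has a normal subgroup Q acting regularly on those cosets (transitively, with only the identity fixing any of them). Then G is isomorphic to PSL(2,F) with F of characteristic 2 and at least 4 elements, or is simple with the order of a Suzuki group, or is isomorphic to PSU(3) over a field with q² elements, q ≥ 4 a power of 2. -/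
theorem result {G : Type*} [Group G] [Finite G] [IsSimpleGroup G] (H : Subgroup G) (hH : Cfsg.IsStronglyEmbedded H) (Q : Subgroup G) (hQH : Q ≤ H) (hQn : (Q.subgroupOf H).Normal) (htrans : ∀ g₁ g₂ : G, g₁ ∉ H → g₂ ∉ H → ∃ u ∈ Q, g₂⁻¹ * (u * g₁) ∈ H) (hreg : ∀ g : G, g ∉ H → ∀ u ∈ Q, g⁻¹ * (u * g) ∈ H → u = 1) : (∃ (F : Type) (_ : Field F) (_ : Fintype F), CharP F 2 ∧ 4 ≤ Fintype.card F ∧ Nonempty (G ≃* Matrix.ProjectiveSpecialLinearGroup (Fin 2) F)) ∨ Cfsg.IsSuzuki G ∨ (∃ (F : Type) (_ : Field F) (_ : Fintype F) (q : ℕ), Fintype.card F = q ^ 2 ∧ Even q ∧ 4 ≤ q ∧ Nonempty (G ≃* Cfsg.PSU 3 F q)) := by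
  obtain ⟨h1, h2, h3⟩ := hH
  have hst : MulAction.stabilizer G ((1 : G) : G ⧸ H) = H := MulAction.stabilizer_quotient H
  have hsm : ∀ g x : G, g • (x : G ⧸ H) = (g * x : G) := fun _ _ => rfl
  have hne : ∀ g : G, (g : G ⧸ H) ≠ (1 : G) ↔ g ∉ H := fun g => by
    rw [Ne, QuotientGroup.eq, mul_one, inv_mem_iff]
  obtain ⟨s, hs, hs1, hs2⟩ := CL.PS.exists_involution_of_even h2
  obtain ⟨t, ht, ht2⟩ : ∃ t : G, t ∉ H ∧ t * t = 1 := by
    by_contra h
    push Not at h
    refine h1 (top_le_iff.mp (((H.normalCore_normal.eq_bot_or_eq_top).resolve_left fun e => hs1 ?_).ge.trans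
      H.normalCore_le))
    refine Subgroup.mem_bot.mp (e ▸ fun g => ?_)
    by_contra h'
    exact h _ h' (CL.PS.conj_involution hs1 hs2).2
  have hS : IsRankOneSetup G (G ⧸ H) ((1 : G) : G ⧸ H) t Q := by
    refine CL.PS.setup_of_regular ht2 (by rwa [hsm, mul_one, hne]) (hst.symm ▸ hQH)
      (hst.symm ▸ fun h hh u hu => hQn.conj_mem ⟨u, hQH hu⟩ hu ⟨h, hh⟩) (fun c hc => ?_) (fun u hu e => ?_)
      (hst.symm ▸ h2) ?_
    · obtain ⟨g, rfl⟩ := QuotientGroup.mk_surjective c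
      obtain ⟨u, hu, e⟩ := htrans t g ht ((hne g).mp hc)
      exact ⟨u, hu, by rw [hsm, hsm, mul_one]; exact (QuotientGroup.eq.mpr e).symm⟩
    · rw [hsm, hsm, mul_one] at e
      exact hreg t ht u hu (QuotientGroup.eq.mp e.symm)
    · rw [CL.PS.Dg, MulAction.stabilizer_smul_eq_stabilizer_map_conj, hst]
      exact h3 t ht
  obtain ⟨n, hn, h⟩ := CL.PS.suzuki_simple hS
  have h4 : 4 ≤ 2 ^ n := Nat.pow_le_pow_right two_pos hn
  obtain ⟨F, _, _, _, e, h⟩ | h | ⟨F, _, _, e, h⟩ := h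
  · exact Or.inl ⟨F, _, _, ‹_›, e ▸ h4, h⟩
  · exact Or.inr (Or.inl h.2)
  · exact Or.inr (Or.inr ⟨F, _, _, _, e, (Nat.even_pow' (by omega)).mpr even_two, h4, h⟩)

end Cfsg.Agent.S1222
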