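import Cfsg.Statements.S1223
import Cfsg.Agent.INV.Bender.Main

set_option autoImplicit false
open Cfsg

namespace Cfsg.Agent.S1223

open CL CL.TwoInv CL.SylowAux

/-- Let H be a strongly embedded subgroup of the finite group G containing no nontrivial normal subgroup of G (so G acts faithfully on the cosets of H), u an involution of G outside H, and j ≠ 1 an element of H ∩ uHu⁻¹ with u j u⁻¹ = j⁻¹. Then C_G(j) has odd order. -/
theorem result {G : Type*} [Group G] [Finite G] (H : Subgroup G) (hH : Cfsg.IsStronglyEmbedded H) (hcore : H.normalCore = ⊥) (u : G) (hu : orderOf u = 2) (huH : u ∉ H) (j : G) (hj : j ∈ (H ⊓ H.map (MulAut.conj u).toMonoidHom)) (hj1 : j ≠ 1) (hinv : u * j * u⁻¹ = j⁻¹) : Odd (Nat.card (Subgroup.centralizer ({j} : Set G))) := by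
  have hI := IFix.of_isStronglyEmbedded hH
  have hu2 := mul_self_of_orderOf_eq_two hu
  have hj2 : j * j ≠ 1 := fun e => hj1 (hI.eq_one_of_fix e
    (fun e' => huH ((IFix.coe_eq_one_iff H u).1 e'))
    ((IFix.mem_map_conj_iff_smul H u j).1 hj.2) ((IFix.mem_iff_smul_one H j).1 hj.1))
  refine odd_card_iff.2 fun s hs hs2 => hj2 ?_
  have hsj := Subgroup.mem_centralizer_singleton_iff.1 hs
  have hs' := mul_self_of_orderOf_eq_two hs2
  by_cases h2 : PS.Rank2 G
  · have : FaithfulSMul G (G ⧸ H) := ⟨fun {g h} e => by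
      have : g⁻¹ * h ∈ H.normalCore := by
        rw [Subgroup.normalCore_eq_ker, MonoidHom.mem_ker]
        exact Equiv.ext fun x => by simp [mul_smul, ← e]
      rw [hcore, Subgroup.mem_bot] at this
      exact inv_mul_eq_one.1 this⟩
    have : Nontrivial (G ⧸ H) := ⟨u, (1 : G), fun e' => huH ((IFix.coe_eq_one_iff H u).1 e')⟩
    obtain ⟨t, Q, hS, -⟩ := Bender.rankOneSetup hI h2 ((1 : G) : G ⧸ H)
    exact PS.mul_self_eq_one_of_inverted hS hu2 (by rw [← hinv, inv_eq_of_mul_eq_one_right hu2])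
      (ne_one_of_orderOf_eq_two hs2) hs' hsj
  · have ho : Odd (orderOf (s * u)) := by
      by_contra ho
      obtain ⟨hz, c1, c2⟩ := half_pow_spec hs' hu2 (orderOf_pos _).ne' (Nat.not_odd_iff_even.1 ho)
      have key : ∀ w : G, orderOf w = 2 → Commute ((s * u) ^ (orderOf (s * u) / 2)) w →
          (s * u) ^ (orderOf (s * u) / 2) = w := fun w hw c => not_not.1 fun e =>
        h2 ⟨_, w, ne_one_of_orderOf_eq_two hz, ne_one_of_orderOf_eq_two hw, e,
          mul_self_of_orderOf_eq_two hz, mul_self_of_orderOf_eq_two hw, c.eq⟩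
      rw [← (key s hs2 c1).symm.trans (key u hu c2), hs', orderOf_one] at ho
      exact ho odd_one
    have e1 : s * u * j * (s * u)⁻¹ = j⁻¹ := by
      calc s * u * j * (s * u)⁻¹ = s * (u * j * u⁻¹) * s⁻¹ := by group
        _ = j⁻¹ := by rw [hinv, (Commute.inv_right hsj).eq, mul_inv_cancel_right]
    have e2 : s * u ∈ Subgroup.centralizer ({j} : Set G) := by
      refine PS.mem_of_mul_self_mem ho (Subgroup.mem_centralizer_singleton_iff.2 ?_)
      calc s * u * (s * u) * j = s * u * (s * u * j * (s * u)⁻¹) * (s * u)⁻¹ * (s * u * (s * u)) := by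
            group
        _ = _ := by rw [e1, ← conj_inv, e1, inv_inv]
    rw [Subgroup.mem_centralizer_singleton_iff.1 e2, mul_inv_cancel_right] at e1
    exact mul_eq_one_iff_eq_inv.2 e1

end Cfsg.Agent.S1223
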