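import Cfsg.Statements.S1228
import Cfsg.Agent.INV.ElemCent

set_option autoImplicit false
open Cfsg

namespace Cfsg.Agent.S1228

/-- Let G be a finite group with a Sylow 2-subgroup T that is neither cyclic nor normal, such that the centralizer of every involution is an elementary abelian 2-group; put H = N_G(T), let u be an involution outside H and D = H ∩ uHu⁻¹. Then N_G(D) = D ⊔ ⟨u⟩, and a coset gH is fixed by every element of D exactly when gH = H or gH = uH. -/
theorem result {G : Type*} [Group G] [Finite G] (T : Sylow 2 G) (hnc : ¬ IsCyclic (T : Subgroup G)) (hnn : ¬ (T : Subgroup G).Normal) (hC : ∀ t : G, orderOf t = 2 → IsMulCommutative (Subgroup.centralizer ({t} : Set G)) ∧ ∀ c ∈ Subgroup.centralizer ({t} : Set G), c ^ 2 = 1) (u : G) (hu : orderOf u = 2) (huH : u ∉ Subgroup.normalizer ((T : Subgroup G) : Set G)) : Subgroup.normalizer ((Subgroup.normalizer ((T : Subgroup G) : Set G) ⊓ (Subgroup.normalizer ((T : Subgroup G) : Set G)).map (MulAut.conj u).toMonoidHom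 : Subgroup G) : Set G) = (Subgroup.normalizer ((T : Subgroup G) : Set G) ⊓ (Subgroup.normalizer ((T : Subgroup G) : Set G)).map (MulAut.conj u).toMonoidHom) ⊔ Subgroup.zpowers u ∧ ∀ g : G, ((∀ d ∈ Subgroup.normalizer ((T : Subgroup G) : Set G) ⊓ (Subgroup.normalizer ((T : Subgroup G) : Set G)).map (MulAut.conj u).toMonoidHom, d • (QuotientGroup.mk g : G ⧸ Subgroup.normalizer ((T : Subgroup G) : Set G)) = QuotientGroup.mk g) ↔ (QuotientGroup.mk g : G ⧸ Subgroup.normalizer ((T : Subgroup G) : Set G)) = QuotientGroup.mk 1 ∨ (QuotientGroup.mk g : G ⧸ Subgroup.normalizer ((T : Subgroup G) : Set G)) = QuotientGroup.mk u) := by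
  have h := CL.ElemCent.setting T hnc hC hnn
  generalize Subgroup.normalizer ((T : Subgroup G) : Set G) = H at *
  have hu2 := CL.TwoInv.mul_self_of_orderOf_eq_two hu
  have hxy : ((1 : G) : G ⧸ H) ≠ (u : G ⧸ H) := fun e =>
    huH ((CL.IFix.coe_eq_one_iff H u).1 e.symm)
  have hD : ∀ d : G, d ∈ H ⊓ H.map (MulAut.conj u).toMonoidHom ↔
      d • ((1 : G) : G ⧸ H) = (1 : G) ∧ d • (u : G ⧸ H) = u := fun d => by
    rw [Subgroup.mem_inf, CL.IFix.mem_iff_smul_one, CL.IFix.mem_map_conj_iff_smul]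
  generalize H ⊓ H.map (MulAut.conj u).toMonoidHom = D at *
  have hux : u • ((1 : G) : G ⧸ H) = (u : G ⧸ H) := CL.IFix.smul_one_eq H u
  have huy : u • (u : G ⧸ H) = ((1 : G) : G ⧸ H) := by rw [← hux, CL.IFix.smul_smul_self hu2]
  have hfix : ∀ z : G ⧸ H, (∀ d ∈ D, d • z = z) ↔ z = (1 : G) ∨ z = u := fun z => by
    constructor
    · intro hz
      by_contra! hne
      obtain ⟨s, t, hs, ht, hst, hsx, htx⟩ := h.exists_two_inv ((1 : G) : G ⧸ H)
      obtain ⟨k, hkx, hky, e⟩ := h.exists_conj hxy hs hsx ht htx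
      rw [h.eq_one_of_fix_three hxy hne.1.symm hne.2.symm hkx hky (hz k ((hD k).2 ⟨hkx, hky⟩))] at e
      exact hst (by simpa using e)
    · rintro (rfl | rfl) d hd
      · exact ((hD d).1 hd).1
      · exact ((hD d).1 hd).2
  refine ⟨le_antisymm (fun g hg => ?_) (sup_le Subgroup.le_normalizer ?_), fun g => hfix g⟩
  · have key : ∀ z : G ⧸ H, (∀ d ∈ D, d • z = z) → ∀ d ∈ D, d • g • z = g • z := fun z hz d hd => by
      have := hz _ ((Subgroup.mem_normalizer_iff.1 (inv_mem hg) d).1 hd)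
      rw [inv_inv, mul_smul, mul_smul, inv_smul_eq_iff] at this
      exact this
    have hne : g • ((1 : G) : G ⧸ H) ≠ g • (u : G ⧸ H) := fun e =>
      hxy (smul_left_cancel g e)
    rcases (hfix _).1 (key _ ((hfix _).2 (Or.inl rfl))) with h1 | h1 <;>
      rcases (hfix _).1 (key _ ((hfix _).2 (Or.inr rfl))) with h2 | h2
    · exact absurd (h1.trans h2.symm) hne
    · exact Subgroup.mem_sup_left ((hD g).2 ⟨h1, h2⟩)
    · have : u * g ∈ D := (hD _).2 ⟨by rw [mul_smul, h1, huy], by rw [mul_smul, h2, hux]⟩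
      have e : g = u * (u * g) := by rw [← mul_assoc, hu2, one_mul]
      rw [e]
      exact mul_mem (Subgroup.mem_sup_right (Subgroup.mem_zpowers u)) (Subgroup.mem_sup_left this)
    · exact absurd (h1.trans h2.symm) hne
  · rw [Subgroup.zpowers_le]
    apply Subgroup.mem_normalizer_fintype
    intro d hd
    exact (hD _).2 ⟨CL.IFix.conj_smul_of huy ((hD d).1 hd).2,
      CL.IFix.conj_smul_of hux ((hD d).1 hd).1⟩

end Cfsg.Agent.S1228
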