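import Cfsg.Statements.S1231
import Cfsg.Agent.INV.Rank

set_option autoImplicit false
open Cfsg

namespace Cfsg.Agent.S1231

/-- Let H be a subgroup of the finite group G, p a prime, k ≥ 1, and P a Sylow p-subgroup of H whose p-rank is at least k. Then N_G(X) ≤ H for every subgroup X of P of p-rank at least k if and only if H ∩ gHg⁻¹ has p-rank less than k for every g ∉ H. -/
theorem result {G : Type*} [Group G] [Finite G] {p : ℕ} [Fact p.Prime] (k : ℕ) (hk : 1 ≤ k) (H : Subgroup G) (P : Sylow p ↥H) (hP : ¬ Cfsg.PRankLE p (k - 1) ↥(P : Subgroup ↥H)) : (∀ X : Subgroup G, X ≤ (P : Subgroup ↥H).map H.subtype → ¬ Cfsg.PRankLE p (k - 1) ↥X → Subgroup.normalizer (X : Set G) ≤ H) ↔ (∀ g : G, g ∉ H → Cfsg.PRankLE p (k - 1) ↥(H ⊓ H.map (MulAut.conj g).toMonoidHom)) := by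
  have hconj : ∀ (X : Subgroup G) (g : G), ¬ PRankLE p (k - 1) X →
      ¬ PRankLE p (k - 1) (X.map (MulAut.conj g).toMonoidHom) := fun X g hX => by
    rwa [CL.Rank.prankLE_map_iff X (MulAut.conj g).injective]
  constructor
  · intro h g hg
    by_contra hr
    obtain ⟨A, hA, hAe, hAc⟩ := CL.Rank.not_prankLE_subgroup_iff.1 hr
    have hN := CL.Rank.normalizer_le_of_sylow P (fun X => ¬ PRankLE p (k - 1) X) hconj h
    have := CL.Rank.mem_of_conj_le_of_normalizer_le (p := p) (fun X => ¬ PRankLE p (k - 1) X)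
      (fun X Y hXY _ hX hY => hX (CL.Rank.prankLE_mono hXY hY)) hconj hN
      (CL.Rank.isPGroup_of_isElementaryAbelian hAe)
      (CL.Rank.not_prankLE_subgroup_iff.2 ⟨A, le_rfl, hAe, hAc⟩) (hA.trans inf_le_left)
      (g := g⁻¹) fun a ha => by
        simpa using (CL.SylowAux.mem_map_conj_iff _ _ _).1 (hA ha).2
    exact hg (by simpa using this)
  · intro h X hX hr g hg
    by_contra hgH
    have hXH : X ≤ H := hX.trans (Subgroup.map_subtype_le _)
    refine hr (CL.Rank.prankLE_mono (le_inf hXH fun x hx => ?_) (h g hgH))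
    rw [CL.SylowAux.mem_map_conj_iff]
    have := (Subgroup.mem_normalizer_iff.1 (inv_mem hg) x).1 hx
    exact hXH (by simpa using this)

end Cfsg.Agent.S1231
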