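import Cfsg.Statements.S1244
import Cfsg.Agent.INV.IndexTwo
import Cfsg.Agent.INV.Isolated

set_option autoImplicit false
open Cfsg

namespace Cfsg.Agent.S1244

open scoped IsMulCommutative in

/-- Let G be a finite group with no subgroup of index 2 whose Sylow 2-subgroup S is commutative, and let R ≤ S be a subgroup whose 2-rank is exactly one less than the 2-rank r of S. Then every involution of S is conjugate, by an element of N_G(S), to an element of R. -/
theorem result {G : Type*} [Group G] [Finite G] (hG : ∀ H : Subgroup G, H.index ≠ 2) (S : Sylow 2 G) (hS : IsMulCommutative (S : Subgroup G)) (r : ℕ) (hr1 : 1 ≤ r) (hSr : Cfsg.PRankLE 2 r (S : Subgroup G) ∧ ¬ Cfsg.PRankLE 2 (r - 1) (S : Subgroup G)) (R : Subgroup G) (hRS : R ≤ S) (hRr : Cfsg.PRankLE 2 (r - 1) R ∧ (r = 1 ∨ ¬ Cfsg.PRankLE 2 (r - 2) R)) (t : G) (ht : orderOf t = 2) (htS : t ∈ S) : ∃ n ∈ Subgroup.normalizer ((S : Subgroup G) : Set G), n * t * n⁻¹ ∈ R := by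
  by_contra hne
  push Not at hne
  have hcomm : ∀ a ∈ (S : Subgroup G), ∀ b ∈ (S : Subgroup G), a * b = b * a := fun a ha b hb =>
    congrArg Subtype.val (hS.is_comm.comm (⟨a, ha⟩ : (S : Subgroup G)) ⟨b, hb⟩)
  let Ω : Subgroup (S : Subgroup G) := (powMonoidHom 2).ker
  have hΩ : ∀ x, x ∈ Ω ↔ x ^ 2 = 1 := fun x => Iff.rfl
  let R₁ : Subgroup (S : Subgroup G) := R.subgroupOf S ⊓ Ω
  have h1 : Nat.card Ω ≤ 2 ^ r := hSr.1 Ω inferInstance (fun a ha => ha)
  have h2 : 2 ^ (r - 1) ≤ Nat.card R₁ := by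
    rcases hRr.2 with h | h
    · rw [h]
      exact Nat.card_pos
    · simp only [Cfsg.PRankLE, not_forall, not_le] at h
      obtain ⟨A, -, hA, hlt⟩ := h
      have hA2 : IsPGroup 2 A := fun a => ⟨1, Subtype.ext (by simpa using hA a a.2)⟩
      obtain ⟨k, hk⟩ := IsPGroup.iff_card.mp hA2
      have hle : A.map (Subgroup.inclusion hRS) ≤ R₁ := by
        rintro _ ⟨a, ha, rfl⟩
        refine ⟨a.2, ?_⟩
        change (Subgroup.inclusion hRS a) ^ 2 = 1
        rw [← map_pow, hA a ha, map_one]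
      have h3 := Subgroup.card_le_of_le hle
      rw [Subgroup.card_map_of_injective (Subgroup.inclusion_injective hRS), hk] at h3
      rw [hk] at hlt
      have := (Nat.pow_lt_pow_iff_right (by norm_num)).mp hlt
      exact le_trans (Nat.pow_le_pow_right (by norm_num) (by omega)) h3
  have htt := CL.Iso.mul_self_of_orderOf_two ht
  have htΩ : (⟨t, htS⟩ : (S : Subgroup G)) ∈ Ω := Subtype.ext (by simpa [pow_two] using htt)
  have htR : t ∉ R := by simpa using hne 1 (Subgroup.one_mem _)
  have hidx : R₁.relIndex Ω = 2 := by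
    have h3 := (R₁.subgroupOf Ω).card_mul_index
    rw [Nat.card_congr (Subgroup.subgroupOfEquivOfLe (inf_le_right : R₁ ≤ Ω)).toEquiv] at h3
    change Nat.card R₁ * R₁.relIndex Ω = _ at h3
    have h4 : R₁.relIndex Ω ≠ 0 := Subgroup.index_ne_zero_of_finite
    have h5 : R₁.relIndex Ω ≠ 1 := by
      rw [Ne, Subgroup.relIndex_eq_one]
      exact fun h => htR (h htΩ).1
    have h6 : 2 ^ r = 2 ^ (r - 1) * 2 := by rw [← pow_succ, Nat.sub_add_cancel hr1]
    have h7 : 0 < 2 ^ (r - 1) := by positivity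
    by_contra h8
    have h9 : 3 ≤ R₁.relIndex Ω := by omega
    nlinarith [Nat.mul_le_mul h2 h9]
  have h3 := CL.Iso.transfer_eq_pow_of_ctrl (QuotientGroup.mk' R₁) ⟨t, htS⟩ (by
    intro k a h
    rcases Nat.even_or_odd' k with ⟨m, rfl | rfl⟩
    · have e : t ^ (2 * m) = 1 := by rw [pow_mul, pow_two, htt, one_pow]
      rw [← map_pow]
      congr 1
      apply Subtype.ext
      simp [e]
    · have e : t ^ (2 * m + 1) = t := by rw [pow_succ, pow_mul, pow_two, htt, one_pow, one_mul]
      rw [← map_pow, QuotientGroup.mk'_apply, QuotientGroup.mk'_apply, QuotientGroup.eq]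
      have e2 : (⟨t, htS⟩ : (S : Subgroup G)) ^ (2 * m + 1) = ⟨t, htS⟩ := Subtype.ext (by simpa using e)
      rw [e2]
      simp only [e] at h ⊢
      obtain ⟨n, hn, hn'⟩ := S.conj_eq_normalizer_conj_of_mem t a htS h
      have hu : (⟨a⁻¹ * t * a, h⟩ : (S : Subgroup G))⁻¹ ∈ Ω := by
        apply Ω.inv_mem
        apply Subtype.ext
        have := CL.Iso.conj_mul_self htt a⁻¹
        simpa [pow_two] using this
      have := (Subgroup.mul_mem_iff_of_index_two (H := R₁.subgroupOf Ω) hidx (a := ⟨_, hu⟩)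
        (b := ⟨_, htΩ⟩)).mpr (by
          simp only [Subgroup.mem_subgroupOf, inv_mem_iff]
          constructor
          · intro h4
            exfalso
            apply hne n⁻¹ (Subgroup.inv_mem _ hn)
            rw [inv_inv, ← hn']
            exact h4.1
          · intro h4
            exact absurd h4.1 htR)
      exact this)
  have hP : IsPGroup 2 ((S : Subgroup G) ⧸ R₁) := S.2.to_quotient R₁
  have h4 := CL.Iso.hom_eq_one_of_no_index_two hG hP (MonoidHom.transfer (QuotientGroup.mk' R₁)) t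
  change MonoidHom.transfer (QuotientGroup.mk' R₁) t = _ at h3
  rw [h3, ← map_pow, QuotientGroup.mk'_apply, QuotientGroup.eq_one_iff] at h4
  apply htR
  have h5 : (⟨t, htS⟩ : (S : Subgroup G)) ∈ R₁ := CL.Iso.mem_of_pow_mem_of_coprime (by
    rw [← Subgroup.orderOf_coe]
    simp only [ht]
    exact Nat.coprime_two_right.mpr (CL.Iso.sylow_two_odd_index S)) h4
  exact h5.1

end Cfsg.Agent.S1244
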