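import Cfsg.Statements.S1253
import Cfsg.Agent.S1187
import Cfsg.Agent.S1180
import Cfsg.Agent.S1185

set_option autoImplicit false
open Cfsg

namespace Cfsg.Agent.S1253

open CL.MSS CL.Iso in

/-- Let z be an isolated involution of the finite group G with centralizer C, p an odd prime and P a Sylow p-subgroup of G normalized by z. Then P ∩ C has p-power-free index in C (it is a Sylow p-subgroup of C), and |P : C_P(z)| equals the number of elements x ∈ P with z x z⁻¹ = x⁻¹. -/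
theorem result {G : Type*} [Group G] [Finite G] (z : G) (hz : Cfsg.IsIsolatedInvolution z) {p : ℕ} [Fact p.Prime] (hp : p ≠ 2) (P : Sylow p G) (hzP : z ∈ Subgroup.normalizer ((P : Subgroup G) : Set G)) : ¬ p ∣ ((P : Subgroup G) ⊓ Subgroup.centralizer ({z} : Set G)).relIndex (Subgroup.centralizer ({z} : Set G)) ∧ ((P : Subgroup G) ⊓ Subgroup.centralizer ({z} : Set G)).relIndex (P : Subgroup G) = Nat.card {x : G // x ∈ P ∧ z * x * z⁻¹ = x⁻¹} := by
  set C := Subgroup.centralizer ({z} : Set G) with hC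
  have hzC : z ∈ C := Subgroup.mem_centralizer_singleton_iff.mpr rfl
  constructor
  · obtain ⟨P₀, hP₀⟩ := exists_sylIn p C
    obtain ⟨Q, hQ0, hQmax⟩ := Finite.exists_le_maximal
      (p := fun R : Subgroup G => IsPGroup p R ∧ z ∈ Subgroup.normalizer (R : Set G)) (a := P₀)
      ⟨hP₀.pgroup, Subgroup.centralizer_le_normalizer _ fun x hx =>
        Subgroup.mem_centralizer_singleton_iff.mp (hP₀.le hx)⟩
    obtain ⟨P₁, hP₁⟩ := Cfsg.Agent.S1187.result z hz Q hQmax.1.1 hQmax.1.2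
      (fun R h1 h2 h3 => le_antisymm (hQmax.2 ⟨h1, h2⟩ h3) h3)
    obtain ⟨g, -, hg⟩ := (sylIn_top P₁).exists_conj (sylIn_top P)
    have h1 : g * z * g⁻¹ ∈ Subgroup.normalizer ((P : Subgroup G) : Set G) := by
      rw [← hg, ← cj_normalizer, hP₁]
      exact conj_mem_cj hQmax.1.2
    obtain ⟨h, hh, hhz⟩ := Cfsg.Agent.S1180.result z hz _ hzP g h1
    have h2 : h⁻¹ * g ∈ C := by
      rw [hC, Subgroup.mem_centralizer_singleton_iff]
      calc h⁻¹ * g * z = h⁻¹ * (g * z * g⁻¹) * g := by group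
        _ = z * (h⁻¹ * g) := by rw [← hhz]; group
    have h3 : (h⁻¹ * g) •ᶜ P₀ ≤ (P : Subgroup G) ⊓ C := by
      refine le_inf ?_ (cj_le_of_mem hP₀.le h2)
      rw [cj_mul, ← cj_eq_of_mem_normalizer (Subgroup.inv_mem _ hh), ← hg, hP₁]
      exact cj_mono _ (cj_mono _ hQ0)
    have h4 := (hP₀.cj_of_mem h2).max _ (P.2.to_le inf_le_left) h3 inf_le_right
    rw [h4]
    exact (hP₀.cj_of_mem h2).not_dvd_relIndex
  · have hodd : ∀ x ∈ (P : Subgroup G), Odd (orderOf x) := by
      intro x hx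
      obtain ⟨k, hk⟩ := isPGroup_iff_forall_mem.mp P.2 x hx
      exact Odd.of_dvd_nat (((Fact.out : p.Prime).odd_of_ne_two hp).pow) (orderOf_dvd_of_pow_eq_one hk)
    rw [Subgroup.inf_relIndex_left, Subgroup.relIndex, Subgroup.index]
    symm
    apply Nat.card_eq_of_bijective (fun k => (QuotientGroup.mk ⟨k.1, k.2.1⟩))
    constructor
    · intro k l hkl
      apply Subtype.ext
      obtain ⟨m, -, hm⟩ := Cfsg.Agent.S1185.result z hz k.1
      have h5 := QuotientGroup.eq.mp hkl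
      rw [hm k.1 ⟨⟨hodd _ k.2.1, k.2.2⟩, by simp⟩, hm l.1 ⟨⟨hodd _ l.2.1, l.2.2⟩, h5⟩]
    · intro q
      obtain ⟨g, rfl⟩ := QuotientGroup.mk_surjective q
      obtain ⟨k, -, hk1, hk2, hk3⟩ := iso_exists_decomp hz (g : G)
      have hkP : k ∈ (P : Subgroup G) := by
        refine Subgroup.zpowers_le.mpr ?_ hk3
        have h1 : z * g * z⁻¹ ∈ (P : Subgroup G) := (Subgroup.mem_normalizer_iff.mp hzP g).mp g.2
        rw [iso_inv hz] at h1
        have := Subgroup.mul_mem _ h1 (Subgroup.inv_mem _ g.2)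
        convert this using 1
        group
      refine ⟨⟨k, hkP, hk1⟩, (QuotientGroup.eq.mpr ?_).symm⟩
      exact Subgroup.mem_centralizer_singleton_iff.mpr hk2

end Cfsg.Agent.S1253
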