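import Cfsg.Statements.S1254
import Cfsg.Agent.INV.DihFusion

set_option autoImplicit false
open Cfsg

namespace Cfsg.Agent.S1254


/-- Let X be a finite group whose Sylow 2-subgroup S is dihedral (of order at least 4). Then X has a normal 2-complement if and only if, for every Klein four-subgroup U ≤ S, the normalizer N_X(U) is generated by C_X(U) and N_S(U). -/
theorem result {X : Type*} [Group X] [Finite X] (S : Sylow 2 X) (m : ℕ) (hm : 2 ≤ m) (eS : (S : Subgroup X) ≃* DihedralGroup m) : Cfsg.HasNormalPComplement 2 X ↔ ∀ U : Subgroup X, U ≤ S → IsKleinFour U → Subgroup.normalizer (U : Set X) = Subgroup.centralizer (U : Set X) ⊔ ((S : Subgroup X) ⊓ Subgroup.normalizer (U : Set X)) := by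
  obtain ⟨n, rfl, ⟨c⟩⟩ := CL.Dih.exists_coord S.isPGroup' hm eS
  constructor
  · intro h U hU h4
    refine le_antisymm (CL.FusInv.le_of_sylowIn_of_odd (c.not_dvd_relIndex hU h4) ?_ ?_)
      (sup_le (Subgroup.centralizer_le_normalizer _) inf_le_right)
    · exact fun x hx => Subgroup.mem_sup_right ⟨hx.1.2, hx.2⟩
    · exact fun g hg ho => Subgroup.mem_sup_left ((CL.Tr.hasNPC_iff_forall_le_sylow S).1 h U hU g hg
        (Nat.coprime_two_right.2 ho))
  · intro h
    refine c.hasNPC fun T j hT => ?_
    obtain ⟨k, hk⟩ := IsPGroup.iff_card.1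
      (S.isPGroup'.to_inf_left (K := Subgroup.normalizer (T : Set X)))
    refine CL.FusInv.quiet_of_relIndex (k := k) ?_
    rw [h T hT.1 hT.isKleinFour, sup_comm, CL.FusInv.relIndex_sup_of_le_normalizer
      (inf_le_right.trans (CL.Tr.normalizer_le_normalizer_centralizer' _)), ← hk]
    exact Subgroup.relIndex_dvd_card _ _

end Cfsg.Agent.S1254
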