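import Cfsg.Statements.S1255
import Cfsg.Agent.INV.DihFusion

set_option autoImplicit false
open Cfsg

namespace Cfsg.Agent.S1255


/-- Let X be a finite group whose Sylow 2-subgroup S is dihedral of order 2m ≥ 4. Then X has no subgroup of index 2 and no isolated involution if and only if either all involutions of X are conjugate, or for every Klein four-subgroup U ≤ S the index |N_X(U) : C_X(U)| equals 3 when |S| = 4 and equals 6 when |S| > 4. -/
theorem result {X : Type*} [Group X] [Finite X] (S : Sylow 2 X) (m : ℕ) (hm : 2 ≤ m) (eS : (S : Subgroup X) ≃* DihedralGroup m) : ((∀ H : Subgroup X, H.index ≠ 2) ∧ (∀ z : X, ¬ Cfsg.IsIsolatedInvolution z)) ↔ ((∀ a b : X, orderOf a = 2 → orderOf b = 2 → IsConj a b) ∨ (∀ U : Subgroup X, U ≤ S → IsKleinFour U → (Subgroup.centralizer (U : Set X)).relIndex (Subgroup.normalizer (U : Set X)) = (if Nat.card S = 4 then 3 else 6))) := by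
  obtain ⟨n, rfl, ⟨c⟩⟩ := CL.Dih.exists_coord S.isPGroup' hm eS
  constructor
  · intro h
    exact Or.inl fun a b ha hb => (c.loud_of_no_index_two h.1).isConj' c ha hb
  · intro h
    have hL : c.Loud := by
      rcases h with h | h
      · exact c.loud_of_isConj h
      · intro T j hT
        refine CL.FusInv.not_quiet_of_three_dvd ?_
        rw [h T hT.1 hT.isKleinFour]
        split_ifs <;> norm_num
    refine ⟨hL.no_index_two c, fun z hz => ?_⟩
    obtain ⟨g, rfl⟩ := isConj_iff.1 (hL.isConj_of_orderOf c hz.1)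
    have h1 : orderOf (g * c.s 0 * g⁻¹) = 2 := by rw [CL.FusInv.orderOf_conj, c.orderOf_s]
    obtain ⟨k, hk⟩ := isConj_iff.1 (hL.isConj' c hz.1 h1)
    have h2 := hz.2 k (by
      rw [hk]
      exact (Commute.map (c.r_h_comm (c.s_mem 0)).symm (MulAut.conj g)))
    rw [hk] at h2
    exact c.s_ne_r _ _ ((MulAut.conj g).injective h2)

end Cfsg.Agent.S1255
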