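import Cfsg.Statements.S1256
import Cfsg.Agent.INV.DihFusion

set_option autoImplicit false
open Cfsg

namespace Cfsg.Agent.S1256


/-- Let X be a finite group whose Sylow 2-subgroup S is dihedral of order 2m ≥ 4. If |S| = 4, any two Klein four-subgroups of X are conjugate; if |S| > 4, there are Klein four-subgroups U₁, U₂ of X that are not conjugate, and every Klein four-subgroup of X is conjugate to U₁ or to U₂. -/
theorem result {X : Type*} [Group X] [Finite X] (S : Sylow 2 X) (m : ℕ) (hm : 2 ≤ m) (eS : (S : Subgroup X) ≃* DihedralGroup m) : (Nat.card S = 4 → ∀ U V : Subgroup X, IsKleinFour U → IsKleinFour V → (∃ x : X, U.map (MulAut.conj x).toMonoidHom = V)) ∧ (4 < Nat.card S → ∃ U₁ U₂ : Subgroup X, IsKleinFour U₁ ∧ IsKleinFour U₂ ∧ ¬ (∃ x : X, U₁.map (MulAut.conj x).toMonoidHom = U₂) ∧ ∀ V : Subgroup X, IsKleinFour V → (∃ x : X, V.map (MulAut.conj x).toMonoidHom = U₁) ∨ (∃ x : X, V.map (MulAut.conj x).toMonoidHom = U₂)) := by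
  obtain ⟨n, rfl, ⟨c⟩⟩ := CL.Dih.exists_coord S.isPGroup' hm eS
  constructor
  · intro h U V hU hV
    have key : ∀ U : Subgroup X, IsKleinFour U → ∃ g : X, U.map (MulAut.conj g).toMonoidHom = S := by
      intro U hU
      obtain ⟨g, hg⟩ := CL.Tr.exists_conj_le_sylow S (CL.Four.isPGroup hU)
      exact ⟨g, Subgroup.eq_of_le_of_card_ge ((CL.Tr.map_conj_le_iff _ _ _).2 hg)
        (by rw [CL.Tr.card_map_conj, hU.card_four]; exact h.le)⟩
    obtain ⟨g, hg⟩ := key U hU
    obtain ⟨k, hk⟩ := key V hV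
    refine ⟨k⁻¹ * g, ?_⟩
    rw [← CL.Tr.map_conj_map_conj, hg, ← hk, CL.Tr.map_conj_map_conj, inv_mul_cancel,
      CL.Tr.map_conj_one]
  · intro h
    have hn : 2 ≤ n := by
      have h1 : Nat.card S = 2 ^ (n + 1) := CL.Dih.Coord.card (c := c)
      rcases c.hn.eq_or_lt with rfl | h2
      · rw [h1] at h; omega
      · exact h2
    exact ⟨c.sub 2 0, c.sub 2 1, (c.isSub_sub 2 0).isKleinFour, (c.isSub_sub 2 1).isKleinFour,
      fun ⟨g, hg⟩ => c.not_conj_four hn g hg, fun V hV => c.exists_conj_four hV⟩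

end Cfsg.Agent.S1256
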