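import Cfsg.Statements.S1271
import Mathlib
import Cfsg.Agent.SIG.PBalance

set_option autoImplicit false
open Cfsg

namespace Cfsg.Agent.S1271

/-- Let G be finite with O_{p'}(G) = 1. Suppose that for every component L of G and every subgroup H ≥ L in which L is normal, the quotient H / C_H(L) is balanced for the prime p. Then G is balanced for p. -/
theorem result {G : Type*} [Group G] [Finite G] (p : ℕ) [Fact p.Prime] (hO : Cfsg.pPrimeCore p G = ⊥) (h : ∀ L : Subgroup G, Cfsg.IsComponent L → ∀ H : Subgroup G, L ≤ H → (L.subgroupOf H).Normal → ∀ [((Subgroup.centralizer (L : Set G)).subgroupOf H).Normal], Cfsg.IsBalancedFor p (↥H ⧸ (Subgroup.centralizer (L : Set G)).subgroupOf H)) : Cfsg.IsBalancedFor p G := by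
  intro x hx
  rw [hO, le_bot_iff, CL.PComp.centralizerPPrimeCore_eq]
  have hx' : x ^ p ^ 1 = 1 := by rw [pow_one, ← hx, pow_orderOf_eq_one]
  refine CL.PComp.eq_bot_of_centralizes_fstar hO (CL.PComp.opOf_coprime p _)
    (CL.PComp.opOf_centralizer_singleton_le_centralizer_pCore hx') fun L hL => ?_
  by_cases hne : ⁅L, Subgroup.zpowers x⁆ = L
  swap
  · rw [← Subgroup.commutator_eq_bot_iff_le_centralizer, Subgroup.commutator_comm]
    exact CL.PComp.commutator_opOf_centralizer_eq_bot hO hx hL hne
  have hxL : Subgroup.zpowers x ≤ Subgroup.normalizer (L : Set G) := by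
    conv_rhs => rw [← hne]
    exact Subgroup.normalizer_commutator_ge_right L (Subgroup.zpowers x)
  have hxc : x ∉ Subgroup.centralizer (L : Set G) := by
    intro hc
    rw [Subgroup.commutator_comm, Subgroup.commutator_eq_bot_iff_le_centralizer.mpr
      (Subgroup.zpowers_le.mpr hc)] at hne
    exact hL.ne_bot hne.symm
  have hBL : Subgroup.zpowers x ⊔ CL.PComp.opOf p (Subgroup.centralizer {x}) ≤
      Subgroup.normalizer (L : Set G) :=
    sup_le hxL (CL.PComp.opOf_centralizer_singleton_le_normalizer hO hx' hL)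
  obtain ⟨M, hM⟩ : ∃ M, M = L ⊔ (Subgroup.zpowers x ⊔ CL.PComp.opOf p (Subgroup.centralizer {x})) :=
    ⟨_, rfl⟩
  have hML : M ≤ Subgroup.normalizer (L : Set G) := hM ▸ sup_le Subgroup.le_normalizer hBL
  have hLM : L ≤ M := hM ▸ le_sup_left
  haveI : ((Subgroup.centralizer (L : Set G)).subgroupOf M).Normal :=
    CL.normal_subgroupOf_of_le_normalizer (hML.trans (CL.normalizer_le_normalizer_centralizer L))
  have hbal := h L hL M hLM (CL.normal_subgroupOf_of_le_normalizer hML)
  let f := QuotientGroup.mk' ((Subgroup.centralizer (L : Set G)).subgroupOf M)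
  have hf : Function.Surjective f := QuotientGroup.mk'_surjective _
  have hker : f.ker = (Subgroup.centralizer (L : Set G)).subgroupOf M := QuotientGroup.ker_mk' _
  let a : M := ⟨x, hM.ge (Subgroup.mem_sup_right (Subgroup.mem_sup_left (Subgroup.mem_zpowers x)))⟩
  have h1 := CL.PComp.map_le_opOf_centralizer hO hL hM hBL (a := a) hx'
    (sup_le (Subgroup.zpowers_le.mpr (Subgroup.mem_centralizer_singleton_iff.mpr rfl))
      (CL.PComp.opOf_le p _)) f hf hker.le
  have hfa : orderOf (f a) = p := by
    refine orderOf_eq_prime ?_ fun h0 => hxc (hker.le h0)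
    rw [← map_pow, show a ^ p = 1 from Subtype.ext (by simpa using hx'), map_one]
  have h2 := h1.trans (hbal (f a) hfa)
  have hLc : Cfsg.IsComponent (L.subgroupOf M) := hL.subgroupOf hLM
  have h3 : (Cfsg.pPrimeCore p (M ⧸ (Subgroup.centralizer (L : Set G)).subgroupOf M)).comap f ≤
      f.ker := by
    rcases hLc.le_or_commutator_eq_bot (N := (Cfsg.pPrimeCore p
      (M ⧸ (Subgroup.centralizer (L : Set G)).subgroupOf M)).comap f)
      (Subgroup.Normal.isSubnormal inferInstance) with h4 | h4
    · exfalso
      have h5 := CL.PComp.pElementClosure_eq_bot_of_coprime (CL.PComp.coprime_card_of_le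
        (Subgroup.map_le_iff_le_comap.mpr h4) (CL.PComp.pPrimeCore_coprime p))
      rw [← CL.PComp.map_pElementClosure, CL.PComp.qs_pElementClosure' hLc.isQuasisimple
        (by rw [CL.card_subgroupOf_of_le hLM]; exact CL.PComp.dvd_card_of_isComponent hO hL),
        Subgroup.map_eq_bot_iff, hker] at h5
      exact hL.not_le_centralizer fun l hl => @h5 ⟨l, hLM hl⟩ hl
    · rw [Subgroup.commutator_comm, Subgroup.commutator_eq_bot_iff_le_centralizer] at h4
      intro m hm
      rw [hker, Subgroup.mem_subgroupOf, Subgroup.mem_centralizer_iff]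
      intro l hl
      exact congrArg Subtype.val (Subgroup.mem_centralizer_iff.mp (h4 hm) ⟨l, hLM hl⟩ hl)
  intro y hy
  have := h3 (Subgroup.map_le_iff_le_comap.mp h2
    (show (⟨y, hM.ge (Subgroup.mem_sup_right (Subgroup.mem_sup_right hy))⟩ : M) ∈ _ from hy))
  rw [hker] at this
  exact this

end Cfsg.Agent.S1271
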