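import Cfsg.Statements.S1277
import Mathlib
import Cfsg.Agent.SIG.PComp

set_option autoImplicit false
open Cfsg

namespace Cfsg.Agent.S1277

/-- For a finite group X with core O(X): the image of E(X) in X / O(X) is all of E(X / O(X)) if and only if every 2-component of X is a component, i.e. L_{2'}(X) ≤ E(X). -/
theorem result {X : Type*} [Group X] [Finite X] : (Cfsg.layer X).map (QuotientGroup.mk' (Cfsg.oddCore X)) = Cfsg.layer (X ⧸ Cfsg.oddCore X) ↔ Cfsg.pLayer 2 X ≤ Cfsg.layer X := by
  constructor
  · intro h
    refine CL.PComp.pLayer_le_iff.mpr fun K hK => ?_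
    refine hK.le_of_map_le (Subgroup.Normal.isSubnormal inferInstance)
      (f := QuotientGroup.mk' (Cfsg.oddCore X)) ?_ ?_
    · rw [QuotientGroup.ker_mk']; exact CL.PComp.pPrimeCore_coprime 2
    · rw [h]; exact hK.isComponent_map.le_layer
  · intro h
    refine le_antisymm (CL.Comp.layer_map_le_of_surjective _ (QuotientGroup.mk'_surjective _)) ?_
    rw [← CL.PComp.map_mk'_pLayer]
    exact Subgroup.map_mono h

end Cfsg.Agent.S1277
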