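import Cfsg.Statements.S1280
import Cfsg.Agent.SIG.SFMk

set_option autoImplicit false
open Cfsg

namespace Cfsg.Agent.S1280

/-- Let θ be a solvable A-signalizer functor (A a noncyclic elementary abelian p-subgroup of the finite group G), and X, Y members of its family with Y ≤ N_G(X). Then X ⊔ Y (= XY) is again in the family. -/
theorem result {G : Type*} [Group G] [Finite G] (p : ℕ) [Fact p.Prime] (A : Subgroup G) (hA : Cfsg.IsElementaryAbelian p A) (hA2 : p ^ 2 ≤ Nat.card ↥A) (θ : G → Subgroup G) (hθ : Cfsg.IsSolvableSignalizerFunctor p A θ) (X Y : Subgroup G) (hX : X ∈ Cfsg.signalizerFamily p A θ) (hY : Y ∈ Cfsg.signalizerFamily p A θ) (hn : Y ≤ Subgroup.normalizer (X : Set G)) : X ⊔ Y ∈ Cfsg.signalizerFamily p A θ := by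
  have hp : p.Prime := Fact.out
  have hAX : A ≤ Subgroup.normalizer (X : Set G) := Subgroup.le_normalizer_iff.2 hX.2.2.1
  have hAY : A ≤ Subgroup.normalizer (Y : Set G) := Subgroup.le_normalizer_iff.2 hY.2.2.1
  refine ⟨CL.BG.solvable_of_quo (sup_le Subgroup.le_normalizer hn) hX.1 ?_, fun hd => ?_,
    Subgroup.le_normalizer_iff.1 (CL.MSS.le_normalizer_sup hAX hAY), fun a ha h1 => ?_⟩
  · rw [CL.BG.quo_sup_left hn]; exact CL.BG.solvable_quo hY.1 X
  · exact ((CL.BG.prodEq_sup hn).dvd_or_dvd hp hd).elim hX.2.1 hY.2.1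
  · have hz : Subgroup.zpowers a ≤ A := Subgroup.zpowers_le.2 ha
    have hpz : IsPGroup p (Subgroup.zpowers a) := (CL.Th.elemAb_isPGroup hA).to_le hz
    rw [← CL.BG.cent_zpowers]
    refine (CL.SF.sup_inf_cent_le hn (hz.trans hAX) (hz.trans hAY)
      (CL.BG.coprime_of_isPGroup_of_not_dvd hpz hX.2.1) (CL.BG.H39.sol_pgroup hpz)).trans ?_
    rw [CL.BG.cent_zpowers]
    exact sup_le (hX.2.2.2 a ha h1) (hY.2.2.2 a ha h1)

end Cfsg.Agent.S1280
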