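import Cfsg.Statements.S1281
import Cfsg.Agent.SIG.SFMk

set_option autoImplicit false
open Cfsg

namespace Cfsg.Agent.S1281

/-- Let θ be a solvable A-signalizer functor on the finite group G (A a noncyclic elementary abelian p-subgroup) and N a normal subgroup of order prime to p. Then for all non-identity a, b ∈ A, the image of θ a in G / N meets the centralizer of the image of b inside the image of θ b. -/
theorem result {G : Type*} [Group G] [Finite G] (p : ℕ) [Fact p.Prime] (A : Subgroup G) (hA : Cfsg.IsElementaryAbelian p A) (hA2 : p ^ 2 ≤ Nat.card ↥A) (θ : G → Subgroup G) (hθ : Cfsg.IsSolvableSignalizerFunctor p A θ) (N : Subgroup G) [N.Normal] (hN : ¬ p ∣ Nat.card ↥N) (a b : G) (ha : a ∈ A) (ha1 : a ≠ 1) (hb : b ∈ A) (hb1 : b ≠ 1) : (θ a).map (QuotientGroup.mk' N) ⊓ Subgroup.centralizer {QuotientGroup.mk' N b} ≤ (θ b).map (QuotientGroup.mk' N) := by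
  have hz : Subgroup.zpowers b ≤ A := Subgroup.zpowers_le.2 hb
  have hpz : IsPGroup p (Subgroup.zpowers b) := (CL.Th.elemAb_isPGroup hA).to_le hz
  rintro _ ⟨⟨x, hx, rfl⟩, hc⟩
  have hbθ : Subgroup.zpowers b ≤ Subgroup.normalizer (θ a : Set G) :=
    hz.trans (Subgroup.le_normalizer_iff.2 (hθ.1.2.2.1 a ha ha1))
  have hn : Subgroup.zpowers b ≤ Subgroup.normalizer ((θ a ⊓ N : Subgroup G) : Set G) :=
    CL.MSS.le_normalizer_inf hbθ (by rw [Subgroup.normalizer_eq_top_iff.2 inferInstance]; exact le_top)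
  obtain ⟨s, hs, hxs⟩ := CL.coprime_fixed_point_quotient (Subgroup.zpowers b) (θ a ⊓ N) hn
    (CL.BG.coprime_of_isPGroup_of_not_dvd hpz fun hd =>
      hN (hd.trans (Subgroup.card_dvd_of_le inf_le_right)))
    (Or.inl (CL.BG.H39.sol_pgroup hpz)) x
    (CL.MSS.le_normalizer_inf Subgroup.le_normalizer
      (by rw [Subgroup.normalizer_eq_top_iff.2 inferInstance]; exact le_top) hx) (by
      intro c hc'
      refine Subgroup.mem_inf.2
        ⟨(θ a).mul_mem (CL.MSS.conj_mem_of_normalizes hbθ hc' hx) ((θ a).inv_mem hx), ?_⟩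
      rw [← QuotientGroup.eq_one_iff (N := N)]
      have h1 : QuotientGroup.mk' N c ∈ Subgroup.zpowers (QuotientGroup.mk' N b) := by
        rw [← MonoidHom.map_zpowers]; exact ⟨c, hc', rfl⟩
      rw [← CL.BG.cent_zpowers] at hc
      have h2 := CL.BG.mem_cent_iff.1 hc _ h1
      change QuotientGroup.mk' N (c * x * c⁻¹ * x⁻¹) = 1
      rw [map_mul, map_mul, map_mul, map_inv, map_inv, h2]
      group)
  rw [CL.BG.cent_zpowers] at hxs
  refine ⟨x * s, hθ.1.2.2.2 a ha ha1 b hb hb1 ⟨mul_mem hx hs.1, hxs⟩, ?_⟩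
  rw [map_mul, QuotientGroup.mk'_apply N s, (QuotientGroup.eq_one_iff s).2 hs.2, mul_one]

end Cfsg.Agent.S1281
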