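import Cfsg.Statements.S1286
import Mathlib

set_option autoImplicit false
open Cfsg

namespace Cfsg.Agent.S1286

open Equiv

def pa : Perm (Fin 5) := swap 0 1
def pb : Perm (Fin 5) := swap 2 3
def px : Perm (Fin 5) := swap 2 3 * swap 3 4
def py : Perm (Fin 5) := swap 0 1 * swap 1 4

def sA : Subgroup (Perm (Fin 5)) where
  carrier := {g | g = 1 ∨ g = pa ∨ g = pb ∨ g = pa * pb}
  one_mem' := Or.inl rfl
  mul_mem' := by
    rintro _ _ (rfl | rfl | rfl | rfl) (rfl | rfl | rfl | rfl) <;>
      simp only [Set.mem_ofPred_eq] <;> decide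
  inv_mem' := by
    rintro _ (rfl | rfl | rfl | rfl) <;> simp only [Set.mem_ofPred_eq] <;> decide

def sX : Subgroup (Perm (Fin 5)) where
  carrier := {g | g = 1 ∨ g = px ∨ g = px * px}
  one_mem' := Or.inl rfl
  mul_mem' := by
    rintro _ _ (rfl | rfl | rfl) (rfl | rfl | rfl) <;>
      simp only [Set.mem_ofPred_eq] <;> decide
  inv_mem' := by
    rintro _ (rfl | rfl | rfl) <;> simp only [Set.mem_ofPred_eq] <;> decide

def sY : Subgroup (Perm (Fin 5)) where
  carrier := {g | g = 1 ∨ g = py ∨ g = py * py}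
  one_mem' := Or.inl rfl
  mul_mem' := by
    rintro _ _ (rfl | rfl | rfl) (rfl | rfl | rfl) <;>
      simp only [Set.mem_ofPred_eq] <;> decide
  inv_mem' := by
    rintro _ (rfl | rfl | rfl) <;> simp only [Set.mem_ofPred_eq] <;> decide

theorem mem_sA {g : Perm (Fin 5)} : g ∈ sA ↔ g = 1 ∨ g = pa ∨ g = pb ∨ g = pa * pb := Iff.rfl
theorem mem_sX {g : Perm (Fin 5)} : g ∈ sX ↔ g = 1 ∨ g = px ∨ g = px * px := Iff.rfl
theorem mem_sY {g : Perm (Fin 5)} : g ∈ sY ↔ g = 1 ∨ g = py ∨ g = py * py := Iff.rfl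

theorem card_sA : Nat.card sA = 4 := by
  have : Nat.card sA = ({1, pa, pb, pa * pb} : Finset (Perm (Fin 5))).card :=
    Nat.subtype_card _ (by intro g; simp [mem_sA])
  rw [this]; decide

theorem card_sX : Nat.card sX = 3 := by
  have : Nat.card sX = ({1, px, px * px} : Finset (Perm (Fin 5))).card :=
    Nat.subtype_card _ (by intro g; simp [mem_sX])
  rw [this]; decide

theorem card_sY : Nat.card sY = 3 := by
  have : Nat.card sY = ({1, py, py * py} : Finset (Perm (Fin 5))).card :=
    Nat.subtype_card _ (by intro g; simp [mem_sY])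
  rw [this]; decide

def th (g : Perm (Fin 5)) : Subgroup (Perm (Fin 5)) :=
  if g = pa then sX else if g = pb then sY else ⊥

theorem th_a : th pa = sX := by simp [th]
theorem th_b : th pb = sY := by
  have : pb ≠ pa := by decide
  simp [th, this]
theorem th_ab : th (pa * pb) = ⊥ := by
  have h1 : pa * pb ≠ pa := by decide
  have h2 : pa * pb ≠ pb := by decide
  simp only [th, if_neg h1, if_neg h2]

theorem solv_of_card {H : Subgroup (Perm (Fin 5))} (h : Nat.card H = 3) : Group.IsSolvable H := by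
  haveI : Fact (Nat.Prime 3) := ⟨by norm_num⟩
  haveI := isCyclic_of_prime_card h
  exact Group.isSolvable_of_comm (fun a b => by
    obtain ⟨g, hg⟩ := IsCyclic.exists_generator (α := H)
    obtain ⟨m, rfl⟩ := hg a
    obtain ⟨n, rfl⟩ := hg b
    exact (Commute.zpow_zpow_self g m n).eq)

/-- There exist a finite group X, an elementary abelian subgroup A of order 4 and a solvable A-signalizer functor θ on X for the prime 2 which is not complete. -/
theorem result : ∃ (X : Type) (_ : Group X) (_ : Finite X) (A : Subgroup X) (θ : X → Subgroup X), Cfsg.IsElementaryAbelian 2 A ∧ Nat.card ↥A = 4 ∧ Cfsg.IsSolvableSignalizerFunctor 2 A θ ∧ ¬ Cfsg.IsCompleteSignalizerFunctor 2 A θ := by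
  refine ⟨Perm (Fin 5), inferInstance, inferInstance, sA, th, ⟨?_, ?_⟩, card_sA,
    ⟨⟨?_, ?_, ?_, ?_⟩, ?_⟩, ?_⟩
  · refine ⟨⟨?_⟩⟩
    rintro ⟨_, (rfl | rfl | rfl | rfl)⟩ ⟨_, (rfl | rfl | rfl | rfl)⟩ <;>
      refine Subtype.ext ?_ <;> simp only [Subgroup.coe_mul] <;> decide
  · rintro _ (rfl | rfl | rfl | rfl) <;> decide
  · rintro _ (rfl | rfl | rfl | rfl) h1
    · exact absurd rfl h1
    · rw [th_a]
      rintro _ (rfl | rfl | rfl) <;> rw [Subgroup.mem_centralizer_singleton_iff] <;> decide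
    · rw [th_b]
      rintro _ (rfl | rfl | rfl) <;> rw [Subgroup.mem_centralizer_singleton_iff] <;> decide
    · rw [th_ab]; exact bot_le
  · rintro _ (rfl | rfl | rfl | rfl) h1
    · exact absurd rfl h1
    · rw [th_a, card_sX]; decide
    · rw [th_b, card_sY]; decide
    · rw [th_ab]; simp
  · rintro _ (rfl | rfl | rfl | rfl) h1
    · exact absurd rfl h1
    · rw [th_a]
      rintro _ (rfl | rfl | rfl | rfl) _ (rfl | rfl | rfl) <;> rw [mem_sX] <;> decide
    · rw [th_b]
      rintro _ (rfl | rfl | rfl | rfl) _ (rfl | rfl | rfl) <;> rw [mem_sY] <;> decide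
    · rw [th_ab]
      intro b _ x hx
      rw [Subgroup.mem_bot] at hx ⊢
      simp [hx]
  · have hX : ∀ b ∈ sA, b ≠ 1 → b ≠ pa → sX ⊓ Subgroup.centralizer {b} ≤ ⊥ := by
      rintro _ (rfl | rfl | rfl | rfl) h1 h2 _ ⟨(rfl | rfl | rfl), h⟩ <;>
        replace h := Subgroup.mem_centralizer_singleton_iff.1 h <;>
        rw [Subgroup.mem_bot] <;> revert h1 h2 h <;> decide
    have hY : ∀ b ∈ sA, b ≠ 1 → b ≠ pb → sY ⊓ Subgroup.centralizer {b} ≤ ⊥ := by
      rintro _ (rfl | rfl | rfl | rfl) h1 h2 _ ⟨(rfl | rfl | rfl), h⟩ <;>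
        replace h := Subgroup.mem_centralizer_singleton_iff.1 h <;>
        rw [Subgroup.mem_bot] <;> revert h1 h2 h <;> decide
    rintro _ (rfl | rfl | rfl | rfl) h1 b hb hb1
    · exact absurd rfl h1
    · by_cases h : b = pa
      · subst h; exact inf_le_left
      · rw [th_a]; exact (hX b hb hb1 h).trans bot_le
    · by_cases h : b = pb
      · subst h; exact inf_le_left
      · rw [th_b]; exact (hY b hb hb1 h).trans bot_le
    · rw [th_ab]; simp
  · rintro _ (rfl | rfl | rfl | rfl) h1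
    · exact absurd rfl h1
    · rw [th_a]; exact solv_of_card card_sX
    · rw [th_b]; exact solv_of_card card_sY
    · rw [th_ab]; infer_instance
  · rintro ⟨-, X, -, hX, h⟩
    have hx : px ∈ X := by
      have := h pa (Or.inr (Or.inl rfl)) (by decide)
      rw [th_a] at this
      have h2 : px ∈ X ⊓ Subgroup.centralizer {pa} := this ▸ (Or.inr (Or.inl rfl) : px ∈ sX)
      exact h2.1
    have hy : py ∈ X := by
      have := h pb (Or.inr (Or.inr (Or.inl rfl))) (by decide)
      rw [th_b] at this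
      have h2 : py ∈ X ⊓ Subgroup.centralizer {pb} := this ▸ (Or.inr (Or.inl rfl) : py ∈ sY)
      exact h2.1
    have hw : px * py * px⁻¹ * py ∈ X := mul_mem (mul_mem (mul_mem hx hy) (inv_mem hx)) hy
    have ho : orderOf (px * py * px⁻¹ * py) = 2 := orderOf_eq_prime (by decide) (by decide)
    exact hX (ho ▸ X.orderOf_dvd_natCard hw)

end Cfsg.Agent.S1286
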