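import Cfsg.Statements.S1298
import Mathlib
import Cfsg.Agent.SIG.PBalance

set_option autoImplicit false
open Cfsg

namespace Cfsg.Agent.S1298

/-- Let G be finite and k ≥ 1. Suppose that for every x of order p, writing C = C_G(x), every component K of C / O_{p'}(C) has K / Z(K) locally k-balanced for p. Then G is k-balanced for p. -/
theorem result {G : Type*} [Group G] [Finite G] (p k : ℕ) [Fact p.Prime] (hk : 1 ≤ k) (h : ∀ x : G, orderOf x = p → ∀ K : Subgroup (↥(Subgroup.centralizer ({x} : Set G)) ⧸ Cfsg.pPrimeCore p ↥(Subgroup.centralizer ({x} : Set G))), Cfsg.IsComponent K → Cfsg.IsLocallyKBalanced p k (↥K ⧸ Subgroup.center ↥K)) : Cfsg.IsKBalanced p k G := by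
  intro A hA hc b hb hab
  have hP := CL.PComp.isPGroup_of_isElementaryAbelian hA
  have hA1 : A ≠ ⊥ := by
    rintro rfl
    rw [Subgroup.card_bot] at hc
    exact absurd hc.symm (Nat.one_lt_pow (by omega) (Fact.out : p.Prime).one_lt).ne'
  have hAK : A ≤ Subgroup.centralizer {b} := fun a ha =>
    Subgroup.mem_centralizer_singleton_iff.mpr (hab a ha)
  refine CL.PComp.signalizerDelta_inf_le_opOf hP hA1 hAK fun L hL => ?_
  have hker : (Nat.card (QuotientGroup.mk' (Cfsg.pPrimeCore p
      ↥(Subgroup.centralizer ({b} : Set G)))).ker).Coprime p := by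
    rw [QuotientGroup.ker_mk']; exact CL.PComp.pPrimeCore_coprime p
  have hcard := (CL.PComp.card_map_subgroupOf_of_coprime hP hAK hker).trans hc
  refine CL.PComp.signalizerDelta_le_centralizer_of_locally (CL.PComp.pPrimeCore_quotient p) hL
    (CL.PComp.centAut L) (CL.PComp.ker_centAut hL.commutator_self)
    (CL.PComp.range_conj_le_centAut L) (h b hb L hL)
    (CL.PComp.isElementaryAbelian_map (CL.PComp.isElementaryAbelian_subgroupOf hA _) _) ?_ hcard
  intro h0
  rw [h0, Subgroup.card_bot] at hcard
  exact absurd hcard.symm (Nat.one_lt_pow (by omega) (Fact.out : p.Prime).one_lt).ne'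

end Cfsg.Agent.S1298
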