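import Cfsg.Statements.S1300
import Mathlib
import Cfsg.Agent.SIG.PLocalFix

set_option autoImplicit false
open Cfsg

namespace Cfsg.Agent.S1300

/-- For a finite group G, balance in the sense of commuting involutions is the same as 1-balance for the prime 2. -/
theorem result {G : Type*} [Group G] [Finite G] : Cfsg.IsBalanced G ↔ Cfsg.IsKBalanced 2 1 G := by
  haveI : Fact (Nat.Prime 2) := ⟨Nat.prime_two⟩
  constructor
  · intro h A hA hc b hb hab
    have hc' : Nat.card A = 2 := by simpa using hc
    obtain ⟨a, ha⟩ := exists_prime_orderOf_dvd_card' (G := A) 2 (hc' ▸ dvd_rfl)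
    have ha2 : orderOf (a : G) = 2 := by rw [Subgroup.orderOf_coe, ha]
    have ha1 : (a : G) ≠ 1 := fun h1 => by simp [h1] at ha2
    refine le_trans ?_ (((h a b ha2 hb (hab a a.2)).le).trans inf_le_left)
    exact inf_le_inf_right _ (iInf_le _ (⟨a, a.2, ha1⟩ : {a : G // a ∈ A ∧ a ≠ 1}))
  · intro h
    have key : ∀ x y : G, orderOf x = 2 → orderOf y = 2 → x * y = y * x →
        Cfsg.centralizerPPrimeCore 2 x ⊓ Subgroup.centralizer {y} ≤
          Cfsg.centralizerPPrimeCore 2 y ⊓ Subgroup.centralizer {x} := by
      intro x y hx hy hxy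
      have hmem : ∀ a ∈ Subgroup.zpowers x, a = 1 ∨ a = x := by
        classical
        intro a ha
        rw [mem_zpowers_iff_mem_range_orderOf, hx] at ha
        simp only [Finset.mem_image, Finset.mem_range] at ha
        obtain ⟨i, hi, rfl⟩ := ha
        interval_cases i <;> simp
      have hA : Cfsg.IsElementaryAbelian 2 (Subgroup.zpowers x) := by
        refine ⟨inferInstance, fun a ha => ?_⟩
        rcases hmem a ha with rfl | rfl
        · simp
        · rw [← hx, pow_orderOf_eq_one]
      have h1 := h (Subgroup.zpowers x) hA (by rw [Nat.card_zpowers, hx]; rfl) y hy (fun a ha => by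
        rcases hmem a ha with rfl | rfl
        · simp
        · exact hxy)
      refine le_inf (le_trans (inf_le_inf_right _ ?_) h1)
        (inf_le_left.trans (Subgroup.map_subtype_le _))
      refine le_iInf fun a => ?_
      rcases hmem a.1 a.2.1 with h2 | h2
      · exact absurd h2 a.2.2
      · rw [h2]
    intro x y hx hy hxy
    exact le_antisymm (key x y hx hy hxy) (key y x hy hx hxy.symm)

end Cfsg.Agent.S1300
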