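import Cfsg.Statements.S1297
import Mathlib
import Cfsg.Agent.SIG.PBalance
import Cfsg.Agent.S1298
import Cfsg.Agent.S1300

set_option autoImplicit false
open Cfsg

namespace Cfsg.Agent.S1297

/-- Let G be finite. Suppose that for every involution x, writing C = C_G(x), every component K of C / O(C) has K / Z(K) locally balanced. Then G is balanced. -/
theorem result {G : Type*} [Group G] [Finite G] (h : ∀ x : G, orderOf x = 2 → ∀ K : Subgroup (↥(Subgroup.centralizer ({x} : Set G)) ⧸ Cfsg.oddCore ↥(Subgroup.centralizer ({x} : Set G))), Cfsg.IsComponent K → Cfsg.IsLocallyBalanced (↥K ⧸ Subgroup.center ↥K)) : Cfsg.IsBalanced G := by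
  haveI : Fact (Nat.Prime 2) := ⟨Nat.prime_two⟩
  refine Cfsg.Agent.S1300.result.mpr (Cfsg.Agent.S1298.result 2 1 le_rfl fun x hx K hK => ?_)
  intro H hH A hA hc
  have hA1 : A ≠ ⊥ := by
    rintro rfl
    rw [Subgroup.card_bot] at hc
    norm_num at hc
  obtain ⟨a, ha⟩ := Subgroup.ne_bot_iff_exists_ne_one.mp hA1
  have ha' : (a : H) ≠ 1 := fun h => ha (Subtype.ext h)
  rw [eq_bot_iff, ← h x hx K hK H hH a (CL.PComp.orderOf_of_isElementaryAbelian hA a.2 ha')]
  exact CL.PComp.signalizerDelta_le a.2 ha'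

end Cfsg.Agent.S1297
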