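import Cfsg.Statements.S1299
import Mathlib
import Cfsg.Agent.SIG.KBal

set_option autoImplicit false
open Cfsg

namespace Cfsg.Agent.S1299

/-- Let G be finite and k-balanced for the prime p (k ≥ 1), A an elementary abelian p-subgroup of order at least p^(k+2) such that O_{p'}(C_G(a)) is solvable for every non-identity a ∈ A. For a ∈ A put θ a = the subgroup generated by the Δ_G(D) ∩ C_G(a) over the subgroups D ≤ A of order p^k. Then θ is an A-signalizer functor. -/
theorem result {G : Type*} [Group G] [Finite G] (p k : ℕ) [Fact p.Prime] (hk : 1 ≤ k) (hbal : Cfsg.IsKBalanced p k G) (A : Subgroup G) (hA : Cfsg.IsElementaryAbelian p A) (hAk : p ^ (k + 2) ≤ Nat.card ↥A) (hsolv : ∀ a ∈ A, a ≠ 1 → Group.IsSolvable ↥(Cfsg.centralizerPPrimeCore p a)) : Cfsg.IsSignalizerFunctor p A (fun a => ⨆ D : {D : Subgroup G // D ≤ A ∧ Nat.card ↥D = p ^ k}, Cfsg.signalizerDelta p (D : Subgroup G) ⊓ Subgroup.centralizer {a}) := by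
  have hp : p.Prime := Fact.out
  have hw : Cfsg.IsKBalancedWrt p k A := by
    intro B hB hBe hBk a ha ha1
    obtain ⟨D, hD, hDk⟩ := CL.PComp.exists_le_card_eq (CL.PComp.isPGroup_of_isElementaryAbelian hBe) hBk
    refine (inf_le_inf_right _ (CL.PComp.signalizerDelta_anti hD)).trans
      (hbal D (CL.PComp.isElementaryAbelian_of_le hBe hD) hDk a
        (CL.PComp.orderOf_of_isElementaryAbelian hA ha ha1) fun d hd => ?_)
    exact CL.PComp.comm_of_isElementaryAbelian hA (hB (hD hd)) ha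
  have e : (fun a => ⨆ D : {D : Subgroup G // D ≤ A ∧ Nat.card ↥D = p ^ k},
      Cfsg.signalizerDelta p (D : Subgroup G) ⊓ Subgroup.centralizer {a}) =
      Cfsg.kBalancedTheta p k A := by
    funext a
    refine le_antisymm (iSup_le fun D => le_iSup_of_le
      ⟨D, D.2.1, CL.PComp.isElementaryAbelian_of_le hA D.2.1, D.2.2.ge⟩ le_rfl)
      (iSup_le fun B => ?_)
    obtain ⟨D, hD, hDk⟩ := CL.PComp.exists_le_card_eq
      (CL.PComp.isPGroup_of_isElementaryAbelian B.2.2.1) B.2.2.2
    exact le_iSup_of_le ⟨D, hD.trans B.2.1, hDk⟩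
      (inf_le_inf_right _ (CL.PComp.signalizerDelta_anti hD))
  rw [e]
  exact CL.GG.isSignalizerFunctor_kTheta hk hA hAk hw hsolv

end Cfsg.Agent.S1299
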