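import Cfsg.Statements.S1302
import Cfsg.Agent.PLOC.PConstrained
import Cfsg.Agent.PLOC.Critical
import Cfsg.Agent.S3737

set_option autoImplicit false
open Cfsg

namespace Cfsg.Agent.S1302

open Subgroup CL.MSS CL.PC

theorem aux {X : Type*} [Group X] [Finite X] {p : ℕ} [Fact p.Prime] (hp : p ≠ 2)
    (hX : centralizer (pCore p X : Set X) ≤ pCore p X) {A : Subgroup X} (hAp : IsPGroup p A)
    (hΩ : ∀ x ∈ centralizer (A : Set X), x ^ p = 1 → x ∈ A) {Q : Subgroup X}
    (hQ : (Nat.card Q).Coprime p) (hAQ : A ≤ normalizer (Q : Set X)) : Q = ⊥ := by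
  obtain ⟨H, h1, -, h2, -, h3, -, -, h4⟩ :=
    CL.PG.exists_critical_odd_ambient hp (CL.isPGroup_pCore p X)
  rw [normalizer_eq_top] at h2 h4
  have hH : IsPGroup p H := CL.isPGroup_of_le_pCore h1
  have h5 := Cfsg.Agent.S3737.result hp A Q H hAp hQ hAQ hH (le_top.trans h2) (le_top.trans h2) (by
    refine (le_inf inf_le_left fun x hx => hΩ x hx.2 (h3 x hx.1)).trans ?_
    rw [← commutator_eq_bot_iff_le_centralizer, eq_bot_iff,
      ← CL.inf_eq_bot_of_isPGroup_of_coprime hH hQ]
    exact le_inf ((commutator_mono inf_le_left le_rfl).trans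
      (commutator_le_left_of_normalizes (le_top.trans h2)))
      (commutator_le_right_of_normalizes (inf_le_right.trans hAQ)))
  rw [eq_bot_iff, ← CL.inf_eq_bot_of_isPGroup_of_coprime (CL.isPGroup_pCore p X) hQ]
  refine le_inf (fun x hx => hX (h4 x (mem_top _) ?_ (h5 hx))) le_rfl
  exact hQ.coprime_dvd_left (Q.orderOf_dvd_natCard hx)

/-- Let X be a finite p-constrained group, p an odd prime, and A an abelian p-subgroup of X containing every element of order p of C_X(A). Then every subgroup of X of order prime to p that is normalized by A lies in O_{p'}(X). -/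
theorem result {X : Type*} [Group X] [Finite X] (p : ℕ) [Fact p.Prime] (hp : p ≠ 2) (hX : Cfsg.IsPConstrained p X) (A : Subgroup X) (hA : IsMulCommutative ↥A) (hAp : IsPGroup p ↥A) (hΩ : ∀ x ∈ Subgroup.centralizer (A : Set X), orderOf x = p → x ∈ A) (Q : Subgroup X) (hQ : ¬ p ∣ Nat.card ↥Q) (hAQ : A ≤ Subgroup.normalizer (Q : Set X)) : Q ≤ Cfsg.pPrimeCore p X := by
  have hp' : p.Prime := Fact.out
  rw [← CL.map_mk'_eq_bot_iff]
  set f := QuotientGroup.mk' (pPrimeCore p X) with hf
  have hs : Function.Surjective f := QuotientGroup.mk'_surjective _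
  have hk : (Nat.card f.ker).Coprime p := coprime_ker_mk'_pPrimeCore
  refine aux hp (isPConstrained_iff.1 hX) (hAp.map f) (fun x hx hxp => ?_)
    (((Nat.Prime.coprime_iff_not_dvd hp').2 hQ).symm.coprime_dvd_left (card_map_dvd _ _))
    (CL.map_le_normalizer_map f hAQ)
  rw [centralizer_map_of_isPGroup hs hk hAp] at hx
  obtain ⟨y, hy, rfl⟩ := hx
  have h1 : y ^ p ∈ f.ker := by rw [MonoidHom.mem_ker, map_pow, hxp]
  have h2 : (y ^ Nat.card f.ker) ^ p = 1 := by
    rw [← pow_mul, mul_comm, pow_mul]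
    exact congrArg Subtype.val (pow_card_eq_one' (G := f.ker) (x := ⟨_, h1⟩))
  have h3 : y ^ Nat.card f.ker ∈ A := by
    by_cases h : y ^ Nat.card f.ker = 1
    · rw [h]; exact one_mem _
    · exact hΩ _ (pow_mem hy _) (orderOf_eq_prime h2 h)
  have h4 := mem_map_of_mem f h3
  rw [map_pow] at h4
  have h5 : (orderOf (f y)).Coprime (Nat.card f.ker) :=
    hk.symm.coprime_dvd_left (orderOf_dvd_of_pow_eq_one hxp)
  obtain ⟨m, hm⟩ := exists_pow_eq_self_of_coprime h5.symm
  rw [← hm]
  exact pow_mem h4 m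

end Cfsg.Agent.S1302
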