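import Cfsg.Statements.S2427
import Cfsg.Agent.KSG.SL2SylNorm
import Cfsg.Agent.S0257

set_option autoImplicit false
open Cfsg CL.GL2 CL.Char

namespace Cfsg.Agent.S2427

/-- The group SL₂ over the field with 3 elements has order 24 and centre of order 2; its commutator subgroup has order 8, is isomorphic to the quaternion group of order 8 and is complemented by every Sylow 3-subgroup (so the group is a semidirect product of a quaternion group of order 8 by a cyclic group of order 3); and its only normal subgroups besides the trivial subgroup and the whole group are the centre and the commutator subgroup. -/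
theorem result :
    Nat.card (Matrix.SpecialLinearGroup (Fin 2) (ZMod 3)) = 24 ∧
    Nat.card (Subgroup.center (Matrix.SpecialLinearGroup (Fin 2) (ZMod 3))) = 2 ∧
    Nat.card (commutator (Matrix.SpecialLinearGroup (Fin 2) (ZMod 3))) = 8 ∧
    Nonempty (commutator (Matrix.SpecialLinearGroup (Fin 2) (ZMod 3)) ≃* QuaternionGroup 2) ∧
    (∀ P : Sylow 3 (Matrix.SpecialLinearGroup (Fin 2) (ZMod 3)),
      Subgroup.IsComplement' (commutator (Matrix.SpecialLinearGroup (Fin 2) (ZMod 3)))
        (P : Subgroup (Matrix.SpecialLinearGroup (Fin 2) (ZMod 3)))) ∧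
    ∀ N : Subgroup (Matrix.SpecialLinearGroup (Fin 2) (ZMod 3)), N.Normal →
      N = ⊥ ∨ N = ⊤ ∨ N = Subgroup.center (Matrix.SpecialLinearGroup (Fin 2) (ZMod 3)) ∨
        N = commutator (Matrix.SpecialLinearGroup (Fin 2) (ZMod 3)) := by
  have hq : Fintype.card (ZMod 3) = 3 := ZMod.card 3
  have hodd : Odd (Fintype.card (ZMod 3)) := by rw [hq]; decide
  have h2 := two_ne_zero_of_odd hodd
  have hG : Nat.card (Matrix.SpecialLinearGroup (Fin 2) (ZMod 3)) = 24 := by rw [card_SL2, hq]; rfl
  obtain ⟨⟨Q, hQn, hQi, hQe⟩, hZ⟩ := Cfsg.Agent.S0257.result hq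
  have hQ : Nat.card Q = 8 := by
    have := Subgroup.card_mul_index Q
    rw [hQi, hG] at this
    omega
  have hp : IsPGroup 2 Q := IsPGroup.of_card (n := 3) hQ
  obtain ⟨a, w, h⟩ := exists_syl2 hodd (hp.toSylow (by rw [hQi]; decide))
  change Syl2 Q a w at h
  have h8 : ¬ 8 ∣ Nat.card (centSL (a : Matrix (Fin 2) (Fin 2) (ZMod 3))) := by
    rw [h.eight_dvd_iff hodd, hq]; decide
  have hN : Subgroup.normalizer (Q : Set (Matrix.SpecialLinearGroup (Fin 2) (ZMod 3))) = ⊤ :=
    Subgroup.normalizer_eq_top Q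
  have hc : commutator (Matrix.SpecialLinearGroup (Fin 2) (ZMod 3)) = Q := by
    have := congrArg (Subgroup.map (Subgroup.subtype _)) (h.commutator_normalizer h2 h8)
    rw [Subgroup.map_subtype_commutator, Subgroup.subgroupOf_map_subtype, hN, inf_top_eq] at this
    exact this
  rw [hc]
  refine ⟨hG, hZ, hQ, hQe, fun P => ?_, fun N hN' => ?_⟩
  · have hP : Nat.card P = 3 := by
      rw [P.card_eq_multiplicity, hG, show (24 : ℕ) = 3 ^ 1 * 8 by rfl,
        Nat.factorization_mul (by decide) (by decide), Nat.Prime.factorization_pow Nat.prime_three]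
      simp [Nat.factorization_eq_zero_of_not_dvd (show ¬ 3 ∣ 8 by decide)]
    exact Subgroup.isComplement'_of_coprime (by rw [hQ, hP, hG]) (by rw [hQ, hP]; decide)
  · obtain ⟨o, h1, h3⟩ := h.exists_omega h2
    have h4 : o * (a * w) * o⁻¹ = a := by
      calc o * (a * w) * o⁻¹ = (o * a * o⁻¹) * (o * w * o⁻¹) := by group
        _ = a := by rw [h1, h3, ← mul_assoc, h.anti h2, neg_mul, mul_assoc, h.wsq h2]; simp
    have k1 : a ∈ N → Q ≤ N := by
      intro ha
      have hw : w ∈ N := h1 ▸ hN'.conj_mem a ha o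
      have hn : ∀ x ∈ N, -x ∈ N := fun x hx => by
        rw [← neg_one_mul, ← h.sq]; exact N.mul_mem (N.mul_mem ha ha) hx
      intro t ht
      rcases h.mem_cases h2 h8 ht with (e | e | e | e) | (e | e | e | e) <;> rw [e]
      exacts [N.one_mem, hn _ N.one_mem, ha, hn _ ha, hw, hn _ hw, N.mul_mem ha hw,
        hn _ (N.mul_mem ha hw)]
    have k2 : a * w ∈ N → Q ≤ N := fun e => k1 (h4 ▸ hN'.conj_mem _ e o)
    have k3 : w ∈ N → Q ≤ N := fun e => k2 (h3 ▸ hN'.conj_mem _ e o)
    have haw : a * w * (a * w) = -1 := by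
      rw [mul_assoc, ← mul_assoc w, h.anti h2, neg_mul, mul_neg, mul_assoc, h.wsq h2, ← mul_assoc, h.sq]
      simp
    have k4 : ∀ x : Matrix.SpecialLinearGroup (Fin 2) (ZMod 3), x * x = -1 → -x ∈ N → x ∈ N :=
      fun x e hx => by rwa [← inv_eq_neg_of_mul_self e, N.inv_mem_iff] at hx
    by_cases hQN : Q ≤ N
    · have := Subgroup.index_dvd_of_le hQN
      rw [hQi] at this
      rcases (Nat.dvd_prime Nat.prime_three).1 this with e | e
      · exact Or.inr (Or.inl (Subgroup.index_eq_one.1 e))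
      · refine Or.inr (Or.inr (Or.inr (Subgroup.eq_of_le_of_card_ge hQN ?_).symm))
        have := Subgroup.card_mul_index N
        rw [e, hG] at this
        omega
    have k5 : ∀ t ∈ N, t ∈ Q → t = 1 ∨ t = -1 := by
      intro t ht ht'
      rcases h.mem_cases h2 h8 ht' with (e | e | e | e) | (e | e | e | e) <;> rw [e] at ht
      exacts [Or.inl e, Or.inr e, absurd (k1 ht) hQN, absurd (k1 (k4 _ h.sq ht)) hQN,
        absurd (k3 ht) hQN, absurd (k3 (k4 _ (h.wsq h2) ht)) hQN, absurd (k2 ht) hQN,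
        absurd (k2 (k4 _ haw ht)) hQN]
    have k6 : N ≤ Q := by
      intro n hn
      refine h.mem_of_normalizer h2 (hN ▸ Subgroup.mem_top n) ((h.reg h2).mem_normalizer_iff.2 ?_)
      rcases k5 (n * a * n⁻¹ * a⁻¹) (by
        have := N.mul_mem hn (hN'.conj_mem _ (N.inv_mem hn) a)
        simpa only [mul_assoc] using this) (Q.mul_mem (hQn.conj_mem a h.mem n) (Q.inv_mem h.mem))
        with e | e
      · exact Or.inl (mul_inv_eq_one.1 e)
      · right
        rw [mul_inv_eq_iff_eq_mul.1 e, inv_eq_neg_of_mul_self h.sq, neg_one_mul]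
    by_cases hm : (-1 : Matrix.SpecialLinearGroup (Fin 2) (ZMod 3)) ∈ N
    · refine Or.inr (Or.inr (Or.inl (le_antisymm (fun t ht => mem_center_SL_iff'.2 (k5 t ht (k6 ht)))
        fun t ht => ?_)))
      rcases mem_center_SL_iff'.1 ht with rfl | rfl
      exacts [N.one_mem, hm]
    · refine Or.inl ((Subgroup.eq_bot_iff_forall N).2 fun t ht => ?_)
      exact (k5 t ht (k6 ht)).resolve_right fun e => hm (e ▸ ht)

end Cfsg.Agent.S2427
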