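import Cfsg.Statements.S1303
import Cfsg.Agent.S2427
import Cfsg.Agent.PLOC.PConstrained
import Cfsg.Agent.SOLV.HallConverse

set_option autoImplicit false
open Cfsg

namespace Cfsg.Agent.S1303


/-- The group X = SL(2, 3): it is 2-constrained, O_{2'}(X) = 1, its centre A = Z(X) contains every involution of X = C_X(A), and X has a subgroup of order 3 (normalized by A) not contained in O_{2'}(X). -/
theorem result : Cfsg.IsPConstrained 2 (Matrix.SpecialLinearGroup (Fin 2) (ZMod 3)) ∧ Cfsg.pPrimeCore 2 (Matrix.SpecialLinearGroup (Fin 2) (ZMod 3)) = ⊥ ∧ (∀ t : Matrix.SpecialLinearGroup (Fin 2) (ZMod 3), orderOf t = 2 → t ∈ Subgroup.center (Matrix.SpecialLinearGroup (Fin 2) (ZMod 3))) ∧ ∃ Q : Subgroup (Matrix.SpecialLinearGroup (Fin 2) (ZMod 3)), Nat.card ↥Q = 3 ∧ ¬ (Q ≤ Cfsg.pPrimeCore 2 (Matrix.SpecialLinearGroup (Fin 2) (ZMod 3))) := by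
  obtain ⟨h1, h2, h3, -, -, h4⟩ := Cfsg.Agent.S2427.result
  have h5 : Cfsg.pPrimeCore 2 (Matrix.SpecialLinearGroup (Fin 2) (ZMod 3)) = ⊥ := by
    have h6 := CL.coprime_card_pPrimeCore 2 (Matrix.SpecialLinearGroup (Fin 2) (ZMod 3))
    rcases h4 (Cfsg.pPrimeCore 2 _) inferInstance with h | h | h | h
    · exact h
    · rw [h, Subgroup.card_top, h1] at h6; norm_num at h6
    · rw [h, h2] at h6; norm_num at h6
    · rw [h, h3] at h6; norm_num at h6
  refine ⟨CL.PC.isPConstrained_of_isSolvable (CL.isSolvable_of_normal_of_quotient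
    (commutator _) ?_ ?_), h5, ?_, ?_⟩
  · have h6 : IsPGroup 2 (commutator (Matrix.SpecialLinearGroup (Fin 2) (ZMod 3))) :=
      IsPGroup.of_card (n := 3) h3
    have := h6.isNilpotent
    infer_instance
  · exact inferInstanceAs (Group.IsSolvable (Abelianization _))
  · intro t ht
    have k1 : t ^ 2 = 1 := by have := pow_orderOf_eq_one t; rwa [ht] at this
    have k2 : ∀ s : Matrix.SpecialLinearGroup (Fin 2) (ZMod 3), s ^ 2 = 1 → ∀ g, g * s = s * g := by
      decide
    exact Subgroup.mem_center_iff.2 (k2 t k1)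
  · have : Fact (Nat.Prime 3) := ⟨by norm_num⟩
    obtain ⟨x, hx⟩ := exists_prime_orderOf_dvd_card' (G := Matrix.SpecialLinearGroup (Fin 2) (ZMod 3))
      3 (by rw [h1]; norm_num)
    refine ⟨Subgroup.zpowers x, by rw [Nat.card_zpowers, hx], fun h => ?_⟩
    rw [h5, le_bot_iff, Subgroup.zpowers_eq_bot] at h
    rw [h, orderOf_one] at hx
    omega

end Cfsg.Agent.S1303
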