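import Cfsg.Statements.S1307
import Cfsg.Agent.SIG.CompIn
import Cfsg.Agent.SIG.PBase
import Cfsg.Agent.INV.ZStarCor
import Cfsg.Agent.SOLV.PGroupCyclicSCN
import Cfsg.Agent.S0219

set_option autoImplicit false
open Cfsg

namespace Cfsg.Agent.S1307

open Subgroup CL.Comp CL.PComp

/-- Let G be finite, x an involution and L ≤ C_G(x) a component of C_G(x) of even order and 2-rank 1, such that L is a component of C_G(y) for every involution y ∈ C_G(L). Then some involution of L is a classical involution of G. -/
theorem result {G : Type*} [Group G] [Finite G] (x : G) (hx : orderOf x = 2) (L : Subgroup G) (hLx : L ≤ Subgroup.centralizer ({x} : Set G)) (hL : Cfsg.IsComponent (L.subgroupOf (Subgroup.centralizer ({x} : Set G)))) (heven : Even (Nat.card ↥L)) (hrk : Cfsg.PRankLE 2 1 ↥L) (hne : ∀ y : G, orderOf y = 2 → y ∈ Subgroup.centralizer (L : Set G) → L ≤ Subgroup.centralizer ({y} : Set G) ∧ Cfsg.IsComponent (L.subgroupOf (Subgroup.centralizer ({y} : Set G)))) : ∃ t ∈ L, Cfsg.IsClassicalInvolution t := by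
  have hLc : IsCompIn L (centralizer ({x} : Set G)) := ⟨hLx, hL⟩
  have hq := hLc.isQuasisimple
  have hno : ∀ E : Subgroup L, ¬ IsKleinFour E := by
    intro E hE
    have h1 := hrk E hE.isMulCommutative (fun a ha => by
      have := Monoid.pow_exponent_eq_one (⟨a, ha⟩ : E)
      rw [hE.exponent_two] at this
      exact congrArg Subtype.val this)
    rw [hE.card_four] at h1
    omega
  obtain ⟨t, ht⟩ := exists_prime_orderOf_dvd_card' (G := L) 2 (even_iff_two_dvd.1 heven)
  have hiso := CL.BS.isolated_of_no_kleinFour hno ht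
  have hO : oddCore L ≤ center L := by
    rcases hq.normal_top_or_le_center (oddCore L) inferInstance with h | h
    · exfalso
      apply not_dvd_card_pPrimeCore (G := L) 2
      rw [show pPrimeCore 2 L = ⊤ from h, card_top]
      exact even_iff_two_dvd.1 heven
    · exact h
  have hc : ∀ g : L, t * g * t⁻¹ = g := fun g =>
    eq_of_perfect_of_mul_inv_mem_center hq.commutator_top (MulAut.conj t).toMonoidHom
      (fun g => hO (CL.BS.zstar hiso g)) g
  have ht' : orderOf (t : G) = 2 := by rw [Subgroup.orderOf_coe]; exact ht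
  have htc : (t : G) ∈ centralizer (L : Set G) := by
    rw [mem_centralizer_iff]
    intro g hg
    have := congrArg Subtype.val (hc ⟨g, hg⟩)
    simp only [coe_mul, coe_inv] at this
    calc g * t = (t * g * (t : G)⁻¹) * t := by rw [this]
      _ = t * g := by group
  obtain ⟨h1, h2⟩ := hne t ht' htc
  refine ⟨t, t.2, ht', L, h1, t.2, (IsCompIn.subnormal ⟨h1, h2⟩), ?_⟩
  obtain ⟨S⟩ : Nonempty (Sylow 2 L) := inferInstance
  refine ⟨S, ?_⟩
  rcases CL.PCyc.isCyclic_or_quaternion (p := 2) S.isPGroup' (fun a b ha hb hab => by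
    by_contra hcon
    have hne' : (a : L) ≠ b := fun h => hcon (by rw [Subtype.ext h]; exact mem_zpowers _)
    exact hno _ (CL.BS.isKleinFour_closure_pair (by rw [Subgroup.orderOf_coe]; exact ha)
      (by rw [Subgroup.orderOf_coe]; exact hb) hne' (congrArg Subtype.val hab.eq))) with h | h
  · exfalso
    obtain ⟨N, hN⟩ := Cfsg.Agent.S0219.result heven S h
    have hn : N.Normal := normal_of_index_eq_two hN
    have hc : IsCyclic (L ⧸ N) := isCyclic_of_prime_card (p := 2) hN
    have : _root_.commutator L ≤ N := by
      rw [← Subgroup.Normal.quotient_commutative_iff_commutator_le]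
      exact hc.isMulCommutative
    rw [show _root_.commutator L = ⊤ from hq.commutator_top, top_le_iff] at this
    rw [this, index_top] at hN
    exact absurd hN (by decide)
  · exact h.2

end Cfsg.Agent.S1307
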