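import Cfsg.Statements.S1316
import Cfsg.Agent.SIG.FStar

set_option autoImplicit false
open Cfsg

namespace Cfsg.Agent.S1316

theorem derived_le {X : Type*} [Group X] (H E F : Subgroup X) [E.Normal] (h : H = E ⊔ F) (n : ℕ) :
    (derivedSeries H n).map H.subtype ≤ E ⊔ (derivedSeries F n).map F.subtype := by
  induction n with
  | zero =>
    simp only [derivedSeries_zero, ← MonoidHom.range_eq_map, Subgroup.range_subtype]
    exact h.le
  | succ n ih =>
    rw [derivedSeries_succ, derivedSeries_succ, Subgroup.map_commutator, Subgroup.map_commutator]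
    refine (Subgroup.commutator_mono ih ih).trans ?_
    rw [sup_comm E ⁅_, _⁆, ← CL.map_mk'_le_map_mk'_iff, Subgroup.map_commutator, Subgroup.map_sup,
      (CL.map_mk'_eq_bot_iff E E).mpr le_rfl, bot_sup_eq, Subgroup.map_commutator]

theorem perfect_le {X : Type*} [Group X] (H E : Subgroup X) (hE : ⁅E, E⁆ = E) (h : E ≤ H) (n : ℕ) :
    E ≤ (derivedSeries H n).map H.subtype := by
  induction n with
  | zero => simpa only [derivedSeries_zero, ← MonoidHom.range_eq_map, Subgroup.range_subtype]
  | succ n ih =>
    rw [derivedSeries_succ, Subgroup.map_commutator]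
    exact hE.ge.trans (Subgroup.commutator_mono ih ih)

/-- For a finite group X, E(X) equals the intersection of the derived series of F*(X) (its last term). -/
theorem result {X : Type*} [Group X] [Finite X] : (⨅ n : ℕ, (derivedSeries ↥(Cfsg.generalizedFittingSubgroup X) n).map (Cfsg.generalizedFittingSubgroup X).subtype) = Cfsg.layer X := by
  apply le_antisymm
  · have := CL.isNilpotent_fittingSubgroup X
    obtain ⟨n, hn⟩ := (inferInstance : Group.IsSolvable (fittingSubgroup X)).solvable
    refine (iInf_le _ n).trans ((derived_le _ (layer X) (fittingSubgroup X) rfl n).trans ?_)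
    rw [hn, Subgroup.map_bot, sup_bot_eq]
  · exact le_iInf fun n => perfect_le _ _ CL.Comp.commutator_layer_self CL.Comp.layer_le_fstar n

end Cfsg.Agent.S1316
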