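import Cfsg.Statements.S1328
import Mathlib
import Cfsg.Agent.SIG.PBalance

set_option autoImplicit false
open Cfsg

namespace Cfsg.Agent.S1328

/-- Let G be finite, H ≤ G with O(H) = 1, t an involution of G normalizing H, and Y a nontrivial subgroup of O(C_H(t)). Then some component E of H is normalized by t and by Y and centralized by neither t nor Y. -/
theorem result {G : Type*} [Group G] [Finite G] (H : Subgroup G) (hO : Cfsg.oddCore ↥H = ⊥) (t : G) (ht : orderOf t = 2) (htH : t ∈ Subgroup.normalizer (H : Set G)) (Y : Subgroup G) (hY1 : Y ≠ ⊥) (hY : Y ≤ (Cfsg.oddCore ↥(H ⊓ Subgroup.centralizer ({t} : Set G))).map (H ⊓ Subgroup.centralizer ({t} : Set G)).subtype) : ∃ E : Subgroup ↥H, Cfsg.IsComponent E ∧ (E.map H.subtype).map (MulAut.conj t).toMonoidHom = E.map H.subtype ∧ Y ≤ Subgroup.normalizer ((E.map H.subtype : Subgroup G) : Set G) ∧ ¬ (t ∈ Subgroup.centralizer ((E.map H.subtype : Subgroup G) : Set G)) ∧ ¬ (Y ≤ Subgroup.centralizer ((E.map H.subtype : Subgroup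 G) : Set G)) := by
  haveI : Fact (Nat.Prime 2) := ⟨Nat.prime_two⟩
  rw [← CL.PComp.opOf_def] at hY
  set M := H ⊔ Subgroup.zpowers t with hM
  have hZ : Subgroup.zpowers t ≤ Subgroup.normalizer (H : Set G) := Subgroup.zpowers_le.mpr htH
  have hMH : M ≤ Subgroup.normalizer (H : Set G) := sup_le Subgroup.le_normalizer hZ
  have hodd : ∀ y ∈ M, (orderOf y).Coprime 2 → y ∈ H := fun y hy hc =>
    CL.PComp.mem_of_mem_sup_of_le_normalizer (p := orderOf y) (k := 1) hZ
      (by rw [Nat.card_zpowers, ht]; exact hc.symm) hy (by rw [pow_one, pow_orderOf_eq_one])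
  have hOM : Cfsg.pPrimeCore 2 M = ⊥ := by
    rw [← CL.PComp.opOf_eq_bot_iff, eq_bot_iff, ← CL.PComp.opOf_eq_bot_iff.mpr hO]
    refine CL.PComp.opOf_le_opOf_of_le (fun y hy => hodd y (CL.PComp.opOf_le _ _ hy) ?_) le_sup_left
    exact CL.PComp.coprime_orderOf_of_mem (CL.PComp.opOf_coprime 2 M) hy
  let t' : M := ⟨t, Subgroup.mem_sup_right (Subgroup.mem_zpowers t)⟩
  have ht' : orderOf t' = 2 := by rw [← Subgroup.orderOf_coe]; exact ht
  have ht2 : t' ^ 2 ^ 1 = 1 := by rw [pow_one, ← ht', pow_orderOf_eq_one]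
  have hYM : Y ≤ M := hY.trans ((CL.PComp.opOf_le _ _).trans (inf_le_left.trans le_sup_left))
  have hC : (Subgroup.centralizer {t'}).map M.subtype = M ⊓ Subgroup.centralizer {t} := by
    rw [← CL.PComp.centralizer_zpowers_eq, CL.Comp.map_centralizer_subtype, MonoidHom.map_zpowers,
      CL.PComp.centralizer_zpowers_eq]
    rfl
  have hY' : Y.subgroupOf M ≤ CL.PComp.opOf 2 (Subgroup.centralizer {t'}) := by
    have h1 : CL.PComp.opOf 2 (H ⊓ Subgroup.centralizer {t}) ≤
        CL.PComp.opOf 2 (M ⊓ Subgroup.centralizer {t}) :=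
      CL.PComp.opOf_le_opOf_of_normal_in (inf_le_inf_right _ le_sup_left)
        (CL.le_normalizer_inf (inf_le_left.trans hMH) (inf_le_right.trans Subgroup.le_normalizer))
    rw [← hC, CL.PComp.opOf_map_subtype] at h1
    intro y hy
    obtain ⟨y', hy', he⟩ := h1 (hY hy)
    rwa [← show y' = y from Subtype.ext he]
  have hY'1 : Y.subgroupOf M ≠ ⊥ := by
    intro h0
    apply hY1
    rw [← Subgroup.map_subgroupOf_eq_of_le hYM, h0, Subgroup.map_bot]
  obtain ⟨L, hL, hLY⟩ : ∃ L : Subgroup M, Cfsg.IsComponent L ∧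
      ¬ Y.subgroupOf M ≤ Subgroup.centralizer (L : Set M) := by
    by_contra h0
    push Not at h0
    exact hY'1 (CL.PComp.eq_bot_of_centralizes_fstar hOM
      (CL.PComp.coprime_card_of_le hY' (CL.PComp.opOf_coprime 2 _))
      (hY'.trans (CL.PComp.opOf_centralizer_singleton_le_centralizer_pCore ht2)) h0)
  have hne : ⁅L, Subgroup.zpowers t'⁆ = L := by
    by_contra hne
    have := CL.PComp.commutator_opOf_centralizer_eq_bot hOM ht' hL hne
    rw [Subgroup.commutator_comm, Subgroup.commutator_eq_bot_iff_le_centralizer] at this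
    exact hLY (hY'.trans this)
  have hxL : Subgroup.zpowers t' ≤ Subgroup.normalizer (L : Set M) := by
    conv_rhs => rw [← hne]
    exact Subgroup.normalizer_commutator_ge_right L (Subgroup.zpowers t')
  have hxc : t' ∉ Subgroup.centralizer (L : Set M) := by
    intro hc
    rw [Subgroup.commutator_comm, Subgroup.commutator_eq_bot_iff_le_centralizer.mpr
      (Subgroup.zpowers_le.mpr hc)] at hne
    exact hL.ne_bot hne.symm
  have hL0 : CL.Comp.IsCompIn (L.map M.subtype) M := CL.Comp.isCompIn_map_subtype.mpr hL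
  have hLH : L.map M.subtype ≤ H :=
    CL.PComp.perfect_le_of_forall_coprime (p := 2) hL0.commutator_self
      fun y hy hc => hodd y (hL0.le hy) hc
  refine ⟨(L.map M.subtype).subgroupOf H, (hL0.mono hLH le_sup_left).2, ?_⟩
  rw [Subgroup.map_subgroupOf_eq_of_le hLH]
  refine ⟨CL.Comp.mem_normalizer_iff_conj.mp ?_, ?_, fun hc => hxc ?_, fun hc => hLY ?_⟩
  · exact CL.map_le_normalizer_map M.subtype hxL ⟨t', Subgroup.mem_zpowers t', rfl⟩
  · rw [← Subgroup.map_subgroupOf_eq_of_le hYM]
    exact CL.map_le_normalizer_map M.subtype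
      (hY'.trans (CL.PComp.opOf_centralizer_singleton_le_normalizer hOM ht2 hL))
  · rw [Subgroup.mem_centralizer_iff] at hc ⊢
    exact fun l hl => Subtype.ext (hc l ⟨l, hl, rfl⟩)
  · intro y hy
    have := hc hy
    rw [Subgroup.mem_centralizer_iff] at this ⊢
    exact fun l hl => Subtype.ext (this l ⟨l, hl, rfl⟩)

end Cfsg.Agent.S1328
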