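import Cfsg.Statements.S1329
import Mathlib
import Cfsg.Agent.SIG.GoodComm
import Cfsg.Agent.S0205

set_option autoImplicit false
open Cfsg

namespace Cfsg.Agent.S1329

open CL.BG CL.MSS Subgroup in
theorem cyclic_aux {G : Type*} [Group G] {A B A₀ : Subgroup G} (hA : IsMulCommutative A)
    (hB : B ≤ A) {a : G} (h : A₀ ⊔ zpowers a = A) [((B ⊓ A₀).subgroupOf B).Normal] :
    IsCyclic (B ⧸ (B ⊓ A₀).subgroupOf B) := by
  have h0 : A₀ ≤ A := h ▸ le_sup_left
  have hn : A ≤ 𝐍(A₀) := le_norm_of_le_cent (le_cent_of_le_abelian hA le_rfl h0)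
  have h1 : IsCyclic ↥(A /ₛ A₀) :=
    (cyclic_quo_iff hn).2 ⟨a, h ▸ mem_sup_right (mem_zpowers a), h.ge⟩
  have h2 : IsCyclic ↥(B /ₛ A₀) := cyclicS h1 (quo_mono _ hB)
  have : (A₀.subgroupOf B).Normal := CL.normal_subgroupOf_of_le_normalizer (hB.trans hn)
  have e : (B ⊓ A₀).subgroupOf B = A₀.subgroupOf B := inf_subgroupOf_left A₀ B
  exact isCyclic_of_surjective _
    ((quoEquiv (hB.trans hn)).symm.trans (QuotientGroup.quotientMulEquivOfEq e.symm)).surjective

/-- Let A be an abelian 2-subgroup of the finite group G, B ≤ A, and Y a subgroup of odd order normalized by A with ⁅Y, A⁆ = Y. Then Y ∩ C_G(B) is generated by the subgroups Y ∩ C_G(B) ∩ ⁅Y ∩ C_G(B₀), A⁆, B₀ ranging over the subgroups of B with B / B₀ cyclic. -/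
theorem result {G : Type*} [Group G] [Finite G] (A B Y : Subgroup G) (hA2 : IsPGroup 2 ↥A) (hAc : IsMulCommutative ↥A) (hB : B ≤ A) (hYodd : Odd (Nat.card ↥Y)) (hAY : A ≤ Subgroup.normalizer (Y : Set G)) (hYA : ⁅Y, A⁆ = Y) : Y ⊓ Subgroup.centralizer (B : Set G) = ⨆ B₀ : {B₀ : Subgroup G // B₀ ≤ B ∧ ∀ [(B₀.subgroupOf B).Normal], IsCyclic (↥B ⧸ B₀.subgroupOf B)}, Y ⊓ Subgroup.centralizer (B : Set G) ⊓ ⁅Y ⊓ Subgroup.centralizer ((B₀ : Subgroup G) : Set G), A⁆ := by
  have hs : Group.IsSolvable Y := Cfsg.Agent.S0205.result hYodd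
  have hcop : (Nat.card A).Coprime (Nat.card Y) :=
    (CL.coprime_card_of_isPGroup hA2 (Nat.coprime_two_right.2 hYodd)).symm
  refine le_antisymm ?_ (iSup_le fun _ => inf_le_left)
  have hn : A ≤ Subgroup.normalizer ((Y ⊓ Subgroup.centralizer (B : Set G) : Subgroup G) : Set G) :=
    CL.le_normalizer_inf hAY (CL.BG.le_norm_of_le (CL.BG.le_cent_of_le_abelian hAc le_rfl hB))
  refine (CL.GG.eq_comm_sup_cent hn (hcop.coprime_dvd_right (Subgroup.card_dvd_of_le inf_le_left))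
    (CL.GG.solvable_of_abelian hAc)).trans (sup_le ?_ ?_)
  · refine le_iSup_of_le ⟨B, le_rfl, ?_⟩
      (le_inf (CL.MSS.commutator_le_left_of_normalizes hn) le_rfl)
    intro _
    have : Subsingleton (B ⧸ B.subgroupOf B) := by
      rw [QuotientGroup.subsingleton_iff]; exact Subgroup.subgroupOf_self B
    infer_instance
  · have hle : ∀ A₀ : {A₀ : Subgroup G // ∃ a, A₀ ⊔ Subgroup.zpowers a = A},
        (A₀ : Subgroup G) ≤ A := by
      rintro ⟨A₀, a, ha⟩
      exact le_sup_left.trans ha.le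
    have hgen : ∀ V ≤ Y, A ≤ Subgroup.normalizer (V : Set G) →
        V ≤ ⨆ A₀ : {A₀ : Subgroup G // ∃ a, A₀ ⊔ Subgroup.zpowers a = A},
          V ⊓ Subgroup.centralizer ((A₀ : Subgroup G) : Set G) := fun V hV hAV =>
      CL.coprime_le_of_forall_cyclic_quotient A V _ hAV
        (hcop.coprime_dvd_right (Subgroup.card_dvd_of_le hV))
        fun B' a ha => le_iSup_of_le ⟨B', a, ha⟩ le_rfl
    refine (inf_le_inf_right _ inf_le_left).trans (CL.GG.inf_cent_le_of_comm_eq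
      (B := fun A₀ : {A₀ : Subgroup G // ∃ a, A₀ ⊔ Subgroup.zpowers a = A} => A₀.1) hAc
      hle hcop hAY hs hYA (fun V hV hAV => by exact hgen V hV hAV) fun A₀ => ?_)
    obtain ⟨A₀, a, ha⟩ := A₀
    refine le_iSup_of_le ⟨B ⊓ A₀, inf_le_left, by intro _; exact cyclic_aux hAc hB ha⟩
      (le_inf (le_inf (inf_le_left.trans ?_) (inf_le_right.trans (CL.BG.centS hB)))
        (inf_le_left.trans (Subgroup.commutator_mono
          (inf_le_inf_left _ (CL.BG.centS inf_le_right)) le_rfl)))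
    exact (Subgroup.commutator_mono inf_le_left le_rfl).trans hYA.le

end Cfsg.Agent.S1329
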