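import Cfsg.Statements.S1331
import Cfsg.Agent.SIG.SFMk

set_option autoImplicit false
open Cfsg

namespace Cfsg.Agent.S1331

/-- Let θ be a solvable A-signalizer functor on the finite group G for the prime p, A elementary abelian of rank at least 3, X a member of the family of θ, and B ≤ A with |B| ≥ p². Then X is generated by the subgroups X ∩ ⋂_{d ∈ D, d ≠ 1} θ d, D ranging over the subgroups of index p in B. -/
theorem result {G : Type*} [Group G] [Finite G] (p : ℕ) [Fact p.Prime] (A : Subgroup G) (hA : Cfsg.IsElementaryAbelian p A) (hA3 : p ^ 3 ≤ Nat.card ↥A) (θ : G → Subgroup G) (hθ : Cfsg.IsSolvableSignalizerFunctor p A θ) (X : Subgroup G) (hX : X ∈ Cfsg.signalizerFamily p A θ) (B : Subgroup G) (hB : B ≤ A) (hB2 : p ^ 2 ≤ Nat.card ↥B) : X = ⨆ D : {D : Subgroup G // D ≤ B ∧ D.relIndex B = p}, X ⊓ Cfsg.signalizerInf (D : Subgroup G) θ := by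
  have hBe := CL.Th.elemAb_mono hA hB
  have := hBe.1
  have hX' := (CL.SF.mkSig_th_iff hA hA3 hθ).2 hX
  refine le_antisymm (CL.coprime_le_of_forall_hyperplane B X _ Fact.out hBe.2 ?_ (hB.trans hX'.inv)
    (hX'.coprime hB) fun D h1 h2 => ?_) (iSup_le fun _ => inf_le_left)
  · rintro rfl
    exact CL.SF.not_cyclic_of_elemAb Fact.out hBe hB2 inferInstance
  · exact (le_inf inf_le_left (hX'.inf_cent_le (h1.trans hB))).trans
      (le_iSup (fun D : {D : Subgroup G // D ≤ B ∧ D.relIndex B = p} =>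
        X ⊓ Cfsg.signalizerInf (D : Subgroup G) θ) ⟨D, h1, h2⟩)

end Cfsg.Agent.S1331
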