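import Cfsg.Statements.S1335

set_option autoImplicit false
open Cfsg

namespace Cfsg.Agent.S1335

/-- Let H be a subgroup of the finite group G, p a prime, k ≥ 1, P a Sylow p-subgroup of H of p-rank at least k, and suppose N_G(X) ≤ H for every subgroup X ≤ P of p-rank at least k. Then P is a Sylow p-subgroup of G. -/
theorem result {G : Type*} [Group G] [Finite G] {p : ℕ} [Fact p.Prime] (k : ℕ) (hk : 1 ≤ k) (H : Subgroup G) (P : Sylow p ↥H) (hP : ¬ Cfsg.PRankLE p (k - 1) ↥(P : Subgroup ↥H)) (hΓ : (∀ X : Subgroup G, X ≤ (P : Subgroup ↥H).map H.subtype → ¬ Cfsg.PRankLE p (k - 1) ↥X → Subgroup.normalizer (X : Set G) ≤ H)) : ∃ Q : Sylow p G, (Q : Subgroup G) = (P : Subgroup ↥H).map H.subtype := by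
  set Q := (P : Subgroup ↥H).map H.subtype with hQ
  have hQp : IsPGroup p Q := P.isPGroup'.map _
  have hQr : ¬ Cfsg.PRankLE p (k - 1) ↥Q := by
    intro h
    apply hP
    intro A hA1 hA2
    let e : (P : Subgroup ↥H) ≃* Q := Subgroup.equivMapOfInjective _ _ H.subtype_injective
    have := h (A.map e.toMonoidHom) inferInstance (by
      rintro _ ⟨a, ha, rfl⟩
      rw [← map_pow, hA2 a ha, map_one])
    rwa [Subgroup.card_map_of_injective e.injective] at this
  have hN := hΓ Q le_rfl hQr
  obtain ⟨S, hS⟩ := hQp.exists_le_sylow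
  refine ⟨S, ?_⟩
  by_contra hne
  have hlt : Q < S := lt_of_le_of_ne hS (Ne.symm hne)
  -- the normalizer of Q in S is bigger than Q
  have hnil : Group.IsNilpotent S := S.isPGroup'.isNilpotent
  have hnc := normalizerCondition_of_isNilpotent (G := S)
  have hlt' : Q.subgroupOf S < ⊤ := by
    rw [lt_top_iff_ne_top, Ne, Subgroup.subgroupOf_eq_top]
    exact not_le_of_gt hlt
  have h2 := hnc _ hlt'
  obtain ⟨x, hx1, hx2⟩ := SetLike.exists_of_lt h2
  have hxN : (x : G) ∈ Subgroup.normalizer (Q : Set G) := by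
    rw [← Subgroup.subgroupOf_normalizer_eq hS] at hx1
    exact hx1
  -- R = S ⊓ H is a p-subgroup of H containing P
  have hR : IsPGroup p ((S : Subgroup G).subgroupOf H) := S.isPGroup'.comap_subtype
  have hPR : (P : Subgroup H) ≤ (S : Subgroup G).subgroupOf H := by
    intro y hy
    exact hS ⟨y, hy, rfl⟩
  have heq := P.is_maximal' hR hPR
  apply hx2
  have : (⟨x, hN hxN⟩ : H) ∈ (S : Subgroup G).subgroupOf H := x.2
  rw [heq] at this
  exact ⟨_, this, rfl⟩

end Cfsg.Agent.S1335
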