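import Cfsg.Statements.S1336
import Cfsg.Agent.SIG.SPE

set_option autoImplicit false
open Cfsg

namespace Cfsg.Agent.S1336

open CL.MSS CL.SPE

/-- Let G be finite and p prime. Then G has a proper subgroup H with p ∣ |H| and p ∤ |H ∩ gHg⁻¹| for every g ∉ H (a strongly p-embedded subgroup) if and only if G is not 1-connected for p. -/
theorem result {G : Type*} [Group G] [Finite G] (p : ℕ) [Fact p.Prime] : (∃ H : Subgroup G, H ≠ ⊤ ∧ p ∣ Nat.card ↥H ∧ ∀ g : G, g ∉ H → ¬ p ∣ Nat.card ↥(H ⊓ H.map (MulAut.conj g).toMonoidHom)) ↔ ¬ Cfsg.IsKConnected p 1 G := by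
  have hp := (Fact.out : p.Prime)
  have hv : ∀ {A : Subgroup G}, IsElementaryAbelian p A → (p ^ 1 ≤ Nat.card A ↔ A ≠ ⊥) := by
    intro A hA
    rw [pow_one]
    constructor
    · rintro h rfl
      rw [Subgroup.card_bot] at h
      exact absurd h (not_le.2 hp.one_lt)
    · intro h
      exact Nat.le_of_dvd Nat.card_pos (dvd_card_of_isPGroup_le (CL.Th.elemAb_isPGroup hA) h le_rfl)
  have hz : ∀ {x : G}, orderOf x = p → IsElementaryAbelian p (Subgroup.zpowers x) := fun hx =>
    CL.Th.elemAb_zpowers (by rw [← hx, pow_orderOf_eq_one])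
  have hz1 : ∀ {x : G}, orderOf x = p → Subgroup.zpowers x ≠ ⊥ := fun hx h =>
    ne_one_of_orderOf_eq hx (Subgroup.zpowers_eq_bot.1 h)
  rw [← exists_congr fun H => isStronglyPEmbedded_iff_classical (p := p) (Y := H)]
  unfold Cfsg.IsKConnected
  set r := fun A B : Subgroup G => IsElementaryAbelian p A ∧ p ^ 1 ≤ Nat.card ↥A ∧
    IsElementaryAbelian p B ∧ p ^ 1 ≤ Nat.card ↥B ∧ ∀ a ∈ A, ∀ b ∈ B, a * b = b * a with hr
  constructor
  · rintro ⟨H, hH⟩ hconn
    obtain ⟨x, hx, hxp⟩ := exists_mem_orderOf_eq (dvd_card hH)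
    apply hH.2.1
    rw [eq_top_iff]
    intro g _
    have hgx : orderOf (g * x * g⁻¹) = p := (orderOf_conj' g x).trans hxp
    have hc := hconn _ _ (hz hxp) ((hv (hz hxp)).2 (hz1 hxp)) (hz hgx) ((hv (hz hgx)).2 (hz1 hgx))
    have key : ∀ B : Subgroup G, Relation.ReflTransGen r (Subgroup.zpowers x) B → B ≤ H := by
      intro B hB
      induction hB with
      | refl => exact Subgroup.zpowers_le.2 hx
      | tail _ h ih =>
        obtain ⟨h1, h2, h3, h4, h5⟩ := h
        obtain ⟨a, ha, hap⟩ := exists_mem_orderOf_eq_of_isPGroup (CL.Th.elemAb_isPGroup h1)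
          ((hv h1).1 h2)
        intro b hb
        exact centralizer_le hH (ih ha) hap
          (Subgroup.mem_centralizer_singleton_iff.2 (h5 a ha b hb).symm)
    exact mem_of_conj_mem hH hx hxp (key _ hc (Subgroup.mem_zpowers _))
  · intro hn
    push Not at hn
    obtain ⟨E, E', hE, hE1, hE', hE'1, hEE'⟩ := hn
    have hsymm : ∀ {A B : Subgroup G}, Relation.ReflTransGen r A B → Relation.ReflTransGen r B A := by
      intro A B h
      induction h with
      | refl => exact Relation.ReflTransGen.refl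
      | tail _ h ih =>
        exact Relation.ReflTransGen.head
          ⟨h.2.2.1, h.2.2.2.1, h.1, h.2.1, fun a ha b hb => (h.2.2.2.2 b hb a ha).symm⟩ ih
    have hequiv : ∀ (g : G) {A B : Subgroup G}, Relation.ReflTransGen r A B →
        Relation.ReflTransGen r (g •ᶜ A) (g •ᶜ B) := by
      intro g A B h
      induction h with
      | refl => exact Relation.ReflTransGen.refl
      | tail _ h ih =>
        refine ih.tail ⟨CL.Th.elemAb_map h.1 _, by rw [card_cj]; exact h.2.1,
          CL.Th.elemAb_map h.2.2.1 _, by rw [card_cj]; exact h.2.2.2.1, ?_⟩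
        rintro _ ⟨a, ha, rfl⟩ _ ⟨b, hb, rfl⟩
        rw [← map_mul, ← map_mul, h.2.2.2.2 a ha b hb]
    have hsyl : ∀ {P A B : Subgroup G}, IsPGroup p P → A ≤ P → B ≤ P → IsElementaryAbelian p A →
        A ≠ ⊥ → IsElementaryAbelian p B → B ≠ ⊥ → Relation.ReflTransGen r A B := by
      intro P A B hP hA hB h1 h2 h3 h4
      have hP1 : P ≠ ⊥ := fun h => h2 (le_bot_iff.1 (h ▸ hA))
      obtain ⟨z, ⟨hzP, hzc⟩, hzp⟩ := exists_mem_orderOf_eq_of_isPGroup (hP.to_le inf_le_left)
        (inf_centralizer_ne_bot hP hP Subgroup.le_normalizer hP1)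
      have hcomm : ∀ a ∈ P, ∀ b ∈ Subgroup.zpowers z, a * b = b * a := by
        rintro a ha _ ⟨k, rfl⟩
        exact (Commute.zpow_right (hzc a ha) k).eq
      refine Relation.ReflTransGen.tail (b := Subgroup.zpowers z) (Relation.ReflTransGen.single
        ⟨h1, (hv h1).2 h2, hz hzp, (hv (hz hzp)).2 (hz1 hzp), fun a ha => hcomm a (hA ha)⟩)
        ⟨hz hzp, (hv (hz hzp)).2 (hz1 hzp), h3, (hv h3).2 h4,
          fun a ha b hb => (hcomm b (hB hb) a ha).symm⟩
    have hEb : E ≠ ⊥ := (hv hE).1 hE1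
    let H : Subgroup G :=
      { carrier := {g | Relation.ReflTransGen r (g •ᶜ E) E}
        one_mem' := by
          change Relation.ReflTransGen r ((1 : G) •ᶜ E) E
          rw [cj_one]
        mul_mem' := by
          intro a b ha hb
          change Relation.ReflTransGen r ((a * b) •ᶜ E) E
          rw [cj_mul]
          exact (hequiv a hb).trans ha
        inv_mem' := by
          intro a ha
          change Relation.ReflTransGen r (a⁻¹ •ᶜ E) E
          have := hequiv a⁻¹ ha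
          rw [inv_cj_cj] at this
          exact hsymm this }
    obtain ⟨P, hP, hEP⟩ := exists_sylIn_ge (CL.Th.elemAb_isPGroup hE) (le_top (a := E))
    have hcj : ∀ g : G, IsElementaryAbelian p (g •ᶜ E) := fun g => CL.Th.elemAb_map hE _
    have hcj1 : ∀ g : G, g •ᶜ E ≠ ⊥ := fun g h => hEb (cj_eq_bot_iff.1 h)
    have hPH : P ≤ H := fun y hy =>
      hsyl hP.pgroup (cj_le_of_mem hEP hy) hEP (hcj y) (hcj1 y) hE hEb
    have hany : ∀ (K : Subgroup G), P ≤ K → ∀ A : Subgroup G, A ≤ K → IsElementaryAbelian p A →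
        A ≠ ⊥ → ∃ h ∈ K, Relation.ReflTransGen r A (h •ᶜ E) := by
      intro K hK A hAK hA hA1
      obtain ⟨h, hh, hle⟩ := (hP.of_le hK le_top).exists_le_conj (CL.Th.elemAb_isPGroup hA) hAK
      exact ⟨h, hh, hsyl (isPGroup_cj h hP.pgroup) hle (cj_mono h hEP) hA hA1 (hcj h) (hcj1 h)⟩
    refine ⟨H, isStronglyPEmbedded_iff.2 ⟨fun htop => hEE' ?_,
      dvd_card_of_isPGroup_le (CL.Th.elemAb_isPGroup hE) hEb (hEP.trans hPH), ?_⟩⟩
    · obtain ⟨h, -, hh⟩ := hany ⊤ le_top E' le_top hE' ((hv hE').1 hE'1)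
      have : h ∈ H := htop ▸ Subgroup.mem_top h
      exact hsymm (hh.trans this)
    · intro x hx hxp g hg
      have hgx : orderOf (g * x * g⁻¹) = p := (orderOf_conj' g x).trans hxp
      obtain ⟨h, hh, h1⟩ := hany H hPH _ (Subgroup.zpowers_le.2 hx) (hz hxp) (hz1 hxp)
      obtain ⟨k, hk, h2⟩ := hany H hPH _ (Subgroup.zpowers_le.2 hg) (hz hgx) (hz1 hgx)
      have h3 := hequiv g (h1.trans hh)
      rw [cj_zpowers] at h3
      exact (hsymm h3).trans (h2.trans hk)

end Cfsg.Agent.S1336
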