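import Cfsg.Statements.S1338
import Mathlib
import Cfsg.Agent.S1337
import Cfsg.Agent.S0122
import Cfsg.Agent.INV.Four
import Cfsg.Agent.TECH.Conj

set_option autoImplicit false
open Cfsg

namespace Cfsg.Agent.S1338


open CL.Th

theorem card_le_ker_mul_map {E : Type*} [Group E] [Finite E] (δ : E →* E) (H : Subgroup E) :
    Nat.card H ≤ Nat.card δ.ker * Nat.card (H.map δ) := by
  have h1 := Subgroup.card_mul_index (δ.domRestrict H).ker
  rw [Subgroup.index_ker, MonoidHom.domRestrict_range, MonoidHom.ker_domRestrict] at h1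
  rw [← h1]
  refine Nat.mul_le_mul_right _ (Nat.card_le_card_of_injective
    (fun x : δ.ker.subgroupOf H => (⟨x.1.1, x.2⟩ : δ.ker)) fun x y e => ?_)
  exact Subtype.ext (Subtype.ext (congrArg (fun z : δ.ker => (z : E)) e))

theorem card_le_cube {G : Type*} [Group G] [Finite G] {E : Subgroup G} [hn : E.Normal]
    (hE : IsElementaryAbelian 3 E) {x : G} (hx : x ^ 3 = 1) :
    Nat.card E ≤ Nat.card (E ⊓ Subgroup.centralizer {x} : Subgroup G) ^ 3 := by
  haveI := hE.1
  letI : CommGroup E := { (inferInstance : Group E) with mul_comm := fun a b => Subtype.ext (elemAb_comm hE a.2 b.2) }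
  let φ : E →* E := (MulAut.conjNormal x : MulAut E).toMonoidHom
  have hφ : ∀ e : E, (φ e : G) = x * e * x⁻¹ := fun e => rfl
  have hφ3 : ∀ e : E, φ (φ (φ e)) = e := fun e => Subtype.ext (by
    rw [hφ, hφ, hφ]
    calc x * (x * (x * e * x⁻¹) * x⁻¹) * x⁻¹ = x ^ 3 * e * (x ^ 3)⁻¹ := by simp [pow_succ, mul_assoc]
      _ = e := by rw [hx]; group)
  have h3 : ∀ e : E, e ^ 3 = 1 := fun e => Subtype.ext (hE.2 e e.2)
  let δ : E →* E := φ * (MonoidHom.id E)⁻¹
  have hδ : ∀ e, δ e = φ e * e⁻¹ := fun e => rfl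
  have hδ3 : ∀ e, δ (δ (δ e)) = 1 := by
    intro e
    have : δ (δ (δ e)) = (φ e) ^ 3 * ((φ (φ e)) ^ 3)⁻¹ := by
      simp only [hδ, map_mul, map_inv, hφ3, pow_succ, pow_zero, one_mul, mul_inv_rev, inv_inv]
      apply Additive.ofMul.injective
      simp only [ofMul_mul, ofMul_inv]
      abel
    rw [this, h3, h3]; simp
  have hk : Nat.card δ.ker ≤ Nat.card (E ⊓ Subgroup.centralizer {x} : Subgroup G) := by
    refine Nat.card_le_card_of_injective (fun e : δ.ker => (⟨e.1.1, e.1.2, ?_⟩ :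
      (E ⊓ Subgroup.centralizer {x} : Subgroup G))) fun a b e => ?_
    · have := congrArg Subtype.val (mul_inv_eq_one.mp ((hδ e.1).symm.trans e.2))
      rw [hφ, mul_inv_eq_iff_eq_mul] at this
      exact Subgroup.mem_centralizer_singleton_iff.mpr this.symm
    · exact Subtype.ext (Subtype.ext (congrArg
        (fun z : (E ⊓ Subgroup.centralizer {x} : Subgroup G) => (z : G)) e))
  have a1 := card_le_ker_mul_map δ ⊤
  have a2 := card_le_ker_mul_map δ ((⊤ : Subgroup E).map δ)
  have a3 : Nat.card (((⊤ : Subgroup E).map δ).map δ) ≤ Nat.card δ.ker :=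
    Subgroup.card_le_of_le (by rintro _ ⟨_, ⟨e, -, rfl⟩, rfl⟩; exact hδ3 e)
  rw [Subgroup.card_top] at a1
  calc Nat.card E ≤ Nat.card δ.ker * (Nat.card δ.ker * Nat.card δ.ker) :=
        a1.trans (Nat.mul_le_mul_left _ (a2.trans (Nat.mul_le_mul_left _ a3)))
    _ = Nat.card δ.ker ^ 3 := by ring
    _ ≤ _ := Nat.pow_le_pow_left hk 3


/-- A finite 3-group of 3-rank at least 4 is 2-connected for the prime 3: its commuting graph on elementary abelian subgroups of order ≥ 9 is connected. -/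
theorem result {P : Type*} [Group P] [Finite P] (hP : IsPGroup 3 P) (hrk : ¬ Cfsg.PRankLE 3 3 P) : Cfsg.IsKConnected 3 2 P := by

  haveI : Fact (Nat.Prime 3) := ⟨Nat.prime_three⟩
  obtain ⟨F, hF, hF4⟩ := Cfsg.Agent.S1337.not_rank_iff' hrk
  obtain ⟨F', hF'F, hF'⟩ := CL.Four.exists_le_card_eq (elemAb_isPGroup hF) hF4
  obtain ⟨E, hEn, hE, hE4⟩ := Cfsg.Agent.S0122.result (by norm_num) hP F' (elemAb_mono hF hF'F) hF'
  have hrk2 : ¬ PRankLE 3 2 P := fun h => hrk fun A h1 h2 => (h A h1 h2).trans (by norm_num)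
  obtain ⟨U, -, -, -, hU⟩ := Cfsg.Agent.S1337.result 3 hP hrk2
  have key : ∀ X : Subgroup P, IsElementaryAbelian 3 X → 3 ^ 2 ≤ Nat.card X →
      ¬ PRankLE 3 2 (Subgroup.centralizer (X : Set P)) := by
    intro X hX hX2
    rw [Cfsg.Agent.S1337.not_rank_iff]
    by_cases hle : E ⊓ Subgroup.centralizer (X : Set P) ≤ X
    swap
    · exact ⟨(E ⊓ Subgroup.centralizer (X : Set P)) ⊔ X, sup_le inf_le_right (elemAb_le_centralizer hX),
        elemAb_sup (elemAb_inf_left hE _) hX inf_le_right,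
        CL.PG.pow_succ_le_card_of_lt hP (right_lt_sup.mpr hle) hX2⟩
    refine ⟨X, elemAb_le_centralizer hX, hX, ?_⟩
    by_contra hlt
    have hXc : Nat.card X = 3 ^ 2 := by
      obtain ⟨n, hn⟩ := elemAb_card hX
      rw [hn] at hlt hX2 ⊢
      have h1 := (Nat.pow_le_pow_iff_right (by norm_num)).mp hX2
      have h2 := (Nat.pow_lt_pow_iff_right (by norm_num)).mp (not_le.mp hlt)
      congr 1; omega
    have hXE : ¬ X ≤ E := by
      intro h
      have : E ≤ X := le_trans (le_inf le_rfl ((elemAb_le_centralizer hE).trans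
        (Subgroup.centralizer_le h))) hle
      have := Subgroup.card_le_of_le this
      rw [hXc, hE4] at this; norm_num at this
    obtain ⟨x, hxX, hxE⟩ := SetLike.not_le_iff_exists.mp hXE
    have hlt2 : E ⊓ X < X := inf_lt_right.mpr hXE
    have hc1 : Nat.card (E ⊓ X : Subgroup P) ≤ 3 ^ 1 := CL.PG.card_le_pow_of_lt hP hlt2 hXc.le
    have hne : E ⊓ Subgroup.centralizer (X : Set P) ≠ ⊥ :=
      CL.MSS.inf_centralizer_ne_bot (elemAb_isPGroup hX) (elemAb_isPGroup hE)
        (by rw [Subgroup.normalizer_eq_top]; exact le_top) (by rintro rfl; simp at hE4)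
    have hc2 : 3 ^ (0 + 1) ≤ Nat.card (E ⊓ X : Subgroup P) :=
      CL.PG.pow_succ_le_card_of_lt hP (H := ⊥)
        ((bot_lt_iff_ne_bot.mpr hne).trans_le (le_inf inf_le_left hle)) (by simp)
    have hsup := CL.PG.sup_zpowers_eq_of_card Nat.prime_three (M := E ⊓ X) (N := X) inf_le_right
      (by rw [hXc]; omega) hxX (fun h => hxE h.1)
    have hsub : E ⊓ Subgroup.centralizer {x} ≤ E ⊓ X := by
      refine le_inf inf_le_left (le_trans (le_inf inf_le_left ?_) hle)
      rw [← hsup, CL.PG.centralizer_sup_zpowers]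
      exact le_inf (inf_le_left.trans ((elemAb_le_centralizer hE).trans
        (Subgroup.centralizer_le (SetLike.coe_subset_coe.mpr inf_le_left)))) inf_le_right
    have := (card_le_cube hE (hX.2 x hxX)).trans
      (Nat.pow_le_pow_left ((Subgroup.card_le_of_le hsub).trans hc1) 3)
    rw [hE4] at this; norm_num at this
  intro X Y hX hX2 hY hY2
  refine ((hU X hX hX2).mpr (key X hX hX2)).trans ?_
  have h := (hU Y hY hY2).mpr (key Y hY hY2)
  clear hY hY2
  induction h using Relation.ReflTransGen.head_induction_on with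
  | refl => exact Relation.ReflTransGen.refl
  | head hAB _ ih =>
    obtain ⟨h1, h2, h3, h4, h5⟩ := hAB
    exact ih.tail ⟨h3, h4, h1, h2, fun a ha b hb => (h5 b hb a ha).symm⟩

end Cfsg.Agent.S1338
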