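import Cfsg.Statements.S1343
import Mathlib
import Cfsg.Agent.SIG.ExtLayer

set_option autoImplicit false
open Cfsg

namespace Cfsg.Agent.S1343

/-- Let X be finite. Then L*_{2'}(X) = L_{2'}(X) ⊔ F for some subgroup F of odd order normalized by a Sylow 2-subgroup of X. -/
theorem result {X : Type*} [Group X] [Finite X] : ∃ F : Subgroup X, Odd (Nat.card ↥F) ∧ (∃ S : Sylow 2 X, (S : Subgroup X) ≤ Subgroup.normalizer (F : Set X)) ∧ Cfsg.extendedTwoLayer X = Cfsg.pLayer 2 X ⊔ F := by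
  have := CL.PComp.pPrimePCore_normal (p := 2) (G := X)
  have := CL.PComp.pLayer_normal (p := 2) (G := X)
  obtain ⟨S⟩ : Nonempty (Sylow 2 X) := inferInstance
  have hT := CL.Misc.sylIn_inf_normal S (Cfsg.pLayer 2 X ⊔ Cfsg.pPrimePCore 2 X)
  refine ⟨CL.PComp.opOf 2 (Subgroup.centralizer (((S : Subgroup X) ⊓
    (Cfsg.pLayer 2 X ⊔ Cfsg.pPrimePCore 2 X) : Subgroup X) : Set X)) ⊔ Cfsg.pPrimeCore 2 X,
    ?_, ⟨S, ?_⟩, ?_⟩
  · exact Nat.coprime_two_right.mp (CL.PComp.coprime_card_sup Subgroup.le_normalizer_of_normal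
      (CL.PComp.opOf_coprime 2 _) (CL.PComp.pPrimeCore_coprime 2))
  · refine CL.le_normalizer_sup ?_ Subgroup.le_normalizer_of_normal
    exact (CL.le_normalizer_centralizer (CL.le_normalizer_inf Subgroup.le_normalizer
      Subgroup.le_normalizer_of_normal)).trans (CL.PComp.normalizer_le_normalizer_opOf 2 _)
  · rw [CL.PComp.extendedTwoLayer_eq hT, sup_assoc, sup_comm (Cfsg.pPrimeCore 2 X)]

end Cfsg.Agent.S1343
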