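import Cfsg.Statements.S1348
import Cfsg.Agent.SIG.SLCorner
import Cfsg.Agent.S1306

set_option autoImplicit false
open Cfsg

namespace Cfsg.Agent.S1348


theorem two_ne {F : Type*} [Field F] [Fintype F] (hF : Odd (Fintype.card F)) : (2 : F) ≠ 0 := by
  apply Ring.two_ne_zero
  intro h
  have := FiniteField.even_card_of_char_two h
  rw [Nat.odd_iff] at hF
  omega

/-- Let F be a finite field of odd order, n ≥ 7 odd, and t ∈ SL(n, F) the diagonal matrix with entries −1, …, −1, 1. Then E(C(t)) is a standard subgroup of SL(n, F). -/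
theorem result {F : Type*} [Field F] [Fintype F] [DecidableEq F] (hF : Odd (Fintype.card F)) (n : ℕ) (hn : 7 ≤ n) (hodd : Odd n) (t : Matrix.SpecialLinearGroup (Fin n) F) (ht : (t : Matrix (Fin n) (Fin n) F) = Matrix.diagonal (fun i : Fin n => if (i : ℕ) + 1 = n then (1 : F) else -1)) : Cfsg.IsStandardSubgroup ((Cfsg.layer ↥(Subgroup.centralizer ({t} : Set (Matrix.SpecialLinearGroup (Fin n) F)))).map (Subgroup.centralizer ({t} : Set (Matrix.SpecialLinearGroup (Fin n) F))).subtype) := by
  obtain ⟨m, rfl⟩ : ∃ m, n = m + 1 := ⟨n - 1, by omega⟩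
  have h2 := two_ne hF
  have hm : Even m := by
    rw [Nat.odd_iff] at hodd; rw [Nat.even_iff]; omega
  let e : Fin m ⊕ Unit ≃ Fin (m + 1) :=
    ((Equiv.refl _).sumCongr (Equiv.ofUnique Unit (Fin 1))).trans finSumFinEquiv
  have he1 : ∀ i, (e (Sum.inl i) : ℕ) = i := fun i => rfl
  have he2 : ∀ u, (e (Sum.inr u) : ℕ) = m := fun u => rfl
  let ρ : Matrix.SpecialLinearGroup (Fin (m + 1)) F →* Matrix (Fin (m + 1)) (Fin (m + 1)) F :=
    Matrix.SpecialLinearGroup.coeMonoidHom
  have hρ : Function.Injective ρ := Subtype.val_injective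
  have hneg : (-1 : Matrix (Fin m) (Fin m) F) = (-1 : F) • (1 : Matrix (Fin m) (Fin m) F) := by simp
  have ht' : ρ t = CL.Corner.blk e (-1) 1 := by
    rw [hneg, CL.Corner.blk_smul_one]
    refine ht.trans ?_
    congr 1
    ext x
    obtain ⟨x, rfl⟩ := e.surjective x
    rcases x with x | ⟨⟩
    · have := x.2
      rw [he1, if_neg (by omega)]; simp
    · rw [he2, if_pos rfl]; simp
  haveI : Nontrivial (Fin m) := Fin.nontrivial_iff_two_le.mpr (by omega)
  have hq := CL.Corner.isQuasisimple_SL (F := F) (κ := Fin m)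
    (CL.SL.commutator_eq_top_of_three_le (by simp; omega))
  have hφ : ∀ A, ρ (CL.Corner.emb e A) = CL.Corner.blk e A.1 1 := fun A => rfl
  rw [CL.Corner.layer_centralizer e ρ hρ _ hφ ht' h2 hq]
  have hneg1 : (-1 : F) ≠ 1 := fun h => h2 (by linear_combination -h)
  haveI : Fact (Nat.Prime 2) := ⟨Nat.prime_two⟩
  have ht2 : orderOf t = 2 := by
    apply orderOf_eq_prime
    · apply hρ
      rw [pow_two, map_mul, ht', CL.Corner.blk_mul, map_one]
      simp [CL.Corner.blk_one]
    · intro h
      rw [h, map_one, ← CL.Corner.blk_one e] at ht'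
      have := congrFun (congrFun (CL.Corner.blk_inj e ht').1 ⟨0, by omega⟩) ⟨0, by omega⟩
      simp at this
      exact hneg1 this.symm
  have hle := CL.Corner.range_le_centralizer e ρ hρ _ hφ ht'
  have hcomp := CL.Corner.isComponent_range e ρ hρ _ hφ ht' h2 hq
  refine Cfsg.Agent.S1306.result t ht2 _ hle hcomp ?_ ?_
  · intro y hy hyC
    obtain ⟨a, d, had⟩ := CL.Corner.exists_scalar_of_mem_centralizer e ρ _ hφ hyC
    have hyt : y = t := by
      have h1 : ρ (y * y) = 1 := by rw [← pow_two, ← hy, pow_orderOf_eq_one, map_one]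
      rw [map_mul, had, CL.Corner.blk_mul, ← CL.Corner.blk_one e] at h1
      have h3 := congrFun (congrFun (CL.Corner.blk_inj e h1).1 ⟨0, by omega⟩) ⟨0, by omega⟩
      have h3' : a * a = 1 := by simpa using h3
      have h4 : (ρ y).det = 1 := y.2
      rw [had, CL.Corner.det_blk, Matrix.det_smul, Matrix.det_one, Fintype.card_fin] at h4
      obtain ⟨k, hk⟩ := hm
      rw [show a ^ m = 1 by rw [hk, ← two_mul, pow_mul, pow_two, h3', one_pow]] at h4
      have h5 : d = 1 := by simpa using h4
      rcases mul_self_eq_one_iff.mp h3' with h | h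
      · exfalso
        rw [h, h5, one_smul, CL.Corner.blk_one, ← map_one ρ] at had
        rw [hρ had] at hy; simp at hy
      · apply hρ; rw [had, ht', h, h5, hneg]
    rw [hyt]; exact ⟨hle, hcomp⟩
  · intro g _ h
    rw [Subgroup.commutator_comm, Subgroup.commutator_eq_bot_iff_le_centralizer] at h
    have hq' := (hq.of_mulEquiv (MonoidHom.ofInjective
      (CL.Corner.phi_injective e ρ _ hφ))).map_of_injective (MulAut.conj g).toMonoidHom
        (MulAut.conj g).injective
    apply hq'.not_le_centralizer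
    intro x hx y hy
    obtain ⟨a, d, had⟩ := CL.Corner.exists_scalar_of_mem_centralizer e ρ _ hφ (h hx)
    obtain ⟨a', d', had'⟩ := CL.Corner.exists_scalar_of_mem_centralizer e ρ _ hφ (h hy)
    apply hρ
    rw [map_mul, map_mul, had, had', CL.Corner.blk_mul, CL.Corner.blk_mul]
    simp [smul_smul, mul_comm]

end Cfsg.Agent.S1348
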