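import Cfsg.Statements.S1378
import Cfsg.Agent.ODD.BG16
-- import your own Cfsg.Agent.* helpers here

set_option autoImplicit false
open Cfsg

namespace Cfsg.Agent.S1378

/-- Let G be a minimal simple group of odd order. Then every prime dividing the order of G belongs to σ(M) for some maximal subgroup M, and if σ(M) and σ(N) have a prime in common for maximal subgroups M, N then N is conjugate to M; so the sets σ(M_i) over representatives of the conjugacy classes of maximal subgroups partition the prime divisors of #G. -/
theorem result {G : Type*} [Group G] [Finite G] (hG : Cfsg.IsMinSimpleOddOrder G) :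
    (∀ p : ℕ, p.Prime → p ∣ Nat.card G → ∃ M : Subgroup G, IsCoatom M ∧ p ∈ Cfsg.sigma M) ∧
      ∀ M N : Subgroup G, IsCoatom M → IsCoatom N → (Cfsg.sigma M ∩ Cfsg.sigma N).Nonempty → ∃ g : G, N = M.map (MulAut.conj g).toMonoidHom := by
  apply CL.BG.S16.s1378 <;> assumption

end Cfsg.Agent.S1378
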