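import Cfsg.Statements.S1384
import Cfsg.Agent.ODD.BG15

set_option autoImplicit false
open Cfsg

namespace Cfsg.Agent.S1384

open CL.MSS CL.BG Subgroup


/-- Let G be a minimal simple group of odd order and H a nilpotent subgroup whose order is coprime to its index. If x ∈ H and gxg⁻¹ ∈ H for some g ∈ G, then nxn⁻¹ = gxg⁻¹ for some n in the normalizer of H. -/
theorem result {G : Type*} [Group G] [Finite G] (hG : Cfsg.IsMinSimpleOddOrder G)
    (H : Subgroup G) (hHn : Group.IsNilpotent H) (hHall : (Nat.card H).Coprime H.index) :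
    ∀ x ∈ H, ∀ g : G, g * x * g⁻¹ ∈ H → ∃ n ∈ Subgroup.normalizer (H : Set G), n * x * n⁻¹ = g * x * g⁻¹ := by
  intro x hx g hg
  have hH : HallIn H ⊤ := ⟨le_top, by rwa [relIndex_top_right]⟩
  obtain ⟨M, hM, hS⟩ := nilpotent_Hall_sigma hG hHn hH
  obtain ⟨n, hn, he⟩ := sigma_Hall_tame hG hM
    ((S15.hallIn_piHall hH).of_le hS le_top).hallIn hx hg
  exact ⟨n, hn.2, he⟩

end Cfsg.Agent.S1384
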