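import Cfsg.Statements.S1390
import Cfsg.Agent.ODD.BG16

set_option autoImplicit false
open Cfsg

namespace Cfsg.Agent.S1390

/-- Let G be a minimal simple group of odd order, M a maximal subgroup and H = M_F; suppose M is of Type I and U is a complement to H in M, or M is of Type II and U is a complement to H in M'. Then every Sylow subgroup of U is abelian with no elementary abelian subgroup of order p ^ 3; for every nonempty set X of non-identity elements of U centralizing a non-identity element of H, C_G(X) ≤ M and M is the unique maximal subgroup containing C_G(X); and A(M) with A₁(M) removed is a TI-subset of G. -/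
theorem result {G : Type*} [Group G] [Finite G] (hG : Cfsg.IsMinSimpleOddOrder G)
    (M : Subgroup G) (hM : IsCoatom M) (U : Subgroup G)
    (hU : (Cfsg.IsOfTypeI M ∧ Cfsg.IsComplIn (Cfsg.fittingHallOf M) U M) ∨ (Cfsg.IsOfTypeII M ∧ Cfsg.IsComplIn (Cfsg.fittingHallOf M) U ⁅M, M⁆)) :
    (∀ (p : ℕ), p.Prime → ∀ P : Sylow p U, IsMulCommutative (P : Subgroup U) ∧ Cfsg.PRankLE p 2 (P : Subgroup U)) ∧
      (∀ X : Set G, X ⊆ (U : Set G) \ {1} → X.Nonempty → Cfsg.fittingHallOf M ⊓ Subgroup.centralizer X ≠ ⊥ →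
        Subgroup.centralizer X ≤ M ∧ ∀ L : Subgroup G, IsCoatom L → Subgroup.centralizer X ≤ L → L = M) ∧
      Cfsg.IsTISubset (Cfsg.typeA M \ Cfsg.typeA1 M) := by
  have hiff : CL.BG.TypeI M ↔ IsOfTypeI M := by
    refine ⟨fun h => ?_, CL.BG.TypeI.of_isOfTypeI⟩
    rcases hU with hU | hU
    · exact hU.1
    · exact (CL.BG.S16.not_P_of_F ((CL.BG.S16.typeI_iff_maxF hG hM).1 h)
        ((CL.BG.S16.typeII_iff_maxP2 hG hM).1 hU.1).1).elim
  rw [← CL.BG.ftA_eq_typeA hiff]
  exact CL.BG.S16.s1390 hG M hM U (hU.imp (fun h => ⟨hiff.2 h.1, h.2⟩) id)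

end Cfsg.Agent.S1390
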