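import Cfsg.Statements.S1396
import Cfsg.Agent.ODD.BG7

set_option autoImplicit false
open Cfsg

namespace Cfsg.Agent.S1396

/-- Let G be a minimal simple group of odd order, p a prime dividing the order of G and A an abelian p-subgroup. Suppose either (1) A consists exactly of the elements x of C_G(A) with x^p = 1, and every proper subgroup of G has p-length at most one, or (2) A is normal and self-centralizing in some Sylow p-subgroup of G and has rank at least 2. Then A satisfies the transitivity hypothesis. -/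
theorem result {G : Type*} [Group G] [Finite G] (hG : Cfsg.IsMinSimpleOddOrder G)
    (p : ℕ) [Fact p.Prime] (hp : p ∣ Nat.card G) (A : Subgroup G) (hAp : IsPGroup p A) (hAc : IsMulCommutative A)
    (h : (∀ x ∈ Subgroup.centralizer (A : Set G), x ^ p = 1 ↔ x ∈ A) ∧ (∀ H : Subgroup G, H ≠ ⊤ → Cfsg.PLengthLE p 1 H) ∨
      ∃ P : Sylow p G, Cfsg.IsSCN (P : Subgroup G) A ∧ ¬ Cfsg.PRankLE p 1 A) :
    Cfsg.TransitivityHypothesis A := by
  rcases h with ⟨h1, h2⟩ | ⟨P, h1, h2⟩
  · have hAC : A ≤ Subgroup.centralizer (A : Set G) :=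
      Subgroup.le_centralizer_iff_isMulCommutative.2 hAc
    refine CL.BG.plength_1_normed_constrained hG ?_
      ⟨le_top, ⟨hAc, fun a ha => (h1 a (hAC ha)).2 ha⟩, fun B _ hB hAB => le_antisymm ?_ hAB⟩ h2
    · rintro rfl
      obtain ⟨x, hx⟩ := exists_prime_orderOf_dvd_card' p hp
      have : x ∈ (⊥ : Subgroup G) := (h1 x (fun a ha => by
        rw [SetLike.mem_coe, Subgroup.mem_bot] at ha
        rw [ha, one_mul, mul_one])).1 (hx ▸ pow_orderOf_eq_one x)
      rw [Subgroup.mem_bot.1 this, orderOf_one] at hx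
      exact (Fact.out : p.Prime).one_lt.ne hx
    · intro b hb
      exact (h1 b (fun a ha => CL.Th.elemAb_comm hB (hAB ha) hb)).1 (hB.2 b hb)
  · exact CL.BG.SCN_normed_constrained hG (CL.MSS.sylIn_top P) h1 h2

end Cfsg.Agent.S1396
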