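import Cfsg.Statements.S1405
import Cfsg.Agent.ODD.BG10a
import Cfsg.Agent.ODD.BaseQuo2
import Cfsg.Agent.ODD.AuxH39a

set_option autoImplicit false
open Cfsg

namespace Cfsg.Agent.S1405

/-- Let G be a minimal simple group of odd order and M a maximal subgroup, α(M) the set of primes p with M of p-rank at least 3, and M_α = O_{α(M)}(M). Then M_α is a Hall α(M)-subgroup of M and of G, M_α ≤ M_σ, the quotient M/M_α has no elementary abelian subgroup of order p ^ 3 for any prime p, and the image of M' in M/M_α is nilpotent. -/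
theorem result {G : Type*} [Group G] [Finite G] (hG : Cfsg.IsMinSimpleOddOrder G)
    (M : Subgroup G) (hM : IsCoatom M) :
    Cfsg.IsPiHallOf (Cfsg.alpha M) (Cfsg.alphaCore M) M ∧ Cfsg.IsPiHall (Cfsg.alpha M) (Cfsg.alphaCore M) ∧
      Cfsg.alphaCore M ≤ Cfsg.sigmaCore M ∧ Cfsg.RankLE 2 (↥M ⧸ Cfsg.piCore (Cfsg.alpha M) ↥M) ∧
      Group.IsNilpotent ↥((commutator ↥M).map (QuotientGroup.mk' (Cfsg.piCore (Cfsg.alpha M) ↥M))) := by
  refine ⟨CL.BG.Malpha_Hall hG hM, ?_, CL.BG.Malpha_sub_Msigma hG hM, ?_, ?_⟩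
  · have h := CL.BG.Malpha_Hall_G hG hM
    exact ⟨h.2.1, fun p hp hπ => by simpa using h.2.2 p hp hπ⟩
  · intro p hp A hA hA'
    have e : (↥M ⧸ piCore (alpha M) ↥M) ≃* ↥(CL.BG.quo M (alphaCore M)) :=
      CL.BG.quoEquivMap (piCore (alpha M) M)
    have h := CL.BG.Malpha_quo_rank2 hG hM p hp (A.map e.toMonoidHom) inferInstance (by
        rintro _ ⟨a, ha, rfl⟩
        rw [← map_pow, hA' a ha, map_one])
    rwa [Subgroup.card_map_of_injective (f := e.toMonoidHom) e.injective] at h
  · have h := CL.BG.Malpha_quo_nil hG hM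
    set N := piCore (alpha M) M with hN
    have hn : M ≤ Subgroup.normalizer ((N.map M.subtype : Subgroup G) : Set G) :=
      CL.le_normalizer_map_subtype M N
    have h1 : (((commutator M).map (QuotientGroup.mk' N)).map
        (CL.BG.quoEquivMap N).toMonoidHom).map (CL.BG.quo M (N.map M.subtype)).subtype =
        CL.BG.quo ⁅M, M⁆ (N.map M.subtype) := by
      have : ((commutator M).map (QuotientGroup.mk' N)).map (CL.BG.quoEquivMap N).toMonoidHom =
          (commutator M).map (CL.BG.quoHom hn) := by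
        rw [Subgroup.map_map]; congr 1
      rw [this, CL.BG.map_quoHom, Subgroup.map_subtype_commutator]
    have h2 : Group.IsNilpotent ↥(CL.BG.quo ⁅M, M⁆ (N.map M.subtype)) := h
    rw [← h1, Subgroup.map_map] at h2
    have hi : Function.Injective ((CL.BG.quo M (N.map M.subtype)).subtype.comp
        (CL.BG.quoEquivMap N).toMonoidHom) :=
      (Subgroup.subtype_injective _).comp (CL.BG.quoEquivMap N).injective
    exact Group.nilpotent_of_mulEquiv (Subgroup.equivMapOfInjective _ _ hi).symm

end Cfsg.Agent.S1405
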