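import Cfsg.Statements.S1414
import Cfsg.Agent.ODD.BG10a
import Cfsg.Agent.ODD.BG4b
import Cfsg.Agent.ODD.BaseCore
import Cfsg.Agent.ODD.AuxH40a

set_option autoImplicit false
open Cfsg

namespace Cfsg.Agent.S1414

/-- Let G be a minimal simple group of odd order, M a maximal subgroup, β(M) the set of ideal primes in α(M), and M_β = O_{β(M)}(M). Then M_β is a Hall β(M)-subgroup of M and of G; M' and M_σ each have a nilpotent Hall β(M)'-subgroup; and for each prime p dividing the order of M with p ∉ β(M), both M' and M_σ have normal p-complements and every prime dividing the index of O_{p'}(M) in M is at most p. -/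
theorem result {G : Type*} [Group G] [Finite G] (hG : Cfsg.IsMinSimpleOddOrder G)
    (M : Subgroup G) (hM : IsCoatom M) :
    Cfsg.IsPiHallOf (Cfsg.beta M) (Cfsg.piCoreOf (Cfsg.beta M) M) M ∧ Cfsg.IsPiHall (Cfsg.beta M) (Cfsg.piCoreOf (Cfsg.beta M) M) ∧
      (∃ H : Subgroup G, Cfsg.IsPiHallOf {q | q.Prime ∧ q ∉ Cfsg.beta M} H ⁅M, M⁆ ∧ Group.IsNilpotent H) ∧
      (∃ H : Subgroup G, Cfsg.IsPiHallOf {q | q.Prime ∧ q ∉ Cfsg.beta M} H (Cfsg.sigmaCore M) ∧ Group.IsNilpotent H) ∧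
      ∀ p : ℕ, p.Prime → p ∣ Nat.card M → p ∉ Cfsg.beta M →
        Cfsg.HasNormalPComplement p ↥⁅M, M⁆ ∧ Cfsg.HasNormalPComplement p ↥(Cfsg.sigmaCore M) ∧
        ∀ q : ℕ, q.Prime → q ∣ (Cfsg.pPrimeCore p ↥M).index → q ≤ p := by
  have hs : Group.IsSolvable M := CL.BG.H40.sol hG hM.1
  have key : ∀ K : Subgroup G, K ≤ ⁅M, M⁆ →
      ∃ H : Subgroup G, IsPiHallOf {q | q.Prime ∧ q ∉ beta M} H K ∧ Group.IsNilpotent H := by
    intro K hK
    have hKM : K ≤ M := hK.trans (CL.MSS.commutator_le_left_of_normalizes Subgroup.le_normalizer)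
    obtain ⟨H, hH⟩ := CL.BG.Hall_exists {q | q.Prime ∧ q ∉ beta M} (CL.BG.H39.sol_of_le hs hKM)
    exact ⟨H, hH, CL.BG.beta'_der1_nil hG hM (fun q hq hd => (hH.2.1 q hq hd).2) (hH.1.trans hK)⟩
  refine ⟨CL.BG.Mbeta_Hall hG hM, ?_, key _ le_rfl, key _ (CL.BG.Msigma_der1 hG hM),
    fun p hp _ hβ => ?_⟩
  · have h := CL.BG.Mbeta_Hall_G hG hM
    exact ⟨h.2.1, fun p hp hπ => by simpa [CL.BG.betaCore] using h.2.2 p hp hπ⟩
  · have : Fact p.Prime := ⟨hp⟩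
    obtain ⟨h1, h2, h3⟩ := CL.BG.beta_max_pdiv hG hM hβ
    refine ⟨CL.BG.A38.hasNPC_of_isPiHallOf h1, CL.BG.A38.hasNPC_of_isPiHallOf h2,
      fun q hq hd => h3 q hq ?_⟩
    rwa [CL.BG.A38.relIndex_piCoreOf_compl]

end Cfsg.Agent.S1414
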