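import Cfsg.Statements.S1415
import Cfsg.Agent.ODD.BG12p
import Cfsg.Agent.ODD.BaseCore
import Cfsg.Agent.ODD.AuxH40a

set_option autoImplicit false
open Cfsg

namespace Cfsg.Agent.S1415

/-- Let G be a minimal simple group of odd order, M a maximal subgroup and E a complement to M_σ in M. Then the derived subgroup E' is nilpotent; every Hall τ₁(M)-subgroup of E is cyclic; and every Hall τ₃(M)-subgroup E₃ of E is cyclic, contained in E' and normal in E. -/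
theorem result {G : Type*} [Group G] [Finite G] (hG : Cfsg.IsMinSimpleOddOrder G)
    (M : Subgroup G) (hM : IsCoatom M) (E : Subgroup G) (hE : Cfsg.IsComplIn E (Cfsg.sigmaCore M) M) :
    Group.IsNilpotent ↥⁅E, E⁆ ∧
      (∀ E₁ : Subgroup G, Cfsg.IsPiHallOf (Cfsg.tau1 M) E₁ E → IsCyclic E₁) ∧
      ∀ E₃ : Subgroup G, Cfsg.IsPiHallOf (Cfsg.tau3 M) E₃ E → IsCyclic E₃ ∧ E₃ ≤ ⁅E, E⁆ ∧ E ≤ Subgroup.normalizer (E₃ : Set G) := by
  have hE' := CL.BG.hall_of_compl_sigma hG hM hE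
  have hs : Group.IsSolvable E := CL.BG.H39.sol_of_le (CL.BG.H40.sol hG hM.1) hE'.1
  refine ⟨CL.BG.der1_sigma_compl_nil hG hM hE', fun E₁ h₁ => ?_, fun E₃ h₃ => ?_⟩
  · obtain ⟨E₃, h₃⟩ := CL.BG.Hall_exists (tau3 M) hs
    obtain ⟨E₂, h⟩ := CL.BG.ex_tau2_compl hG hM hE' h₁ h₃
    exact (CL.BG.sigma_compl_context hG hM h).2.2.1.1
  · obtain ⟨E₁, h₁⟩ := CL.BG.Hall_exists (tau1 M) hs
    obtain ⟨E₂, h⟩ := CL.BG.ex_tau2_compl hG hM hE' h₁ h₃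
    obtain ⟨⟨h1, h2⟩, -, ⟨-, h3⟩, -⟩ := CL.BG.sigma_compl_context hG hM h
    exact ⟨h3, h1, h2.2⟩

end Cfsg.Agent.S1415
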