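import Cfsg.Statements.S1433
import Cfsg.Agent.ODD.BG14.Signalizer
import Cfsg.Agent.ODD.BG15.Kappa
-- import your own Cfsg.Agent.* helpers here

set_option autoImplicit false
open Cfsg

namespace Cfsg.Agent.S1433

/-- Let G be a minimal simple group of odd order, M and N maximal subgroups, x ≠ 1 in M_σ and y ≠ 1 in N_σ with x ≠ y, where R(x) = 1 if C_G(x) ≤ M and R(x) = C_{L_F}(x) for the unique maximal L containing C_G(x) otherwise (and likewise R(y) relative to N). Then no element lies in both x R(x) and y R(y). -/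
theorem result {G : Type*} [Group G] [Finite G] (hG : Cfsg.IsMinSimpleOddOrder G)
    (M N : Subgroup G) (hM : IsCoatom M) (hN : IsCoatom N) (x y : G) (hx : x ∈ Cfsg.sigmaCore M) (hy : y ∈ Cfsg.sigmaCore N)
    (hx1 : x ≠ 1) (hy1 : y ≠ 1) (hxy : x ≠ y) :
    ∀ r ∈ Cfsg.supportR M x, ∀ s ∈ Cfsg.supportR N y, x * r ≠ y * s := by
  have key : ∀ (M : Subgroup G) (x : G), IsCoatom M → x ∈ sigmaCore M → x ≠ 1 →
      supportR M x ≤ CL.BG.sigR x := fun M x hM hx h1 => by
    rw [supportR]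
    split_ifs with h
    · have hnt := (CL.BG.nontrivial_sigma_mmax_iff hG ⟨hM, hx⟩ h1).2 h.1
      have hu := ((CL.BG.FT_signalizer_context hG (CL.BG.Msigma_ell1 hM hx h1)).2 hnt).1
      have h3 := Classical.choose_spec h.2.exists
      rw [hu.2.2 _ h3.1 h3.2]
      exact inf_le_inf_right _ (CL.BG.Fcore_sub_Msigma hG hu.1)
    · exact bot_le
  intro r hr s hs e
  exact Set.disjoint_left.1 (CL.BG.sigma_cover_disjoint hG (CL.BG.Msigma_ell1 hM hx hx1)
    (CL.BG.Msigma_ell1 hN hy hy1) hxy) ⟨r, key M x hM hx hx1 hr, rfl⟩ ⟨s, key N y hN hy hy1 hs, e⟩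

end Cfsg.Agent.S1433
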