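import Cfsg.Statements.S1434
import Cfsg.Agent.ODD.BG14.Embed
-- import your own Cfsg.Agent.* helpers here

set_option autoImplicit false
open Cfsg

namespace Cfsg.Agent.S1434

/-- Let G be a minimal simple group of odd order, M a maximal subgroup with standard factorisation M = K U M_σ, K ≠ 1, K* = M_σ ∩ C_G(K), and M* a maximal subgroup with K = M*_σ ∩ C_G(K*) and K* a Hall κ(M*)-subgroup of M*. Then κ(M) = τ₁(M); K* is a Hall σ(M)-subgroup of M*; for non-identity x ∈ K and y ∈ K*, C_M(x), C_{M*}(y) and C_G(xy) all equal K K*; the set Ẑ of elements of K K* outside K ∪ K* meets no gMg⁻¹ with g ∉ M; and with k = #K, k* = #K*, the union of the conjugates of Ẑ has k·k*·(number of elements) = (k k* − k − k* + 1)·#G and more than #G / 2 elements. -/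
theorem result {G : Type*} [Group G] [Finite G] (hG : Cfsg.IsMinSimpleOddOrder G)
    (M : Subgroup G) (hM : IsCoatom M) (K U : Subgroup G) (hKU : Cfsg.IsSigmaDecomposition M K U) (hK1 : K ≠ ⊥) (Mstar : Subgroup G) (hMstar : IsCoatom Mstar)
    (hKst : K = Cfsg.sigmaCore Mstar ⊓ Subgroup.centralizer ((Cfsg.sigmaCore M ⊓ Subgroup.centralizer (K : Set G)) : Set G))
    (hKstH : Cfsg.IsPiHallOf (Cfsg.kappa Mstar) (Cfsg.sigmaCore M ⊓ Subgroup.centralizer (K : Set G)) Mstar) :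
    Cfsg.kappa M = Cfsg.tau1 M ∧ Cfsg.IsPiHallOf (Cfsg.sigma M) (Cfsg.sigmaCore M ⊓ Subgroup.centralizer (K : Set G)) Mstar ∧
      (∀ x ∈ K, x ≠ 1 → ∀ y ∈ (Cfsg.sigmaCore M ⊓ Subgroup.centralizer (K : Set G)), y ≠ 1 →
        M ⊓ Subgroup.centralizer ({x} : Set G) = K ⊔ (Cfsg.sigmaCore M ⊓ Subgroup.centralizer (K : Set G)) ∧ Mstar ⊓ Subgroup.centralizer ({y} : Set G) = K ⊔ (Cfsg.sigmaCore M ⊓ Subgroup.centralizer (K : Set G)) ∧
        Subgroup.centralizer ({x * y} : Set G) = K ⊔ (Cfsg.sigmaCore M ⊓ Subgroup.centralizer (K : Set G))) ∧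
      (∀ g : G, g ∉ M → ∀ z ∈ ((↑(K ⊔ (Cfsg.sigmaCore M ⊓ Subgroup.centralizer (K : Set G))) : Set G) \ ((K : Set G) ∪ ↑(Cfsg.sigmaCore M ⊓ Subgroup.centralizer (K : Set G)))), z ∉ M.map (MulAut.conj g).toMonoidHom) ∧
      Nat.card K * Nat.card ↥(Cfsg.sigmaCore M ⊓ Subgroup.centralizer (K : Set G)) * Set.ncard {a : G | ∃ g : G, ∃ z ∈ ((↑(K ⊔ (Cfsg.sigmaCore M ⊓ Subgroup.centralizer (K : Set G))) : Set G) \ ((K : Set G) ∪ ↑(Cfsg.sigmaCore M ⊓ Subgroup.centralizer (K : Set G)))), a = g * z * g⁻¹} =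
        (Nat.card K * Nat.card ↥(Cfsg.sigmaCore M ⊓ Subgroup.centralizer (K : Set G)) - Nat.card K - Nat.card ↥(Cfsg.sigmaCore M ⊓ Subgroup.centralizer (K : Set G)) + 1) * Nat.card G ∧
      Nat.card G < 2 * Set.ncard {a : G | ∃ g : G, ∃ z ∈ ((↑(K ⊔ (Cfsg.sigmaCore M ⊓ Subgroup.centralizer (K : Set G))) : Set G) \ ((K : Set G) ∪ ↑(Cfsg.sigmaCore M ⊓ Subgroup.centralizer (K : Set G)))), a = g * z * g⁻¹} := by
  have hP := (CL.BG.nontrivg_kappa hM hKU.hall).1 hK1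
  obtain ⟨L, P⟩ := CL.BG.S14.exists_ppair hG hP hKU.hall
  have D : CL.BG.S14.Dual _ Mstar _ :=
    ⟨(CL.BG.nontrivg_kappa hMstar hKstH).1 P.dual'.K_ne, hKstH, rfl⟩
  obtain ⟨X, hX, hp⟩ := CL.BG.exists_le_card_prime hK1
  obtain rfl : Mstar = L := CL.BG.S14.uniq_eq (P.dual'.uniq hG (hX.trans P.starL.ge) hp)
    (D.uniq hG (hX.trans hKst.le) hp)
  have e : {a : G | ∃ g : G, ∃ z ∈ ((↑(K ⊔ (Cfsg.sigmaCore M ⊓ Subgroup.centralizer (K : Set G))) : Set G) \ ((K : Set G) ∪ ↑(Cfsg.sigmaCore M ⊓ Subgroup.centralizer (K : Set G)))), a = g * z * g⁻¹} =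
      CL.BG.classSupport (CL.BG.cyclicTIset K (Cfsg.sigmaCore M ⊓ Subgroup.centralizer (K : Set G))) ⊤ := by
    ext a
    exact ⟨fun ⟨g, h⟩ => ⟨g, trivial, h⟩, fun ⟨g, _, h⟩ => ⟨g, h⟩⟩
  rw [e]
  refine ⟨P.kappa_eq hG, P.hall_sigma hG, fun x hx hx1 y hy hy1 => ⟨P.inf_cent1 hG hx hx1,
    (P.symm.inf_cent1 hG hy hy1).trans (sup_comm _ _), P.cent1_eq hG (P.mul_mem_ti hx hx1 hy hy1)⟩,
    fun g hg z hz => Set.disjoint_left.1 (P.disjoint_cj hG hg) hz, ?_, P.half_lt hG⟩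
  have h1 := P.ncard_ti
  rw [P.ncard_support hG, ← (K ⊔ (Cfsg.sigmaCore M ⊓ Subgroup.centralizer (K : Set G))).card_mul_index,
    ← P.card_mul]
  have h2 : Nat.card K ≠ 1 := fun h => P.dual.K_ne (Subgroup.card_eq_one.1 h)
  have h3 : Nat.card ↥(Cfsg.sigmaCore M ⊓ Subgroup.centralizer (K : Set G)) ≠ 1 :=
    fun h => P.dual'.K_ne (Subgroup.card_eq_one.1 h)
  have h4 := CL.BG.card_pos' K
  have h5 := CL.BG.card_pos' (Cfsg.sigmaCore M ⊓ Subgroup.centralizer (K : Set G))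
  generalize Nat.card K = a at *
  generalize Nat.card ↥(Cfsg.sigmaCore M ⊓ Subgroup.centralizer (K : Set G)) = b at *
  obtain ⟨a, rfl⟩ : ∃ c, a = c + 2 := ⟨a - 2, by omega⟩
  obtain ⟨b, rfl⟩ : ∃ c, b = c + 2 := ⟨b - 2, by omega⟩
  have h6 : (a + 2) * (b + 2) = a * b + 2 * a + 2 * b + 4 := by ring
  generalize (CL.BG.cyclicTIset K (Cfsg.sigmaCore M ⊓ Subgroup.centralizer (K : Set G))).ncard = n at *
  rw [show (a + 2) * (b + 2) - (a + 2) - (b + 2) + 1 = n from by rw [h6] at h1 ⊢; omega]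
  ring

end Cfsg.Agent.S1434
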