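import Cfsg.Statements.S1436
import Cfsg.Agent.ODD.BG14

set_option autoImplicit false
open Cfsg

namespace Cfsg.Agent.S1436

/-- Let G be a minimal simple group of odd order, M a maximal subgroup, x ≠ 1 in M_σ with C_G(x) ⊄ M, and N a maximal subgroup containing C_G(x). (a) If some prime of σ(N) divides the order of M, then κ(M) = ∅ and τ₂(M) = ∅. (b) If y ≠ 1 in M_σ has C_G(y) ⊄ M, N' is a maximal subgroup containing C_G(y), and gN'g⁻¹ = N for some g ∈ G, then mN'm⁻¹ = N for some m ∈ M. -/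
theorem result {G : Type*} [Group G] [Finite G] (hG : Cfsg.IsMinSimpleOddOrder G)
    (M : Subgroup G) (hM : IsCoatom M) (x : G) (hx : x ∈ Cfsg.sigmaCore M) (hx1 : x ≠ 1) (hxM : ¬ Subgroup.centralizer ({x} : Set G) ≤ M)
    (N : Subgroup G) (hN : IsCoatom N) (hxN : Subgroup.centralizer ({x} : Set G) ≤ N) :
    ((∃ p ∈ Cfsg.sigma N, p ∣ Nat.card M) → Cfsg.kappa M = ∅ ∧ Cfsg.tau2 M = ∅) ∧
      ∀ (y : G) (N' : Subgroup G) (g : G), y ∈ Cfsg.sigmaCore M → y ≠ 1 → ¬ Subgroup.centralizer ({y} : Set G) ≤ M → IsCoatom N' → Subgroup.centralizer ({y} : Set G) ≤ N' →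
        N'.map (MulAut.conj g).toMonoidHom = N → ∃ m ∈ M, N'.map (MulAut.conj m).toMonoidHom = N := by
  have hMx : M ∈ CL.BG.sigmaMmaxOf x := ⟨hM, hx⟩
  have hl := CL.BG.Msigma_ell1 hM hx hx1
  have hnt := (CL.BG.nontrivial_sigma_mmax_iff hG hMx hx1).2 hxM
  obtain ⟨⟨htr, -⟩, h2⟩ := CL.BG.FT_signalizer_context hG hl
  obtain ⟨hu, -, -, -, hall⟩ := h2 hnt
  obtain rfl : N = CL.BG.sigBase x := hu.2.2 N hN hxN
  refine ⟨fun ⟨p, hp, hd⟩ => ?_, fun y N' g hy hy1 hyM hN' hyN' hg => ?_⟩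
  · obtain ⟨h3, h4, -⟩ := CL.BG.non_disjoint_signalizer_Frobenius hG hl hnt hMx
      fun h => h p hp.1 hd hp
    refine ⟨(CL.BG.FtypeP.1 h3).2, Set.eq_empty_of_forall_notMem fun q hq => ?_⟩
    have := Fact.mk hq.1
    exact h4 q hq.1 (CL.BG.H39.dvd_of_not_prankLE hq.2.2.2) hq
  · have hMy : M ∈ CL.BG.sigmaMmaxOf y := ⟨hM, hy⟩
    obtain ⟨hu', -, -, -, hall'⟩ := (CL.BG.FT_signalizer_context hG
      (CL.BG.Msigma_ell1 hM hy hy1)).2 ((CL.BG.nontrivial_sigma_mmax_iff hG hMy hy1).2 hyM)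
    obtain rfl : N' = CL.BG.sigBase y := hu'.2.2 N' hN' hyN'
    have h3 := CL.BG.H39.hall_cj (hall' M hMy).2.2.2 g
    rw [CL.MSS.cj_inf, ← CL.BG.H39.sigma_cj g, hg] at h3
    obtain ⟨n, hn, h4⟩ := CL.BG.H39.hall_conj (CL.BG.S14.msol hG hN) h3 (hall M hMx).2.2.2
    have h5 : x ∈ (M.map (MulAut.conj (n * g)).toMonoidHom) := by
      rw [CL.MSS.cj_mul]
      refine CL.MSS.cj_mono n inf_le_left (h4.ge ?_)
      exact ⟨CL.BG.H39.Ms_le M hx, hxN (CL.BG.mem_cent1_self x)⟩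
    have h6 := CL.MSS.isCoatom_cj (n * g) hM
    obtain ⟨r, hr, h7⟩ := htr M hMx _ ⟨h6, CL.BG.S14.mem_Ms hG h6 h5
      ((CL.BG.H39.sigma_cj (n * g) M).symm ▸ CL.BG.S14.Ms_elt hx)⟩
    refine ⟨r⁻¹ * (n * g), CL.BG.S14.mem_of_cj_eq hG hM ?_, ?_⟩
    · rw [CL.MSS.cj_mul, h7, CL.MSS.inv_cj_cj]
    · rw [CL.MSS.cj_mul, CL.MSS.cj_mul, hg, CL.MSS.cj_eq_of_mem hn,
        CL.MSS.cj_eq_of_mem (inv_mem (CL.BG.H39.Ms_le _ hr.1))]

end Cfsg.Agent.S1436
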