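import Cfsg.Statements.S1437
import Cfsg.Agent.ODD.BG16.SummaryAB

set_option autoImplicit false
open Cfsg

namespace Cfsg.Agent.S1437

open CL.MSS CL.BG Subgroup


/-- Let G be a minimal simple group of odd order and M a maximal subgroup with standard factorisation M = K U M_σ such that M_F ≠ M_σ; put K* = M_σ ∩ C_G(K), p = #K, q = #K*. Then U = 1 and M_σ = M'; p and q are prime, q divides #M_F and q ∈ β(M); M_σ has a Sylow q-subgroup Q normal in M and contained in M_F; every complement D of Q in M_σ is nilpotent, and Q₀ = Q ∩ C_G(D) is normal in M; Q₀ < Q with #Q = #Q₀ · q ^ p, every element of Q has its q-th power and all its commutators with Q in Q₀, and every subgroup strictly between Q₀ and Q fails to be normal in M. -/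
theorem result {G : Type*} [Group G] [Finite G] (hG : Cfsg.IsMinSimpleOddOrder G)
    (M : Subgroup G) (hM : IsCoatom M) (K U : Subgroup G) (hKU : Cfsg.IsSigmaDecomposition M K U) (hne : Cfsg.fittingHallOf M ≠ Cfsg.sigmaCore M) :
    U = ⊥ ∧ Cfsg.sigmaCore M = ⁅M, M⁆ ∧ (Nat.card K).Prime ∧ (Nat.card ↥(Cfsg.sigmaCore M ⊓ Subgroup.centralizer (K : Set G))).Prime ∧
      Nat.card ↥(Cfsg.sigmaCore M ⊓ Subgroup.centralizer (K : Set G)) ∣ Nat.card (Cfsg.fittingHallOf M) ∧ Nat.card ↥(Cfsg.sigmaCore M ⊓ Subgroup.centralizer (K : Set G)) ∈ Cfsg.beta M ∧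
      ∃ Q : Subgroup G, Q ≤ Cfsg.fittingHallOf M ∧ M ≤ Subgroup.normalizer (Q : Set G) ∧ IsPGroup (Nat.card ↥(Cfsg.sigmaCore M ⊓ Subgroup.centralizer (K : Set G))) Q ∧
        ¬ Nat.card ↥(Cfsg.sigmaCore M ⊓ Subgroup.centralizer (K : Set G)) ∣ Q.relIndex (Cfsg.sigmaCore M) ∧
        ∀ D : Subgroup G, Cfsg.IsComplIn Q D (Cfsg.sigmaCore M) →
          Group.IsNilpotent D ∧ M ≤ Subgroup.normalizer ((Q ⊓ Subgroup.centralizer (D : Set G) : Subgroup G) : Set G) ∧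
          Q ⊓ Subgroup.centralizer (D : Set G) < Q ∧
          Nat.card Q = Nat.card ↥(Q ⊓ Subgroup.centralizer (D : Set G)) * Nat.card ↥(Cfsg.sigmaCore M ⊓ Subgroup.centralizer (K : Set G)) ^ Nat.card K ∧
          (∀ a ∈ Q, ∀ b ∈ Q, a ^ Nat.card ↥(Cfsg.sigmaCore M ⊓ Subgroup.centralizer (K : Set G)) ∈ Q ⊓ Subgroup.centralizer (D : Set G) ∧
            a * b * a⁻¹ * b⁻¹ ∈ Q ⊓ Subgroup.centralizer (D : Set G)) ∧
          ∀ N : Subgroup G, Q ⊓ Subgroup.centralizer (D : Set G) < N → N < Q → ¬ M ≤ Subgroup.normalizer (N : Set G) := by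
  have hU := S16.kc_of_dec hG hM hKU
  set q := #|sigmaCore M ⊓ 𝐂(K)| with hq
  obtain ⟨D₀, hD₀⟩ := Hall_exists {q}ᶜ (S15.msol hG hM (H39.Ms_le M))
  obtain ⟨⟨h1, -, h2⟩, ⟨h3, h4, h5, h6⟩, ⟨h7, -⟩, -⟩ :=
    Fcore_structure hG hM hU.hallK hne rfl rfl hq rfl hD₀ rfl
  haveI := Fact.mk h4
  have h8 : SylIn q (piCoreOf {q} M) (sigmaCore M) := h7.of_le (S15.le_Msigma hG hM h7.le
    (piGrp_of_isPGroup h7.pgroup (beta_sub_sigma hG hM h6))) (H39.Ms_le M)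
  refine ⟨(trivg_kappa_compl hG hM hU).2 h1, h2, h3, h4, h5, h6, piCoreOf {q} M,
    pcore_le_Fcore h5, pcore_norm _ _, h7.pgroup, h8.not_dvd_relIndex, fun D hD => ?_⟩
  obtain ⟨-, -, ⟨-, k1, k2⟩, ⟨⟨-, -, k3, k4⟩, k5, k6⟩, -⟩ :=
    Fcore_structure hG hM hU.hallK hne rfl rfl hq rfl (hD.isPiHallOf_compl h8.piHall) rfl
  have hn : piCoreOf {q} M ≤ 𝐍(piCoreOf {q} M ⊓ 𝐂(D)) := h7.le.trans k2.2
  obtain ⟨k7, k8⟩ := (elemAb_quo_iff hn).1 k5
  refine ⟨k1, k2.2, k3, ?_, fun a ha b hb => ⟨k8 a ha, k7 (commutator_mem_commutator ha hb)⟩,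
    fun N n1 n2 n3 => (k4 N n1.le n2.le n3).elim n1.ne' n2.ne⟩
  rw [← k6, NormalIn.card_quo_mul ⟨inf_le_left, hn⟩]

end Cfsg.Agent.S1437
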