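import Cfsg.Statements.S1441

set_option autoImplicit false
open Cfsg
open scoped commutatorElement

namespace Cfsg.Agent.S1441

/-- If `a` centralizes `y = x⁻¹ * a * x * a⁻¹` then conjugation by powers of `a` is computed by powers of `y`. -/
theorem conj_pow_eq {G : Type*} [Group G] (a x y : G) (hy : a * x * a⁻¹ = x * y) (hc : a * y = y * a)
    (k : ℕ) : a ^ k * x * (a ^ k)⁻¹ = x * y ^ k := by
  induction k with
  | zero => simp
  | succ k ih =>
    have hc' : Commute a (y ^ k) := (show Commute a y from hc).pow_right k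
    calc a ^ (k + 1) * x * (a ^ (k + 1))⁻¹ = a * (a ^ k * x * (a ^ k)⁻¹) * a⁻¹ := by
          rw [pow_succ']; group
      _ = a * x * (y ^ k * a⁻¹) := by rw [ih]; group
      _ = a * x * a⁻¹ * y ^ k := by
          rw [← hc'.inv_left.eq]; group
      _ = x * y ^ (k + 1) := by rw [hy, pow_succ']; group

/-- Let G be a finite group, H a solvable subgroup and A a subgroup normalizing H. Suppose there is a chain H = H₀ ≥ H₁ ≥ ⋯ ≥ H_n = 1 of subgroups normal in H and normalized by A such that A acts trivially on each factor H_{i-1}/H_i (that is, [H_{i-1}, A] ≤ H_i). Then every prime dividing the index of C_A(H) in A divides the order of H. -/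
theorem result {G : Type*} [Group G] [Finite G] (H A : Subgroup G) (hH : Group.IsSolvable H) (hA : (A ≤ Subgroup.normalizer (H : Set G)))
    (n : ℕ) (c : Fin (n + 1) → Subgroup G) (hc0 : c 0 = H) (hcn : c (Fin.last n) = ⊥) (hanti : Antitone c)
    (hcN : ∀ i, H ≤ Subgroup.normalizer ((c i : Subgroup G) : Set G)) (hcA : ∀ i, A ≤ Subgroup.normalizer ((c i : Subgroup G) : Set G))
    (htriv : ∀ i : Fin n, ⁅c i.castSucc, A⁆ ≤ c i.succ) :
    ∀ p : ℕ, p.Prime → p ∣ (A ⊓ Subgroup.centralizer (H : Set G)).relIndex A → p ∣ Nat.card H := by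
  intro p hp hdvd
  by_contra hnd
  have : Fact p.Prime := ⟨hp⟩
  -- every `p`-element of `A` centralizes `H`
  have key : ∀ a ∈ A, ∀ m : ℕ, a ^ p ^ m = 1 → a ∈ Subgroup.centralizer (H : Set G) := by
    intro a ha m ham
    have : ∀ i : Fin (n + 1), ∀ x ∈ c i, a * x = x * a := by
      intro i
      induction i using Fin.reverseInduction with
      | last => intro x hx; rw [hcn, Subgroup.mem_bot] at hx; simp [hx]
      | cast i ih =>
        intro x hx
        have hy : ⁅x⁻¹, a⁆ ∈ c i.succ :=
          htriv i (Subgroup.commutator_mem_commutator (inv_mem hx) ha)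
        have h1 : a * x * a⁻¹ = x * ⁅x⁻¹, a⁆ := by
          rw [commutatorElement_def]; group
        have h2 := conj_pow_eq a x _ h1 (ih _ hy) (p ^ m)
        rw [ham] at h2
        have h3 : ⁅x⁻¹, a⁆ ^ p ^ m = 1 := by simpa using h2.symm
        have hyH : ⁅x⁻¹, a⁆ ∈ H := hc0 ▸ hanti (Fin.zero_le _) hy
        have h4 : orderOf ⁅x⁻¹, a⁆ ∣ Nat.card H := by
          have := orderOf_dvd_natCard (⟨_, hyH⟩ : H)
          rwa [Subgroup.orderOf_mk] at this
        have h5 : orderOf ⁅x⁻¹, a⁆ ∣ p ^ m := orderOf_dvd_of_pow_eq_one h3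
        have h6 : orderOf ⁅x⁻¹, a⁆ = 1 := by
          have hcop : (p ^ m).Coprime (Nat.card H) :=
            Nat.Coprime.pow_left _ ((Nat.Prime.coprime_iff_not_dvd hp).2 hnd)
          exact Nat.eq_one_of_dvd_coprimes hcop h5 h4
        rw [orderOf_eq_one_iff] at h6
        rw [h6, mul_one] at h1
        calc a * x = a * x * a⁻¹ * a := by group
          _ = x * a := by rw [h1]
    rw [Subgroup.mem_centralizer_iff]
    intro x hx
    exact (this 0 x (hc0 ▸ hx)).symm
  -- a Sylow `p`-subgroup of `A` lies in the centralizer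
  obtain ⟨P⟩ : Nonempty (Sylow p A) := inferInstance
  have hle : (P : Subgroup A) ≤ (A ⊓ Subgroup.centralizer (H : Set G)).subgroupOf A := by
    intro a ha
    obtain ⟨m, hm⟩ := P.isPGroup' ⟨a, ha⟩
    rw [Subgroup.mem_subgroupOf]
    refine ⟨a.2, key a a.2 m ?_⟩
    have := congrArg (fun z : P => ((z : A) : G)) hm
    simpa using this
  exact P.not_dvd_index (hdvd.trans (Subgroup.index_dvd_of_le hle))

end Cfsg.Agent.S1441
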