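import Cfsg.Statements.S1451
import Cfsg.Agent.ODD.BG4b.Fitting

set_option autoImplicit false
open Cfsg

namespace Cfsg.Agent.S1451

/-- Let G be a solvable group of odd order such that G, or its Fitting subgroup, has no elementary abelian subgroup of order q ^ 3 for any prime q. Then G' is nilpotent; for every Sylow subgroup S of G, every characteristic subgroup T of S with T ≤ [S, S] is normal in G; and for every prime p, G has a characteristic subgroup that is a Hall subgroup for the set of primes greater than p. -/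
theorem result {G : Type*} [Group G] [Finite G] [Group.IsSolvable G] (hodd : Odd (Nat.card G)) (hr : Cfsg.RankLE 2 G ∨ Cfsg.RankLE 2 (Cfsg.fittingSubgroup G)) :
    Group.IsNilpotent ↥(commutator G) ∧
      (∀ (q : ℕ) [Fact q.Prime] (S : Sylow q G) (T : Subgroup ↥(S : Subgroup G)), T.Characteristic → T.map (S : Subgroup G).subtype ≤ ⁅(S : Subgroup G), (S : Subgroup G)⁆ →
        (T.map (S : Subgroup G).subtype).Normal) ∧
      ∀ p : ℕ, ∃ N : Subgroup G, N.Characteristic ∧ Cfsg.IsPiHall {q | q.Prime ∧ p < q} N := by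
  have hs : Group.IsSolvable (⊤ : Subgroup G) := inferInstance
  have hodd' : Odd (Nat.card (⊤ : Subgroup G)) := by rwa [Subgroup.card_top]
  have hr' : RankLE 2 (fittingOf (⊤ : Subgroup G)) := by
    rw [CL.fittingOf_top]
    exact hr.elim (fun h => CL.BG.A38.rankLE_of_ambient h _) id
  refine ⟨CL.BG.rank2_der1_nil hodd' hs hr', fun q _ S T hT hTS => ?_, fun p => ?_⟩
  · exact CL.BG.normalIn_top_iff.1 (CL.BG.rank2_char_Sylow_normal hodd' hs hr'
      (CL.MSS.sylIn_top S) (CL.BG.charIn_map_subtype T) hTS)
  · refine ⟨piCore {q | q.Prime ∧ p < q} G, inferInstance, ?_⟩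
    have := CL.BG.A38.rank2_upper_core_Hall {q | q.Prime ∧ p < q} hodd' hs hr'
      (fun s q _ hq _ _ h1 h2 => by
        have h3 : p < s := h1.2
        have h4 : ¬ p < q := fun h => h2 ⟨hq, h⟩
        omega)
    rwa [piCoreOf, CL.map_piCore_top, CL.isPiHallOf_top] at this

end Cfsg.Agent.S1451
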