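import Cfsg.Statements.S1453
import Cfsg.Agent.ODD.BG5.Ucn

set_option autoImplicit false
open Cfsg

namespace Cfsg.Agent.S1453

theorem ucnOf_top_two {R : Type*} [Group R] :
    CL.BG.ucnOf (⊤ : Subgroup R) 2 = Subgroup.upperCentralSeries R 2 := by
  ext x
  rw [CL.BG.A38.mem_ucnOf_two, Subgroup.mem_upperCentralSeries_succ_iff,
    Subgroup.upperCentralSeries_one, Subgroup.coe_top, Subgroup.centralizer_univ]
  simp

/-- Let p be an odd prime and R a finite p-group with an elementary abelian subgroup of order p ^ 3 and an elementary abelian subgroup E of order p ^ 2 contained in no larger elementary abelian subgroup. Let Z₂ be the second centre of R, W the subgroup generated by the elements of Z₂ of order dividing p, and T = C_R(W). Then E is not contained in T; the elements of order dividing p of the centre of R generate a group of order p; W is elementary abelian of order p ^ 2; and T is characteristic in R of index p. -/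
theorem result {R : Type*} [Group R] [Finite R] (p : ℕ) [Fact p.Prime] (hp : p ≠ 2) (hR : IsPGroup p R) (hr : ¬ Cfsg.PRankLE p 2 R)
    (E : Subgroup R) (hE : Cfsg.IsElementaryAbelian p E) (hE2 : Nat.card E = p ^ 2)
    (hEmax : ∀ B : Subgroup R, Cfsg.IsElementaryAbelian p B → E ≤ B → B = E) :
    ¬ E ≤ Subgroup.centralizer ((Subgroup.closure {x : R | x ∈ Subgroup.upperCentralSeries R 2 ∧ x ^ p = 1} : Subgroup R) : Set R) ∧
      Nat.card ↥(Subgroup.closure {x : R | x ∈ Subgroup.center R ∧ x ^ p = 1}) = p ∧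
      (Cfsg.IsElementaryAbelian p (Subgroup.closure {x : R | x ∈ Subgroup.upperCentralSeries R 2 ∧ x ^ p = 1}) ∧
        Nat.card ↥(Subgroup.closure {x : R | x ∈ Subgroup.upperCentralSeries R 2 ∧ x ^ p = 1}) = p ^ 2) ∧
      (Subgroup.centralizer ((Subgroup.closure {x : R | x ∈ Subgroup.upperCentralSeries R 2 ∧ x ^ p = 1} : Subgroup R) : Set R)).Characteristic ∧
      (Subgroup.centralizer ((Subgroup.closure {x : R | x ∈ Subgroup.upperCentralSeries R 2 ∧ x ^ p = 1} : Subgroup R) : Set R)).index = p := by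
  obtain ⟨h1, ⟨h2, -, h3, h4⟩, ⟨-, h5⟩, h6⟩ := CL.BG.Ohm1_ucn_p2maxElem (R := ⊤) (E := E) hp
    (hR.to_subgroup ⊤) (fun h => hr (CL.BG.A38.prankLE_top_iff.1 h)) ⟨le_top, hE, hE2⟩
    ⟨le_top, hE, fun B _ hB h => hEmax B hB h⟩
  rw [ucnOf_top_two] at h1 h3 h4 h5 h6
  rw [top_inf_eq] at h1 h2 h5 h6
  rw [Subgroup.coe_top, Subgroup.centralizer_univ] at h2
  rw [Subgroup.relIndex_top_right] at h6
  refine ⟨h1, h2, ⟨h3, h4⟩, ?_, h6⟩
  have := CL.Th.omegaOne_characteristic (p := p) (Subgroup.upperCentralSeries R 2)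
  exact Subgroup.characteristic_centralizer (hH := this)

end Cfsg.Agent.S1453
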