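import Cfsg.Statements.S1454
import Cfsg.Agent.ODD.BG5
import Cfsg.Agent.ODD.AuxH39b

set_option autoImplicit false
open Cfsg
open CL.BG

namespace Cfsg.Agent.S1454

/-- Let G be a finite group, p an odd prime, R a narrow p-subgroup and A a solvable subgroup of odd order normalizing R with A ∩ C_G(R) = 1. Then [A, A] ≤ O_p(A) and the index of O_p(A) in A is coprime to p; if R has an elementary abelian subgroup of order p ^ 3 then the order of every element of A of order coprime to p divides p − 1; and if the order of A is a prime not dividing p(p − 1), then 2·#A divides p + 1, and if in addition [R, A] = R and R is non-abelian then #R = p ^ 3. -/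
theorem result {G : Type*} [Group G] [Finite G] (p : ℕ) [Fact p.Prime] (hp : p ≠ 2) (R A : Subgroup G) (hR : IsPGroup p R) (hRn : Cfsg.IsNarrow p R)
    (hA : (A ≤ Subgroup.normalizer (R : Set G))) (hAs : Group.IsSolvable A) (hAodd : Odd (Nat.card A)) (hfaith : A ⊓ Subgroup.centralizer (R : Set G) = ⊥) :
    (commutator ↥A ≤ Cfsg.pCore p ↥A ∧ ((Cfsg.pCore p ↥A).index).Coprime p) ∧
      (¬ Cfsg.PRankLE p 2 R → ∀ a ∈ A, (orderOf a).Coprime p → orderOf a ∣ p - 1) ∧
      ((Nat.card A).Prime → ¬ Nat.card A ∣ p * (p - 1) →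
        2 * Nat.card A ∣ p + 1 ∧ (⁅R, A⁆ = R → ¬ IsMulCommutative R → Nat.card R = p ^ 3)) := by
  have hnar := (narrow_iff_isNarrow hp hR).2 hRn
  have h1 : ∀ x ∈ A, x ∈ 𝐂(R) → x = 1 := fun x hx hC => by
    have : x ∈ A ⊓ 𝐂(R) := ⟨hx, hC⟩
    rwa [hfaith] at this
  refine ⟨?_, fun hr a ha ha' => orderOf_dvd_of_pow_eq_one
    (h1 _ (A.pow_mem ha _) (Aut_narrow_pow hp hR hnar hr (hA ha) ha')), fun hq hnd => ?_⟩
  · have h2 : IsPGroup p (commutator A) := by
      refine CL.MSS.isPGroup_of_map_subtype ?_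
      rw [Subgroup.map_subtype_commutator]
      exact A38.isPGroup_of_forall_coprime fun x hx hx' =>
        h1 x (der1_le A hx) (Aut_narrow_der1 hp hR hnar hA hAodd hx hx')
    obtain ⟨P⟩ : Nonempty (Sylow p A) := inferInstance
    refine ⟨CL.le_pCore h2, ?_⟩
    rw [← A38.sylow_eq_pCore_of_der1 h2 P]
    exact ((Nat.Prime.coprime_iff_not_dvd Fact.out).2 P.not_dvd_index).symm
  have hqp : #|A| ≠ p := fun h => hnd (h ▸ dvd_mul_right _ _)
  have hq1 : ¬ #|A| ∣ p - 1 := fun h => hnd (h.mul_left p)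
  have hi : #|A| ∣ (𝐂(R)).relIndex A := by
    have := CL.card_inf_mul_relIndex 𝐂(R) A
    rw [inf_comm, hfaith, Subgroup.card_bot, one_mul] at this
    rw [this]
  have hr : PRankLE p 2 R := by
    by_contra hr
    exact hq1 (pi_Aut_narrow_rank3 hp hR hnar hr hA hq hqp hi)
  have hodd := odd_card_of_isPGroup hp hR
  obtain ⟨k, hk⟩ := (Fact.out : p.Prime).odd_of_ne_two hp
  refine ⟨?_, fun hRA hna => ?_⟩
  · rcases (pi_Aut_rank2_pgroup hR hodd hr hA hq hqp hi).2.2 with h | h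
    · rw [show p + 1 = 2 * ((p + 1) / 2) by omega]
      exact Nat.mul_dvd_mul_left 2 h
    · exact absurd (h.trans ⟨2, by omega⟩) hq1
  have hAp : PiGrp {p}ᶜ A := piGrp_of_card_prime hq rfl hqp
  have hR1 : R ≠ ⊥ := by
    rintro rfl
    exact hna abelian_bot
  obtain ⟨S, C, hS1, hS2, -, hSC, hC1, hC2, hS3, hC3⟩ :=
    (rank2_coprime_comm_cprod hR hodd hR1 hr hRA hAp hAodd).2.resolve_left hna
  have hAS : A ≤ 𝐍(S) := hS3 ▸ hA.trans (CL.Th.normalizer_le_normalizer_omegaOne R)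
  have hAC : A ≤ 𝐍(C) := hC3 ▸ CL.le_normalizer_inf hA (CL.le_normalizer_centralizer hAS)
  have hCp : IsPGroup p C := hR.to_le (hC3 ▸ inf_le_left)
  have hZ : #|omegaOne p C| = p := hC2 ▸ (p3group_extraspecial hS2 hS1).2.2
  obtain ⟨x, hx, hx1⟩ := exists_mem_ne_one (ne_bot_of_card_prime hq)
  have hy : x ^ (p - 1) ≠ 1 := by
    intro h
    have := orderOf_dvd_of_pow_eq_one h
    rw [← Nat.card_zpowers, ← eq_zpowers_of_card_prime hq hx hx1] at this
    exact hq1 this
  have h2 := A38.commutator_le_of_prime_section (W := ⊥)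
    (hCp.to_le (CL.Th.omegaOne_le (p := p) C)) (le_norm_bot _)
    (by rw [Subgroup.relIndex_bot_left, hZ])
    (CL.Th.normalizer_le_normalizer_omegaOne C (hAC hx)) (le_norm_bot A hx)
  rw [← eq_zpowers_of_card_prime hq (A.pow_mem hx _) hy, le_bot_iff, comm_eq_bot_iff] at h2
  have h3 : C ≤ 𝐂(A) := H39.cent_of_cyclic_pgroup hCp hC1 hAC (hAp.coprime_isPGroup' hCp rfl).symm
    fun h => A38.ne_bot_of_card_prime hZ
      (eq_bot_iff.2 ((le_inf (CL.Th.omegaOne_le C) h2).trans h.le))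
  have h4 : R = S := by
    refine le_antisymm ?_ (le_sup_left.trans hSC.1.le)
    rw [← hRA, ← hSC.1, comm_sup_cent h3 (le_norm_of_le_cent hSC.2)]
    exact le_norm_iff_comm_le.1 hAS
  rw [h4, hS2]

end Cfsg.Agent.S1454
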