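import Cfsg.Statements.S1458
import Cfsg.Agent.ODD.BGA
import Cfsg.Agent.ODD.BasePi
import Cfsg.Agent.PLOC.ZJ

set_option autoImplicit false
open Cfsg

namespace Cfsg.Agent.S1458

open CL CL.MSS CL.BG Subgroup

theorem qstable_of_odd {G : Type*} [Group G] [Finite G] (hodd : Odd (Nat.card G)) {p : ℕ}
    [Fact p.Prime] (V : Subgroup G) (hV : V.Normal) (hP : IsPGroup p V) : ZJ.QStable p V := by
  intro A hA hq
  have h1 := odd_p_stable_hom (L := ⊤) (by rwa [card_top]) hP (by rw [normalizer_eq_top]) hA hq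
    ((QuotientGroup.mk' 𝐂(V)).comp (⊤ : Subgroup G).subtype)
    ((QuotientGroup.mk'_surjective _).comp fun g => ⟨⟨g, trivial⟩, rfl⟩)
    (fun x hx => (QuotientGroup.eq_one_iff _).2 hx)
  exact ⟨(pCore p (G ⧸ 𝐂(V))).comap (QuotientGroup.mk' _), inferInstance, fun b hb =>
    h1 (mem_map_of_mem _ (show (⟨b, trivial⟩ : (⊤ : Subgroup G)) ∈ A.subgroupOf ⊤ from hb)),
    fun g hg => ZJ.pow_mem_of_mem_comap_pCore _ hg⟩


/-- Let G be a solvable group of odd order, p a prime and S a Sylow p-subgroup of G. Then the subgroup generated by the centre of the Thompson subgroup of S and O_{p'}(G) is normal in G. -/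
theorem result {G : Type*} [Group G] [Finite G] [Group.IsSolvable G] (hodd : Odd (Nat.card G)) (p : ℕ) [Fact p.Prime] (S : Sylow p G) :
    (Cfsg.centerThompsonOf p (S : Subgroup G) ⊔ Cfsg.pPrimeCore p G).Normal := by
  by_cases hp : p = 2
  · subst hp
    have h1 : (S : Subgroup G) = ⊥ := by_contra fun h =>
      (Nat.not_even_iff_odd.2 hodd) (even_iff_two_dvd.2
        ((dvd_card_of_isPGroup_le S.2 h le_rfl).trans (card_subgroup_dvd_card _)))
    have h2 : centerThompsonOf 2 (S : Subgroup G) = ⊥ :=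
      eq_bot_iff.2 ((inf_le_left.trans (Th.thompsonSubgroupOf_le _)).trans h1.le)
    rw [h2, bot_sup_eq]; infer_instance
  let f := QuotientGroup.mk' (pPrimeCore p G)
  have hf : Function.Surjective f := QuotientGroup.mk'_surjective _
  have h1 := ZJ.centerThompsonOf_normal hp (S.mapSurjective hf) (ZJ.isStronglyClosed_self _)
    (centralizer_pCore_le_of_isSolvable (pPrimeCore_quotient_pPrimeCore p G))
    (qstable_of_odd (Odd.of_dvd_nat hodd (card_quotient_dvd _)))
  have hi : Function.Injective (f.comp (S : Subgroup G).subtype) := by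
    rw [← MonoidHom.ker_eq_bot_iff, eq_bot_iff]
    intro x hx
    have h2 : (x : G) ∈ (S : Subgroup G) ⊓ pPrimeCore p G :=
      ⟨x.2, (QuotientGroup.eq_one_iff _).1 hx⟩
    rw [BG.inf_eq_bot_of_coprime (coprime_of_isPGroup_of_not_dvd S.2
      ((Nat.Prime.coprime_iff_not_dvd Fact.out).1 (coprime_card_pPrimeCore p G).symm))] at h2
    exact Subtype.ext h2
  have h2 : (centerThompsonOf p (S : Subgroup G)).map f =
      centerThompsonOf p (S.mapSurjective hf : Subgroup _) := by
    have e : (⊤ : Subgroup (S : Subgroup G)).map (S : Subgroup G).subtype = S := by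
      rw [← MonoidHom.range_eq_map, range_subtype]
    rw [Sylow.coe_mapSurjective]
    conv_lhs => rw [← e, ← Th.map_centerThompsonOf _ (subtype_injective _), map_map,
      Th.map_centerThompsonOf _ hi, ← map_map, e]
  rw [← h2] at h1
  have h3 := h1.comap f
  rwa [comap_map_eq, QuotientGroup.ker_mk'] at h3

end Cfsg.Agent.S1458
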