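import Cfsg.Statements.S1460
import Cfsg.Agent.ODD.BG6.Main

set_option autoImplicit false
open Cfsg

namespace Cfsg.Agent.S1460

/-- Let G be a finite solvable group, K a normal subgroup and U a subgroup with G = KU, and H ≤ U a subgroup whose order is coprime to that of K. Then H ∩ G' = H ∩ U'; N_G(H) is generated by K ∩ C_G(H) and U ∩ N_G(H); and if gHg⁻¹ ≤ U for some g ∈ G then g = u c with u ∈ U and c ∈ K ∩ C_G(H). -/
theorem result {G : Type*} [Group G] [Finite G] [Group.IsSolvable G] (K U H : Subgroup G) [K.Normal] (hKU : K ⊔ U = ⊤) (hH : H ≤ U) (hcop : (Nat.card H).Coprime (Nat.card K)) :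
    H ⊓ commutator G = H ⊓ ⁅U, U⁆ ∧
      Subgroup.normalizer (H : Set G) = (K ⊓ Subgroup.centralizer (H : Set G)) ⊔ (U ⊓ Subgroup.normalizer (H : Set G)) ∧
      ∀ g : G, H.map (MulAut.conj g).toMonoidHom ≤ U → ∃ u ∈ U, ∃ c ∈ K ⊓ Subgroup.centralizer (H : Set G), g = u * c := by
  have hn : U ≤ Subgroup.normalizer (K : Set G) := Subgroup.le_normalizer_of_normal
  refine ⟨CL.BG.pprod_focal_coprime hKU hn hH hcop.symm, ?_, fun g hg =>
    CL.BG.pprod_trans_coprime hKU hn hH hcop.symm (Or.inl inferInstance) (Subgroup.mem_top g) hg⟩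
  rw [CL.BG.pprod_norm_coprime_sup hKU hn hH hcop.symm (Or.inl inferInstance), top_inf_eq]

end Cfsg.Agent.S1460
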