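import Mathlib
import Cfsg.Statements.S1463
import Cfsg.Agent.ODD.OddGL2

set_option autoImplicit false
open Cfsg

namespace Cfsg.Agent.S1463

open Subgroup

theorem result {F : Type*} [Field F] (p : ℕ) [Fact p.Prime] [CharP F p] (hp : p ≠ 2)
    (H : Subgroup (GL (Fin 2) F)) [Finite H] (hodd : Odd (Nat.card H))
    (hirr : ∀ v : Fin 2 → F, v ≠ 0 → ∃ g ∈ H, (g : Matrix (Fin 2) (Fin 2) F).mulVec v ∉ Submodule.span F {v}) :
    ¬ p ∣ Nat.card H := by
  have hpp : p.Prime := Fact.out
  intro hpH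
  let ρ : H →* Matrix (Fin 2) (Fin 2) F := (Units.coeHom _).comp H.subtype
  have hρ : Function.Injective ρ := Units.val_injective.comp H.subtype_injective
  have hG' : IsPGroup p (commutator H) := by
    rw [isPGroup_iff_primeFactors_card_subset hpp.ne_zero, hpp.primeFactors]
    intro q hq
    have hq' := Nat.prime_of_mem_primeFactors hq
    have h0 := CL.BG.der1_odd_GL2_charf ρ hρ hodd hq' (Nat.dvd_of_mem_primeFactors hq)
    rw [CharP.cast_eq_zero_iff F p, Nat.prime_dvd_prime_iff_eq hpp hq'] at h0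
    simp [h0]
  obtain ⟨P⟩ : Nonempty (Sylow p H) := inferInstance
  have hPn : (P : Subgroup H).Normal := Normal.of_commutator_le _ (hG'.le_sylow_of_normal P)
  have hP1 : Nontrivial (P : Subgroup H) := (nontrivial_iff_ne_bot _).2 (P.ne_bot_of_dvd_card hpH)
  have := P.2.center_nontrivial
  obtain ⟨⟨⟨z, hzP⟩, hzZ⟩, hz1⟩ := exists_ne (1 : center (P : Subgroup H))
  have hz1' : z ≠ 1 := fun h => hz1 (Subtype.ext (Subtype.ext h))
  -- `n = ρ z - 1` is nilpotent and nonzero
  set n := ρ z - 1 with hn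
  have hn0 : n ≠ 0 := fun h => hz1' (hρ (by rw [map_one, ← sub_eq_zero, ← hn, h]))
  have hnil : ∀ w ∈ (P : Subgroup H), IsNilpotent (ρ w - 1) := by
    intro w hw
    obtain ⟨k, hk⟩ := P.2 ⟨w, hw⟩
    have hk' : w ^ p ^ k = 1 := congrArg Subtype.val hk
    refine ⟨p ^ k, ?_⟩
    have : ExpChar (Matrix (Fin 2) (Fin 2) F) p := by
      have : CharP (Matrix (Fin 2) (Fin 2) F) p := inferInstance
      exact ExpChar.prime hpp
    rw [sub_pow_expChar_pow_of_commute p k (Commute.one_right _), ← map_pow, hk', map_one, one_pow,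
      sub_self]
  have hsq : ∀ m : Matrix (Fin 2) (Fin 2) F, IsNilpotent m → m * m = 0 := by
    intro m hm
    have h1 : m.trace = 0 := (Matrix.isNilpotent_trace_of_isNilpotent hm).eq_zero
    have h2 : m.det = 0 := by
      obtain ⟨k, hk⟩ := hm
      have := congrArg Matrix.det hk
      rw [Matrix.det_pow, Matrix.det_zero] at this
      exact (IsNilpotent.eq_zero ⟨k, this⟩)
    rw [CL.BG.mat2_sq, h1, h2]; simp
  have hnn : n * n = 0 := hsq n (hnil z hzP)
  have hns : ∀ c : F, ρ z ≠ c • (1 : Matrix (Fin 2) (Fin 2) F) := by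
    intro c hc
    have h1 : n = (c - 1) • (1 : Matrix (Fin 2) (Fin 2) F) := by rw [hn, hc, sub_smul, one_smul]
    rw [h1, Matrix.smul_mul, one_mul, smul_smul, smul_eq_zero, mul_self_eq_zero] at hnn
    rcases hnn with h | h
    · exact hn0 (by rw [h1, h, zero_smul])
    · exact one_ne_zero h
  have hconj : ∀ g : H, ∃ α : F, n * ρ g = α • (ρ g * n) := by
    intro g
    have hw : g⁻¹ * z * g⁻¹⁻¹ ∈ (P : Subgroup H) := hPn.conj_mem z hzP g⁻¹
    rw [inv_inv] at hw
    have hc : (g⁻¹ * z * g) * z = z * (g⁻¹ * z * g) :=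
      congrArg Subtype.val (mem_center_iff.1 hzZ ⟨_, hw⟩)
    obtain ⟨α, β, h⟩ := CL.BG.mat2_exists_eq_of_commute hns
      (X := ρ (g⁻¹ * z * g)) (by rw [← map_mul, ← map_mul, hc])
    have h1 : ρ (g⁻¹ * z * g) - 1 = α • n + (α + β - 1) • (1 : Matrix (Fin 2) (Fin 2) F) := by
      rw [h, hn]; module
    have h2 := hsq _ (hnil _ hw)
    rw [h1] at h2
    have h3 : (α + β - 1) ^ 2 • n = 0 := by
      have := congrArg (fun m => m * n) h2
      simp only [add_mul, mul_add, Matrix.smul_mul, Matrix.mul_smul, smul_smul, mul_one, one_mul,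
        hnn, smul_zero, zero_add, zero_mul] at this
      rw [← this]; congr 1; ring
    have h4 : α + β - 1 = 0 := pow_eq_zero_iff (two_ne_zero) |>.1
      ((smul_eq_zero.1 h3).resolve_right hn0)
    rw [h4, zero_smul, add_zero] at h1
    refine ⟨α, ?_⟩
    rw [← Matrix.mul_smul, ← h1, mul_sub, ← map_mul, mul_one, hn, sub_mul, one_mul, ← map_mul]
    congr 2
    group
  obtain ⟨u, hu⟩ : ∃ u : Fin 2 → F, n.mulVec u ≠ 0 := by
    by_contra hall
    push Not at hall
    exact hn0 (Matrix.toLin'.injective (by ext u; simp [hall]))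
  obtain ⟨g, hg, hgv⟩ := hirr (n.mulVec u) hu
  apply hgv
  set v := n.mulVec u with hv
  have hnv : n.mulVec v = 0 := by rw [hv, Matrix.mulVec_mulVec, hnn, Matrix.zero_mulVec]
  obtain ⟨α, hα⟩ := hconj ⟨g, hg⟩
  set w := (g : Matrix (Fin 2) (Fin 2) F).mulVec v with hw
  have hnw : n.mulVec w = 0 := by
    have : (g : Matrix (Fin 2) (Fin 2) F) = ρ ⟨g, hg⟩ := rfl
    rw [hw, Matrix.mulVec_mulVec, this, hα, Matrix.smul_mulVec, ← Matrix.mulVec_mulVec, hnv,
      Matrix.mulVec_zero, smul_zero]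
  have hdet : w 0 * v 1 - w 1 * v 0 = 0 := by
    by_contra hd
    apply hn0
    ext i j
    have e1 := congrFun hnv i
    have e2 := congrFun hnw i
    simp only [Matrix.mulVec, dotProduct, Fin.sum_univ_two, Pi.zero_apply] at e1 e2
    fin_cases j
    · apply mul_right_cancel₀ hd
      simp only [Fin.zero_eta, Matrix.zero_apply, zero_mul]
      linear_combination v 1 * e2 - w 1 * e1
    · apply mul_right_cancel₀ hd
      simp only [Fin.mk_one, Matrix.zero_apply, zero_mul]
      linear_combination w 0 * e1 - v 0 * e2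
  rw [Submodule.mem_span_singleton]
  by_cases h0 : v 0 = 0
  · have h1 : v 1 ≠ 0 := by
      intro h1
      apply hu
      ext i
      fin_cases i
      · exact h0
      · exact h1
    refine ⟨w 1 / v 1, ?_⟩
    ext i
    fin_cases i
    · simp only [Fin.zero_eta, Pi.smul_apply, smul_eq_mul]
      field_simp
      linear_combination -hdet
    · simp only [Fin.mk_one, Pi.smul_apply, smul_eq_mul]
      field_simp
  · refine ⟨w 0 / v 0, ?_⟩
    ext i
    fin_cases i
    · simp only [Fin.zero_eta, Pi.smul_apply, smul_eq_mul]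
      field_simp
    · simp only [Fin.mk_one, Pi.smul_apply, smul_eq_mul]
      field_simp
      linear_combination hdet

end Cfsg.Agent.S1463
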