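import Cfsg.Statements.S1466
import Cfsg.Agent.ODD.Puig

set_option autoImplicit false
open Cfsg

namespace Cfsg.Agent.S1466

/-- Let p be a prime and R a nontrivial finite p-group. Then for every i > 0, Z(R) ≤ C_R(L_i(R)) ≤ L_i(R); likewise Z(R) ≤ C_R(L_*(R)) ≤ L_*(R) and Z(R) ≤ C_R(L(R)) ≤ L(R); and L(R) ≠ 1, L_*(R) ≠ 1. -/
theorem result {R : Type*} [Group R] [Finite R] (p : ℕ) [Fact p.Prime] (hR : IsPGroup p R) [Nontrivial R] :
    (∀ i : ℕ, 0 < i → Subgroup.center R ≤ Subgroup.centralizer ((Cfsg.puigSeq R i : Subgroup R) : Set R) ∧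
        Subgroup.centralizer ((Cfsg.puigSeq R i : Subgroup R) : Set R) ≤ Cfsg.puigSeq R i) ∧
      (Subgroup.center R ≤ Subgroup.centralizer ((Cfsg.puigLower R : Subgroup R) : Set R) ∧ Subgroup.centralizer ((Cfsg.puigLower R : Subgroup R) : Set R) ≤ Cfsg.puigLower R) ∧
      (Subgroup.center R ≤ Subgroup.centralizer ((Cfsg.puigSubgroup R : Subgroup R) : Set R) ∧ Subgroup.centralizer ((Cfsg.puigSubgroup R : Subgroup R) : Set R) ≤ Cfsg.puigSubgroup R) ∧
      Cfsg.puigSubgroup R ≠ ⊥ ∧ Cfsg.puigLower R ≠ ⊥ := by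
  have := hR.isNilpotent
  have hZ := hR.bot_lt_center
  refine ⟨fun i hi => ⟨Subgroup.center_le_centralizer _, CL.BG.centralizer_puigSeq_le hi⟩,
    ⟨Subgroup.center_le_centralizer _, CL.BG.centralizer_puigLower_le⟩,
    ⟨Subgroup.center_le_centralizer _, CL.BG.centralizer_puigSubgroup_le⟩, ?_, ?_⟩
  · exact (hZ.trans_le ((Subgroup.center_le_centralizer _).trans
      CL.BG.centralizer_puigSubgroup_le)).ne'
  · exact (hZ.trans_le ((Subgroup.center_le_centralizer _).trans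
      CL.BG.centralizer_puigLower_le)).ne'

end Cfsg.Agent.S1466
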