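import Cfsg.Statements.S1476
import Cfsg.Agent.ODD.CN

set_option autoImplicit false
open Cfsg

namespace Cfsg.Agent.S1476

/-- Let G be a finite solvable group in which every non-identity element has nilpotent centralizer. Then either G is nilpotent; or G has a normal subgroup K with a Frobenius complement E (K E = G, K ∩ E = 1, E meets its conjugates by outside elements trivially) such that E is cyclic or E is generated by two elementwise-commuting subgroups, one cyclic of odd order and one isomorphic to a generalized quaternion group; or G is a three-step group with respect to some prime p. -/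
theorem result {G : Type*} [Group G] [Finite G] [Group.IsSolvable G] (hCN : Cfsg.IsCNGroup G) :
    Group.IsNilpotent G ∨
      (∃ K E : Subgroup G, K.Normal ∧ Subgroup.IsComplement' K E ∧ Cfsg.IsFrobeniusComplement E ∧
        (IsCyclic E ∨ ∃ C Q : Subgroup G, C ⊔ Q = E ∧ (∀ a ∈ C, ∀ b ∈ Q, a * b = b * a) ∧ IsCyclic C ∧ Odd (Nat.card C) ∧
          ∃ n : ℕ, Nonempty (↥Q ≃* QuaternionGroup (2 ^ n)))) ∨
      ∃ p : ℕ, p.Prime ∧ Cfsg.IsThreeStepGroup p G := by
  by_cases hnn : Group.IsNilpotent G
  · exact Or.inl hnn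
  right
  by_cases h : ∀ (p : ℕ) [Fact p.Prime] (P : Subgroup G), CL.MSS.SylIn p P ⊤ →
      ⊤ ≤ Subgroup.normalizer (P : Set G) → P = ⊥
  · exact Or.inr (CL.CN.three_step hCN hnn h)
  left
  push Not at h
  obtain ⟨p, hp, P, hP, hPn, hP1⟩ := h
  obtain ⟨h1, -, E, h3, h4, h5, h6⟩ := CL.CN.normal_sylow hCN hnn hP hP1 hPn
  exact ⟨_, E, inferInstance, h3, h4, CL.CN.nil_compl_structure h6 h1
    (by rw [Subgroup.normalizer_eq_top]; exact le_top) h5⟩

end Cfsg.Agent.S1476
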