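import Cfsg.Statements.S1481
import Cfsg.Agent.ODD.AuxH40b
import Cfsg.Agent.ODD.BaseCore
import Cfsg.Agent.ODD.BaseNorm

set_option autoImplicit false
open Cfsg

namespace Cfsg.Agent.S1481

open CL.MSS CL.BG in
theorem aux {G : Type*} [Group G] [Finite G] {H M R : Subgroup G}
    (hHmax : ∀ L : Subgroup G, IsLocalSubgroup L → H ≤ L → L = H)
    (hF2 : 2 ≤ (#|fittingOf H|).primeFactors.card)
    (hM : M ≤ fittingOf H) (hCM : fittingOf H ⊓ 𝐂(M) ≤ M) (hR : Group.IsSolvable R)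
    (hMR : M ≤ 𝐍(R)) (hXR : H ⊓ 𝐂(fittingOf H) ≤ 𝐍(R)) {Y : Subgroup G} (hYR : Y ≤ R)
    (hMY : M ≤ 𝐍(Y)) (hY : PiGrp (primesNotDvd #|fittingOf H|) Y) :
    Y ⊓ 𝐂(M) = ⊥ ∧ Y ≤ piCoreOf (primesNotDvd #|fittingOf H|) R := by
  set F := fittingOf H with hF
  have hFn : NormalIn F H := Fitting_normal H
  have hnil : Group.IsNilpotent F := H40.fitting_nil H
  have hco : (#|F|).Coprime #|Y| := piGrp_primesNotDvd_iff.1 hY
  have hMH : M ≤ H := hM.trans hFn.1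
  -- the centres of the Sylow subgroups of `F`
  have hZ : ∀ (p : ℕ) [Fact p.Prime], p ∣ #|F| → ∃ Z : Subgroup G, IsPGroup p Z ∧ Z ≤ M ∧
      𝐍(Z) = H := by
    intro p hp hd
    have hP := pcore_isPGroup p F
    have hP1 : piCoreOf {p} F ≠ ⊥ :=
      ne_bot_of_prime_dvd hp.out ((nilpotent_pcore_Hall {p} hnil).dvd_card hp.out rfl hd)
    have hn : NormalIn (piCoreOf {p} F ⊓ 𝐂(F)) H := (hFn.pcore _).inf_cent hFn.2
    have h1 : piCoreOf {p} F ⊓ 𝐂(F) ≠ ⊥ := by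
      have h2 := inf_centralizer_ne_bot hP hP (le_norm_self _) hP1
      intro h
      apply h2
      rw [eq_bot_iff, ← h]
      refine le_inf inf_le_left ?_
      refine le_trans ?_ (centS ((nilpotent_pcore_Hall {p} hnil).sup_eq
        (nilpotent_pcore_Hall {p}ᶜ hnil)).ge)
      rw [cent_sup]
      exact le_inf inf_le_right (inf_le_left.trans (H40.core_cent_core _ _))
    have hp' : IsPGroup p ↥(piCoreOf {p} F ⊓ 𝐂(F)) := hP.to_inf_left
    exact ⟨_, hp', le_trans (inf_le_inf (pcore_sub _ _) (centS hM)) hCM,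
      hHmax _ ⟨p, _, hp.out, hp', h1, rfl⟩ hn.2⟩
  -- no fixed points
  have hA : ∀ Z : Subgroup G, 𝐍(Z) = H → Y ⊓ 𝐂(Z) = ⊥ := by
    intro Z hN
    have h0H : Y ⊓ 𝐂(Z) ≤ H := inf_le_right.trans ((cent_le_norm Z).trans hN.le)
    have hM0 : M ≤ 𝐍(Y ⊓ 𝐂(Z)) :=
      le_normalizer_inf hMY (le_normalizer_centralizer (hMH.trans hN.ge))
    have hco0 : (#|F|).Coprime #|Y ⊓ 𝐂(Z)| := H39.coprime_mono hco le_rfl inf_le_left
    have hbot : F ⊓ (Y ⊓ 𝐂(Z)) = ⊥ := inf_eq_bot_of_coprime hco0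
    have hc : M ≤ 𝐂(Y ⊓ 𝐂(Z)) := by
      rw [← comm_eq_bot_iff, eq_bot_iff, ← hbot]
      exact le_inf ((Subgroup.commutator_mono hM le_rfl).trans (hFn.comm_le h0H))
        (commutator_le_right_of_normalizes hM0)
    have hMF : M ≤ F ⊓ 𝐂(Y ⊓ 𝐂(Z)) := le_inf hM hc
    have hcF : Y ⊓ 𝐂(Z) ≤ 𝐂(F) := H40.coprime_nil_cent_stab hnil (h0H.trans hFn.2) hco0.symm
      (((inf_le_inf_left _ (centS hMF)).trans hCM).trans hMF)
    have hXn : NormalIn (H ⊓ 𝐂(F)) H := normalIn_subcent hFn.2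
    have hDn : NormalIn (H ⊓ 𝐂(F) ⊓ R) (H ⊓ 𝐂(F)) := normalIn_inf hXR
    have hDF : fittingOf (H ⊓ 𝐂(F) ⊓ R) ≤ F :=
      (Fitting_max hDn.fitting (H40.fitting_nil _)).trans
        (Fitting_max hXn.fitting (H40.fitting_nil _))
    have hD : H ⊓ 𝐂(F) ⊓ R ≤ F :=
      (le_inf le_rfl ((inf_le_left.trans inf_le_right).trans (centS hDF))).trans
        ((cent_sub_Fitting (H39.sol_of_le hR inf_le_right)).trans hDF)
    rw [eq_bot_iff, ← hbot]
    exact le_inf ((le_inf (le_inf h0H hcF) (inf_le_left.trans hYR)).trans hD) le_rfl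
  have hex : ∀ p : ℕ, ∃ r : ℕ, r.Prime ∧ r ∣ #|F| ∧ r ≠ p := by
    intro p
    obtain ⟨r, hr, hne⟩ := Finset.exists_mem_ne hF2 p
    exact ⟨r, Nat.prime_of_mem_primeFactors hr, Nat.dvd_of_mem_primeFactors hr, hne⟩
  constructor
  · obtain ⟨r, hr, hd, -⟩ := hex 0
    have : Fact r.Prime := ⟨hr⟩
    obtain ⟨Z, -, hZM, hN⟩ := hZ r hd
    rw [eq_bot_iff, ← hA Z hN]
    exact inf_le_inf_left _ (centS hZM)
  · have h1 : Y ≤ piCoreOf (primesOf #|F|)ᶜ R := by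
      refine H40.le_core_compl_of_forall hYR fun p hp hpp => ?_
      have : Fact p.Prime := ⟨hpp⟩
      obtain ⟨r, hr, hd, hne⟩ := hex p
      have : Fact r.Prime := ⟨hr⟩
      obtain ⟨Zp, hZp, hZpM, hNp⟩ := hZ p hp.2
      obtain ⟨Zr, hZr, hZrM, hNr⟩ := hZ r hd
      have hs : Group.IsSolvable ↥(M ⊔ R) := CL.isSolvable_sup_of_le_normalizer hMR
        (H39.sol_of_le (solvable_of_nilpotent hnil) hM) hR
      have h2 := H40.core_norm_pgroup hs hZp (hZpM.trans le_sup_left)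
      have h3 : Zr ≤ piCoreOf {p}ᶜ ((M ⊔ R) ⊓ 𝐍(Zp)) :=
        pcore_max ⟨le_inf (hZrM.trans le_sup_left) ((hZrM.trans hMH).trans hNp.ge),
          inf_le_right.trans (hNp.le.trans hNr.ge)⟩ (piGrp_compl_of_isPGroup hZr hne)
      have h4 : ⁅Y, Zr⁆ = Y := H39.comm_eq_of_cent_eq_bot (hZrM.trans hMY)
        (H39.coprime_mono hco.symm le_rfl (hZrM.trans hM)) (Or.inl (H39.sol_pgroup hZr))
        (hA Zr hNr)
      rw [← pcore_setI_normal (normalIn_sup_right hMR)]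
      refine le_inf ?_ hYR
      rw [← h4]
      exact (Subgroup.commutator_mono le_rfl (h3.trans h2)).trans
        ((pcore_normal _ _).comm_le' (hYR.trans le_sup_right))
    rwa [pcore_congr (π := (primesOf #|F|)ᶜ) (ρ := primesNotDvd #|F|) fun q hq _ =>
      ⟨fun h => ⟨hq, fun h' => h ⟨hq, h'⟩⟩, fun h h' => h.2 h'.2⟩] at h1

/-- Let G be a finite group and H a local subgroup (the normalizer of a nontrivial subgroup of prime-power order) not properly contained in any local subgroup; let F = F(H), suppose at least two primes divide #F, put X = H ∩ C_G(F), let M ≤ F with F ∩ C_G(M) ≤ M, and let R be a solvable subgroup normalized by M and by X. Then for every prime q not dividing #F there is exactly one maximal M-invariant q-subgroup of R, and it is a Sylow q-subgroup of the largest normal subgroup of R of order coprime to #F. -/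
theorem result {G : Type*} [Group G] [Finite G] (H : Subgroup G) (hH : Cfsg.IsLocalSubgroup H) (hHmax : ∀ L : Subgroup G, Cfsg.IsLocalSubgroup L → H ≤ L → L = H)
    (hF2 : 2 ≤ (Nat.card (Cfsg.fittingOf H)).primeFactors.card)
    (M : Subgroup G) (hM : M ≤ Cfsg.fittingOf H) (hCM : Cfsg.fittingOf H ⊓ Subgroup.centralizer (M : Set G) ≤ M)
    (R : Subgroup G) (hR : Group.IsSolvable R) (hMR : M ≤ Subgroup.normalizer (R : Set G))
    (hXR : H ⊓ Subgroup.centralizer (Cfsg.fittingOf H : Set G) ≤ Subgroup.normalizer (R : Set G))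
    (q : ℕ) [Fact q.Prime] (hq : ¬ q ∣ Nat.card (Cfsg.fittingOf H)) :
    ∃! Q : Subgroup G, Q ∈ Cfsg.maxInvSubgroups R M {q} ∧
      (∀ Q' : Subgroup G, Q' ∈ Cfsg.maxInvSubgroups R M {q} →
        Q' ≤ Cfsg.piCoreOf (Cfsg.primesNotDvd (Nat.card (Cfsg.fittingOf H))) R ∧
        ¬ q ∣ Q'.relIndex (Cfsg.piCoreOf (Cfsg.primesNotDvd (Nat.card (Cfsg.fittingOf H))) R)) := by
  have key := fun (Y : Subgroup G) hYR hMY hY =>
    aux (Y := Y) hHmax hF2 hM hCM hR hMR hXR hYR hMY hY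
  set K := piCoreOf (primesNotDvd (Nat.card (fittingOf H))) R with hK
  have hKR : K ≤ R := CL.BG.pcore_sub _ _
  have hMK : M ≤ Subgroup.normalizer (K : Set G) := hMR.trans (CL.BG.pcore_char _ _)
  have hKπ := CL.BG.pcore_pgroup (primesNotDvd (Nat.card (fittingOf H))) R
  have hKs : Group.IsSolvable K := CL.BG.H39.sol_of_le hR hKR
  have hco : (Nat.card K).Coprime (Nat.card M) :=
    CL.BG.H39.coprime_mono (CL.BG.piGrp_primesNotDvd_iff.1 hKπ).symm le_rfl hM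
  have hle : ∀ Q ∈ invSubgroups R M {q}, Q ≤ K := fun Q hQ =>
    (key Q hQ.1 hQ.2.2 (CL.BG.PiGrp.mono hQ.2.1 (by
      rintro _ rfl; exact ⟨Fact.out, hq⟩))).2
  have hsyl : ∀ Q ∈ maxInvSubgroups R M {q}, CL.MSS.SylIn q Q K := by
    intro Q hQ
    obtain ⟨T, hT, hQT, hMT⟩ := CL.BG.H39.exists_inv_sylIn_ge hMK hco (Or.inr hKs) (hle Q hQ.1)
      (CL.BG.PiGrp.isPGroup hQ.1.2.1) hQ.1.2.2
    rwa [← hQ.2 T ⟨hT.le.trans hKR, hT.piHall.piGrp, hMT⟩ hQT]
  obtain ⟨S, hS, hMS⟩ := CL.BG.H39.exists_inv_sylIn hMK hco (Or.inr hKs) q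
  refine ⟨S, ⟨⟨⟨hS.le.trans hKR, hS.piHall.piGrp, hMS⟩, fun T hT hST =>
    hS.max T (CL.BG.PiGrp.isPGroup hT.2.1) hST (hle T hT)⟩,
    fun Q hQ => ⟨(hsyl Q hQ).le, (hsyl Q hQ).not_dvd_relIndex⟩⟩, fun Q hQ => ?_⟩
  obtain ⟨c, hc, h⟩ := CL.BG.coprime_Hall_trans hMK hco hKs hS.piHall (hsyl Q hQ.1).piHall hMS
    hQ.1.1.2.2
  rw [(key K hKR hMK hKπ).1, Subgroup.mem_bot] at hc
  rw [← h, hc, CL.MSS.cj_one]

end Cfsg.Agent.S1481
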