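import Cfsg.Statements.S1488
-- import your own Cfsg.Agent.* helpers here

set_option autoImplicit false
open Cfsg

namespace Cfsg.Agent.S1488

theorem ext_mem {G : Type*} [Group G] (H : Subgroup G) (θ : H → ℂ) (x : G) (hx : x ∈ H) :
    extendByZero H θ x = θ ⟨x, hx⟩ :=
  Subtype.val_injective.extend_apply θ 0 (⟨x, hx⟩ : H)

theorem ext_not_mem {G : Type*} [Group G] (H : Subgroup G) (θ : H → ℂ) (x : G) (hx : x ∉ H) :
    extendByZero H θ x = 0 := by
  unfold extendByZero
  rw [Function.extend_apply' _ _ _ (by rintro ⟨a, rfl⟩; exact hx a.2)]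
  rfl

theorem sum_comp_mk {G : Type*} [Group G] [Fintype G] (A : Subgroup G) [A.Normal] [Fintype (G ⧸ A)]
    (f : G ⧸ A → ℂ) : ∑ x : G, f (QuotientGroup.mk' A x) = (Nat.card A : ℂ) * ∑ y, f y := by
  classical
  rw [← Finset.sum_fiberwise (s := Finset.univ) (g := fun x : G => QuotientGroup.mk' A x), Finset.mul_sum]
  refine Finset.sum_congr rfl fun y _ => ?_
  rw [Finset.sum_congr rfl (g := fun _ => f y) (by
    intro x hx
    rw [(Finset.mem_filter.mp hx).2]), Finset.sum_const, nsmul_eq_mul]
  congr 2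
  obtain ⟨z, rfl⟩ := QuotientGroup.mk'_surjective A y
  have := MonoidHom.card_fiber_eq_of_mem_range (QuotientGroup.mk' A) (x := QuotientGroup.mk' A z) (y := 1)
    ⟨z, rfl⟩ ⟨1, map_one _⟩
  rw [this, Nat.card_eq_fintype_card, Fintype.card_subtype]
  congr 1
  ext x
  simp

/-- Let A be a normal subgroup of the finite group G contained in the subgroup H, let θ be a function on H and θ₁ a function on the image of H in G ⧸ A whose composite with the projection is θ. Then the function induced from θ₁ to G ⧸ A, composed with the projection G → G ⧸ A, equals the function induced from θ to G. -/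
theorem result {G : Type*} [Group G] [Fintype G] (A H : Subgroup G) [A.Normal] (hAH : A ≤ H) [Fintype (G ⧸ A)] [Fintype ↥(H.map (QuotientGroup.mk' A))] (θ : H → ℂ) (θ₁ : ↥(H.map (QuotientGroup.mk' A)) → ℂ) (hθ : ∀ x : H, θ₁ ⟨QuotientGroup.mk' A x, Subgroup.mem_map_of_mem _ x.2⟩ = θ x) (g : G) : Cfsg.indFun (H.map (QuotientGroup.mk' A)) θ₁ (QuotientGroup.mk' A g) = Cfsg.indFun H θ g := by
  have hext : ∀ y : G, extendByZero H θ y =
      extendByZero (H.map (QuotientGroup.mk' A)) θ₁ (QuotientGroup.mk' A y) := by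
    intro y
    by_cases hy : y ∈ H
    · rw [ext_mem H θ y hy, ext_mem _ θ₁ _ (Subgroup.mem_map_of_mem _ hy), ← hθ]
    · rw [ext_not_mem H θ y hy, ext_not_mem]
      intro hmem
      apply hy
      have : y ∈ (H.map (QuotientGroup.mk' A)).comap (QuotientGroup.mk' A) := hmem
      rwa [Subgroup.comap_map_eq, QuotientGroup.ker_mk', sup_eq_left.mpr hAH] at this
  have hcard : Nat.card H = Nat.card A * Nat.card (H.map (QuotientGroup.mk' A)) := by
    rw [← Subgroup.relIndex_ker, QuotientGroup.ker_mk', Subgroup.relIndex,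
      ← Subgroup.card_mul_index (A.subgroupOf H), Nat.card_congr (Subgroup.subgroupOfEquivOfLe hAH).toEquiv]
  unfold indFun
  simp_rw [hext, map_mul, map_inv]
  rw [sum_comp_mk A (fun y => extendByZero (H.map (QuotientGroup.mk' A)) θ₁ (y⁻¹ * QuotientGroup.mk' A g * y)), hcard]
  have hA : (Nat.card A : ℂ) ≠ 0 := by exact_mod_cast Nat.card_pos.ne'
  push_cast
  field_simp

end Cfsg.Agent.S1488
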