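import Cfsg.Statements.S1485
import Cfsg.Agent.S1488
-- import your own Cfsg.Agent.* helpers here

set_option autoImplicit false
open Cfsg

namespace Cfsg.Agent.S1485

/-- A sum over a group of a function whose fibres are cosets of the fibre of `1`. -/
theorem sum_eq_card_smul_finsum {G : Type*} [Group G] [Fintype G] {M : Type*} [AddCommMonoid M]
    (c : G → M) (hc : ∀ x y : G, c x = c y ↔ c (x * y⁻¹) = c 1) :
    ∑ x : G, c x = Nat.card {g : G // c g = c 1} • ∑ᶠ ψ ∈ {ψ : M | ∃ g : G, ψ = c g}, ψ := by
  classical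
  have hset : {ψ : M | ∃ g : G, ψ = c g} = ((Finset.univ.image c : Finset M) : Set M) := by
    ext ψ; simp [eq_comm]
  rw [hset, finsum_mem_coe_finset, Finset.smul_sum,
    ← Finset.sum_fiberwise_of_maps_to (s := Finset.univ) (t := Finset.univ.image c) (g := c)
      (fun x hx => Finset.mem_image_of_mem c hx)]
  refine Finset.sum_congr rfl fun ψ hψ => ?_
  obtain ⟨y, -, rfl⟩ := Finset.mem_image.mp hψ
  rw [Finset.sum_congr rfl (g := fun _ => c y) (by
    intro x hx
    rw [(Finset.mem_filter.mp hx).2]), Finset.sum_const]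
  congr 1
  rw [Nat.card_eq_fintype_card, Fintype.card_subtype]
  refine Finset.card_bij (fun x _ => x * y⁻¹) ?_ ?_ ?_
  · intro x hx
    simp only [Finset.mem_filter, Finset.mem_univ, true_and] at hx ⊢
    exact (hc x y).mp hx
  · intro a _ b _ hab
    simpa using hab
  · intro b hb
    simp only [Finset.mem_filter, Finset.mem_univ, true_and] at hb ⊢
    refine ⟨b * y, (hc _ _).mpr (by simpa using hb), by simp⟩

/-- Let H be a normal subgroup of the finite group G and θ an irreducible character of H. On H, the function induced from θ equals r times the sum of the distinct G-conjugates of θ, where r is the number of elements of G fixing θ under conjugation divided by the order of H (the index of H in the inertia group). -/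
theorem result {G : Type*} [Group G] [Fintype G] (H : Subgroup G) [hN : H.Normal] (θ : H → ℂ) (hθ : Cfsg.IsIrrCharacter H θ) : (fun h : H => Cfsg.indFun H θ h) = ((Nat.card {g : G // ∀ h : H, θ ⟨g * h * g⁻¹, hN.conj_mem h h.2 g⟩ = θ h} : ℂ) / (Nat.card H : ℂ)) • ∑ᶠ ψ ∈ {ψ : H → ℂ | ∃ g : G, ψ = fun h : H => θ ⟨g * h * g⁻¹, hN.conj_mem h h.2 g⟩}, ψ := by
  set c : G → (H → ℂ) := fun g h => θ ⟨g * h * g⁻¹, hN.conj_mem h h.2 g⟩ with hcdef
  have hc1 : c 1 = θ := by
    funext h; simp [hcdef]
  have hc : ∀ x y : G, c x = c y ↔ c (x * y⁻¹) = c 1 := by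
    intro x y
    rw [hc1]
    constructor
    · intro hxy
      funext h
      have := congrFun hxy ⟨y⁻¹ * h * y⁻¹⁻¹, hN.conj_mem h h.2 y⁻¹⟩
      simp only [hcdef] at this ⊢
      convert this using 2
      · ext; simp [mul_assoc]
      · ext; simp [mul_assoc]
    · intro hxy
      funext h
      have := congrFun hxy ⟨y * h * y⁻¹, hN.conj_mem h h.2 y⟩
      simp only [hcdef] at this ⊢
      convert this using 2
      ext; simp [mul_assoc]
  have key := sum_eq_card_smul_finsum c hc
  have hcard : Nat.card {g : G // c g = c 1} =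
      Nat.card {g : G // ∀ h : H, θ ⟨g * h * g⁻¹, hN.conj_mem h h.2 g⟩ = θ h} := by
    refine Nat.card_congr (Equiv.subtypeEquivRight fun g => ?_)
    rw [hc1, funext_iff]
  rw [← hcard, div_eq_inv_mul, mul_smul, Nat.cast_smul_eq_nsmul, ← key]
  funext h
  simp only [indFun, Pi.smul_apply, Finset.sum_apply, smul_eq_mul]
  congr 1
  rw [← Equiv.sum_comp (Equiv.inv G)]
  refine Finset.sum_congr rfl fun x _ => ?_
  simp only [Equiv.inv_apply, inv_inv]
  exact S1488.ext_mem H θ _ _

end Cfsg.Agent.S1485
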