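import Cfsg.Statements.S1486
import Cfsg.Agent.S1488
import Cfsg.Agent.S0146
import Cfsg.Agent.CHAR.Orth1
-- import your own Cfsg.Agent.* helpers here

set_option autoImplicit false
open Cfsg

namespace Cfsg.Agent.S1486

theorem indFun_isClassFunction {G : Type*} [Group G] [Fintype G] (H : Subgroup G) (θ : H → ℂ) :
    IsClassFunction G (indFun H θ) := by
  intro g h
  unfold indFun
  congr 1
  rw [← Equiv.sum_comp (Equiv.mulLeft h)]
  refine Finset.sum_congr rfl fun x _ => ?_
  simp [mul_assoc]

theorem conj_irr {G : Type*} [Group G] (H : Subgroup G) [hN : H.Normal] (θ : H → ℂ)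
    (hθ : IsIrrCharacter H θ) (g : G) :
    IsIrrCharacter H (fun h : H => θ ⟨g * h * g⁻¹, hN.conj_mem h h.2 g⟩) :=
  hθ.comp_surjective (MulAut.conjNormal g : MulAut H).toMonoidHom (MulAut.conjNormal g : MulAut H).surjective

theorem res_indFun {G : Type*} [Group G] [Fintype G] (H : Subgroup G) [hN : H.Normal] (θ : H → ℂ) :
    (fun h : H => indFun H θ h) =
      (Nat.card H : ℂ)⁻¹ • ∑ g : G, fun h : H => θ ⟨g * h * g⁻¹, hN.conj_mem h h.2 g⟩ := by
  funext h
  simp only [indFun, Pi.smul_apply, Finset.sum_apply, smul_eq_mul]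
  congr 1
  rw [← Equiv.sum_comp (Equiv.inv G)]
  refine Finset.sum_congr rfl fun x _ => ?_
  simp only [Equiv.inv_apply, inv_inv]
  exact S1488.ext_mem H θ _ _

/-- Let H be a normal subgroup of the finite group G and θ, φ irreducible characters of H. If φ is a G-conjugate of θ then the functions induced from θ and φ coincide; if φ is not a G-conjugate of θ then the induced functions are orthogonal. -/
theorem result {G : Type*} [Group G] [Fintype G] (H : Subgroup G) [hN : H.Normal] (θ φ : H → ℂ) (hθ : Cfsg.IsIrrCharacter H θ) (hφ : Cfsg.IsIrrCharacter H φ) : ((∃ g : G, φ = fun h : H => θ ⟨g * h * g⁻¹, hN.conj_mem h h.2 g⟩) → Cfsg.indFun H φ = Cfsg.indFun H θ) ∧ ((¬ ∃ g : G, φ = fun h : H => θ ⟨g * h * g⁻¹, hN.conj_mem h h.2 g⟩) → Cfsg.classInner (Cfsg.indFun H φ) (Cfsg.indFun H θ) = 0) := by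
  classical
  constructor
  · rintro ⟨g, rfl⟩
    funext a
    unfold indFun
    congr 1
    rw [← Equiv.sum_comp (Equiv.mulRight g)]
    refine Finset.sum_congr rfl fun x _ => ?_
    simp only [Equiv.coe_mulRight]
    by_cases hx : x⁻¹ * a * x ∈ H
    · have hx' : (x * g)⁻¹ * a * (x * g) ∈ H := by
        have := hN.conj_mem _ hx g⁻¹
        simpa [mul_assoc] using this
      rw [S1488.ext_mem H _ _ hx, S1488.ext_mem H _ _ hx']
      congr 2
      simp [mul_assoc]
    · have hx' : (x * g)⁻¹ * a * (x * g) ∉ H := by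
        intro h
        apply hx
        have := hN.conj_mem _ h g
        simpa [mul_assoc] using this
      rw [S1488.ext_not_mem H _ _ hx, S1488.ext_not_mem H _ _ hx']
  · intro hne
    rw [S0146.result H φ _ (indFun_isClassFunction H θ), res_indFun, CL.Char.classInner_smul_right,
      CL.Char.classInner_sum_right, Finset.sum_eq_zero, mul_zero]
    intro g _
    exact hφ.inner_of_ne (conj_irr H θ hθ g) (fun h => hne ⟨g, h⟩)

end Cfsg.Agent.S1486
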