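import Cfsg.Statements.S1487
import Cfsg.Agent.S1488
import Cfsg.Agent.S0137
import Cfsg.Agent.CHAR.Orth1
-- import your own Cfsg.Agent.* helpers here

set_option autoImplicit false
open Cfsg

namespace Cfsg.Agent.S1487

theorem norm_le_re_one {G : Type*} [Group G] [Finite G] {χ : G → ℂ} (hχ : IsCharacter G χ) (g : G) :
    ‖χ g‖ ≤ (χ 1).re := by
  obtain ⟨n, ρ, rfl⟩ := hχ
  have := S0137.result ρ g
  simpa using this

theorem eq_of_re_eq {G : Type*} [Group G] [Finite G] {χ : G → ℂ} (hχ : IsCharacter G χ) (g : G)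
    (h : (χ g).re = (χ 1).re) : χ g = χ 1 := by
  have h1 := norm_le_re_one hχ g
  obtain ⟨n, hn⟩ := hχ.exists_nat_degree
  rw [hn] at h h1 ⊢
  simp only [Complex.natCast_re] at h h1
  apply Complex.ext
  · simpa using h
  · have h2 : ‖χ g‖ ^ 2 = (χ g).re ^ 2 + (χ g).im ^ 2 := by
      rw [Complex.sq_norm, Complex.normSq_apply]; ring
    have h3 : ‖χ g‖ ^ 2 ≤ (n : ℝ) ^ 2 := by
      gcongr
    rw [h2, h] at h3
    have : (χ g).im ^ 2 = 0 := le_antisymm (by linarith) (sq_nonneg _)
    simpa using this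

/-- Let A ≤ H be normal subgroups of the finite group G and θ an irreducible character of H. Then θ takes the value θ 1 on all of A if and only if the function induced from θ to G takes its value at 1 on all of A. -/
theorem result {G : Type*} [Group G] [Fintype G] (A H : Subgroup G) [A.Normal] [H.Normal] (hAH : A ≤ H) (θ : H → ℂ) (hθ : Cfsg.IsIrrCharacter H θ) : (∀ a : H, (a : G) ∈ A → θ a = θ 1) ↔ (∀ a : G, a ∈ A → Cfsg.indFun H θ a = Cfsg.indFun H θ 1) := by
  have hA : A.Normal := inferInstance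
  have hone : ∀ x : G, extendByZero H θ (x⁻¹ * 1 * x) = θ 1 := by
    intro x
    rw [mul_one, inv_mul_cancel]
    exact S1488.ext_mem H θ 1 H.one_mem
  have hmem : ∀ a ∈ A, ∀ x : G, x⁻¹ * a * x ∈ A := by
    intro a ha x
    simpa using hA.conj_mem a ha x⁻¹
  constructor
  · intro h a ha
    unfold indFun
    congr 1
    refine Finset.sum_congr rfl fun x _ => ?_
    rw [hone, S1488.ext_mem H θ _ (hAH (hmem a ha x)), h _ (hmem a ha x)]
  · intro h a ha
    have h1 := h a ha
    unfold indFun at h1
    have hH : (Nat.card H : ℂ)⁻¹ ≠ 0 := inv_ne_zero (by exact_mod_cast Nat.card_pos.ne')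
    have h2 := mul_left_cancel₀ hH h1
    have h3 := congrArg Complex.re h2
    simp only [Complex.re_sum, hone] at h3
    have h4 := (Finset.sum_eq_sum_iff_of_le (s := Finset.univ)
      (f := fun x : G => (extendByZero H θ (x⁻¹ * a * x)).re) (g := fun _ => (θ 1).re) (by
        intro x _
        rw [S1488.ext_mem H θ _ (hAH (hmem a ha x))]
        exact (Complex.re_le_norm _).trans (norm_le_re_one hθ.isCharacter _))).mp h3 1 (Finset.mem_univ _)
    simp only [inv_one, one_mul, mul_one] at h4
    rw [S1488.ext_mem H θ _ a.2] at h4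
    exact eq_of_re_eq hθ.isCharacter a h4

end Cfsg.Agent.S1487
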