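import Cfsg.Statements.S1490
import Cfsg.Agent.ODDC.PF1c

set_option autoImplicit false
open Cfsg

namespace Cfsg.Agent.S1490

open CL.PF CL.BG

/-- Let H be a normal subgroup of the finite group G, θ an irreducible character of H with inertia group T, and suppose the commutator of any two elements of T lies in H (T/H abelian). Then there are a positive integer e and a finite set C of irreducible characters of G with e ^ 2 * |C| * |H| = |T|, such that the function induced from θ is e times the sum of the members of C and every member of C has degree [G:T] * e * θ(1). -/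
theorem result {G : Type*} [Group G] [Fintype G] (H T : Subgroup G) [hN : H.Normal] (θ : H → ℂ) (hθ : Cfsg.IsIrrCharacter H θ) (hT : ∀ g : G, g ∈ T ↔ ∀ h : H, θ ⟨g * h * g⁻¹, hN.conj_mem h h.2 g⟩ = θ h) (hab : ∀ x ∈ T, ∀ y ∈ T, x * y * x⁻¹ * y⁻¹ ∈ H) : ∃ (e : ℕ) (C : Finset (G → ℂ)), 0 < e ∧ (∀ χ ∈ C, Cfsg.IsIrrCharacter G χ) ∧ e ^ 2 * C.card * Nat.card H = Nat.card T ∧ Cfsg.indFun H θ = (e : ℂ) • ∑ χ ∈ C, χ ∧ ∀ χ ∈ C, χ 1 = (T.index : ℂ) * e * θ 1 := by
  classical
  have hn : NormalIn H ⊤ := normalIn_top_iff.mpr hN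
  have hθ' := ext0_mem_Irr.mpr hθ
  have hI : inertia ⊤ (extendByZero H θ) = T := by
    ext g
    rw [mem_inertia, hT, and_iff_right (Subgroup.mem_top g)]
    refine ⟨fun h x => ?_, fun h => CF.ext (CF.cj_mem (Irr.cf hθ') (hn.2 trivial)) (Irr.cf hθ')
      fun x hx => ?_⟩
    · have := congrFun h x
      rwa [cj_apply, ext0_coe, ext0_of_mem _ (hN.conj_mem x x.2 g)] at this
    · rw [cj_apply, ext0_of_mem _ hx, ext0_of_mem _ (hN.conj_mem x hx g)]
      exact h ⟨x, hx⟩
  have hab' : ⁅T, T⁆ ≤ H := Subgroup.commutator_le.mpr hab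
  have hHT : H ≤ T := hI ▸ CF.le_inertia le_top (Irr.cf hθ')
  obtain ⟨e, h0, -, h2, h3, h4⟩ := cfInd_central_Inertia hn hθ' (by rwa [hI])
  rw [hI] at h3 h4
  refine ⟨e, constt ⊤ (ind H ⊤ (extendByZero H θ)), h0,
    fun χ hχ => mem_Irr_top.mp (constt_subset _ _ hχ), ?_, ?_, fun χ hχ => ?_⟩
  · rw [h3, mul_comm, card_mul_relIndex hHT]
  · rw [← h2, ind_top_ext0]
  · rw [h4 χ hχ, Subgroup.relIndex_top_right, ext0_of_mem _ H.one_mem]; rfl

end Cfsg.Agent.S1490
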