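import Cfsg.Statements.S1491
import Cfsg.Agent.ODDC.PF1c

set_option autoImplicit false
open Cfsg

namespace Cfsg.Agent.S1491

open CL.PF CL.BG

/-- Let H be a normal subgroup of the finite group G and θ an irreducible character of H with inertia group T, where T/H is abelian (commutators of T lie in H) and the index of H in T is coprime to the order of H. Then the function induced from θ is the sum of a set of exactly [T:H] irreducible characters of G, each of degree [G:T] * θ(1). -/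
theorem result {G : Type*} [Group G] [Fintype G] (H T : Subgroup G) [hN : H.Normal] (θ : H → ℂ) (hθ : Cfsg.IsIrrCharacter H θ) (hT : ∀ g : G, g ∈ T ↔ ∀ h : H, θ ⟨g * h * g⁻¹, hN.conj_mem h h.2 g⟩ = θ h) (hab : ∀ x ∈ T, ∀ y ∈ T, x * y * x⁻¹ * y⁻¹ ∈ H) (hcop : Nat.Coprime (Nat.card H) (H.relIndex T)) : ∃ C : Finset (G → ℂ), (∀ χ ∈ C, Cfsg.IsIrrCharacter G χ) ∧ C.card = H.relIndex T ∧ Cfsg.indFun H θ = ∑ χ ∈ C, χ ∧ ∀ χ ∈ C, χ 1 = (T.index : ℂ) * θ 1 := by
  classical
  have hn : NormalIn H ⊤ := normalIn_top_iff.mpr hN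
  have hθ' := ext0_mem_Irr.mpr hθ
  have hI : inertia ⊤ (extendByZero H θ) = T := by
    ext g
    rw [mem_inertia, hT, and_iff_right (Subgroup.mem_top g)]
    refine ⟨fun h x => ?_, fun h => CF.ext (CF.cj_mem (Irr.cf hθ') (hn.2 trivial)) (Irr.cf hθ')
      fun x hx => ?_⟩
    · have := congrFun h x
      rwa [cj_apply, ext0_coe, ext0_of_mem _ (hN.conj_mem x x.2 g)] at this
    · rw [cj_apply, ext0_of_mem _ hx, ext0_of_mem _ (hN.conj_mem x hx g)]
      exact h ⟨x, hx⟩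
  have hab' : ⁅T, T⁆ ≤ H := Subgroup.commutator_le.mpr hab
  have hHT : H ≤ T := hI ▸ CF.le_inertia le_top (Irr.cf hθ')
  obtain ⟨-, h2, h3, h4⟩ := cfInd_Hall_central_Inertia hn hθ' (by rwa [hI]) (by rwa [hI])
  rw [hI] at h3 h4
  refine ⟨constt ⊤ (ind H ⊤ (extendByZero H θ)),
    fun χ hχ => mem_Irr_top.mp (constt_subset _ _ hχ), h3, ?_, fun χ hχ => ?_⟩
  · rw [← h2, ind_top_ext0]
  · rw [h4 χ hχ, Subgroup.relIndex_top_right, ext0_of_mem _ H.one_mem]; rfl

end Cfsg.Agent.S1491
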