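import Cfsg.Statements.S1492
import Cfsg.Agent.S1487
import Cfsg.Agent.S0146
import Cfsg.Agent.S0148
import Cfsg.Agent.CHAR.Orth
-- import your own Cfsg.Agent.* helpers here

set_option autoImplicit false
open Cfsg

namespace Cfsg.Agent.S1492

open scoped ComplexConjugate

/-- If all commutators `c d⁻¹ c⁻¹ d` lie in the kernel of an irreducible character then `|χ d| = χ 1`. -/
theorem norm_sq_eq_of_comm {G : Type*} [Group G] [Fintype G] {χ : G → ℂ} (hχ : IsIrrCharacter G χ)
    (d : G) (hd : ∀ c : G, χ (c * d⁻¹ * c⁻¹ * d) = χ 1) : ‖χ d‖ ^ 2 = ‖χ 1‖ ^ 2 := by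
  classical
  let f : G → ℂ := fun g => ∑ c : G, if c * d⁻¹ * c⁻¹ = g then 1 else 0
  have hf : IsClassFunction G f := by
    intro g h
    simp only [f]
    rw [← Equiv.sum_comp (Equiv.mulLeft h)]
    refine Finset.sum_congr rfl fun c _ => ?_
    simp only [Equiv.coe_mulLeft]
    congr 1
    apply propext
    constructor
    · intro h1
      have : c * d⁻¹ * c⁻¹ = h⁻¹ * (h * c * d⁻¹ * (h * c)⁻¹) * h := by group
      rw [this, h1]; group
    · intro h1
      rw [← h1]; group
  have hsum : ∀ u : G → ℂ, ∑ g, f g * u g = ∑ c : G, u (c * d⁻¹ * c⁻¹) := by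
    intro u
    simp only [f, Finset.sum_mul]
    rw [Finset.sum_comm]
    refine Finset.sum_congr rfl fun c _ => ?_
    simp
  have key := hχ.sum_mul_apply_mul hf d
  rw [hsum (fun g => χ (g * d)), hsum χ] at key
  simp only [hd, hχ.isClassFunction d⁻¹, Finset.sum_const, Finset.card_univ, nsmul_eq_mul] at key
  rw [hχ.isCharacter.apply_inv] at key
  have hc : (Fintype.card G : ℂ) ≠ 0 := by exact_mod_cast Fintype.card_pos.ne'
  have key2 : χ 1 * χ 1 = conj (χ d) * χ d := by
    apply mul_left_cancel₀ hc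
    linear_combination key
  have := congrArg norm key2
  simp only [norm_mul, Complex.norm_conj] at this
  nlinarith

/-- The kernel of a character is contained in the kernel of every irreducible constituent. -/
theorem eq_one_of_constituent {G : Type*} [Group G] [Fintype G] {ψ χ : G → ℂ} (hψ : IsCharacter G ψ)
    (hχ : IsIrrCharacter G χ) (hne : classInner ψ χ ≠ 0) (b : G) (hb : ψ b = ψ 1) : χ b = χ 1 := by
  have h1 := hψ.sub_irr hχ hne
  have h2 := (Complex.re_le_norm _).trans (S1487.norm_le_re_one h1 b)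
  have h3 := (Complex.re_le_norm _).trans (S1487.norm_le_re_one hχ.isCharacter b)
  simp only [Pi.sub_apply, Complex.sub_re, hb] at h2
  exact S1487.eq_of_re_eq hχ.isCharacter b (by linarith)

theorem indFun_one {G : Type*} [Group G] [Fintype G] (H : Subgroup G) (θ : H → ℂ) :
    indFun H θ 1 = H.index * θ 1 := by
  unfold indFun
  have hone : ∀ x : G, extendByZero H θ (x⁻¹ * 1 * x) = θ 1 := by
    intro x
    rw [mul_one, inv_mul_cancel]
    exact S1488.ext_mem H θ 1 H.one_mem
  simp only [hone, Finset.sum_const, Finset.card_univ, nsmul_eq_mul]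
  rw [← Nat.card_eq_fintype_card, ← H.card_mul_index]
  have hH : (Nat.card H : ℂ) ≠ 0 := by exact_mod_cast Nat.card_pos.ne'
  push_cast
  field_simp

/-- Let ψ be an irreducible character of the finite group G and B ≤ D ≤ C subgroups with B normal in C, every commutator of an element of D with an element of C lying in B (so D/B is central in C/B), and ψ constant equal to ψ 1 on B. Then ψ(1) ^ 2 * |C| * |D| ≤ |G| ^ 2. -/
theorem result {G : Type*} [Group G] [Finite G] (ψ : G → ℂ) (hψ : Cfsg.IsIrrCharacter G ψ) (B C D : Subgroup G) (hBD : B ≤ D) (hDC : D ≤ C) (hBn : ∀ c ∈ C, ∀ b ∈ B, c * b * c⁻¹ ∈ B) (hcent : ∀ d ∈ D, ∀ c ∈ C, d * c * d⁻¹ * c⁻¹ ∈ B) (hker : ∀ b ∈ B, ψ b = ψ 1) : ‖ψ 1‖ ^ 2 * (Nat.card C : ℝ) * (Nat.card D : ℝ) ≤ (Nat.card G : ℝ) ^ 2 := by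
  classical
  letI : Fintype G := Fintype.ofFinite G
  have hres : IsCharacter C (fun x : C => ψ x) := hψ.isCharacter.res C
  have hres0 : (fun x : C => ψ x) ≠ 0 := fun h => hψ.one_ne_zero (by simpa using congrFun h 1)
  obtain ⟨χ, hχ, hne⟩ := hres.exists_irr_inner_ne_zero hres0
  have hkerχ : ∀ b : C, (b : G) ∈ B → χ b = χ 1 := fun b hb =>
    eq_one_of_constituent hres hχ hne b (by simpa using hker b hb)
  have hD : ∀ d : C, (d : G) ∈ D → ‖χ d‖ ^ 2 = ‖χ 1‖ ^ 2 := by
    intro d hd
    refine norm_sq_eq_of_comm hχ d fun c => hkerχ _ ?_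
    have := B.inv_mem (hcent _ (D.inv_mem hd) c c.2)
    simpa [mul_assoc] using this
  -- bound on χ 1
  have hb1 : ‖χ 1‖ ^ 2 * Nat.card D ≤ Nat.card C := by
    have h1 := hχ.inner_self
    rw [CL.Char.classInner_self_eq] at h1
    have h2 : (Nat.card C : ℝ)⁻¹ * ∑ g, ‖χ g‖ ^ 2 = 1 := by exact_mod_cast h1
    have hC : (0 : ℝ) < Nat.card C := by exact_mod_cast Nat.card_pos
    have h3 : ∑ g, ‖χ g‖ ^ 2 = (Nat.card C : ℝ) := by
      field_simp at h2; exact h2
    rw [← h3]
    calc ‖χ 1‖ ^ 2 * Nat.card D = ∑ g ∈ Finset.univ.filter (fun g : C => (g : G) ∈ D), ‖χ g‖ ^ 2 := by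
          rw [Finset.sum_congr rfl (g := fun _ => ‖χ 1‖ ^ 2) (fun g hg => hD g (Finset.mem_filter.mp hg).2),
            Finset.sum_const, nsmul_eq_mul, mul_comm]
          congr 2
          rw [← Nat.card_congr (Subgroup.subgroupOfEquivOfLe hDC).toEquiv, Nat.card_eq_fintype_card,
            Fintype.card_subtype]
          rfl
      _ ≤ _ := Finset.sum_le_sum_of_subset_of_nonneg (Finset.filter_subset _ _) (fun _ _ _ => by positivity)
  -- bound on ψ 1
  have hind : IsCharacter G (indFun C χ) := S0148.result C χ hχ.isCharacter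
  have hne' : classInner (indFun C χ) ψ ≠ 0 := by
    rw [S0146.result C χ ψ hψ.isClassFunction, ← CL.Char.classInner_conj_symm]
    simpa using hne
  have hsub := hind.sub_irr hψ hne'
  obtain ⟨k, hk⟩ := hsub.exists_nat_degree
  obtain ⟨m, hm⟩ := hψ.isCharacter.exists_nat_degree
  obtain ⟨n, hn⟩ := hχ.isCharacter.exists_nat_degree
  rw [Pi.sub_apply, indFun_one, hm, hn] at hk
  have hk' : C.index * n = m + k := by
    have : ((C.index * n : ℕ) : ℂ) = ((m + k : ℕ) : ℂ) := by push_cast; linear_combination hk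
    exact_mod_cast this
  have hmle : (m : ℝ) ≤ C.index * n := by exact_mod_cast (hk' ▸ Nat.le_add_right m k)
  rw [hn] at hb1
  rw [hm, ← C.card_mul_index]
  simp only [Complex.norm_natCast] at hb1 ⊢
  push_cast
  have hm0 : (0 : ℝ) ≤ m := Nat.cast_nonneg m
  calc (m : ℝ) ^ 2 * Nat.card C * Nat.card D ≤ ((C.index : ℝ) * n) ^ 2 * Nat.card C * Nat.card D := by gcongr
    _ = (C.index : ℝ) ^ 2 * Nat.card C * (n ^ 2 * Nat.card D) := by ring
    _ ≤ (C.index : ℝ) ^ 2 * Nat.card C * Nat.card C := by gcongr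
    _ = _ := by ring

end Cfsg.Agent.S1492
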