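import Cfsg.Statements.S1502
import Cfsg.Agent.ODDC.CycBridge

set_option autoImplicit false
open Cfsg
open CL.PF CL.BG

namespace Cfsg.Agent.S1502

/-- Let W₁, W₂ be nontrivial subgroups of the finite group G generating a cyclic subgroup W = W₁ ⊔ W₂ of odd order that is the normaliser of every nonempty set of its elements outside W₁ ∪ W₂. Then there is a family attaching to each linear character ω of W an irreducible character of G up to sign, orthonormal, sending the trivial character to the principal character, with χ ω = ω on W outside W₁ ∪ W₂, and such that inducing (1 − φ)(1 − ψ) to G gives 1 − χ φ − χ ψ + χ (φψ) whenever φ ≠ 1 is trivial on W₂ and ψ ≠ 1 is trivial on W₁. -/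
theorem result {G : Type*} [Group G] [Fintype G] (W₁ W₂ : Subgroup G) (hW : Cfsg.IsSelfNormalizingCyclic W₁ W₂) (hodd : Odd (Nat.card ↥(W₁ ⊔ W₂))) : ∃ χ : (↥(W₁ ⊔ W₂) →* ℂˣ) → (G → ℂ), Cfsg.IsCyclicTIFamily W₁ W₂ χ := by
  have h := CycTI.of_selfNormalizing hW hodd
  have d := h.toDP
  have e : ∀ i j, lin (Dual.ofHom (d.hm i j)) = om i j := fun i j => (d.om_eq_lin i j).symm
  refine ⟨fun ω => h.sigma (lin (Dual.ofHom ω)), fun ω => isDirr_top.mp
    (h.sigma_isDirr (lin_mem_Irr _)), fun ω ω' => ?_, ?_, fun ω w h1 h2 => ?_,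
    fun φ ψ _ _ h1 h2 => ?_⟩
  · rw [← ip_top, h.ip_sigma, ip_lin]; congr
  · rw [← d.hm_one, e, h.sigma_om, h.eta_one_one, triv_top]
  · rw [h.sigma_apply _ (mem_cycV.mpr ⟨w.2, h1, h2⟩), lin_coe]; rfl
  · obtain ⟨i, rfl⟩ := (d.hm_trivial2 φ).mp h1
    obtain ⟨j, rfl⟩ := (d.hm_trivial1 ψ).mp h2
    rw [d.hm_alpha, ← ind_top_eq_indFun, h.ind_alpha, d.hm_mul, mul_one, one_mul, e, e, e, triv_top]
    rfl

end Cfsg.Agent.S1502
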