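import Cfsg.Statements.S1504
import Cfsg.Agent.ODDC.CycBridge

set_option autoImplicit false
open Cfsg
open CL.PF CL.BG

namespace Cfsg.Agent.S1504

/-- Let W₁, W₂ be subgroups of a finite group with W₁ ⊓ W₂ = ⊥ whose elements commute, and W = W₁ ⊔ W₂. For linear characters φ, ψ of W with φ trivial on W₂ and ψ trivial on W₁, the function (1 − φ)(1 − ψ) vanishes on W₁ ∪ W₂; and the family of these functions, indexed by pairs (φ, ψ) with φ ≠ 1 ≠ ψ, is linearly independent over ℂ. -/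
theorem result {G : Type*} [Group G] [Finite G] (W₁ W₂ : Subgroup G) (hdisj : W₁ ⊓ W₂ = ⊥) (hcomm : ∀ a ∈ W₁, ∀ b ∈ W₂, a * b = b * a) : (∀ φ ψ : ↥(W₁ ⊔ W₂) →* ℂˣ, (∀ w : ↥(W₁ ⊔ W₂), (w : G) ∈ W₂ → φ w = 1) → (∀ w : ↥(W₁ ⊔ W₂), (w : G) ∈ W₁ → ψ w = 1) → ∀ w : ↥(W₁ ⊔ W₂), ((w : G) ∈ W₁ ∨ (w : G) ∈ W₂) → (1 - (φ w : ℂ) - (ψ w : ℂ) + (φ w : ℂ) * (ψ w : ℂ)) = 0) ∧ LinearIndependent ℂ (fun p : {p : (↥(W₁ ⊔ W₂) →* ℂˣ) × (↥(W₁ ⊔ W₂) →* ℂˣ) // p.1 ≠ 1 ∧ p.2 ≠ 1 ∧ (∀ w : ↥(W₁ ⊔ W₂), (w : G) ∈ W₂ → p.1 w = 1) ∧ (∀ w : ↥(W₁ ⊔ W₂), (w : G) ∈ W₁ → p.2 w = 1)} => fun w : ↥(W₁ ⊔ W₂) => 1 - (p.1.1 w : ℂ) - (p.1.2 w : ℂ) + (p.1.1 w : ℂ) * (p.1.2 w : ℂ)) := by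
  classical
  refine ⟨fun φ ψ h2 h1 w hw => ?_, ?_⟩
  · rcases hw with hw | hw
    · simp [h1 w hw]
    · simp [h2 w hw]
  have key : ∀ ω : ↥(W₁ ⊔ W₂) →* ℂˣ, (∀ w : ↥(W₁ ⊔ W₂), (w : G) ∈ W₁ → ω w = 1) →
      (∀ w : ↥(W₁ ⊔ W₂), (w : G) ∈ W₂ → ω w = 1) → ω = 1 := fun ω h1 h2 => by
    rw [← MonoidHom.ker_eq_top_iff, eq_top_iff, ← Subgroup.subgroupOf_self,
      Subgroup.subgroupOf_sup le_sup_left le_sup_right]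
    exact sup_le h1 h2
  let F : (↥(W₁ ⊔ W₂) →* ℂˣ) → Module.Dual ℂ (↥(W₁ ⊔ W₂) → ℂ) := fun ω =>
    { toFun := fun v => ip (W₁ ⊔ W₂) (ext0L _ v) (lin (Dual.ofHom ω))
      map_add' := fun a b => by rw [map_add, ip_add_left]
      map_smul' := fun c a => by rw [map_smul, ip_smul_left]; rfl }
  have hF : ∀ ω ω' : ↥(W₁ ⊔ W₂) →* ℂˣ, F ω (fun w => (ω' w : ℂ)) = if ω' = ω then 1 else 0 :=
    fun ω ω' => (ip_lin (Dual.ofHom ω') (Dual.ofHom ω)).trans (if_congr Iff.rfl rfl rfl)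
  have hF' : ∀ ω φ ψ : ↥(W₁ ⊔ W₂) →* ℂˣ,
      F ω (fun w => 1 - (φ w : ℂ) - (ψ w : ℂ) + (φ w : ℂ) * (ψ w : ℂ)) =
        (if 1 = ω then 1 else 0) - (if φ = ω then 1 else 0) - (if ψ = ω then 1 else 0) +
          if φ * ψ = ω then 1 else 0 := fun ω φ ψ => by
    rw [← hF, ← hF, ← hF, ← hF, ← map_sub, ← map_sub, ← map_add]
    congr 1
  have uniq : ∀ φ ψ φ' ψ' : ↥(W₁ ⊔ W₂) →* ℂˣ, (∀ w : ↥(W₁ ⊔ W₂), (w : G) ∈ W₂ → φ w = 1) →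
      (∀ w : ↥(W₁ ⊔ W₂), (w : G) ∈ W₁ → ψ w = 1) → (∀ w : ↥(W₁ ⊔ W₂), (w : G) ∈ W₂ → φ' w = 1) →
      (∀ w : ↥(W₁ ⊔ W₂), (w : G) ∈ W₁ → ψ' w = 1) → φ * ψ = φ' * ψ' → φ = φ' ∧ ψ = ψ' := by
    intro φ ψ φ' ψ' a b a' b' e
    have e' := fun w => DFunLike.congr_fun e w
    simp only [MonoidHom.mul_apply] at e'
    have h1 := key (φ * φ'⁻¹) (fun w hw => by simpa [b w hw, b' w hw, mul_inv_eq_one] using e' w)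
      fun w hw => by simp [a w hw, a' w hw]
    have h2 := key (ψ * ψ'⁻¹) (fun w hw => by simp [b w hw, b' w hw])
      fun w hw => by simpa [a w hw, a' w hw, mul_inv_eq_one] using e' w
    constructor <;> ext1 w
    · simpa [mul_inv_eq_one] using DFunLike.congr_fun h1 w
    · simpa [mul_inv_eq_one] using DFunLike.congr_fun h2 w
  have main : ∀ p q : {p : (↥(W₁ ⊔ W₂) →* ℂˣ) × (↥(W₁ ⊔ W₂) →* ℂˣ) // p.1 ≠ 1 ∧ p.2 ≠ 1 ∧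
      (∀ w : ↥(W₁ ⊔ W₂), (w : G) ∈ W₂ → p.1 w = 1) ∧ (∀ w : ↥(W₁ ⊔ W₂), (w : G) ∈ W₁ → p.2 w = 1)},
      F (p.1.1 * p.1.2) (fun w => 1 - (q.1.1 w : ℂ) - (q.1.2 w : ℂ) + (q.1.1 w : ℂ) * (q.1.2 w : ℂ)) =
        if q = p then 1 else 0 := by
    rintro ⟨⟨φ, ψ⟩, h1, h2, a, b⟩ ⟨⟨φ', ψ'⟩, h1', h2', a', b'⟩
    have t : ∀ {P : ↥(W₁ ⊔ W₂) → Prop}, ∀ w, P w → (1 : ↥(W₁ ⊔ W₂) →* ℂˣ) w = 1 := fun _ _ => rfl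
    rw [hF', if_neg, if_neg, if_neg]
    · simp only [sub_zero, zero_add, Subtype.mk.injEq, Prod.mk.injEq]
      exact if_congr ⟨uniq _ _ _ _ a' b' a b, fun e => by rw [e.1, e.2]⟩ rfl rfl
    · exact fun e => h1 (uniq 1 ψ' φ ψ t b' a b (by rw [← e]; ext; simp)).1.symm
    · exact fun e => h2 (uniq φ' 1 φ ψ a' t a b (by rw [← e]; ext; simp)).2.symm
    · exact fun e => h1 (uniq 1 1 φ ψ t t a b (by rw [← e]; ext; simp)).1.symm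
  exact LinearIndependent.of_pairwise_dual_eq_zero_one _ (fun p => F (p.1.1 * p.1.2))
    (fun p q h => (main p q).trans (if_neg h.symm)) fun p => (main p p).trans (if_pos rfl)

end Cfsg.Agent.S1504
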