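import Cfsg.Statements.S1505
import Cfsg.Agent.ODDC.CycBridge

set_option autoImplicit false
open Cfsg
open CL.PF CL.BG

namespace Cfsg.Agent.S1505

open Classical in
/-- Let W₁, W₂ ≤ G form a self-normalising cyclic subgroup W = W₁ ⊔ W₂. For nontrivial linear characters φ, φ' of W trivial on W₂ and ψ, ψ' trivial on W₁, put α = (1 − φ)(1 − ψ) and α' = (1 − φ')(1 − ψ'). Then the function induced from α to G has inner product 1 with the principal character, and the inner product of the functions induced from α and α' is 1 + a + b + ab where a = 1 if φ = φ' (else 0) and b = 1 if ψ = ψ' (else 0). -/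
theorem result {G : Type*} [Group G] [Fintype G] (W₁ W₂ : Subgroup G) (hW : Cfsg.IsSelfNormalizingCyclic W₁ W₂) (φ φ' ψ ψ' : ↥(W₁ ⊔ W₂) →* ℂˣ) (hφ : φ ≠ 1) (hφ' : φ' ≠ 1) (hψ : ψ ≠ 1) (hψ' : ψ' ≠ 1) (hφ₂ : ∀ w : ↥(W₁ ⊔ W₂), (w : G) ∈ W₂ → φ w = 1 ∧ φ' w = 1) (hψ₁ : ∀ w : ↥(W₁ ⊔ W₂), (w : G) ∈ W₁ → ψ w = 1 ∧ ψ' w = 1) : Cfsg.classInner (Cfsg.indFun (W₁ ⊔ W₂) (fun w => 1 - (φ w : ℂ) - (ψ w : ℂ) + (φ w : ℂ) * (ψ w : ℂ))) (fun _ => 1) = 1 ∧ Cfsg.classInner (Cfsg.indFun (W₁ ⊔ W₂) (fun w => 1 - (φ w : ℂ) - (ψ w : ℂ) + (φ w : ℂ) * (ψ w : ℂ))) (Cfsg.indFun (W₁ ⊔ W₂) (fun w => 1 - (φ' w : ℂ) - (ψ' w : ℂ) + (φ' w : ℂ) * (ψ' w : ℂ))) = 1 + (if φ = φ' then 1 else 0) + (if ψ = ψ' then 1 else 0) + (if φ = φ' then 1 else 0) * (if ψ = ψ' then 1 else 0) := by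
  have d := dp_of_selfNormalizing hW
  have ti := normedTI_of_selfNormalizing hW
  obtain ⟨i, rfl⟩ := (d.hm_trivial2 φ).mp fun w hw => (hφ₂ w hw).1
  obtain ⟨i', rfl⟩ := (d.hm_trivial2 φ').mp fun w hw => (hφ₂ w hw).2
  obtain ⟨j, rfl⟩ := (d.hm_trivial1 ψ).mp fun w hw => (hψ₁ w hw).1
  obtain ⟨j', rfl⟩ := (d.hm_trivial1 ψ').mp fun w hw => (hψ₁ w hw).2
  simp only [← d.hm_one, Ne, d.hm_inj, and_true, true_and] at hφ hφ' hψ hψ'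
  rw [d.hm_alpha, d.hm_alpha, ← ind_top_eq_indFun, ← ind_top_eq_indFun, ← triv_top, ← ip_top,
    ← ip_top, ip_ind_left ti.le _ (triv_mem_CF _), ← ip_res_right le_rfl, res_triv ti.le,
    d.ip_alpha_triv hφ hψ, ti.ip_ind (d.alpha_mem_CFon _ _) (d.alpha_mem_CFon _ _),
    d.ip_alpha hφ hφ' hψ hψ']
  refine ⟨rfl, ?_⟩
  by_cases h1 : i = i' <;> by_cases h2 : j = j' <;> simp [d.hm_inj, h1, h2]

end Cfsg.Agent.S1505
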