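import Cfsg.Statements.S1506
import Cfsg.Agent.ODDC.CycBridge

set_option autoImplicit false
open Cfsg
open CL.PF CL.BG

namespace Cfsg.Agent.S1506

/-- Let W₁, W₂ ≤ G form a self-normalising cyclic subgroup W = W₁ ⊔ W₂ and χ an orthonormal family of irreducible characters of G up to sign, indexed by the linear characters ω of W, with χ_1 = 1, χ_ω = ω on W outside W₁ ∪ W₂, and the induction identity for (1 − φ)(1 − ψ). Let θ be a class function of G vanishing at every element of W outside W₁ ∪ W₂. For linear characters φ, φ' of W trivial on W₂ and ψ, ψ' trivial on W₁, the inner products a(ω) = ⟨θ, χ ω⟩ satisfy a(φψ) + a(φ'ψ') = a(φψ') + a(φ'ψ). -/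
theorem result {G : Type*} [Group G] [Fintype G] (W₁ W₂ : Subgroup G) (hW : Cfsg.IsSelfNormalizingCyclic W₁ W₂) (χ : (↥(W₁ ⊔ W₂) →* ℂˣ) → (G → ℂ)) (hχ : Cfsg.IsCyclicTIFamily W₁ W₂ χ) (θ : G → ℂ) (hθ : Cfsg.IsClassFunction G θ) (hθV : ∀ w : ↥(W₁ ⊔ W₂), (w : G) ∉ W₁ → (w : G) ∉ W₂ → θ w = 0) (φ φ' ψ ψ' : ↥(W₁ ⊔ W₂) →* ℂˣ) (hφ₂ : ∀ w : ↥(W₁ ⊔ W₂), (w : G) ∈ W₂ → φ w = 1 ∧ φ' w = 1) (hψ₁ : ∀ w : ↥(W₁ ⊔ W₂), (w : G) ∈ W₁ → ψ w = 1 ∧ ψ' w = 1) : Cfsg.classInner θ (χ (φ * ψ)) + Cfsg.classInner θ (χ (φ' * ψ')) = Cfsg.classInner θ (χ (φ * ψ')) + Cfsg.classInner θ (χ (φ' * ψ)) := by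
  have d := dp_of_selfNormalizing hW
  obtain ⟨i, rfl⟩ := (d.hm_trivial2 φ).mp fun w hw => (hφ₂ w hw).1
  obtain ⟨i', rfl⟩ := (d.hm_trivial2 φ').mp fun w hw => (hφ₂ w hw).2
  obtain ⟨j, rfl⟩ := (d.hm_trivial1 ψ).mp fun w hw => (hψ₁ w hw).1
  obtain ⟨j', rfl⟩ := (d.hm_trivial1 ψ').mp fun w hw => (hψ₁ w hw).2
  simp only [d.hm_mul, mul_one, one_mul, ← ip_top]
  exact (cycFam_of_family hW hχ).ip_exchange (mem_CF_top.mpr hθ)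
    (fun x hx => hθV ⟨x, hx.1⟩ (mem_cycV.mp hx).2.1 (mem_cycV.mp hx).2.2) i i' j j'

end Cfsg.Agent.S1506
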