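import Cfsg.Statements.S1507
import Cfsg.Agent.ODDC.CycBridge

set_option autoImplicit false
open Cfsg
open CL.PF CL.BG

namespace Cfsg.Agent.S1507

open Classical in
/-- Let W₁, W₂ ≤ G form a self-normalising cyclic subgroup W = W₁ ⊔ W₂ of odd order with Nat.card W₁ < Nat.card W₂, and χ an orthonormal family of irreducible characters of G up to sign, indexed by the linear characters ω of W, with χ_1 = 1, χ_ω = ω on W outside W₁ ∪ W₂, and the induction identity for (1 − φ)(1 − ψ). Let θ be a class function of G vanishing on W outside W₁ ∪ W₂, and suppose fewer than 2 · Nat.card W₁ linear characters ω of W have ⟨θ, χ ω⟩ ≠ 0. Then one of: all ⟨θ, χ ω⟩ vanish; or there are ψ₀ and a with ⟨θ, χ ω⟩ = a when ω ψ₀⁻¹ is trivial on W₂ and 0 otherwise; or there are φ₀ and a with ⟨θ, χ ω⟩ = a when ω φ₀⁻¹ is trivial on W₁ and 0 otherwise. -/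
theorem result {G : Type*} [Group G] [Fintype G] (W₁ W₂ : Subgroup G) (hW : Cfsg.IsSelfNormalizingCyclic W₁ W₂) (hodd : Odd (Nat.card ↥(W₁ ⊔ W₂))) (χ : (↥(W₁ ⊔ W₂) →* ℂˣ) → (G → ℂ)) (hχ : Cfsg.IsCyclicTIFamily W₁ W₂ χ) (hlt : Nat.card W₁ < Nat.card W₂) (θ : G → ℂ) (hθ : Cfsg.IsClassFunction G θ) (hθV : ∀ w : ↥(W₁ ⊔ W₂), (w : G) ∉ W₁ → (w : G) ∉ W₂ → θ w = 0) (hfew : Nat.card {ω : ↥(W₁ ⊔ W₂) →* ℂˣ // Cfsg.classInner θ (χ ω) ≠ 0} < 2 * Nat.card W₁) : (∀ ω, Cfsg.classInner θ (χ ω) = 0) ∨ (∃ (ψ₀ : ↥(W₁ ⊔ W₂) →* ℂˣ) (a : ℂ), ∀ ω, Cfsg.classInner θ (χ ω) = if (∀ w : ↥(W₁ ⊔ W₂), (w : G) ∈ W₂ → (ω * ψ₀⁻¹) w = 1) then a else 0) ∨ (∃ (φ₀ : ↥(W₁ ⊔ W₂) →* ℂˣ) (a : ℂ), ∀ ω, Cfsg.classInner θ (χ ω) = if (∀ w : ↥(W₁ ⊔ W₂), (w : G) ∈ W₁ → (ω * φ₀⁻¹) w = 1) then a else 0) := by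
  have h := CycTI.of_selfNormalizing hW hodd
  have d := h.toDP
  have f := cycFam_of_family hW hχ
  by_cases h0 : ∀ ω, Cfsg.classInner θ (χ ω) = 0
  · exact Or.inl h0
  push Not at h0
  obtain ⟨ω₀, h0⟩ := h0
  obtain ⟨i0, j0, rfl⟩ := d.hm_surj ω₀
  rw [← ip_top] at h0
  have hlt' : famNC ⊤ (fun i j => χ (d.hm i j)) θ < 2 * min (Nat.card W₁) (Nat.card W₂) := by
    rw [min_eq_left hlt.le]
    refine lt_of_le_of_lt ?_ hfew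
    rw [famNC, ← Nat.card_eq_finsetCard]
    refine Nat.card_le_card_of_injective (fun p => ⟨d.hm p.1.1 p.1.2, by
      simpa [ip_top] using p.2⟩) fun p q e => ?_
    have := d.hm_inj.mp (congrArg Subtype.val e)
    exact Subtype.ext (Prod.ext this.1 this.2)
  rcases f.small_NC (mem_CF_top.mpr hθ)
    (fun x hx => hθV ⟨x, hx.1⟩ (mem_cycV.mp hx).2.1 (mem_cycV.mp hx).2.2) h.two_min_le hlt' h0
    with H | H
  · refine Or.inr (Or.inl ⟨d.hm i0 j0, ip ⊤ θ (χ (d.hm i0 j0)), fun ω => ?_⟩)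
    obtain ⟨i, j, rfl⟩ := d.hm_surj ω
    rw [← ip_top, H, d.hm_inv, d.hm_mul]
    exact if_congr (by rw [d.hm_trivial2_iff, mul_inv_eq_one]) rfl rfl
  · refine Or.inr (Or.inr ⟨d.hm i0 j0, ip ⊤ θ (χ (d.hm i0 j0)), fun ω => ?_⟩)
    obtain ⟨i, j, rfl⟩ := d.hm_surj ω
    rw [← ip_top, H, d.hm_inv, d.hm_mul]
    exact if_congr (by rw [d.hm_trivial1_iff, mul_inv_eq_one]) rfl rfl

end Cfsg.Agent.S1507
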