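import Cfsg.Statements.S1510
import Cfsg.Agent.ODDC.CycBridge

set_option autoImplicit false
open Cfsg
open CL.PF CL.BG

namespace Cfsg.Agent.S1510

/-- Let L be a finite group with a normal subgroup K and a nontrivial cyclic subgroup W₁ of order coprime to its index, K ⊓ W₁ = ⊥ and K ⊔ W₁ = ⊤; let W₂ ≠ ⊥ be a cyclic subgroup of K with K ⊓ C_L(x) = W₂ for every non-identity x ∈ W₁, and suppose W₁ ⊔ W₂ has odd order. Then (W₁, W₂) is a self-normalising cyclic pair in L. -/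
theorem result {L : Type*} [Group L] [Fintype L] (K W₁ W₂ : Subgroup L) [hK : K.Normal] (hKW₁ : K ⊓ W₁ = ⊥) (hKW₁' : K ⊔ W₁ = ⊤) (hW₁ : W₁ ≠ ⊥) (hW₁c : IsCyclic W₁) (hHall : Nat.Coprime (Nat.card W₁) W₁.index) (hW₂ : W₂ ≠ ⊥) (hW₂c : IsCyclic W₂) (hW₂K : W₂ ≤ K) (hC : ∀ x ∈ W₁, x ≠ 1 → K ⊓ Subgroup.centralizer ({x} : Set L) = W₂) (hodd : Odd (Nat.card ↥(W₁ ⊔ W₂))) : Cfsg.IsSelfNormalizingCyclic W₁ W₂ := by
  have h := primeTI_top K W₁ W₂ hKW₁ hKW₁' hW₁ hW₁c hHall hW₂ hW₂c hW₂K hC hodd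
  refine ⟨hW₁, hW₂, h.dp.disj, fun a ha b hb => h.comm12 ha hb, h.cycTI.cyc, fun X hX ⟨x, hx⟩ => ?_⟩
  ext g
  rw [Subgroup.mem_set_normalizer_iff]
  refine ⟨fun H => (h.cycTI.ti.mem_iff x (hX hx) g trivial).mp (hX ((H x).mp hx)),
    fun hg y => ⟨fun hy => by rwa [h.dp.conj_eq hg (hX hy).1], fun hy => ?_⟩⟩
  rw [← h.dp.conj_eq (inv_mem hg) (hX hy).1] at hy
  simpa [mul_assoc] using hy

end Cfsg.Agent.S1510
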