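import Cfsg.Statements.S1511
import Cfsg.Agent.ODDC.CycBridge

set_option autoImplicit false
open Cfsg
open CL.PF CL.BG

namespace Cfsg.Agent.S1511

/-- Let L be a finite group with K normal with complement W₁ ≠ 1 a cyclic Hall subgroup, and W₂ ≠ 1 a cyclic subgroup of K equal to C_K(x) for every non-identity x ∈ W₁, with W₁W₂ of odd order. Then there are a map μ from the linear characters of W = W₁ ⊔ W₂ to irreducible characters of L, injective, and a sign δ(ω) ∈ {1, −1} depending only on the values of ω on W₂, such that: for ω, ω' agreeing on W₂, the function induced to L from ω − ω' equals δ(ω) • (μ ω − μ ω'); μ ω x = δ(ω) ω x for x ∈ W outside W₂; every irreducible character of L not of the form μ ω vanishes on W outside W₂; and μ ω 1 − δ(ω) is an integer multiple of Nat.card W₁. -/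
theorem result {L : Type*} [Group L] [Fintype L] (K W₁ W₂ : Subgroup L) [hK : K.Normal] (hKW₁ : K ⊓ W₁ = ⊥) (hKW₁' : K ⊔ W₁ = ⊤) (hW₁ : W₁ ≠ ⊥) (hW₁c : IsCyclic W₁) (hHall : Nat.Coprime (Nat.card W₁) W₁.index) (hW₂ : W₂ ≠ ⊥) (hW₂c : IsCyclic W₂) (hW₂K : W₂ ≤ K) (hC : ∀ x ∈ W₁, x ≠ 1 → K ⊓ Subgroup.centralizer ({x} : Set L) = W₂) (hodd : Odd (Nat.card ↥(W₁ ⊔ W₂))) : ∃ (μ : (↥(W₁ ⊔ W₂) →* ℂˣ) → (L → ℂ)) (δ : (↥(W₁ ⊔ W₂) →* ℂˣ) → ℂ), Function.Injective μ ∧ (∀ ω, Cfsg.IsIrrCharacter L (μ ω)) ∧ (∀ ω, δ ω = 1 ∨ δ ω = -1) ∧ (∀ ω ω' : ↥(W₁ ⊔ W₂) →* ℂˣ, (∀ w : ↥(W₁ ⊔ W₂), (w : L) ∈ W₂ → ω w = ω' w) → δ ω = δ ω' ∧ Cfsg.indFun (W₁ ⊔ W₂) (fun w => (ω w : ℂ) - (ω' w : ℂ)) = δ ω • (μ ω - μ ω')) ∧ (∀ ω, ∀ w : ↥(W₁ ⊔ W₂), (w : L) ∉ W₂ → μ ω w = δ ω * (ω w : ℂ)) ∧ (∀ θ : L → ℂ, Cfsg.IsIrrCharacter L θ → (∀ ω, θ ≠ μ ω) → ∀ w : ↥(W₁ ⊔ W₂), (w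 : L) ∉ W₂ → θ w = 0) ∧ (∀ ω, ∃ n : ℤ, μ ω 1 - δ ω = n * (Nat.card W₁ : ℂ)) := by
  have h := primeTI_top K W₁ W₂ hKW₁ hKW₁' hW₁ hW₁c hHall hW₂ hW₂c hW₂K hC hodd
  have d := h.dp
  choose I J hIJ using d.hm_surj
  have hv : ∀ ω (w : ↥(W₁ ⊔ W₂)), (ω w : ℂ) = om (I ω) (J ω) w := fun ω w => by
    rw [← d.hm_apply, ← hIJ]
  refine ⟨fun ω => h.mu2 (I ω) (J ω), fun ω => h.delta (J ω), fun ω ω' e => ?_,
    fun ω => mem_Irr_top.mp (h.mu2_mem_Irr _ _), fun ω => ?_, fun ω ω' e => ?_,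
    fun ω w hw => ?_, fun θ hθ hne w hw => ?_, fun ω => ?_⟩
  · rw [hIJ ω, hIJ ω', d.hm_inj]; exact h.mu2_inj.mp e
  · rcases h.delta_sign (J ω) with e | e <;> simp [e]
  · have : J ω = J ω' := Dual.ext fun x hx => by
      rw [← d.om_of_mem2 (I ω) _ hx, ← d.om_of_mem2 (I ω') _ hx, ← hv ω ⟨x, d.le2 hx⟩,
        ← hv ω' ⟨x, d.le2 hx⟩, e _ hx]
    refine ⟨by simp only [this], ?_⟩
    simp only [hv, ← this, ← h.ind_sub, ind_top_eq_indFun, Pi.sub_apply]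
  · simp only [hv, h.mu2_apply _ _ w.2 hw]
  · refine h.not_mu2_vanish (mem_Irr_top.mpr hθ) (fun i j => ?_) w.2 hw
    have := d.hm_inj.mp (hIJ (d.hm i j))
    simpa only [← this.1, ← this.2] using hne (d.hm i j)
  · obtain ⟨n, hn⟩ := h.mu2_one_mod (I ω) (J ω)
    exact ⟨n, by simp only [hn]; ring⟩

end Cfsg.Agent.S1511
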