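import Cfsg.Statements.S1512
import Cfsg.Agent.CHAR.BrauerPerm

set_option autoImplicit false
open Cfsg

namespace Cfsg.Agent.S1512

/-- Let K be a normal subgroup of the finite group L and x a non-identity element whose order is coprime to the order of K, such that K ⊓ C_L(y) = W₂ for every non-identity element y of the cyclic group generated by x. Then the number of conjugacy classes of K mapped to themselves by conjugation by x is at most Nat.card W₂. -/
theorem result {L : Type*} [Group L] [Finite L] (K W₂ : Subgroup L) [hK : K.Normal] (x : L) (hx1 : x ≠ 1) (hx : Nat.Coprime (orderOf x) (Nat.card K)) (hC : ∀ y ∈ Subgroup.zpowers x, y ≠ 1 → K ⊓ Subgroup.centralizer ({y} : Set L) = W₂) : Nat.card {C : ConjClasses K // ConjClasses.map (MulEquiv.toMonoidHom ((MulAut.conjNormal x : MulAut K))) C = C} ≤ Nat.card W₂ := by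
  classical
  obtain ⟨p, hp, hpx⟩ := Nat.exists_prime_and_dvd (mt orderOf_eq_one_iff.mp hx1)
  have := Fact.mk hp
  set y := x ^ (orderOf x / p) with hy
  have hyp : orderOf y = p := orderOf_pow_orderOf_div (orderOf_pos x).ne' hpx
  have hy1 : y ≠ 1 := fun e => hp.one_lt.ne' (by rw [← hyp, e, orderOf_one])
  have hW := hC y (Subgroup.pow_mem _ (Subgroup.mem_zpowers x) _) hy1
  have H : ∀ C : {C : ConjClasses K // ConjClasses.map (MulEquiv.toMonoidHom
      ((MulAut.conjNormal x : MulAut K))) C = C},
      ∃ b : W₂, ∃ h : (b : L) ∈ K, ConjClasses.mk (⟨b, h⟩ : K) = C.1 := by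
    rintro ⟨C, hCx⟩
    have h1 : ∀ (n : ℕ) (k : K), ConjClasses.mk k = C →
        ConjClasses.mk ((MulAut.conjNormal (x ^ n) : MulAut K) k) = C := fun n => by
      induction n with
      | zero => simp
      | succ n ih =>
        intro k hk
        rw [pow_succ', map_mul, MulAut.mul_apply, ← hCx, ← ih k hk]; rfl
    let σ : Equiv.Perm {k : K // ConjClasses.mk k = C} :=
      Equiv.Perm.subtypePerm (MulAut.toPerm K (MulAut.conjNormal y)) fun k =>
        ⟨fun h => by
          have := h1 (orderOf x / p * (p - 1)) _ h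
          rwa [show (MulAut.toPerm K (MulAut.conjNormal y)) k =
              (MulAut.conjNormal y : MulAut K) k from rfl, ← MulAut.mul_apply, ← map_mul, pow_mul,
            ← hy, ← pow_succ, Nat.sub_add_cancel hp.one_le, ← hyp, pow_orderOf_eq_one, map_one,
            MulAut.one_apply] at this, h1 _ k⟩
    have hσ : σ ^ p ^ 1 = 1 := by
      ext k
      simp only [σ, Equiv.Perm.subtypePerm_pow, Equiv.Perm.subtypePerm_apply, ← map_pow, pow_one,
        ← hyp, pow_orderOf_eq_one, map_one, Equiv.Perm.coe_one, id]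
    have := Fintype.ofFinite {k : K // ConjClasses.mk k = C}
    obtain ⟨⟨k, hk⟩, e⟩ := Equiv.Perm.exists_fixed_point_of_prime (p := p) (fun hd => by
      obtain ⟨k, rfl⟩ := ConjClasses.mk_surjective C
      rw [← Nat.card_eq_fintype_card, CL.Char.card_mk_eq] at hd
      exact hp.one_lt.ne' (Nat.eq_one_of_dvd_coprimes hx hpx
        (hd.trans (Dvd.intro _ (CL.Char.card_conj_mul_card_centralizer k))))) hσ
    have e' : y * k * y⁻¹ = k := congrArg (fun t => ((t.1 : K) : L)) e
    exact ⟨⟨k, hW.le ⟨k.2, Subgroup.mem_centralizer_singleton_iff.mpr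
      (mul_inv_eq_iff_eq_mul.mp e').symm⟩⟩, k.2, hk⟩
  choose f hf hf' using H
  exact Nat.card_le_card_of_injective f fun C C' e => Subtype.ext (by
    rw [← hf', ← hf' C']; simp only [e])

end Cfsg.Agent.S1512
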