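import Cfsg.Statements.S1513
import Cfsg.Agent.ODDC.CycBridge

set_option autoImplicit false
open Cfsg
open CL.PF CL.BG

namespace Cfsg.Agent.S1513

/-- Let L be a finite group with K normal with complement W₁ ≠ 1 a cyclic Hall subgroup, and W₂ ≠ 1 a cyclic subgroup of K equal to C_K(x) for every non-identity x ∈ W₁, with W₁W₂ of odd order. For an irreducible character θ of K: if θ is not fixed under conjugation by some element of W₁, then the function induced from θ to L is an irreducible character of L; and the irreducible characters of K fixed by all of W₁ are exactly Nat.card W₂ in number, each inducing to the sum of Nat.card W₁ pairwise distinct irreducible characters of L. -/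
theorem result {L : Type*} [Group L] [Fintype L] (K W₁ W₂ : Subgroup L) [hK : K.Normal] (hKW₁ : K ⊓ W₁ = ⊥) (hKW₁' : K ⊔ W₁ = ⊤) (hW₁ : W₁ ≠ ⊥) (hW₁c : IsCyclic W₁) (hHall : Nat.Coprime (Nat.card W₁) W₁.index) (hW₂ : W₂ ≠ ⊥) (hW₂c : IsCyclic W₂) (hW₂K : W₂ ≤ K) (hC : ∀ x ∈ W₁, x ≠ 1 → K ⊓ Subgroup.centralizer ({x} : Set L) = W₂) (hodd : Odd (Nat.card ↥(W₁ ⊔ W₂))) : (∀ θ : K → ℂ, Cfsg.IsIrrCharacter K θ → (∃ x ∈ W₁, (fun k : K => θ ⟨x * k * x⁻¹, hK.conj_mem (k : L) k.2 x⟩) ≠ θ) → Cfsg.IsIrrCharacter L (Cfsg.indFun K θ)) ∧ Nat.card {θ : Cfsg.IrrCharacter K // ∀ x ∈ W₁, (fun k : K => (θ : K → ℂ) ⟨x * k * x⁻¹, hK.conj_mem (k : L) k.2 x⟩) = θ} = Nat.card W₂ ∧ (∀ θ : K → ℂ, Cfsg.IsIrrCharacter K θ → (∀ x ∈ W₁, (fun k : K => θ ⟨x * k * x⁻¹, hK.conj_mem (k : L) k.2 x⟩) = θ) → ∃ C : Finset (L → ℂ), C.card = Nat.card W₁ ∧ (∀ μ ∈ C, Cfsg.IsIrrCharacter L μ) ∧ Cfsg.indFun K θ = ∑ μ ∈ C, μ) := by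
  classical
  have h := primeTI_top K W₁ W₂ hKW₁ hKW₁' hW₁ hW₁c hHall hW₂ hW₂c hW₂K hC hodd
  obtain ⟨a, ha, ha1⟩ := h.exists_mem_W1
  have hfix : ∀ (θ : K → ℂ) (x : L), (fun k : K => θ ⟨x * k * x⁻¹, hK.conj_mem (k : L) k.2 x⟩) = θ ↔
      cj x (extendByZero K θ) = extendByZero K θ := fun θ x => by
    have e : cj x (extendByZero K θ) =
        extendByZero K (fun k : K => θ ⟨x * k * x⁻¹, hK.conj_mem (k : L) k.2 x⟩) := by
      funext y
      by_cases hy : y ∈ K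
      · rw [cj_apply, ext0_of_mem _ hy, ext0_of_mem]
      · rw [cj_apply, ext0_of_not_mem _ hy, ext0_of_not_mem]
        exact fun h' => hy ((conj_mem_iff_of_mem_normalizer (h.normal.2 trivial) y).mp h')
    rw [e, (ext0_injective K).eq_iff]
  simp only [Ne, hfix, ← ind_top_ext0, ← ext0_mem_Irr (H := K)]
  simp only [← mem_Irr_top]
  refine ⟨fun θ hθ ⟨x, _, hx⟩ => ((h.res_irr_cases hθ).resolve_left ?_).1, ?_, fun θ hθ H => ?_⟩
  · rintro ⟨j, e⟩
    exact hx (by rw [e, h.cj_chi j trivial])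
  · rw [← Dual.natCard h.dp.comm2]
    refine (Nat.card_eq_of_bijective (fun j : Dual W₂ => (⟨⟨fun k : K => h.chi j k,
      (mem_Irr.mp (h.chi_mem_Irr j)).2⟩, fun x _ => ?_⟩ : {θ : IrrCharacter K // ∀ x ∈ W₁,
        cj x (extendByZero K θ) = extendByZero K θ})) ⟨fun j k e => ?_, fun θ => ?_⟩).symm
    · show cj x (extendByZero K fun k : K => h.chi j k) = extendByZero K fun k : K => h.chi j k
      rw [ext0_fun, CF.res_eq (Irr.cf (h.chi_mem_Irr j)), h.cj_chi j trivial]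
    · exact h.chi_inj.mp (CF.ext (Irr.cf (h.chi_mem_Irr j)) (Irr.cf (h.chi_mem_Irr k)) fun y hy =>
        congrFun (congrArg Subtype.val (congrArg Subtype.val e)) (⟨y, hy⟩ : K))
    · obtain ⟨j, e⟩ := h.eq_chi_of_cj (ext0_mem_Irr.mpr θ.1.2) ha ha1 (θ.2 a ha)
      exact ⟨j, Subtype.ext (Subtype.ext (by simp only [← e, ext0_restrict]))⟩
  · obtain ⟨j, e⟩ := h.eq_chi_of_cj hθ ha ha1 (H a ha)
    refine ⟨Finset.univ.image fun i => h.mu2 i j, ?_, fun μ hμ => ?_, ?_⟩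
    · rw [Finset.card_image_of_injective _ fun _ _ e => (h.mu2_inj.mp e).1, Finset.card_univ,
        h.dp.card1]
    · obtain ⟨i, -, rfl⟩ := Finset.mem_image.mp hμ
      exact h.mu2_mem_Irr i j
    · rw [Finset.sum_image fun _ _ _ _ e => (h.mu2_inj.mp e).1, e, h.ind_chi, PrimeTI.mu]

end Cfsg.Agent.S1513
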