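import Cfsg.Statements.S1515
import Cfsg.Agent.ODDC.PF5Top

set_option autoImplicit false
open Cfsg
open CL.PF CL.BG

namespace Cfsg.Agent.S1515

/-- Let (S, τ, R) be a coherence system from L to G, χ ∈ S, and ψ an integer combination of S with ⟨χ, ψ⟩ = ⟨conj χ, ψ⟩ = 0. Let τ₁ be a linear isometry on the integer combinations of χ − ψ and χ − conj χ, with virtual-character values, agreeing with τ on integer multiples of χ − conj χ. Then the sum over α ∈ R χ of the squared absolute values of ⟨τ₁(χ − ψ), α⟩ is at least ⟨χ, χ⟩; and if ⟨τ₁(χ − ψ), τ₁(χ − ψ)⟩ minus that sum is at least ⟨ψ, ψ⟩, then the sum equals ⟨χ, χ⟩ and every ⟨τ₁(χ − ψ), α⟩ with α ∈ R χ is 0 or 1. -/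
theorem result {L : Type*} [Group L] [Fintype L] {G : Type*} [Group G] [Fintype G] (S : Set (L → ℂ)) (τ : (L → ℂ) → (G → ℂ)) (R : (L → ℂ) → Finset (G → ℂ)) (hS : Cfsg.IsCoherenceSystem S τ R) (χ : L → ℂ) (hχ : χ ∈ S) (ψ : L → ℂ) (hψ : ψ ∈ Cfsg.zspan S) (h1 : Cfsg.classInner χ ψ = 0) (h2 : Cfsg.classInner (Cfsg.conjFun χ) ψ = 0) (τ₁ : (L → ℂ) → (G → ℂ)) (hτ₁ : Cfsg.IsLinearIsometryOn (Cfsg.zspan {χ - ψ, χ - Cfsg.conjFun χ}) τ₁) (hagree : ∀ n : ℤ, τ₁ (n • (χ - Cfsg.conjFun χ)) = τ (n • (χ - Cfsg.conjFun χ))) : (Cfsg.classInner χ χ).re ≤ ∑ α ∈ R χ, ‖Cfsg.classInner (τ₁ (χ - ψ)) α‖ ^ 2 ∧ ((Cfsg.classInner ψ ψ).re ≤ (Cfsg.classInner (τ₁ (χ - ψ)) (τ₁ (χ - ψ))).re - ∑ α ∈ R χ, ‖Cfsg.classInner (τ₁ (χ - ψ)) α‖ ^ 2 → (∑ α ∈ R χ, ‖Cfsg.classInner (τ₁ (χ - ψ)) α‖ ^ 2 = (Cfsg.classInner χ χ).re ∧ ∀ α ∈ R χ, Cfsg.classInner (τ₁ (χ - ψ)) α = 0 ∨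 Cfsg.classInner (τ₁ (χ - ψ)) α = 1)) := by
  classical
  have hZ := fun α hα => mem_ZIrr_top.mpr (hS.virtual χ hχ α hα)
  have m1 : χ - ψ ∈ zspan {χ - ψ, χ - conjFun χ} := Submodule.subset_span (by simp)
  have m2 : χ - conjFun χ ∈ zspan {χ - ψ, χ - conjFun χ} := Submodule.subset_span (by simp)
  have hβ := mem_ZIrr_top.mpr (hτ₁.2.2.2 _ m1)
  have e1 := hτ₁.2.2.1 _ m1 _ m2
  have e2 := hτ₁.2.2.1 _ m1 _ m1
  have e3 := hagree 1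
  have e4 := hS.orthogonal χ hχ _ (hS.conj_mem χ hχ) (hS.conj_ne χ hχ).symm
  rw [one_smul, hS.sum_eq χ hχ] at e3
  simp only [← ip_top] at *
  rw [e3] at e1
  simp only [ip_sub_left, ip_sub_right, ip_symm_zero h1, ip_symm_zero h2, h1, e4, sub_zero,
    zero_sub, sub_neg_eq_add] at e1 e2
  have b := re_ip_sum_le_sum_sq hZ hβ
  rw [e1] at b
  refine ⟨b, fun h => ?_⟩
  rw [e2, Complex.add_re] at h
  exact ⟨by linarith, ip_eq_zero_or_one_of_sum_sq_le hZ hβ (by rw [e1]; linarith)⟩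

end Cfsg.Agent.S1515
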