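import Cfsg.Statements.S1522
import Cfsg.Agent.ODDC.PF5Top

set_option autoImplicit false
open Cfsg
open CL.PF CL.BG

namespace Cfsg.Agent.S1522

/-- Let K be a nilpotent normal subgroup of the finite group L of odd order with [K,K] < K < L and L/[K,K] a Frobenius group with kernel K/[K,K] (elements of K outside [K,K] are centralised modulo [K,K] only from inside K); let (S, τ, R) be a coherence system from L to G with S the functions induced from non-principal irreducible characters of K. Let Z be a nontrivial normal subgroup of L contained in the centre of K, and suppose every member of S outside S(Z) is an irreducible character of L. Then S minus S(Z) is the set of irreducible characters χ of L with χ z ≠ χ 1 for some z ∈ Z, and it is coherent. -/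
theorem result {L : Type*} [Group L] [Fintype L] {G : Type*} [Group G] [Fintype G] (K : Subgroup L) [hK : K.Normal] (hsolv : Group.IsSolvable K) (τ : (L → ℂ) → (G → ℂ)) (R : (L → ℂ) → Finset (G → ℂ)) (hS : Cfsg.IsCoherenceSystem (Cfsg.inducedIrrAbove K ⊥) τ R) (hodd : Odd (Nat.card L)) (hnil : Group.IsNilpotent K) (hH₁K : ⁅K, K⁆ < K) (hKL : K < ⊤) (hfrob : ∀ k ∈ K, k ∉ ⁅K, K⁆ → ∀ x : L, x * k * x⁻¹ * k⁻¹ ∈ ⁅K, K⁆ → x ∈ K) (Z : Subgroup L) [Z.Normal] (hZ1 : Z ≠ ⊥) (hZK : Z ≤ K) (hZc : ∀ z ∈ Z, ∀ k ∈ K, z * k = k * z) (hirr : ∀ χ ∈ Cfsg.inducedIrrAbove K ⊥ \ Cfsg.inducedIrrAbove K Z, Cfsg.IsIrrCharacter L χ) : Cfsg.inducedIrrAbove K ⊥ \ Cfsg.inducedIrrAbove K Z = {χ | Cfsg.IsIrrCharacter L χ ∧ ∃ z ∈ Z, χ z ≠ χ 1} ∧ Cfsg.IsCoherent (Cfsg.inducedIrrAbove K ⊥ \ Cfsg.inducedIrrAbove K Z) {1}ᶜ τ := by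
  classical
  obtain ⟨τ', h1, h2, -, -⟩ := exists_subcoherent_seqInd hS
  have nt := fun (X : Subgroup L) [X.Normal] => normalIn_top_of_normal X
  have e : inducedIrrAbove K ⊥ \ inducedIrrAbove K Z = seqIndD K ⊤ Z ⊥ := by
    rw [← coe_seqIndD_top bot_le, ← coe_seqIndD_top hZK]
    ext χ
    simp only [Set.mem_sdiff, Finset.mem_coe, mem_seqIndD_iff_cfker le_top (nt K).2 (nt Z).2,
      mem_seqIndD_iff_cfker le_top (nt K).2 (le_norm_bot _),
      mem_seqIndD_iff_cfker le_top (nt Z).2 (le_norm_bot _)]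
    exact ⟨fun h => ⟨h.1.1, fun e => h.2 ⟨h.1.1, h.1.2.1, e⟩, bot_le⟩,
      fun h => ⟨⟨h.1, fun e => h.2.1 (hZK.trans e), bot_le⟩, fun e => h.2.1 e.2.2⟩⟩
  rw [e] at hirr ⊢
  obtain ⟨a1, a2⟩ := seqIndD_irr_coherence h1 ⟨by rwa [Subgroup.card_top], nt K, nt ⊥, bot_le,
    nilpotent_quo hnil ⊥, by rwa [sup_bot_eq], hKL.ne, fun k hk hk' x _ => by
      rw [sup_bot_eq] at hk' ⊢; exact hfrob k hk hk' x⟩ (nt Z) hZ1 hZK
    (le_cent_iff_forall.mpr hZc) fun χ hχ => mem_Irr_top.mpr (hirr χ hχ)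
  refine ⟨Set.ext fun χ => (a1 χ).trans ?_, h1.isCoherent h2 (seqIndD_subset_C1 hZK _ _)
    (fun _ => seqIndD.star_mem) (seqIndD_nonempty _ (normalIn_bot K)
      fun e => hZ1 (le_bot_iff.mp e)) a2⟩
  rw [Set.mem_ofPred_eq, ← mem_Irr_top]
  refine and_congr_right fun h => ?_
  simp [(Irr.isChar h).le_cfker]

end Cfsg.Agent.S1522
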