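import Cfsg.Statements.S1526
import Cfsg.Agent.ODDC.PF7
import Cfsg.Agent.ODDC.Sibley
import Cfsg.Agent.SOLV.FrobeniusNil

set_option autoImplicit false
open Cfsg

namespace Cfsg.Agent.S1526

open CL.PF CL.BG in
theorem frobKer_nilpotent {G : Type*} [Group G] [Finite G] {K L : Subgroup G}
    (h : FrobKer K L) : Group.IsNilpotent K := by
  have hp := Nat.minFac_prime h.one_lt_relIndex.ne'
  have := Fact.mk hp
  have h1 : (K.relIndex L).minFac ∣ Nat.card L :=
    (Nat.minFac_dvd _).trans (Dvd.intro_left _ (card_mul_relIndex h.normal.1))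
  obtain ⟨x, hx⟩ := exists_prime_orderOf_dvd_card' _ h1
  have hx' : Nat.card (Subgroup.zpowers (x : G)) = (K.relIndex L).minFac := by
    rw [Nat.card_zpowers, Subgroup.orderOf_coe, hx]
  have hle : Subgroup.zpowers (x : G) ≤ L := Subgroup.zpowers_le.mpr x.2
  have hco : (Nat.card K).Coprime (K.relIndex L).minFac := by
    refine Nat.Coprime.coprime_dvd_right ((Nat.minFac_dvd _).trans h.relIndex_dvd_card_pred) ?_
    have := h.one_lt_card
    exact (Nat.coprime_self_sub_right this.le).mpr (Nat.coprime_one_right _)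
  have hd : K ⊓ Subgroup.zpowers (x : G) = ⊥ :=
    (Subgroup.disjoint_of_coprime_natCard (by rwa [hx'])).eq_bot
  refine CL.Frob.isNilpotent_of_fpf (hle.trans h.normal.2) (fun e => ?_) fun y hy hy1 => ?_
  · rw [e, Subgroup.card_bot] at hx'
    exact hp.one_lt.ne hx'
  · rw [eq_bot_iff]
    rintro k ⟨hk, hc⟩
    by_contra hk1
    have : y ∈ K ⊓ Subgroup.zpowers (x : G) := ⟨h.cent k hk hk1 ⟨hle hy,
      Subgroup.mem_centralizer_singleton_iff.mpr
        (Subgroup.mem_centralizer_singleton_iff.mp hc).symm⟩, hy⟩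
    rw [hd] at this
    exact hy1 this



/-- Let G be a finite group of odd order and (L i, H i), i in a finite index type with at least two elements, pairs of subgroups with H i a nontrivial proper normal subgroup of L i such that every non-identity element of H i has its centraliser within L i contained in H i (L i is a Frobenius group with kernel H i), the orders of the H i pairwise coprime, and the underlying set of each H i a TI-subset of G with normaliser L i. If every non-identity element of G is conjugate to an element of some H i, we reach a contradiction. -/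
theorem result {G : Type*} [Group G] [Finite G] (hodd : Odd (Nat.card G)) {ι : Type*} [Fintype ι] (hι : 2 ≤ Fintype.card ι) (L H : ι → Subgroup G) (hHL : ∀ i, H i < L i) (hH1 : ∀ i, H i ≠ ⊥) (hHn : ∀ i, ∀ x ∈ L i, ∀ h ∈ H i, x * h * x⁻¹ ∈ H i) (hfrob : ∀ i, ∀ h ∈ H i, h ≠ 1 → L i ⊓ Subgroup.centralizer ({h} : Set G) ≤ H i) (hcop : ∀ i j, i ≠ j → Nat.Coprime (Nat.card (H i)) (Nat.card (H j))) (hTI : ∀ i, Cfsg.IsTISubset (H i : Set G) ∧ Subgroup.normalizer (H i : Set G) = L i) (hcover : ∀ g : G, g ≠ 1 → ∃ i, ∃ x : G, x * g * x⁻¹ ∈ H i) : False := by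
  classical
  have : Nonempty ι := Fintype.card_pos_iff.mp (by omega)
  have hF : ∀ i, CL.PF.FrobKer (H i) (L i) := fun i =>
    ⟨⟨(hHL i).le, (hTI i).2.ge⟩, hH1 i, (hHL i).ne, hfrob i⟩
  have hN : ∀ i, CL.PF.NormedTIIn (CL.PF.sharp (H i)) ⊤ (L i) := fun i => by
    obtain ⟨⟨x, hx⟩, hx1⟩ := Subgroup.ne_bot_iff_exists_ne_one.mp (hH1 i)
    refine ⟨⟨x, hx, fun e => hx1 (Subtype.ext e)⟩, fun y hy => (hHL i).le hy.1, le_top,
      fun a ha g _ => ⟨fun h => ?_, fun hg => ⟨hHn i g hg a ha.1, fun e => ha.2 ?_⟩⟩⟩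
    · by_contra hg
      exact ha.2 ((hTI i).1 g (by rwa [(hTI i).2]) a ha.1 h.1)
    · exact conj_eq_one_iff.mp e
  have hD := fun i => (hN i).dadeHypothesis (fun h => h.2 rfl)
  have hnil := fun i => frobKer_nilpotent (hF i)
  refine CL.PF.no_coherent_Frobenius_partition hodd hF (fun i => inferInstance) hD
    (fun i => (CL.PF.Sibley_coherence_Frobenius (CL.PF.odd_card_subgroup hodd _) (hnil i) (hN i)
      (hF i)).congr fun α hα => CL.PF.dade_eq_ind (hD i) (fun _ _ => rfl)
        (CL.PF.ZS0.on_of_seqIndT (hF i).normal.2 (CL.PF.seqIndD_subset_seqIndT _ _ _ _) hα))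
    (fun i j hij => ?_) hcop fun g hg => ?_
  · rw [Set.disjoint_left]
    intro g hi hj
    obtain ⟨y, a, ha, rfl⟩ := (CL.PF.mem_dsupp_of_bot fun _ _ => rfl).mp hi
    obtain ⟨z, b, hb, e⟩ := (CL.PF.mem_dsupp_of_bot fun _ _ => rfl).mp hj
    have h1 : orderOf a = orderOf b := by
      rw [← (MulAut.conj y).orderOf_eq a, ← (MulAut.conj z).orderOf_eq b, MulAut.conj_apply,
        MulAut.conj_apply, e]
    have h2 : orderOf a ∣ Nat.card (H i) := Subgroup.orderOf_dvd_natCard _ ha.1
    have h3 : orderOf a ∣ Nat.card (H j) := h1 ▸ Subgroup.orderOf_dvd_natCard _ hb.1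
    exact ha.2 (orderOf_eq_one_iff.mp (Nat.eq_one_of_dvd_coprimes (hcop i j hij) h2 h3))
  · obtain ⟨i, x, hx⟩ := hcover g hg
    exact ⟨i, (CL.PF.mem_dsupp_of_bot fun _ _ => rfl).mpr
      ⟨x⁻¹, _, ⟨hx, fun e => hg (conj_eq_one_iff.mp e)⟩, by group⟩⟩

end Cfsg.Agent.S1526
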