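import Cfsg.Statements.S1527
import Cfsg.Agent.ODDC.TICount

set_option autoImplicit false
open Cfsg

namespace Cfsg.Agent.S1527

/-- Let G be a finite group and H i (i in a finite index type) subgroups of pairwise coprime orders, each of whose underlying sets is a TI-subset of G, such that every non-identity element of G is conjugate to an element of some H i. Then Nat.card G − 1 = Σ_i [G : N_G(H i)] · (Nat.card (H i) − 1). -/
theorem result {G : Type*} [Group G] [Finite G] {ι : Type*} [Fintype ι] (H : ι → Subgroup G) (hcop : ∀ i j, i ≠ j → Nat.Coprime (Nat.card (H i)) (Nat.card (H j))) (hTI : ∀ i, Cfsg.IsTISubset (H i : Set G)) (hcover : ∀ g : G, g ≠ 1 → ∃ i, ∃ x : G, x * g * x⁻¹ ∈ H i) : Nat.card G - 1 = ∑ i, (Subgroup.normalizer (H i : Set G)).index * (Nat.card (H i) - 1) := by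
  classical
  simp_rw [← fun i => CL.TI.ncard_conjugatesOfSet_subgroup (hTI i)]
  have h1 := CL.TI.ncard_sdiff_one (⊤ : Subgroup G)
  rw [Subgroup.card_top] at h1
  rw [← h1]
  have hU : ((⊤ : Subgroup G) : Set G) \ {1} =
      ⋃ i, Group.conjugatesOfSet ((H i : Set G) \ {1}) := by
    ext g
    simp only [Subgroup.coe_top, Set.mem_sdiff, Set.mem_univ, Set.mem_singleton_iff, true_and,
      Set.mem_iUnion, CL.TI.mem_conjugatesOfSet_iff', SetLike.mem_coe, CL.TI.conj_eq_one_iff']
    constructor
    · intro hg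
      obtain ⟨i, x, hx⟩ := hcover g hg
      exact ⟨i, x, hx, hg⟩
    · rintro ⟨i, x, -, hg⟩
      exact hg
  rw [hU, Set.ncard_iUnion_of_finite (fun i => Set.toFinite _), finsum_eq_sum_of_fintype]
  intro i j hij
  rw [Function.onFun, Set.disjoint_left]
  intro g hi hj
  simp only [Set.mem_sdiff, Set.mem_singleton_iff, CL.TI.mem_conjugatesOfSet_iff',
    SetLike.mem_coe, CL.TI.conj_eq_one_iff'] at hi hj
  obtain ⟨x, hx, hg⟩ := hi
  obtain ⟨y, hy, -⟩ := hj
  have e1 : orderOf g ∣ Nat.card (H i) := by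
    have := Subgroup.orderOf_dvd_natCard _ hx
    rwa [show x * g * x⁻¹ = MulAut.conj x g from rfl, MulEquiv.orderOf_eq] at this
  have e2 : orderOf g ∣ Nat.card (H j) := by
    have := Subgroup.orderOf_dvd_natCard _ hy
    rwa [show y * g * y⁻¹ = MulAut.conj y g from rfl, MulEquiv.orderOf_eq] at this
  have := Nat.dvd_gcd e1 e2
  rw [hcop i j hij, Nat.dvd_one, orderOf_eq_one_iff] at this
  exact hg this

end Cfsg.Agent.S1527
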