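import Cfsg.Statements.S1528
import Cfsg.Agent.ODDC.PF5Top

set_option autoImplicit false
open Cfsg
open CL.PF CL.BG

namespace Cfsg.Agent.S1528

/-- Let N be a normal subgroup of the finite group G such that every element of G commuting with a non-identity element of N lies in N. If χ is an irreducible character of G with χ n ≠ χ 1 for some n ∈ N, then χ is the function induced from some irreducible character of N. -/
theorem result {G : Type*} [Group G] [Fintype G] (N : Subgroup G) [N.Normal] (hC : ∀ n ∈ N, n ≠ 1 → Subgroup.centralizer ({n} : Set G) ≤ N) (χ : G → ℂ) (hχ : Cfsg.IsIrrCharacter G χ) (hker : ∃ n ∈ N, χ n ≠ χ 1) : ∃ φ : N → ℂ, Cfsg.IsIrrCharacter N φ ∧ χ = Cfsg.indFun N φ := by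
  by_cases hN : N = ⊤
  · subst hN
    exact ⟨fun x => χ x, (mem_Irr.mp (mem_Irr_top.mpr hχ)).2, by
      rw [← ind_top_eq_indFun, CF.ind_self (Irr.cf (mem_Irr_top.mpr hχ))]⟩
  obtain ⟨n, hn, hn1⟩ := hker
  obtain ⟨θ, h1, -, rfl⟩ := FrobKer.exists_ind ⟨normalIn_top_of_normal N,
    fun e => hn1 (by rw [show n = 1 from Subgroup.mem_bot.mp (e ▸ hn)]), hN,
    fun x hx h1 => inf_le_right.trans (hC x hx h1)⟩ (mem_Irr_top.mpr hχ)
    fun e => hn1 (apply_of_mem_cfker (e hn))
  exact ⟨fun x => θ x, (mem_Irr.mp h1).2, ind_top_eq_indFun N θ⟩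

end Cfsg.Agent.S1528
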