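import Cfsg.Statements.S1529
import Cfsg.Agent.ODDC.PF5Top

set_option autoImplicit false
open Cfsg
open CL.PF CL.BG

namespace Cfsg.Agent.S1529

/-- Let N be a subgroup of the finite group G, S a set of irreducible characters of N with at least two members, and τ₁ a linear isometry on the integer combinations of S with virtual-character values such that τ₁ α vanishes at 1 whenever α ∈ ℤ[S] does. Then there is ε ∈ {1, −1} such that ε • τ₁ χ is an irreducible character of G for every χ ∈ S, and distinct members of S give distinct characters. -/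
theorem result {G : Type*} [Group G] [Fintype G] (N : Subgroup G) [Fintype N] (S : Set (N → ℂ)) (hirr : ∀ χ ∈ S, Cfsg.IsIrrCharacter N χ) (htwo : ∃ χ ∈ S, ∃ ψ ∈ S, χ ≠ ψ) (τ₁ : (N → ℂ) → (G → ℂ)) (hτ₁ : Cfsg.IsLinearIsometryOn (Cfsg.zspan S) τ₁) (h0 : ∀ α ∈ Cfsg.zspan S, α 1 = 0 → τ₁ α 1 = 0) : ∃ ε : ℂ, (ε = 1 ∨ ε = -1) ∧ (∀ χ ∈ S, Cfsg.IsIrrCharacter G (ε • τ₁ χ)) ∧ (∀ χ ∈ S, ∀ ψ ∈ S, τ₁ χ = τ₁ ψ → χ = ψ) := by
  lift S to Finset (N → ℂ) using finite_of_irr hirr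
  obtain ⟨ν, h1, h2⟩ := exists_isoOn_of_isometry (E := ZS S) hτ₁
  have hν : CoherentWith ⊤ ⊤ S ν ν := ⟨h1, fun _ _ => rfl⟩
  have hi := fun χ hχ => mem_Irr_top.mpr (hirr χ hχ)
  obtain ⟨χ₀, h0', -⟩ := htwo
  obtain ⟨ε, μ, hε, hμ, e⟩ := (hν.isDirr h0' (hi _ h0')).exists_sign
  refine ⟨ε, by exact_mod_cast hε, fun χ hχ => ?_, fun χ hχ ψ hψ e => hν.injOn
    (fun χ hχ => Irr.cf (hi χ hχ)) (ZS.of_mem hχ) (ZS.of_mem hψ)
    (by rw [h2 _ (ZS.of_mem hχ), h2 _ (ZS.of_mem hψ), e])⟩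
  rw [← h2 _ (ZS.of_mem hχ), ← mem_Irr_top]
  refine ((hν.isDirr hχ (hi _ hχ)).sign_smul hε).mem_Irr_of_pos ?_
  have := hν.cross_one (fun χ hχ => Irr.isChar (hi χ hχ))
    (fun α hα => by rw [h2 α hα.1, h0 α hα.1 hα.2]) (ZS.of_mem hχ) (ZS.of_mem h0')
  obtain ⟨a, ha0, ha⟩ := Irr.exists_pos_one (hi _ h0')
  obtain ⟨b, hb0, hb⟩ := Irr.exists_pos_one (hi _ hχ)
  obtain ⟨c, hc0, hc⟩ := Irr.exists_pos_one hμ
  have e2 : (a : ℂ) * ((ε : ℂ) • ν χ) 1 = (b * c : ℕ) := by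
    rw [e, ha, hb, Pi.smul_apply, hc] at this
    rcases hε with rfl | rfl <;> simp at this ⊢ <;> simp [this]
  have e3 := congrArg Complex.re e2
  simp only [Complex.mul_re, Complex.natCast_re, Complex.natCast_im, zero_mul, sub_zero] at e3
  exact (mul_pos_iff_of_pos_left (a := (a : ℝ)) (by positivity)).mp (by rw [e3]; positivity)

end Cfsg.Agent.S1529
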