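import Cfsg.Statements.S1530
import Cfsg.Agent.ODDC.PF5Top

set_option autoImplicit false
open Cfsg
open CL.PF CL.BG

namespace Cfsg.Agent.S1530

/-- Let N be a subgroup of the finite group G and S₀ a finite set of irreducible characters of N, χ an irreducible character of N not in S₀, with degrees ξ 1 = d ξ. Let τ be a linear isometry on the integer combinations of S₀ ∪ {χ} vanishing at 1, with values virtual characters of G vanishing at 1, such that (S₀, N minus 1, τ) is coherent. If some ψ ∈ S₀ has d ψ dividing d χ and 2 · d ψ · d χ < Σ_{ξ ∈ S₀} (d ξ)², then (S₀ ∪ {χ}, N minus 1, τ) is coherent. -/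
theorem result {G : Type*} [Group G] [Fintype G] (N : Subgroup G) [Fintype N] (S₀ : Finset (N → ℂ)) (χ : N → ℂ) (hirr : ∀ ξ ∈ S₀, Cfsg.IsIrrCharacter N ξ) (hχ : Cfsg.IsIrrCharacter N χ) (hχS : χ ∉ S₀) (d : (N → ℂ) → ℕ) (hd : ∀ ξ ∈ insert χ S₀, ξ 1 = (d ξ : ℂ)) (τ : (N → ℂ) → (G → ℂ)) (hτ : Cfsg.IsLinearIsometryOn (Cfsg.zspanOn (↑(insert χ S₀) : Set (N → ℂ)) {1}ᶜ) τ) (hτ1 : ∀ α ∈ Cfsg.zspanOn (↑(insert χ S₀) : Set (N → ℂ)) {1}ᶜ, τ α 1 = 0) (hcoh : Cfsg.IsCoherent (↑S₀ : Set (N → ℂ)) {1}ᶜ τ) (ψ : N → ℂ) (hψ : ψ ∈ S₀) (hdvd : d ψ ∣ d χ) (hlt : 2 * d ψ * d χ < ∑ ξ ∈ S₀, d ξ ^ 2) : Cfsg.IsCoherent (↑(insert χ S₀) : Set (N → ℂ)) {1}ᶜ τ := by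
  rw [Subsingleton.elim (fun a b : N → ℂ => Fintype.decidablePiFintype a b)
    fun a b => Classical.propDecidable (a = b)] at hd hτ hτ1 ⊢
  let _ : DecidableEq (N → ℂ) := fun a b => Classical.propDecidable (a = b)
  obtain ⟨τ', h1, h2⟩ := exists_isoOn_ZS0 hτ
  have hs := Finset.subset_insert χ S₀
  have hi := fun χ hχ => mem_Irr_top.mpr (hirr χ hχ)
  obtain ⟨⟨α, hα, h0⟩, hc⟩ := (isCoherent_iff fun α hα => h2 α (ZS0.mono hs hα)).mp hcoh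
  obtain ⟨a, ha⟩ := hdvd
  have dχ := hd χ (Finset.mem_insert_self _ _)
  refine (isCoherent_iff h2).mpr ⟨⟨α, ZS0.mono hs hα, h0⟩, ?_⟩
  refine feit_extend h1 (fun α hα => by rw [h2 α hα, hτ1 α (mem_zspanOn_compl_one.mpr hα)]) hi
    (mem_Irr_top.mpr hχ) hχS hc hψ (a := a) (by rw [dχ, hd ψ (hs hψ), ha]; push_cast; ring) ?_
  rw [dχ, hd ψ (hs hψ), Finset.sum_congr rfl fun φ hφ => by rw [hd φ (hs hφ)]]
  rw [mul_right_comm] at hlt
  exact_mod_cast hlt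

end Cfsg.Agent.S1530
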