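import Cfsg.Statements.S1531
import Cfsg.Agent.ODDC.PF5Top

set_option autoImplicit false
open Cfsg
open CL.PF CL.BG

namespace Cfsg.Agent.S1531

/-- Let N be a subgroup of the finite group G, S a set of irreducible characters of N, and α a linear isometry on the integer combinations of S vanishing at 1 with values virtual characters of G vanishing at 1. Let X, Y ⊆ S be disjoint, each with at least two members, and σ, τ linear isometries on ℤ[X], ℤ[Y] into virtual characters agreeing with α on the members vanishing at 1. Then ⟨σ χ, τ η⟩ = 0 for χ ∈ X, η ∈ Y; and if for some χ₀ ∈ X, η₀ ∈ Y with degrees c = χ₀ 1, e = η₀ 1 one has α (c • η₀ − e • χ₀) = c • τ η₀ − e • σ χ₀, then (X ∪ Y, N minus 1, α) is coherent. -/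
theorem result {G : Type*} [Group G] [Fintype G] (N : Subgroup G) [Fintype N] (S X Y : Set (N → ℂ)) (hirr : ∀ ξ ∈ S, Cfsg.IsIrrCharacter N ξ) (hXS : X ⊆ S) (hYS : Y ⊆ S) (hXY : Disjoint X Y) (hX2 : ∃ a ∈ X, ∃ b ∈ X, a ≠ b) (hY2 : ∃ a ∈ Y, ∃ b ∈ Y, a ≠ b) (α : (N → ℂ) → (G → ℂ)) (hα : Cfsg.IsLinearIsometryOn (Cfsg.zspanOn S {1}ᶜ) α) (hα1 : ∀ θ ∈ Cfsg.zspanOn S {1}ᶜ, α θ 1 = 0) (σ τ : (N → ℂ) → (G → ℂ)) (hσ : Cfsg.IsLinearIsometryOn (Cfsg.zspan X) σ) (hσα : ∀ θ ∈ Cfsg.zspanOn X {1}ᶜ, σ θ = α θ) (hτ : Cfsg.IsLinearIsometryOn (Cfsg.zspan Y) τ) (hτα : ∀ θ ∈ Cfsg.zspanOn Y {1}ᶜ, τ θ = α θ) : (∀ χ ∈ X, ∀ η ∈ Y, Cfsg.classInner (σ χ) (τ η) = 0) ∧ ((∃ χ₀ ∈ X, ∃ η₀ ∈ Y, α (χ₀ 1 • η₀ - η₀ 1 • χ₀) = χ₀ 1 • τ η₀ - η₀ 1 • σ χ₀) → Cfsg.IsCoherent (X ∪ Y) {1}ᶜ α) := by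
  classical
  lift S to Finset (N → ℂ) using finite_of_irr hirr
  lift X to Finset (N → ℂ) using S.finite_toSet.subset hXS
  lift Y to Finset (N → ℂ) using S.finite_toSet.subset hYS
  have hX : X ⊆ S := hXS
  have hY : Y ⊆ S := hYS
  have hi := fun χ hχ => mem_Irr_top.mpr (hirr χ hχ)
  obtain ⟨τ', h1, h2⟩ := exists_isoOn_ZS0 hα
  obtain ⟨ν₁, a1, a2⟩ := exists_coherentWith_of_isometry (fun β h => h2 β (ZS0.mono hX h)) hσ hσα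
  obtain ⟨ν₂, b1, b2⟩ := exists_coherentWith_of_isometry (fun β h => h2 β (ZS0.mono hY h)) hτ hτα
  have other : ∀ {T : Finset (N → ℂ)}, (∃ a ∈ T, ∃ b ∈ T, a ≠ b) → ∀ χ, ∃ a ∈ T, χ ≠ a :=
    fun ⟨a, ha, b, hb, e⟩ χ => (eq_or_ne χ a).elim (fun e' => ⟨b, hb, e' ▸ e⟩) fun e' => ⟨a, ha, e'⟩
  have hd : ∀ a ∈ X, ∀ b ∈ Y, a ≠ b := fun a ha b hb e => Set.disjoint_left.mp hXY ha (e ▸ hb)
  have o : ∀ χ ∈ X, ∀ η ∈ Y, ip ⊤ (ν₁ χ) (ν₂ η) = 0 := fun χ hχ η hη => by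
    obtain ⟨χ', hχ', n1⟩ := other hX2 χ
    obtain ⟨η', hη', n2⟩ := other hY2 η
    exact CoherentWith.ortho_of_irr h1 (fun β h => by
      rw [h2 β h, hα1 β (mem_zspanOn_compl_one.mpr h)]) hX hY a1 b1 hχ hχ' hη hη' (hi _ (hX hχ))
      (hi _ (hX hχ')) (hi _ (hY hη)) (hi _ (hY hη')) n1 n2 (hd _ hχ _ hη) (hd _ hχ _ hη')
      (hd _ hχ' _ hη) (hd _ hχ' _ hη')
  refine ⟨fun χ hχ η hη => by rw [← a2 _ (ZS.of_mem hχ), ← b2 _ (ZS.of_mem hη), ← ip_top, o χ hχ η hη],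
    fun ⟨χ, hχ, η, hη, e⟩ => ?_⟩
  have hc := fun χ hχ => Irr.isChar (hi χ hχ)
  have hU := Finset.union_subset hY hX
  have m := ZS0.cross_mem (fun φ h => hc φ (hU h)) (ZS.of_mem (Finset.mem_union_left X hη))
    (ZS.of_mem (Finset.mem_union_right Y hχ))
  obtain ⟨ν, h3, -⟩ := glue_coherentWith (fun φ h => hc φ (hY h)) (fun φ h => hc φ (hX h)) b1 a1
    (fun a ha b hb => by
      rw [ip_symm_zero (o b hb a ha), Irr.ip_of_ne (hi _ (hY ha)) (hi _ (hX hb)) (hd b hb a ha).symm])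
    (Submodule.smul_mem _ (χ 1) (mem_spanC_of_mem hη))
    (Submodule.smul_mem _ (η 1) (mem_spanC_of_mem hχ)) (mul_comm _ _)
    (mul_ne_zero (Irr.one_ne_zero (hi _ (hX hχ))) (Irr.one_ne_zero (hi _ (hY hη))))
    (by rw [h2 _ (ZS0.mono hU m), e, map_smul, map_smul, a2 _ (ZS.of_mem hχ), b2 _ (ZS.of_mem hη)])
  rw [Set.union_comm, ← Finset.coe_union]
  exact (isCoherent_iff fun β h => h2 β (ZS0.mono hU h)).mpr
    ⟨⟨_, m, cross_ne_zero (hi _ (hY hη)) (hi _ (hX hχ)) (hd _ hχ _ hη).symm⟩, ν, by convert h3⟩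

end Cfsg.Agent.S1531
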