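import Cfsg.Statements.S1532
import Cfsg.Agent.CHAR.FeitSibley
import Cfsg.Agent.CHAR.BrauerPerm

set_option autoImplicit false
open Cfsg

namespace Cfsg.Agent.S1532

/-- Let G be a finite group, p an odd prime and P a Sylow p-subgroup that is non-abelian, whose underlying set is a TI-subset of G, with P properly contained in its set normaliser N and C_G(x) ≤ P for every non-identity x ∈ P. Let Z be a nontrivial subgroup of the centre of P normalised by N. Then the set of irreducible characters χ of N with χ z ≠ χ 1 for some z ∈ Z is coherent for the map induced by induction from N to G. -/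
theorem result {G : Type*} [Group G] [Fintype G] (p : ℕ) [Fact p.Prime] (hp : p ≠ 2) (P : Sylow p G) (hna : ¬ IsMulCommutative (P : Subgroup G)) (hTI : Cfsg.IsTISubset ((P : Subgroup G) : Set G)) (hlt : (P : Subgroup G) < Subgroup.normalizer ((P : Subgroup G) : Set G)) (hC : ∀ k ∈ (P : Subgroup G), k ≠ 1 → Subgroup.centralizer ({k} : Set G) ≤ (P : Subgroup G)) [Fintype ↥(Subgroup.normalizer ((P : Subgroup G) : Set G))] (Z : Subgroup G) (hZ1 : Z ≠ ⊥) (hZP : ∀ z ∈ Z, z ∈ (P : Subgroup G) ∧ ∀ y ∈ (P : Subgroup G), z * y = y * z) (hZn : ∀ x ∈ Subgroup.normalizer ((P : Subgroup G) : Set G), ∀ z ∈ Z, x * z * x⁻¹ ∈ Z) : Cfsg.IsCoherent {χ : ↥(Subgroup.normalizer ((P : Subgroup G) : Set G)) → ℂ | Cfsg.IsIrrCharacter ↥(Subgroup.normalizer ((P : Subgroup G) : Set G)) χ ∧ ∃ z : ↥(Subgroup.normalizer ((P : Subgroup G) : Set G)), (z : G) ∈ Z ∧ χ z ≠ χ 1} {1}ᶜ (fun α => Cfsg.indFun (Subgroup.normalizer ((P : Subgroup G) : Set G)) α)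 := by
  have hpp : p.Prime := Fact.out
  let N := Subgroup.normalizer ((P : Subgroup G) : Set G)
  have hN : N = Subgroup.normalizer ((P : Subgroup G) : Set G) := rfl
  obtain ⟨n, hn⟩ := IsPGroup.iff_card.1 P.2
  have hP1 : (P : Subgroup G) ≠ ⊥ := fun h => hZ1 ((Subgroup.eq_bot_iff_forall _).2 fun z hz =>
    Subgroup.mem_bot.1 (h ▸ (hZP z hz).1))
  have hn' : ((P : Subgroup G).subgroupOf N).Normal := Subgroup.normal_in_normalizer
  have hF := CL.Char.fpf_subgroupOf_of_centralizer_le (N := N) hC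
  have hodd : Odd (Nat.card N) := by
    rw [← ((P : Subgroup G).subgroupOf N).card_mul_index,
      Nat.card_congr (Subgroup.subgroupOfEquivOfLe hlt.le).toEquiv, hn]
    refine (hpp.odd_of_ne_two hp).pow.mul (Nat.not_even_iff_odd.1 fun h => hna ⟨⟨fun a b => ?_⟩⟩)
    exact Subtype.ext (congrArg (fun x : (P : Subgroup G).subgroupOf N => ((x : N) : G))
      ((CL.Char.frob_isMulCommutative_of_even hF h).is_comm.comm
        ⟨⟨a, hlt.le a.2⟩, a.2⟩ ⟨⟨b, hlt.le b.2⟩, b.2⟩))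
  have hZ : (Z.subgroupOf N).Normal := ⟨fun z hz x => hZn x x.2 z hz⟩
  have hS : ∀ φ, φ ∈ {χ : N → ℂ | IsIrrCharacter N χ ∧ ∃ z : N, (z : G) ∈ Z ∧ χ z ≠ χ 1} ↔
      ∃ χ ∈ CL.Char.irrBetween (Z.subgroupOf N) ⊥, χ.1 = φ := fun φ => by
    constructor
    · rintro ⟨h, k, hk, hk'⟩
      exact ⟨⟨φ, h⟩, CL.Char.mem_irrBetween.2 ⟨fun n hn => by rw [Subgroup.mem_bot.1 hn],
        fun h => hk' (h k hk)⟩, rfl⟩
    · rintro ⟨χ, hχ, rfl⟩
      exact ⟨χ.2, by simpa [Subgroup.mem_subgroupOf] using (CL.Char.mem_irrBetween.1 hχ).2⟩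
  rcases CL.Char.feit_sibley hN.symm hP1 P.2.isNilpotent hTI hlt hC (fun _ => Iff.rfl)
    (fun he => by
      obtain ⟨-, q, -, h⟩ := CL.Char.feit_sibley_single hN.symm hP1 P.2.isNilpotent hC he
      exact hna h.1) with ⟨⟨m, hm⟩, -, h⟩ | h
  · rcases m with _ | m
    · exact absurd (Subgroup.card_eq_one.1 hm) hP1
    · exact absurd ((Nat.prime_dvd_prime_iff_eq Nat.prime_two hpp).1 (Nat.prime_two.dvd_of_dvd_pow
        (hn ▸ hm ▸ dvd_pow_self 2 m.succ_ne_zero))).symm hp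
  refine (CL.Char.Coh.of_isCoherent h.1 fun χ hχ => ?_).isCoherent
    (CL.Char.isLinearIsometryOn_indFun (N := N) (A := ((P : Subgroup G) : Set G)) hTI ?_).1 hS ?_
  · obtain ⟨h, z, hz, hz'⟩ := (hS _).2 ⟨χ, hχ, rfl⟩
    exact ⟨h, z, (hZP z hz).1, hz'⟩
  · rintro χ ⟨h, z, hz, hz'⟩
    exact ⟨h.isCharacter.isGen, fun x hx =>
      CL.Char.frob_eq_zero hF h (fun e => hz' (e z (hZP z hz).1)) hx⟩
  · obtain ⟨χ, hχ⟩ : (CL.Char.irrBetween (Z.subgroupOf N) ⊥).Nonempty := by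
      rw [Finset.nonempty_iff_ne_empty]
      intro h
      have h2 := CL.Char.sum_irrBetween (H := Z.subgroupOf N) (B := ⊥) bot_le
      rw [h, Finset.sum_empty, zero_add, Subgroup.relIndex_bot_left,
        Nat.card_congr (Subgroup.subgroupOfEquivOfLe
          fun z hz => hlt.le (hZP z hz).1).toEquiv] at h2
      exact hZ1 (Subgroup.card_eq_one.1 (Nat.eq_of_mul_eq_mul_right
        (Nat.pos_of_ne_zero Subgroup.index_ne_zero_of_finite) (h2.symm.trans (one_mul _).symm)))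
    obtain ⟨h1, h2⟩ := CL.Char.mem_irrBetween.1 hχ
    refine ⟨⟨_, χ.2.conj⟩, CL.Char.mem_irrBetween.2 ⟨fun n hn => congrArg (starRingEnd ℂ) (h1 n hn),
      fun e => h2 fun k hk => (starRingEnd ℂ).injective (e k hk)⟩, χ, hχ, fun e =>
      χ.2.conj_ne_of_odd hodd (fun e => h2 fun k _ => by rw [e]) (congrArg Subtype.val e)⟩

end Cfsg.Agent.S1532
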