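import Cfsg.Statements.S1533
import Cfsg.Agent.CHAR.FeitSibley

set_option autoImplicit false
open Cfsg

namespace Cfsg.Agent.S1533

/-- Let G be a finite group, p an odd prime, and P a nontrivial Sylow p-subgroup whose underlying set is a TI-subset of G, with P properly contained in its set normaliser N and C_G(x) ≤ P for every non-identity x ∈ P. Let S be the set of irreducible characters χ of N with χ x ≠ χ 1 for some x ∈ P. Then either S has exactly one member, P is elementary abelian and Nat.card P = [N:P] + 1; or (S, N minus 1, induction to G) is coherent. -/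
theorem result {G : Type*} [Group G] [Fintype G] (p : ℕ) [Fact p.Prime] (hp : p ≠ 2) (P : Sylow p G) (hP1 : (P : Subgroup G) ≠ ⊥) (hTI : Cfsg.IsTISubset ((P : Subgroup G) : Set G)) (hlt : (P : Subgroup G) < Subgroup.normalizer ((P : Subgroup G) : Set G)) (hC : ∀ k ∈ (P : Subgroup G), k ≠ 1 → Subgroup.centralizer ({k} : Set G) ≤ (P : Subgroup G)) [Fintype ↥(Subgroup.normalizer ((P : Subgroup G) : Set G))] : (Nat.card {χ : ↥(Subgroup.normalizer ((P : Subgroup G) : Set G)) → ℂ // Cfsg.IsIrrCharacter ↥(Subgroup.normalizer ((P : Subgroup G) : Set G)) χ ∧ ∃ x : ↥(Subgroup.normalizer ((P : Subgroup G) : Set G)), (x : G) ∈ (P : Subgroup G) ∧ χ x ≠ χ 1} = 1 ∧ Cfsg.IsElementaryAbelian p (P : Subgroup G) ∧ Nat.card (P : Subgroup G) = ((P : Subgroup G).subgroupOf (Subgroup.normalizer ((P : Subgroup G) : Set G))).index + 1) ∨ Cfsg.IsCoherent {χ : ↥(Subgroup.normalizer ((P : Subgroup G) : Set G)) → ℂ | Cfsg.IsIrrCharacter ↥(Subgroup.normalizer ((P : Subgroup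 G) : Set G)) χ ∧ ∃ x : ↥(Subgroup.normalizer ((P : Subgroup G) : Set G)), (x : G) ∈ (P : Subgroup G) ∧ χ x ≠ χ 1} {1}ᶜ (fun α => Cfsg.indFun (Subgroup.normalizer ((P : Subgroup G) : Set G)) α) := by
  have hpp : p.Prime := Fact.out
  obtain ⟨n, hn⟩ := IsPGroup.iff_card.1 P.2
  have hq : ∀ q : ℕ, q.Prime → q ∣ Nat.card P → q = p := fun q hq h =>
    (Nat.prime_dvd_prime_iff_eq hq hpp).1 (hq.dvd_of_dvd_pow (hn ▸ h))
  obtain ⟨⟨x, hx⟩, hx1⟩ := Subgroup.ne_bot_iff_exists_ne_one.1 hP1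
  by_cases he : Nat.card P = ((P : Subgroup G).subgroupOf
      (Subgroup.normalizer ((P : Subgroup G) : Set G))).index + 1
  · obtain ⟨h1, q, hq', h2⟩ := CL.Char.feit_sibley_single rfl hP1 P.2.isNilpotent hC he
    have := Fact.mk hq'
    have h3 : orderOf (⟨x, hx⟩ : P) = q := orderOf_eq_prime (Subtype.ext (h2.2 x hx)) hx1
    exact Or.inl ⟨h1, hq q hq' (h3 ▸ orderOf_dvd_natCard _) ▸ h2, he⟩
  rcases CL.Char.feit_sibley rfl hP1 P.2.isNilpotent hTI hlt hC (fun _ => Iff.rfl) he with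
    ⟨⟨m, hm⟩, -, h⟩ | h
  · rcases m with _ | m
    · exact absurd (Subgroup.card_eq_one.1 hm) hP1
    · exact absurd (hq 2 Nat.prime_two (hm ▸ dvd_pow_self 2 m.succ_ne_zero)).symm hp
  · exact Or.inr h.1

end Cfsg.Agent.S1533
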