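import Cfsg.Statements.S1536
import Cfsg.Agent.S0173
import Cfsg.Agent.S1496
import Cfsg.Agent.CHAR.Orth1

set_option autoImplicit false
open Cfsg

namespace Cfsg.Agent.S1536

/-- Let H be a normal subgroup of the finite group M whose order is coprime to its index. For x ∈ M: some non-principal irreducible character of H is unchanged under h ↦ θ(x h x⁻¹) if and only if some non-identity element of H commutes with x. -/
theorem result {M : Type*} [Group M] [Finite M] (H : Subgroup M) [hN : H.Normal] (hHall : Nat.Coprime (Nat.card H) H.index) (x : M) : (∃ θ : H → ℂ, Cfsg.IsIrrCharacter H θ ∧ θ ≠ (fun _ => 1) ∧ (fun h : H => θ ⟨x * h * x⁻¹, hN.conj_mem h h.2 x⟩) = θ) ↔ ∃ h ∈ H, h ≠ 1 ∧ x * h = h * x := by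
  classical
  set α : H ≃* H := MulAut.conjNormal x with hα
  have hαa : ∀ h : H, α h = ⟨x * h * x⁻¹, hN.conj_mem h h.2 x⟩ := by
    intro h; ext; simp [hα]
  have key := Cfsg.Agent.S0173.result α
  have hfin : Finite (ConjClasses H) := Quotient.finite _
  have h1 : (∃ θ : H → ℂ, Cfsg.IsIrrCharacter H θ ∧ θ ≠ (fun _ => 1) ∧
      (fun h : H => θ ⟨x * h * x⁻¹, hN.conj_mem h h.2 x⟩) = θ) ↔
      Nontrivial {χ : Cfsg.IrrCharacter H // (χ : H → ℂ) ∘ α = (χ : H → ℂ)} := by
    rw [nontrivial_iff_exists_ne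
      (⟨⟨fun _ => 1, CL.Char.isIrrCharacter_one⟩, rfl⟩ :
        {χ : Cfsg.IrrCharacter H // (χ : H → ℂ) ∘ α = (χ : H → ℂ)})]
    constructor
    · rintro ⟨θ, h1, h2, h3⟩
      refine ⟨⟨⟨θ, h1⟩, ?_⟩, ?_⟩
      · funext h; simp only [Function.comp, hαa]; exact congrFun h3 h
      · intro h; apply h2
        exact congrArg (fun y => (y.1 : H → ℂ)) h
    · rintro ⟨⟨⟨θ, h1⟩, h3⟩, h2⟩
      refine ⟨θ, h1, ?_, ?_⟩
      · rintro rfl; exact h2 rfl
      · funext h; have := congrFun h3 h; simpa only [Function.comp, hαa] using this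
  have h2 : Nontrivial {C : ConjClasses H // ConjClasses.map α.toMonoidHom C = C} ↔
      ∃ h : H, h ≠ 1 ∧ IsConj (α h) h := by
    rw [nontrivial_iff_exists_ne
      (⟨ConjClasses.mk 1, by
        change ConjClasses.mk (α.toMonoidHom 1) = _
        rw [map_one]⟩ : {C : ConjClasses H // ConjClasses.map α.toMonoidHom C = C})]
    constructor
    · rintro ⟨⟨C, hC⟩, hne⟩
      obtain ⟨h, rfl⟩ := ConjClasses.exists_rep C
      refine ⟨h, ?_, ?_⟩
      · rintro rfl; exact hne rfl
      · exact ConjClasses.mk_eq_mk_iff_isConj.mp hC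
    · rintro ⟨h, hne, hc⟩
      refine ⟨⟨ConjClasses.mk h, ConjClasses.mk_eq_mk_iff_isConj.mpr hc⟩, ?_⟩
      intro e
      have := ConjClasses.mk_eq_mk_iff_isConj.mp (congrArg Subtype.val e)
      exact hne (isConj_one_left.mp this)
  rw [h1, ← Finite.one_lt_card_iff_nontrivial, ← key, Finite.one_lt_card_iff_nontrivial, h2]
  constructor
  · rintro ⟨h, hne, hc⟩
    obtain ⟨k, hk⟩ := isConj_iff.mp hc
    have hk' : (k : M) * (x * h * x⁻¹) * (k : M)⁻¹ = h := by
      have := congrArg Subtype.val hk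
      simpa [hαa] using this
    by_cases hx : x ^ H.index = 1
    · have hcop : Nat.Coprime (orderOf x) (Nat.card H) :=
        (Nat.Coprime.coprime_dvd_right (orderOf_dvd_of_pow_eq_one hx) hHall).symm
      obtain ⟨t, ht, c, hc, hcx, hct⟩ := Cfsg.Agent.S1496.result H x
        (by rw [Subgroup.normalizer_eq_top]; trivial) hcop k k.2
      by_cases hc1 : c = 1
      · subst hc1
        refine ⟨t * h * t⁻¹, H.mul_mem (H.mul_mem ht h.2) (H.inv_mem ht), ?_, ?_⟩
        · intro e
          apply hne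
          ext
          have : (h : M) = t⁻¹ * (t * h * t⁻¹) * t := by group
          rw [this, e]; simp
        · rw [one_mul] at hct
          have e1 : (k : M) * x * h = h * (k * x) := by
            conv_rhs => rw [← hk']
            group
          calc x * (t * h * t⁻¹) = (t * (k * x) * t⁻¹) * (t * h * t⁻¹) := by rw [hct]
            _ = t * (k * x * h) * t⁻¹ := by group
            _ = (t * h * t⁻¹) * (t * (k * x) * t⁻¹) := by rw [e1]; group
            _ = _ := by rw [hct]
      · exact ⟨c, hc, hc1, hcx.symm⟩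
    · exact ⟨x ^ H.index, H.pow_index_mem x, hx, (Commute.self_pow x _).eq⟩
  · rintro ⟨h, hh, hne, hc⟩
    refine ⟨⟨h, hh⟩, fun e => hne (congrArg Subtype.val e), ?_⟩
    have : α ⟨h, hh⟩ = ⟨h, hh⟩ := by
      rw [hαa]; ext; simp [hc]
    rw [this]

end Cfsg.Agent.S1536
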