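import Cfsg.Statements.S1538
import Cfsg.Agent.ODDC.PF8

set_option autoImplicit false
open Cfsg

namespace Cfsg.Agent.S1538

/-- Let G be a minimal simple group of odd order and M a maximal subgroup of Type II. Then each of A₀(M), A(M), A₁(M) is a TI-subset of G whose set normaliser is M. -/
theorem result {G : Type*} [Group G] [Finite G] (hG : Cfsg.IsMinSimpleOddOrder G) (M : Subgroup G) (hM : IsCoatom M) (hII : Cfsg.IsOfTypeII M) : (Cfsg.IsTISubset (Cfsg.typeA0 M) ∧ Subgroup.normalizer (Cfsg.typeA0 M) = M) ∧ (Cfsg.IsTISubset (Cfsg.typeA M) ∧ Subgroup.normalizer (Cfsg.typeA M) = M) ∧ (Cfsg.IsTISubset (Cfsg.typeA1 M) ∧ Subgroup.normalizer (Cfsg.typeA1 M) = M) := by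
  have e : CL.BG.TypeI M ↔ IsOfTypeI M := ⟨fun h => (CL.PF.ft_I_II hG hM h hII).elim,
    CL.BG.TypeI.of_isOfTypeI⟩
  obtain ⟨a, b, c⟩ := CL.PF.FTtypeII_ker_TI hG hM hII
  rw [← CL.BG.ftA_eq_typeA e, ← CL.BG.ftA0_eq_typeA0 e]
  exact ⟨a.isTISubset, b.isTISubset, c.isTISubset⟩

end Cfsg.Agent.S1538
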