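import Cfsg.Statements.S1541
import Cfsg.Agent.ODDC.PF12

set_option autoImplicit false
open Cfsg

namespace Cfsg.Agent.S1541

/-- Let G be a minimal simple group of odd order. Then some maximal subgroup of G is not of Type I. -/
theorem result {G : Type*} [Group G] [Finite G] (hG : Cfsg.IsMinSimpleOddOrder G) : ∃ M : Subgroup G, IsCoatom M ∧ ¬ Cfsg.IsOfTypeI M := by
  by_contra hc
  exact CL.PF.not_all_FTtype1 hG fun M hM =>
    CL.BG.TypeI.of_isOfTypeI (by_contra fun h => hc ⟨M, hM, h⟩)

end Cfsg.Agent.S1541
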