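import Cfsg.Statements.S1542
import Cfsg.Agent.ODDC.PF12.Type1
import Cfsg.Agent.ODDC.CohBridge

set_option autoImplicit false
open Cfsg

namespace Cfsg.Agent.S1542

/-- Let G be a minimal simple group of odd order and L a maximal subgroup of Type I in which every non-identity element of H = L_F has its centraliser within L inside H. Let S be the set of functions on L induced from non-principal irreducible characters of H. Then every member of S is an irreducible character of L, and (S, L minus 1, τ) is coherent for τ the Dade map relative to A(L), L and a ↦ R(a). -/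
theorem result {G : Type*} [Group G] [Fintype G] (hG : Cfsg.IsMinSimpleOddOrder G) (L : Subgroup G) [Fintype L] (hL : IsCoatom L) (hI : Cfsg.IsOfTypeI L) (hfrob : ∀ x ∈ Cfsg.fittingHallOf L, x ≠ 1 → L ⊓ Subgroup.centralizer ({x} : Set G) ≤ Cfsg.fittingHallOf L) : (∀ χ ∈ Cfsg.inducedIrrAbove (Cfsg.fittingHall L) ⊥, Cfsg.IsIrrCharacter L χ) ∧ Cfsg.IsCoherent (Cfsg.inducedIrrAbove (Cfsg.fittingHall L) ⊥) {1}ᶜ (Cfsg.dadeIsometry (Cfsg.typeA L) L (Cfsg.supportR L)) := by
  have hF : CL.PF.FrobKer (fittingHallOf L) L := ⟨CL.BG.Fcore_normal L, CL.PF.mmax_Fcore_neq1 hG hL,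
    (CL.PF.mmax_Fcore_lt hG hL).ne, hfrob⟩
  obtain ⟨h1, h2⟩ := CL.PF.FT_Frobenius_coherence hG hL hF
  have tL := CL.BG.TypeI.of_isOfTypeI hI
  rw [← CL.BG.Fcore_subgroupOf]
  refine ⟨fun χ hχ => CL.PF.ext0_mem_Irr.mp
    (h1 _ ((CL.PF.mem_inducedIrrAbove_bot_iff (CL.BG.Fcore_sub L)).mp hχ)),
    h2.isCoherent hF.normal (CL.BG.H40.odd hG L) hF.ne_bot fun α _ => ?_⟩
  rw [CL.PF.tau0_type1 hG hL tL, CL.PF.dade_ext0, CL.BG.ftA_eq_typeA (iff_of_true tL hI)]

end Cfsg.Agent.S1542
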