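import Cfsg.Statements.S1546
import Mathlib.Algebra.Ring.GeomSum
import Mathlib.FieldTheory.Finite.Basic
import Mathlib.Data.Nat.Factorization.Induction

set_option autoImplicit false
open Cfsg

namespace Cfsg.Agent.S1546

theorem geom_eq (p q : ℕ) (hp : 2 ≤ p) : (p ^ q - 1) / (p - 1) = ∑ i ∈ Finset.range q, p ^ i := by
  rw [Nat.geomSum_eq hp]

theorem geom_modEq (p q m : ℕ) (h : p ≡ 1 [MOD m]) :
    ∑ i ∈ Finset.range q, p ^ i ≡ q [MOD m] := by
  induction q with
  | zero => simp [Nat.ModEq.refl]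
  | succ n ih =>
    rw [Finset.sum_range_succ]
    refine ih.add ?_
    simpa using h.pow n

/-- Let p and q be odd primes and N = (p ^ q − 1) / (p − 1) = 1 + p + ⋯ + p^(q−1). Then N is odd; if p ≡ 1 (mod q) then q ∣ N; and if p is not ≡ 1 (mod q) then N is coprime to p − 1 and every divisor of N is ≡ 1 (mod q). -/
theorem result (p q : ℕ) (hp : p.Prime) (hq : q.Prime) (hp2 : p ≠ 2) (hq2 : q ≠ 2) : Odd ((p ^ q - 1) / (p - 1)) ∧ (p % q = 1 → q ∣ (p ^ q - 1) / (p - 1)) ∧ (p % q ≠ 1 → Nat.Coprime ((p ^ q - 1) / (p - 1)) (p - 1) ∧ ∀ x : ℕ, x ∣ (p ^ q - 1) / (p - 1) → x % q = 1) := by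
  have hp1 := hp.two_le
  have hq1 := hq.two_le
  have hpo : Odd p := hp.odd_of_ne_two hp2
  have hqo : Odd q := hq.odd_of_ne_two hq2
  have hmul : (∑ i ∈ Finset.range q, p ^ i) * (p - 1) = p ^ q - 1 := by
    rw [← geom_eq p q hp1]
    exact Nat.div_mul_cancel (by simpa using Nat.sub_dvd_pow_sub_pow p 1 q)
  rw [geom_eq p q hp1]
  set N := ∑ i ∈ Finset.range q, p ^ i with hN
  have hcop : p % q ≠ 1 → Nat.Coprime N (p - 1) := by
    intro hpq
    rw [Nat.coprime_iff_gcd_eq_one]
    by_contra hne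
    obtain ⟨r, hr, hrd⟩ := Nat.exists_prime_and_dvd hne
    have h1 : r ∣ N := hrd.trans (Nat.gcd_dvd_left _ _)
    have h2 : r ∣ p - 1 := hrd.trans (Nat.gcd_dvd_right _ _)
    have h3 : p ≡ 1 [MOD r] := ((Nat.modEq_iff_dvd' (by omega)).mpr h2).symm
    have h4 : N ≡ q [MOD r] := geom_modEq p q r h3
    have h5 : r ∣ q := (Nat.modEq_zero_iff_dvd).mp
      (h4.symm.trans ((Nat.modEq_zero_iff_dvd).mpr h1))
    have h6 : r = q := (Nat.prime_dvd_prime_iff_eq hr hq).mp h5
    subst h6
    apply hpq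
    have := h3
    unfold Nat.ModEq at this
    rw [this]
    exact Nat.mod_eq_of_lt (by omega)
  refine ⟨?_, ?_, fun hpq => ⟨hcop hpq, ?_⟩⟩
  · have h3 : p ≡ 1 [MOD 2] := by
      unfold Nat.ModEq; simpa using Nat.odd_iff.mp hpo
    have h4 : N ≡ q [MOD 2] := geom_modEq p q 2 h3
    rw [Nat.odd_iff] at hqo ⊢
    unfold Nat.ModEq at h4
    rw [h4, hqo]
  · intro hpq
    have h3 : p ≡ 1 [MOD q] := by
      unfold Nat.ModEq; rw [hpq]; exact (Nat.mod_eq_of_lt (by omega)).symm
    have h4 : N ≡ q [MOD q] := geom_modEq p q q h3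
    exact (Nat.modEq_zero_iff_dvd).mp (h4.trans (by simp [Nat.ModEq]))
  · have hN0 : N ≠ 0 := by
      intro h0
      rw [h0, zero_mul] at hmul
      have : 1 < p ^ q := Nat.one_lt_pow (by omega) (by omega)
      omega
    have hprime : ∀ r : ℕ, r.Prime → r ∣ N → r ≡ 1 [MOD q] := by
      intro r hr hrN
      have := Fact.mk hr
      have h1 : r ∣ p ^ q - 1 := hmul ▸ hrN.mul_right _
      have hpos : 1 ≤ p ^ q := Nat.one_le_pow _ _ (by omega)
      have h2 : ((p : ZMod r)) ^ q = 1 := by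
        have : ((p ^ q - 1 : ℕ) : ZMod r) = 0 := (ZMod.natCast_eq_zero_iff _ _).mpr h1
        rw [Nat.cast_sub hpos] at this
        push_cast at this
        exact sub_eq_zero.mp this
      have h3 : (p : ZMod r) ≠ 1 := by
        intro h
        have : ((p - 1 : ℕ) : ZMod r) = 0 := by
          rw [Nat.cast_sub (by omega)]; simp [h]
        have h4 : r ∣ p - 1 := (ZMod.natCast_eq_zero_iff _ _).mp this
        have h5 := Nat.dvd_gcd hrN h4
        rw [hcop hpq] at h5
        exact hr.one_lt.ne' (Nat.dvd_one.mp h5)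
      have := Fact.mk hq
      have h4 : orderOf (p : ZMod r) = q := orderOf_eq_prime h2 h3
      have h5 : (p : ZMod r) ≠ 0 := by
        intro h; rw [h, zero_pow (by omega)] at h2; exact zero_ne_one h2
      have h6 : q ∣ r - 1 := h4 ▸ ZMod.orderOf_dvd_card_sub_one h5
      exact ((Nat.modEq_iff_dvd' hr.one_le).mpr h6).symm
    intro x hx
    have hx0 : x ≠ 0 := by rintro rfl; exact hN0 (Nat.eq_zero_of_zero_dvd hx)
    have key : ∀ x : ℕ, x ≠ 0 → x ∣ N → x ≡ 1 [MOD q] := by
      intro x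
      induction x using Nat.recOnMul with
      | zero => intro h; exact absurd rfl h
      | one => intro _ _; rfl
      | prime r hr => intro _ h; exact hprime r hr h
      | mul a b iha ihb =>
        intro hab h
        have ha := iha (left_ne_zero_of_mul hab) ((Dvd.intro _ rfl).trans h)
        have hb := ihb (right_ne_zero_of_mul hab) ((Dvd.intro_left _ rfl).trans h)
        simpa using ha.mul hb
    have := key x hx0 hx
    unfold Nat.ModEq at this
    rw [this]
    exact Nat.mod_eq_of_lt (by omega)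

end Cfsg.Agent.S1546
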