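import Cfsg.Statements.S1551
import Mathlib
import Cfsg.Agent.SPOR.GolayLoc

set_option autoImplicit false
open scoped Pointwise
open Cfsg

namespace Cfsg.Agent.S1551

open CL CL.K CL.Orb CL.Enc CL.Golay MulAction

set_option maxHeartbeats 400000

/-- Structure of a sextet stabiliser: it induces every permutation of the six tetrads, the subgroup fixing each tetrad setwise has order 192, and there is a normal subgroup of order 64 consisting of elements squaring to the identity. -/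
theorem result (S : Finset (Finset Cfsg.GolayPt)) (hS : S ∈ Cfsg.sextets) : (∀ e : Equiv.Perm ↥S, ∃ g ∈ MulAction.stabilizer Cfsg.M24 S, ∀ t : ↥S, (g : Equiv.Perm Cfsg.GolayPt) • (t : Finset Cfsg.GolayPt) = ((e t : ↥S) : Finset Cfsg.GolayPt)) ∧ Nat.card {g : ↥(MulAction.stabilizer Cfsg.M24 S) // ∀ t ∈ S, ((g : Cfsg.M24) : Equiv.Perm Cfsg.GolayPt) • t = t} = 192 ∧ ∃ N : Subgroup ↥(MulAction.stabilizer Cfsg.M24 S), N.Normal ∧ Nat.card N = 64 ∧ ∀ x ∈ N, x * x = 1 := by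
  refine ⟨fun e => ?_, ?_, ((sexO2 hS).subgroupOf M24).subgroupOf _, ⟨fun n hn g => ?_⟩, ?_, fun x hx => ?_⟩
  · obtain ⟨g, rfl⟩ := actHom_surjective (H := M24 ⊓ stabilizer (Equiv.Perm GolayPt) S) (S := S)
      (fun _ h => h.2) (K := FixF S) (fun _ => mem_FixF_iff_stab)
      (by rw [hS.1, card_FixF_sextet hS, card_stab_sextet hS]; decide) e
    exact ⟨⟨g, g.2.1⟩, g.2.2, fun _ => rfl⟩
  · rw [← card_FixF_sextet hS]
    exact Nat.card_congr
      { toFun := fun g => ⟨g.1.1.1, mem_FixF.2 ⟨g.1.1.2, g.2⟩⟩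
        invFun := fun g => ⟨⟨⟨g.1, (mem_FixF.1 g.2).1⟩, (mem_FixF_iff_stab.1 g.2).1.2⟩, (mem_FixF.1 g.2).2⟩
        left_inv := fun _ => rfl
        right_inv := fun _ => rfl }
  · exact conj_mem_sexO2 hS g.1.2 g.2 hn
  · rw [← card_sexO2 hS]
    exact Nat.card_congr
      { toFun := fun g => ⟨g.1.1.1, g.2⟩
        invFun := fun g => ⟨⟨⟨g.1, (mem_FixF.1 g.2.1).1⟩, (mem_FixF_iff_stab.1 g.2.1).1.2⟩, g.2⟩
        left_inv := fun _ => rfl
        right_inv := fun _ => rfl }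
  · exact Subtype.ext (Subtype.ext hx.2)

end Cfsg.Agent.S1551
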