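import Cfsg.Statements.S1553
import Mathlib
import Cfsg.Agent.SPOR.GolayRes

set_option autoImplicit false
open scoped Pointwise
open Cfsg

namespace Cfsg.Agent.S1553

open CL CL.K CL.Orb CL.Enc CL.Golay MulAction

/-- The stabiliser of an octad in the group of the length-24 code induces on the octad exactly its alternating group. -/
theorem result (o : Finset Cfsg.GolayPt) (ho : o ∈ Cfsg.octads) : {e : Equiv.Perm ↥o | ∃ g : Equiv.Perm Cfsg.GolayPt, g ∈ Cfsg.M24 ∧ ∃ h : (∀ x, g x ∈ o ↔ x ∈ o), g.subtypePerm h = e} = (alternatingGroup ↥o : Set (Equiv.Perm ↥o)) := by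
  rw [← range_act_octad ho]
  ext e
  constructor
  · rintro ⟨g, hg, h, rfl⟩
    refine ⟨⟨g, hg, Finset.eq_of_subset_of_card_le (fun p hp => ?_) (Finset.card_smul_finset g o).ge⟩, rfl⟩
    obtain ⟨q, hq, rfl⟩ := Finset.mem_smul_finset.1 hp
    exact (h q).2 hq
  · rintro ⟨⟨g, hg, e⟩, rfl⟩
    refine ⟨g, hg, fun x => ?_, rfl⟩
    have e' : g • o = o := e
    conv_lhs => rw [← e']
    exact mem_smul_iff g x o

end Cfsg.Agent.S1553
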