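import Cfsg.Statements.S1554
import Mathlib
import Cfsg.Agent.SPOR.GolayRes

set_option autoImplicit false
open scoped Pointwise
open Cfsg

namespace Cfsg.Agent.S1554

open CL CL.K CL.Orb CL.Enc CL.Golay MulAction

/-- An octad stabiliser is a split extension: the joint stabiliser of the octad and a point outside it is a complement to the pointwise stabiliser of the octad, and is isomorphic to the alternating group of degree 8. -/
theorem result (o : Finset Cfsg.GolayPt) (ho : o ∈ Cfsg.octads) (p : Cfsg.GolayPt) (hp : p ∉ o) : (Cfsg.M24 ⊓ fixingSubgroup (Equiv.Perm Cfsg.GolayPt) (o : Set Cfsg.GolayPt)) ⊓ (Cfsg.M24 ⊓ MulAction.stabilizer (Equiv.Perm Cfsg.GolayPt) o ⊓ MulAction.stabilizer (Equiv.Perm Cfsg.GolayPt) p) = ⊥ ∧ (Cfsg.M24 ⊓ fixingSubgroup (Equiv.Perm Cfsg.GolayPt) (o : Set Cfsg.GolayPt)) ⊔ (Cfsg.M24 ⊓ MulAction.stabilizer (Equiv.Perm Cfsg.GolayPt) o ⊓ MulAction.stabilizer (Equiv.Perm Cfsg.GolayPt) p) =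 (Cfsg.M24 ⊓ MulAction.stabilizer (Equiv.Perm Cfsg.GolayPt) o) ∧ Nonempty (↥(Cfsg.M24 ⊓ MulAction.stabilizer (Equiv.Perm Cfsg.GolayPt) o ⊓ MulAction.stabilizer (Equiv.Perm Cfsg.GolayPt) p) ≃* alternatingGroup (Fin 8)) := by
  have hdec : ∀ g ∈ M24 ⊓ stabilizer (Equiv.Perm GolayPt) o, ∃ n ∈ Golay.Fix o,
      n⁻¹ * g ∈ M24 ⊓ stabilizer (Equiv.Perm GolayPt) o ⊓ stabilizer (Equiv.Perm GolayPt) p := by
    intro g hg
    have : g p ∈ orbit (Golay.Fix o) p := by
      rw [orbit_Fix_octad ho hp]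
      exact Finset.mem_coe.2 (Finset.mem_compl.2 (apply_notMem_of_smul_eq hg.2 hp))
    obtain ⟨⟨n, hn⟩, e⟩ := this
    refine ⟨n, hn, Subgroup.mul_mem _ (Subgroup.inv_mem _ (mem_Fix_iff_stab.1 hn).1) hg, ?_⟩
    have e' : n p = g p := e
    show (n⁻¹ * g) p = p
    rw [Equiv.Perm.mul_apply, ← e']
    simp
  have hbot : ∀ g ∈ Golay.Fix o, g p = p → g = 1 := fun g hg e =>
    eq_one_of_fix (s := insert p o) (Fix_insert o p ▸ ⟨hg, e⟩) (by rw [Finset.card_insert_of_notMem hp, ho.2])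
  refine ⟨(Subgroup.eq_bot_iff_forall _).2 fun g hg => hbot g hg.1 hg.2.2,
    le_antisymm (sup_le (fun g hg => (mem_Fix_iff_stab.1 hg).1) inf_le_left) fun g hg => ?_, ?_⟩
  · obtain ⟨n, hn, h⟩ := hdec g hg
    rw [← mul_inv_cancel_left n g]
    exact Subgroup.mul_mem_sup hn h
  · let f := actHom (M24 ⊓ stabilizer (Equiv.Perm GolayPt) o ⊓ stabilizer (Equiv.Perm GolayPt) p) o
      fun _ h => h.1.2
    have hinj : Function.Injective f := (injective_iff_map_eq_one f).2 fun g hg =>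
      Subtype.ext (hbot g (mem_Fix_iff_stab.2 ⟨g.2.1, (mem_ker_actHom _).1 hg⟩) g.2.2)
    have hr : f.range = alternatingGroup o := by
      rw [← range_act_octad ho]
      ext e
      constructor
      · rintro ⟨g, rfl⟩
        exact ⟨⟨g, g.2.1⟩, rfl⟩
      · rintro ⟨g, rfl⟩
        obtain ⟨n, hn, h⟩ := hdec g g.2
        refine ⟨⟨_, h⟩, Equiv.ext fun t => Subtype.ext ?_⟩
        show (n⁻¹ * g) • (t : GolayPt) = (g : Equiv.Perm GolayPt) • (t : GolayPt)
        rw [mul_smul, inv_smul_eq_iff]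
        exact ((mem_Fix.1 hn).2 _ (apply_mem_of_smul_eq g.2.2 t.2)).symm
    exact ⟨((MonoidHom.ofInjective hinj).trans (MulEquiv.subgroupCongr hr)).trans
      (Equiv.altCongrHom (Finset.equivFinOfCardEq ho.2))⟩

end Cfsg.Agent.S1554
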