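import Cfsg.Statements.S1555
import Mathlib
import Cfsg.Agent.SPOR.GolayBasic
import Cfsg.Agent.SPOR.Steiner

set_option autoImplicit false
open scoped Pointwise
open Cfsg

namespace Cfsg.Agent.S1555

/-- Bottom row of the Leech triangle: an octad is met in a prescribed pair of its points by exactly 16 octads and in a prescribed 4-subset by exactly 4 octads. -/
theorem result (o : Finset Cfsg.GolayPt) (ho : o ∈ Cfsg.octads) (s : Finset Cfsg.GolayPt) (hs : s ⊆ o) : (s.card = 2 → {o' : Finset Cfsg.GolayPt | o' ∈ Cfsg.octads ∧ o ∩ o' = s}.ncard = 16) ∧ (s.card = 4 → {o' : Finset Cfsg.GolayPt | o' ∈ Cfsg.octads ∧ o ∩ o' = s}.ncard = 4) := by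
  have key := CL.Steiner.ncard_block_inter_eq CL.Golay.steiner_octads (by norm_num) ho hs
  rw [CL.Golay.card_pt] at key
  constructor
  · intro h
    rw [h, show CL.Steiner.tri (CL.Steiner.lam 5 8 24) 2 (8 - 2) = 16 by decide +kernel] at key
    exact_mod_cast key
  · intro h
    rw [h, show CL.Steiner.tri (CL.Steiner.lam 5 8 24) 4 (8 - 4) = 4 by decide +kernel] at key
    exact_mod_cast key

end Cfsg.Agent.S1555
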