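import Cfsg.Statements.S1558
import Mathlib
import Cfsg.Agent.SPOR.GolayTrioGrp

set_option autoImplicit false
open scoped Pointwise
open Cfsg

namespace Cfsg.Agent.S1558

open CL CL.K CL.Orb CL.Enc CL.Golay MulAction

set_option maxHeartbeats 400000

/-- Structure of a trio stabiliser: every permutation of the three octads is induced, and there is a normal subgroup of order 64 of elements squaring to the identity whose quotient is isomorphic to the product of GL(3, 2) with the symmetric group of degree 3. -/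
theorem result (T : Finset (Finset Cfsg.GolayPt)) (hT : T ∈ Cfsg.trios) : (∀ e : Equiv.Perm ↥T, ∃ g ∈ MulAction.stabilizer Cfsg.M24 T, ∀ o : ↥T, (g : Equiv.Perm Cfsg.GolayPt) • (o : Finset Cfsg.GolayPt) = ((e o : ↥T) : Finset Cfsg.GolayPt)) ∧ ∃ (N : Subgroup ↥(MulAction.stabilizer Cfsg.M24 T)) (_ : N.Normal), Nat.card N = 64 ∧ (∀ x ∈ N, x * x = 1) ∧ Nonempty (↥(MulAction.stabilizer Cfsg.M24 T) ⧸ N ≃* GL (Fin 3) (ZMod 2) × Equiv.Perm (Fin 3)) := by
  refine ⟨fun e => ?_, ?_⟩
  · obtain ⟨a, ha, b, hb, hd, rfl⟩ := mem_trios_iff.1 hT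
    obtain ⟨g, rfl⟩ := actHom_surjective (H := M24 ⊓ stabilizer (Equiv.Perm GolayPt) (trioOf a b))
      (S := trioOf a b) (fun _ h => h.2) (K := FixF (trioOf a b)) (fun _ => mem_FixF_iff_stab) (by
        rw [hT.1, card_stab_trio hT, ← card_of_mem_iff (K := stabilizer M24 a ⊓ stabilizer M24 b)
          (fun _ h => (mem_FixF.1 h).1) fun g => ?_, (Cfsg.Agent.S5613.result _ _ ha hb).1
            (Finset.card_eq_zero.2 (Finset.disjoint_iff_inter_eq_empty.1 hd))]
        · decide
        · simp only [mem_FixF, trioOf, Finset.mem_insert, Finset.mem_singleton, forall_eq_or_imp, forall_eq]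
          refine ⟨fun h => ⟨g.2, h.1, h.2, ?_⟩, fun h => ⟨h.2.1, h.2.2.1⟩⟩
          rw [smul_finset_compl', Finset.smul_finset_union, show (g : Equiv.Perm GolayPt) • a = a from h.1,
            show (g : Equiv.Perm GolayPt) • b = b from h.2]) e
    exact ⟨⟨g, g.2.1⟩, g.2.2, fun _ => rfl⟩
  · obtain ⟨g, hg, rfl⟩ := exists_smul_trio (tri_mem isTri_Tr0) hT
    obtain ⟨h1, h2, h3⟩ := trHom_spec
    let e := stabConj hg (tri Tr0)
    refine ⟨(trHom.comp e.toMonoidHom).ker, inferInstance, ?_, fun x hx => e.injective ?_,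
      ⟨QuotientGroup.quotientKerEquivOfSurjective _ (h1.comp e.surjective)⟩⟩
    · rw [← h2]
      exact Nat.card_congr (e.toEquiv.subtypeEquiv fun _ => Iff.rfl)
    · rw [map_mul, map_one]
      exact h3 _ hx

end Cfsg.Agent.S1558
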