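import Cfsg.Statements.S1561
import Mathlib
import Cfsg.Agent.SPOR.M12
import Cfsg.Agent.SPOR.SimpleOn

set_option autoImplicit false
open scoped Pointwise
open Cfsg

namespace Cfsg.Agent.S1561

open CL.Golay CL.M12 MulAction

/-- Two dodecads meeting a fixed dodecad in equally many points lie in one orbit of its stabiliser. -/
theorem result (d d' d'' : Finset Cfsg.GolayPt) (hd : d ∈ Cfsg.dodecads) (hd' : d' ∈ Cfsg.dodecads) (hd'' : d'' ∈ Cfsg.dodecads) (h : (d ∩ d').card = (d ∩ d'').card) : ∃ g : Equiv.Perm Cfsg.GolayPt, g ∈ Cfsg.M24 ∧ g • d = d ∧ g • d' = d'' := by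
  have hc := card_symmDiff_add d d'
  have h3 := card_of_mem_code (symmDiff_mem_code hd.1 hd'.1)
  rw [hd.2, hd'.2] at hc
  have h1 : (d' ∩ d).card = (d ∩ d').card := by rw [Finset.inter_comm]
  have h2 : (d'' ∩ d).card = (d ∩ d').card := by rw [Finset.inter_comm, h]
  have : ∃ g ∈ St d, g • d' = d'' := by
    obtain hk | hk | hk | hk | hk : (d ∩ d').card = 0 ∨ (d ∩ d').card = 4 ∨ (d ∩ d').card = 6 ∨
      (d ∩ d').card = 8 ∨ (d ∩ d').card = 12 := by omega
    · exact exists_smul_of_orbit (orbit_D0_eq (c := 16436384) (n := 12) (k := 0) (N := 1) (fuel := 5)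
        (by decide +kernel) (by decide +kernel) (by decide +kernel) (by decide +kernel)
        (by decide +kernel)) hd hd'.1 hd''.1 hd'.2 hd''.2 (h1.trans hk) (h2.trans hk)
    · exact exists_smul_of_orbit (orbit_D0_eq (c := 16748578) (n := 12) (k := 4) (N := 495)
        (fuel := 500) (by decide +kernel) (by decide +kernel) (by decide +kernel) (by decide +kernel)
        (by decide +kernel)) hd hd'.1 hd''.1 hd'.2 hd''.2 (h1.trans hk) (h2.trans hk)
    · exact exists_smul_of_orbit (orbit_D0_eq (c := 8245261) (n := 12) (k := 6) (N := 1584)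
        (fuel := 1600) (by decide +kernel) (by decide +kernel) (by decide +kernel) (by decide +kernel)
        (by decide +kernel)) hd hd'.1 hd''.1 hd'.2 hd''.2 (h1.trans hk) (h2.trans hk)
    · exact exists_smul_of_orbit (orbit_D0_eq (c := 11472927) (n := 12) (k := 8) (N := 495)
        (fuel := 500) (by decide +kernel) (by decide +kernel) (by decide +kernel) (by decide +kernel)
        (by decide +kernel)) hd hd'.1 hd''.1 hd'.2 hd''.2 (h1.trans hk) (h2.trans hk)
    · exact exists_smul_of_orbit (orbit_D0_eq (c := 340831) (n := 12) (k := 12) (N := 1) (fuel := 5)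
        (by decide +kernel) (by decide +kernel) (by decide +kernel) (by decide +kernel)
        (by decide +kernel)) hd hd'.1 hd''.1 hd'.2 hd''.2 (h1.trans hk) (h2.trans hk)
  obtain ⟨g, hg, e⟩ := this
  exact ⟨g, hg.1, hg.2, e⟩

end Cfsg.Agent.S1561
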