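import Cfsg.Statements.S1562
import Mathlib
import Cfsg.Agent.SPOR.GolayFib

set_option autoImplicit false
open scoped Pointwise
open Cfsg

namespace Cfsg.Agent.S1562

open CL.K CL.Orb CL.Enc CL.Golay MulAction

/-- Orbits of a triad stabiliser on the triads disjoint from it: the 210 triads inside a common octad with it form one orbit and the remaining 1120 another. -/
theorem result (T : Finset Cfsg.GolayPt) (hT : T.card = 3) : {U : Finset Cfsg.GolayPt | U.card = 3 ∧ Disjoint T U ∧ (∃ o ∈ Cfsg.octads, T ∪ U ⊆ o)}.ncard = 210 ∧ {U : Finset Cfsg.GolayPt | U.card = 3 ∧ Disjoint T U ∧ ¬ (∃ o ∈ Cfsg.octads, T ∪ U ⊆ o)}.ncard = 1120 ∧ ∀ U U' : Finset Cfsg.GolayPt, U.card = 3 → U'.card = 3 → Disjoint T U → Disjoint T U' → ((∃ o ∈ Cfsg.octads, T ∪ U ⊆ o) ↔ (∃ o ∈ Cfsg.octads, T ∪ U' ⊆ o)) → ∃ g : Equiv.Perm Cfsg.GolayPt, g ∈ Cfsg.M24 ∧ g • T = T ∧ g • U = U' := by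
  obtain ⟨g, hg, rfl⟩ := exists_smul_eq_of_card_eq (card_D3.trans hT.symm) (by rw [card_D3]; norm_num)
  have K := Decomp.fib (D := E.setOf) (reps := [(D3, 1), (7, 63), (44, 210), (13, 630), (28, 1120)])
    decomp_triad_self le_rfl (fun a _ y => by simp only [Set.mem_ofPred_eq, Finset.card_smul_finset])
    (fun x y => ((x ∩ y).card, inOct (x ∪ y)))
    (fun a ha x y => by rw [card_inter_smul, ← Finset.smul_finset_union, inOct_smul ha])
    (fun c => (pc24 (Nat.land D3 c), cov (Nat.lor D3 c)))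
    (fun c => by rw [card_inter_setOf, ← E.setOf_or, inOct_setOf]; rfl) (V := [((3, true), 1), ((2, true), 63), ((0, true), 210), ((1, true), 630), ((0, false), 1120)]) (by decide +kernel) hg
  generalize g • E.setOf D3 = T at *
  have k1 := K (0, true) 210 (by decide)
  have k2 := K (0, false) 1120 (by decide)
  refine ⟨?_, ?_, fun U U' hU hU' hd hd' h => ?_⟩
  · rw [← k1.1]; congr 1; ext y
    simp only [Set.mem_ofPred_eq, Prod.mk.injEq, inOct_iff, Finset.card_eq_zero,
      Finset.disjoint_iff_inter_eq_empty]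
  · rw [← k2.1]; congr 1; ext y
    simp only [Set.mem_ofPred_eq, Prod.mk.injEq, inOct_eq_false_iff, Finset.card_eq_zero,
      Finset.disjoint_iff_inter_eq_empty]
  · rw [Finset.disjoint_iff_inter_eq_empty, ← Finset.card_eq_zero] at hd hd'
    rw [← inOct_iff, ← inOct_iff, ← Bool.eq_iff_iff] at h
    have : ∃ a ∈ M24 ⊓ stabilizer (Equiv.Perm GolayPt) T, a • U = U' := by
      cases hb : inOct (T ∪ U') with
      | true => exact k1.2 _ hU _ hU' (Prod.ext hd (h.trans hb)) (Prod.ext hd' hb)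
      | false => exact k2.2 _ hU _ hU' (Prod.ext hd (h.trans hb)) (Prod.ext hd' hb)
    obtain ⟨a, ⟨ha, e1⟩, e2⟩ := this
    exact ⟨a, ha, e1, e2⟩

end Cfsg.Agent.S1562
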