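import Cfsg.Statements.S1563
import Mathlib
import Cfsg.Agent.SPOR.GolayMax

set_option autoImplicit false
open scoped Pointwise
open Cfsg

namespace Cfsg.Agent.S1563

/-- The stabiliser of a pair of points (setwise) is a maximal proper subgroup of the group of the length-24 code. -/
theorem result (s : Finset Cfsg.GolayPt) (hs : s.card = 2) : IsCoatom (MulAction.stabilizer Cfsg.M24 s) := by
  open CL.K CL.Orb CL.Enc CL.Golay MulAction in
  obtain ⟨g, hg, rfl⟩ := exists_smul_eq_of_card_eq (card_D2.trans hs.symm) (by rw [card_D2]; norm_num)
  exact isCoatom_stabilizer_smul hg isCoatom_duad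

end Cfsg.Agent.S1563
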