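import Cfsg.Statements.S1566
import Mathlib
import Cfsg.Agent.SPOR.M12b
import Cfsg.Agent.SPOR.SimpleOn
import Cfsg.Agent.S1561

set_option autoImplicit false
open scoped Pointwise
open Cfsg

namespace Cfsg.Agent.S1566

open CL CL.K CL.Orb CL.Enc CL.Golay CL.M12 MulAction
open scoped Pointwise

theorem orbit_eq {K : Subgroup (Equiv.Perm Cfsg.GolayPt)} (h1 : Du (E.setOf D0) ≤ K)
    (h2 : K ≤ Cfsg.M24) {k : Equiv.Perm Cfsg.GolayPt} (hk : k ∈ K) {t : ℕ} (ht : okM t = true)
    (hc : (E.setOf D0 ∩ k • E.setOf D0).card = pc24 (D0 &&& img24 t D0))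
    (h : orb (fun j c => img24 (lget (t :: cSwap :: gens) j) c) low (t :: cSwap :: gens).length D0 3000
      (fun _ n => Nat.ble 2576 n) = true) : orbit K (E.setOf D0) = Cfsg.dodecads := by
  have htM := I.of_okM ht
  obtain ⟨g, hg, e1, e2⟩ := S1561.result _ _ _ D0_mem ((smul_mem_dodecads (h2 hk)).2 D0_mem)
    ((smul_mem_dodecads htM.permOf_mem).2 D0_mem)
    (by rw [hc, ← R.setOf_img htM.rep, ← E.setOf_and, Golay.card_setOf])
  have hgK : g ∈ K := h1 (St_le_Du _ ⟨hg, e1⟩)
  have h3 : (pm t)⁻¹ * (g * k) ∈ K := h1 (St_le_Du _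
    ⟨Cfsg.M24.mul_mem (Cfsg.M24.inv_mem htM.permOf_mem) (Cfsg.M24.mul_mem hg (h2 hk)), by
      show ((pm t)⁻¹ * (g * k)) • E.setOf D0 = E.setOf D0
      rw [mul_smul, mul_smul, e2, inv_smul_smul]⟩)
  have h4 : pm t ∈ K := by simpa [mul_assoc] using mul_mem (mul_mem hgK hk) (inv_mem h3)
  have hL : ∀ P ∈ t :: cSwap :: gens, I K P := by
    rw [List.forall_mem_cons, List.forall_mem_cons]
    exact ⟨⟨_, h4, htM.rep⟩, ⟨_, h1 (mem_Du.2 ⟨cSwap_in.permOf_mem, Or.inr cSwap_smul⟩), cSwap_in.rep⟩,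
      fun P hP => (gens_in P hP).mono ((St_le_Du _).trans h1)⟩
  exact ((coded_set hL low).orbit_eq_of_count (N := 2576) (fuel := 3000)
    (fun _ hj => (hL _ (lget_mem hj)).permOf_mem) (by decide +kernel) (Set.toFinite _)
    (by rintro _ ⟨g, rfl⟩; exact (smul_mem_dodecads (h2 g.2)).2 D0_mem) ncard_dodecads.le h).1

/-- The setwise stabiliser of a dodecad together with its complement is a maximal proper subgroup of the group of the length-24 code. -/
theorem result (d : Finset Cfsg.GolayPt) (hd : d ∈ Cfsg.dodecads) : IsCoatom (MulAction.stabilizer Cfsg.M24 ({d, dᶜ} : Finset (Finset Cfsg.GolayPt))) := by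
  obtain ⟨a, ha, rfl⟩ := exists_smul_dodecad D0_mem hd
  rw [← smul_pair]
  refine isCoatom_stabilizer_smul ha (isCoatom_stabilizer ?_ ?_)
  · have ht := I.of_okM (P := 499358333639480422210903375869299430) (by decide +kernel)
    refine ⟨_, ht.permOf_mem, fun h => ?_⟩
    have := (mem_Du.1 ⟨ht.permOf_mem, h⟩).2
    rw [← R.setOf_img ht.rep] at this
    revert this
    decide +kernel
  · rintro K h1 h2 ⟨k, hk, hne⟩
    have hne' : ¬ (k • E.setOf D0 = E.setOf D0 ∨ k • E.setOf D0 = (E.setOf D0)ᶜ) := fun h =>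
      hne (mem_Du.2 ⟨h2 hk, h⟩).2
    rw [not_or] at hne'
    have hkd := (smul_mem_dodecads (h2 hk)).2 D0_mem
    have hc := card_symmDiff_add (E.setOf D0) (k • E.setOf D0)
    have h3 := card_of_mem_code (symmDiff_mem_code D0_mem.1 hkd.1)
    have h4 : (symmDiff (E.setOf D0) (k • E.setOf D0)).card ≠ 0 := by
      rw [Ne, Finset.card_eq_zero, ← Finset.bot_eq_empty, symmDiff_eq_bot]
      exact Ne.symm hne'.1
    have h5 : (E.setOf D0 ∩ k • E.setOf D0).card ≠ 0 := by
      rw [Ne, Finset.card_eq_zero, ← Finset.disjoint_iff_inter_eq_empty]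
      intro h
      exact hne'.2 (Finset.eq_of_subset_of_card_le (Finset.subset_compl_iff_disjoint_left.2 h)
        (by rw [hkd.2, (compl_mem_dodecads D0_mem).2]))
    rw [D0_mem.2, hkd.2] at hc
    have h6 : orbit K (E.setOf D0) = Cfsg.dodecads := by
      obtain h | h | h : (E.setOf D0 ∩ k • E.setOf D0).card = 4 ∨
        (E.setOf D0 ∩ k • E.setOf D0).card = 6 ∨ (E.setOf D0 ∩ k • E.setOf D0).card = 8 := by omega
      · exact orbit_eq h1 h2 hk (t := 499358333639480422210903375869299430) (by decide +kernel)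
          (h.trans (by decide +kernel)) (by decide +kernel)
      · exact orbit_eq h1 h2 hk (t := 442813240654961825607267523558252967) (by decide +kernel)
          (h.trans (by decide +kernel)) (by decide +kernel)
      · exact orbit_eq h1 h2 hk (t := 679328183273138032850070314345333890) (by decide +kernel)
          (h.trans (by decide +kernel)) (by decide +kernel)
    rintro _ ⟨g, rfl⟩
    obtain ⟨b, hb⟩ : (g : Equiv.Perm Cfsg.GolayPt) • E.setOf D0 ∈ orbit K (E.setOf D0) :=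
      h6 ▸ (smul_mem_dodecads g.2).2 D0_mem
    refine ⟨b, ?_⟩
    show (b : Equiv.Perm Cfsg.GolayPt) • ({E.setOf D0, (E.setOf D0)ᶜ} : Finset (Finset Cfsg.GolayPt)) =
      (g : Equiv.Perm Cfsg.GolayPt) • ({E.setOf D0, (E.setOf D0)ᶜ} : Finset (Finset Cfsg.GolayPt))
    rw [smul_pair, smul_pair, show (b : Equiv.Perm Cfsg.GolayPt) • E.setOf D0 = _ from hb]

end Cfsg.Agent.S1566
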