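import Cfsg.Statements.S1567
import Mathlib
import Cfsg.Agent.SPOR.LeechDual

set_option autoImplicit false
open Cfsg

namespace Cfsg.Agent.S1567

/-- The rank-24 lattice is the additive subgroup generated by its 196560 minimal vectors. -/
theorem result : AddSubgroup.closure {x : Cfsg.GolayPt → ℤ | x ∈ Cfsg.leechLattice ∧ Cfsg.sqNorm x = 32} = Cfsg.leechLattice := by
  apply le_antisymm
  · rw [AddSubgroup.closure_le]; exact fun x hx => hx.1
  set A := AddSubgroup.closure {x : Cfsg.GolayPt → ℤ | x ∈ Cfsg.leechLattice ∧ Cfsg.sqNorm x = 32}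
  have hA : ∀ x ∈ Cfsg.leechLattice, Cfsg.sqNorm x = 32 → x ∈ A :=
    fun x hx h => AddSubgroup.subset_closure ⟨hx, h⟩
  have h44 : ∀ i j : GolayPt, i ≠ j → ∀ a b : ℤ, (a = 4 ∨ a = -4) → (b = 4 ∨ b = -4) →
      (Pi.single i a + Pi.single j b : GolayPt → ℤ) ∈ A := by
    intro i j hij a b ha hb
    apply hA _ (CL.Leech.single_add_single_mem i j (by omega) (by omega))
    rw [CL.Leech.sqNorm_single_add_single hij]
    rcases ha with rfl | rfl <;> rcases hb with rfl | rfl <;> norm_num
  apply CL.Leech.le_of_gens
  · exact hA _ (CL.Leech.odd3_mem _) (CL.Leech.sqNorm_odd3 _)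
  · intro t
    have hs : CL.Leech.ind (support₂ (qrWord t)) ∈ golayCode := by
      rw [CL.Leech.ind_support]; exact CL.Leech.qr_mem_code t
    have h1 := CL.Leech.sign_mem hs (CL.Leech.odd3_mem none)
    have h2 := hA _ h1 (by
      rw [← CL.Leech.sqNorm_odd3 none]
      unfold sqNorm
      apply Finset.sum_congr rfl
      intro i _
      dsimp only
      split_ifs <;> ring)
    convert A.sub_mem (hA _ (CL.Leech.odd3_mem none) (CL.Leech.sqNorm_odd3 _)) h2 using 1
    funext i
    by_cases h : qrWord t i = 0
    · simp [CL.Leech.lift, support₂, h]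
    · have hi : i ≠ none := by rintro rfl; exact h rfl
      simp [CL.Leech.lift, support₂, h, CL.Leech.odd3, hi]
  · intro i
    by_cases hi : i = none
    · subst hi
      have h1 := h44 none (some 0) (by simp) 4 4 (by simp) (by simp)
      have h2 := h44 none (some 0) (by simp) 4 (-4) (by simp) (by simp)
      convert A.add_mem h1 h2 using 1
      funext k
      simp only [Pi.add_apply, Pi.single_apply]
      split_ifs <;> omega
    · exact h44 i none hi 4 4 (by simp) (by simp)

end Cfsg.Agent.S1567
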