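import Cfsg.Statements.S1568
import Mathlib
import Cfsg.Agent.SPOR.LeechCount

set_option autoImplicit false
open Cfsg

namespace Cfsg.Agent.S1568

open CL.Leech in
theorem ex_count (a : ℤ) (k : ℕ) (hk : cTot (fun b => decide (|b| ≠ a)) 48 + k = 16773120) :
    {x : Cfsg.GolayPt → ℤ | x ∈ Cfsg.leechLattice ∧ Cfsg.sqNorm x = 48 ∧ ∃ i, |x i| = a}.ncard = k := by
  have h1 := ncard_shell (fun b => decide (|b| ≠ a)) 48 (by norm_num)
  have hfin : {x : Cfsg.GolayPt → ℤ | x ∈ Cfsg.leechLattice ∧ Cfsg.sqNorm x = 48}.Finite :=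
    (finite_sqNorm_le 48).subset fun x hx => hx.2.le
  have h2 := Set.ncard_inter_add_ncard_sdiff_eq_ncard
    {x : Cfsg.GolayPt → ℤ | x ∈ Cfsg.leechLattice ∧ Cfsg.sqNorm x = 48} {x | ∃ i, |x i| = a} hfin
  rw [ncard_48] at h2
  have e1 : {x : Cfsg.GolayPt → ℤ | x ∈ Cfsg.leechLattice ∧ Cfsg.sqNorm x = 48} ∩ {x | ∃ i, |x i| = a}
      = {x : Cfsg.GolayPt → ℤ | x ∈ Cfsg.leechLattice ∧ Cfsg.sqNorm x = 48 ∧ ∃ i, |x i| = a} := by
    ext x; simp [and_assoc]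
  have e2 : {x : Cfsg.GolayPt → ℤ | x ∈ Cfsg.leechLattice ∧ Cfsg.sqNorm x = 48} \ {x | ∃ i, |x i| = a}
      = {x : GolayPt → ℤ | x ∈ leechLattice ∧ sqNorm x = ((48 : ℕ) : ℤ) ∧
        ∀ i, (fun b => decide (|b| ≠ a)) (x i) = true} := by
    ext x; simp [and_assoc]
  rw [e1, e2, h1] at h2
  omega

open CL.Leech in
theorem three_iff (x : GolayPt → ℤ) (hx : x ∈ leechLattice) (hn : sqNorm x = 48)
    (i : GolayPt) (hi : |x i| = 3) :
    ∃ i j k, i ≠ j ∧ j ≠ k ∧ i ≠ k ∧ |x i| = 3 ∧ |x j| = 3 ∧ |x k| = 3 := by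
  obtain ⟨m, hm, hpar, -, -⟩ := (mem_iff' x).1 hx
  have hm1 : m = 1 := by
    have := hpar i
    rcases abs_cases (x i) with h | h <;> omega
  subst hm1
  have hsq : x i ^ 2 = 9 := by rw [← sq_abs, hi]; norm_num
  have h1 : ∀ j, 1 ≤ x j ^ 2 := fun j => by
    have : x j ≠ 0 := by have := hpar j; omega
    have := sq_pos_of_ne_zero this
    omega
  have hsum : ∑ j, (x j ^ 2 - 1) = 24 := by
    rw [Finset.sum_sub_distrib, sum_const_pt]
    unfold sqNorm at hn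
    omega
  have hle : ∀ j, |x j| = 1 ∨ |x j| = 3 := by
    intro j
    by_cases hj : j = i
    · rw [hj]; exact Or.inr hi
    have h2 : ∑ l ∈ ({i, j} : Finset GolayPt), (x l ^ 2 - 1) ≤ ∑ l, (x l ^ 2 - 1) :=
      Finset.sum_le_sum_of_subset_of_nonneg (Finset.subset_univ _) fun l _ _ => by
        have := h1 l; omega
    rw [Finset.sum_pair (Ne.symm hj), hsum, hsq] at h2
    have h3 : -5 < x j ∧ x j < 5 := by constructor <;> nlinarith
    have := hpar j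
    rcases abs_cases (x j) with h | h <;> omega
  have hs2 : ∑ j, (x j ^ 2 - 1) = ∑ j, (if |x j| = 3 then (8 : ℤ) else 0) := by
    apply Finset.sum_congr rfl
    intro j _
    rw [← sq_abs]
    rcases hle j with h | h <;> rw [h] <;> norm_num
  rw [hsum, ← Finset.sum_filter, Finset.sum_const] at hs2
  have hc : (Finset.univ.filter fun j => |x j| = 3).card = 3 := by
    simp only [nsmul_eq_mul] at hs2
    omega
  obtain ⟨a, b, c, hab, hac, hbc, habc⟩ := Finset.card_eq_three.1 hc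
  have hm : ∀ l ∈ ({a, b, c} : Finset GolayPt), |x l| = 3 := fun l hl => by
    rw [← habc] at hl
    exact (Finset.mem_filter.1 hl).2
  exact ⟨a, b, c, hab, hbc, hac, hm a (by simp), hm b (by simp), hm c (by simp)⟩


/-- Shape census of the lattice vectors of sum of squares 48 (customary norm 6): the four families (2^12, 0^12), (±3^3, ±1^21), (±4, ±2^8, 0^15) and (±5, ±1^23) have 5275648, 8290304, 3108864 and 98304 members. -/
theorem result : {x : Cfsg.GolayPt → ℤ | x ∈ Cfsg.leechLattice ∧ Cfsg.sqNorm x = 48 ∧ ∀ i, x i = 0 ∨ x i = 2 ∨ x i = -2}.ncard = 5275648 ∧ {x : Cfsg.GolayPt → ℤ | x ∈ Cfsg.leechLattice ∧ Cfsg.sqNorm x = 48 ∧ ∃ i j k, i ≠ j ∧ j ≠ k ∧ i ≠ k ∧ |x i| = 3 ∧ |x j| = 3 ∧ |x k| = 3}.ncard = 8290304 ∧ {x : Cfsg.GolayPt → ℤ | x ∈ Cfsg.leechLattice ∧ Cfsg.sqNorm x = 48 ∧ ∃ i, |x i| = 4}.ncard = 3108864 ∧ {x : Cfsg.GolayPt → ℤ | x ∈ Cfsg.leechLattice ∧ Cfsg.sqNorm x = 48 ∧ ∃ i, |x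 i| = 5}.ncard = 98304 := by
  refine ⟨?_, ?_, ex_count 4 _ (by decide +kernel), ex_count 5 _ (by decide +kernel)⟩
  · have h1 := CL.Leech.ncard_shell (fun b => decide (b = 0 ∨ b = 2 ∨ b = -2)) 48 (by norm_num)
    have h2 : CL.Leech.cTot (fun b => decide (b = 0 ∨ b = 2 ∨ b = -2)) 48 = 5275648 := by
      decide +kernel
    rw [← h2, ← h1]
    simp
  · rw [← ex_count 3 8290304 (by decide +kernel)]
    congr 1
    ext x
    simp only [Set.mem_ofPred_eq]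
    constructor
    · rintro ⟨h1, h2, i, j, k, -, -, -, h3, -⟩
      exact ⟨h1, h2, i, h3⟩
    · rintro ⟨h1, h2, i, h3⟩
      exact ⟨h1, h2, three_iff x h1 h2 i h3⟩

end Cfsg.Agent.S1568
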