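import Cfsg.Statements.S1580
import Mathlib
import Cfsg.Agent.SPOR.LeechSimple

set_option autoImplicit false
open Cfsg

namespace Cfsg.Agent.S1580

/-- The McLaughlin configuration: for u of customary norm 6 and v minimal with u − v minimal, there are 275 further such summands x of customary inner product 2 with v, permuted transitively by the stabiliser of u and v. -/
theorem result (u v : ↥Cfsg.leechLattice) (hu : Cfsg.sqNorm (u : Cfsg.GolayPt → ℤ) = 48) (hv : Cfsg.sqNorm (v : Cfsg.GolayPt → ℤ) = 32 ∧ Cfsg.sqNorm ((u - v) : Cfsg.GolayPt → ℤ) = 32) : {x : ↥Cfsg.leechLattice | Cfsg.sqNorm (x : Cfsg.GolayPt → ℤ) = 32 ∧ Cfsg.sqNorm ((u - x) : Cfsg.GolayPt → ℤ) = 32 ∧ Cfsg.dotInt (v : Cfsg.GolayPt → ℤ) (x : Cfsg.GolayPt → ℤ) = 16}.ncard = 275 ∧ ∀ x ∈ {x : ↥Cfsg.leechLattice | Cfsg.sqNorm (x : Cfsg.GolayPt → ℤ) = 32 ∧ Cfsg.sqNorm ((u - x) : Cfsg.GolayPt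 → ℤ) = 32 ∧ Cfsg.dotInt (v : Cfsg.GolayPt → ℤ) (x : Cfsg.GolayPt → ℤ) = 16}, ∀ x' ∈ {x : ↥Cfsg.leechLattice | Cfsg.sqNorm (x : Cfsg.GolayPt → ℤ) = 32 ∧ Cfsg.sqNorm ((u - x) : Cfsg.GolayPt → ℤ) = 32 ∧ Cfsg.dotInt (v : Cfsg.GolayPt → ℤ) (x : Cfsg.GolayPt → ℤ) = 16}, ∃ g : ↥Cfsg.Co0, g • u = u ∧ g • v = v ∧ g • x = x' := by
  open CL.Leech Cfsg.Spor in
  obtain ⟨g, rfl, rfl⟩ := summand_trans sqNorm_W0 hu U_mem ((summand_iff hu).1 hv)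
  open CL.Leech Cfsg.Spor in
  have h : {x : ↥Cfsg.leechLattice | Cfsg.sqNorm (x : Cfsg.GolayPt → ℤ) = 32 ∧
      Cfsg.sqNorm ((g • W0 : Cfsg.leechLattice) - x : Cfsg.GolayPt → ℤ) = 32 ∧
      Cfsg.dotInt ((g • leechU : Cfsg.leechLattice) : Cfsg.GolayPt → ℤ) (x : Cfsg.GolayPt → ℤ) = 16} =
      MulAction.orbit ↥(MulAction.stabilizer Cfsg.Co0 (g • W0) ⊓ MulAction.stabilizer Cfsg.Co0 (g • leechU))
        (g • X0) := by
    rw [((conj_stab g W0).inf (conj_stab g leechU)).orbit, orbit_275]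
    ext x
    obtain ⟨x, rfl⟩ := MulAction.surjective g x
    rw [(MulAction.injective g).mem_set_image, Set.mem_ofPred_eq, ← and_assoc, summand_iff hu,
      smul_mem_Mset_iff, dot_smul]
    rfl
  open CL.Leech Cfsg.Spor in
  rw [h, ((conj_stab g W0).inf (conj_stab g leechU)).ncard_orbit]
  refine ⟨CL.Leech.ncard_275, ?_⟩
  rintro _ ⟨⟨a, ha⟩, rfl⟩ _ ⟨⟨b, hb⟩, rfl⟩
  have h1 := Subgroup.mul_mem _ hb (Subgroup.inv_mem _ ha)
  exact ⟨b * a⁻¹, h1.1, h1.2, (mul_smul _ _ _).trans (congrArg _ (inv_smul_smul _ _))⟩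

end Cfsg.Agent.S1580
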