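import Cfsg.Statements.S1581
import Mathlib
import Cfsg.Agent.SPOR.LeechTrans

set_option autoImplicit false
open Cfsg

namespace Cfsg.Agent.S1581

open CL.Leech Cfsg.Spor in
theorem aux (u v x : ↥Cfsg.leechLattice) (hu : Cfsg.sqNorm (u : Cfsg.GolayPt → ℤ) = 48)
    (hv : v ∈ Mset u 24) (hx : x ∈ M2 u 24 v 16) :
    ∃ β, Config (MulAction.stabilizer Cfsg.Co0 u ⊓ MulAction.stabilizer Cfsg.Co0 v ⊓
      MulAction.stabilizer Cfsg.Co0 x) (M2 u 24 v 16) x β ![32, 8, 16] ![1, 112, 162] := by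
  obtain ⟨g, rfl, rfl, rfl⟩ := exists_smul_275 hu hv hx
  exact ⟨_, conf_u43.conj (((conj_stab g W0).inf (conj_stab g leechU)).inf (conj_stab g X0))
    fun y => by rw [smul_mem_M2_iff, orbit_275']⟩

/-- The McLaughlin group acts with rank 3 and subdegrees 1, 112, 162 on its 275 points: the point stabiliser has two orbits on the remaining points, distinguished by customary inner product 1 or 2 with the fixed point. -/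
theorem result (u v x : ↥Cfsg.leechLattice) (hu : Cfsg.sqNorm (u : Cfsg.GolayPt → ℤ) = 48) (hv : Cfsg.sqNorm (v : Cfsg.GolayPt → ℤ) = 32 ∧ Cfsg.sqNorm ((u - v) : Cfsg.GolayPt → ℤ) = 32) (hx : x ∈ {x : ↥Cfsg.leechLattice | Cfsg.sqNorm (x : Cfsg.GolayPt → ℤ) = 32 ∧ Cfsg.sqNorm ((u - x) : Cfsg.GolayPt → ℤ) = 32 ∧ Cfsg.dotInt (v : Cfsg.GolayPt → ℤ) (x : Cfsg.GolayPt → ℤ) = 16}) : {y : ↥Cfsg.leechLattice | y ∈ {x : ↥Cfsg.leechLattice | Cfsg.sqNorm (x : Cfsg.GolayPt → ℤ) = 32 ∧ Cfsg.sqNorm ((u - x) : Cfsg.GolayPt → ℤ) = 32 ∧ Cfsg.dotInt (v : Cfsg.GolayPt → ℤ) (x : Cfsg.GolayPt → ℤ) = 16} ∧ Cfsg.dotInt (x : Cfsg.GolayPt → ℤ) (y : Cfsg.GolayPt → ℤ) = 8}.ncard = 112 ∧ {y : ↥Cfsg.leechLattice | y ∈ {x : ↥Cfsg.leechLattice | Cfsg.sqNorm (x : Cfsg.GolayPt → ℤ) = 32 ∧ Cfsg.sqNorm ((u - x) : Cfsg.GolayPt → ℤ)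 = 32 ∧ Cfsg.dotInt (v : Cfsg.GolayPt → ℤ) (x : Cfsg.GolayPt → ℤ) = 16} ∧ y ≠ x ∧ Cfsg.dotInt (x : Cfsg.GolayPt → ℤ) (y : Cfsg.GolayPt → ℤ) = 16}.ncard = 162 ∧ ∀ y ∈ {x : ↥Cfsg.leechLattice | Cfsg.sqNorm (x : Cfsg.GolayPt → ℤ) = 32 ∧ Cfsg.sqNorm ((u - x) : Cfsg.GolayPt → ℤ) = 32 ∧ Cfsg.dotInt (v : Cfsg.GolayPt → ℤ) (x : Cfsg.GolayPt → ℤ) = 16}, ∀ y' ∈ {x : ↥Cfsg.leechLattice | Cfsg.sqNorm (x : Cfsg.GolayPt → ℤ) = 32 ∧ Cfsg.sqNorm ((u - x) : Cfsg.GolayPt → ℤ) = 32 ∧ Cfsg.dotInt (v : Cfsg.GolayPt → ℤ) (x : Cfsg.GolayPt → ℤ) = 16}, y ≠ x → y' ≠ x → Cfsg.dotInt (x : Cfsg.GolayPt → ℤ) (y : Cfsg.GolayPt → ℤ) = Cfsg.dotInt (x : Cfsg.GolayPt → ℤ) (y' : Cfsg.GolayPt → ℤ) → ∃ g : ↥Cfsg.Co0, g • u = u ∧ g • v = v ∧ g • x = x ∧ g • y = y' := by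
  rw [CL.Leech.summand_M2 hu] at hx ⊢
  obtain ⟨β, C⟩ := aux u v x hu ((CL.Leech.summand_iff hu).1 hv) hx
  refine ⟨C.ncard 1, Eq.trans ?_ (C.ncard 2), fun y hy y' hy' _ _ h => ?_⟩
  · congr 1
    ext y
    refine and_congr_right fun hy => ⟨fun h => h.2, fun h => ⟨fun e => ?_, h⟩⟩
    have := (CL.Leech.eq_of_dot_32 hx.1 hy.1).2 e
    have h' : Cfsg.dotInt (x : Cfsg.GolayPt → ℤ) y = 16 := h
    omega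
  · obtain ⟨g, hg, e⟩ := C.trans hy hy' h
    exact ⟨g, hg.1.1, hg.1.2, hg.2, e⟩

end Cfsg.Agent.S1581
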