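import Cfsg.Statements.S1587
-- import your own Cfsg.Agent.* helpers here

set_option autoImplicit false
open Matrix
open Cfsg

namespace Cfsg.Agent.S1587

/-- First step of the characterisation of the rank-24 lattice: in an even lattice without roots, norm-8 vectors congruent modulo 2 are equal, opposite or orthogonal. -/
theorem result (B : Matrix (Fin 24) (Fin 24) ℤ) (hsymm : B.IsSymm) (hpos : ∀ x : Fin 24 → ℤ, x ≠ 0 → 0 < x ⬝ᵥ (B *ᵥ x)) (heven : ∀ x : Fin 24 → ℤ, (2 : ℤ) ∣ x ⬝ᵥ (B *ᵥ x)) (h2 : ∀ x : Fin 24 → ℤ, x ⬝ᵥ (B *ᵥ x) ≠ 2) (x y : Fin 24 → ℤ) (hx : x ⬝ᵥ (B *ᵥ x) = 8) (hy : y ⬝ᵥ (B *ᵥ y) = 8) (hc : ∀ i, (2 : ℤ) ∣ (x - y) i) : y = x ∨ y = -x ∨ x ⬝ᵥ (B *ᵥ y) = 0 := by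
  have hsym : ∀ u v : Fin 24 → ℤ, u ⬝ᵥ (B *ᵥ v) = v ⬝ᵥ (B *ᵥ u) := by
    intro u v
    rw [Matrix.dotProduct_mulVec, ← Matrix.mulVec_transpose, hsymm.eq, dotProduct_comm]
  choose z hz using hc
  have hz' : x = y + (2 : ℤ) • z := by
    funext i
    have := hz i
    simp only [Pi.sub_apply] at this
    simp only [Pi.add_apply, Pi.smul_apply, smul_eq_mul]
    linarith
  -- norms of z and w = y + z
  have h1 : x ⬝ᵥ (B *ᵥ y) = 8 + 2 * (z ⬝ᵥ (B *ᵥ y)) := by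
    rw [hz', add_dotProduct, smul_dotProduct, hy]; simp
  have h3 : (8 : ℤ) = 8 + 4 * (z ⬝ᵥ (B *ᵥ y)) + 4 * (z ⬝ᵥ (B *ᵥ z)) := by
    have := hx
    rw [hz', Matrix.mulVec_add, Matrix.mulVec_smul, add_dotProduct, dotProduct_add, dotProduct_add,
      smul_dotProduct, smul_dotProduct, dotProduct_smul, dotProduct_smul, hy, hsym y z] at this
    simp only [smul_eq_mul] at this
    linarith
  have h4 : (y + z) ⬝ᵥ (B *ᵥ (y + z)) = 8 + 2 * (z ⬝ᵥ (B *ᵥ y)) + z ⬝ᵥ (B *ᵥ z) := by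
    rw [Matrix.mulVec_add, add_dotProduct, dotProduct_add, dotProduct_add, hy, hsym y z]
    ring
  by_cases hz0 : z = 0
  · left; rw [hz', hz0]; simp
  by_cases hw0 : y + z = 0
  · right; left
    have : z = -y := by rw [eq_neg_iff_add_eq_zero, add_comm]; exact hw0
    rw [hz', this]; funext i; simp; ring
  right; right
  have a1 := hpos z hz0
  have a2 := hpos _ hw0
  have a3 := heven z
  have a4 := heven (y + z)
  have a5 := h2 z
  have a6 := h2 (y + z)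
  rw [h4] at a2 a4 a6
  omega

end Cfsg.Agent.S1587
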