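import Cfsg.Statements.S1588
import Mathlib
import Cfsg.Agent.SPOR.LeechMod2

set_option autoImplicit false
open Matrix
open Cfsg

namespace Cfsg.Agent.S1588

/-- Second step of the characterisation: under the vector counts of the rank-24 lattice, the norm-8 vectors fall into congruence classes of exactly 48 modulo twice the lattice. -/
theorem result (B : Matrix (Fin 24) (Fin 24) ℤ) (hsymm : B.IsSymm) (hpos : ∀ x : Fin 24 → ℤ, x ≠ 0 → 0 < x ⬝ᵥ (B *ᵥ x)) (heven : ∀ x : Fin 24 → ℤ, (2 : ℤ) ∣ x ⬝ᵥ (B *ᵥ x)) (h2 : ∀ x : Fin 24 → ℤ, x ⬝ᵥ (B *ᵥ x) ≠ 2) (h4 : {x : Fin 24 → ℤ | x ⬝ᵥ (B *ᵥ x) = 4}.ncard = 196560) (h6 : {x : Fin 24 → ℤ | x ⬝ᵥ (B *ᵥ x) = 6}.ncard = 16773120) (h8 : {x : Fin 24 → ℤ | x ⬝ᵥ (B *ᵥ x) = 8}.ncard = 398034000) (x : Fin 24 → ℤ) (hx : x ⬝ᵥ (B *ᵥ x) = 8) : {y : Fin 24 → ℤ | y ⬝ᵥ (B *ᵥ y) = 8 ∧ ∀ i, (2 : ℤ) ∣ (x - y) i}.ncard = 48 := by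
  have hb : ∀ u v : Fin 24 → ℤ, Matrix.toBilin' B u v = u ⬝ᵥ (B *ᵥ v) := Matrix.toBilin'_apply' B
  have h : CL.Leech.LeechLike (Matrix.toBilin' B) :=
    { symm := fun u v => by
        rw [hb, hb, Matrix.dotProduct_mulVec, ← Matrix.mulVec_transpose, hsymm.eq, dotProduct_comm]
      pos := fun u hu => by rw [hb]; exact hpos u hu
      even := fun u => by rw [hb]; exact heven u
      no2 := fun u => by rw [hb]; exact h2 u
      c4 := by simp only [hb]; exact h4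
      c6 := by simp only [hb]; exact h6
      c8 := by simp only [hb]; exact h8 }
  rw [← (h.main (by simp)).2 x (by rw [hb]; exact hx)]
  congr 1
  ext y
  simp only [Set.mem_ofPred_eq, hb]
  refine and_congr_right fun _ => ⟨fun h => ?_, ?_⟩
  · choose z hz using h
    exact ⟨z, funext fun i => by rw [hz i]; simp⟩
  · rintro ⟨z, hz⟩ i
    rw [hz]; simp

end Cfsg.Agent.S1588
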