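import Cfsg.Statements.S1589
import Cfsg.Agent.SPOR.GolayIdx

set_option autoImplicit false
open scoped Pointwise
open Cfsg

namespace Cfsg.Agent.S1589

open CL CL.Orb CL.Golay CL.Golay.Idx MulAction

theorem card_map {H : Subgroup M24} {n m : ℕ} (h : H.index = n) (e : n * m = 244823040) :
    Nat.card (H.map M24.subtype) = m := by
  have := H.index_mul_card
  rw [card_M24, ← e, h] at this
  rw [Subgroup.card_map_of_injective M24.subtype_injective]
  exact Nat.eq_of_mul_eq_mul_left (Nat.pos_of_ne_zero fun a => by simp [a] at e) this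

theorem dvd {X : Type*} [MulAction Pm X] {H : Subgroup M24} {x : X} (h : ∀ g ∈ H.map M24.subtype, g • x = x) :
    Nat.card (H.map M24.subtype) ∣ Nat.card ↥(M24 ⊓ stabilizer Pm x) :=
  Subgroup.card_dvd_of_le fun g a => ⟨Subgroup.map_subtype_le H a, h g a⟩

theorem eq_stab {X : Type*} [MulAction Pm X] {H : Subgroup M24} {x : X} (h : ∀ g ∈ H.map M24.subtype, g • x = x)
    (e : Nat.card ↥(M24 ⊓ stabilizer Pm x) = Nat.card (H.map M24.subtype)) : H = stabilizer M24 x :=
  Subgroup.eq_of_le_of_card_ge (fun g a => h g ⟨g, a, rfl⟩) (by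
    rw [card_of_mem_iff (K := stabilizer M24 x) (H := M24 ⊓ stabilizer Pm x) inf_le_left
      fun a => (and_iff_right a.2).symm, e,
      Subgroup.card_map_of_injective M24.subtype_injective])

/-- Subgroups of the group of the length-24 code of index 759, 276 and 1771 are exactly the octad, duad and sextet stabilisers, and no subgroup has index 253. -/
theorem result : (∀ H : Subgroup ↥Cfsg.M24, H.index = 759 → ∃ o ∈ Cfsg.octads, H = MulAction.stabilizer Cfsg.M24 o) ∧ (∀ H : Subgroup ↥Cfsg.M24, H.index = 276 → ∃ s : Finset Cfsg.GolayPt, s.card = 2 ∧ H = MulAction.stabilizer Cfsg.M24 s) ∧ (∀ H : Subgroup ↥Cfsg.M24, H.index = 1771 → ∃ S ∈ Cfsg.sextets, H = MulAction.stabilizer Cfsg.M24 S) ∧ ∀ H : Subgroup ↥Cfsg.M24, H.index ≠ 253 := by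
  refine ⟨fun H h => ?_, fun H h => ?_, fun H h => ?_, fun H h => ?_⟩
  · have c := card_map h (m := 322560) rfl
    rcases odd_main (Subgroup.map_subtype_le H) (by rw [c]; norm_num) (by rw [c]; norm_num) (by rw [c]; norm_num)
      (by rw [c]; norm_num) with ⟨o, a, b⟩ | ⟨o, a, b⟩
    · exact ⟨o, a, eq_stab b ((card_stab_octad a).trans c.symm)⟩
    · exact absurd (c ▸ card_stab_sextet a ▸ dvd b) (by norm_num)
  · have c := card_map h (m := 887040) rfl
    obtain ⟨s, a, b⟩ := duad_main (Subgroup.map_subtype_le H) c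
    exact ⟨s, a, eq_stab b ((card_stab_small (by omega) (by rw [a]; rfl)).trans c.symm)⟩
  · have c := card_map h (m := 138240) rfl
    rcases odd_main (Subgroup.map_subtype_le H) (by rw [c]; norm_num) (by rw [c]; norm_num) (by rw [c]; norm_num)
      (by rw [c]; norm_num) with ⟨o, a, b⟩ | ⟨o, a, b⟩
    · exact absurd (c ▸ card_stab_octad a ▸ dvd b) (by norm_num)
    · exact ⟨o, a, eq_stab b ((card_stab_sextet a).trans c.symm)⟩
  · have c := card_map h (m := 967680) rfl
    rcases odd_main (Subgroup.map_subtype_le H) (by rw [c]; norm_num) (by rw [c]; norm_num) (by rw [c]; norm_num)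
      (by rw [c]; norm_num) with ⟨o, a, b⟩ | ⟨o, a, b⟩
    · exact absurd (c ▸ card_stab_octad a ▸ dvd b) (by norm_num)
    · exact absurd (c ▸ card_stab_sextet a ▸ dvd b) (by norm_num)

end Cfsg.Agent.S1589
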