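import Cfsg.Statements.S1590
import Cfsg.Agent.SPOR.Ternary

set_option autoImplicit false
open Cfsg

namespace Cfsg.Agent.S1590

open CL.Tern

theorem count (n m : ℕ)
    (h : (Finset.univ.filter fun u : Fin 6 → ZMod 3 => (ternarySupport (enc u)).card = n).card = m) :
    {x : Cfsg.ArrayPt → ZMod 3 | x ∈ Cfsg.ternaryGolayCode ∧ (Cfsg.ternarySupport x).card = n}.ncard = m := by
  rw [← h, ← Set.ncard_coe_finset, ← Set.ncard_image_of_injective _ enc_injective]
  congr 1
  ext x
  simp only [Set.mem_ofPred_eq, mem_iff, Finset.coe_filter, Finset.mem_univ, true_and, Set.mem_image]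
  constructor
  · rintro ⟨⟨u, rfl⟩, h⟩; exact ⟨u, h, rfl⟩
  · rintro ⟨u, h, rfl⟩; exact ⟨⟨u, rfl⟩, h⟩


/-- The length-12 ternary code has 729 words with weight distribution 0^1 6^264 9^440 12^24. -/
theorem result : Nat.card ↥Cfsg.ternaryGolayCode = 729 ∧ (∀ x ∈ Cfsg.ternaryGolayCode, x ≠ 0 → (Cfsg.ternarySupport x).card = 6 ∨ (Cfsg.ternarySupport x).card = 9 ∨ (Cfsg.ternarySupport x).card = 12) ∧ {x : Cfsg.ArrayPt → ZMod 3 | x ∈ Cfsg.ternaryGolayCode ∧ (Cfsg.ternarySupport x).card = 6}.ncard = 264 ∧ {x : Cfsg.ArrayPt → ZMod 3 | x ∈ Cfsg.ternaryGolayCode ∧ (Cfsg.ternarySupport x).card = 9}.ncard = 440 ∧ {x : Cfsg.ArrayPt → ZMod 3 | x ∈ Cfsg.ternaryGolayCode ∧ (Cfsg.ternarySupport x).card = 12}.ncard = 24 := by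
  refine ⟨?_, ?_, count 6 264 (by decide +kernel), count 9 440 (by decide +kernel),
    count 12 24 (by decide +kernel)⟩
  · have e : (Fin 6 → ZMod 3) ≃ Cfsg.ternaryGolayCode :=
      { toFun := fun u => ⟨enc u, enc_mem u⟩
        invFun := fun x => dec x
        left_inv := dec_enc
        right_inv := fun x => Subtype.ext (enc_dec x.2) }
    rw [← Nat.card_congr e, Nat.card_eq_fintype_card]
    simp
  · intro x hx hx0
    obtain ⟨u, rfl⟩ := (mem_iff x).1 hx
    have : ∀ u : Fin 6 → ZMod 3, (ternarySupport (enc u)).card = 0 ∨ (ternarySupport (enc u)).card = 6 ∨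
        (ternarySupport (enc u)).card = 9 ∨ (ternarySupport (enc u)).card = 12 := by decide +kernel
    rcases this u with h | h
    · exfalso
      apply hx0
      funext p
      rw [Finset.card_eq_zero, ternarySupport, Finset.filter_eq_empty_iff] at h
      simpa using h (Finset.mem_univ p)
    · exact h

end Cfsg.Agent.S1590
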