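import Cfsg.Statements.S1591
import Cfsg.Agent.SPOR.Ternary

set_option autoImplicit false
open Cfsg

namespace Cfsg.Agent.S1591

open CL.Tern

/-- Any two words of the length-12 ternary code have dot product zero. -/
theorem result (x y : Cfsg.ArrayPt → ZMod 3) (hx : x ∈ Cfsg.ternaryGolayCode) (hy : y ∈ Cfsg.ternaryGolayCode) : ∑ p, x p * y p = 0 := by
  obtain ⟨u, rfl⟩ := (mem_iff x).1 hx
  obtain ⟨v, rfl⟩ := (mem_iff y).1 hy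
  rw [Fintype.sum_prod_type, Fin.sum_univ_four, sum3, sum3, sum3, sum3]
  change u 0 * v 0 + u 1 * v 1 + u 2 * v 2 + (u 3 * v 3 + u 4 * v 4 +
      (u 0 + u 1 + u 2 + 2 * u 3 + 2 * u 4) * (v 0 + v 1 + v 2 + 2 * v 3 + 2 * v 4)) +
    (u 5 * v 5 + (2 * u 1 + u 2 + 2 * u 3 + u 4 + u 5) * (2 * v 1 + v 2 + 2 * v 3 + v 4 + v 5) +
      (u 0 + 2 * u 1 + u 3 + 2 * u 4 + u 5) * (v 0 + 2 * v 1 + v 3 + 2 * v 4 + v 5)) +
    ((u 0 + 2 * u 1 + 2 * u 2 + 2 * u 3 + 2 * u 5) * (v 0 + 2 * v 1 + 2 * v 2 + 2 * v 3 + 2 * v 5) +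
      (u 0 + u 2 + u 3 + u 4 + 2 * u 5) * (v 0 + v 2 + v 3 + v 4 + 2 * v 5) +
      (2 * u 0 + 2 * u 1 + u 2 + 2 * u 4 + 2 * u 5) * (2 * v 0 + 2 * v 1 + v 2 + 2 * v 4 + 2 * v 5)) = 0
  grind

end Cfsg.Agent.S1591
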