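import Cfsg.Statements.S1593
import Cfsg.Agent.SPOR.Ternary

set_option autoImplicit false
open Cfsg

namespace Cfsg.Agent.S1593

open CL.Tern

def info : Fin 6 → ArrayPt := ![(0, 0), (0, 1), (0, 2), (1, 0), (1, 1), (2, 0)]

theorem dec_apply (x : ArrayPt → ZMod 3) (j : Fin 6) : dec x j = x (info j) := by
  fin_cases j <;> rfl

theorem key (c : Cfsg.ArrayPt → (ZMod 3)ˣ)
    (h : (∀ x ∈ Cfsg.ternaryGolayCode, Cfsg.monomialMap 1 c x ∈ Cfsg.ternaryGolayCode))
    (i : Fin 6) (p : ArrayPt) (hp : enc (Pi.single i 1) p ≠ 0) : c p = c (info i) := by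
  have h1 := enc_dec (h _ (enc_mem (Pi.single i 1)))
  have h2 := enc_dec (Submodule.smul_mem _ (c (info i) : ZMod 3) (enc_mem (Pi.single i 1)))
  have h3 : dec (monomialMap 1 c (enc (Pi.single i 1))) =
      dec ((c (info i) : ZMod 3) • enc (Pi.single i 1)) := by
    funext j
    rw [dec_apply, dec_apply]
    change (c (info j) : ZMod 3) * enc (Pi.single i 1) (info j) =
      (c (info i) : ZMod 3) * enc (Pi.single i 1) (info j)
    rw [← dec_apply (enc (Pi.single i 1)), dec_enc]
    by_cases hij : j = i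
    · rw [hij]
    · simp [hij]
  rw [h3, h2] at h1
  have h4 := congrFun h1 p
  change (c (info i) : ZMod 3) * enc (Pi.single i 1) p = (c p : ZMod 3) * enc (Pi.single i 1) p at h4
  exact (Units.ext (mul_right_cancel₀ hp h4)).symm


/-- The only sign changes preserving the length-12 ternary code are the identity and negation of all coordinates. -/
theorem result (c : Cfsg.ArrayPt → (ZMod 3)ˣ) (h : (∀ x ∈ Cfsg.ternaryGolayCode, Cfsg.monomialMap 1 c x ∈ Cfsg.ternaryGolayCode)) : (∀ p, c p = 1) ∨ (∀ p, c p = -1) := by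
  have h0 : ∀ i, c (info i) = c (info 0) := by
    intro i
    have : ∀ i : Fin 6, ∃ p, enc (Pi.single i 1) p ≠ 0 ∧ enc (Pi.single 0 1) p ≠ 0 := by
      decide +kernel
    obtain ⟨p, h1, h2⟩ := this i
    rw [← key c h i p h1, key c h 0 p h2]
  have h1 : ∀ p, c p = c (info 0) := by
    intro p
    have : ∀ p, ∃ i : Fin 6, enc (Pi.single i 1) p ≠ 0 := by decide +kernel
    obtain ⟨i, hi⟩ := this p
    rw [key c h i p hi, h0]
  have : ∀ a : (ZMod 3)ˣ, a = 1 ∨ a = -1 := by decide
  rcases this (c (info 0)) with h2 | h2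
  · left; intro p; rw [h1, h2]
  · right; intro p; rw [h1, h2]

end Cfsg.Agent.S1593
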