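import Cfsg.Statements.S1594
import Cfsg.Agent.SPOR.TernaryBlocks
import Cfsg.Agent.S1593

set_option autoImplicit false
open Cfsg

namespace Cfsg.Agent.S1594

open CL.Tern CL.Chain
open scoped Pointwise

theorem mono_mul (σ τ : Equiv.Perm ArrayPt) (c d : ArrayPt → (ZMod 3)ˣ) (x : ArrayPt → ZMod 3) :
    monomialMap σ c (monomialMap τ d x) = monomialMap (σ * τ) (fun i => c i * d (σ.symm i)) x := by
  funext i
  simp only [monomialMap, Units.val_mul, mul_assoc]
  rfl

theorem mono_inj (σ : Equiv.Perm ArrayPt) (c : ArrayPt → (ZMod 3)ˣ) :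
    Function.Injective (monomialMap σ c) := by
  intro x y h
  funext i
  have := congrFun h (σ i)
  simp only [monomialMap, Equiv.symm_apply_apply] at this
  exact mul_left_cancel₀ (Units.ne_zero _) this

theorem mono_surj {σ : Equiv.Perm ArrayPt} {c : ArrayPt → (ZMod 3)ˣ}
    (h : ∀ x ∈ ternaryGolayCode, monomialMap σ c x ∈ ternaryGolayCode)
    {y : ArrayPt → ZMod 3} (hy : y ∈ ternaryGolayCode) :
    ∃ x ∈ ternaryGolayCode, monomialMap σ c x = y := by
  let f : ternaryGolayCode → ternaryGolayCode := fun x => ⟨monomialMap σ c x, h x x.2⟩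
  have hf : Function.Injective f := fun x y hxy =>
    Subtype.ext (mono_inj σ c (congrArg Subtype.val hxy))
  obtain ⟨x, hx⟩ := Finite.surjective_of_injective hf ⟨y, hy⟩
  exact ⟨x, x.2, congrArg Subtype.val hx⟩

/-- The permutation parts of the monomial automorphisms. -/
def P : Subgroup (Equiv.Perm ArrayPt) where
  carrier := {σ | ∃ c : ArrayPt → (ZMod 3)ˣ,
    ∀ x ∈ ternaryGolayCode, monomialMap σ c x ∈ ternaryGolayCode}
  one_mem' := ⟨1, fun x hx => by
    have : monomialMap 1 1 x = x := by funext i; simp [monomialMap]; rfl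
    rwa [this]⟩
  mul_mem' := by
    rintro σ τ ⟨c, hc⟩ ⟨d, hd⟩
    exact ⟨_, fun x hx => mono_mul σ τ c d x ▸ hc _ (hd x hx)⟩
  inv_mem' := by
    rintro σ ⟨c, hc⟩
    refine ⟨fun i => (c (σ i))⁻¹, fun y hy => ?_⟩
    obtain ⟨x, hx, rfl⟩ := mono_surj hc hy
    have : monomialMap σ⁻¹ (fun i => (c (σ i))⁻¹) (monomialMap σ c x) = x := by
      funext i
      simp only [monomialMap]
      change _ * (↑(c (σ i)) * x (σ.symm (σ i))) = _
      rw [Equiv.symm_apply_apply, Units.inv_mul_cancel_left]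
    rwa [this]

theorem support_mono (σ : Equiv.Perm ArrayPt) (c : ArrayPt → (ZMod 3)ˣ) (x : ArrayPt → ZMod 3) :
    ternarySupport (monomialMap σ c x) = σ • ternarySupport x := by
  ext p
  rw [← Finset.inv_smul_mem_iff]
  simp [ternarySupport, monomialMap, Equiv.Perm.smul_def, Equiv.Perm.inv_def]

theorem P_le : P ≤ setSystemAut hexads := by
  have key : ∀ σ ∈ P, σ • hexads ⊆ hexads := by
    rintro σ ⟨c, hc⟩ _ ⟨h, ⟨x, hx, rfl, h6⟩, rfl⟩
    refine ⟨_, hc x hx, support_mono σ c x, ?_⟩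
    simp only [Finset.card_smul_finset, h6]
  intro σ hσ
  rw [MulAction.mem_stabilizer_iff]
  apply le_antisymm (key σ hσ)
  have := key σ⁻¹ (inv_mem hσ)
  rwa [← Set.subset_smul_set_iff] at this

theorem levels (i : Fin 5) (p : ArrayPt) (_ : p ∈ Set.univ) (hp : ∀ j < i, p ≠ base5 j) :
    ∃ g ∈ P, (∀ j < i, g • base5 j = base5 j) ∧ g • p = base5 i := by
  obtain ⟨h1, h2, h3, h4⟩ := lev_spec i p hp
  let τ : Equiv.Perm ArrayPt := Equiv.ofBijective _ (Finite.injective_iff_bijective.1 h1)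
  refine ⟨τ, ?_, h2, h3⟩
  rw [← inv_mem_iff]
  exact ⟨levC i p, fun x hx => map_mem_of_basis (levF i p) (fun q => (levC i p q : ZMod 3)) h4 hx⟩

theorem base5_inj : Function.Injective base5 := by decide

theorem P_eq : P = setSystemAut hexads := by
  apply eq_of_le_of_base P_le base5
  · intro g _
    exact exists_smul_eq_of_levels P Set.univ base5 (fun _ _ _ _ => trivial) levels
      (fun i => g • base5 i) (fun i j h => base5_inj (smul_left_cancel g h)) (fun _ => trivial)
  · intro g hg h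
    rw [rigid hg h]; exact one_mem _

theorem card_P : Nat.card P = 95040 := by
  rw [card_eq_descFactorial P Finset.univ base5 base5_inj (fun _ => Finset.mem_univ _)
    (fun _ _ _ _ => Finset.mem_univ _)
    (fun x hx _ => exists_smul_eq_of_levels P Set.univ base5 (fun _ _ _ _ => trivial) levels
      x hx (fun _ => trivial))
    (fun g hg h => rigid (P_le hg) h)]
  rfl


/-- The monomial automorphism group of the length-12 ternary code has order 190080 and its permutation parts are exactly the automorphisms of its hexad system. -/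
theorem result : Nat.card {f : Equiv.Perm Cfsg.ArrayPt × (Cfsg.ArrayPt → (ZMod 3)ˣ) // (∀ x ∈ Cfsg.ternaryGolayCode, Cfsg.monomialMap f.1 f.2 x ∈ Cfsg.ternaryGolayCode)} = 190080 ∧ {σ : Equiv.Perm Cfsg.ArrayPt | ∃ c : Cfsg.ArrayPt → (ZMod 3)ˣ, (∀ x ∈ Cfsg.ternaryGolayCode, Cfsg.monomialMap σ c x ∈ Cfsg.ternaryGolayCode)} = (Cfsg.setSystemAut {h : Finset Cfsg.ArrayPt | ∃ x ∈ Cfsg.ternaryGolayCode, Cfsg.ternarySupport x = h ∧ h.card = 6} : Set (Equiv.Perm Cfsg.ArrayPt)) := by
  refine ⟨?_, congrArg SetLike.coe P_eq⟩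
  choose ch hch using fun σ : P => σ.2
  let f : P × (ZMod 3)ˣ → {f : Equiv.Perm Cfsg.ArrayPt × (Cfsg.ArrayPt → (ZMod 3)ˣ) //
      (∀ x ∈ Cfsg.ternaryGolayCode, Cfsg.monomialMap f.1 f.2 x ∈ Cfsg.ternaryGolayCode)} :=
    fun a => ⟨(a.1, fun i => a.2 * ch a.1 i), fun x hx => by
      have : monomialMap (a.1 : Equiv.Perm ArrayPt) (fun i => a.2 * ch a.1 i) x =
          (a.2 : ZMod 3) • monomialMap (a.1 : Equiv.Perm ArrayPt) (ch a.1) x := by
        funext i; simp [monomialMap, mul_assoc]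
      rw [this]
      exact Submodule.smul_mem _ _ (hch a.1 x hx)⟩
  have hf : Function.Bijective f := by
    constructor
    · rintro ⟨σ, a⟩ ⟨τ, b⟩ h
      have h1 := congrArg (fun z => z.1.1) h
      have h2 := congrArg (fun z => z.1.2 (0, 0)) h
      have h1' : σ = τ := Subtype.ext h1
      subst h1'
      simp only [f] at h2
      rw [mul_right_cancel h2]
    · rintro ⟨⟨σ, c⟩, hc⟩
      have hσ : σ ∈ P := ⟨c, hc⟩
      have := Cfsg.Agent.S1593.result (fun i => c i * (ch ⟨σ, hσ⟩ i)⁻¹) (by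
        intro y hy
        obtain ⟨x, hx, rfl⟩ := mono_surj (hch ⟨σ, hσ⟩) hy
        have : monomialMap 1 (fun i => c i * (ch ⟨σ, hσ⟩ i)⁻¹) (monomialMap σ (ch ⟨σ, hσ⟩) x) =
            monomialMap σ c x := by
          funext i
          simp only [monomialMap, Units.val_mul, mul_assoc]
          change _ * (_ * ((ch ⟨σ, hσ⟩ i : ZMod 3) * _)) = _
          rw [Units.inv_mul_cancel_left]
          rfl
        rw [this]
        exact hc x hx)
      rcases this with h | h
      · refine ⟨(⟨σ, hσ⟩, 1), Subtype.ext (Prod.ext rfl ?_)⟩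
        funext i
        exact (mul_inv_eq_iff_eq_mul.1 (h i)).symm
      · refine ⟨(⟨σ, hσ⟩, -1), Subtype.ext (Prod.ext rfl ?_)⟩
        funext i
        exact (mul_inv_eq_iff_eq_mul.1 (h i)).symm
  rw [← Nat.card_eq_of_bijective f hf, Nat.card_prod, card_P, Nat.card_eq_fintype_card]
  rfl

end Cfsg.Agent.S1594
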