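import Cfsg.Statements.S1597
import Mathlib
import Cfsg.Agent.SPOR.Quartet

set_option autoImplicit false
open scoped Pointwise
open Cfsg

namespace Cfsg.Agent.S1597

open CL CL.K CL.Orb CL.Enc CL.Golay CL.M12 MulAction
open scoped Pointwise

/-- A dodecad has 220 quartets and its stabiliser is transitive on them. -/
theorem result (d : Finset Cfsg.GolayPt) (hd : d ∈ Cfsg.dodecads) : (Cfsg.quartets d).ncard = 220 ∧ ∀ Q ∈ Cfsg.quartets d, ∀ Q' ∈ Cfsg.quartets d, ∃ g : Equiv.Perm Cfsg.GolayPt, g ∈ Cfsg.M24 ∧ g • d = d ∧ g • Q = Q' := by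
  refine ⟨?_, fun Q hQ Q' hQ' => ?_⟩
  · obtain ⟨a, ha, rfl⟩ := exists_smul_dodecad D0_mem hd
    exact (ncard_sep_smul a (p := fun Q => Q ∈ Cfsg.quartets (E.setOf D0))
      (q := fun Q => Q ∈ Cfsg.quartets (a • E.setOf D0)) fun Q => smul_mem_quartets_iff ha).trans
      ncard_quartets_card_GQ.1
  · obtain ⟨a, ha, h1, rfl⟩ := exists_smul_quartet hd hQ
    obtain ⟨b, hb, h2, rfl⟩ := exists_smul_quartet hd hQ'
    refine ⟨b * a⁻¹, Cfsg.M24.mul_mem hb (Cfsg.M24.inv_mem ha), ?_, ?_⟩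
    · rw [mul_smul, ← h1, inv_smul_smul, h2, h1]
    · rw [mul_smul, inv_smul_smul]

end Cfsg.Agent.S1597
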