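import Cfsg.Statements.S1598
import Mathlib
import Cfsg.Agent.SPOR.Quartet

set_option autoImplicit false
open scoped Pointwise
open Cfsg

namespace Cfsg.Agent.S1598

open CL CL.K CL.Orb CL.Enc CL.Golay CL.M12 MulAction
open scoped Pointwise

def lb (x y : ZMod 3) : Cfsg.GolayPt := E.dec (fld 5 31 22797094606533 (3 * x.val + y.val))

def lab (x : Fin 2 → ZMod 3) : Cfsg.GolayPt := lb (x 0) (x 1)

theorem lb_inj : ∀ a b c d, lb a b = lb c d → a = c ∧ b = d := by decide +kernel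

theorem lab_inj : Function.Injective lab := fun x y h => by
  have := lb_inj _ _ _ _ h
  ext i
  fin_cases i
  exacts [this.1, this.2]

/-- affine maps on the nine points, with their linear parts. -/
def graph : Subgroup (Equiv.Perm Cfsg.GolayPt × GL (Fin 2) (ZMod 3)) where
  carrier := {x | ∃ t, ∀ v, x.1 (lab v) = lab (x.2.1.mulVec v + t)}
  one_mem' := ⟨0, fun v => by simp⟩
  mul_mem' := by
    rintro ⟨g, A⟩ ⟨h, B⟩ ⟨t, ht⟩ ⟨s, hs⟩
    refine ⟨A.1.mulVec s + t, fun v => ?_⟩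
    simp only [Prod.mk_mul_mk, Equiv.Perm.mul_apply, Units.val_mul] at ht hs ⊢
    rw [hs, ht, Matrix.mulVec_add, Matrix.mulVec_mulVec, add_assoc]
  inv_mem' := by
    rintro ⟨g, A⟩ ⟨t, ht⟩
    refine ⟨-(A⁻¹).1.mulVec t, fun v => ?_⟩
    simp only [Prod.inv_mk] at ht ⊢
    rw [Equiv.Perm.inv_eq_iff_eq, ht, Matrix.mulVec_add, Matrix.mulVec_neg, Matrix.mulVec_mulVec,
      Matrix.mulVec_mulVec, ← Units.val_mul, mul_inv_cancel]
    simp

theorem mulVec_two (A : Matrix (Fin 2) (Fin 2) (ZMod 3)) (x : Fin 2 → ZMod 3) (i : Fin 2) :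
    A.mulVec x i = A i 0 * x 0 + A i 1 * x 1 := by
  simp [Matrix.mulVec, dotProduct, Fin.sum_univ_two]

theorem exists_graph : ∀ g ∈ GQ, ∃ A, (g, A) ∈ graph := by
  rw [GQ_eq_gen]
  refine exists_of_gen _ fun P hP => ?_
  have hr := (sgsQ_in P hP).rep
  have key : ∀ (a b c d s t : ZMod 3), (a * d - b * c ≠ 0 ∧
      ∀ x y, fld 5 31 P (E.enc (lb x y)) = E.enc (lb (a * x + b * y + s) (c * x + d * y + t))) →
      ∃ k : GL (Fin 2) (ZMod 3), (pm P, k) ∈ graph := fun a b c d s t h =>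
    ⟨Matrix.GeneralLinearGroup.mkOfDetNeZero !![a, b; c, d] (by rw [Matrix.det_fin_two_of]; exact h.1),
      ![s, t], fun x => E.enc_injective (by
      rw [hr]
      simp only [lab, mulVec_two, Matrix.GeneralLinearGroup.val_mkOfDetNeZero, Matrix.of_apply,
        Matrix.cons_val', Matrix.cons_val_zero, Matrix.cons_val_one, Matrix.cons_val_fin_one, h.2,
        Pi.add_apply])⟩
  simp only [sgsQ, List.mem_cons, List.not_mem_nil, or_false] at hP
  rcases hP with rfl | rfl | rfl | rfl | rfl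
  exacts [key 2 1 0 1 0 0 (by decide +kernel), key 1 0 0 1 2 0 (by decide +kernel),
    key 1 2 0 1 1 0 (by decide +kernel), key 1 2 0 2 0 1 (by decide +kernel),
    key 2 2 1 0 0 2 (by decide +kernel)]

theorem card_GL : Nat.card (GL (Fin 2) (ZMod 3)) = 48 := by
  rw [Matrix.card_GL_field, ZMod.card, Fin.prod_univ_two]
  rfl

theorem exists_hom : ∃ f : GQ →* GL (Fin 2) (ZMod 3), Nat.card f.ker ≤ 9 := by
  obtain ⟨f, hf⟩ := Graph.exists_hom graph (fun A ⟨t, ht⟩ => by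
    have h0 : ∀ v, v = A.1.mulVec v + t := fun v => lab_inj (ht v)
    have h1 : t = 0 := by simpa using (h0 0).symm
    refine Units.ext (Matrix.toLin'.injective (LinearMap.ext fun v => ?_))
    simpa [h1] using (h0 v).symm) GQ exists_graph
  refine ⟨f, ?_⟩
  have h1 : ∀ g : f.ker, ∃ t, ∀ v, (g.1 : Equiv.Perm Cfsg.GolayPt) (lab v) = lab (v + t) := fun g => by
    obtain ⟨t, ht⟩ := hf g.1
    refine ⟨t, fun v => ?_⟩
    simpa [show f g.1 = 1 from g.2] using ht v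
  choose t ht using h1
  refine le_trans (Nat.card_le_card_of_injective t fun g h e => ?_) (by simp)
  have h2 : ((h.1 : Equiv.Perm Cfsg.GolayPt))⁻¹ * g.1 = 1 := by
    refine eq_one_of_fix (compl_mem_dodecads D0_mem) (s := Finset.univ.image lab) ?_ ?_
      (St_compl _ ▸ mul_mem (inv_mem h.1.2.1) g.1.2.1) fun p hp => ?_
    · intro p hp
      obtain ⟨v, -, rfl⟩ := Finset.mem_image.1 hp
      exact (by decide +kernel : ∀ a b, lb a b ∈ (E.setOf D0)ᶜ) _ _
    · rw [Finset.card_image_of_injective _ lab_inj]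
      simp
    · obtain ⟨v, -, rfl⟩ := Finset.mem_image.1 hp
      rw [Equiv.Perm.mul_apply, Equiv.Perm.inv_eq_iff_eq, ht, ht, e]
  exact Subtype.ext (Subtype.ext (inv_mul_eq_one.1 h2).symm)

theorem main {G : Type*} [Group G] (e : G ≃* GQ) : ∃ (N : Subgroup G) (_ : N.Normal),
    Nat.card N = 9 ∧ Nonempty (G ⧸ N ≃* GL (Fin 2) (ZMod 3)) := by
  obtain ⟨f, hf⟩ := exists_hom
  have h1 := f.ker.card_mul_index
  rw [Subgroup.index_ker, card_GQ] at h1
  have h2 : Nat.card f.range ≤ 48 := card_GL ▸ Subgroup.card_le_card_group _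
  have h3 : Nat.card f.range = 48 := by nlinarith
  have h4 : Function.Surjective f := MonoidHom.range_eq_top.1
    (Subgroup.eq_top_of_card_eq _ (h3.trans card_GL.symm))
  have h5 : Function.Surjective (f.comp e.toMonoidHom) := h4.comp e.surjective
  refine ⟨_, inferInstance, ?_, ⟨QuotientGroup.quotientKerEquivOfSurjective _ h5⟩⟩
  have h6 := (f.comp e.toMonoidHom).ker.card_mul_index
  rw [Subgroup.index_ker, MonoidHom.range_eq_top.2 h5, Subgroup.card_top, card_GL,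
    Nat.card_congr e.toEquiv, card_GQ] at h6
  omega

theorem trans (x y : Cfsg.GolayPt) (hx : x ∈ E.setOf D0) (hy : y ∈ E.setOf D0) :
    ∃ g ∈ GQ, g x = y := by
  obtain ⟨g, hg, e⟩ := tuple_trans_of_chain (B₀ := []) (B₁ := [(0, 12)])
    (B₂ := [(1, 2), (3, 9), (4, 2)]) sgsQ_in sgsQ_chain card_GQ.le (E.setOf D0)
    (fun g hg p hp => apply_mem_of_smul_eq hg.1.1.2 hp)
    (k := 1) rfl (by decide +kernel) (by decide +kernel)
    (by rw [D0_mem.2]; decide) ![x] ![y]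
    (Function.injective_of_subsingleton _) (by simpa) (Function.injective_of_subsingleton _)
    (by simpa)
  exact ⟨g, hg.1, e 0⟩

/-- A quartet stabiliser inside the dodecad stabiliser has order 432, a normal subgroup of order 9 with quotient GL(2, 3), and is transitive on the dodecad. -/
theorem result (d : Finset Cfsg.GolayPt) (hd : d ∈ Cfsg.dodecads) (Q : Finset (Finset Cfsg.GolayPt)) (hQ : Q ∈ Cfsg.quartets d) : Nat.card ↥(MulAction.stabilizer Cfsg.M24 d ⊓ MulAction.stabilizer Cfsg.M24 Q) = 432 ∧ (∃ (N : Subgroup ↥(MulAction.stabilizer Cfsg.M24 d ⊓ MulAction.stabilizer Cfsg.M24 Q)) (_ : N.Normal), Nat.card N = 9 ∧ Nonempty (↥(MulAction.stabilizer Cfsg.M24 d ⊓ MulAction.stabilizer Cfsg.M24 Q) ⧸ N ≃* GL (Fin 2) (ZMod 3))) ∧ ∀ p ∈ d, ∀ q ∈ d, ∃ g ∈ (MulAction.stabilizer Cfsg.M24 d ⊓ MulAction.stabilizer Cfsg.M24 Q), ((g : ↥Cfsg.M24) : Equiv.Perm Cfsg.GolayPt) p = q := by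
  obtain ⟨a, ha, rfl, rfl⟩ := exists_smul_quartet hd hQ
  let e := Graph.conjLiftIso (H := GQ) (fun g hg => hg.1.1) ⟨a, ha⟩ (conj_mem_GQ_iff ⟨a, ha⟩)
  refine ⟨(Nat.card_congr e.toEquiv).trans card_GQ, main e, fun x hx y hy => ?_⟩
  obtain ⟨g, hg, e⟩ := trans (a⁻¹ x) (a⁻¹ y) (inv_apply_mem.2 hx) (inv_apply_mem.2 hy)
  refine ⟨_, (conj_mem_GQ_iff ⟨a, ha⟩ ⟨g, hg.1.1⟩).2 hg, ?_⟩
  show a (g (a⁻¹ x)) = y
  rw [e]
  simp

end Cfsg.Agent.S1598
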