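import Cfsg.Statements.S1599
import Mathlib
import Cfsg.Agent.SPOR.Quartet

set_option autoImplicit false
open scoped Pointwise
open Cfsg

namespace Cfsg.Agent.S1599

open CL CL.K CL.Orb CL.Enc CL.Golay CL.M12 MulAction
open scoped Pointwise

/-- A quartet stabiliser has five orbits on the quartets of its dodecad, of sizes 1, 12, 27, 72, 108. -/
theorem result (d : Finset Cfsg.GolayPt) (hd : d ∈ Cfsg.dodecads) (Q : Finset (Finset Cfsg.GolayPt)) (hQ : Q ∈ Cfsg.quartets d) : ∃ X₁ ∈ Cfsg.quartets d, ∃ X₂ ∈ Cfsg.quartets d, ∃ X₃ ∈ Cfsg.quartets d, ∃ X₄ ∈ Cfsg.quartets d, (MulAction.orbit ↥(MulAction.stabilizer Cfsg.M24 d ⊓ MulAction.stabilizer Cfsg.M24 Q) X₁).ncard = 12 ∧ (MulAction.orbit ↥(MulAction.stabilizer Cfsg.M24 d ⊓ MulAction.stabilizer Cfsg.M24 Q) X₂).ncard = 27 ∧ (MulAction.orbit ↥(MulAction.stabilizer Cfsg.M24 d ⊓ MulAction.stabilizer Cfsg.M24 Q) X₃).ncard = 72 ∧ (MulAction.orbit ↥(MulAction.stabilizer Cfsg.M24 d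 ⊓ MulAction.stabilizer Cfsg.M24 Q) X₄).ncard = 108 ∧ Cfsg.quartets d = {Q} ∪ MulAction.orbit ↥(MulAction.stabilizer Cfsg.M24 d ⊓ MulAction.stabilizer Cfsg.M24 Q) X₁ ∪ MulAction.orbit ↥(MulAction.stabilizer Cfsg.M24 d ⊓ MulAction.stabilizer Cfsg.M24 Q) X₂ ∪ MulAction.orbit ↥(MulAction.stabilizer Cfsg.M24 d ⊓ MulAction.stabilizer Cfsg.M24 Q) X₃ ∪ MulAction.orbit ↥(MulAction.stabilizer Cfsg.M24 d ⊓ MulAction.stabilizer Cfsg.M24 Q) X₄ := by
  obtain ⟨a, ha, rfl, rfl⟩ := exists_smul_quartet hd hQ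
  have hinv : ∀ y ∈ GQ, ∀ x ∈ Cfsg.quartets (E.setOf D0), y • x ∈ Cfsg.quartets (E.setOf D0) :=
    fun y hy x hx => by
      have := smul_mem_quartets hy.1.1 hx
      rwa [show y • E.setOf D0 = E.setOf D0 from hy.1.2] at this
  have hq : ∀ cn ∈ [(Q0, 1), (1276663464188692137680830471, 12), (1549842903141869672789442571, 27), (1276644573448242040521359371, 72), (1239224544874229415658127371, 108)], isQua cn.1 = true := by decide +kernel
  obtain ⟨h1, h2⟩ := (coded_fam4 sgsQ_in).orbs_spec (H := GQ) GQ_eq_gen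
    (F := Cfsg.quartets (E.setOf D0)) (Set.toFinite _) hinv
    famHash_injOn (fuel := 120) (reps := [(Q0, 1), (1276663464188692137680830471, 12), (1549842903141869672789442571, 27), (1276644573448242040521359371, 72), (1239224544874229415658127371, 108)])
    (fun cn hcn => ⟨trivial, fam4_mem (hq cn hcn)⟩) ncard_quartets_card_GQ.1.le (by decide +kernel)
  have key : ∀ X : Finset (Finset Cfsg.GolayPt), orbit ↥(stabilizer Cfsg.M24 (a • E.setOf D0) ⊓
      stabilizer Cfsg.M24 (a • fam4 Q0)) (a • X) = a • orbit GQ X := fun X =>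
    orbit_conj (H := GQ) (fun g hg => hg.1.1) ⟨a, ha⟩ (conj_mem_GQ_iff ⟨a, ha⟩) X
  simp only [List.forall_mem_cons, List.not_mem_nil, false_imp_iff, implies_true, and_true] at hq h1
  refine ⟨_, smul_mem_quartets ha (fam4_mem hq.2.1), _, smul_mem_quartets ha (fam4_mem hq.2.2.1),
    _, smul_mem_quartets ha (fam4_mem hq.2.2.2.1), _, smul_mem_quartets ha (fam4_mem hq.2.2.2.2), ?_⟩
  simp only [key, Set.ncard_smul_set]
  refine ⟨h1.2.1, h1.2.2.1, h1.2.2.2.1, h1.2.2.2.2, ?_⟩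
  have h3 : orbit GQ (fam4 Q0) = {fam4 Q0} := by
    ext X
    constructor
    · rintro ⟨g, rfl⟩
      exact g.2.2
    · rintro rfl
      exact mem_orbit_self _
  rw [← Set.smul_set_singleton, ← h3, ← Set.smul_set_union, ← Set.smul_set_union,
    ← Set.smul_set_union, ← Set.smul_set_union]
  ext X
  rw [Set.mem_smul_set_iff_inv_smul_mem, ← smul_mem_quartets_iff (Cfsg.M24.inv_mem ha),
    inv_smul_smul]
  constructor
  · intro hX
    simpa only [List.mem_cons, List.not_mem_nil, or_false, exists_eq_or_imp, exists_eq_left,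
      Set.mem_union, or_assoc] using h2 _ hX
  · have : ∀ c, isQua c = true → ∀ Y ∈ orbit GQ (fam4 c), Y ∈ Cfsg.quartets (E.setOf D0) := by
      rintro c hc _ ⟨g, rfl⟩
      exact hinv g g.2 _ (fam4_mem hc)
    rintro ((((h | h) | h) | h) | h)
    exacts [this _ hq.1 _ h, this _ hq.2.1 _ h, this _ hq.2.2.1 _ h, this _ hq.2.2.2.1 _ h,
      this _ hq.2.2.2.2 _ h]

end Cfsg.Agent.S1599
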