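import Cfsg.Statements.S1600
import Mathlib
import Cfsg.Agent.SPOR.M12b
import Cfsg.Agent.SPOR.SimpleOn

set_option autoImplicit false
open scoped Pointwise
open Cfsg

namespace Cfsg.Agent.S1600

open CL CL.K CL.Orb CL.Enc CL.Golay CL.M12 MulAction
open scoped Pointwise

def L : List ℕ := [970499966350631336865513127433832480, 487373122709212905255923294881187872, 809399594410595785774724965859756064, 715461294005770680473893921775552544, 609102723446709135869219233553720352, 606919857703981517816152225291213184, 463989878108995956682439907598665763]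

theorem L_in : ∀ P ∈ L, I (St (E.setOf D0)) P := in_St_of_lall (by decide +kernel)

theorem trans (x y : Cfsg.GolayPt) (hx : x ∉ E.setOf D0) (hy : y ∉ E.setOf D0) :
    ∃ g ∈ G9, g x = y := by
  obtain ⟨g, hg, e⟩ := tuple_trans_of_chain (B₀ := [(0, 12), (1, 11), (2, 10)]) (B₁ := [(5, 12)])
    (B₂ := [(3, 3), (4, 2)]) L_in (by decide +kernel) (card_St D0_mem).le (E.setOf D0)ᶜ
    (fun g hg p hp => Finset.mem_compl.2 (apply_notMem_of_smul_eq hg.1.2 (Finset.mem_compl.1 hp)))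
    (k := 1) rfl (by decide +kernel) (by decide +kernel)
    (by rw [Finset.card_compl, D0_mem.2, card_pt]; decide) ![x] ![y]
    (Function.injective_of_subsingleton _) (by simpa) (Function.injective_of_subsingleton _)
    (by simpa)
  exact ⟨g, hg, e 0⟩

/-- The pointwise stabiliser of three points of a dodecad inside the dodecad stabiliser (order 72) is transitive on the complementary dodecad. -/
theorem result (d : Finset Cfsg.GolayPt) (hd : d ∈ Cfsg.dodecads) (p q r : Cfsg.GolayPt) (hp : p ∈ d) (hq : q ∈ d) (hr : r ∈ d) (hpq : p ≠ q) (hpr : p ≠ r) (hqr : q ≠ r) : Nat.card ↥(MulAction.stabilizer Cfsg.M24 d ⊓ MulAction.stabilizer Cfsg.M24 p ⊓ MulAction.stabilizer Cfsg.M24 q ⊓ MulAction.stabilizer Cfsg.M24 r) = 72 ∧ ∀ x ∉ d, ∀ y ∉ d, ∃ g ∈ (MulAction.stabilizer Cfsg.M24 d ⊓ MulAction.stabilizer Cfsg.M24 p ⊓ MulAction.stabilizer Cfsg.M24 q ⊓ MulAction.stabilizer Cfsg.M24 r), ((g : ↥Cfsg.M24) : Equiv.Perm Cfsg.GolayPt)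 x = y := by
  obtain ⟨a, ha, rfl, e⟩ := exists_smul_tuple D0_mem hd (k := 3) (by norm_num)
    ![E.dec 0, E.dec 1, E.dec 2] ![p, q, r] (by decide +kernel) (by decide +kernel)
    (SimpleCrit.inj3 hpq hpr hqr) (by simp [Fin.forall_fin_succ, *])
  obtain rfl : (⟨a, ha⟩ : Cfsg.M24) • E.dec 0 = p := e 0
  obtain rfl : (⟨a, ha⟩ : Cfsg.M24) • E.dec 1 = q := e 1
  obtain rfl : (⟨a, ha⟩ : Cfsg.M24) • E.dec 2 = r := e 2
  have key : ∀ g : Cfsg.M24, (⟨a, ha⟩ : Cfsg.M24) * g * (⟨a, ha⟩ : Cfsg.M24)⁻¹ ∈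
      stabilizer Cfsg.M24 ((⟨a, ha⟩ : Cfsg.M24) • E.setOf D0) ⊓
      stabilizer Cfsg.M24 ((⟨a, ha⟩ : Cfsg.M24) • E.dec 0) ⊓
      stabilizer Cfsg.M24 ((⟨a, ha⟩ : Cfsg.M24) • E.dec 1) ⊓
      stabilizer Cfsg.M24 ((⟨a, ha⟩ : Cfsg.M24) • E.dec 2) ↔ (g : Equiv.Perm Cfsg.GolayPt) ∈ G9 := by
    intro g
    simp only [Subgroup.mem_inf, Graph.conj_mem_stabilizer, Enc.mem_fixL, List.forall_mem_cons,
      List.not_mem_nil, false_imp_iff, implies_true, and_true, g.2, true_and, and_assoc]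
    rfl
  refine ⟨(Nat.card_congr (Graph.conjLiftIso (H := G9) (fun g hg => hg.1.1) ⟨a, ha⟩
    key).toEquiv).trans card_G9, fun x hx y hy => ?_⟩
  obtain ⟨g, hg, e⟩ := trans (a⁻¹ x) (a⁻¹ y) (mt inv_apply_mem.1 hx) (mt inv_apply_mem.1 hy)
  refine ⟨_, (key ⟨g, hg.1.1⟩).2 hg, ?_⟩
  show a (g (a⁻¹ x)) = y
  rw [e]
  simp

end Cfsg.Agent.S1600
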