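import Cfsg.Statements.S1601
import Mathlib
import Cfsg.Agent.SPOR.M12b
import Cfsg.Agent.SPOR.SimpleOn
import Cfsg.Agent.S0243

set_option autoImplicit false
open scoped Pointwise
open Cfsg

namespace Cfsg.Agent.S1601

open CL CL.K CL.Orb CL.Enc CL.Golay CL.M12 MulAction
open scoped Pointwise

abbrev K0 : Subgroup (Equiv.Perm Cfsg.GolayPt) := E.fixL (St (E.setOf D0)) [(0, 12), (5, 12)]

theorem card_K0 : Nat.card K0 = 660 :=
  card_fixL (B₂ := [(7, 11), (10, 10), (1, 3), (2, 2)]) sgs'_in sgs'_chain (card_St D0_mem).le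

def L : List ℕ := [970499966350631336865513127433832480, 486349973926430203268823274221996064, 438247705506312452254916046926157856, 476053791876184089906513677751027808]

theorem L_in : ∀ P ∈ L, I K0 P := In.fixL_all (in_St_of_lall (by decide +kernel)) (by decide +kernel)

theorem L_chain : PC.chainOK 5 31 24 [(1, 11), (2, 10), (3, 3), (4, 2)] L = true := by
  decide +kernel

/-- number of the projective point of a vector (12 for the zero vector). -/
def pr (x y : ZMod 11) : ℕ :=
  fld 4 15 4343904249987941500758955457733359936493902454335379376623394990390193189979648035713268389420236119637714024334791079692117251157020094140252172 (11 * x.val + y.val)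

/-- the point attached to a pair of projective points. -/
def lb (i j : ℕ) : Cfsg.GolayPt :=
  E.dec (fld 5 31 3184325941416414445088027066350332343876303039323055778529430319342003803619746244624557327213175357624479930310354483307856192574429522866917454801054045369426069953219044385605541970235510617208733844036843508674281745634180609280 (13 * i + j))

def lab (x : (Fin 2 → ZMod 11) × (Fin 2 → ZMod 11)) : Cfsg.GolayPt :=
  lb (pr (x.1 0) (x.1 1)) (pr (x.2 0) (x.2 1))

def graph : Subgroup (Equiv.Perm Cfsg.GolayPt × Matrix.SpecialLinearGroup (Fin 2) (ZMod 11)) :=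
  Graph.act (fun A x => (A.1.mulVec x.1, A.1.mulVec x.2)) (fun x => by simp)
    (fun A B x => Prod.ext (Matrix.mulVec_mulVec x.1 A.1 B.1).symm
      (Matrix.mulVec_mulVec x.2 A.1 B.1).symm) lab

theorem mulVec_two (A : Matrix (Fin 2) (Fin 2) (ZMod 11)) (x : Fin 2 → ZMod 11) (i : Fin 2) :
    A.mulVec x i = A i 0 * x 0 + A i 1 * x 1 := by
  simp [Matrix.mulVec, dotProduct, Fin.sum_univ_two]

theorem exists_graph : ∀ g ∈ K0, ∃ A, (g, A) ∈ graph := by
  refine exists_act_of_chain L_in L_chain card_K0.le ?_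
  have hpr : ∀ x y, pr x y < 13 := by decide +kernel
  have key : ∀ (P τ : ℕ) (a b c d : ZMod 11), (a * d - b * c = 1 ∧
      (∀ x y, pr (a * x + b * y) (c * x + d * y) = fld 4 15 τ (pr x y)) ∧
      ∀ i < 13, ∀ j < 13, fld 5 31 P (E.enc (lb i j)) = E.enc (lb (fld 4 15 τ i) (fld 4 15 τ j))) →
      ∃ k : Matrix.SpecialLinearGroup (Fin 2) (ZMod 11), ∀ x, fld 5 31 P (E.enc (lab x)) =
        E.enc (lab (k.1.mulVec x.1, k.1.mulVec x.2)) := fun P τ a b c d h =>
    ⟨⟨!![a, b; c, d], by rw [Matrix.det_fin_two_of, h.1]⟩, fun x => by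
      simp only [lab, mulVec_two, Matrix.of_apply, Matrix.cons_val', Matrix.cons_val_zero,
        Matrix.cons_val_one, Matrix.cons_val_fin_one, h.2.1]
      exact h.2.2 _ (hpr _ _) _ (hpr _ _)⟩
  simp only [L, List.forall_mem_cons, List.not_mem_nil, false_imp_iff, implies_true, and_true]
  exact ⟨key _ 3379229687838123 0 1 10 0 (by decide +kernel),
    key _ 3420811016837988 1 7 6 10 (by decide +kernel),
    key _ 3451888848688818 5 3 4 7 (by decide +kernel),
    key _ 3381361020840858 0 3 7 8 (by decide +kernel)⟩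

theorem central (a b c d : ZMod 11) (h : a * d - b * c = 1)
    (h1 : lb (pr 1 0) (pr 0 1) = lb (pr a c) (pr b d))
    (h2 : lb (pr 1 0) (pr 1 1) = lb (pr a c) (pr (a + b) (c + d)))
    (h3 : lb (pr 0 1) (pr 1 1) = lb (pr b d) (pr (a + b) (c + d))) : b = 0 ∧ c = 0 ∧ d = a := by
  revert a b c d
  decide +kernel

theorem pr_smul : ∀ c : ZMod 11, c ^ 2 = 1 → ∀ x y, pr (c * x) (c * y) = pr x y := by
  decide +kernel

theorem lab_surj : ∀ bn ∈ [(1, 11), (2, 10), (3, 3), (4, 2)], ∃ y : ZMod 11,
    lab (![1, 0], ![y, 1]) = E.dec bn.1 := by decide +kernel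

theorem nonempty_equiv :
    Nonempty (K0 ≃* Matrix.ProjectiveSpecialLinearGroup (Fin 2) (ZMod 11)) := by
  have : Fact (Nat.Prime 11) := ⟨by norm_num⟩
  have hc : Nat.card (Matrix.ProjectiveSpecialLinearGroup (Fin 2) (ZMod 11)) = 660 := by
    have := Cfsg.Agent.S0243.result (F := ZMod 11) (ZMod.card 11) 2 (by norm_num)
    rw [Fin.prod_univ_two] at this
    have e : Nat.gcd 2 (11 - 1) = 2 := by decide
    rw [e] at this
    simp only [Fin.val_zero, Fin.val_one] at this
    omega
  refine Graph.nonempty_equiv_comp graph (QuotientGroup.mk' _) (fun A hA => ?_) K0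
    (fun g hg A hA h1 => ?_) exists_graph (hc.trans card_K0.symm).le
  · have h1 := hA (![1, 0], ![0, 1])
    have h2 := hA (![1, 0], ![1, 1])
    have h3 := hA (![0, 1], ![1, 1])
    simp only [lab, mulVec_two, Matrix.cons_val_zero, Matrix.cons_val_one, mul_one, mul_zero,
      add_zero, zero_add, one_smul] at h1 h2 h3
    obtain ⟨e1, e2, e3⟩ := central _ _ _ _ ((Matrix.det_fin_two A.1).symm.trans A.2) h1 h2 h3
    refine (QuotientGroup.eq_one_iff _).2 (Graph.mem_center_of_eigen A fun x => ⟨A.1 0 0, ?_⟩)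
    ext i
    fin_cases i
    · simp [mulVec_two, e1]
    · simp [mulVec_two, e2, e3]
  · obtain ⟨c, hc, h⟩ := Graph.exists_smul_of_mem_center A ((QuotientGroup.eq_one_iff _).1 h1)
    have h3 : ∀ x, g (lab x) = lab x := fun x => (hA x).trans (by
      simp only [lab, h, Pi.smul_apply, smul_eq_mul, pr_smul c hc])
    refine eq_one_of_chain L_in L_chain card_K0.le hg fun bn hbn => ?_
    obtain ⟨y, hy⟩ := lab_surj bn hbn
    exact hy ▸ h3 _

/-- In the 3-transitive action of the smallest Mathieu group on the complementary dodecad, a point stabiliser is isomorphic to PSL(2, 11). -/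
theorem result (d : Finset Cfsg.GolayPt) (hd : d ∈ Cfsg.dodecads) (p q : Cfsg.GolayPt) (hp : p ∈ d) (hq : q ∉ d) : Nonempty (↥(MulAction.stabilizer Cfsg.M24 d ⊓ MulAction.stabilizer Cfsg.M24 p ⊓ MulAction.stabilizer Cfsg.M24 q) ≃* Matrix.ProjectiveSpecialLinearGroup (Fin 2) (ZMod 11)) := by
  obtain ⟨a, ha, rfl, e1, e⟩ := exists_smul_flag3 D0_mem hd (p := E.dec 0) (by decide +kernel) hp
    (k := 1) (by norm_num) ![E.dec 5] ![q] (Function.injective_of_subsingleton _)
    (by decide +kernel) (Function.injective_of_subsingleton _) (by simpa)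
  obtain rfl : (⟨a, ha⟩ : Cfsg.M24) • E.dec 0 = p := e1
  obtain rfl : (⟨a, ha⟩ : Cfsg.M24) • E.dec 5 = q := e 0
  obtain ⟨f⟩ := nonempty_equiv
  refine ⟨(Graph.conjLiftIso (H := K0) (fun g hg => hg.1.1) ⟨a, ha⟩ fun g => ?_).trans f⟩
  change _ ∈ stabilizer Cfsg.M24 ((⟨a, ha⟩ : Cfsg.M24) • E.setOf D0) ⊓ _ ⊓ _ ↔ _
  simp only [Subgroup.mem_inf, Graph.conj_mem_stabilizer, Enc.mem_fixL, List.forall_mem_cons,
    List.not_mem_nil, false_imp_iff, implies_true, and_true, g.2, true_and, and_assoc]
  rfl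

end Cfsg.Agent.S1601
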