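import Cfsg.Statements.S1602
import Mathlib
import Cfsg.Agent.SPOR.M12b
import Cfsg.Agent.SPOR.SimpleOn

set_option autoImplicit false
open scoped Pointwise
open Cfsg

namespace Cfsg.Agent.S1602

open CL CL.K CL.Orb CL.Enc CL.Golay CL.M12 MulAction
open scoped Pointwise

abbrev K0 : Subgroup (Equiv.Perm Cfsg.GolayPt) :=
  G11 ⊓ stabilizer (Equiv.Perm Cfsg.GolayPt) (E.setOf 160)

def L : List ℕ := [845928014986720888753639071069341984, 984778947275340660717821982278781344, 483803429882611183488023874478737536, 817436292785806729588629751355482496]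

theorem L_in : ∀ P ∈ L, I K0 P := fun P hP =>
  I.stab_set (In.fixL_all (in_St_of_lall (by decide +kernel)) (by decide +kernel) P hP)
    ((by decide +kernel : ∀ P ∈ L, img24 P 160 = 160) P hP)

theorem card_K0 : 120 ≤ Nat.card K0 :=
  chain_le (B := [(2, 5), (3, 4), (6, 3), (8, 2)]) L_in (by decide +kernel)

theorem eq_of_sdiff_eq {d s t : Finset Cfsg.GolayPt} (hd : d ∈ Cfsg.dodecads) (hs : s ∈ Code)
    (ht : t ∈ Code) (h : s \ d = t \ d) {p : Cfsg.GolayPt} (hp : p ∈ d) (hps : p ∈ s)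
    (hpt : p ∈ t) : s = t := by
  have hsub : symmDiff s t ⊆ d := by
    intro x hx
    by_contra hx'
    have := Finset.ext_iff.1 h x
    simp only [Finset.mem_sdiff, hx', not_false_eq_true, and_true] at this
    rw [Finset.mem_symmDiff] at hx
    tauto
  rcases eq_of_subset_dodecad hd (symmDiff_mem_code hs ht) hsub with h | h
  · exact symmDiff_eq_bot.1 h
  · rw [← h, Finset.mem_symmDiff] at hp
    tauto

theorem fix_octad {g : Equiv.Perm Cfsg.GolayPt} (hg : g ∈ K0) :
    g • E.setOf 262637 = E.setOf 262637 := by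
  obtain ⟨hg1, hg2⟩ := hg
  obtain ⟨⟨h1, h2⟩, h3⟩ := mem_G11.1 hg1
  have ho : E.setOf 262637 ∈ Cfsg.octads := setOf_mem_of_isOct (by decide +kernel)
  have e1 : E.setOf 262637 \ E.setOf D0 = E.setOf 160 := by decide +kernel
  have h0 : E.dec 0 ∈ E.setOf 262637 := by decide +kernel
  have h0' : g (E.dec 0) ∈ g • E.setOf 262637 := Finset.smul_mem_smul_finset h0
  rw [h3] at h0'
  refine eq_of_sdiff_eq D0_mem ((smul_mem_code h1).2 ho.1) ho.1 ?_ (by decide +kernel) h0' h0
  have e3 : g • (E.setOf 262637 \ E.setOf D0) = g • E.setOf 262637 \ g • E.setOf D0 :=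
    Finset.smul_finset_sdiff
  rw [h2, e1] at e3
  rw [← e3, e1]
  exact hg2

theorem nonempty_equiv : Nonempty (K0 ≃* Equiv.Perm (Fin 5)) := by
  let e : Fin 5 → Cfsg.GolayPt := ![E.dec 2, E.dec 3, E.dec 6, E.dec 8, E.dec 18]
  have he : Function.Injective e := by decide +kernel
  have he2 : ∀ b, e b ∈ E.setOf D0 := by decide +kernel
  refine Graph.nonempty_equiv_perm e he K0 (fun g hg b => ?_)
    (fun g hg h => eq_one_of_fix5 D0_mem e he he2 hg.1.1 h) (by rw [Nat.card_eq_fintype_card, Fintype.card_fin]; exact card_K0)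
  have h1 : ∀ x, x ∈ E.setOf 262637 → x ∈ E.setOf D0 → x ≠ E.dec 0 → ∃ c, x = e c := by
    decide +kernel
  have h2 : ∀ b, e b ∈ E.setOf 262637 ∧ e b ≠ E.dec 0 := by decide +kernel
  refine h1 _ (apply_mem_of_smul_eq (fix_octad hg) (h2 b).1) (apply_mem_of_smul_eq hg.1.1.2 (he2 b))
    fun h => (h2 b).2 (g.injective (h.trans (mem_G11.1 hg.1).2.symm))

/-- In the 12-point action of the smallest Mathieu group the setwise stabiliser of a pair is isomorphic to the symmetric group of degree 5. -/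
theorem result (d : Finset Cfsg.GolayPt) (hd : d ∈ Cfsg.dodecads) (p q q' : Cfsg.GolayPt) (hp : p ∈ d) (hq : q ∉ d) (hq' : q' ∉ d) (hqq' : q ≠ q') : Nonempty (↥(MulAction.stabilizer Cfsg.M24 d ⊓ MulAction.stabilizer Cfsg.M24 p ⊓ MulAction.stabilizer Cfsg.M24 ({q, q'} : Finset Cfsg.GolayPt)) ≃* Equiv.Perm (Fin 5)) := by
  obtain ⟨a, ha, rfl, e1, e⟩ := exists_smul_flag3 D0_mem hd (p := E.dec 0) (by decide +kernel) hp
    (k := 2) (by norm_num) ![E.dec 5, E.dec 7] ![q, q'] (by decide +kernel)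
    (by decide +kernel) (SimpleCrit.inj2 hqq') (by simp [Fin.forall_fin_succ, *])
  obtain rfl : (⟨a, ha⟩ : Cfsg.M24) • E.dec 0 = p := e1
  have e2 : ({q, q'} : Finset Cfsg.GolayPt) = (⟨a, ha⟩ : Cfsg.M24) • E.setOf 160 := by
    have : E.setOf 160 = {E.dec 5, E.dec 7} := by decide +kernel
    rw [this, Finset.smul_finset_insert, Finset.smul_finset_singleton]
    exact congrArg₂ (fun x y => ({x, y} : Finset Cfsg.GolayPt)) (e 0).symm (e 1).symm
  rw [e2]
  obtain ⟨f⟩ := nonempty_equiv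
  refine ⟨(Graph.conjLiftIso (H := K0) (fun g hg => hg.1.1.1) ⟨a, ha⟩ fun g => ?_).trans f⟩
  change _ ∈ stabilizer Cfsg.M24 ((⟨a, ha⟩ : Cfsg.M24) • E.setOf D0) ⊓ _ ⊓ _ ↔ _
  simp only [Subgroup.mem_inf, Graph.conj_mem_stabilizer, Enc.mem_fixL, List.forall_mem_cons,
    List.not_mem_nil, false_imp_iff, implies_true, and_true, g.2, true_and, and_assoc]
  rfl

end Cfsg.Agent.S1602
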