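import Cfsg.Statements.S1604
import Mathlib
import Cfsg.Agent.SPOR.GolayFib

set_option autoImplicit false
open scoped Pointwise
open Cfsg

namespace Cfsg.Agent.S1604

open CL.K CL.Orb CL.Enc CL.Golay MulAction

theorem gens_in : AllI (M24 ⊓ stabilizer (Equiv.Perm GolayPt) (((none : GolayPt), (some 0 : GolayPt)), E.setOf O0))
    [971830631360187808673298001947034688, 983317192241712689732848140536612288] :=
  ((((AllI.ofM (by decide +kernel)).pt none (by decide +kernel)).pt (some 0)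
    (by decide +kernel)).stab2.set O0 (by decide +kernel)).stab2

theorem key {g : Equiv.Perm GolayPt} (hg : g ∈ M24) (b : ℕ × Bool × Bool) (n : ℕ)
    (hb : List.filter (fun v => decide (v.1 = b)) [((8, true, true), 1), ((2, true, true), 16), ((0, false, false), 30), ((4, false, false), 60), ((4, true, true), 60), ((4, false, true), 80), ((4, true, false), 80), ((2, false, true), 96), ((2, true, false), 96), ((2, false, false), 240)] = [(b, n)]) :
    Fib (M24 ⊓ stabilizer (Equiv.Perm GolayPt) (g • (((none : GolayPt), (some 0 : GolayPt)), E.setOf O0))) octads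
      ((fun (x : (GolayPt × GolayPt) × Finset GolayPt) y =>
        ((x.2 ∩ y).card, decide (x.1.1 ∈ y), decide (x.1.2 ∈ y)))
        (g • (((none : GolayPt), (some 0 : GolayPt)), E.setOf O0))) b n :=
  (decomp_oct gens_in.toGrp rfl gens_in.le_M24 (reps := [(8536111, 1), (8499969, 16), (337856, 30), (10558, 60), (8391797, 60), (5279, 80), (8394986, 80), (15777, 96), (8401364, 96), (31554, 240)]) (by decide +kernel)
    (by decide +kernel) (by decide +kernel)).fib gens_in.grp_le (fun _ ha _ => smul_mem_octads ha)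
    (fun (x : (GolayPt × GolayPt) × Finset GolayPt) y =>
        ((x.2 ∩ y).card, decide (x.1.1 ∈ y), decide (x.1.2 ∈ y)))
    (fun a _ x y => by simp only [Prod.smul_fst, Prod.smul_snd, mem_smul_iff, card_inter_smul])
    (fun c => (pc24 (Nat.land O0 c), c.testBit 23, c.testBit 0))
    (fun c => by rw [card_inter_setOf, decide_mem_setOf, decide_mem_setOf]; rfl) (by decide +kernel) hg b n hb

/-- A hexad stabiliser in the two-point stabiliser has orbits of sizes 1, 16, 60 on the 77 hexads: the 16 hexads disjoint from it and the 60 meeting it in two points. -/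
theorem result (p q : Cfsg.GolayPt) (hpq : p ≠ q) (o o' o'' : Finset Cfsg.GolayPt) (ho : o ∈ Cfsg.octads) (ho' : o' ∈ Cfsg.octads) (ho'' : o'' ∈ Cfsg.octads) (hp : p ∈ o ∧ p ∈ o' ∧ p ∈ o'') (hq : q ∈ o ∧ q ∈ o' ∧ q ∈ o'') (h : (o ∩ o').card = (o ∩ o'').card) : {x : Finset Cfsg.GolayPt | x ∈ Cfsg.octads ∧ p ∈ x ∧ q ∈ x ∧ (o ∩ x).card = 2}.ncard = 16 ∧ {x : Finset Cfsg.GolayPt | x ∈ Cfsg.octads ∧ p ∈ x ∧ q ∈ x ∧ (o ∩ x).card = 4}.ncard = 60 ∧ ∃ g : Equiv.Perm Cfsg.GolayPt, g ∈ Cfsg.M24 ∧ g p = p ∧ g q = q ∧ g • o = o ∧ g • o' = o'' := by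
  obtain ⟨g, hg, e⟩ := exists_map_flag2 (p := none) (q := some 0) (by decide) hpq O0_mem ho
    (iff_of_true (by decide +kernel) hp.1) (iff_of_true (by decide +kernel) hq.1)
  have K := key hg
  rw [e] at K
  have cnt : ∀ b n, Fib (M24 ⊓ stabilizer (Equiv.Perm GolayPt) ((p, q), o)) octads
      (fun y => ((o ∩ y).card, decide (p ∈ y), decide (q ∈ y))) (b, true, true) n →
      {x : Finset GolayPt | x ∈ octads ∧ p ∈ x ∧ q ∈ x ∧ (o ∩ x).card = b}.ncard = n := fun b n h => by
    rw [← h.1]; congr 1; ext y; simp only [Set.mem_ofPred_eq, Prod.mk.injEq, decide_eq_true_eq]; tauto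
  refine ⟨cnt _ _ (K _ _ (by decide)), cnt _ _ (K _ _ (by decide)), ?_⟩
  have tr : ∀ b n, Fib (M24 ⊓ stabilizer (Equiv.Perm GolayPt) ((p, q), o)) octads
      (fun y => ((o ∩ y).card, decide (p ∈ y), decide (q ∈ y))) (b, true, true) n → (o ∩ o'').card = b →
      ∃ g : Equiv.Perm GolayPt, g ∈ M24 ∧ g p = p ∧ g q = q ∧ g • o = o ∧ g • o' = o'' := fun b n hf e => by
    obtain ⟨a, ⟨ha, e1⟩, e2⟩ := hf.2 _ ho' _ ho'' (by simp [h, e, hp.2.1, hq.2.1]) (by simp [e, hp.2.2, hq.2.2])
    exact ⟨a, ha, congrArg (·.1.1) e1, congrArg (·.1.2) e1, congrArg Prod.snd e1, e2⟩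
  rcases card_inter_octads' ho ho'' with e | e | e | e
  · exact tr _ 1 (K _ _ (by decide)) e
  · exact absurd (Finset.card_eq_zero.1 e) (Finset.ne_empty_of_mem (Finset.mem_inter.2 ⟨hp.1, hp.2.2⟩))
  · exact tr _ 60 (K _ _ (by decide)) e
  · exact tr _ 16 (K _ _ (by decide)) e

end Cfsg.Agent.S1604
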