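import Cfsg.Statements.S1605
import Mathlib
import Cfsg.Agent.SPOR.GolayFib

set_option autoImplicit false
open scoped Pointwise
open Cfsg

namespace Cfsg.Agent.S1605

open CL.K CL.Orb CL.Enc CL.Golay MulAction

theorem gens_in : AllI (M24 ⊓ stabilizer (Equiv.Perm GolayPt) (((none : GolayPt), (some 0 : GolayPt)), E.setOf O1))
    [958169642865655136931543267055711392, 975191626068767392427426636546231520] :=
  ((((AllI.ofM (by decide +kernel)).pt none (by decide +kernel)).pt (some 0)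
    (by decide +kernel)).stab2.set O1 (by decide +kernel)).stab2

theorem key {g : Equiv.Perm GolayPt} (hg : g ∈ M24) (b : ℕ × Bool × Bool) (n : ℕ)
    (hb : List.filter (fun v => decide (v.1 = b)) [((8, true, false), 1), ((0, false, true), 15), ((0, false, false), 15), ((4, false, true), 35), ((4, true, true), 35), ((2, true, true), 42), ((2, true, false), 70), ((4, false, false), 105), ((4, true, false), 105), ((2, false, true), 126), ((2, false, false), 210)] = [(b, n)]) :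
    Fib (M24 ⊓ stabilizer (Equiv.Perm GolayPt) (g • (((none : GolayPt), (some 0 : GolayPt)), E.setOf O1))) octads
      ((fun (x : (GolayPt × GolayPt) × Finset GolayPt) y =>
        ((x.2 ∩ y).card, decide (x.1.1 ∈ y), decide (x.1.2 ∈ y)))
        (g • (((none : GolayPt), (some 0 : GolayPt)), E.setOf O1))) b n :=
  (decomp_oct gens_in.toGrp rfl gens_in.le_M24 (reps := [(8394986, 1), (304405, 15), (615188, 15), (5279, 35), (8391797, 35), (8471941, 42), (8439632, 70), (10558, 105), (8401364, 105), (52005, 126), (63108, 210)]) (by decide +kernel)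
    (by decide +kernel) (by decide +kernel)).fib gens_in.grp_le (fun _ ha _ => smul_mem_octads ha)
    (fun (x : (GolayPt × GolayPt) × Finset GolayPt) y =>
        ((x.2 ∩ y).card, decide (x.1.1 ∈ y), decide (x.1.2 ∈ y)))
    (fun a _ x y => by simp only [Prod.smul_fst, Prod.smul_snd, mem_smul_iff, card_inter_smul])
    (fun c => (pc24 (Nat.land O1 c), c.testBit 23, c.testBit 0))
    (fun c => by rw [card_inter_setOf, decide_mem_setOf, decide_mem_setOf]; rfl) (by decide +kernel) hg b n hb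

/-- The two-point stabiliser acts on the 176 octads through the first point avoiding the second with rank 3 and subdegrees 1, 70, 105 (intersections 8, 2, 4). -/
theorem result (p q : Cfsg.GolayPt) (hpq : p ≠ q) : {x : Finset Cfsg.GolayPt | (x ∈ Cfsg.octads ∧ p ∈ x ∧ q ∉ x)}.ncard = 176 ∧ (∀ o o' : Finset Cfsg.GolayPt, (o ∈ Cfsg.octads ∧ p ∈ o ∧ q ∉ o) → (o' ∈ Cfsg.octads ∧ p ∈ o' ∧ q ∉ o') → ∃ g : Equiv.Perm Cfsg.GolayPt, g ∈ Cfsg.M24 ∧ g p = p ∧ g q = q ∧ g • o = o') ∧ ∀ o : Finset Cfsg.GolayPt, (o ∈ Cfsg.octads ∧ p ∈ o ∧ q ∉ o) → {x : Finset Cfsg.GolayPt | (x ∈ Cfsg.octads ∧ p ∈ x ∧ q ∉ x) ∧ (o ∩ x).card = 2}.ncard = 70 ∧ {x : Finset Cfsg.GolayPt | (x ∈ Cfsg.octads ∧ p ∈ x ∧ q ∉ x) ∧ (o ∩ x).card = 4}.ncard = 105 ∧ ∀ o' o'' : Finset Cfsg.GolayPt, (o' ∈ Cfsg.octads ∧ p ∈ o' ∧ q ∉ o') → (o'' ∈ Cfsg.octads ∧ p ∈ o'' ∧ q ∉ o'') → (o ∩ o').card = (o ∩ o'').card → ∃ g : Equiv.Perm Cfsg.GolayPt, g ∈ Cfsg.M24 ∧ g p = p ∧ g q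 = q ∧ g • o = o ∧ g • o' = o'' := by
  obtain ⟨-, f, -, -⟩ := fib_pair hpq
  refine ⟨?_, fun o o' ho ho' => ?_, fun o ho => ?_⟩
  · rw [← f.1]; congr 1; ext y; simp
  · obtain ⟨a, ⟨ha, e1⟩, e2⟩ := f.2 _ ho.1 _ ho'.1 (by simp [ho.2]) (by simp [ho'.2])
    exact ⟨a, ha, congrArg Prod.fst e1, congrArg Prod.snd e1, e2⟩
  obtain ⟨g, hg, e⟩ := exists_map_flag2 (p := none) (q := some 0) (by decide) hpq O1_mem ho.1
    (iff_of_true (by decide +kernel) ho.2.1) (iff_of_false (by decide +kernel) ho.2.2)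
  have K := key hg
  rw [e] at K
  have cnt : ∀ b n, Fib (M24 ⊓ stabilizer (Equiv.Perm GolayPt) ((p, q), o)) octads
      (fun y => ((o ∩ y).card, decide (p ∈ y), decide (q ∈ y))) (b, true, false) n →
      {x : Finset GolayPt | (x ∈ octads ∧ p ∈ x ∧ q ∉ x) ∧ (o ∩ x).card = b}.ncard = n := fun b n h => by
    rw [← h.1]; congr 1; ext y
    simp only [Set.mem_ofPred_eq, Prod.mk.injEq, decide_eq_true_eq, decide_eq_false_iff_not]; tauto
  refine ⟨cnt _ _ (K _ _ (by decide)), cnt _ _ (K _ _ (by decide)), fun o' o'' ho' ho'' h => ?_⟩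
  have tr : ∀ b n, Fib (M24 ⊓ stabilizer (Equiv.Perm GolayPt) ((p, q), o)) octads
      (fun y => ((o ∩ y).card, decide (p ∈ y), decide (q ∈ y))) (b, true, false) n → (o ∩ o'').card = b →
      ∃ g : Equiv.Perm GolayPt, g ∈ M24 ∧ g p = p ∧ g q = q ∧ g • o = o ∧ g • o' = o'' := fun b n hf e => by
    obtain ⟨a, ⟨ha, e1⟩, e2⟩ := hf.2 _ ho'.1 _ ho''.1 (by simp [h, e, ho'.2]) (by simp [e, ho''.2])
    exact ⟨a, ha, congrArg (·.1.1) e1, congrArg (·.1.2) e1, congrArg Prod.snd e1, e2⟩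
  rcases card_inter_octads' ho.1 ho''.1 with e | e | e | e
  · exact tr _ 1 (K _ _ (by decide)) e
  · exact absurd (Finset.card_eq_zero.1 e) (Finset.ne_empty_of_mem (Finset.mem_inter.2 ⟨ho.2.1, ho''.2.1⟩))
  · exact tr _ 105 (K _ _ (by decide)) e
  · exact tr _ 70 (K _ _ (by decide)) e

end Cfsg.Agent.S1605
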