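import Cfsg.Statements.S1606
import Cfsg.Agent.SPOR.GolayIdx2

set_option autoImplicit false
open scoped Pointwise
open Cfsg

namespace Cfsg.Agent.S1606

open CL CL.Orb CL.Golay CL.Golay.Idx MulAction

/-- The stabiliser of two points in the group of the length-24 code has no subgroups of index 56 or 210. -/
theorem result (p q : Cfsg.GolayPt) (hpq : p ≠ q) (H : Subgroup ↥(MulAction.stabilizer Cfsg.M24 p ⊓ MulAction.stabilizer Cfsg.M24 q)) : H.index ≠ 56 ∧ H.index ≠ 210 := by
  let f := M24.subtype.comp (stabilizer M24 p ⊓ stabilizer M24 q).subtype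
  have hf : Function.Injective f := M24.subtype_injective.comp (Subgroup.subtype_injective _)
  have c0 : Nat.card ↥(stabilizer M24 p ⊓ stabilizer M24 q) = 443520 := (card_of_mem_iff
    (K := stabilizer M24 p ⊓ stabilizer M24 q) (Fix_le {p, q}) fun a =>
    ⟨fun b => mem_Fix.2 ⟨a.2, by simpa using ⟨b.1, b.2⟩⟩, fun b => ⟨(mem_Fix.1 b).2 p (by simp),
      (mem_Fix.1 b).2 q (by simp)⟩⟩).trans (card_Fix_of_card (Finset.card_pair hpq) (by norm_num) (by norm_num))
  have c := H.index_mul_card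
  rw [← Subgroup.card_map_of_injective (K := H) hf, c0] at c
  have hM : H.map f ≤ M24 := fun _ ⟨g, _, e⟩ => e ▸ g.1.2
  have h1 : ∀ g ∈ H.map f, g p = p ∧ g q = q := fun _ ⟨g, _, e⟩ => e ▸ ⟨g.2.1, g.2.2⟩
  generalize H.map f = K at c hM h1
  refine ⟨fun e => ?_, fun e => ne_2112 hM (mul_left_cancel₀ (a := 210) (by norm_num) ((congrArg (· * _) e).symm.trans c))⟩
  replace c : Nat.card K = 7920 := mul_left_cancel₀ (a := 56) (by norm_num) ((congrArg (· * _) e).symm.trans c)
  obtain ⟨k, hk, hU⟩ := exists_conj_U hM (c ▸ by norm_num)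
  have h2 : ({k⁻¹ p, k⁻¹ q} : Finset GolayPt) = {none, some 0} := by
    have : ∀ x, tU x = x → x ∈ ({none, some 0} : Finset GolayPt) := by decide +kernel
    refine Finset.eq_of_subset_of_card_le (Finset.insert_subset (this _ ?_) (Finset.singleton_subset_iff.2 (this _ ?_)))
      (by rw [Finset.card_pair (k⁻¹.injective.ne hpq)]; rfl)
    · exact Equiv.Perm.eq_inv_iff_eq.2 (h1 _ hU).1
    · exact Equiv.Perm.eq_inv_iff_eq.2 (h1 _ hU).2
  refine ne_7920 (K := K.comap (MulAut.conj k).toMonoidHom) (fun g a => ?_) hU (fun g a => ?_) ?_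
  · exact (mem_conj_iff (inv_mem hk) g).1 (by rw [inv_inv]; exact hM a)
  · have : ∀ x ∈ ({k⁻¹ p, k⁻¹ q} : Finset GolayPt), g x = x := by
      simpa using ⟨Equiv.Perm.eq_inv_iff_eq.2 (h1 _ a).1, Equiv.Perm.eq_inv_iff_eq.2 (h1 _ a).2⟩
    rw [h2] at this
    exact ⟨this _ (by simp), this _ (by simp)⟩
  · exact (card_conj_eq (H := K) k⁻¹ fun b => by rw [inv_inv]; rfl).trans c

end Cfsg.Agent.S1606
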