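import Cfsg.Statements.S1607
import Mathlib
import Cfsg.Agent.SPOR.GolayFib

set_option autoImplicit false
open scoped Pointwise
open Cfsg

namespace Cfsg.Agent.S1607

open CL.K CL.Orb CL.Enc CL.Golay MulAction

theorem gens_in : AllI (M24 ⊓ stabilizer (Equiv.Perm GolayPt) ((none : GolayPt), E.setOf O0))
    [967924939079945364741368247680022691, 980501658486935594762839778671001637] :=
  (((AllI.ofM (by decide +kernel)).pt none (by decide +kernel)).set O0 (by decide +kernel)).stab2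

theorem key {g : Equiv.Perm GolayPt} (hg : g ∈ M24) (b : ℕ × Bool) (n : ℕ)
    (hb : List.filter (fun v => decide (v.1 = b)) [((8, true), 1), ((0, false), 30), ((2, true), 112), ((4, false), 140), ((4, true), 140), ((2, false), 336)] = [(b, n)]) :
    Fib (M24 ⊓ stabilizer (Equiv.Perm GolayPt) (g • ((none : GolayPt), E.setOf O0))) octads
      ((fun (x : GolayPt × Finset GolayPt) y => ((x.2 ∩ y).card, decide (x.1 ∈ y)))
        (g • ((none : GolayPt), E.setOf O0))) b n :=
  (decomp_oct gens_in.toGrp rfl gens_in.le_M24 (reps := [(8536111, 1), (337856, 30), (8401364, 112), (5279, 140), (8391797, 140), (15777, 336)]) (by decide +kernel)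
    (by decide +kernel) (by decide +kernel)).fib gens_in.grp_le (fun _ ha _ => smul_mem_octads ha)
    (fun (x : GolayPt × Finset GolayPt) y => ((x.2 ∩ y).card, decide (x.1 ∈ y)))
    (fun a _ x y => by simp only [Prod.smul_fst, Prod.smul_snd, mem_smul_iff, card_inter_smul])
    (fun c => (pc24 (Nat.land O0 c), c.testBit 23))
    (fun c => by rw [card_inter_setOf, decide_mem_setOf]; rfl) (by decide +kernel) hg b n hb

/-- The point stabiliser acts on the 253 heptads of its S(4, 7, 23) with rank 3 and subdegrees 1, 112, 140 (intersections 8, 2, 4). -/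
theorem result (x : Cfsg.GolayPt) (o : Finset Cfsg.GolayPt) (ho : o ∈ Cfsg.octads) (hx : x ∈ o) : {o' : Finset Cfsg.GolayPt | o' ∈ Cfsg.octads ∧ x ∈ o' ∧ (o ∩ o').card = 2}.ncard = 112 ∧ {o' : Finset Cfsg.GolayPt | o' ∈ Cfsg.octads ∧ x ∈ o' ∧ (o ∩ o').card = 4}.ncard = 140 ∧ ∀ o' o'' : Finset Cfsg.GolayPt, o' ∈ Cfsg.octads → o'' ∈ Cfsg.octads → x ∈ o' → x ∈ o'' → (o ∩ o').card = (o ∩ o'').card → ∃ g : Equiv.Perm Cfsg.GolayPt, g ∈ Cfsg.M24 ∧ g x = x ∧ g • o = o ∧ g • o' = o'' := by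
  obtain ⟨g, hg, e⟩ := exists_map_flag (p := none) (p' := x) O0_mem ho (iff_of_true (by decide +kernel) hx)
  have K := key hg
  rw [e] at K
  have cnt : ∀ b n, Fib (M24 ⊓ stabilizer (Equiv.Perm GolayPt) (x, o)) octads
      (fun y => ((o ∩ y).card, decide (x ∈ y))) (b, true) n →
      {o' : Finset GolayPt | o' ∈ octads ∧ x ∈ o' ∧ (o ∩ o').card = b}.ncard = n := fun b n h => by
    rw [← h.1]; congr 1; ext y; simp [and_comm]
  refine ⟨cnt _ _ (K _ _ (by decide)), cnt _ _ (K _ _ (by decide)), fun o' o'' ho' ho'' hx' hx'' h => ?_⟩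
  have tr : ∀ b n, Fib (M24 ⊓ stabilizer (Equiv.Perm GolayPt) (x, o)) octads
      (fun y => ((o ∩ y).card, decide (x ∈ y))) (b, true) n → (o ∩ o'').card = b →
      ∃ g : Equiv.Perm GolayPt, g ∈ M24 ∧ g x = x ∧ g • o = o ∧ g • o' = o'' := fun b n hf e => by
    obtain ⟨a, ⟨ha, e1⟩, e2⟩ := hf.2 _ ho' _ ho'' (by simp [h, e, hx']) (by simp [e, hx''])
    exact ⟨a, ha, congrArg Prod.fst e1, congrArg Prod.snd e1, e2⟩
  rcases card_inter_octads' ho ho'' with e | e | e | e
  · exact tr _ 1 (K _ _ (by decide)) e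
  · exact absurd (Finset.card_eq_zero.1 e) (Finset.ne_empty_of_mem (Finset.mem_inter.2 ⟨hx, hx''⟩))
  · exact tr _ 140 (K _ _ (by decide)) e
  · exact tr _ 112 (K _ _ (by decide)) e

end Cfsg.Agent.S1607
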