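import Cfsg.Statements.S1609
import Cfsg.Agent.SPOR.GolayIdx

set_option autoImplicit false
open scoped Pointwise
open Cfsg

namespace Cfsg.Agent.S1609

open CL CL.Orb CL.Golay CL.Golay.Idx MulAction

/-- Subgroups of index 253 in the Mathieu group of degree 23 are exactly the duad stabilisers and the heptad stabilisers. -/
theorem result (x : Cfsg.GolayPt) (H : Subgroup ↥(MulAction.stabilizer Cfsg.M24 x)) (hH : H.index = 253) : (∃ s : Finset Cfsg.GolayPt, s.card = 2 ∧ x ∉ s ∧ H = (MulAction.stabilizer Cfsg.M24 s).subgroupOf (MulAction.stabilizer Cfsg.M24 x)) ∨ ∃ o ∈ Cfsg.octads, x ∈ o ∧ H = (MulAction.stabilizer Cfsg.M24 o).subgroupOf (MulAction.stabilizer Cfsg.M24 x) := by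
  let f := M24.subtype.comp (stabilizer M24 x).subtype
  have hf : Function.Injective f := M24.subtype_injective.comp (Subgroup.subtype_injective _)
  have m : ∀ g : stabilizer M24 x, f g ∈ Fix {x} := fun g => stab_le le_rfl x ⟨g.1.2, g.2⟩
  have c0 : Nat.card (stabilizer M24 x) = 10200960 := (card_of_mem_iff (Fix_le _) fun a =>
    ⟨fun b => m ⟨a, b⟩, fun b => (mem_Fix.1 b).2 x (by simp)⟩).trans (card_Fix_one x)
  have c : Nat.card H = 40320 := by
    have := H.index_mul_card
    rw [hH, c0] at this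
    omega
  obtain ⟨s, h1, h2, h3⟩ := m23_main (K := H.map f) (fun _ ⟨g, _, e⟩ => e ▸ m g)
    ((Subgroup.card_map_of_injective hf).trans c)
  have key : ∀ S : Subgroup (stabilizer M24 x), H ≤ S → (∀ g ∈ S, f g • s = s) → H = S := fun S a b => by
    have d := Subgroup.card_dvd_of_le (H := S.map f) (K := M24 ⊓ stabilizer Pm s)
      fun _ ⟨g, u, e⟩ => e ▸ ⟨g.1.2, b g u⟩
    rw [Subgroup.card_map_of_injective hf] at d
    have d2 := Nat.dvd_gcd d (c0 ▸ S.card_subgroup_dvd_card)
    refine Subgroup.eq_of_le_of_card_ge a (c ▸ Nat.le_of_dvd (by norm_num) ?_)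
    rcases h2 with e | e
    · rwa [card_stab_small (k := 120960) (by omega) (by rw [e]; rfl)] at d2
    · rwa [card_stab_octad e] at d2
  rcases h2 with e | e
  · refine .inl ⟨s.erase x, by rw [Finset.card_erase_of_mem h1, e], by simp, key _ (fun g a => ?_) fun g a => ?_⟩
    · refine smul_eq_of (g := f g) fun y b => Finset.mem_erase.2 ⟨fun e => (Finset.mem_erase.1 b).1
        ((f g).injective (e.trans (g.2 :).symm)), apply_mem_of_smul_eq (h3 _ ⟨g, a, rfl⟩) (Finset.mem_erase.1 b).2⟩
    · rw [← Finset.insert_erase h1, Finset.smul_finset_insert]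
      exact congrArg₂ insert g.2 a
  · exact .inr ⟨s, e, h1, key _ (fun g a => h3 _ ⟨g, a, rfl⟩) fun g a => a⟩

end Cfsg.Agent.S1609
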