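import Cfsg.Statements.S1610
import Cfsg.Agent.SPOR.Hexacode

set_option autoImplicit false
open Cfsg

namespace Cfsg.Agent.S1610

open CL CL.Hexa

theorem enc_map {F : Type*} [Field F] (φ : F4 ≃+* F) (u : F4 × F4 × F4) :
    enc (φ F4.w) (φ u.1, φ u.2.1, φ u.2.2) = fun i => φ (enc F4.w u i) := by
  funext i
  fin_cases i <;> simp [enc]

theorem main {F : Type*} [Field F] [DecidableEq F] (h2 : (2 : F) = 0) (φ : F4 ≃+* F)
    (p : ℕ → Prop) [DecidablePred p] :
    {x : Fin 6 → F | x ∈ Cfsg.hexacode F (φ F4.w) ∧ p (Finset.univ.filter fun i => x i ≠ 0).card}.ncard =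
    (Finset.univ.filter fun u : F4 × F4 × F4 =>
      p (Finset.univ.filter fun i => enc F4.w u i ≠ 0).card).card := by
  have hω : (φ F4.w) ^ 2 + φ F4.w + 1 = 0 := by
    rw [← map_pow, ← map_one φ, ← map_add, ← map_add, F4.w_root, map_zero]
  have hinj : Function.Injective fun (u : F4 × F4 × F4) (i : Fin 6) => φ (enc F4.w u i) := by
    intro u v h
    apply enc_injective F4.w
    funext i
    exact φ.injective (congrFun h i)
  rw [← Set.ncard_coe_finset, ← Set.ncard_image_of_injective _ hinj]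
  congr 1
  ext x
  simp only [Set.mem_ofPred_eq, mem_iff h2 hω, chk_iff, Finset.coe_filter, Finset.mem_univ, true_and,
    Set.mem_image]
  constructor
  · rintro ⟨⟨⟨a, b, c⟩, rfl⟩, h⟩
    obtain ⟨a, rfl⟩ := φ.surjective a
    obtain ⟨b, rfl⟩ := φ.surjective b
    obtain ⟨c, rfl⟩ := φ.surjective c
    have := enc_map φ (a, b, c)
    refine ⟨(a, b, c), ?_, this.symm⟩
    rw [this] at h
    simpa using h
  · rintro ⟨u, h, rfl⟩
    exact ⟨⟨_, enc_map φ u⟩, by simpa using h⟩


/-- The hexacode has 64 words, minimum weight 4, and weight distribution 0^1 4^45 6^18. -/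
theorem result (F : Type*) [Field F] [Fintype F] [DecidableEq F] (hF : Fintype.card F = 4) (ω : F) (hω : ω ^ 2 + ω + 1 = 0) : Nat.card ↥(Cfsg.hexacode F ω) = 64 ∧ (∀ x ∈ Cfsg.hexacode F ω, x ≠ 0 → (Finset.univ.filter fun i => x i ≠ 0).card = 4 ∨ (Finset.univ.filter fun i => x i ≠ 0).card = 6) ∧ {x : Fin 6 → F | x ∈ Cfsg.hexacode F ω ∧ (Finset.univ.filter fun i => x i ≠ 0).card = 4}.ncard = 45 ∧ {x : Fin 6 → F | x ∈ Cfsg.hexacode F ω ∧ (Finset.univ.filter fun i => x i ≠ 0).card = 6}.ncard = 18 := by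
  have h2 := F4.two_eq_zero_of_card hF
  obtain ⟨φ, rfl⟩ : ∃ φ : F4 ≃+* F, φ F4.w = ω := ⟨F4.equiv hF ω hω, rfl⟩
  refine ⟨?_, ?_, (main h2 φ (· = 4)).trans (by decide +kernel),
    (main h2 φ (· = 6)).trans (by decide +kernel)⟩
  · have := main h2 φ (fun _ => True)
    simp only [and_true] at this
    exact this.trans (by decide +kernel)
  · intro x hx hx0
    have := main h2 φ (fun n => ¬ (n = 0 ∨ n = 4 ∨ n = 6))
    have h0 : (Finset.univ.filter fun u : F4 × F4 × F4 =>
      ¬ ((Finset.univ.filter fun i => enc F4.w u i ≠ 0).card = 0 ∨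
        (Finset.univ.filter fun i => enc F4.w u i ≠ 0).card = 4 ∨
        (Finset.univ.filter fun i => enc F4.w u i ≠ 0).card = 6)).card = 0 := by decide +kernel
    rw [h0, Set.ncard_eq_zero (Set.toFinite _), Set.eq_empty_iff_forall_notMem] at this
    have h := this x
    simp only [Set.mem_ofPred_eq, hx, true_and, not_not] at h
    rcases h with h | h
    · exfalso
      apply hx0
      funext i
      rw [Finset.card_eq_zero, Finset.filter_eq_empty_iff] at h
      simpa using h (Finset.mem_univ i)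
    · exact h

end Cfsg.Agent.S1610
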