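import Cfsg.Statements.S1611
import Cfsg.Agent.SPOR.Hexacode

set_option autoImplicit false
open Cfsg

namespace Cfsg.Agent.S1611

open CL CL.Hexa CL.Chain

section general
variable {F : Type*} [Field F] (C : Submodule F (Fin 6 → F))

theorem mono_mul (σ τ : Equiv.Perm (Fin 6)) (c d : Fin 6 → Fˣ) (x : Fin 6 → F) :
    monomialMap σ c (monomialMap τ d x) = monomialMap (σ * τ) (fun i => c i * d (σ.symm i)) x := by
  funext i
  simp only [monomialMap, Units.val_mul, mul_assoc]
  rfl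

theorem mono_inj (σ : Equiv.Perm (Fin 6)) (c : Fin 6 → Fˣ) :
    Function.Injective (monomialMap σ c) := by
  intro x y h
  funext i
  have := congrFun h (σ i)
  simp only [monomialMap, Equiv.symm_apply_apply] at this
  exact mul_left_cancel₀ (Units.ne_zero _) this

variable [Finite F]

theorem mono_surj {σ : Equiv.Perm (Fin 6)} {c : Fin 6 → Fˣ}
    (h : ∀ x ∈ C, monomialMap σ c x ∈ C) {y : Fin 6 → F} (hy : y ∈ C) :
    ∃ x ∈ C, monomialMap σ c x = y := by
  let f : C → C := fun x => ⟨monomialMap σ c x, h x x.2⟩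
  have hf : Function.Injective f := fun x y hxy =>
    Subtype.ext (mono_inj σ c (congrArg Subtype.val hxy))
  obtain ⟨x, hx⟩ := Finite.surjective_of_injective hf ⟨y, hy⟩
  exact ⟨x, x.2, congrArg Subtype.val hx⟩

/-- The permutation parts of the monomial automorphisms. -/
def P : Subgroup (Equiv.Perm (Fin 6)) where
  carrier := {σ | ∃ c : Fin 6 → Fˣ, ∀ x ∈ C, monomialMap σ c x ∈ C}
  one_mem' := ⟨1, fun x hx => by
    have : monomialMap 1 1 x = x := by funext i; simp [monomialMap]; rfl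
    rwa [this]⟩
  mul_mem' := by
    rintro σ τ ⟨c, hc⟩ ⟨d, hd⟩
    exact ⟨_, fun x hx => mono_mul σ τ c d x ▸ hc _ (hd x hx)⟩
  inv_mem' := by
    rintro σ ⟨c, hc⟩
    refine ⟨fun i => (c (σ i))⁻¹, fun y hy => ?_⟩
    obtain ⟨x, hx, rfl⟩ := mono_surj C hc hy
    have : monomialMap σ⁻¹ (fun i => (c (σ i))⁻¹) (monomialMap σ c x) = x := by
      funext i
      simp only [monomialMap]
      change _ * (↑(c (σ i)) * x (σ.symm (σ i))) = _
      rw [Equiv.symm_apply_apply, Units.inv_mul_cancel_left]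
    rwa [this]

theorem card_eq (hs : ∀ c : Fin 6 → Fˣ, (∀ x ∈ C, monomialMap 1 c x ∈ C) → ∀ i j, c i = c j) :
    Nat.card {f : Equiv.Perm (Fin 6) × (Fin 6 → Fˣ) // (∀ x ∈ C, monomialMap f.1 f.2 x ∈ C)} =
      Nat.card (P C) * Nat.card Fˣ := by
  choose ch hch using fun σ : P C => σ.2
  let f : P C × Fˣ → {f : Equiv.Perm (Fin 6) × (Fin 6 → Fˣ) //
      (∀ x ∈ C, monomialMap f.1 f.2 x ∈ C)} :=
    fun a => ⟨(a.1, fun i => a.2 * ch a.1 i), fun x hx => by
      have : monomialMap (a.1 : Equiv.Perm (Fin 6)) (fun i => a.2 * ch a.1 i) x =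
          (a.2 : F) • monomialMap (a.1 : Equiv.Perm (Fin 6)) (ch a.1) x := by
        funext i; simp [monomialMap, mul_assoc]
      rw [this]
      exact Submodule.smul_mem _ _ (hch a.1 x hx)⟩
  have hf : Function.Bijective f := by
    constructor
    · rintro ⟨σ, a⟩ ⟨τ, b⟩ h
      have h1 := congrArg (fun z => z.1.1) h
      have h2 := congrArg (fun z => z.1.2 0) h
      have h1' : σ = τ := Subtype.ext h1
      subst h1'
      simp only [f] at h2
      rw [mul_right_cancel h2]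
    · rintro ⟨⟨σ, c⟩, hc⟩
      have hσ : σ ∈ P C := ⟨c, hc⟩
      have := hs (fun i => c i * (ch ⟨σ, hσ⟩ i)⁻¹) (by
        intro y hy
        obtain ⟨x, hx, rfl⟩ := mono_surj C (hch ⟨σ, hσ⟩) hy
        have : monomialMap 1 (fun i => c i * (ch ⟨σ, hσ⟩ i)⁻¹) (monomialMap σ (ch ⟨σ, hσ⟩) x) =
            monomialMap σ c x := by
          funext i
          simp only [monomialMap, Units.val_mul, mul_assoc]
          change _ * (_ * ((ch ⟨σ, hσ⟩ i : F) * _)) = _
          rw [Units.inv_mul_cancel_left]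
          rfl
        rw [this]
        exact hc x hx)
      refine ⟨(⟨σ, hσ⟩, c 0 * (ch ⟨σ, hσ⟩ 0)⁻¹), Subtype.ext (Prod.ext rfl ?_)⟩
      funext i
      exact (mul_inv_eq_iff_eq_mul.1 (this i 0)).symm
  rw [← Nat.card_eq_of_bijective f hf, Nat.card_prod]

end general

section transfer
variable {F : Type*} [Field F]

theorem good_iff (h2 : (2 : F) = 0) (φ : F4 ≃+* F) (f : Fin 6 → Fin 6) (c : Fin 6 → F4) :
    (∀ x ∈ hexacode F (φ F4.w), (fun i => φ (c i) * x (f i)) ∈ hexacode F (φ F4.w)) ↔ Tst f c := by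
  have hω : (φ F4.w) ^ 2 + φ F4.w + 1 = 0 := by
    rw [← map_pow, ← map_one φ, ← map_add, ← map_add, F4.w_root, map_zero]
  simp only [mem_iff h2 hω, tst_iff]
  constructor
  · intro h x hx
    rw [← chk_map φ] at hx ⊢
    simpa only [map_mul] using h _ hx
  · intro h x hx
    have hx' : x = fun i => φ (φ.symm (x i)) := by funext i; simp
    rw [hx'] at hx ⊢
    rw [chk_map] at hx
    have := (chk_map φ _ _).2 (h _ hx)
    simpa only [map_mul] using this

end transfer

def levT : List (List (ℕ × ℕ)) := [[(181896, 1365), (153217, 1365), (181777, 3669), (151761, 2901), (166097, 2937), (19153, 2925)], [(0, 0), (181896, 1365), (153168, 3669), (180944, 2901), (137936, 2937), (55504, 2925)], [(0, 0), (0, 0), (181896, 1365), (152776, 1365), (174280, 4089), (84680, 2733)], [(0, 0), (0, 0), (0, 0), (181896, 1365), (146056, 4089), (120968, 2733)]]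

def levF (i : Fin 4) (p q : Fin 6) : Fin 6 :=
  Fin.ofNat 6 (((levT.getD i []).getD p (0, 0)).1 / 8 ^ q.val % 8)

def levC (i : Fin 4) (p q : Fin 6) : F4 :=
  [F4.o, F4.l, F4.w, F4.v].getD (((levT.getD i []).getD p (0, 0)).2 / 4 ^ q.val % 4) F4.o

def base4 (i : Fin 4) : Fin 6 := Fin.castLE (by norm_num) i

theorem lev_spec : ∀ (i : Fin 4) (p : Fin 6), (∀ j < i, p ≠ base4 j) →
    Function.Injective (levF i p) ∧ (∀ j < i, levF i p (base4 j) = base4 j) ∧ levF i p p = base4 i ∧
    (∀ q, levC i p q ≠ 0) ∧ Tst (levF i p) (levC i p) := by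
  decide +kernel

theorem tst_id : ∀ a b c d e f : F4, Tst id ![a, b, c, d, e, f] →
    a = b ∧ a = c ∧ a = d ∧ a = e ∧ a = f := by decide +kernel

theorem tst_swap : ∀ a b c d e f : F4, Tst (Equiv.swap 0 1) ![a, b, c, d, e, f] → a = 0 := by
  decide +kernel

theorem vec6 {α : Type*} (c : Fin 6 → α) : c = ![c 0, c 1, c 2, c 3, c 4, c 5] := by
  funext i; fin_cases i <;> rfl


/-- The monomial automorphism group of the hexacode has order 1080: its diagonal part is the scalars and its permutation parts form the alternating group of degree 6. -/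
theorem result (F : Type*) [Field F] [Fintype F] [DecidableEq F] (hF : Fintype.card F = 4) (ω : F) (hω : ω ^ 2 + ω + 1 = 0) : Nat.card {f : Equiv.Perm (Fin 6) × (Fin 6 → Fˣ) // (∀ x ∈ Cfsg.hexacode F ω, Cfsg.monomialMap f.1 f.2 x ∈ Cfsg.hexacode F ω)} = 1080 ∧ (∀ c : Fin 6 → Fˣ, (∀ x ∈ Cfsg.hexacode F ω, Cfsg.monomialMap 1 c x ∈ Cfsg.hexacode F ω) → ∀ i j, c i = c j) ∧ {σ : Equiv.Perm (Fin 6) | ∃ c : Fin 6 → Fˣ, (∀ x ∈ Cfsg.hexacode F ω, Cfsg.monomialMap σ c x ∈ Cfsg.hexacode F ω)} = (alternatingGroup (Fin 6) : Set (Equiv.Perm (Fin 6))) := by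
  have h2 := F4.two_eq_zero_of_card hF
  obtain ⟨φ, rfl⟩ : ∃ φ : F4 ≃+* F, φ F4.w = ω := ⟨F4.equiv hF ω hω, rfl⟩
  have hgood : ∀ (σ : Equiv.Perm (Fin 6)) (c : Fin 6 → Fˣ),
      (∀ x ∈ hexacode F (φ F4.w), monomialMap σ c x ∈ hexacode F (φ F4.w)) →
      Tst σ.symm fun i => φ.symm (c i) := by
    intro σ c h
    rw [← good_iff h2 φ]
    simp only [RingEquiv.apply_symm_apply]
    exact h
  have hs : ∀ c : Fin 6 → Fˣ, (∀ x ∈ Cfsg.hexacode F (φ F4.w),
      Cfsg.monomialMap 1 c x ∈ Cfsg.hexacode F (φ F4.w)) → ∀ i j, c i = c j := by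
    intro c hc
    have := hgood 1 c hc
    rw [vec6 fun i => φ.symm (c i)] at this
    obtain ⟨h1, h2, h3, h4, h5⟩ := tst_id _ _ _ _ _ _ this
    have : ∀ i, c 0 = c i := by
      intro i
      apply Units.ext
      apply φ.symm.injective
      fin_cases i
      exacts [rfl, h1, h2, h3, h4, h5]
    intro i j
    rw [← this i, this j]
  have hA : alternatingGroup (Fin 6) ≤ P (hexacode F (φ F4.w)) := by
    apply IsMultiplyPretransitive.alternatingGroup_le
    have : Nat.card (Fin 6) - 2 = 4 := by simp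
    rw [this]
    apply isMultiplyPretransitive_of_levels _ base4
    intro i p hp
    obtain ⟨h1, h3, h4, h5, h6⟩ := lev_spec i p hp
    let τ : Equiv.Perm (Fin 6) := Equiv.ofBijective _ (Finite.injective_iff_bijective.1 h1)
    refine ⟨τ, ?_, h3, h4⟩
    rw [← inv_mem_iff]
    exact ⟨fun q => Units.mk0 (φ (levC i p q)) (by simpa using h5 q), (good_iff h2 φ _ _).2 h6⟩
  have hP : P (hexacode F (φ F4.w)) = alternatingGroup (Fin 6) := by
    refine le_antisymm (fun σ hσ => ?_) hA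
    by_contra hodd
    have h1 : Equiv.swap 0 1 * σ ∈ alternatingGroup (Fin 6) := by
      rw [Equiv.Perm.mem_alternatingGroup] at hodd ⊢
      rw [map_mul, Equiv.Perm.sign_swap (by decide), (Int.units_ne_iff_eq_neg.1 hodd)]
      rfl
    have h3 : Equiv.swap 0 1 ∈ P (hexacode F (φ F4.w)) := by
      simpa using mul_mem (hA h1) (inv_mem hσ)
    obtain ⟨c, hc⟩ := h3
    have := hgood _ c hc
    rw [vec6 fun i => φ.symm (c i)] at this
    have := tst_swap _ _ _ _ _ _ this
    simp at this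
  refine ⟨?_, hs, congrArg SetLike.coe hP⟩
  rw [card_eq _ hs, hP, Nat.card_units, Nat.card_eq_fintype_card (α := F), hF,
    nat_card_alternatingGroup]
  simp [Nat.factorial]

end Cfsg.Agent.S1611
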