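import Cfsg.Statements.S1612
import Cfsg.Agent.SPOR.TTPrim2

set_option autoImplicit false
open Cfsg

namespace Cfsg.Agent.S1612

/-- In a 3-transposition group (no solvable normal subgroup, perfect derived group), the normaliser of a commuting set of transpositions of maximum size contains a Sylow 2-subgroup and is doubly transitive on the set. -/
theorem result {G : Type*} [Group G] [Finite G] (hsol : ∀ N : Subgroup G, N.Normal → Group.IsSolvable ↥N → N = ⊥) (hperf : ⁅commutator G, commutator G⁆ = commutator G) {D : Set G} (hD : Cfsg.IsThreeTranspositionClass D) {E : Set G} (hE : E ⊆ D) (hc : ∀ a ∈ E, ∀ b ∈ E, Commute a b) (hmax : ∀ E' : Set G, E' ⊆ D → (∀ a ∈ E', ∀ b ∈ E', Commute a b) → E'.ncard ≤ E.ncard) : (∃ P : Sylow 2 G, (P : Subgroup G) ≤ Subgroup.normalizer E) ∧ ∀ a ∈ E, ∀ b ∈ E, ∀ c ∈ E, ∀ d ∈ E, a ≠ b → c ≠ d → ∃ g ∈ Subgroup.normalizer E, g * a * g⁻¹ = c ∧ g * b * g⁻¹ = d := by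
  have P := CL.TT.prim_of_fischer hsol hperf hD
  have B : CL.TT.IsBase D E := ⟨hE, hc, hmax⟩
  obtain ⟨T, -, hT⟩ := B.exists_sylow hD.1 P.conj
  refine ⟨⟨T, hT⟩, fun a ha b hb c hc' d hd h1 h2 => ?_⟩
  obtain ⟨g, e1, e2⟩ := P.exists_conj_pair (hE ha) (hE hb) (hE hc') (hE hd) h1 h2 (hc a ha b hb)
    (hc c hc' d hd)
  obtain ⟨n, hn, e⟩ := B.exists_mem_normalizer hD.1 P.conj (A := {a, b}) (g := g)
    (by rintro _ (rfl | rfl) <;> assumption) (by rintro _ (rfl | rfl) <;> simp only [e1, e2, hc', hd])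
  exact ⟨n, hn, (e a (by simp)).trans e1, (e b (by simp)).trans e2⟩

end Cfsg.Agent.S1612
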