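import Cfsg.Statements.S1614
import Cfsg.Agent.SPOR.FT10

set_option autoImplicit false
open Cfsg

namespace Cfsg.Agent.S1614

/-- If the commuting transpositions of one transposition generate a solvable group, a Fischer 3-transposition group is S5, S6, PSU(4, 2) or PSU(5, 2). -/
theorem result {G : Type*} [Group G] [Finite G] (hsol : ∀ N : Subgroup G, N.Normal → Group.IsSolvable ↥N → N = ⊥) (hperf : ⁅commutator G, commutator G⁆ = commutator G) {D : Set G} (hD : Cfsg.IsThreeTranspositionClass D) (x : G) (hx : x ∈ D) (hs : Group.IsSolvable ↥(Subgroup.closure {y : G | y ∈ D ∧ y ≠ x ∧ Commute x y})) : Nonempty (G ≃* Equiv.Perm (Fin 5)) ∨ Nonempty (G ≃* Equiv.Perm (Fin 6)) ∨ ∃ (F : Type) (_ : Field F) (_ : Fintype F), Fintype.card F = 4 ∧ (Nonempty (G ≃* Cfsg.PSU 4 F 2) ∨ Nonempty (G ≃* Cfsg.PSU 5 F 2)) := by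
  have P := CL.FT.pr_of_prim (CL.TT.prim_of_fischer hsol hperf hD)
  have hG := CL.TT.isGroup_of_isClass hD
  have hZ : Subgroup.center G = ⊥ := hsol _ inferInstance
    (Group.isSolvable_of_comm fun a b => mul_comm' a b)
  by_cases th : CL.TTU.AllTh (CL.TTU.nb D x)
  · obtain ⟨e, -⟩ := (CL.FT.symM_five P hx th).equiv hD.2.2
    exact Or.inl ⟨e⟩
  by_cases tw : CL.TTU.AllTw (CL.TTU.nb D x)
  swap
  · exact absurd hs (P.nb hx tw th).not_solvable
  rcases (CL.FT.po_of P hx tw).cases with k | ⟨n, hn, k⟩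
  · obtain ⟨e, -⟩ := ((k.six P hx).resolve_left fun s => s.not_solvable (P.fs.nb x) hs).equiv hD.2.2
    exact Or.inr (Or.inl ⟨e⟩)
  · obtain ⟨e, -⟩ := k.equiv hn hG P hZ
    have : ¬ 6 ≤ n := fun h => (k.str4 h P hx).not_solvable (P.fs.nb x) hs
    obtain rfl | rfl : n = 4 ∨ n = 5 := by omega
    exacts [Or.inr (Or.inr ⟨CL.F4, inferInstance, inferInstance, rfl, Or.inl ⟨e⟩⟩),
      Or.inr (Or.inr ⟨CL.F4, inferInstance, inferInstance, rfl, Or.inr ⟨e⟩⟩)]

end Cfsg.Agent.S1614
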