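import Cfsg.Statements.S1615
import Cfsg.Agent.SPOR.FT4

set_option autoImplicit false
open Cfsg

namespace Cfsg.Agent.S1615

/-- If O(⟨D_x⟩) is not central in ⟨D_x⟩ for some transposition x, the 3-transposition group is the symmetric group of degree 5. -/
theorem result {G : Type*} [Group G] [Finite G] (hsol : ∀ N : Subgroup G, N.Normal → Group.IsSolvable ↥N → N = ⊥) (hperf : ⁅commutator G, commutator G⁆ = commutator G) {D : Set G} (hD : Cfsg.IsThreeTranspositionClass D) (x : G) (hx : x ∈ D) (h : ¬ Cfsg.oddCore ↥(Subgroup.closure {y : G | y ∈ D ∧ y ≠ x ∧ Commute x y}) ≤ Subgroup.center ↥(Subgroup.closure {y : G | y ∈ D ∧ y ≠ x ∧ Commute x y})) : Nonempty (G ≃* Equiv.Perm (Fin 5)) := by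
  have P := CL.FT.pr_of_prim (CL.TT.prim_of_fischer hsol hperf hD)
  obtain ⟨e, -⟩ := (CL.FT.symM_five P hx
    (CL.FT.allTh_of_oddCore (P.fs.nb x) (P.r3.nb x hx) h)).equiv hD.2.2
  exact ⟨e⟩

end Cfsg.Agent.S1615
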