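import Cfsg.Statements.S1616
import Cfsg.Agent.SPOR.FT9

set_option autoImplicit false
open Cfsg

namespace Cfsg.Agent.S1616

/-- If O₂(⟨D_x⟩) is not central in ⟨D_x⟩ for some transposition x, the 3-transposition group is some Sp(2n, 2) or PSU(n, 2). -/
theorem result {G : Type*} [Group G] [Finite G] (hsol : ∀ N : Subgroup G, N.Normal → Group.IsSolvable ↥N → N = ⊥) (hperf : ⁅commutator G, commutator G⁆ = commutator G) {D : Set G} (hD : Cfsg.IsThreeTranspositionClass D) (x : G) (hx : x ∈ D) (h : ¬ Cfsg.pCore 2 ↥(Subgroup.closure {y : G | y ∈ D ∧ y ≠ x ∧ Commute x y}) ≤ Subgroup.center ↥(Subgroup.closure {y : G | y ∈ D ∧ y ≠ x ∧ Commute x y})) : (∃ n : ℕ, Nonempty (G ≃* Matrix.symplecticGroup (Fin n) (ZMod 2))) ∨ ∃ (F : Type) (_ : Field F) (_ : Fintype F) (n : ℕ), Fintype.card F = 4 ∧ Nonempty (G ≃* Cfsg.PSU n F 2) := by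
  have P := CL.FT.pr_of_prim (CL.TT.prim_of_fischer hsol hperf hD)
  have hG := CL.TT.isGroup_of_isClass hD
  have hZ : Subgroup.center G = ⊥ := hsol _ inferInstance
    (Group.isSolvable_of_comm fun a b => mul_comm' a b)
  rcases (CL.FT.po_of P hx (CL.FT.allTw_of_pCore (P.fs.nb x) (P.r3.nb x hx) h)).cases with
    k | ⟨n, hn, k⟩
  · obtain ⟨m, e, -⟩ := k.equiv hG ⟨x, hx⟩ hZ
    exact Or.inl ⟨m, ⟨e⟩⟩
  · obtain ⟨e, -⟩ := k.equiv hn hG P hZ
    exact Or.inr ⟨CL.F4, inferInstance, inferInstance, n, rfl, ⟨e⟩⟩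

end Cfsg.Agent.S1616
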