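import Cfsg.Statements.S1622
import Mathlib
import Cfsg.Agent.PERM.J2Two

set_option autoImplicit false
open Quaternion
open Cfsg

namespace Cfsg.Agent.S1622

/-- The reflection group is transitive on its 315 reflections by conjugation. -/
theorem result (f f' : Equiv.Perm ↥Cfsg.Spor.icoLeech) (hf : Cfsg.Spor.IsIcoReflection f) (hf' : Cfsg.Spor.IsIcoReflection f') : ∃ g ∈ Cfsg.Spor.twoJ2, g * f * g⁻¹ = f' := by
  obtain ⟨r, hr, rfl⟩ := CL.Ico.isRefl_iff.1 hf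
  obtain ⟨r', hr', rfl⟩ := CL.Ico.isRefl_iff.1 hf'
  obtain ⟨g, -, e⟩ := CL.J2.exists_conj_rf hr
  obtain ⟨g', -, e'⟩ := CL.J2.exists_conj_rf hr'
  refine ⟨(g' * g⁻¹).1, (g' * g⁻¹).2, congrArg Subtype.val
    (show g' * g⁻¹ * CL.J2.rf hr * (g' * g⁻¹)⁻¹ = CL.J2.rf hr' from ?_)⟩
  rw [e, e']
  group

end Cfsg.Agent.S1622
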