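import Cfsg.Statements.S1624
import Mathlib
import Cfsg.Agent.PERM.J2U

set_option autoImplicit false
open Quaternion
open Cfsg

namespace Cfsg.Agent.S1624

/-- The Hall–Janko group contains PSU(3, 3) with index 100 and acts on the 100 cosets with rank 3 and subdegrees 1, 36, 63. -/
theorem result : ∃ H : Subgroup Cfsg.Spor.J2, H.index = 100 ∧ (∃ (F : Type) (_ : Field F) (_ : Fintype F), Fintype.card F = 9 ∧ Nonempty (↥H ≃* Cfsg.PSU 3 F 3)) ∧ ∃ c₁ c₂ : Cfsg.Spor.J2 ⧸ H, (MulAction.orbit ↥H c₁).ncard = 36 ∧ (MulAction.orbit ↥H c₂).ncard = 63 := by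
  let _ := Fintype.ofFinite (GaloisField 3 2)
  have hF : Fintype.card (GaloisField 3 2) = 3 ^ 2 := by
    rw [← Nat.card_eq_fintype_card, GaloisField.card 3 2 (by norm_num)]
  exact ⟨_, CL.J2.model.index_K, ⟨_, _, _, hF, CL.J2.model.nonempty_equiv_PSU hF⟩, _, _,
    CL.J2.model.orbits_K.1, CL.J2.model.orbits_K.2.1⟩

end Cfsg.Agent.S1624
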