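import Cfsg.Statements.S1631
import Cfsg.Agent.CLAS.UniTv

set_option autoImplicit false
open scoped MatrixGroups
open Cfsg

namespace Cfsg.Agent.S1631

/-- The unitary transvections of SU(n, 2), n ≥ 4, form a generating conjugacy class of 3-transpositions. -/
theorem result (F : Type) [Field F] [Fintype F] [DecidableEq F] (hF : Fintype.card F = 4) (n : ℕ) (hn : 4 ≤ n) : Cfsg.IsThreeTranspositionClass {g : ↥(Cfsg.SU n F 2) | (((g : Matrix.SpecialLinearGroup (Fin n) F) : Matrix (Fin n) (Fin n) F) - 1).rank = 1} := by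
  open CL.Uni CL.Witt in
  have hF' : Fintype.card F = 2 ^ 2 := hF
  have h2 : (2 : F) = 0 := by simpa using CL.SqField.cast_q hF'
  have h4 : ∀ x : F, (x ^ 2) ^ 2 = x := CL.SqField.pow_q_pow_q hF'
  set f := std hF' (Fin n)
  have hf : f.Nondeg := std_nondeg hF' (Fin n)
  have hσ := sig_ne_id hF'
  have hn' : 4 ≤ Module.finrank F (Fin n → F) := by simpa using hn
  have hπ : (HT hF').π 1 = 0 := by rw [HT_π]; grind
  set e := suEquiv hF' n
  set D := {g : ↥(Cfsg.SU n F 2) | (((g : Matrix.SpecialLinearGroup (Fin n) F) : Matrix (Fin n) (Fin n) F) - 1).rank = 1}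
  have hD : ∀ g, g ∈ D ↔ ∃ u, u ≠ 0 ∧ f.q u = 0 ∧ (e g).1 = f.ei u 0 1 := by
    intro g
    change (_ : ℕ) = 1 ↔ _
    rw [← finrank_range_suEquiv hF', finrank_eq_one_iff_ei hf (e g).2]
    refine ⟨fun ⟨u, a, hu, hq, ha0, ha, h⟩ => ⟨u, hu, hq, ?_⟩,
      fun ⟨u, hu, hq, h⟩ => ⟨u, 1, hu, hq, one_ne_zero, hπ, h⟩⟩
    rw [HT_π] at ha
    rwa [show a = 1 by grind] at h
  have hinj : ∀ {g h}, (e g).1 = (e h).1 → g = h := fun h => e.injective (Subtype.ext h)
  have hsq : ∀ g ∈ D, g * g = 1 := fun g hg => by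
    obtain ⟨u, -, hq, h⟩ := (hD g).1 hg
    apply hinj
    rw [map_mul, Subgroup.coe_mul, h, Form.ei_zero_mul_ei_zero hq hπ hπ, map_one,
      show (1 + 1 : F) = 0 by grind, Form.ei_zero, OneMemClass.coe_one]
  have hne : ∀ g ∈ D, g ≠ 1 := by
    rintro g hg rfl
    change (_ : ℕ) = 1 at hg
    simp at hg
  have hconj : ∀ {g h : ↥(Cfsg.SU n F 2)} {u}, f.q u = 0 → (e h).1 = f.ei u 0 1 →
      (e (g * h * g⁻¹)).1 = f.ei ((e g).1 u) 0 1 := fun {g h u} hq hh => by
    have := (Form.eichOK_zero hq hπ).conj_ei (f.SO_le_O (e g).2)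
    rw [map_zero] at this
    rw [← this, ← hh]
    simp
  refine ⟨⟨fun d hd => orderOf_eq_prime (by rw [pow_two, hsq d hd]) (hne d hd),
    fun a ha b hb => ?_⟩, ?_, ?_⟩
  · have ha' := eq_inv_of_mul_eq_one_left (hsq a ha)
    have hb' := eq_inv_of_mul_eq_one_left (hsq b hb)
    obtain ⟨u, -, hu, hau⟩ := (hD a).1 ha
    obtain ⟨v, -, hv, hbv⟩ := (hD b).1 hb
    have e1 := hconj (g := a) hv hbv
    have e2 := hconj (g := b) hu hau
    rw [hau, Form.ei_zero_apply hu hπ, ← ha'] at e1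
    rw [hbv, Form.ei_zero_apply hv hπ, ← hb'] at e2
    by_cases hB : f.B u v = 0
    · left
      rw [hB, mul_zero, zero_smul, sub_zero, ← hbv] at e1
      rw [pow_two, ← mul_assoc, hinj e1, hsq b hb]
    · right
      have hvu : f.B v u = f.B u v ^ 2 := by rw [f.symm u v, HT_ε, one_mul, HT_σ]
      have h3 : f.B u v ^ 3 = 1 := by have := h4 (f.B u v); grind
      have hq' : f.q (u - ((HT hF').ε * 1 * f.B v u) • v) = 0 := by
        have := Form.mem_O_q (f.ei_mem_O v 0 1) u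
        rwa [Form.ei_zero_apply hv hπ, hu] at this
      have e3 := (Form.eichOK_zero hq' hπ).ei_smul_left (f.B u v)
      rw [smul_zero, HT_σ, ← pow_succ, h3, mul_one (1 : F), ← e2,
        show f.B u v • (u - ((HT hF').ε * 1 * f.B v u) • v) =
          v - ((HT hF').ε * 1 * f.B u v) • u by
          rw [HT_ε, hvu, smul_sub, smul_smul, show f.B u v * (1 * 1 * f.B u v ^ 2) = -1 by grind,
            show (1 * 1 * f.B u v) = -f.B u v by grind]
          module, ← e1] at e3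
      have e4 := hinj e3
      calc (a * b) ^ 3 = a * b * a * (b * a * b) := by simp [pow_succ, mul_assoc]
        _ = a * b * (a * a) * b * a := by rw [← e4]; simp [mul_assoc]
        _ = 1 := by rw [hsq a ha, mul_one, mul_assoc a, hsq b hb, mul_one, hsq a ha]
  · obtain ⟨u, hu0, hu⟩ := exists_isotropic hσ hf (by omega)
    set d := e.symm ⟨f.ei u 0 1, Form.ei_mem_SO _ u 0 1⟩
    have hd : (e d).1 = f.ei u 0 1 := by simp [d]
    refine ⟨d, (hD d).2 ⟨u, hu0, hu, hd⟩, Set.ext fun g => ?_⟩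
    rw [hD, show g ∈ conjugatesOf d ↔ IsConj d g from Iff.rfl, isConj_iff]
    constructor
    · rintro ⟨v, hv0, hv, hg⟩
      obtain ⟨x, hx, rfl⟩ := (idx2 hσ hf hn').exists_E_apply_eq hf hu0 hv0 (hu.trans hv.symm)
      rw [E_eq_SO hσ hf] at hx
      refine ⟨e.symm ⟨x, hx⟩, hinj ?_⟩
      rw [hconj hu hd, hg]
      simp
    · rintro ⟨x, rfl⟩
      exact ⟨(e x).1 u, by simpa using hu0, by rw [Form.mem_O_q (f.SO_le_O (e x).2), hu],
        hconj hu hd⟩
  · have hT := Tv_eq_SO hσ hf (by omega) (Or.inl hn')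
    have hle : f.Tv ≤ ((Subgroup.closure D).map e.toMonoidHom).map (Subgroup.subtype _) := by
      refine Form.Tv_le_iff.2 fun u a hu ha => ?_
      by_cases h0 : f.ei u 0 a = 1
      · rw [h0]; exact one_mem _
      refine ⟨⟨_, Form.ei_mem_SO _ u 0 a⟩, ⟨e.symm ⟨_, Form.ei_mem_SO _ u 0 a⟩,
        Subgroup.subset_closure ((hD _).2 ⟨u, ?_, hu, ?_⟩), by simp⟩, rfl⟩
      · rintro rfl
        exact h0 (LinearEquiv.ext fun x => by simp [Form.ei_zero_apply hu ha])
      · have ha0 : a ≠ 0 := by rintro rfl; exact h0 (Form.ei_zero u)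
        rw [HT_π] at ha
        simp [show a = 1 by grind, f]
    rw [eq_top_iff]
    intro A _
    obtain ⟨_, ⟨B, hB, rfl⟩, h⟩ := hle (hT.ge (e A).2)
    obtain rfl : B = A := hinj h
    exact hB

end Cfsg.Agent.S1631
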