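import Cfsg.Statements.S1635
import Mathlib
import Cfsg.Agent.SPOR.GolayCoset

set_option autoImplicit false
open Cfsg

namespace Cfsg.Agent.S1635

/-- Coset leaders of the length-24 code: a coset contains a unique word of weight ≤ 3, or else exactly six words of weight 4 and none lighter. -/
theorem result (w : Cfsg.GolayPt → ZMod 2) : ({v : Cfsg.GolayPt → ZMod 2 | hammingNorm v ≤ 4 ∧ w - v ∈ Cfsg.golayCode}.ncard = 1 ∧ ∃ v : Cfsg.GolayPt → ZMod 2, hammingNorm v ≤ 3 ∧ w - v ∈ Cfsg.golayCode) ∨ ({v : Cfsg.GolayPt → ZMod 2 | hammingNorm v ≤ 4 ∧ w - v ∈ Cfsg.golayCode}.ncard = 6 ∧ ∀ v : Cfsg.GolayPt → ZMod 2, w - v ∈ Cfsg.golayCode → hammingNorm v ≤ 4 → hammingNorm v = 4) := by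
  have e : {v : Cfsg.GolayPt → ZMod 2 | hammingNorm v ≤ 4 ∧ w - v ∈ Cfsg.golayCode}.ncard =
      {u : Finset Cfsg.GolayPt | u.card ≤ 4 ∧ CL.Golay.Syn u = CL.Golay.Syn (support₂ w)}.ncard := by
    rw [← CL.Golay.ncard_words]
    simp only [CL.Golay.card_support₂, CL.Golay.sub_mem_golayCode_iff]
  rw [e]
  rcases CL.Golay.small_coset (support₂ w) with ⟨v, hv, h⟩ | ⟨S, hS, h⟩
  · refine Or.inl ⟨by rw [h, Set.ncard_singleton], CL.Golay.indic v, ?_, ?_⟩
    · rwa [← CL.Golay.card_support₂, CL.Golay.support₂_indic]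
    · rw [CL.Golay.sub_mem_golayCode_iff, CL.Golay.support₂_indic]
      exact (h.symm.subset rfl).2
  · refine Or.inr ⟨by rw [h, Set.ncard_coe_finset, hS.1], fun v h1 h2 => ?_⟩
    rw [← CL.Golay.card_support₂] at h2 ⊢
    exact hS.2.1 _ (h.subset ⟨h2, CL.Golay.sub_mem_golayCode_iff.1 h1⟩)

end Cfsg.Agent.S1635
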