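import Cfsg.Statements.S1638
import Mathlib
import Cfsg.Agent.SPOR.GolayFib

set_option autoImplicit false
open scoped Pointwise
open Cfsg

namespace Cfsg.Agent.S1638

open CL.K CL.Orb CL.Enc CL.Golay MulAction

theorem gens_in : AllI (M24 ⊓ stabilizer (Equiv.Perm GolayPt) (((none : GolayPt), (some 0 : GolayPt)), E.setOf 6))
    [965897098669544891238507852847154240, 971860988311219713093134432158058528] :=
  ((((AllI.ofM (by decide +kernel)).pt none (by decide +kernel)).pt (some 0)
    (by decide +kernel)).stab2.set 6 (by decide +kernel)).stab2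

theorem key {g : Equiv.Perm GolayPt} (hg : g ∈ M24) (b : ℕ × Bool × Bool × Bool) (n : ℕ)
    (hb : List.filter (fun v => decide (v.1 = b)) [((2, false, false, true), 1), ((0, true, true, true), 1), ((1, false, true, true), 2), ((1, true, false, true), 2), ((0, false, true, true), 20), ((0, true, false, true), 20), ((0, false, false, true), 30), ((1, false, false, true), 40), ((0, false, false, false), 160)] = [(b, n)]) :
    Fib (M24 ⊓ stabilizer (Equiv.Perm GolayPt) (g • (((none : GolayPt), (some 0 : GolayPt)), E.setOf 6))) {t : Finset GolayPt | t.card = 2}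
      ((fun (x : (GolayPt × GolayPt) × Finset GolayPt) y =>
        ((x.2 ∩ y).card, decide (x.1.1 ∈ y), decide (x.1.2 ∈ y), inOct (insert x.1.1 (insert x.1.2 (x.2 ∪ y)))))
        (g • (((none : GolayPt), (some 0 : GolayPt)), E.setOf 6))) b n :=
  (decomp_small gens_in.toGrp rfl (by norm_num) (reps := [(6, 1), (8388609, 1), (3, 2), (8388610, 2), (9, 20), (8388616, 20), (40, 30), (10, 40), (24, 160)]) (by decide +kernel)
    (by decide +kernel) (by decide +kernel)).fib gens_in.grp_le
    (fun a _ y => by simp only [Set.mem_ofPred_eq, Finset.card_smul_finset])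
    (fun (x : (GolayPt × GolayPt) × Finset GolayPt) y =>
        ((x.2 ∩ y).card, decide (x.1.1 ∈ y), decide (x.1.2 ∈ y), inOct (insert x.1.1 (insert x.1.2 (x.2 ∪ y)))))
    (fun a ha x y => by
      simp only [Prod.smul_fst, Prod.smul_snd, mem_smul_iff, card_inter_smul]
      rw [← Finset.smul_finset_union, ← Finset.smul_finset_insert, ← Finset.smul_finset_insert, inOct_smul ha])
    (fun c => (pc24 (Nat.land 6 c), c.testBit 23, c.testBit 0, cov (Nat.lor 8388615 c)))
    (fun c => by
      have e : insert none (insert (some 0) (E.setOf 6 ∪ E.setOf c)) = E.setOf (8388615 ||| c) := by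
        rw [E.setOf_or, ← Finset.insert_union, ← Finset.insert_union,
          show insert none (insert (some 0) (E.setOf 6)) = E.setOf 8388615 by decide +kernel]
      rw [card_inter_setOf, decide_mem_setOf, decide_mem_setOf, e, inOct_setOf]; rfl)
    (by decide +kernel) hg b n hb

theorem inOct_iff' (p q : GolayPt) (s : Finset GolayPt) :
    inOct (insert p (insert q s)) = true ↔ ∃ o ∈ octads, p ∈ o ∧ q ∈ o ∧ s ⊆ o := by
  simp only [inOct_iff, Finset.insert_subset_iff]

/-- Fix two points p ≠ q and a pair s of two further points. Among the pairs avoiding p, q and disjoint from s, exactly 30 lie in an octad together with p, q and s and exactly 160 do not; and any two pairs other than s that meet s in equally many points and agree on that octad property are carried to one another by an element of the group of the length-24 code fixing p, q and s. -/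
theorem result (p q : Cfsg.GolayPt) (hpq : p ≠ q) (s : Finset Cfsg.GolayPt) (hs : (s.card = 2 ∧ p ∉ s ∧ q ∉ s)) : {t : Finset Cfsg.GolayPt | (t.card = 2 ∧ p ∉ t ∧ q ∉ t) ∧ Disjoint s t ∧ (∃ o ∈ Cfsg.octads, p ∈ o ∧ q ∈ o ∧ s ∪ t ⊆ o)}.ncard = 30 ∧ {t : Finset Cfsg.GolayPt | (t.card = 2 ∧ p ∉ t ∧ q ∉ t) ∧ Disjoint s t ∧ ¬ (∃ o ∈ Cfsg.octads, p ∈ o ∧ q ∈ o ∧ s ∪ t ⊆ o)}.ncard = 160 ∧ ∀ t t' : Finset Cfsg.GolayPt, (t.card = 2 ∧ p ∉ t ∧ q ∉ t) → (t'.card = 2 ∧ p ∉ t' ∧ q ∉ t') → t ≠ s → t' ≠ s → (s ∩ t).card = (s ∩ t').card → ((∃ o ∈ Cfsg.octads, p ∈ o ∧ q ∈ o ∧ s ∪ t ⊆ o) ↔ (∃ o ∈ Cfsg.octads, p ∈ o ∧ q ∈ o ∧ s ∪ t' ⊆ o)) → ∃ g : Equiv.Perm Cfsg.GolayPt, g ∈ Cfsg.M24 ∧ g p = p ∧ g q = q ∧ g • s = s ∧ g • t = t' := by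
  obtain ⟨a, b, hab, rfl⟩ := Finset.card_eq_two.1 hs.1
  obtain ⟨g, hg, e⟩ := exists_map_tuple (k := 4) (by norm_num) ![none, some 0, some 1, some 2] ![p, q, a, b]
    (by decide) (by
      have h1 := hs.2.1
      have h2 := hs.2.2
      simp only [Finset.mem_insert, Finset.mem_singleton, not_or] at h1 h2
      intro i j
      fin_cases i <;> fin_cases j <;> simp [hpq, hab, h1, h2, Ne.symm hpq, Ne.symm hab, Ne.symm h1.1,
        Ne.symm h1.2, Ne.symm h2.1, Ne.symm h2.2])
  have e' : g • (((none : GolayPt), (some 0 : GolayPt)), E.setOf 6) = ((p, q), ({a, b} : Finset GolayPt)) := by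
    rw [show E.setOf 6 = {some 1, some 2} by decide +kernel]
    refine Prod.ext (Prod.ext (e 0) (e 1)) ?_
    rw [Prod.smul_snd, Finset.smul_finset_insert, Finset.smul_finset_singleton]
    exact congrArg₂ (fun x y => ({x, y} : Finset GolayPt)) (e 2) (e 3)
  have K := key hg
  rw [e'] at K
  generalize ({a, b} : Finset GolayPt) = s at *
  have k1 := K (0, false, false, true) 30 (by decide)
  have k2 := K (0, false, false, false) 160 (by decide)
  have k3 := K (1, false, false, true) 40 (by decide)
  refine ⟨?_, ?_, fun t t' ht ht' hne hne' hc h => ?_⟩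
  · rw [← k1.1]; congr 1; ext y
    simp only [Set.mem_ofPred_eq, Prod.mk.injEq, inOct_iff', Finset.card_eq_zero,
      Finset.disjoint_iff_inter_eq_empty, decide_eq_false_iff_not]
    tauto
  · rw [← k2.1]; congr 1; ext y
    simp only [Set.mem_ofPred_eq, Prod.mk.injEq, ← Bool.not_eq_true, inOct_iff', Finset.card_eq_zero,
      Finset.disjoint_iff_inter_eq_empty, decide_eq_true_eq]
    tauto
  · rw [← inOct_iff', ← inOct_iff', ← Bool.eq_iff_iff] at h
    have d1 : decide (p ∈ t) = false := decide_eq_false ht.2.1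
    have d2 : decide (q ∈ t) = false := decide_eq_false ht.2.2
    have d3 : decide (p ∈ t') = false := decide_eq_false ht'.2.1
    have d4 : decide (q ∈ t') = false := decide_eq_false ht'.2.2
    have : ∃ a ∈ M24 ⊓ stabilizer (Equiv.Perm GolayPt) ((p, q), s), a • t = t' := by
      have hle : (s ∩ t').card ≤ 2 := (Finset.card_le_card Finset.inter_subset_left).trans hs.1.le
      have hlt : (s ∩ t').card ≠ 2 := fun e => hne' (by
        have e1 : s ∩ t' = s := Finset.eq_of_subset_of_card_le Finset.inter_subset_left (by omega)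
        exact (Finset.eq_of_subset_of_card_le (Finset.inter_eq_left.1 e1) (by omega)).symm)
      by_cases h0 : (s ∩ t').card = 0
      · cases hb : inOct (insert p (insert q (s ∪ t'))) with
        | true => exact k1.2 _ ht.1 _ ht'.1 (by simp only [hc, h0, d1, d2, h, hb]) (by simp only [h0, d3, d4, hb])
        | false => exact k2.2 _ ht.1 _ ht'.1 (by simp only [hc, h0, d1, d2, h, hb]) (by simp only [h0, d3, d4, hb])
      · have h1 : (s ∩ t').card = 1 := by omega
        have hb : inOct (insert p (insert q (s ∪ t'))) = true := inOct_of_card_le (by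
          have := Finset.card_union_add_card_inter s t'
          have := Finset.card_insert_le p (insert q (s ∪ t'))
          have := Finset.card_insert_le q (s ∪ t')
          omega)
        exact k3.2 _ ht.1 _ ht'.1 (by simp only [hc, h1, d1, d2, h, hb]) (by simp only [h1, d3, d4, hb])
    obtain ⟨a, ⟨ha, e1⟩, e2⟩ := this
    exact ⟨a, ha, congrArg (·.1.1) e1, congrArg (·.1.2) e1, congrArg Prod.snd e1, e2⟩

end Cfsg.Agent.S1638
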