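import Cfsg.Statements.S1639
import Mathlib
import Cfsg.Agent.SPOR.M12b
import Cfsg.Agent.SPOR.SimpleOn

set_option autoImplicit false
open scoped Pointwise
open Cfsg

namespace Cfsg.Agent.S1639

open CL CL.K CL.Orb CL.Enc CL.Golay CL.M12 MulAction
open scoped Pointwise

/-- the dodecads through `x` meeting `d` in `k` points. -/
def F (d : Finset Cfsg.GolayPt) (x : Cfsg.GolayPt) (k : ℕ) : Set (Finset Cfsg.GolayPt) :=
  {d' | d' ∈ Cfsg.dodecads ∧ x ∈ d' ∧ (d ∩ d').card = k}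

theorem smul_mem_F {a : Equiv.Perm Cfsg.GolayPt} (ha : a ∈ Cfsg.M24) {d s : Finset Cfsg.GolayPt}
    {x : Cfsg.GolayPt} {k : ℕ} : a • s ∈ F (a • d) (a x) k ↔ s ∈ F d x k := by
  simp only [F, Set.mem_ofPred_eq, smul_mem_dodecads ha, card_inter_smul]
  exact and_congr Iff.rfl (and_congr (Finset.smul_mem_smul_finset_iff a) Iff.rfl)

noncomputable def cnt (k : ℕ) : ℕ := sumLt2 (fun j => Nat.mul (Nat.mul (ind (pc24 (cw j)) 12)
  (bit (cw j) 0)) (ind (pc24 (Nat.land D0 (cw j))) k)) 64 64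

theorem ncard_F0 (k : ℕ) : (F (E.setOf D0) (E.dec 0) k).ncard = cnt k := by
  have : F (E.setOf D0) (E.dec 0) k = {s | s ∈ Code ∧ (s.card = 12 ∧ E.dec 0 ∈ s ∧
    (E.setOf D0 ∩ s).card = k)} := Set.ext fun s => and_assoc
  rw [this]
  refine ncard_code_sep _ _ fun j _ => ?_
  rw [ind_eq, ind_eq, bit_eq, Golay.card_setOf, ← E.setOf_and, Golay.card_setOf,
    E.dec_mem_setOf (by norm_num)]
  show (_ → (if _ then 1 else 0) * (if _ then 1 else 0) *
    (if pc24 (D0 &&& cw j) = k then 1 else 0) = 1) ∧ (_ → (if _ then 1 else 0) * (if _ then 1 else 0) *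
    (if pc24 (D0 &&& cw j) = k then 1 else 0) = 0)
  constructor
  · rintro ⟨h1, h2, h3⟩
    rw [if_pos h1, if_pos h2, if_pos h3]
  · intro h
    split_ifs with h1 h2 h3
    · exact absurd ⟨h1, h2, h3⟩ h
    all_goals rfl

theorem orbit_eq {c k N fuel : ℕ} (hc : (isCw c = true ∧ pc24 c = 12) ∧ c.testBit 0 = true ∧
    pc24 (D0 &&& c) = k) (hN : cnt k = N)
    (h : orb (fun j c => img24 (lget sgs11 j) c) low sgs11.length c fuel
      (fun _ n => Nat.ble N n) = true) :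
    orbit G11 (E.setOf c) = F (E.setOf D0) (E.dec 0) k := by
  have hlt : c < 2 ^ 24 := by
    obtain ⟨j, hj, rfl⟩ := isCw_iff.1 hc.1.1
    exact cw_lt hj
  refine ((coded_set sgs11_in low).orbit_eq_of_count (N := N) (fuel := fuel)
    (fun _ hj => (sgs11_in _ (lget_mem hj)).permOf_mem) hlt (Set.toFinite _) ?_
    ((ncard_F0 k).trans hN).le h).1
  rintro _ ⟨⟨g, hg⟩, rfl⟩
  obtain ⟨⟨h1, h2⟩, h3⟩ := mem_G11.1 hg
  have : E.setOf c ∈ F (E.setOf D0) (E.dec 0) k :=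
    ⟨⟨setOf_mem_of_isCw hc.1.1, (Golay.card_setOf c).trans hc.1.2⟩,
      (E.dec_mem_setOf (by norm_num)).2 hc.2.1, by rw [← E.setOf_and, Golay.card_setOf, hc.2.2]⟩
  have := (smul_mem_F h1).2 this
  rwa [h2, h3] at this

theorem trans0 {k : ℕ} {s t : Finset Cfsg.GolayPt} (hs : s ∈ F (E.setOf D0) (E.dec 0) k)
    (ht : t ∈ F (E.setOf D0) (E.dec 0) k) : ∃ g ∈ G11, g • s = t := by
  have hc := card_symmDiff_add (E.setOf D0) s
  have h3 := card_of_mem_code (symmDiff_mem_code D0_mem.1 hs.1.1)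
  have h0 : 0 < k := hs.2.2 ▸ Finset.card_pos.2 ⟨E.dec 0, Finset.mem_inter.2 ⟨by decide +kernel, hs.2.1⟩⟩
  rw [D0_mem.2, hs.1.2, hs.2.2] at hc
  obtain rfl | rfl | rfl | rfl : k = 4 ∨ k = 6 ∨ k = 8 ∨ k = 12 := by omega
  · rw [← orbit_eq (c := 15974505) (N := 165) (fuel := 200) (by decide +kernel) (by decide +kernel)
      (by decide +kernel)] at hs ht
    exact exists_smul_of_mem_orbit hs ht
  · rw [← orbit_eq (c := 8245261) (N := 792) (fuel := 800) (by decide +kernel) (by decide +kernel)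
      (by decide +kernel)] at hs ht
    exact exists_smul_of_mem_orbit hs ht
  · rw [← orbit_eq (c := 11472927) (N := 330) (fuel := 400) (by decide +kernel) (by decide +kernel)
      (by decide +kernel)] at hs ht
    exact exists_smul_of_mem_orbit hs ht
  · rw [← orbit_eq (c := 340831) (N := 1) (fuel := 4) (by decide +kernel) (by decide +kernel)
      (by decide +kernel)] at hs ht
    exact exists_smul_of_mem_orbit hs ht

/-- The point stabiliser acts on the 1288 dodecads through the point with rank 4 and subdegrees 1, 165, 330, 792, distinguished by intersection 4, 8, 6 with the fixed dodecad. -/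
theorem result (x : Cfsg.GolayPt) (d : Finset Cfsg.GolayPt) (hd : d ∈ Cfsg.dodecads) (hx : x ∈ d) : {d' : Finset Cfsg.GolayPt | d' ∈ Cfsg.dodecads ∧ x ∈ d' ∧ (d ∩ d').card = 4}.ncard = 165 ∧ {d' : Finset Cfsg.GolayPt | d' ∈ Cfsg.dodecads ∧ x ∈ d' ∧ (d ∩ d').card = 8}.ncard = 330 ∧ {d' : Finset Cfsg.GolayPt | d' ∈ Cfsg.dodecads ∧ x ∈ d' ∧ (d ∩ d').card = 6}.ncard = 792 ∧ ∀ d' d'' : Finset Cfsg.GolayPt, d' ∈ Cfsg.dodecads → d'' ∈ Cfsg.dodecads → x ∈ d' → x ∈ d'' → (d ∩ d').card = (d ∩ d'').card → ∃ g : Equiv.Perm Cfsg.GolayPt, g ∈ Cfsg.M24 ∧ g x = x ∧ g • d = d ∧ g • d' = d'' := by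
  obtain ⟨a, ha, rfl, rfl⟩ := exists_smul_flag D0_mem hd (p := E.dec 0) (by decide +kernel) hx
  have key : ∀ k, (F (a • E.setOf D0) (a (E.dec 0)) k).ncard = cnt k := fun k =>
    (ncard_sep_smul a (p := fun s => s ∈ F (E.setOf D0) (E.dec 0) k)
      (q := fun s => s ∈ F (a • E.setOf D0) (a (E.dec 0)) k) fun s => smul_mem_F ha).trans (ncard_F0 k)
  refine ⟨(key 4).trans (by decide +kernel), (key 8).trans (by decide +kernel),
    (key 6).trans (by decide +kernel), fun s t hs ht hxs hxt h => ?_⟩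
  obtain ⟨g, hg, e⟩ := trans0 (s := a⁻¹ • s) (t := a⁻¹ • t)
    ((smul_mem_F ha).1 (by rw [smul_inv_smul]; exact ⟨hs, hxs, h⟩))
    ((smul_mem_F ha).1 (by rw [smul_inv_smul]; exact ⟨ht, hxt, rfl⟩))
  have h1 := conj_mem_St ha hg.1
  refine ⟨_, h1.1, ?_, h1.2, by rw [mul_smul, mul_smul, e, smul_inv_smul]⟩
  rw [Equiv.Perm.mul_apply, Equiv.Perm.mul_apply, Equiv.Perm.coe_inv, Equiv.symm_apply_apply,
    (mem_G11.1 hg).2]

end Cfsg.Agent.S1639
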