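import Cfsg.Statements.S1640
import Mathlib
import Cfsg.Agent.SPOR.LeechTrans

set_option autoImplicit false
open Cfsg

namespace Cfsg.Agent.S1640

/-- The stabiliser of a vector of customary norm 6 is transitive on the 11178 minimal vectors of customary inner product −2 with it. -/
theorem result (u : ↥Cfsg.leechLattice) (hu : Cfsg.sqNorm (u : Cfsg.GolayPt → ℤ) = 48) : {x : ↥Cfsg.leechLattice | Cfsg.sqNorm (x : Cfsg.GolayPt → ℤ) = 32 ∧ Cfsg.dotInt (u : Cfsg.GolayPt → ℤ) (x : Cfsg.GolayPt → ℤ) = -16}.ncard = 11178 ∧ ∀ x ∈ {x : ↥Cfsg.leechLattice | Cfsg.sqNorm (x : Cfsg.GolayPt → ℤ) = 32 ∧ Cfsg.dotInt (u : Cfsg.GolayPt → ℤ) (x : Cfsg.GolayPt → ℤ) = -16}, ∀ x' ∈ {x : ↥Cfsg.leechLattice | Cfsg.sqNorm (x : Cfsg.GolayPt → ℤ) = 32 ∧ Cfsg.dotInt (u : Cfsg.GolayPt → ℤ) (x : Cfsg.GolayPt → ℤ) = -16}, ∃ g : ↥Cfsg.Co0, g • u = u ∧ g • x = x' := by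
  have hu' : Cfsg.sqNorm ((-u : Cfsg.leechLattice) : Cfsg.GolayPt → ℤ) = 48 := by
    rwa [AddSubgroup.coe_neg, CL.Leech.sqNorm_neg]
  have hS : {x : ↥Cfsg.leechLattice | Cfsg.sqNorm (x : Cfsg.GolayPt → ℤ) = 32 ∧
      Cfsg.dotInt (u : Cfsg.GolayPt → ℤ) (x : Cfsg.GolayPt → ℤ) = -16} = CL.Leech.Mset (-u) 16 := by
    ext x
    simp only [CL.Leech.Mset, Set.mem_ofPred_eq, AddSubgroup.coe_neg, CL.Leech.dot_neg_left]
    omega
  rw [hS]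
  refine ⟨?_, fun x hx x' hx' => ?_⟩
  · obtain ⟨g, hg⟩ := CL.Leech.trans_48 CL.Leech.sqNorm_W0 hu'
    rw [← hg, ← CL.Leech.ncard_11178, CL.Leech.orbit_11178]
    have := CL.Leech.ncard_smul g (fun x => x ∈ CL.Leech.Mset (g • CL.Leech.W0) 16)
    simp only [CL.Leech.smul_mem_Mset_iff] at this
    exact this.symm
  · obtain ⟨a, h1, h2⟩ := CL.Leech.exists_smul_W_U' hu' hx
    obtain ⟨b, h3, h4⟩ := CL.Leech.exists_smul_W_U' hu' hx'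
    refine ⟨b * a⁻¹, ?_, by rw [mul_smul, inv_smul_eq_iff.2 h2.symm, h4]⟩
    open CL.Leech in
    rw [← neg_inj, ← smul_neg, mul_smul, inv_smul_eq_iff.2 h1.symm, h3]

end Cfsg.Agent.S1640
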