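import Cfsg.Statements.S1641
import Mathlib
import Cfsg.Agent.SPOR.LeechTrans

set_option autoImplicit false
open Cfsg

namespace Cfsg.Agent.S1641

/-- The third Conway group acts on the 11178 cosets of the Higman–Sims group with rank 5 and subdegrees 1, 352, 1100, 4125, 5600. -/
theorem result (u x : ↥Cfsg.leechLattice) (hu : Cfsg.sqNorm (u : Cfsg.GolayPt → ℤ) = 48) (hx : x ∈ {x : ↥Cfsg.leechLattice | Cfsg.sqNorm (x : Cfsg.GolayPt → ℤ) = 32 ∧ Cfsg.dotInt (u : Cfsg.GolayPt → ℤ) (x : Cfsg.GolayPt → ℤ) = -16}) : ∃ y₁ ∈ {x : ↥Cfsg.leechLattice | Cfsg.sqNorm (x : Cfsg.GolayPt → ℤ) = 32 ∧ Cfsg.dotInt (u : Cfsg.GolayPt → ℤ) (x : Cfsg.GolayPt → ℤ) = -16}, ∃ y₂ ∈ {x : ↥Cfsg.leechLattice | Cfsg.sqNorm (x : Cfsg.GolayPt → ℤ) = 32 ∧ Cfsg.dotInt (u : Cfsg.GolayPt → ℤ) (x : Cfsg.GolayPt → ℤ) = -16}, ∃ y₃ ∈ {x : ↥Cfsg.leechLattice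 | Cfsg.sqNorm (x : Cfsg.GolayPt → ℤ) = 32 ∧ Cfsg.dotInt (u : Cfsg.GolayPt → ℤ) (x : Cfsg.GolayPt → ℤ) = -16}, ∃ y₄ ∈ {x : ↥Cfsg.leechLattice | Cfsg.sqNorm (x : Cfsg.GolayPt → ℤ) = 32 ∧ Cfsg.dotInt (u : Cfsg.GolayPt → ℤ) (x : Cfsg.GolayPt → ℤ) = -16}, (MulAction.orbit ↥(MulAction.stabilizer ↥Cfsg.Co0 u ⊓ MulAction.stabilizer ↥Cfsg.Co0 x) y₁).ncard = 352 ∧ (MulAction.orbit ↥(MulAction.stabilizer ↥Cfsg.Co0 u ⊓ MulAction.stabilizer ↥Cfsg.Co0 x) y₂).ncard = 1100 ∧ (MulAction.orbit ↥(MulAction.stabilizer ↥Cfsg.Co0 u ⊓ MulAction.stabilizer ↥Cfsg.Co0 x) y₃).ncard = 4125 ∧ (MulAction.orbit ↥(MulAction.stabilizer ↥Cfsg.Co0 u ⊓ MulAction.stabilizer ↥Cfsg.Co0 x) y₄).ncard = 5600 ∧ {x : ↥Cfsg.leechLattice | Cfsg.sqNorm (x : Cfsg.GolayPt → ℤ) = 32 ∧ Cfsg.dotInt (u : Cfsg.GolayPt → ℤ) (x : Cfsg.GolayPt → ℤ) = -16} = {x} ∪ MulAction.orbit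 ↥(MulAction.stabilizer ↥Cfsg.Co0 u ⊓ MulAction.stabilizer ↥Cfsg.Co0 x) y₁ ∪ MulAction.orbit ↥(MulAction.stabilizer ↥Cfsg.Co0 u ⊓ MulAction.stabilizer ↥Cfsg.Co0 x) y₂ ∪ MulAction.orbit ↥(MulAction.stabilizer ↥Cfsg.Co0 u ⊓ MulAction.stabilizer ↥Cfsg.Co0 x) y₃ ∪ MulAction.orbit ↥(MulAction.stabilizer ↥Cfsg.Co0 u ⊓ MulAction.stabilizer ↥Cfsg.Co0 x) y₄ := by
  have hu' : Cfsg.sqNorm ((-u : Cfsg.leechLattice) : Cfsg.GolayPt → ℤ) = 48 := by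
    rwa [AddSubgroup.coe_neg, CL.Leech.sqNorm_neg]
  have hS : {x : ↥Cfsg.leechLattice | Cfsg.sqNorm (x : Cfsg.GolayPt → ℤ) = 32 ∧
      Cfsg.dotInt (u : Cfsg.GolayPt → ℤ) (x : Cfsg.GolayPt → ℤ) = -16} = CL.Leech.Mset (-u) 16 := by
    ext x
    simp only [CL.Leech.Mset, Set.mem_ofPred_eq, AddSubgroup.coe_neg, CL.Leech.dot_neg_left]
    omega
  rw [hS] at hx ⊢
  have hst : MulAction.stabilizer Cfsg.Co0 u = MulAction.stabilizer Cfsg.Co0 (-u) := by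
    ext g
    open CL.Leech in
    rw [MulAction.mem_stabilizer_iff, MulAction.mem_stabilizer_iff, smul_neg, neg_inj]
  obtain ⟨g, h1, rfl⟩ := CL.Leech.exists_smul_W_U' hu' hx
  rw [hst, ← h1] at *
  have C := CL.Leech.conf_hs11178.conj
    ((CL.Leech.conj_stab g CL.Leech.W0).inf (CL.Leech.conj_stab g Cfsg.Spor.leechU'))
    (S' := CL.Leech.Mset (g • CL.Leech.W0) 16)
    fun y => by rw [CL.Leech.smul_mem_Mset_iff, CL.Leech.orbit_11178]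
  refine ⟨_, (C.mem 1).1, _, (C.mem 2).1, _, (C.mem 3).1, _, (C.mem 4).1, C.card 1, C.card 2,
    C.card 3, C.card 4, Set.Subset.antisymm (fun y hy => ?_) ?_⟩
  · obtain ⟨i, hi⟩ := C.cover y hy
    fin_cases i
    · obtain ⟨⟨k, hk⟩, rfl⟩ := hi
      exact Or.inl (Or.inl (Or.inl (Or.inl hk.2)))
    · exact Or.inl (Or.inl (Or.inl (Or.inr hi)))
    · exact Or.inl (Or.inl (Or.inr hi))
    · exact Or.inl (Or.inr hi)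
    · exact Or.inr hi
  · rintro y ((((rfl | h) | h) | h) | h)
    · exact hx
    · exact ((C.eq 1).le h).1
    · exact ((C.eq 2).le h).1
    · exact ((C.eq 3).le h).1
    · exact ((C.eq 4).le h).1

end Cfsg.Agent.S1641
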