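import Cfsg.Statements.S1643
import Cfsg.Agent.SPOR.GolayIdx2

set_option autoImplicit false
open scoped Pointwise
open Cfsg

namespace Cfsg.Agent.S1643

open CL CL.K CL.Orb CL.Golay CL.Golay.Idx MulAction Subgroup

theorem coatom {G : Type*} [Group G] [Finite G] {L : Subgroup G} {n N : ℕ} (h1 : Nat.card L = n)
    (h2 : Nat.card G = N) (h3 : n ≠ N) (h : ∀ H, L ≤ H → Nat.card H = n ∨ Nat.card H = N) : IsCoatom L :=
  ⟨fun e => h3 (by rw [← h1, e, card_top, h2]), fun H a => eq_top_of_card_eq _ (((h H a.le).resolve_left fun e =>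
    a.ne (eq_of_le_of_card_ge a.le (e.trans h1.symm).le)).trans h2.symm)⟩

theorem eq_Nrm {K : Subgroup Pm} (h : K ≤ Nrm Idx.tA) (a : Idx.tA ∈ K) (b : tU ∈ K) : K = Nrm Idx.tA :=
  eq_of_le_of_card_ge h (card_Nrm_A.trans_le (Nat.le_of_dvd Nat.card_pos (Nat.Coprime.mul_dvd_of_dvd_of_dvd
    (m := 23) (n := 11) (by norm_num) (ord_A ▸ K.orderOf_dvd_natCard a) (ord_U ▸ K.orderOf_dvd_natCard b))))

theorem A_mem : Idx.tA ∈ Nrm Idx.tA := ⟨transl_mem, le_normalizer (mem_zpowers _)⟩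

theorem mul_mem_Nrm (u : (ZMod 23)ˣ) (h : IsSquare u) : Equiv.optionCongr (Units.mulLeft u) ∈ Nrm Idx.tA := by
  refine mem_Nrm.2 ⟨mulLeft_mem u h, ?_⟩
  rw [mul_inv_eq_iff_eq_mul.2 ((R.comp24_eq_iff (R_mulLeft u) R_transl (R_transl.pow (u : ZMod 23).val)
    (R_mulLeft u)).1 ((by decide +kernel : ∀ v < 23, comp24 (cMul v) cA = comp24 (pow24 cA v) (cMul v)) _
      (ZMod.val_lt _)))]
  exact pow_mem (mem_zpowers _) _

/-- determinant of two points -/
def dt (a b : ℕ) : ℕ := cond (Nat.beq a b) 0 (cond (Nat.beq a 23) 1 (cond (Nat.beq b 23) 22 (a + 23 - b)))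
/-- orientation of a triple -/
def sg (a b c : ℕ) : ℕ := (dt a b * dt b c * dt c a) ^ 11 % 23
/-- permutations preserving the orientation -/
def T : Subgroup Pm where
  carrier := {g | ∀ a b c, sg (E.enc (g a)) (E.enc (g b)) (E.enc (g c)) = sg (E.enc a) (E.enc b) (E.enc c)}
  mul_mem' h k a b c := (h _ _ _).trans (k a b c)
  one_mem' _ _ _ := rfl
  inv_mem' {g} h a b c := by simpa using (h (g⁻¹ a) (g⁻¹ b) (g⁻¹ c)).symm

theorem mem_T {g : Pm} {P : ℕ} (h : R g P) (e : allLt (fun a => allLt (fun b => allLt (fun c =>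
    Nat.beq (sg (app24 P a) (app24 P b) (app24 P c)) (sg a b c)) 24) 24) 24 = true) : g ∈ T := fun a b c => by
  simp only [allLt_iff, Nat.beq_eq] at e
  rw [h, h, h]
  exact e _ (E.enc_lt a) _ (E.enc_lt b) _ (E.enc_lt c)

theorem Nrm_le : Nrm Idx.tA ≤ T ⊓ stabilizer Pm (none : GolayPt) :=
  inf_eq_left.1 (eq_Nrm inf_le_left ⟨A_mem, mem_T R_transl (by decide +kernel), rfl⟩
    ⟨mul_mem_Nrm _ u2_sq, mem_T R_U (by decide +kernel), rfl⟩)

theorem card_over {K : Subgroup Pm} (h : Nrm Idx.tA ≤ K) (hB : projInv ∈ K) (hK : K ≤ M24) :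
    Nat.card K = 6072 ∨ Nat.card K = 244823040 := by
  have a := card_stab_of_trans (K := K) (y := none) (fun p => by
    rcases p with _ | p
    · exact self_mem_ob
    refine mem_ob.2 ⟨Idx.tA ^ p.val * projInv, mul_mem (pow_mem (h A_mem) _) hB, E.enc_injective ?_⟩
    exact ((R_transl.pow _).mul R_projInv _).trans
      ((by decide +kernel : ∀ v < 23, fld 5 31 (comp24 (pow24 cA v) cB) 23 = v) _ (ZMod.val_lt p))) none
  rcases eq_M23 (inf_le_inf_right _ hK) ⟨h A_mem, rfl⟩ ⟨h (mul_mem_Nrm _ u2_sq), rfl⟩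
    (le_inf h (Nrm_le.trans inf_le_right)) with e | e <;> omega

/-- PSL(2, 23) = ⟨t ↦ t+1, t ↦ u t (u square), t ↦ −1/t⟩ is maximal of order 6072 in the group of the length-24 code, and its point stabiliser 23:11 (order 253) is maximal in the Mathieu group of degree 23. -/
theorem result : (Subgroup.closure ({Equiv.optionCongr (Equiv.addRight (1 : ZMod 23)), Cfsg.projInv} ∪ {g : Equiv.Perm Cfsg.GolayPt | ∃ u : (ZMod 23)ˣ, IsSquare u ∧ g = Equiv.optionCongr (Units.mulLeft u)}) ≤ Cfsg.M24 ∧ Nat.card ↥(Subgroup.closure ({Equiv.optionCongr (Equiv.addRight (1 : ZMod 23)), Cfsg.projInv} ∪ {g : Equiv.Perm Cfsg.GolayPt | ∃ u : (ZMod 23)ˣ, IsSquare u ∧ g = Equiv.optionCongr (Units.mulLeft u)})) = 6072 ∧ IsCoatom ((Subgroup.closure ({Equiv.optionCongr (Equiv.addRight (1 : ZMod 23)), Cfsg.projInv} ∪ {g : Equiv.Perm Cfsg.GolayPt | ∃ u : (ZMod 23)ˣ, IsSquare u ∧ g = Equiv.optionCongr (Units.mulLeft u)})).subgroupOf Cfsg.M24))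 ∧ (Subgroup.closure ({Equiv.optionCongr (Equiv.addRight (1 : ZMod 23))} ∪ {g : Equiv.Perm Cfsg.GolayPt | ∃ u : (ZMod 23)ˣ, IsSquare u ∧ g = Equiv.optionCongr (Units.mulLeft u)}) ≤ Cfsg.M24 ⊓ MulAction.stabilizer (Equiv.Perm Cfsg.GolayPt) (none : Cfsg.GolayPt) ∧ Nat.card ↥(Subgroup.closure ({Equiv.optionCongr (Equiv.addRight (1 : ZMod 23))} ∪ {g : Equiv.Perm Cfsg.GolayPt | ∃ u : (ZMod 23)ˣ, IsSquare u ∧ g = Equiv.optionCongr (Units.mulLeft u)})) = 253 ∧ IsCoatom (((Subgroup.closure ({Equiv.optionCongr (Equiv.addRight (1 : ZMod 23))} ∪ {g : Equiv.Perm Cfsg.GolayPt | ∃ u : (ZMod 23)ˣ, IsSquare u ∧ g = Equiv.optionCongr (Units.mulLeft u)})).subgroupOf Cfsg.M24).subgroupOf (MulAction.stabilizer Cfsg.M24 (none : Cfsg.GolayPt)))) := by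
  have e0 := eq_Nrm (K := closure ({Idx.tA} ∪ {g | ∃ u : (ZMod 23)ˣ, IsSquare u ∧ g = Equiv.optionCongr (Units.mulLeft u)}))
    ((closure_le _).2 (Set.union_subset (Set.singleton_subset_iff.2 A_mem) fun _ ⟨u, a, b⟩ => b ▸ mul_mem_Nrm u a))
    (subset_closure (.inl rfl)) (subset_closure (.inr ⟨_, u2_sq, rfl⟩))
  generalize hL : closure ({Idx.tA, projInv} ∪ _) = L
  have h1 : Nrm Idx.tA ≤ L := e0.ge.trans (hL ▸ closure_mono (Set.union_subset_union_left _ (by simp)))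
  have h2 : projInv ∈ L := hL ▸ subset_closure (.inl (by simp))
  have h3 : L ≤ M24 ⊓ T := hL ▸ (closure_le _).2 (Set.union_subset (Set.insert_subset ⟨transl_mem, (Nrm_le A_mem).1⟩
    (Set.singleton_subset_iff.2 ⟨projInv_mem, mem_T R_projInv (by decide +kernel)⟩)) fun _ ⟨u, a, b⟩ =>
      b ▸ ⟨mulLeft_mem u a, (Nrm_le (mul_mem_Nrm u a)).1⟩)
  have h4 := h3.trans inf_le_left
  have h5 : Nat.card L = 6072 := (card_over h1 h2 h4).resolve_right fun e => by
    have := (h3 ((eq_of_le_of_card_ge h4 (card_M24.trans e.symm).le).ge cubeTwist_mem)).2 none (some 1) (some 2)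
    rw [R_cubeTwist, R_cubeTwist, R_cubeTwist] at this
    exact absurd this (by decide +kernel)
  have h6 : Nrm Idx.tA ≤ M24 ⊓ stabilizer Pm (none : GolayPt) := le_inf inf_le_left (Nrm_le.trans inf_le_right)
  rw [e0]
  refine ⟨⟨h4, h5, coatom ((card_of_mem_iff h4 fun _ => Iff.rfl).trans h5) card_M24 (by norm_num) fun H a => ?_⟩,
    h6, card_Nrm_A, ?_⟩
  · rw [← card_map_of_injective M24.subtype_injective]
    have := (map_subgroupOf_eq_of_le h4).ge.trans (map_mono a)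
    exact card_over (h1.trans this) (this h2) (map_subtype_le H)
  let f := M24.subtype.comp (stabilizer M24 (none : GolayPt)).subtype
  have hf : Function.Injective f := M24.subtype_injective.comp (subtype_injective _)
  have m : ∀ g ∈ Nrm Idx.tA, ∃ k, f k = g := fun g a => ⟨⟨⟨g, (h6 a).1⟩, (h6 a).2⟩, rfl⟩
  refine coatom (n := 253) (N := 10200960) ?_ ((card_of_mem_iff (Fix_le _) fun a =>
    ⟨fun b => stab_le le_rfl _ ⟨a.2, b⟩, fun b => (mem_Fix.1 b).2 _ (by simp)⟩).trans (card_Fix_one none))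
    (by norm_num) fun H a => ?_ <;> rw [← card_map_of_injective hf]
  · exact (congrArg (fun K : Subgroup Pm => Nat.card K) (map_comap_eq_self m)).trans card_Nrm_A
  · have : Nrm Idx.tA ≤ H.map f := (map_comap_eq_self m).ge.trans (map_mono a)
    exact eq_M23 (fun _ ⟨g, _, e⟩ => e ▸ ⟨g.1.2, g.2⟩) (this A_mem) (this (mul_mem_Nrm _ u2_sq)) this

end Cfsg.Agent.S1643
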