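import Cfsg.Statements.S1653
import Cfsg.Agent.SPOR.A10.HeUniq
import Cfsg.Agent.S1682

set_option autoImplicit false
open Cfsg

namespace Cfsg.Agent.S1653

/-- A group of Held type contains Sp₄(4):2: let a finite simple group of order 4030387200 have exactly two conjugacy classes of involutions and an involution t whose centraliser C has a normal subgroup Q, extraspecial of order 2 ^ 7 with an elementary abelian subgroup of order 16, whose centraliser in C lies in Q, such that C / Q is isomorphic to SL(3, 2). Then some subgroup H has a normal subgroup of index 2 isomorphic to the symplectic group of dimension 4 over a field with 4 elements. -/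
theorem result {G : Type*} [Group G] [Finite G] [IsSimpleGroup G] (t : G) (ht : orderOf t = 2) (Q : Subgroup (Subgroup.centralizer ({t} : Set G))) [Q.Normal] (hQ : Cfsg.IsExtraspecial 2 Q) (hcard : Nat.card Q = 2 ^ 7) (hplus : ∃ E : Subgroup Q, Cfsg.IsElementaryAbelian 2 E ∧ Nat.card E = 2 ^ 4) (h2c : Subgroup.centralizer (Q : Set (Subgroup.centralizer ({t} : Set G))) ≤ Q) (e : (Subgroup.centralizer ({t} : Set G)) ⧸ Q ≃* Matrix.SpecialLinearGroup (Fin 3) (ZMod 2)) (hG : Nat.card G = 4030387200) (htwo : ∃ x y : G, orderOf x = 2 ∧ orderOf y = 2 ∧ ¬ IsConj x y ∧ ∀ z : G, orderOf z = 2 → IsConj z x ∨ IsConj z y) : ∃ (H : Subgroup G) (N : Subgroup H) (K : Type) (_ : Field K) (_ : Fintype K), N.Normal ∧ N.index = 2 ∧ Fintype.card K = 4 ∧ Nonempty (N ≃* Matrix.symplecticGroup (Fin 2) K) := by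
  obtain ⟨f⟩ := CL.A10.Hd.iso_He_of_shape ht hQ hcard h2c e hG
  have key : ∀ (H : Subgroup Cfsg.Spor.He) (N : Subgroup H), ∃ (H' : Subgroup G) (N' : Subgroup H'),
      (N.Normal → N'.Normal) ∧ N'.index = N.index ∧ Nonempty (N' ≃* N) := fun H N => by
    let φ := (MulEquiv.subgroupMap f.symm H).symm
    exact ⟨_, N.comap φ.toMonoidHom, fun h => h.comap _, N.index_comap_of_surjective φ.surjective,
      ⟨MulEquiv.ofBijective (φ.toMonoidHom.subgroupComap N)
      ⟨fun x y k => Subtype.ext (φ.injective (congrArg Subtype.val k)),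
        fun y => ⟨⟨φ.symm y, by simp [Subgroup.mem_comap]⟩, Subtype.ext (φ.apply_symm_apply y)⟩⟩⟩⟩
  obtain ⟨N, K, i1, i2, h1, h2, h3, ⟨g⟩⟩ := Cfsg.Agent.S1682.result
  obtain ⟨H', N', k1, k2, ⟨k⟩⟩ := key _ N
  exact ⟨H', N', K, i1, i2, k1 h1, k2.trans h2, h3, ⟨k.trans g⟩⟩

end Cfsg.Agent.S1653
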