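import Cfsg.Statements.S1668
import Cfsg.Agent.SPOR.SuzR3
import Cfsg.Agent.S1679
import Cfsg.Agent.KSG.SchurQuo
import Cfsg.Agent.SPOR.Rank3

set_option autoImplicit false
open Cfsg

namespace Cfsg.Agent.S1668

open MulAction CL.SuzR CL.Net

theorem exists_map {H H' Ω Ω' ι : Type*} [Group H] [Group H'] [Finite H'] [MulAction H Ω] [MulAction H' Ω']
    [Nonempty Ω'] (ψ : H ≃* H') (t : ι → Ω) (t' : ι → Ω') {n : ι → ℕ} (hn : Function.Injective n)
    (h1 : ∀ k, (orbit H (t k)).ncard = n k) (h2 : ∀ k, (orbit H' (t' k)).ncard = n k)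
    (h3 : ∀ k h, h • t k = t k → ψ h • t' k = t' k) :
    ∃ f : Ω → Ω', (∀ k h, f (h • t k) = ψ h • t' k) ∧ ∀ k l g h, ψ g • t' k = ψ h • t' l → g • t k = h • t l := by
  classical
  have h4 : ∀ k h, h • t k = t k ↔ ψ h • t' k = t' k := fun k h => by
    have h5 : (stabilizer H (t k)).map ψ.toMonoidHom ≤ stabilizer H' (t' k) := by
      rintro _ ⟨g, hg, rfl⟩; exact h3 k g hg
    rw [← mem_stabilizer_iff, ← mem_stabilizer_iff, ← h5.eq_of_not_lt fun e => (Subgroup.index_strictAnti e).ne (by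
      rw [Subgroup.index_map_of_bijective ψ.bijective, index_stabilizer, index_stabilizer, h1, h2])]
    exact (Subgroup.mem_map_iff_mem (f := ψ.toMonoidHom) ψ.injective).symm
  have hs : ∀ k l g h, g • t k = h • t l ↔ ψ g • t' k = ψ h • t' l := fun k l g h => by
    rw [← inv_smul_eq_iff, ← inv_smul_eq_iff (g := ψ h), ← mul_smul, ← mul_smul, ← map_inv, ← map_mul]
    refine ⟨fun e => ?_, fun e => ?_⟩
    · obtain rfl : k = l := hn (by rw [← h1, ← h1, ← e, orbit_smul])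
      exact (h4 _ _).1 e
    · obtain rfl : k = l := hn (by rw [← h2, ← h2, ← e, orbit_smul])
      exact (h4 _ _).2 e
  refine ⟨fun ω => if e : ∃ p : ι × H, p.2 • t p.1 = ω then ψ e.choose.2 • t' e.choose.1 else Classical.ofNonempty,
    fun k h => ?_, fun k l g h => (hs k l g h).2⟩
  have e : ∃ p : ι × H, p.2 • t p.1 = h • t k := ⟨(k, h), rfl⟩
  exact (dif_pos e).trans ((hs _ _ _ _).1 e.choose_spec)

theorem ad_lt {x y : ℕ} (h : ad x y) : x < 1782 ∧ y < 1782 := by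
  obtain ⟨k, hk, e, h⟩ := h
  exact ⟨by simpa [← e] using AA_lt (GG_le (inv_mem hk)) (show 0 < 1782 by decide),
    by simpa using AA_lt (GG_le (inv_mem hk)) (O_lt h)⟩

variable {Ω : Type*} [Fintype Ω] [DecidableEq Ω] {G : Subgroup (Equiv.Perm Ω)} [IsPretransitive G Ω] {a b c : Ω}
  (ψ : stabilizer G a ≃* St [0]) {Γ : SimpleGraph Ω} [DecidableRel Γ.Adj] {l m : ℕ} (hΓ : Γ.IsSRGWith 1782 416 l m)
  (hG : ∀ (g : G) (x y : Ω), Γ.Adj (g • x) (g • y) ↔ Γ.Adj x y)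
  (ha : ∀ y, Γ.Adj a y ↔ y ∈ orbit (stabilizer G a) b) (hb : (orbit (stabilizer G a) b).ncard = 416)
  (hp : ∀ h : stabilizer G a, h • b = b → ψ h • 1781 = 1781)

omit [Fintype Ω] [DecidableEq Ω] [IsPretransitive G Ω] in
theorem card_map {d : Ω} {n k : ℕ} (h : (orbit (stabilizer G a) d).ncard = n) (e : 251596800 = (n + 0) * k)
    (hn : 0 < n) : Nat.card (((stabilizer (stabilizer G a) d).map ψ.toMonoidHom).map (St [0]).subtype) = k := by
  have := (stabilizer (stabilizer G a) d).index_mul_card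
  rw [index_stabilizer, h, Nat.card_congr ψ.toEquiv, card_St0, e] at this
  rw [Subgroup.card_map_of_injective (St [0]).subtype_injective, Subgroup.card_map_of_injective ψ.injective]
  exact Nat.eq_of_mul_eq_mul_left hn this

include hΓ hG ha hb hp

theorem loc : m = 96 ∧ ∃ f : Ω → ℕ, (∀ h, f (h • b) = ψ h • 1781) ∧ Set.InjOn f {y | Γ.Adj a y} ∧
    ∀ y z, Γ.Adj a y → Γ.Adj a z → (Γ.Adj y z ↔ ad (f y) (f z)) := by
  obtain ⟨f, f1, f2⟩ := exists_map ψ (fun _ : Unit => b) (fun _ => 1781) (n := fun _ => 416)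
    (fun _ _ _ => rfl) (fun _ => hb) (fun _ => orbit_O ▸ ncard_O) fun _ => hp
  replace f1 := f1 ()
  have hi : Set.InjOn f {y | Γ.Adj a y} := fun y hy z hz e => by
    obtain ⟨g, rfl⟩ := (ha y).1 hy
    obtain ⟨h, rfl⟩ := (ha z).1 hz
    exact f2 () () g h ((f1 g).symm.trans (e.trans (f1 h)))
  have hab : Γ.Adj a b := (ha b).2 (mem_orbit_self b)
  have fb : f b = 1781 := by simpa using f1 1
  have h1 : (f '' Γ.commonNeighbors a b).ncard = l := by
    rw [(hi.mono fun y hy => hy.1).ncard_image, ← hΓ.of_adj a b hab, ← Nat.card_eq_fintype_card]; rfl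
  have h2 := hΓ.param_eq Γ (by decide)
  rcases lam (S := f '' Γ.commonNeighbors a b) (by
      rintro u hu _ ⟨y, hy, rfl⟩
      obtain ⟨h, rfl⟩ := (ha y).1 hy.1
      obtain ⟨g, e⟩ := ψ.surjective ⟨u, ((St_cons _ _).le hu).1⟩
      have : g • b = b := by simpa using f2 () () g 1 (by simpa [e] using hu.2 1781 (by simp))
      refine ⟨(g * h) • b, ⟨(ha _).2 (mem_orbit _ _), ?_⟩, by rw [f1, f1, map_mul, mul_smul, e]; rfl⟩
      have h3 := (hG g.1 b (h • b)).2 hy.2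
      rwa [show g.1 • b = b from this, show g.1 • h • b = (g * h) • b from (mul_smul g h b).symm] at h3)
    (by rintro _ ⟨y, hy, rfl⟩
        obtain ⟨h, rfl⟩ := (ha y).1 hy.1
        exact f1 h ▸ orbit_O.le (mem_orbit _ _))
    (fun ⟨y, hy, e⟩ => hy.2.ne (hi hab hy.1 (fb.trans e.symm))) with h | ⟨h, h'⟩
  · rw [h1] at h
    simp only [List.mem_cons, List.not_mem_nil, or_false] at h
    obtain ⟨rfl, rfl⟩ : l = 415 ∧ m = 0 := by omega
    obtain ⟨k, hk⟩ := CL.Srg.integrality hΓ (by decide) (r := 416) (s := -1) (by norm_num) (by norm_num) (by norm_num)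
    have : k * 417 = 1365 := by
      norm_num at hk
      exact_mod_cast hk
    omega
  refine ⟨by omega, f, f1, hi, fun y z hy hz => ?_⟩
  obtain ⟨g, rfl⟩ := (ha y).1 hy
  obtain ⟨k, rfl⟩ := (ha z).1 hz
  obtain ⟨k, rfl⟩ := (Group.mulLeft_bijective g).2 k
  have h3 := (ha _).2 (mem_orbit b k)
  simp only [f1, map_mul]
  simp only [mul_smul]
  refine ((hG g.1 b (k • b)).trans ?_).trans (ad_smul (ψ g).2.1).symm
  rw [← f1]
  exact ⟨fun e => (h.le ⟨_, ⟨h3, e⟩, rfl⟩).1, fun e => by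
    obtain ⟨y, hy, e'⟩ := h.ge ⟨e, f1 k ▸ orbit_O.le (mem_orbit _ _)⟩
    exact hi hy.1 h3 e' ▸ hy.2⟩

theorem fix_c (hc : (orbit (stabilizer G a) c).ncard = 1365) (h1 : a ≠ c) (h2 : ¬ Γ.Adj a c) :
    ∃ g : stabilizer G a, ∀ h : stabilizer G a, h • g • c = g • c → ψ h • 1 = 1 := by
  obtain ⟨rfl, f, f1, hi, hf⟩ := loc ψ hΓ hG ha hb hp
  have fO : ∀ y, y ∈ bits O ↔ ∃ x, Γ.Adj a x ∧ f x = y := fun y => orbit_O ▸
    ⟨fun ⟨k, e⟩ => ⟨ψ.symm k • b, (ha _).2 (mem_orbit _ _), by rw [f1, ψ.apply_symm_apply]; exact e⟩,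
      fun ⟨x, hx, e⟩ => ((ha x).1 hx).elim fun h e' => ⟨ψ h, (f1 h).symm.trans (e ▸ congrArg f e')⟩⟩
  obtain ⟨k, hk, h⟩ := exists_fix_c (Subgroup.map_subtype_le _) (card_map ψ hc rfl (by decide))
    (M := f '' Γ.commonNeighbors a c) (fun _ ⟨x, hx, e⟩ => (fO _).2 ⟨x, hx.1, e⟩) (by
      rintro _ ⟨_, ⟨g, hg, rfl⟩, rfl⟩ _ ⟨y, hy, rfl⟩
      obtain ⟨h, rfl⟩ := (ha y).1 hy.1
      refine ⟨(g * h) • b, ⟨(ha _).2 (mem_orbit _ _), ?_⟩, by rw [f1, f1, map_mul, mul_smul]; rfl⟩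
      have h3 := (hG g.1 c (h • b)).2 hy.2
      rwa [show g.1 • c = c from hg, show g.1 • h • b = (g * h) • b from (mul_smul g h b).symm] at h3)
    (by rw [(hi.mono fun y hy => hy.1).ncard_image, ← hΓ.of_not_adj h1 h2, ← Nat.card_eq_fintype_card]; rfl) (by
      rintro _ ⟨x, hx, rfl⟩
      obtain ⟨g, hg⟩ := exists_smul_eq G x a
      have a1 : Γ.Adj a (g • a) := by have := (hG g _ _).2 hx.1.symm; rwa [hg] at this
      have a2 : Γ.Adj a (g • c) := by have := (hG g _ _).2 hx.2.symm; rwa [hg] at this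
      rw [← loc20 ((fO _).2 ⟨_, a1, rfl⟩) ((fO _).2 ⟨_, a2, rfl⟩) (fun e => h1 (MulAction.injective g (hi a1 a2 e)))
        fun e => h2 ((hG g _ _).1 ((hf _ _ a1 a2).2 e))]
      have e1 : {y | ad (f x) y ∧ y ∈ f '' Γ.commonNeighbors a c} = f '' {y | Γ.Adj a y ∧ Γ.Adj c y ∧ Γ.Adj x y} :=
        Set.ext fun y => ⟨fun ⟨p, z, hz, e⟩ => ⟨z, ⟨hz.1, hz.2, (hf _ _ hx.1 hz.1).2 (e ▸ p)⟩, e⟩,
          fun ⟨z, hz, e⟩ => ⟨e ▸ (hf _ _ hx.1 hz.1).1 hz.2.2, z, ⟨hz.1, hz.2.1⟩, e⟩⟩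
      have e2 : {y | ad (f (g • a)) y ∧ ad (f (g • c)) y ∧ y ∈ bits O} =
          f '' {y | Γ.Adj (g • a) y ∧ Γ.Adj (g • c) y ∧ Γ.Adj a y} := Set.ext fun y =>
        ⟨fun ⟨p, q, r⟩ => ((fO _).1 r).elim fun z hz =>
          ⟨z, ⟨(hf _ _ a1 hz.1).2 (hz.2 ▸ p), (hf _ _ a2 hz.1).2 (hz.2 ▸ q), hz.1⟩, hz.2⟩, fun ⟨z, hz, e⟩ =>
          ⟨e ▸ (hf _ _ a1 hz.2.2).1 hz.1, e ▸ (hf _ _ a2 hz.2.2).1 hz.2.1, (fO _).2 ⟨z, hz.2.2, e⟩⟩⟩
      rw [e1, e2, (hi.mono fun y hy => hy.1).ncard_image, (hi.mono fun y hy => hy.2.2).ncard_image,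
        ← Set.ncard_image_of_injective _ (MulAction.injective g)]
      congr 1
      ext y
      obtain ⟨y, rfl⟩ := MulAction.surjective g y
      rw [(MulAction.injective g).mem_set_image]
      simp only [Set.mem_ofPred_eq, hG]
      rw [← hG g x y, hg])
  refine ⟨(ψ.symm ⟨k, hk⟩)⁻¹, fun g hg => ?_⟩
  have := h (x := (ψ (ψ.symm ⟨k, hk⟩ * g * (ψ.symm ⟨k, hk⟩)⁻¹)).1) ⟨_, ⟨_, by
    rw [SetLike.mem_coe, mem_stabilizer_iff, mul_smul, mul_smul, hg, smul_inv_smul], rfl⟩, rfl⟩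
  simpa [Subgroup.smul_def] using this

theorem core (hc : (orbit (stabilizer G a) c).ncard = 1365)
    (hq : ∀ h : stabilizer G a, h • c = c → ψ h • 1 = 1) : Nonempty (G ≃* GG) := by
  obtain ⟨rfl, f0, f01, -, hf⟩ := loc ψ hΓ hG ha hb hp
  obtain ⟨c1, c2, c3, c4⟩ := CL.Srg.rank3_cases hb hc (Nat.card_eq_fintype_card.trans hΓ.card) (by decide)
    (by decide) (by decide)
  have h2 : ∀ {K X : Type _} [Group K] [MulAction K X] (x : X), (∀ g : K, g • x = x) → (orbit K x).ncard = 1 :=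
    fun x h => Set.ncard_eq_one.2 ⟨x, Set.eq_singleton_iff_unique_mem.2 ⟨mem_orbit_self _, fun _ ⟨g, e⟩ => e ▸ h g⟩⟩
  have h0 : ∀ g : St [0], g • 0 = 0 := fun g => g.2.2 0 (by simp)
  obtain ⟨f, f1, f2⟩ := exists_map ψ ![a, b, c] ![0, 1781, 1] (n := ![1, 416, 1365]) (by decide)
    (Fin.forall_fin_succ.2 ⟨h2 a fun g => g.2, Fin.forall_fin_two.2 ⟨hb, hc⟩⟩)
    (Fin.forall_fin_succ.2 ⟨Set.ncard_eq_one.2 ⟨0, Set.eq_singleton_iff_unique_mem.2
      ⟨mem_orbit_self _, fun _ ⟨g, e⟩ => e ▸ h0 g⟩⟩, Fin.forall_fin_two.2 ⟨orbit_O ▸ ncard_O, oO'.1 ▸ oO'.2⟩⟩)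
    (Fin.forall_fin_succ.2 ⟨fun g _ => h0 _, Fin.forall_fin_two.2 ⟨hp, hq⟩⟩)
  have cv : ∀ y, ∃ (k : Fin 3) (h : stabilizer G a), h • ![a, b, c] k = y := fun y => by
    rcases c4 y with rfl | h | h
    exacts [⟨0, 1, one_smul _ _⟩, ⟨1, h⟩, ⟨2, h⟩]
  have hi : Function.Injective f := fun x y e => by
    obtain ⟨k, g, rfl⟩ := cv x
    obtain ⟨l, h, rfl⟩ := cv y
    exact f2 _ _ _ _ ((f1 _ _).symm.trans (e.trans (f1 _ _)))
  have he : ∀ h y, f (h • y) = (ψ h).1 (f y) := fun h y => by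
    obtain ⟨k, g, rfl⟩ := cv y
    rw [← mul_smul, f1, f1, map_mul, mul_smul]; rfl
  have fa : f a = 0 := by simpa using f1 0 1
  have fc : f c = 1 := by simpa using f1 2 1
  have fb : ∀ h, f (h • b) = ψ h • 1781 := f1 1
  have hl : ∀ y, f y < 1782 := fun y => by
    obtain ⟨k, g, rfl⟩ := cv y
    exact f1 k g ▸ AA_lt (GG_le (ψ g).2.1) (by fin_cases k <;> simp)
  have hr : Set.range f = Set.Iio 1782 := Set.eq_of_subset_of_ncard_le (Set.range_subset_iff.2 hl) (by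
    rw [Set.ncard_range_of_injective hi, Nat.card_eq_fintype_card, hΓ.card]; simp) (Set.finite_Iio _)
  have A : ∀ y, Γ.Adj a y ↔ f y ∈ bits O := fun y => by
    rcases c4 y with rfl | h | h
    · exact iff_of_false Γ.irrefl (fa ▸ nb (by decide +kernel))
    · exact iff_of_true ((ha y).2 h) (h.elim fun g e => e ▸ fb g ▸ orbit_O.le (mem_orbit _ _))
    · exact iff_of_false (fun e => Set.disjoint_left.1 c3 ((ha y).1 e) h) (h.elim fun g e => by
        rw [← e, he, O_smul (ψ g).2, fc]; exact nb (by decide +kernel))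
  have C := row_c (S := f '' Γ.neighborSet c) (by
      rintro u hu _ ⟨y, hy, rfl⟩
      obtain ⟨g, e⟩ := ψ.surjective ⟨u, ((St_cons _ _).le hu).1⟩
      have : g • c = c := hi (by rw [he, e, fc]; exact hu.2 1 (by simp))
      exact ⟨g • y, by have h3 := (hG g.1 c y).2 hy; rwa [show g.1 • c = c from this] at h3, by rw [he, e]⟩)
    (fun _ ⟨y, _, e⟩ => e ▸ hl y) (by
      rw [Set.ncard_image_of_injective _ hi, ← hΓ.regular c, ← Γ.card_neighborSet_eq_degree,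
        ← Nat.card_eq_fintype_card]; rfl) (by
      rw [← hΓ.of_not_adj (i := a) (j := c) (fun e => c2 (e ▸ mem_orbit_self _))
        (fun e => Set.disjoint_left.1 c3 ((ha c).1 e) (mem_orbit_self _)), ← Nat.card_eq_fintype_card,
        Nat.card_coe_set_eq, ← Set.ncard_image_of_injective _ hi]
      congr 1
      ext y
      exact ⟨fun ⟨⟨x, hx, e⟩, p⟩ => ⟨x, ⟨(A x).2 (e ▸ p), hx⟩, e⟩, fun ⟨x, hx, e⟩ => ⟨⟨x, hx.2, e⟩, e ▸ (A x).1 hx.1⟩⟩)
  have A' : ∀ y, Γ.Adj a y ↔ ad (f a) (f y) := fun y => by rw [fa, ad_zero, A]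
  have C' : ∀ x ∈ orbit (stabilizer G a) c, ∀ y, Γ.Adj x y ↔ ad (f x) (f y) := by
    rintro _ ⟨g, rfl⟩ y
    obtain ⟨y, rfl⟩ := MulAction.surjective g y
    simp only [he, ad_smul (ψ g).2.1, fc]
    exact (hG g.1 c y).trans (hi.mem_set_image.symm.trans (Set.ext_iff.1 C _))
  have cm : ∀ {x y}, (Γ.Adj x y ↔ ad (f x) (f y)) → (Γ.Adj y x ↔ ad (f y) (f x)) := fun h =>
    (Γ.adj_comm _ _).trans (h.trans ⟨ad_symm, ad_symm⟩)
  have all : ∀ x y, Γ.Adj x y ↔ ad (f x) (f y) := fun x y => by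
    rcases c4 x with rfl | h | h
    · exact A' y
    rcases c4 y with rfl | h' | h'
    · exact cm (A' x)
    · rw [hf x y ((ha x).2 h) ((ha y).2 h')]
      obtain ⟨g, rfl⟩ := h
      obtain ⟨k, rfl⟩ := h'
      simp only [fb, f01]
    · exact cm (C' y h' x)
    · exact C' x h y
  let ι := Equiv.Perm.viaEmbeddingHom (⟨f, hi⟩ : Ω ↪ ℕ)
  have i1 : ∀ g x, ι g (f x) = f (g x) := fun g x => Equiv.Perm.viaEmbedding_apply g ⟨f, hi⟩ x
  have i2 : ∀ g x, 1782 ≤ x → ι g x = x := fun g x hx =>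
    Equiv.Perm.viaEmbedding_apply_of_notMem g ⟨f, hi⟩ x fun h => not_lt.2 hx (hr.le h)
  have i3 := Equiv.Perm.viaEmbeddingHom_injective (⟨f, hi⟩ : Ω ↪ ℕ)
  refine ⟨(G.equivMapOfInjective ι i3).trans (MulEquiv.subgroupCongr (eq_GG ?_ ?_))⟩
  · rintro _ ⟨g, hg, rfl⟩
    refine ⟨i2 g, fun x y => ?_⟩
    by_cases hx : x < 1782
    · by_cases hy : y < 1782
      · obtain ⟨x, rfl⟩ := hr.ge hx
        obtain ⟨y, rfl⟩ := hr.ge hy
        rw [i1, i1, ← all, ← all]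
        exact hG ⟨g, hg⟩ x y
      · rw [i2 g y (not_lt.1 hy)]
        exact iff_of_false (fun h => hy (ad_lt h).2) fun h => hy (ad_lt h).2
    · rw [i2 g x (not_lt.1 hx)]
      exact iff_of_false (fun h => hx (ad_lt h).1) fun h => hx (ad_lt h).1
  · rw [Subgroup.card_map_of_injective i3, ← (stabilizer G a).index_mul_card, index_stabilizer_of_transitive,
      Nat.card_congr ψ.toEquiv, card_St0, Nat.card_eq_fintype_card, hΓ.card]

omit hΓ hG ha hp in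
include ψ in
theorem main (hΩ : Fintype.card Ω = 1782) (hc : (orbit (stabilizer G a) c).ncard = 1365) : Nonempty (G ≃* GG) := by
  obtain ⟨x, hx, h⟩ := exists_fix_O (Subgroup.map_subtype_le _) (card_map ψ hb rfl (by decide))
  obtain ⟨k, rfl⟩ := orbit_O.ge hx
  have hb' : (orbit (stabilizer G a) ((ψ.symm k)⁻¹ • b)).ncard = 416 := by rwa [orbit_smul]
  have hp : ∀ g : stabilizer G a, g • (ψ.symm k)⁻¹ • b = (ψ.symm k)⁻¹ • b → ψ g • 1781 = 1781 := fun g hg => by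
    have := h (x := (ψ (ψ.symm k * g * (ψ.symm k)⁻¹)).1) ⟨_, ⟨_, by
      rw [SetLike.mem_coe, mem_stabilizer_iff, mul_smul, mul_smul, hg, smul_inv_smul], rfl⟩, rfl⟩
    simpa [Subgroup.smul_def] using this
  obtain ⟨Γ, _, l, m, h1, h2, h3⟩ := CL.Srg.exists_srg_of_rank3 hb' hc hΩ (by decide) (by decide) (by decide)
  obtain ⟨-, c2, c3, -⟩ := CL.Srg.rank3_cases hb' hc (Nat.card_eq_fintype_card.trans hΩ) (by decide)
    (by decide) (by decide)
  obtain ⟨g, hg⟩ := fix_c ψ h1 h2 h3 hb' hp hc (fun e => c2 (e ▸ mem_orbit_self _))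
    fun e => Set.disjoint_left.1 c3 ((h3 c).1 e) (mem_orbit_self _)
  exact core ψ h1 h2 h3 hb' hp (c := g • c) (by rwa [orbit_smul]) hg

omit hΓ hG ha hb hp
/-- Recognition of the sporadic Suzuki group as a rank 3 permutation group: a transitive permutation group on 1782 points in which the stabiliser of a point is isomorphic to the Chevalley group G₂(4) and has two further orbits, of sizes 416 and 1365, is isomorphic to the sporadic Suzuki group. -/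
theorem result {Ω : Type*} [Fintype Ω] [DecidableEq Ω] (hΩ : Fintype.card Ω = 1782) (G : Subgroup (Equiv.Perm Ω)) [MulAction.IsPretransitive G Ω] (a : Ω) (K : Type) [Field K] [Fintype K] (hK : Fintype.card K = 4) (e : MulAction.stabilizer G a ≃* Cfsg.Lie.chevG2.group K) (b c : Ω) (hb : (MulAction.orbit (MulAction.stabilizer G a) b).ncard = 416) (hc : (MulAction.orbit (MulAction.stabilizer G a) c).ncard = 1365) : Cfsg.Spor.IsoSuz G := by
  obtain ⟨L, _, _, hL, ⟨e'⟩⟩ := Cfsg.Agent.S1679.result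
  rw [CL.Suz.map_closure [Spor.Suz.a, Spor.Suz.b, Spor.Suz.c, Spor.Suz.d, Spor.Suz.e, Spor.Suz.f]
    (fun x => by simp) (ws := [[0], [1], [2], [3], [4], [5]]) (by decide +kernel)] at e'
  obtain ⟨f⟩ := main ((e.trans (CL.SchurC.chevCongr (FiniteField.ringEquivOfCardEq (hK.trans hL.symm)) _)).trans
    (e'.symm.trans equivH)) hb hΩ hc
  exact ⟨f.trans equivGG.symm⟩

end Cfsg.Agent.S1668
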