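import Cfsg.Statements.S1669
import Mathlib
import Cfsg.Agent.SPOR.RuRec3
import Cfsg.Agent.SPOR.RuGrp
import Cfsg.Agent.SPOR.Rank3

set_option autoImplicit false
open Cfsg

namespace Cfsg.Agent.S1669

open MulAction CL.Ru

theorem exists_map {H H' Ω Ω' ι : Type*} [Group H] [Group H'] [Finite H'] [MulAction H Ω] [MulAction H' Ω']
    (ψ : H ≃* H') (t : ι → Ω) (t' : ι → Ω') {n : ι → ℕ} (hn : Function.Injective n)
    (h1 : ∀ k, (orbit H (t k)).ncard = n k) (h2 : ∀ k, (orbit H' (t' k)).ncard = n k)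
    (h3 : ∀ k, (stabilizer H (t k)).map ψ.toMonoidHom ≤ stabilizer H' (t' k))
    (c : ∀ ω, ∃ k, ω ∈ orbit H (t k)) :
    ∃ f : Ω → Ω', Function.Injective f ∧ (∀ h ω, f (h • ω) = ψ h • f ω) ∧ ∀ k, f (t k) = t' k := by
  have h4 : ∀ k h, h • t k = t k ↔ ψ h • t' k = t' k := fun k h => by
    rw [← mem_stabilizer_iff, ← mem_stabilizer_iff, ← (h3 k).eq_of_not_lt fun e => (Subgroup.index_strictAnti e).ne (by
      rw [Subgroup.index_map_of_bijective ψ.bijective, index_stabilizer, index_stabilizer, h1, h2])]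
    exact (Subgroup.mem_map_iff_mem (f := ψ.toMonoidHom) ψ.injective).symm
  have hs : ∀ k l g h, g • t k = h • t l ↔ ψ g • t' k = ψ h • t' l := fun k l g h => by
    rw [← inv_smul_eq_iff, ← inv_smul_eq_iff (g := ψ h), ← mul_smul, ← mul_smul, ← map_inv, ← map_mul]
    refine ⟨fun e => ?_, fun e => ?_⟩
    · obtain rfl : k = l := hn (by rw [← h1, ← h1, ← e, orbit_smul])
      exact (h4 _ _).1 e
    · obtain rfl : k = l := hn (by rw [← h2, ← h2, ← e, orbit_smul])
      exact (h4 _ _).2 e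
  choose k h e using c
  exact ⟨fun ω => ψ (h ω) • t' (k ω), fun ω ω' e' => (e ω).symm.trans (((hs _ _ _ _).2 e').trans (e ω')),
    fun g ω => by
      rw [← mul_smul, ← map_mul]
      exact (hs _ _ _ _).1 ((e _).trans (by rw [mul_smul]; exact congrArg _ (e ω).symm)),
    fun l => ((hs _ _ _ 1).1 ((e _).trans (one_smul _ _).symm)).trans (by rw [map_one, one_smul])⟩

theorem main {Ω : Type*} [Fintype Ω] (hΩ : Fintype.card Ω = 4060) (G : Subgroup (Equiv.Perm Ω))
    [IsPretransitive G Ω] (a : Ω) (ψ : stabilizer G a ≃* St) (b c : Ω)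
    (hb : (orbit (stabilizer G a) b).ncard = 1755) (hc : (orbit (stabilizer G a) c).ncard = 2304) :
    Nonempty (G ≃* Gam) := by
  have hH : Nat.card (stabilizer G a) = 35942400 := (Nat.card_congr ψ.toEquiv).trans card_stab
  have h1 : ∀ (d : Ω) (n m : ℕ), (orbit (stabilizer G a) d).ncard = n → 35942400 = (n + 0) * m → 0 < n →
      Nat.card (((stabilizer (stabilizer G a) d).map ψ.toMonoidHom).map St.subtype) = m := fun d n m h e hn => by
    have := (stabilizer (stabilizer G a) d).index_mul_card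
    rw [index_stabilizer, h, hH, e] at this
    rw [Subgroup.card_map_of_injective St.subtype_injective, Subgroup.card_map_of_injective ψ.injective]
    exact Nat.eq_of_mul_eq_mul_left hn this
  obtain ⟨b', b1, b2⟩ := exists_fix_D (Subgroup.map_subtype_le _) (h1 b _ _ hb rfl (by decide))
  obtain ⟨c', c1, c2⟩ := exists_fix_adj (Subgroup.map_subtype_le _) (h1 c _ _ hc rfl (by decide))
  have h2 : ∀ {K X : Type _} [Group K] [MulAction K X] (x : X), (orbit (stabilizer K x) x).ncard = 1 :=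
    fun x => Set.ncard_eq_one.2 ⟨x, Set.eq_singleton_iff_unique_mem.2 ⟨mem_orbit_self _, fun _ ⟨g, e⟩ => e ▸ g.2⟩⟩
  have h3 : (orbit St (0 : Fin 4060)).ncard = 1 :=
    Set.ncard_eq_one.2 ⟨0, Set.eq_singleton_iff_unique_mem.2 ⟨mem_orbit_self _, fun _ ⟨g, e⟩ => e ▸ g.2⟩⟩
  obtain ⟨f, f1, f2, f3⟩ := exists_map ψ ![a, b, c] ![0, b', c'] (n := ![1, 1755, 2304]) (by decide)
    (Fin.forall_fin_succ.2 ⟨h2 a, Fin.forall_fin_two.2 ⟨hb, hc⟩⟩)
    (Fin.forall_fin_succ.2 ⟨h3, Fin.forall_fin_two.2 ⟨orbit_D b1, orbit_adj c1⟩⟩)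
    (Fin.forall_fin_succ.2 ⟨fun g _ => g.2, Fin.forall_fin_two.2
      ⟨fun g hg => b2 ⟨g, hg, rfl⟩, fun g hg => c2 ⟨g, hg, rfl⟩⟩⟩) fun ω => by
      rcases (CL.Srg.rank3_cases hb hc (Nat.card_eq_fintype_card.trans hΩ) (by decide) (by decide)
        (by decide)).2.2.2 ω with rfl | h | h
      exacts [⟨0, mem_orbit_self _⟩, ⟨1, h⟩, ⟨2, h⟩]
  let E := Equiv.ofBijective f ((Fintype.bijective_iff_injective_and_card f).2 ⟨f1, hΩ.trans (Fintype.card_fin _).symm⟩)
  have e0 : E a = 0 := f3 0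
  have e1 : ∀ h : stabilizer G a, E.permCongrHom h.1.1 = (ψ h).1.1 := fun h =>
    Equiv.ext (E.surjective.forall.2 fun ω => (congrArg (fun x => E (h • x)) (E.symm_apply_apply ω)).trans (f2 h ω))
  have : IsPretransitive (G.map E.permCongrHom.toMonoidHom) (Fin 4060) := ⟨fun x y => by
    obtain ⟨g, hg⟩ := exists_smul_eq G (E.symm x) (E.symm y)
    exact ⟨⟨_, g, g.2, rfl⟩, (congrArg E hg).trans (E.apply_symm_apply y)⟩⟩
  have h4 := le_Gam (G.map E.permCongrHom.toMonoidHom) fun g hg => ⟨by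
    rintro ⟨k, hk, rfl⟩
    have : k a = a := E.injective ((congrArg (fun x => E (k x)) (E.symm_apply_eq.2 e0.symm).symm).trans
      (hg.trans e0.symm))
    exact (e1 ⟨⟨k, hk⟩, this⟩).symm ▸ (ψ _).1.2, fun h =>
      ⟨_, (ψ.symm ⟨⟨g, h⟩, hg⟩).1.2, (e1 _).trans (by rw [ψ.apply_symm_apply])⟩⟩
  refine ⟨(E.permCongrHom.subgroupMap G).trans (MulEquiv.subgroupCongr (Subgroup.eq_of_le_of_card_ge h4 ?_))⟩
  rw [Subgroup.card_map_of_injective E.permCongrHom.injective, card_Gam, ← (stabilizer G a).index_mul_card,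
    index_stabilizer_of_transitive, hH, Nat.card_eq_fintype_card, hΩ]

/-- Recognition of the Rudvalis group as a rank 3 permutation group: a transitive permutation group on 4060 points in which the stabiliser of a point is isomorphic to the Ree group ²F₄(2) and has two further orbits, of sizes 1755 and 2304, is isomorphic to the Rudvalis group. -/
theorem result {Ω : Type*} [Fintype Ω] [DecidableEq Ω] (hΩ : Fintype.card Ω = 4060) (G : Subgroup (Equiv.Perm Ω)) [MulAction.IsPretransitive G Ω] (a : Ω)  (e : MulAction.stabilizer G a ≃* Cfsg.Lie.twistedF4 (ZMod 2) 1) (b c : Ω) (hb : (MulAction.orbit (MulAction.stabilizer G a) b).ncard = 1755) (hc : (MulAction.orbit (MulAction.stabilizer G a) c).ncard = 2304) : Cfsg.Spor.IsoRu G := by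
  obtain ⟨f⟩ := main hΩ G a (MulEquiv.trans (N := CL.Chev.Tits.G) e stabEquiv) b c hb hc
  exact ⟨f.trans ruEquiv.symm⟩

end Cfsg.Agent.S1669
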