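import Cfsg.Statements.S1688
import Cfsg.Agent.SPOR.Fi23

set_option autoImplicit false
open Cfsg

namespace Cfsg.Agent.S1688

/-- In the presented Fischer group Fi₂₃, the subgroup generated by the images of a, …, i is a non-split double cover of the presented Fischer group Fi₂₂. -/
theorem result : Cfsg.IsNonsplitDoubleCover (((Subgroup.closure ({Cfsg.Spor.Fi23.a, Cfsg.Spor.Fi23.b, Cfsg.Spor.Fi23.c, Cfsg.Spor.Fi23.d, Cfsg.Spor.Fi23.e, Cfsg.Spor.Fi23.f, Cfsg.Spor.Fi23.g, Cfsg.Spor.Fi23.h, Cfsg.Spor.Fi23.i} : Set (FreeGroup Cfsg.Spor.Fi23.Gen))).map (PresentedGroup.mk (Cfsg.Spor.coxRelators Cfsg.Spor.Fi23.edges ∪ {r | r ∈ Cfsg.Spor.Fi23.extra})))) Cfsg.Spor.Fi22 := by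
  rw [CL.Fi23.map_closure [Spor.Fi23.a, Spor.Fi23.b, Spor.Fi23.c, Spor.Fi23.d, Spor.Fi23.e, Spor.Fi23.f, Spor.Fi23.g, Spor.Fi23.h, Spor.Fi23.i]
    (by simp) (ws := CL.Fi23.hs) (by decide +kernel), ← CL.Fi23.gen_g (by decide +kernel)]
  exact CL.Fi23.cover_H

end Cfsg.Agent.S1688
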