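import Cfsg.Statements.S1690
import Cfsg.Agent.SPOR.Fi24

set_option autoImplicit false
open Cfsg

namespace Cfsg.Agent.S1690

/-- In the presented group Fi₂₄ = Fi₂₄′:2, the subgroup generated by the images of a, b, c, d, e, f, g, h, i, j and l (every generator but k) has index 306936. -/
theorem result : (((Subgroup.closure ({Cfsg.Spor.Fi24.a, Cfsg.Spor.Fi24.b, Cfsg.Spor.Fi24.c, Cfsg.Spor.Fi24.d, Cfsg.Spor.Fi24.e, Cfsg.Spor.Fi24.f, Cfsg.Spor.Fi24.g, Cfsg.Spor.Fi24.h, Cfsg.Spor.Fi24.i, Cfsg.Spor.Fi24.j, Cfsg.Spor.Fi24.l} : Set (FreeGroup Cfsg.Spor.Fi24.Gen))).map (PresentedGroup.mk (Cfsg.Spor.coxRelators Cfsg.Spor.Fi24.edges ∪ {r | r ∈ Cfsg.Spor.Fi24.extra})))).index = 306936 := by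
  rw [CL.Fi24.map_closure [Spor.Fi24.a, Spor.Fi24.b, Spor.Fi24.c, Spor.Fi24.d, Spor.Fi24.e, Spor.Fi24.f, Spor.Fi24.g, Spor.Fi24.h, Spor.Fi24.i, Spor.Fi24.j, Spor.Fi24.l]
    (by simp) (ws := CL.Fi24.hs) (by decide +kernel)]
  exact CL.Fi24.model.index

end Cfsg.Agent.S1690
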