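import Cfsg.Statements.S1691
-- import your own Cfsg.Agent.* helpers here

set_option autoImplicit false
open Cfsg

namespace Cfsg.Agent.S1691

open Cfsg.Spor

/-- The parity homomorphism on the free group. -/
noncomputable def par : FreeGroup Fi24.Gen →* Multiplicative (ZMod 2) :=
  FreeGroup.lift fun _ => Multiplicative.ofAdd 1

theorem par_of (x : Fi24.Gen) : par (FreeGroup.of x) = Multiplicative.ofAdd 1 := by
  simp [par]

theorem par_rel : ∀ r ∈ coxRelators Fi24.edges ∪ {r | r ∈ Fi24.extra}, par r = 1 := by
  rintro r (⟨x, -, y, -, rfl⟩ | hr)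
  · rw [map_pow, map_mul, par_of, par_of]
    have : (Multiplicative.ofAdd (1 : ZMod 2)) * Multiplicative.ofAdd 1 = 1 := by decide
    rw [this, one_pow]
  · simp only [Fi24.extra, List.mem_cons, List.not_mem_nil, or_false, Set.mem_ofPred_eq] at hr
    rcases hr with rfl | rfl
    · simp only [map_mul, map_inv, map_pow, par_of]; decide
    · simp only [map_mul, map_pow, par_of]; decide

noncomputable def phi : Fi24 →* Multiplicative (ZMod 2) := PresentedGroup.toGroup par_rel

theorem phi_of (x : Fi24.Gen) : phi (PresentedGroup.of x) = Multiplicative.ofAdd 1 :=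
  PresentedGroup.toGroup.of par_rel

theorem rel (x y : Fi24.Gen) (hx : x ∈ coxNodes Fi24.edges) (hy : y ∈ coxNodes Fi24.edges) :
    ((PresentedGroup.of x : Fi24) * PresentedGroup.of y) ^ coxLabel Fi24.edges x y = 1 := by
  have : (PresentedGroup.mk (coxRelators Fi24.edges ∪ {r | r ∈ Fi24.extra})
      ((FreeGroup.of x * FreeGroup.of y) ^ coxLabel Fi24.edges x y)) = 1 :=
    PresentedGroup.one_of_mem (Or.inl ⟨x, hx, y, hy, rfl⟩)
  rw [map_pow, map_mul] at this
  exact this

theorem all_nodes (x : Fi24.Gen) : x ∈ coxNodes Fi24.edges := by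
  cases x <;> decide

theorem sq (x : Fi24.Gen) : (Abelianization.of (PresentedGroup.of x : Fi24)) ^ 2 = 1 := by
  have := rel x x (all_nodes x) (all_nodes x)
  have h : coxLabel Fi24.edges x x = 1 := by simp [coxLabel]
  rw [h, pow_one] at this
  rw [← map_pow, pow_two, this, map_one]

theorem edge (x y : Fi24.Gen) (h : coxLabel Fi24.edges x y = 3) :
    Abelianization.of (PresentedGroup.of x : Fi24) = Abelianization.of (PresentedGroup.of y) := by
  have h1 := congrArg Abelianization.of (rel x y (all_nodes x) (all_nodes y))
  rw [h, map_pow, map_mul, map_one, mul_pow, pow_succ, pow_succ _ 2, sq, sq, one_mul, one_mul] at h1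
  have h2 := sq y
  rw [pow_two] at h2
  exact mul_right_cancel (h1.trans h2.symm)

theorem all_eq (x : Fi24.Gen) :
    Abelianization.of (PresentedGroup.of x : Fi24) = Abelianization.of (PresentedGroup.of .d) := by
  have h1 := edge .l .k (by decide)
  have h2 := edge .k .a (by decide)
  have h3 := edge .a .b (by decide)
  have h4 := edge .b .c (by decide)
  have h5 := edge .c .d (by decide)
  have h6 := edge .d .e (by decide)
  have h7 := edge .d .h (by decide)
  have h8 := edge .e .f (by decide)
  have h9 := edge .f .g (by decide)
  have h10 := edge .g .j (by decide)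
  have h11 := edge .h .i (by decide)
  cases x <;> grind

theorem key (g : Fi24) :
    Abelianization.of g = (Abelianization.of (PresentedGroup.of .d : Fi24)) ^ (Multiplicative.toAdd (phi g)).val := by
  have hd := sq .d
  set t := Abelianization.of (PresentedGroup.of .d : Fi24) with ht
  have hmul : ∀ a b : ZMod 2, t ^ (a + b).val = t ^ a.val * t ^ b.val := by
    intro a b
    rw [ZMod.val_add, ← pow_add, ← pow_eq_pow_mod _ hd]
  let psi : Multiplicative (ZMod 2) →* Abelianization Fi24 :=
    { toFun := fun a => t ^ (Multiplicative.toAdd a).val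
      map_one' := by simp
      map_mul' := fun a b => by rw [toAdd_mul, hmul] }
  have : (Abelianization.of : Fi24 →* _) = psi.comp phi := by
    apply PresentedGroup.ext
    intro x
    rw [MonoidHom.comp_apply, phi_of, all_eq]
    change _ = t ^ (1 : ZMod 2).val
    rw [ZMod.val_one, pow_one]
  exact DFunLike.congr_fun this g


/-- The commutator subgroup of the presented group Fi₂₄ has index 2 (the presented group is Fi₂₄′:2 with Fi₂₄′ its derived subgroup). -/
theorem result : (commutator Cfsg.Spor.Fi24).index = 2 := by
  have hker : commutator Fi24 = phi.ker := by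
    apply le_antisymm (Abelianization.commutator_subset_ker phi)
    intro g hg
    rw [MonoidHom.mem_ker] at hg
    have := key g
    rw [hg, toAdd_one, ZMod.val_zero, pow_zero] at this
    exact (QuotientGroup.eq_one_iff g).1 this
  have hsurj : phi.range = ⊤ := by
    rw [eq_top_iff]
    intro a ha
    clear ha
    have : a = 1 ∨ a = Multiplicative.ofAdd 1 := by revert a; decide
    rcases this with rfl | rfl
    · exact one_mem _
    · exact ⟨_, phi_of .d⟩
  rw [hker, Subgroup.index_ker, hsurj, Subgroup.card_top, Nat.card_eq_fintype_card]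
  rfl

end Cfsg.Agent.S1691
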