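import Cfsg.Statements.S1711
import Cfsg.Agent.SPOR.J4G

set_option autoImplicit false
open Cfsg

namespace Cfsg.Agent.S1711

/-- In the presented fourth Janko group (generators x, y, t), the subgroup generated by the images of x and y is isomorphic to the Mathieu group M₂₄. -/
theorem result : Nonempty ((((Subgroup.closure ({Cfsg.Spor.J4.x, Cfsg.Spor.J4.y} : Set (FreeGroup Cfsg.Spor.J4.Gen))).map (PresentedGroup.mk (Cfsg.Spor.coxRelators Cfsg.Spor.J4.edges ∪ {r | r ∈ Cfsg.Spor.J4.extra})))) ≃* Cfsg.M24) := by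
  rw [CL.J4G.map_closure [Spor.J4.x, Spor.J4.y] (by simp) (ws := CL.Net.ltrs 3) (by decide +kernel)]
  exact CL.J4G.nonempty_equiv_M24

end Cfsg.Agent.S1711
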