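import Cfsg.Statements.S1712
import Cfsg.Agent.SPOR.J4G

set_option autoImplicit false
open Cfsg

namespace Cfsg.Agent.S1712

/-- In the presented fourth Janko group (generators x, y, t), the subgroup generated by the images of x, y and (y * w⁻¹ * t * w) ^ 3 with w = (y * x) ^ 4 * y⁻¹ * x has index 173067389. -/
theorem result : (((Subgroup.closure ({Cfsg.Spor.J4.x, Cfsg.Spor.J4.y, (Cfsg.Spor.J4.y * ((Cfsg.Spor.J4.y * Cfsg.Spor.J4.x) ^ 4 * Cfsg.Spor.J4.y⁻¹ * Cfsg.Spor.J4.x)⁻¹ * Cfsg.Spor.J4.t * ((Cfsg.Spor.J4.y * Cfsg.Spor.J4.x) ^ 4 * Cfsg.Spor.J4.y⁻¹ * Cfsg.Spor.J4.x)) ^ 3} : Set (FreeGroup Cfsg.Spor.J4.Gen))).map (PresentedGroup.mk (Cfsg.Spor.coxRelators Cfsg.Spor.J4.edges ∪ {r | r ∈ Cfsg.Spor.J4.extra})))).index = 173067389 := by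
  rw [CL.J4G.map_closure [Spor.J4.x, Spor.J4.y, (Spor.J4.y * ((Spor.J4.y * Spor.J4.x) ^ 4 *
    Spor.J4.y⁻¹ * Spor.J4.x)⁻¹ * Spor.J4.t * ((Spor.J4.y * Spor.J4.x) ^ 4 * Spor.J4.y⁻¹ *
    Spor.J4.x)) ^ 3] (by simp) (ws := ([[10], [11], [13]].map (CL.CE.substW CL.J4G.ws2)).map
    (CL.CE.substW CL.J4G.ws1)) (by decide +kernel), ← CL.CE.gen_subst, ← CL.CE.gen_subst,
    ← CL.J4G.range_eq]
  exact CL.J4G.index

end Cfsg.Agent.S1712
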