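import Cfsg.Statements.S1775
import Cfsg.Agent.SIG.BProp
import Cfsg.Agent.SIG.PTerminal
import Cfsg.Agent.SIG.FStar
import Cfsg.Agent.SOLV.Coprime

set_option autoImplicit false
open Cfsg

namespace Cfsg.Agent.S1775

open Subgroup CL.Comp CL.PComp CL.MSS

theorem centralizer_zpowers' {G : Type*} [Group G] (x : G) :
    centralizer ((zpowers x : Subgroup G) : Set G) = centralizer {x} :=
  le_antisymm (centralizer_le_singleton (mem_zpowers x))
    (le_centralizer_comm.1 (zpowers_le_centralizer_iff.2 le_rfl))

/-- Let G be a finite group whose generalized Fitting subgroup is a non-abelian simple group and in which every proper section (every quotient H/N of a proper subgroup H, or of G by a nontrivial normal subgroup) has the B-property. Let x, y be commuting involutions, let D be the intersection of the 2-layer of C_G(x) with C_G(y), and let J be a 2-component of D. Write Q for the quotient of C_G(y) by its largest normal odd-order subgroup. Then (i) the image of J in Q is a component of the centralizer in Q of the image of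 x; and (ii) for every J-invariant subgroup E of odd order of C_G(x) ∩ C_G(y), the commutator subgroup [J, E] lies in the largest normal odd-order subgroup of C_G(y). -/
theorem result {G : Type*} [Group G] [Finite G]
    (hF : IsSimpleGroup ↥(Cfsg.generalizedFittingSubgroup G)) (hF' : ¬ IsMulCommutative ↥(Cfsg.generalizedFittingSubgroup G))
    (hsec : ∀ (H : Subgroup G) (N : Subgroup ↥H) [N.Normal], (H ≠ ⊤ ∨ N ≠ ⊥) → Cfsg.HasBProperty (↥H ⧸ N))
    (x y : G) (hx : orderOf x = 2) (hy : orderOf y = 2) (hxy : x * y = y * x)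
    (J : Subgroup ↥((Cfsg.pLayer 2 ↥(Subgroup.centralizer ({x} : Set G))).map (Subgroup.centralizer ({x} : Set G)).subtype ⊓ Subgroup.centralizer ({y} : Set G)))
    (hJ : Cfsg.IsPComponent 2 J) :
    Cfsg.IsComponent
        ((((J.map (Subgroup.subtype _)).subgroupOf (Subgroup.centralizer ({y} : Set G))).map (QuotientGroup.mk' (Cfsg.oddCore ↥(Subgroup.centralizer ({y} : Set G))))).subgroupOf
          (Subgroup.centralizer ({(QuotientGroup.mk' (Cfsg.oddCore ↥(Subgroup.centralizer ({y} : Set G))) ⟨x, Subgroup.mem_centralizer_singleton_iff.mpr hxy⟩ : ↥(Subgroup.centralizer ({y} : Set G)) ⧸ Cfsg.oddCore ↥(Subgroup.centralizer ({y} : Set G)))} : Set _))) ∧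
      ∀ E : Subgroup G, E ≤ Subgroup.centralizer ({x} : Set G) ⊓ Subgroup.centralizer ({y} : Set G) → Odd (Nat.card ↥E) →
        (∀ j ∈ J.map (Subgroup.subtype _), ∀ e ∈ E, j * e * j⁻¹ ∈ E) →
          ⁅J.map (Subgroup.subtype _), E⁆ ≤ (Cfsg.oddCore ↥(Subgroup.centralizer ({y} : Set G))).map (Subgroup.centralizer ({y} : Set G)).subtype := by
  have := Nat.fact_prime_two
  let Y := centralizer ({y} : Set G)
  let X := centralizer ({x} : Set G)
  have hX : X = centralizer ({x} : Set G) := rfl
  let x' : Y := ⟨x, Subgroup.mem_centralizer_singleton_iff.mpr hxy⟩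
  let π := QuotientGroup.mk' (oddCore Y)
  have hπ : π = QuotientGroup.mk' (oddCore Y) := rfl
  have hYne : Y ≠ ⊤ := by
    intro h
    have h1 : y ∈ center G := mem_center_iff.2 fun g =>
      mem_centralizer_singleton_iff.1 (show g ∈ Y from h ▸ mem_top g)
    have h2 : (⟨y, center_le_fstar h1⟩ : generalizedFittingSubgroup G) ∈
        center (generalizedFittingSubgroup G) :=
      mem_center_iff.2 fun g => Subtype.ext (mem_center_iff.1 h1 g)
    rw [center_eq_bot_of_isSimpleGroup hF', mem_bot] at h2
    have h3 : y = 1 := congrArg Subtype.val h2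
    rw [h3, orderOf_one] at hy
    exact absurd hy (by decide)
  have hB := hsec Y (oddCore Y) (Or.inl hYne)
  have hO : oddCore (Y ⧸ oddCore Y) = ⊥ := pPrimeCore_quotient 2
  have hx'2 : orderOf x' = 2 := by rw [← Subgroup.orderOf_coe]; exact hx
  have hcop := pPrimeCore_coprime (G := Y) 2
  have hπx : orderOf (π x') = 2 := by
    refine orderOf_eq_prime (by
      rw [← map_pow, show x' ^ 2 = 1 from hx'2 ▸ pow_orderOf_eq_one x', map_one]) fun h => ?_
    have h1 : x' ∈ oddCore Y := (QuotientGroup.eq_one_iff x').1 h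
    have h2 := coprime_orderOf_of_mem hcop h1
    rw [hx'2] at h2
    exact absurd h2 (by decide)
  have hJ1 : IsPComponentOf 2 (J.map (Subgroup.subtype _)) (pLayerOf 2 X ⊓ Y) :=
    isPComponentOf_map_subtype.2 hJ
  set J' := J.map (Subgroup.subtype _) with hJ'
  have hJ2 : IsPComponentOf 2 J' (X ⊓ Y) :=
    hJ1.trans_of_le_normalizer (inf_le_inf_right _ (pLayerOf_le _))
      (le_normalizer_inf (inf_le_left.trans (le_normalizer_pLayerOf X))
        (inf_le_right.trans le_normalizer))
  have hsub : (X ⊓ Y).subgroupOf Y = centralizer {x'} := by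
    ext g
    rw [mem_subgroupOf, mem_centralizer_singleton_iff, mem_inf, hX,
      mem_centralizer_singleton_iff]
    exact ⟨fun h => Subtype.ext h.1, fun h => ⟨congrArg Subtype.val h, g.2⟩⟩
  have hmap : (centralizer ({x'} : Set Y)).map π = centralizer {π x'} := by
    rw [← centralizer_zpowers', ← CL.centralizer_map_mk'_of_coprime (oddCore Y) (zpowers x')
      (by rw [Nat.card_zpowers, hx'2]; exact hcop.symm) (Or.inl inferInstance),
      MonoidHom.map_zpowers, centralizer_zpowers']
  have hJ3 := (hJ2.subgroupOf inf_le_right).map_of_coprime_ker π (by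
    rw [hπ, QuotientGroup.ker_mk']
    exact coprime_card_of_le inf_le_left hcop)
  rw [hsub, hmap] at hJ3
  have hJ4 := isCompIn_of_hasBProperty hB hO hπx hJ3
  refine ⟨hJ4.2, fun E hE hodd hn => ?_⟩
  have hJY : J' ≤ Y := hJ2.le.trans inf_le_right
  have hEY : E ≤ Y := hE.trans inf_le_right
  have hn' : J' ≤ normalizer (E : Set G) := le_normalizer_of_cj_le fun j hj =>
    cj_le_iff_forall.2 (hn j hj)
  have h1 : (E.subgroupOf Y).map π ≤ centralizer {π x'} := by
    rw [← hmap, ← hsub]
    exact map_mono (subgroupOf_mono _ hE)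
  have h2 : (J'.subgroupOf Y).map π ≤ normalizer (((E.subgroupOf Y).map π :
      Subgroup (Y ⧸ oddCore Y)) : Set (Y ⧸ oddCore Y)) :=
    (map_mono (subgroupOf_le_normalizer hEY hn')).trans (le_normalizer_map π)
  rcases hJ4.le_or_commutator_eq_bot_of_le_normalizer h1 h2 with h | h
  · refine absurd h (hJ3.not_le_of_coprime (coprime_card_map π ?_))
    rw [Nat.card_congr (subgroupOfEquivOfLe hEY).toEquiv]
    exact Nat.coprime_two_right.2 hodd
  · have h3 := commutator_le_iff_map_eq_bot.2 h
    rw [← subgroupOf_commutator' hJY hEY] at h3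
    intro g hg
    have hgY : g ∈ Y := (commutator_le_sup _ _).trans (sup_le hJY hEY) hg
    exact ⟨⟨g, hgY⟩, h3 hg, rfl⟩

end Cfsg.Agent.S1775
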