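import Cfsg.Statements.S1784
import Mathlib
import Cfsg.Agent.SPOR.LX
import Cfsg.Agent.SIG.FStar

set_option autoImplicit false
open Cfsg

namespace Cfsg.Agent.S1784

/-- Let G be a finite group and let z be an involution of G such that Q, the generalized Fitting subgroup of the centralizer C of z, is a 2-group of symplectic type (every characteristic abelian subgroup of Q is cyclic); suppose Q is extraspecial, and view Q inside G. Let α be an involution of C that is not in Q, and let Q₀ be the subgroup of those q ∈ Q whose commutator with α lies in the subgroup generated by z. Then (a) the subgroup generated by the commutators α q α⁻¹ q⁻¹, q ∈ Q, equals the centre of Q₀; and (b) if Q₀ is not contained in the product of the centralizer of α in Q with the subgroup generated by z, then some element of Q conjugates α to α z. -/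
theorem result {G : Type*} [Group G] [Finite G] (z : G) (hz : orderOf z = 2) (hQ : Cfsg.IsOfSymplecticType ↥(Cfsg.generalizedFittingSubgroup ↥(Subgroup.centralizer ({z} : Set G)))) (hE : Cfsg.IsExtraspecial 2 ↥(Cfsg.generalizedFittingSubgroup ↥(Subgroup.centralizer ({z} : Set G))))
    (α : G) (hα : orderOf α = 2) (hαC : α ∈ Subgroup.centralizer ({z} : Set G)) (hαQ : α ∉ (Cfsg.generalizedFittingSubgroup ↥(Subgroup.centralizer ({z} : Set G))).map (Subgroup.centralizer ({z} : Set G)).subtype)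
    (Q₀ : Subgroup G) (hQ₀ : ∀ q : G, q ∈ Q₀ ↔ (q ∈ (Cfsg.generalizedFittingSubgroup ↥(Subgroup.centralizer ({z} : Set G))).map (Subgroup.centralizer ({z} : Set G)).subtype ∧ α * q * α⁻¹ * q⁻¹ ∈ Subgroup.zpowers z)) :
    Subgroup.closure ((fun q : G => α * q * α⁻¹ * q⁻¹) '' ((Cfsg.generalizedFittingSubgroup ↥(Subgroup.centralizer ({z} : Set G))).map (Subgroup.centralizer ({z} : Set G)).subtype : Set G)) = (Subgroup.center ↥Q₀).map Q₀.subtype ∧
      (¬ Q₀ ≤ ((Cfsg.generalizedFittingSubgroup ↥(Subgroup.centralizer ({z} : Set G))).map (Subgroup.centralizer ({z} : Set G)).subtype ⊓ Subgroup.centralizer ({α} : Set G)) ⊔ Subgroup.zpowers z →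
        ∃ q ∈ (Cfsg.generalizedFittingSubgroup ↥(Subgroup.centralizer ({z} : Set G))).map (Subgroup.centralizer ({z} : Set G)).subtype, q * α * q⁻¹ = α * z) := by

  set C := Subgroup.centralizer ({z} : Set G) with hC
  have hzC : z ∈ C := Subgroup.mem_centralizer_singleton_iff.mpr rfl
  have hcen : (⟨z, hzC⟩ : C) ∈ Subgroup.center C := Subgroup.mem_center_iff.mpr fun g =>
    Subtype.ext (Subgroup.mem_centralizer_singleton_iff.mp g.2)
  have hES1 : CL.LX.ES (generalizedFittingSubgroup C) ⟨z, hzC⟩ :=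
    CL.LX.es_of_isExtraspecial hE (CL.Comp.center_le_fstar hcen)
      (fun h => CL.LX.ne_one_of_orderOf hz (congrArg Subtype.val h))
      (fun x _ => Subgroup.mem_center_iff.mp hcen x)
  have hES : CL.LX.ES ((generalizedFittingSubgroup C).map C.subtype) z :=
    hES1.map C.subtype fun x _ h => Subtype.ext h
  have hLX : CL.LX.LX ((generalizedFittingSubgroup C).map C.subtype) z := by
    refine CL.LX.lx_of hES (fun x hx => CL.Comp.inf_centralizer_fstarOf_le C ⟨?_, hx⟩)
      (CL.Comp.le_normalizer_fstarOf C)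
    exact Subgroup.mem_centralizer_singleton_iff.mpr (Subgroup.mem_centralizer_iff.mp hx z hES.z_mem).symm
  generalize (generalizedFittingSubgroup C).map C.subtype = Q at *
  have hαα : α * α = 1 := CL.LX.sq_of_orderOf hα
  have hαi : α⁻¹ = α := inv_eq_of_mul_eq_one_right hαα
  have hαz : α * z = z * α := Subgroup.mem_centralizer_singleton_iff.mp hαC
  have hcj : ∀ y ∈ Q, α * y * α⁻¹ ∈ Q := hLX.norm α hαz
  have hcQ : ∀ y ∈ Q, α * y * α⁻¹ * y⁻¹ ∈ Q := fun y hy => Q.mul_mem (hcj y hy) (Q.inv_mem hy)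
  set K := Subgroup.closure ((fun q : G => α * q * α⁻¹ * q⁻¹) '' (Q : Set G)) with hK
  have hgen : ∀ y ∈ Q, α * y * α⁻¹ * y⁻¹ ∈ K := fun y hy => Subgroup.subset_closure ⟨y, hy, rfl⟩
  have hKQ : K ≤ Q := (Subgroup.closure_le _).mpr (by rintro _ ⟨y, hy, rfl⟩; exact hcQ y hy)
  have hzK : z ∈ K := by
    have : ¬ ∀ x ∈ Q, α * x * α⁻¹ = x ∨ α * x * α⁻¹ = x * z := fun h => hαQ (hLX.mem_of_trivial h)
    push Not at this
    obtain ⟨q, hq, h1, h2⟩ := this
    obtain ⟨y, hy, hyq⟩ := hES.exists_conj_eq_mul (hcQ q hq)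
      (fun h => h1 (by rw [mul_inv_eq_one] at h; exact h))
      (fun h => h2 (by rw [mul_inv_eq_iff_eq_mul] at h; rw [h, hES.z_comm q hq]))
    have h3 : z = (α * q * α⁻¹ * q⁻¹)⁻¹ * ((α * y * α⁻¹ * y⁻¹)⁻¹ *
        (α * (y * q) * α⁻¹ * (y * q)⁻¹)) := by
      calc z = (α * q * α⁻¹ * q⁻¹)⁻¹ * (α * q * α⁻¹ * q⁻¹ * z) := by group
        _ = _ := by rw [← hyq]; group
    rw [h3]
    exact K.mul_mem (K.inv_mem (hgen q hq)) (K.mul_mem (K.inv_mem (hgen y hy)) (hgen _ (Q.mul_mem hy hq)))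
  -- commuting is preserved by `α`
  have hsym : ∀ x y : G, (α * x * α⁻¹) * y = y * (α * x * α⁻¹) ↔ x * (α * y * α⁻¹) = (α * y * α⁻¹) * x := by
    intro x y
    rw [hαi]
    constructor
    · intro h
      calc x * (α * y * α) = (α * α) * x * (α * y * α) := by rw [hαα, one_mul]
        _ = α * (α * x * α * y) * α := by group
        _ = α * y * α * x * (α * α) := by rw [h]; group
        _ = _ := by rw [hαα, mul_one]
    · intro h
      calc α * x * α * y = α * x * α * y * (α * α) := by rw [hαα, mul_one]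
        _ = α * (x * (α * y * α)) * α := by group
        _ = (α * α) * y * (α * x * α) := by rw [h]; group
        _ = _ := by rw [hαα, one_mul]
  have hprod : ∀ a ∈ Q, ∀ b ∈ Q, ∀ y ∈ Q, (a * b⁻¹) * y = y * (a * b⁻¹) ↔ (a * y = y * a ↔ b * y = y * b) := by
    intro a ha b hb y hy
    constructor
    · intro h
      constructor
      · intro h1
        calc b * y = b * (a⁻¹ * (y * a)) := by rw [← h1]; group
          _ = b * a⁻¹ * (y * (a * b⁻¹)) * b := by group
          _ = y * b := by rw [← h]; group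
      · intro h1
        calc a * y = a * b⁻¹ * (b * y) := by group
          _ = (a * b⁻¹ * y) * b := by rw [h1]; group
          _ = y * a := by rw [h]; group
    · intro h
      by_cases h1 : a * y = y * a
      · have h2 := h.mp h1
        calc a * b⁻¹ * y = a * b⁻¹ * (y * b) * b⁻¹ := by group
          _ = (a * y) * b⁻¹ := by rw [← h2]; group
          _ = _ := by rw [h1]; group
      · have h2 : ¬ b * y = y * b := fun h' => h1 (h.mpr h')
        have h3 : y * b⁻¹ ≠ b⁻¹ * y := fun h' => h2 (by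
          calc b * y = b * (y * b⁻¹) * b := by group
            _ = y * b := by rw [h']; group)
        exact (hES.mul_comm_of_not_comm hy ha (Q.inv_mem hb) (fun h' => h1 h'.symm) h3).symm
  have hadj : ∀ q ∈ Q, ∀ y ∈ Q, (α * q * α⁻¹ * q⁻¹) * y = y * (α * q * α⁻¹ * q⁻¹) ↔
      (α * y * α⁻¹ * y⁻¹) * q = q * (α * y * α⁻¹ * y⁻¹) := by
    intro q hq y hy
    rw [hprod _ (hcj q hq) q hq y hy, hprod _ (hcj y hy) y hy q hq, hsym]
    constructor <;> intro h <;> constructor <;> intro h1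
    · exact (h.mp h1.symm).symm
    · exact (h.mpr h1.symm).symm
    · exact (h.mp h1.symm).symm
    · exact (h.mpr h1.symm).symm
  have hQ₀' : ∀ y, y ∈ Q₀ ↔ y ∈ Q ∧ ∀ k ∈ K, k * y = y * k := by
    intro y
    rw [hQ₀, hES.mem_zpowers_iff]
    refine and_congr_right fun hy => ⟨fun h k hk => ?_, fun h => ?_⟩
    · have : K ≤ Subgroup.centralizer {y} := by
        refine (Subgroup.closure_le _).mpr ?_
        rintro _ ⟨q, hq, rfl⟩
        refine Subgroup.mem_centralizer_singleton_iff.mpr ((hadj q hq y hy).mpr ?_)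
        rcases h with h | h <;> rw [h]
        · rw [one_mul, mul_one]
        · exact (hES.z_comm q hq).symm
      exact Subgroup.mem_centralizer_singleton_iff.mp (this hk)
    · exact hES.cent _ (hcQ y hy) fun q hq => (hadj q hq y hy).mp (h _ (hgen q hq))
  have hKQ₀ : K ≤ Q₀ := by
    refine (Subgroup.closure_le _).mpr ?_
    rintro _ ⟨q, hq, rfl⟩
    refine (hQ₀ _).mpr ⟨hcQ q hq, hES.mem_zpowers_iff.mpr ?_⟩
    have h1 : α * (α * q * α⁻¹ * q⁻¹) * α⁻¹ * (α * q * α⁻¹ * q⁻¹)⁻¹ =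
        (α * q * α⁻¹ * q⁻¹)⁻¹ * (α * q * α⁻¹ * q⁻¹)⁻¹ := by
      calc α * (α * q * α⁻¹ * q⁻¹) * α⁻¹ * (α * q * α⁻¹ * q⁻¹)⁻¹
          = (α * α) * q * α⁻¹ * q⁻¹ * α⁻¹ * (α * q * α⁻¹ * q⁻¹)⁻¹ := by group
        _ = q * α * q⁻¹ * α⁻¹ * (α * q * α⁻¹ * q⁻¹)⁻¹ := by
          rw [hαα, one_mul]; congr 4
        _ = _ := by group
    rw [h1]
    exact hES.sq _ (Q.inv_mem (hcQ q hq))
  refine ⟨le_antisymm (fun k hk => ?_) (fun x hx => ?_), fun h => ?_⟩
  · exact CL.LX.mem_center_map_iff.mpr ⟨hKQ₀ hk, fun y hy => ((hQ₀' y).mp hy).2 k hk⟩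
  · obtain ⟨hx0, hxc⟩ := CL.LX.mem_center_map_iff.mp hx
    by_contra hxK
    obtain ⟨y, hy, hyK, hxy⟩ := hES.exists_centralizes_not_comm hKQ hzK ((hQ₀' x).mp hx0).1 hxK
    exact hxy (hxc y ((hQ₀' y).mpr ⟨hy, hyK⟩))
  · obtain ⟨q, hq, hqn⟩ := SetLike.not_le_iff_exists.mp h
    obtain ⟨hqQ, hqz⟩ := (hQ₀ q).mp hq
    refine ⟨q, hqQ, ?_⟩
    rcases hES.mem_zpowers_iff.mp hqz with h1 | h1
    · refine absurd (Subgroup.mem_sup_left (Subgroup.mem_inf.mpr
        ⟨hqQ, Subgroup.mem_centralizer_singleton_iff.mpr ?_⟩)) hqn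
      calc q * α = (α * q * α⁻¹ * q⁻¹) * q * α := by rw [h1, one_mul]
        _ = α * q := by group
    · calc q * α * q⁻¹ = q * α⁻¹ * q⁻¹ := by rw [hαi]
        _ = α⁻¹ * (α * q * α⁻¹ * q⁻¹) := by group
        _ = α * z := by rw [h1, hαi]

end Cfsg.Agent.S1784
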