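import Cfsg.Statements.S1785
import Mathlib
import Cfsg.Agent.INV.SylowRel
import Cfsg.Agent.PLOC.PRank
import Cfsg.Agent.PLOC.ElemAb
import Cfsg.Agent.SOLV.Basic
import Cfsg.Agent.TECH.Conj

set_option autoImplicit false
open Cfsg

namespace Cfsg.Agent.S1785


open CL.Th

theorem not_le_of {X : Type*} [Group X] [Finite X] (hX : IsPGroup 2 X) {E : Subgroup X} [hn : E.Normal]
    (hE : IsElementaryAbelian 2 E) (hE32 : 32 ≤ Nat.card E) {A : Subgroup X}
    (hA : IsElementaryAbelian 2 A) (hA8 : Nat.card A ≤ 2 ^ 3) :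
    ¬ E ⊓ Subgroup.centralizer (A : Set X) ≤ A := by
  haveI : Fact (Nat.Prime 2) := ⟨Nat.prime_two⟩
  intro hle
  have hAE : ¬ A ≤ E := by
    intro h
    have : E ≤ A := le_trans (le_inf le_rfl ((elemAb_le_centralizer hE).trans
      (Subgroup.centralizer_le h))) hle
    have := Subgroup.card_le_of_le this
    omega
  have hcc : ∀ a ∈ A, ∀ n : X, a * (a * n * a⁻¹) * a⁻¹ = n := fun a ha n => by
    calc a * (a * n * a⁻¹) * a⁻¹ = a ^ 2 * n * (a ^ 2)⁻¹ := by simp [pow_succ, mul_assoc]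
      _ = n := by rw [hA.2 a ha]; group
  obtain ⟨a, haA, haE⟩ := SetLike.not_le_iff_exists.mp hAE
  have hne : E ⊓ Subgroup.centralizer (A : Set X) ≠ ⊥ :=
    CL.MSS.inf_centralizer_ne_bot (elemAb_isPGroup hA) (elemAb_isPGroup hE)
      (by rw [Subgroup.normalizer_eq_top]; exact le_top) (by rintro rfl; simp at hE32)
  have hc2 : 2 ^ (0 + 1) ≤ Nat.card (E ⊓ A : Subgroup X) :=
    CL.PG.pow_succ_le_card_of_lt hX (H := ⊥)
      ((bot_lt_iff_ne_bot.mpr hne).trans_le (le_inf inf_le_left hle)) (by simp)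
  have hED : E ≤ Subgroup.centralizer ((E ⊓ A : Subgroup X) : Set X) :=
    (elemAb_le_centralizer hE).trans (Subgroup.centralizer_le (SetLike.coe_subset_coe.mpr inf_le_left))
  have h1 := CL.SylowRel.card_le_card_centralizer_sq hE (x := a) (fun n h => hn.conj_mem n h a)
    (fun n _ => hcc a haA n)
  have hlt : E ⊓ A < (E ⊓ A) ⊔ Subgroup.zpowers a :=
    left_lt_sup.mpr fun h => haE (h (Subgroup.mem_zpowers a)).1
  have hD1 : (E ⊓ A) ⊔ Subgroup.zpowers a ≤ A := sup_le inf_le_right (Subgroup.zpowers_le.mpr haA)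
  rcases hD1.eq_or_lt with heq | hlt2
  · have hsub : E ⊓ Subgroup.centralizer {a} ≤ E ⊓ A := by
      refine le_inf inf_le_left (le_trans (le_inf inf_le_left ?_) hle)
      rw [← heq, CL.PG.centralizer_sup_zpowers]
      exact le_inf (inf_le_left.trans hED) inf_le_right
    have h2 : Nat.card (E ⊓ A : Subgroup X) ≤ 2 ^ 2 := CL.PG.card_le_pow_of_lt hX (hlt.trans_le hD1) hA8
    have := h1.trans (Nat.pow_le_pow_left ((Subgroup.card_le_of_le hsub).trans h2) 2)
    omega
  · obtain ⟨b, hbA, hbD⟩ := SetLike.exists_of_lt hlt2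
    have h2 := CL.PG.card_le_pow_of_lt hX hlt (CL.PG.card_le_pow_of_lt hX hlt2 hA8)
    have hlt3 : (E ⊓ A) ⊔ Subgroup.zpowers a < (E ⊓ A) ⊔ Subgroup.zpowers a ⊔ Subgroup.zpowers b :=
      left_lt_sup.mpr fun h => hbD (h (Subgroup.mem_zpowers b))
    have heq : (E ⊓ A) ⊔ Subgroup.zpowers a ⊔ Subgroup.zpowers b = A :=
      Subgroup.eq_of_le_of_card_ge (sup_le hD1 (Subgroup.zpowers_le.mpr hbA))
        (hA8.trans (CL.PG.pow_succ_le_card_of_lt hX hlt3 (CL.PG.pow_succ_le_card_of_lt hX hlt hc2)))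
    have h3 := CL.SylowRel.card_le_card_centralizer_sq
      (elemAb_inf_left hE (Subgroup.centralizer {a})) (x := b) (fun n h => ⟨hn.conj_mem n h.1 b, by
        have e1 := Subgroup.mem_centralizer_singleton_iff.mp h.2
        have e2 := elemAb_comm hA haA hbA
        refine Subgroup.mem_centralizer_singleton_iff.mpr ?_
        calc b * n * b⁻¹ * a = b * n * b⁻¹ * (a * b) * b⁻¹ := by group
          _ = b * (n * a) * b⁻¹ := by rw [e2]; group
          _ = (b * a) * n * b⁻¹ := by rw [e1]; group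
          _ = _ := by rw [← e2]; group⟩) (fun n _ => hcc b hbA n)
    have hsub : E ⊓ Subgroup.centralizer {a} ⊓ Subgroup.centralizer {b} ≤ E ⊓ A := by
      refine le_inf (inf_le_left.trans inf_le_left)
        (le_trans (le_inf (inf_le_left.trans inf_le_left) ?_) hle)
      rw [← heq, CL.PG.centralizer_sup_zpowers, CL.PG.centralizer_sup_zpowers]
      exact inf_le_inf_right _ (le_inf (inf_le_left.trans hED) inf_le_right)
    have h4 := h3.trans (Nat.pow_le_pow_left ((Subgroup.card_le_of_le hsub).trans h2) 2)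
    have := h1.trans (Nat.pow_le_pow_left h4 2)
    omega

theorem exists_between {X : Type*} [Group X] [Finite X] (hX : IsPGroup 2 X) {B W : Subgroup X}
    (hBW : B ≤ W) (hB : Nat.card B ≤ 2 ^ 3) (hW : 2 ^ 3 ≤ Nat.card W) :
    ∃ K : Subgroup X, B ≤ K ∧ K ≤ W ∧ Nat.card K = 8 := by
  haveI : Fact (Nat.Prime 2) := ⟨Nat.prime_two⟩
  obtain ⟨n, hn⟩ := CL.PG.card_eq_pow hX B
  obtain ⟨m, hm⟩ := CL.PG.card_eq_pow hX W
  obtain ⟨K, hK, hBK⟩ := Sylow.exists_subgroup_card_pow_prime_le (G := W) 2 (n := n) (m := 3)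
    (by rw [hm] at hW ⊢; exact pow_dvd_pow 2 ((Nat.pow_le_pow_iff_right (by norm_num)).mp hW))
    (B.subgroupOf W) (by rw [← hn]; exact Nat.card_congr (Subgroup.subgroupOfEquivOfLe hBW).toEquiv)
    (by rw [hn] at hB; exact (Nat.pow_le_pow_iff_right (by norm_num)).mp hB)
  refine ⟨K.map W.subtype, ?_, Subgroup.map_subtype_le _, ?_⟩
  · rw [← Subgroup.map_subgroupOf_eq_of_le hBW]; exact Subgroup.map_mono hBK
  · rw [Subgroup.card_map_of_injective W.subtype_injective, hK]; norm_num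

theorem card_sup_zpowers_le {X : Type*} [Group X] [Finite X] {B : Subgroup X} {e : X}
    (he : e ∈ Subgroup.centralizer (B : Set X)) (he2 : e ^ 2 = 1) :
    Nat.card (B ⊔ Subgroup.zpowers e : Subgroup X) ≤ 2 * Nat.card B := by
  have h1 := CL.card_sup_mul_card_inf_of_le_normalizer (H := Subgroup.zpowers e) (K := B)
    ((Subgroup.zpowers_le.mpr he).trans (Subgroup.centralizer_le_normalizer _))
  have h2 : Nat.card (Subgroup.zpowers e) ≤ 2 := by
    rw [Nat.card_zpowers]; exact Nat.le_of_dvd (by norm_num) (orderOf_dvd_of_pow_eq_one he2)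
  have h3 : 0 < Nat.card (Subgroup.zpowers e ⊓ B : Subgroup X) := Nat.card_pos
  rw [sup_comm]
  calc _ ≤ _ := Nat.le_mul_of_pos_right _ h3
    _ = _ := h1
    _ ≤ _ := Nat.mul_le_mul_right _ h2


/-- Let X be a finite 2-group having a normal elementary abelian subgroup of order at least 32. Then (a) for any two elementary abelian subgroups A, B of X of order 8 there is a chain A = A₁, A₂, …, Aₙ = B of elementary abelian subgroups of order 8 in which consecutive members commute elementwise; and (b) every elementary abelian subgroup of X of order 4 is contained in an elementary abelian subgroup of order 8. -/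
theorem result {X : Type*} [Group X] [Finite X]
    (hX : IsPGroup 2 X) (E : Subgroup X) [E.Normal] (hE : Cfsg.IsElementaryAbelian 2 E) (hE32 : 32 ≤ Nat.card ↥E) :
    (∀ A B : Subgroup X, Cfsg.IsElementaryAbelian 2 A → Nat.card ↥A = 8 → Cfsg.IsElementaryAbelian 2 B → Nat.card ↥B = 8 →
        Relation.ReflTransGen
          (fun C D : Subgroup X => Cfsg.IsElementaryAbelian 2 C ∧ Nat.card ↥C = 8 ∧ Cfsg.IsElementaryAbelian 2 D ∧ Nat.card ↥D = 8 ∧ ⁅C, D⁆ = ⊥)
          A B) ∧
      (∀ V : Subgroup X, Cfsg.IsElementaryAbelian 2 V → Nat.card ↥V = 4 →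
        ∃ A : Subgroup X, V ≤ A ∧ Cfsg.IsElementaryAbelian 2 A ∧ Nat.card ↥A = 8) := by

  haveI : Fact (Nat.Prime 2) := ⟨Nat.prime_two⟩
  have hcomm : ∀ {W C D : Subgroup X}, IsElementaryAbelian 2 W → C ≤ W → D ≤ W → ⁅C, D⁆ = ⊥ :=
    fun hW hC hD => le_bot_iff.mp ((Subgroup.commutator_mono hC hD).trans (elemAb_commutator_eq_bot hW).le)
  refine ⟨?_, fun V hV hV4 => ?_⟩
  · have key : ∀ n : ℕ, ∀ A : Subgroup X, IsElementaryAbelian 2 A → Nat.card A = 8 →
        8 - Nat.card (E ⊓ A : Subgroup X) ≤ n → ∃ A' ≤ E, Nat.card A' = 8 ∧ Relation.ReflTransGen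
          (fun C D : Subgroup X => Cfsg.IsElementaryAbelian 2 C ∧ Nat.card ↥C = 8 ∧
            Cfsg.IsElementaryAbelian 2 D ∧ Nat.card ↥D = 8 ∧ ⁅C, D⁆ = ⊥) A A' := by
      intro n
      induction n with
      | zero =>
        intro A hA hA8 h
        have : E ⊓ A = A := Subgroup.eq_of_le_of_card_ge inf_le_right (by omega)
        exact ⟨A, inf_eq_right.mp this, hA8, Relation.ReflTransGen.refl⟩
      | succ n ih =>
        intro A hA hA8 h
        by_cases hAE : A ≤ E
        · exact ⟨A, hAE, hA8, Relation.ReflTransGen.refl⟩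
        obtain ⟨e, he, heA⟩ := SetLike.not_le_iff_exists.mp (not_le_of hX hE hE32 hA hA8.le)
        have he2 := hE.2 e he.1
        have hW : IsElementaryAbelian 2 (Subgroup.zpowers e ⊔ A) :=
          elemAb_sup (elemAb_zpowers he2) hA (Subgroup.zpowers_le.mpr he.2)
        have h4 : Nat.card (E ⊓ A : Subgroup X) ≤ 2 ^ 2 :=
          CL.PG.card_le_pow_of_lt hX (inf_lt_right.mpr hAE) hA8.le
        obtain ⟨K, hK1, hK2, hK8⟩ := exists_between hX (B := (E ⊓ A) ⊔ Subgroup.zpowers e)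
          (W := Subgroup.zpowers e ⊔ A) (sup_le (inf_le_right.trans le_sup_right) le_sup_left)
          ((card_sup_zpowers_le (Subgroup.centralizer_le (SetLike.coe_subset_coe.mpr inf_le_right) he.2)
            he2).trans (by omega))
          (hA8.ge.trans (Subgroup.card_le_of_le le_sup_right))
        have hlt : E ⊓ A < E ⊓ K := by
          refine lt_of_le_of_ne (le_inf inf_le_left (le_sup_left.trans hK1)) fun h' => heA ?_
          exact (h'.ge ⟨he.1, hK1 (Subgroup.mem_sup_right (Subgroup.mem_zpowers e))⟩).2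
        have := CL.card_lt_of_lt hlt
        obtain ⟨A', h1, h2, h3⟩ := ih K (elemAb_mono hW hK2) hK8 (by omega)
        exact ⟨A', h1, h2, h3.head ⟨hA, hA8, elemAb_mono hW hK2, hK8, hcomm hW le_sup_right hK2⟩⟩
    intro A B hA hA8 hB hB8
    obtain ⟨A', h1, h2, h3⟩ := key _ A hA hA8 le_rfl
    obtain ⟨B', h4, h5, h6⟩ := key _ B hB hB8 le_rfl
    refine (h3.tail ⟨elemAb_mono hE h1, h2, elemAb_mono hE h4, h5, hcomm hE h1 h4⟩).trans ?_
    clear hB hB8
    induction h6 using Relation.ReflTransGen.head_induction_on with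
    | refl => exact Relation.ReflTransGen.refl
    | head hAB _ ih =>
      obtain ⟨a1, a2, a3, a4, a5⟩ := hAB
      exact ih.tail ⟨a3, a4, a1, a2, by rw [Subgroup.commutator_comm, a5]⟩
  · obtain ⟨e, he, heA⟩ := SetLike.not_le_iff_exists.mp (not_le_of hX hE hE32 hV (by omega))
    have he2 := hE.2 e he.1
    refine ⟨V ⊔ Subgroup.zpowers e, le_sup_left, ?_, le_antisymm ?_ ?_⟩
    · rw [sup_comm]; exact elemAb_sup (elemAb_zpowers he2) hV (Subgroup.zpowers_le.mpr he.2)
    · exact (card_sup_zpowers_le he.2 he2).trans (by omega)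
    · exact CL.PG.pow_succ_le_card_of_lt hX (k := 2)
        (left_lt_sup.mpr fun h => heA (h (Subgroup.mem_zpowers e))) hV4.ge

end Cfsg.Agent.S1785
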