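import Cfsg.Statements.S1824
import Mathlib
import Cfsg.Agent.TECH.QPush4

set_option autoImplicit false
open Cfsg

namespace Cfsg.Agent.S1824

open CL.MSS

/-- The qrc-lemma in the form used for simple QTKE-groups. Let G be a non-abelian finite simple QTKE-group, T a Sylow 2-subgroup of G and M a maximal 2-local subgroup of G containing T. Let T ≤ M₀ ≤ M, let H be a minimal member of the set of subgroups of G with nontrivial 2-core that contain T and are not contained in M, and let V be a 2-reduced elementary abelian normal 2-subgroup of M₀ with O₂(M₀) = C_T(V). Suppose H ∩ M normalizes O²(M₀) or normalizes V. Then one of the following holds: (1) some nontrivial subgroup of O₂(M₀) is normalized by both M₀ and H; (2) V ≰ O₂(H) and q̂(M₀/C_{M₀}(V), V) ≤ 2; (3) q(M₀/C_{M₀}(V), V) ≤ 2. Here q (resp. q̂) ≤ 2 means that some subgroup of M₀ inducing a nontrivial elementary abelian 2-group A on V acts quadratically (resp. cubically) on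 V with |V : C_V(A)| ≤ |A|². -/
theorem result {G : Type*} [Group G] [Finite G] [IsSimpleGroup G]
    (hG : ¬ IsMulCommutative G) (hQ : Cfsg.IsQTKE G) (T : Sylow 2 G) (M M₀ H V : Subgroup G)
    (hM : M ∈ Cfsg.maxTwoLocalsContaining (T : Subgroup G))
    (hTM₀ : (T : Subgroup G) ≤ M₀) (hM₀M : M₀ ≤ M) (hH : H ∈ Cfsg.calHMin (T : Subgroup G) M)
    (hV : V ∈ Cfsg.calR2 M₀)
    (hR : (Cfsg.pCore 2 ↥M₀).map M₀.subtype = (T : Subgroup G) ⊓ Subgroup.centralizer (V : Set G))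
    (hI : H ⊓ M ≤ Subgroup.normalizer (Cfsg.oddGenerated M₀ : Set G) ∨
      H ⊓ M ≤ Subgroup.normalizer (V : Set G)) :
    (∃ R₀ : Subgroup G, R₀ ≠ ⊥ ∧ R₀ ≤ (Cfsg.pCore 2 ↥M₀).map M₀.subtype ∧
        M₀ ⊔ H ≤ Subgroup.normalizer (R₀ : Set G)) ∨
      (¬ V ≤ (Cfsg.pCore 2 ↥H).map H.subtype ∧ Cfsg.CubicParamLE M₀ V 2) ∨
      Cfsg.QuadParamLE M₀ V 2 := by
  have e := CL.QP.ev_of hQ.2.2 T
  obtain ⟨⟨⟨h1, h2⟩, h3⟩, h4⟩ := hH
  have h5 := mt oP_eq_bot_iff.1 h1
  have u : UniqMax (T : Subgroup G) H (H ⊓ M) := ⟨le_inf h2 hM.2,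
    lt_of_le_of_ne inf_le_left fun k => h3 (k.ge.trans inf_le_right), fun X a b =>
      le_inf b.le (by_contra fun c => b.ne (h4 X ⟨⟨fun k => h5 (le_bot_iff.1 ((oP_le_oP_of_le b.le
        ((oP_le_sylIn (sylIn_sylow T h2)).trans a)).trans (oP_eq_bot_iff.2 k).le)), a⟩, c⟩ b.le))⟩
  have sT := sylIn_sylow T hTM₀
  have hVT : V ≤ T := sT.le_of_normalized (CL.Th.elemAb_isPGroup hV.2.2.1) hV.1 (hTM₀.trans hV.2.1)
  have q := fun E => CL.QP.qrc (E := E) e (e.chP h2 h5) u hTM₀ hV.2.2.1 hVT hV.2.1 (oP_normal M₀) hR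
  rcases hI with hI | hI
  · rw [CL.QP.oddGenerated_eq] at hI
    have n := oU_normal (p := 2) M₀
    have a : pCoreOf 2 M₀ ≤ (T : Subgroup G) ⊓ secC (oU[2] M₀) (pCoreOf 2 (oU[2] M₀)) := le_inf (oP_le_sylIn sT)
      (le_secC_iff.2 ⟨(oP_le M₀).trans (le_normalizer_oP n), by
        rw [oP_eq_inf_of_normal (oU_le M₀) n, inf_comm]
        exact commutator_le_inf_of_normalizes ((oU_le M₀).trans (oP_normal M₀))
          ((oP_le M₀).trans n)⟩)
    obtain ⟨U, a1, a2, a3⟩ | b := q _ (le_normalizer_secC hI (le_normalizer_oP hI))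
      (le_antisymm (le_oP sT.pgroup.to_inf_left (inf_le_left.trans hTM₀)
        ((oU_sup_sylIn sT).ge.trans (sup_le (le_normalizer_of_commutator_le'
          ((le_secC_iff.1 inf_le_right).2.trans ((oP_le_oP_of_normal (oU_le M₀) n).trans a)))
          (le_normalizer_inf Subgroup.le_normalizer (hTM₀.trans
            (le_normalizer_secC n (le_normalizer_oP n))))))) a)
    exacts [Or.inl ⟨U, a2, a1, a3⟩, Or.inr b]
  · obtain ⟨U, a1, a2, a3⟩ | b := q _ (le_normalizer_centralizer hI) hR.symm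
    exacts [Or.inl ⟨U, a2, a1, a3⟩, Or.inr b]

end Cfsg.Agent.S1824
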