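import Cfsg.Statements.S1851
import Mathlib
import Cfsg.Agent.SIG.FStarLocal
import Cfsg.Agent.TECH.SubnP
import Cfsg.Agent.TECH.FStarPP
import Cfsg.Agent.SOLV.CoprimeSylow
import Cfsg.Agent.PLOC.ElemAb

set_option autoImplicit false
open Cfsg

namespace Cfsg.Agent.S1851


open CL.MSS CL.Th

variable {G : Type*} [Group G] [Finite G]

theorem charTwo_of_sylow_le (hE : IsOfEvenCharacteristic G) (T : Sylow 2 G) {H : Subgroup G}
    (hT : (T : Subgroup G) ≤ H) (hH : pCore 2 H ≠ ⊥) : IsPGroup 2 (CL.Comp.fstarOf H) := by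
  haveI : Fact (Nat.Prime 2) := ⟨Nat.prime_two⟩
  have hHM : H ≤ Subgroup.normalizer (pCoreOf 2 H : Set G) := le_normalizer_pcoreOf H
  have h1 : IsOfCharacteristicTwo (Subgroup.normalizer (pCoreOf 2 H : Set G)) :=
    hE _ ⟨_, pcoreOf_isPGroup H, fun h => hH (pcoreOf_eq_bot_iff.mp h), rfl⟩ ⟨T, hT.trans hHM⟩
  have h2 := CL.Comp.fstar_eq_pCore_iff_isPGroup_fstarOf.mp
    (CL.Comp.fstar_eq_pCore_iff_centralizer.mpr h1)
  refine CL.Comp.isPGroup_fstarOf_of_fstarOf_le (le_trans ?_ hT) hHM h2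
  exact (sylIn_sylow T (hT.trans hHM)).le_of_normalized h2 (CL.Comp.fstarOf_le _)
    ((hT.trans hHM).trans (CL.Comp.le_normalizer_fstarOf _))

theorem axb {p : ℕ} [Fact p.Prime] {L R : Subgroup G} (hL : ⁅L, L⁆ = L) (hR : IsPGroup p R)
    (hRL : R ≤ Subgroup.normalizer (L : Set G)) (hLR : L ≤ Subgroup.normalizer (R : Set G)) :
    ∀ U : Subgroup G, IsPGroup p U → L ≤ Subgroup.normalizer (U : Set G) →
      R ≤ Subgroup.normalizer (U : Set G) → ⁅⁅R, L⁆, U⁆ = ⊥ →
      U ⊓ Subgroup.centralizer (R : Set G) ≤ Subgroup.centralizer (L : Set G) → ⁅U, L⁆ = ⊥ := by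
  intro U
  induction U using WellFoundedLT.induction with
  | ind U ih =>
    intro hU hLU hRU h1 h2
    by_cases hb : U = ⊥
    · rw [hb, Subgroup.commutator_bot_left]
    have hlt := CL.commutator_lt_of_isPGroup hU hR hRU hb
    have h3 := ih _ hlt (hU.to_le hlt.le) (le_normalizer_commutator hLU hLR)
      (le_normalizer_commutator hRU Subgroup.le_normalizer)
      (le_bot_iff.mp (h1 ▸ Subgroup.commutator_mono le_rfl hlt.le))
      ((inf_le_inf_right _ hlt.le).trans h2)
    have h4 := Subgroup.commutator_commutator_eq_bot_of_rotate h3 h1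
    rw [Subgroup.commutator_comm L U] at h4
    refine CL.Comp.commutator_eq_bot_of_perfect hL
      (Subgroup.commutator_eq_bot_iff_le_centralizer.mpr (le_trans (le_inf ?_ ?_) h2))
    · exact commutator_le_left_of_normalizes hLU
    · exact Subgroup.commutator_eq_bot_iff_le_centralizer.mp h4

theorem perfect_of_subgroupOf {L H : Subgroup G} (h : L ≤ H)
    (hp : ⁅L.subgroupOf H, L.subgroupOf H⁆ = L.subgroupOf H) : ⁅L, L⁆ = L := by
  have := congrArg (Subgroup.map H.subtype) hp
  rwa [Subgroup.map_commutator, Subgroup.map_subgroupOf_eq_of_le h] at this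

theorem pcore_le_normalizer {L H : Subgroup G} (h : L ≤ H) (hs : (L.subgroupOf H).IsSubnormal)
    (hp : ⁅L, L⁆ = L) : pCoreOf 2 H ≤ Subgroup.normalizer (L : Set G) := by
  haveI : Fact (Nat.Prime 2) := ⟨Nat.prime_two⟩
  have := le_normalizer_presOf_of_subnormal (p := 2) h hs (pcoreOf_isPGroup H) (pcoreOf_le H)
    (le_normalizer_pcoreOf H)
  rwa [le_antisymm (presOf_le L) (perfect_le_presOf hp)] at this


/-- Let G be a non-abelian finite simple QTKE-group and T a Sylow 2-subgroup of G, and let L be a member of ℒ_f(G, T) (a member of ℒ(G, T) that lies in 𝒳 — L ≠ 1, L = O²(L), F*(L) = O₂(L) — and acts nontrivially on Ω₁(Z(O₂(L)))). Then (1) every member K of ℒ(G, T) containing L is again in ℒ_f(G, T) (a sharper form of (1) also compares the modules [Ω₁(Z(R)), L] and [Ω₁(Z(R')), K] for suitable 2-subgroups R, R'; that comparison is not included); and (2) if L is maximal under inclusion among the members of ℒ_f(G, T), then L is a maximal member of ℒ(G, T), hence a member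 of ℒ_f*(G, T). -/
theorem result {G : Type*} [Group G] [Finite G] [IsSimpleGroup G]
    (hG : ¬ IsMulCommutative G) (hQ : Cfsg.IsQTKE G) (T : Sylow 2 G) (L : Subgroup G)
    (hL : L ∈ Cfsg.calLf (T : Subgroup G)) :
    (∀ K ∈ Cfsg.calL (T : Subgroup G), L ≤ K → K ∈ Cfsg.calLf (T : Subgroup G)) ∧
    ((∀ K ∈ Cfsg.calLf (T : Subgroup G), L ≤ K → K = L) → L ∈ Cfsg.calLfMax (T : Subgroup G)) := by

  haveI : Fact (Nat.Prime 2) := ⟨Nat.prime_two⟩
  have main : ∀ K ∈ Cfsg.calL (T : Subgroup G), L ≤ K → K ∈ Cfsg.calLf (T : Subgroup G) := by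
    intro K hK hLK
    obtain ⟨⟨⟨-, hLp, hLs, -⟩, -, -⟩, ⟨hL1, -, -⟩, hLV⟩ := hL
    have hKL := hK
    obtain ⟨⟨-, hKp, hKs, -⟩, -, hKO⟩ := hK
    replace hLp := perfect_of_subgroupOf le_sup_left hLp
    replace hKp := perfect_of_subgroupOf le_sup_left hKp
    have hH := charTwo_of_sylow_le hQ.2.2 T le_sup_right hKO
    set X := L ⊔ (T : Subgroup G)
    set H := K ⊔ (T : Subgroup G)
    have hXH : X ≤ H := sup_le_sup_right hLK _
    refine ⟨hKL, ⟨fun h => hL1 (le_bot_iff.mp (h ▸ hLK)), ?_, ?_⟩, ?_⟩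
    · refine le_antisymm ((Subgroup.closure_le _).mpr fun x hx => hx.1) ?_
      refine (perfect_le_presOf (p := 2) hKp).trans (presOf_le_iff.mpr fun x hx hc => ?_)
      exact Subgroup.subset_closure ⟨hx, Nat.coprime_two_right.mp hc⟩
    · exact CL.Comp.fstar_eq_pCore_iff_isPGroup_fstarOf.mpr
        (CL.Comp.isPGroup_fstarOf_of_subnormalIn le_sup_left hKs hH)
    intro hKV
    apply hLV
    change ⁅omegaOne 2 (pCoreOf 2 K ⊓ Subgroup.centralizer (pCoreOf 2 K : Set G)), K⁆ = ⊥ at hKV
    change ⁅omegaOne 2 (pCoreOf 2 L ⊓ Subgroup.centralizer (pCoreOf 2 L : Set G)), L⁆ = ⊥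
    -- `K` centralizes `Ω₁ Z(O₂(H))`
    have hQK := pcore_le_normalizer le_sup_left hKs hKp
    have hOK : pCoreOf 2 K ≤ pCoreOf 2 H := pcoreOf_le_of_subnormal_in le_sup_left hKs
    set V := omegaOne 2 (pCoreOf 2 H ⊓ Subgroup.centralizer (pCoreOf 2 H : Set G)) with hV
    have hVe : IsElementaryAbelian 2 V := elemAb_omegaOne (comm_inf_centralizer _)
    have hVle : V ≤ pCoreOf 2 H ⊓ Subgroup.centralizer (pCoreOf 2 H : Set G) := omegaOne_le _
    have hHV : H ≤ Subgroup.normalizer (V : Set G) := (le_normalizer_pcoreOf H).trans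
      ((normalizer_le_normalizer_center _).trans (normalizer_le_normalizer_omegaOne _))
    have hVK : ⁅V, K⁆ = ⊥ := by
      refine CL.Comp.commutator_eq_bot_of_perfect hKp
        (le_bot_iff.mp (hKV ▸ Subgroup.commutator_mono ?_ le_rfl))
      have a1 : ⁅V, K⁆ ≤ V := commutator_le_left_of_normalizes (le_sup_left.trans hHV)
      have a2 : ⁅V, K⁆ ≤ K := commutator_le_right_of_normalizes ((hVle.trans inf_le_left).trans hQK)
      refine elemAb_le_omegaOne (elemAb_mono hVe a1) (le_inf ?_ ?_)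
      · exact (le_inf ((a1.trans hVle).trans inf_le_left) a2).trans (pcoreOf_inf_le le_sup_left)
      · exact ((a1.trans hVle).trans inf_le_right).trans (Subgroup.centralizer_le hOK)
    have hRL := pcore_le_normalizer le_sup_left hLs hLp
    have hOL : pCoreOf 2 L ≤ pCoreOf 2 X := pcoreOf_le_of_subnormal_in le_sup_left hLs
    have hLR : L ≤ Subgroup.normalizer (pCoreOf 2 X : Set G) := le_sup_left.trans (le_normalizer_pcoreOf X)
    have hQR : pCoreOf 2 H ≤ pCoreOf 2 X := le_pcoreOf
      (((sylIn_sylow T le_sup_right).le_of_normalized (pcoreOf_isPGroup H) (pcoreOf_le H)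
        (le_sup_right.trans (le_normalizer_pcoreOf H))).trans le_sup_right)
      (hXH.trans (le_normalizer_pcoreOf H)) (pcoreOf_isPGroup H)
    set W := omegaOne 2 (pCoreOf 2 L ⊓ Subgroup.centralizer (pCoreOf 2 L : Set G)) with hW
    have hWe : IsElementaryAbelian 2 W := elemAb_omegaOne (comm_inf_centralizer _)
    have hWle : W ≤ pCoreOf 2 L ⊓ Subgroup.centralizer (pCoreOf 2 L : Set G) := omegaOne_le _
    have hNW : Subgroup.normalizer (L : Set G) ≤ Subgroup.normalizer (W : Set G) :=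
      (normalizer_le_normalizer_pcoreOf L).trans
      ((normalizer_le_normalizer_center _).trans (normalizer_le_normalizer_omegaOne _))
    refine axb hLp (pcoreOf_isPGroup X) hRL hLR W (elemAb_isPGroup hWe)
      (Subgroup.le_normalizer.trans hNW) (hRL.trans hNW) ?_ ?_
    · refine Subgroup.commutator_eq_bot_iff_le_centralizer.mpr (le_trans ?_
        (Subgroup.le_centralizer_iff.mp (hWle.trans inf_le_right)))
      exact (le_inf (commutator_le_left_of_normalizes hLR)
        (commutator_le_right_of_normalizes hRL)).trans (pcoreOf_inf_le le_sup_left)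
    · refine le_trans ?_ ((Subgroup.commutator_eq_bot_iff_le_centralizer.mp hVK).trans
        (Subgroup.centralizer_le hLK))
      have a1 : W ⊓ Subgroup.centralizer (pCoreOf 2 X : Set G) ≤ Subgroup.centralizer (pCoreOf 2 H : Set G) :=
        inf_le_right.trans (Subgroup.centralizer_le hQR)
      refine elemAb_le_omegaOne (elemAb_inf_left hWe _) (le_inf ?_ a1)
      have := CL.Comp.inf_centralizer_fstarOf_le H
      rw [CL.Comp.fstarOf_eq_pCoreOf hH] at this
      exact (le_inf (inf_le_left.trans ((hWle.trans inf_le_left).trans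
        ((pcoreOf_le L).trans (hLK.trans le_sup_left)))) a1).trans this
  exact ⟨main, fun h => ⟨⟨hL.1, fun K hK hLK => h K (main K hK hLK) hLK⟩, hL.2⟩⟩

end Cfsg.Agent.S1851
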