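import Cfsg.Statements.S1957
import Cfsg.Agent.TECH.IsolZ
import Cfsg.Agent.TECH.CharP
import Cfsg.Agent.PLOC.PNormal
import Cfsg.Agent.SOLV.CoprimeGen

set_option autoImplicit false
set_option linter.unusedVariables false
open Cfsg

namespace Cfsg.Agent.S1957


open CL.Misc

theorem invol_eq {H : Type*} [Group H] [Finite H] [IsCyclic H] {a b : H} (ha : a * a = 1)
    (hb : b * b = 1) (ha1 : a ≠ 1) (hb1 : b ≠ 1) : a = b := by
  classical
  have := Fintype.ofFinite H
  by_contra hne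
  have h1 := IsCyclic.card_pow_eq_one_le (α := H) (n := 2) two_pos
  have h2 : ({1, a, b} : Finset H) ⊆ Finset.univ.filter (fun x : H => x ^ 2 = 1) := by
    intro x hx
    simp only [Finset.mem_insert, Finset.mem_singleton] at hx
    rcases hx with rfl | rfl | rfl <;> simp [pow_two, *]
  have h3 := Finset.card_le_card h2
  rw [Finset.card_eq_three.2 ⟨1, a, b, ha1.symm, hb1.symm, hne, rfl⟩] at h3
  omega

theorem lemB {G : Type*} [Group G] [Finite G] {u : G} (hu2 : u * u = 1) {C R : Subgroup G}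
    (hC : ∀ g ∈ C, Commute g u) (hCR : C ≤ Subgroup.normalizer (R : Set G)) (hR : IsPGroup 2 R)
    (hch : C ⊓ Subgroup.centralizer (R : Set G) ≤ R) {v : G} (hvC : v ∈ C)
    (hv : ∀ r ∈ R, v * r * v⁻¹ = r ∨ v * r * v⁻¹ = r * u) {l : G} (hl : l ∈ C)
    (hodd : Odd (orderOf (l * v * l⁻¹ * v⁻¹))) : l * v * l⁻¹ * v⁻¹ = 1 := by
  have hcu : ∀ g ∈ C, g * u * g⁻¹ = u := fun g hg => by rw [(hC g hg).eq]; group
  have hmul : ∀ a ∈ C, ∀ b ∈ C, (∀ r ∈ R, a * r * a⁻¹ = r ∨ a * r * a⁻¹ = r * u) →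
      (∀ r ∈ R, b * r * b⁻¹ = r ∨ b * r * b⁻¹ = r * u) →
      (∀ r ∈ R, a * b * r * (a * b)⁻¹ = r ∨ a * b * r * (a * b)⁻¹ = r * u) := by
    intro a ha b hb h1 h2 r hr
    have e : a * b * r * (a * b)⁻¹ = a * (b * r * b⁻¹) * a⁻¹ := by group
    have e2 : a * (r * u) * a⁻¹ = (a * r * a⁻¹) * (a * u * a⁻¹) := by group
    rw [e]
    rcases h2 r hr with h | h <;> rw [h]
    · exact h1 r hr
    · rw [e2, hcu a ha]
      rcases h1 r hr with h' | h' <;> rw [h']
      · exact Or.inr rfl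
      · left; rw [mul_assoc, hu2, mul_one]
  have hsq : ∀ a ∈ C, (∀ r ∈ R, a * r * a⁻¹ = r ∨ a * r * a⁻¹ = r * u) →
      ∀ r ∈ R, a * a * r * (a * a)⁻¹ = r := by
    intro a ha h1 r hr
    have e : a * a * r * (a * a)⁻¹ = a * (a * r * a⁻¹) * a⁻¹ := by group
    have e2 : a * (r * u) * a⁻¹ = (a * r * a⁻¹) * (a * u * a⁻¹) := by group
    rw [e]
    rcases h1 r hr with h | h
    · rw [h, h]
    · rw [h, e2, hcu a ha, h, mul_assoc, hu2, mul_one]
  have hinv : ∀ r ∈ R, v⁻¹ * r * v⁻¹⁻¹ = r ∨ v⁻¹ * r * v⁻¹⁻¹ = r * u := by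
    intro r hr
    rcases hv r hr with h | h
    · left; conv_lhs => rw [← h]
      group
    · right
      have h3 : r = v * (r * u) * v⁻¹ := by
        have e2 : v * (r * u) * v⁻¹ = (v * r * v⁻¹) * (v * u * v⁻¹) := by group
        rw [e2, h, hcu v hvC, mul_assoc, hu2, mul_one]
      conv_lhs => rw [h3]
      group
  have hconj : ∀ r ∈ R, l * v * l⁻¹ * r * (l * v * l⁻¹)⁻¹ = r ∨
      l * v * l⁻¹ * r * (l * v * l⁻¹)⁻¹ = r * u := by
    intro r hr
    have hr' : l⁻¹ * r * l ∈ R := CL.MSS.conj_mem_of_mem_normalizer' (hCR hl) hr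
    have e : l * v * l⁻¹ * r * (l * v * l⁻¹)⁻¹ = l * (v * (l⁻¹ * r * l) * v⁻¹) * l⁻¹ := by group
    rw [e]
    rcases hv _ hr' with h | h <;> rw [h]
    · left; group
    · right
      have e2 : l * (l⁻¹ * r * l * u) * l⁻¹ = r * (l * u * l⁻¹) := by group
      rw [e2, hcu l hl]
  have hlv : l * v * l⁻¹ ∈ C := mul_mem (mul_mem hl hvC) (inv_mem hl)
  set x := l * v * l⁻¹ * v⁻¹ with hx
  have hxC : x ∈ C := mul_mem hlv (inv_mem hvC)
  have h1 := hsq x hxC (hmul _ hlv _ (inv_mem hvC) hconj hinv)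
  have h2 : x * x ∈ R := hch ⟨mul_mem hxC hxC, fun r hr => by
    have := h1 r hr
    rw [mul_inv_eq_iff_eq_mul] at this
    exact this.symm⟩
  have hco : (orderOf x).Coprime 2 := (Nat.coprime_two_right).2 hodd
  have h3 : x ∈ R := CL.MSS.mem_of_pow_mem_of_coprime (p := 2) hco (k := 1) (by simpa [pow_two] using h2)
  exact CL.MSS.eq_one_of_coprime_of_mem hR hco h3

theorem four_cases {G : Type*} [Group G] {U : Subgroup G} (hU4 : IsKleinFour U) {a b x : G}
    (ha : a ∈ U) (hb : b ∈ U) (ha1 : a ≠ 1) (hb1 : b ≠ 1) (hab : a ≠ b) (hx : x ∈ U) :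
    x = 1 ∨ x = a ∨ x = b ∨ x = a * b := by
  by_contra h
  push Not at h
  obtain ⟨h1, h2, h3, h4⟩ := h
  apply h4
  have := IsKleinFour.eq_mul_of_ne_all (G := U) (x := ⟨a, ha⟩) (y := ⟨b, hb⟩) (z := ⟨x, hx⟩)
    (fun h => ha1 (congrArg Subtype.val h)) (fun h => hb1 (congrArg Subtype.val h))
    (fun h => hab (congrArg Subtype.val h)) (fun h => h1 (congrArg Subtype.val h))
    (fun h => h2 (congrArg Subtype.val h)) (fun h => h3 (congrArg Subtype.val h))
  exact congrArg Subtype.val this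

theorem lemA {G : Type*} [Group G] [Finite G]
    (P : Sylow 2 G) (U : Subgroup G) (hUP : U ≤ (P : Subgroup G))
    (hUn : (P : Subgroup G) ≤ Subgroup.normalizer (U : Set G)) (hU4 : IsKleinFour ↥U)
    (hUZ : ¬ IsCyclic ↥((P : Subgroup G) ⊓ Subgroup.centralizer ((P : Subgroup G) : Set G)) →
      U ≤ Subgroup.centralizer ((P : Subgroup G) : Set G))
    {u : G} (hu : u ∈ U) (hu1 : u ≠ 1) {R : Subgroup G} (hR : IsPGroup 2 R)
    (hRu : ∀ r ∈ R, Commute r u)
    (hCR : ∀ g : G, Commute g u → g ∈ Subgroup.normalizer (R : Set G)) {v : G} (hv : v ∈ U) :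
    ∀ r ∈ R, v * r * v⁻¹ = r ∨ v * r * v⁻¹ = r * u := by
  have hsq : ∀ a ∈ U, a * a = 1 := fun a ha =>
    congrArg Subtype.val (IsKleinFour.mul_self (G := U) ⟨a, ha⟩)
  have hinv : ∀ a ∈ U, a⁻¹ = a := fun a ha => inv_eq_of_mul_eq_one_right (hsq a ha)
  have hcomm : ∀ a ∈ U, ∀ b ∈ U, a * b = b * a := fun a ha b hb => by
    have := hinv _ (mul_mem ha hb)
    rw [mul_inv_rev, hinv a ha, hinv b hb] at this
    exact this.symm
  have hP := sylIn_top P
  -- when `P` centralizes `u`, `R ≤ P`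
  have hRP : (∀ g ∈ (P : Subgroup G), Commute g u) → R ≤ P := fun h =>
    hP.le_of_normalizes hR le_top fun g hg => hCR g (h g hg)
  by_cases hUc : U ≤ Subgroup.centralizer ((P : Subgroup G) : Set G)
  · intro r hr
    left
    have h1 := hRP fun g hg => hUc hu g hg
    rw [← hUc hv r (h1 hr)]; group
  have hcyc : IsCyclic ↥((P : Subgroup G) ⊓ Subgroup.centralizer ((P : Subgroup G) : Set G)) := by
    by_contra h; exact hUc (hUZ h)
  -- a central involution `z` of `P` in `U`
  have : (U.subgroupOf (P : Subgroup G)).Normal :=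
    (Subgroup.normal_subgroupOf_iff_le_normalizer hUP).2 hUn
  obtain ⟨z', hzU, hzc, hzo⟩ := CL.PN.exists_mem_center_orderOf_eq P.isPGroup'
    (U.subgroupOf (P : Subgroup G)) (by
      intro h
      have : (⟨u, hUP hu⟩ : (P : Subgroup G)) ∈ U.subgroupOf (P : Subgroup G) := hu
      rw [h, Subgroup.mem_bot] at this
      exact hu1 (congrArg Subtype.val this))
  set z : G := z'.1 with hz
  have hzU' : z ∈ U := hzU
  have hz1 : z ≠ 1 := fun h => by
    have : z' = 1 := Subtype.ext h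
    rw [this, orderOf_one] at hzo
    exact absurd hzo (by norm_num)
  have hzP : ∀ g ∈ (P : Subgroup G), g * z = z * g := fun g hg =>
    congrArg Subtype.val (Subgroup.mem_center_iff.1 hzc ⟨g, hg⟩)
  -- conjugation action of `P` on `U`
  have hact : ∀ g ∈ (P : Subgroup G), ∀ a ∈ U, g * a * g⁻¹ = a ∨ g * a * g⁻¹ = a * z := by
    intro g hg a ha
    by_cases ha1 : a = 1
    · left; simp [ha1]
    by_cases haz : a = z
    · left; rw [haz, hzP g hg]; group
    have hb : g * a * g⁻¹ ∈ U := CL.MSS.conj_mem_of_mem_normalizer (hUn hg) ha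
    rcases four_cases hU4 ha hzU' ha1 hz1 haz hb with h | h | h | h
    · exact absurd (by simpa using h) ha1
    · exact Or.inl h
    · exfalso; apply haz
      have : a = g⁻¹ * z * g := by rw [← h]; group
      rw [this, hzP _ (inv_mem hg)]; group
    · exact Or.inr h
  by_cases huz : u = z
  · intro r hr
    have h1 := hRP fun g hg => by rw [huz]; exact hzP g hg
    rcases hact r⁻¹ (inv_mem (h1 hr)) v hv with h | h
    · left
      have : v * r = r * v := by
        conv_rhs => rw [← h]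
        group
      rw [this]; group
    · right
      have : v * r = r * (v * z) := by rw [← h]; group
      rw [this, huz, mul_assoc, mul_assoc, hcomm z hzU' _ (inv_mem hv)]; group
  -- main case
  suffices hz' : ∀ r ∈ R, z * r * z⁻¹ = r ∨ z * r * z⁻¹ = r * u by
    intro r hr
    have hur : u * r * u⁻¹ = r := by rw [← (hRu r hr).eq]; group
    rcases four_cases hU4 hu hzU' hu1 hz1 huz hv with h | h | h | h
    · left; simp [h]
    · left; rw [h, hur]
    · rw [h]; exact hz' r hr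
    · rw [h, hcomm u hu z hzU']
      have e : z * u * r * (z * u)⁻¹ = z * (u * r * u⁻¹) * z⁻¹ := by group
      rw [e, hur]; exact hz' r hr
  intro r hr
  by_contra hcon
  push Not at hcon
  obtain ⟨hc1, hc2⟩ := hcon
  set T : Subgroup G := (P : Subgroup G) ⊓ Subgroup.centralizer {u} with hT
  have hTmem : ∀ g, g ∈ T ↔ g ∈ (P : Subgroup G) ∧ u * g = g * u := fun g => by
    simp [hT, Subgroup.mem_centralizer_iff]
  have hTP : T ≤ P := inf_le_left
  have hTi : T.relIndex P = 2 := by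
    rw [Subgroup.relIndex_eq_two_iff_exists_notMem_and]
    have : ∃ a ∈ (P : Subgroup G), a ∉ T := by
      by_contra h
      push Not at h
      apply hUc
      intro a ha g hg
      have h1 := ((hTmem g).1 (h g hg)).2
      rcases four_cases hU4 hu hzU' hu1 hz1 huz ha with h | h | h | h
      · simp [h]
      · rw [h, h1]
      · rw [h, hzP g hg]
      · rw [h, ← mul_assoc, ← h1, mul_assoc, hzP g hg, mul_assoc]
    obtain ⟨a, ha, haT⟩ := this
    refine ⟨a, ha, haT, fun b hb => ?_⟩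
    have ha' : a * u * a⁻¹ = u * z := (hact a ha u hu).resolve_left fun h => haT ((hTmem a).2 ⟨ha, by
      conv_lhs => rw [← h]
      group⟩)
    rcases hact b hb u hu with h | h
    · right
      refine (hTmem b).2 ⟨hb, ?_⟩
      conv_lhs => rw [← h]
      group
    · left
      refine (hTmem _).2 ⟨mul_mem hb ha, ?_⟩
      have e : b * a * u * (b * a)⁻¹ = u := by
        have e1 : b * a * u * (b * a)⁻¹ = b * (a * u * a⁻¹) * b⁻¹ := by group
        have e2 : b * (u * z) * b⁻¹ = (b * u * b⁻¹) * (b * z * b⁻¹) := by group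
        rw [e1, ha', e2, h, hzP b hb, mul_assoc z, mul_inv_cancel, mul_one, mul_assoc, hsq z hzU',
          mul_one]
      conv_lhs => rw [← e]
      group
  have hrT : r ∉ T := fun h => hc1 (by rw [← hzP r (hTP h)]; group)
  have hTR : T ≤ Subgroup.normalizer (R : Set G) := fun g hg => hCR g ((hTmem g).1 hg).2.symm
  have hS : IsPGroup 2 (T ⊔ R : Subgroup G) :=
    IsPGroup.to_sup_of_normal_right' (P.isPGroup'.to_le hTP) hR hTR
  obtain ⟨S, hSyl, hSle⟩ := exists_sylIn_ge hS (le_top)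
  have hTS : T ≤ S := le_sup_left.trans hSle
  have hrS : r ∈ S := hSle (Subgroup.mem_sup_right hr)
  have hTi' : T.relIndex S = 2 := by
    have h1 := hSyl.card_eq_card hP
    have h2 := Subgroup.card_mul_index (T.subgroupOf S)
    have h3 := Subgroup.card_mul_index (T.subgroupOf P)
    rw [Nat.card_congr (Subgroup.subgroupOfEquivOfLe hTS).toEquiv] at h2
    rw [Nat.card_congr (Subgroup.subgroupOfEquivOfLe hTP).toEquiv] at h3
    change Nat.card T * T.relIndex S = _ at h2
    change Nat.card T * T.relIndex P = _ at h3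
    rw [hTi, ← h1, ← h2] at h3
    exact (Nat.eq_of_mul_eq_mul_left Nat.card_pos h3).symm
  have hidx : ∀ a ∈ S, ∀ b ∈ S, a * b ∈ T ↔ (a ∈ T ↔ b ∈ T) := fun a ha b hb =>
    Subgroup.mul_mem_iff_of_index_two (H := T.subgroupOf S) hTi' (a := ⟨a, ha⟩) (b := ⟨b, hb⟩)
  have hTz : ∀ t ∈ T, t * z = z * t := fun t ht => hzP t (hTP ht)
  have hzT : z ∈ T := (hTmem z).2 ⟨hUP hzU', hcomm u hu z hzU'⟩
  set z₁ := r⁻¹ * z * r with hz₁
  have hTz₁ : ∀ t ∈ T, t * z₁ = z₁ * t := fun t ht => by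
    have h1 : r * t * r⁻¹ ∈ T := by
      rw [hidx _ (mul_mem hrS (hTS ht)) _ (inv_mem hrS), hidx _ hrS _ (hTS ht), inv_mem_iff]
      tauto
    have h2 := hTz _ h1
    calc t * z₁ = r⁻¹ * (r * t * r⁻¹ * z) * r := by rw [hz₁]; group
      _ = z₁ * t := by rw [h2, hz₁]; group
  have hrr : r * r ∈ T := by rw [hidx _ hrS _ hrS]
  have hcen : ∀ w : G, (∀ t ∈ T, t * w = w * t) → r * w = w * r → ∀ s ∈ S, s * w = w * s := by
    intro w h1 h2 s hs
    by_cases hsT : s ∈ T
    · exact h1 s hsT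
    · have h3 : s * r⁻¹ ∈ T := by
        rw [hidx _ hs _ (inv_mem hrS), inv_mem_iff]; tauto
      calc s * w = s * r⁻¹ * (r * w) := by group
        _ = w * s := by rw [h2, ← mul_assoc, h1 _ h3]; group
  set w := z₁ * z with hw
  have hwS : w ∈ S := mul_mem (mul_mem (mul_mem (inv_mem hrS) (hTS hzT)) hrS) (hTS hzT)
  have hwc : ∀ s ∈ S, s * w = w * s := hcen w (fun t ht => by
    rw [hw, ← mul_assoc, hTz₁ t ht, mul_assoc z₁, hTz t ht, ← mul_assoc]) (by
    have h1 := hTz _ hrr
    have h2 := hTz₁ _ hzT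
    calc r * w = z * r * z := by rw [hw, hz₁]; group
      _ = z * r⁻¹ * (r * r * z) := by group
      _ = z * z₁ * r := by rw [h1, hz₁]; group
      _ = w * r := by rw [h2, hw])
  have huS : u ∈ S := hTS ((hTmem u).2 ⟨hUP hu, rfl⟩)
  have huc : ∀ s ∈ S, s * u = u * s := hcen u (fun t ht => ((hTmem t).1 ht).2.symm) (hRu r hr).eq
  have hzz := hsq z hzU'
  have hww : w * w = 1 := by
    have h2 := hTz₁ _ hzT
    calc w * w = z₁ * (z * z₁) * z := by rw [hw]; group
      _ = r⁻¹ * z * z * r * (z * z) := by rw [h2, hz₁]; group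
      _ = 1 := by rw [mul_assoc _ z z, hzz]; group
  have hzr : z * r * z⁻¹ = r * w := by rw [hw, hz₁, hinv z hzU']; group
  have hw1 : w ≠ 1 := fun h => hc1 (by rw [hzr, h, mul_one])
  obtain ⟨g, -, hg⟩ := hP.exists_conj_eq hSyl
  have hmem : ∀ a ∈ S, (∀ s ∈ S, s * a = a * s) → g * a * g⁻¹ ∈
      (P : Subgroup G) ⊓ Subgroup.centralizer ((P : Subgroup G) : Set G) := fun a ha hc => by
    refine ⟨hg ▸ conj_mem_map_conj g ha, fun s hs => ?_⟩
    have h1 : g⁻¹ * s * g ∈ S := by
      rw [← mem_map_conj, hg]; exact hs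
    calc s * (g * a * g⁻¹) = g * (g⁻¹ * s * g * a) * g⁻¹ := by group
      _ = g * a * g⁻¹ * s := by rw [hc _ h1]; group
  have hsq' : ∀ a : G, a * a = 1 → g * a * g⁻¹ * (g * a * g⁻¹) = 1 := fun a h => by
    calc g * a * g⁻¹ * (g * a * g⁻¹) = g * (a * a) * g⁻¹ := by group
      _ = 1 := by rw [h]; group
  have hfin := invol_eq (a := (⟨_, hmem w hwS hwc⟩ :
      ↥((P : Subgroup G) ⊓ Subgroup.centralizer ((P : Subgroup G) : Set G))))
    (b := ⟨_, hmem u huS huc⟩) (Subtype.ext (hsq' w hww)) (Subtype.ext (hsq' u (hsq u hu)))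
    (fun h => hw1 (by simpa using congrArg Subtype.val h))
    (fun h => hu1 (by simpa using congrArg Subtype.val h))
  have : w = u := by simpa using congrArg Subtype.val hfin
  exact hc2 (by rw [hzr, this])


/-- Let `G` be a finite non-abelian simple group in which every local subgroup is solvable and which is of characteristic 2 type. Let `P` be a Sylow 2-subgroup of `G` and `U` a normal subgroup of `P` that is a four-group, with `U` central in `P` if the centre of `P` is not cyclic. Then `U` centralizes every subgroup of odd order of `G` that it normalizes. -/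
theorem result {G : Type*} [Group G] [Finite G]
    [IsSimpleGroup G] (hna : ¬ IsMulCommutative G) (hN : Cfsg.IsNGroup G) (h2 : Cfsg.IsCharacteristicTwoType G)
    (P : Sylow 2 G) (U : Subgroup G) (hUP : U ≤ (P : Subgroup G)) (hUn : (P : Subgroup G) ≤ Subgroup.normalizer (U : Set G))
    (hU4 : IsKleinFour ↥U)
    (hUZ : ¬ IsCyclic ↥((P : Subgroup G) ⊓ Subgroup.centralizer ((P : Subgroup G) : Set G)) →
      U ≤ Subgroup.centralizer ((P : Subgroup G) : Set G))
    (K : Subgroup G) (hK : Odd (Nat.card K)) (hUK : U ≤ Subgroup.normalizer (K : Set G)) :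
    U ≤ Subgroup.centralizer (K : Set G) := by

  have hsq : ∀ a ∈ U, a * a = 1 := fun a ha =>
    congrArg Subtype.val (IsKleinFour.mul_self (G := U) ⟨a, ha⟩)
  have := IsKleinFour.isMulCommutative (G := U)
  rw [Subgroup.le_centralizer_iff]
  refine CL.coprime_le_of_forall_centralizer_le U K _ IsKleinFour.not_isCyclic hUK ?_ ?_
  · rw [IsKleinFour.card_four]
    exact (Nat.coprime_two_left.2 hK).pow_left 2
  intro u hu hu1 l hl v hv
  set C := Subgroup.normalizer (Subgroup.zpowers u : Set G) with hC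
  have hou : orderOf u = 2 := orderOf_eq_prime (by rw [pow_two, hsq u hu]) hu1
  have hmemC : ∀ g, g ∈ C ↔ Commute g u := fun g => by
    constructor
    · intro hg
      have h1 : g * u * g⁻¹ ∈ Subgroup.zpowers u :=
        CL.MSS.conj_mem_of_mem_normalizer hg (Subgroup.mem_zpowers u)
      classical
      rw [mem_zpowers_iff_mem_range_orderOf, hou] at h1
      obtain ⟨k, hk, hk'⟩ := Finset.mem_image.1 h1
      have hk2 : k < 2 := Finset.mem_range.1 hk
      interval_cases k
      · exact absurd (by simpa using hk'.symm) hu1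
      · rw [pow_one] at hk'
        exact (mul_inv_eq_iff_eq_mul.1 hk'.symm)
    · intro hg
      apply Subgroup.centralizer_le_normalizer
      rw [CL.Isol.centralizer_zpowers, Subgroup.mem_centralizer_singleton_iff]
      exact hg.eq
  have hch := CL.MSS.charP_iff.1 (h2.2 (Subgroup.zpowers u)
    (isPGroup_zpowers_of_orderOf (n := 1) (by rw [hou]; rfl)) (by simpa using hu1))
  rw [← hC] at hch
  have hA := lemA P U hUP hUn hU4 hUZ hu hu1 (CL.MSS.pcoreOf_isPGroup (p := 2) C)
    (fun r hr => (hmemC r).1 (CL.MSS.pcoreOf_le C hr))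
    (fun g hg => CL.MSS.le_normalizer_pcoreOf C ((hmemC g).2 hg)) hv
  have hlC : l ∈ C := (hmemC l).2 (Subgroup.mem_centralizer_singleton_iff.1 hl.2)
  have hB := lemB (hsq u hu) (fun g hg => (hmemC g).1 hg) (CL.MSS.le_normalizer_pcoreOf C)
    (CL.MSS.pcoreOf_isPGroup (p := 2) C) hch ((hmemC v).2 (setLike_mul_comm hv hu)) hA hlC (by
      have h1 : l * v * l⁻¹ * v⁻¹ ∈ K := by
        have := CL.MSS.conj_mem_of_mem_normalizer (hUK hv) (inv_mem hl.1)
        rw [mul_assoc, mul_assoc, ← mul_assoc v]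
        exact mul_mem hl.1 this
      exact hK.of_dvd_nat (Subgroup.orderOf_dvd_natCard K h1))
  calc v * l = (l * v * l⁻¹ * v⁻¹) * (v * l) := by rw [hB, one_mul]
    _ = l * v := by group

end Cfsg.Agent.S1957
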