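import Cfsg.Statements.S1961
import Cfsg.Agent.TECH.CFControl

set_option autoImplicit false
open Cfsg

namespace Cfsg.Agent.S1961

/-- Local-to-global control of strong fusion through well-placed subgroups. Let p be a prime, G a finite group with Sylow p-subgroup S, and W a conjugacy functor for p on G. If W controls strong fusion in N_G(T) for every nonidentity subgroup T of S that is well placed in S with respect to W, then W controls strong fusion in G. -/
theorem result {G : Type*} [Group G] [Finite G] {p : ℕ} [Fact p.Prime] (S : Sylow p G) (W : Subgroup G → Subgroup G) (hW : Cfsg.IsConjugacyFunctor p W) (hloc : ∀ T : Subgroup G, T ≠ ⊥ → Cfsg.IsWellPlaced p W (S : Subgroup G) T → Cfsg.ControlsStrongFusionIn p W (Subgroup.normalizer ((T : Subgroup G) : Set G))) : Cfsg.ControlsStrongFusionIn p W ⊤ := by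
  have hS := CL.MSS.sylIn_top S
  rw [CL.CF.ctlFus_iff_fam]
  exact CL.CF.fus_local_global hS (by rintro _ rfl; exact hW) (CL.CF.goodFamily_wellPlaced hW hS)
    fun U hU h1 => CL.CF.ctlFus_iff_fam.1 (hloc U h1 hU)

end Cfsg.Agent.S1961
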