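import Cfsg.Statements.S1966
import Cfsg.Agent.TECH.CFControl
import Cfsg.Agent.SOLV.Core

set_option autoImplicit false
open Cfsg

namespace Cfsg.Agent.S1966

/-- Let p be a prime, G a finite group with Sylow p-subgroup S and 𝓕 a conjugation family for S in G. Then the members of 𝓕 containing O_p(G) still form a conjugation family for S in G. -/
theorem result {G : Type*} [Group G] [Finite G] {p : ℕ} [Fact p.Prime] (S : Sylow p G) (𝓕 : Set (Subgroup G)) (h : Cfsg.IsConjugationFamily 𝓕 (S : Subgroup G)) : Cfsg.IsConjugationFamily {T : Subgroup G | T ∈ 𝓕 ∧ Cfsg.pCore p G ≤ T} (S : Subgroup G) := by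
  rw [CL.CF.isConjugationFamily_iff] at h ⊢
  refine ⟨fun T hT => h.1 T hT.1, fun A g hA h1 h2 => ?_⟩
  have hP : Cfsg.pCore p G ≤ (S : Subgroup G) := (CL.isPGroup_pCore p G).le_sylow_of_normal S
  have := h.2 (A ∪ Cfsg.pCore p G) g (hA.mono Set.subset_union_left) (Set.union_subset h1 hP) (by
    rw [CL.CF.cjS, Set.image_union]
    refine Set.union_subset h2 ?_
    change CL.CF.cjS g⁻¹ (Cfsg.pCore p G : Set G) ⊆ _
    rw [CL.CF.cjS_coe, CL.MSS.cj_eq_of_normal]
    exact hP)
  exact (this.restrict (Cfsg.pCore p G) Set.subset_union_right).mono Set.subset_union_left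

end Cfsg.Agent.S1966
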