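import Cfsg.Statements.S1967
import Cfsg.Agent.TECH.CFControl

set_option autoImplicit false
open Cfsg

namespace Cfsg.Agent.S1967

/-- Let p be a prime, G a finite group with Sylow p-subgroup S and W a conjugacy functor for p on G. Then W controls strong fusion in G if and only if, whenever T ≤ S and g ∈ G satisfy gTg⁻¹ ≤ S, one can write g = n c with n ∈ N_G(W(S)) and c ∈ C_G(T). -/
theorem result {G : Type*} [Group G] [Finite G] {p : ℕ} [Fact p.Prime] (S : Sylow p G) (W : Subgroup G → Subgroup G) (hW : Cfsg.IsConjugacyFunctor p W) : Cfsg.ControlsStrongFusionIn p W ⊤ ↔ ∀ (T : Subgroup G) (g : G), T ≤ (S : Subgroup G) → T.map (MulAut.conj g).toMonoidHom ≤ (S : Subgroup G) → ∃ n ∈ Subgroup.normalizer ((W (S : Subgroup G) : Subgroup G) : Set G), ∃ c ∈ Subgroup.centralizer (T : Set G), g = n * c := by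
  rw [CL.CF.ctlFus_iff_fam, CL.CF.famFus_iff (by rintro _ rfl; exact hW) (CL.MSS.sylIn_top S),
    CL.CF.nrm_singleton, CL.CF.fusCtl_singleton_iff, top_inf_eq]
  constructor
  · intro h T g h1 h2
    obtain ⟨x, hx, e⟩ := h g (Subgroup.mem_top g) T h1 h2
    refine ⟨x, hx, x⁻¹ * g, fun a ha => ?_, by group⟩
    calc a * (x⁻¹ * g) = x⁻¹ * (x * a * x⁻¹) * g := by group
      _ = x⁻¹ * (g * a * g⁻¹) * g := by rw [e a ha]
      _ = x⁻¹ * g * a := by group
  · intro h g _ A h1 h2
    obtain ⟨n, hn, c, hc, rfl⟩ := h (Subgroup.closure A) g ((Subgroup.closure_le _).2 h1)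
      (CL.CF.cj_closure_le h2)
    refine ⟨n, hn, fun a ha => ?_⟩
    have := hc a (Subgroup.subset_closure ha)
    calc n * a * n⁻¹ = n * (a * c) * c⁻¹ * n⁻¹ := by group
      _ = n * (c * a) * c⁻¹ * n⁻¹ := by rw [this]
      _ = n * c * a * (n * c)⁻¹ := by group

end Cfsg.Agent.S1967
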