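import Cfsg.Statements.S1970
import Cfsg.Agent.TECH.CFMinTr

set_option autoImplicit false
universe u
open Cfsg

namespace Cfsg.Agent.S1970

universe v

open Subgroup Cfsg CL.CF in
theorem aux {H : Type v} [Group H] [Finite H] {p : ℕ} [Fact p.Prime]
    {W : ∀ (Q : Type v) [Group Q], Subgroup Q}
    (h𝓦 : ∀ W' ∈ ({W} : Set (∀ (Q : Type v) [Group Q], Subgroup Q)), IsCharPFunctor.{v} p W')
    (ih : PSec (fun H _ => GTr p {W} H) H)
    (h : Con p H → ∀ T : Sylow p H, pCore p H ⊓ commutator H = pCore p H ⊓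
      ⁅normalizer ((inducedFunctor W (T : Subgroup H) : Subgroup H) : Set H),
        normalizer ((inducedFunctor W (T : Subgroup H) : Subgroup H) : Set H)⁆) : GTr p {W} H := by
  by_contra hc
  obtain ⟨T⟩ : Nonempty (Sylow p H) := inferInstance
  obtain ⟨h1, -, -, h2, -⟩ := min_counter_tr h𝓦 (Set.singleton_nonempty W) ih hc
    (CL.MSS.sylIn_top T) rfl rfl
  have h3 := h h1 T
  rw [commutator_def] at h3
  rw [h3, iFam_singleton, nrm_singleton, top_inf_eq] at h2
  exact h2 ((inf_le_inf_right _ (CL.pCore_le_sylow T)).trans (le_focJoin (Set.mem_singleton _) _))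


/-- Let p be a prime, G a finite group and W an isomorphism-invariant p-group functor (W assigns to every group Q a subgroup W(Q), nontrivial whenever Q is a nontrivial finite p-group, and every isomorphism from a finite p-group Q onto a group R carries W(Q) onto W(R)). Suppose that for every section G* = K/R of G with C_{G*}(O_p(G*)) ≤ O_p(G*) and every Sylow p-subgroup S* of G*, one has O_p(G*) ∩ (G*)' = O_p(G*) ∩ (N_{G*}(W(S*)))'. Then W controls transfer in every section G* of G: S* ∩ (G*)' = S* ∩ (N_{G*}(W(S*)))' for a Sylow p-subgroup S* of G*. -/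
theorem result {G : Type u} [Group G] [Finite G] {p : ℕ} [Fact p.Prime] (W : ∀ (Q : Type u) [Group Q], Subgroup Q) (hW : Cfsg.IsCharPFunctor.{u} p W) (hloc : ∀ (K R : Subgroup G) [hR : (R.subgroupOf K).Normal], Subgroup.centralizer ((Cfsg.pCore p (↥K ⧸ R.subgroupOf K) : Subgroup (↥K ⧸ R.subgroupOf K)) : Set (↥K ⧸ R.subgroupOf K)) ≤ Cfsg.pCore p (↥K ⧸ R.subgroupOf K) → ∀ T : Sylow p (↥K ⧸ R.subgroupOf K), Cfsg.pCore p (↥K ⧸ R.subgroupOf K) ⊓ commutator (↥K ⧸ R.subgroupOf K) = Cfsg.pCore p (↥K ⧸ R.subgroupOf K) ⊓ ⁅Subgroup.normalizer ((Cfsg.inducedFunctor (G := (↥K ⧸ R.subgroupOf K)) W ((T : Subgroup (↥K ⧸ R.subgroupOf K))) : Subgroup (↥K ⧸ R.subgroupOf K)) : Set (↥K ⧸ R.subgroupOf K)), Subgroup.normalizer ((Cfsg.inducedFunctor (G := (↥K ⧸ R.subgroupOf K)) W ((T : Subgroup (↥K ⧸ R.subgroupOf K))) : Subgroup (↥K ⧸ R.subgroupOf K)) : Set (↥K ⧸ R.subgroupOf K))⁆) : ∀ (K R : Subgroup G) [hR : (R.subgroupOf K).Normal], Cfsg.ControlsTransferIn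 p (Cfsg.inducedFunctor (G := (↥K ⧸ R.subgroupOf K)) W) ⊤ := by
  have h𝓦 : ∀ W' ∈ ({W} : Set (∀ (Q : Type u) [Group Q], Subgroup Q)), Cfsg.IsCharPFunctor.{u} p W' := by
    simpa using hW
  intro K R hR
  exact CL.CF.gTr_singleton_iff_ctl.1 ((CL.CF.sec_induction (CL.CF.isoInv_gTr h𝓦)
    fun K R _ ih => aux h𝓦 ih (hloc K R)).subquot K R)

end Cfsg.Agent.S1970
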