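import Cfsg.Statements.S1986
import Cfsg.Agent.TECH.CFWeak

set_option autoImplicit false
universe u
open Cfsg

namespace Cfsg.Agent.S1986

/-- Let p be a prime, G a finite group with Sylow p-subgroup S, K the lower K-infinity subgroup of S, and Z the subgroup of p-th powers of elements of Z(S). Then every element of Z commuting with all of N_G(K) is weakly closed in S with respect to G, and every subgroup of Z that is normal in N_G(K) is weakly closed in S with respect to G. -/
theorem result {G : Type u} [Group G] [Finite G] {p : ℕ} [Fact p.Prime] (S : Sylow p G) (Z : Subgroup G) (hZ : Z = Subgroup.closure ((fun z : G => z ^ p) '' (((S : Subgroup G) ⊓ Subgroup.centralizer (((S : Subgroup G) : Subgroup G) : Set G) : Subgroup G) : Set G))) : (∀ x ∈ Z ⊓ Subgroup.centralizer ((Subgroup.normalizer ((Cfsg.inducedFunctor Cfsg.kInfLower (S : Subgroup G) : Subgroup G) : Set G) : Subgroup G) : Set G), ∀ g : G, g * x * g⁻¹ ∈ (S : Subgroup G) → g * x * g⁻¹ = x) ∧ ∀ A : Subgroup G, A ≤ Z → Subgroup.normalizer ((Cfsg.inducedFunctor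 Cfsg.kInfLower (S : Subgroup G) : Subgroup G) : Set G) ≤ Subgroup.normalizer ((A : Subgroup G) : Set G) → Cfsg.IsWeaklyClosed A (S : Subgroup G) := by
  have h : ∀ A : Set G, A ⊆ Z → Subgroup.normalizer
      ((Cfsg.inducedFunctor Cfsg.kInfLower (S : Subgroup G) : Subgroup G) : Set G) ≤
      Subgroup.normalizer A → CL.CF.WCl A S ⊤ := fun A h1 h2 =>
    CL.CF.isKInf_lower.wcl_pow
      (CL.MSS.sylIn_top S) (h1.trans (hZ ▸ CL.CF.closure_pow_center _ p)) (inf_le_right.trans h2)
  refine ⟨fun x hx g hg => (h {x} (Set.singleton_subset_iff.2 hx.1) fun y hy => ?_).conj_eq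
    trivial hg, fun A h1 h2 => (h A h1 h2).isWeaklyClosed (h1.trans ?_)⟩
  · rw [Subgroup.normalizer_singleton]
    exact Subgroup.mem_centralizer_singleton_iff.2 (hx.2 y hy)
  · rw [hZ, Subgroup.closure_le]
    rintro _ ⟨z, hz, rfl⟩
    exact pow_mem hz.1 p

end Cfsg.Agent.S1986
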