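import Cfsg.Statements.S1989
import Cfsg.Agent.TECH.CFQd

set_option autoImplicit false
universe u
open Cfsg

namespace Cfsg.Agent.S1989

theorem aux1 {H : Type u} [Group H] [Finite H] {p : ℕ} [Fact p.Prime]
    (h : ∀ T : Sylow p H, Cfsg.ControlsStrongFusion p
      (Cfsg.inducedFunctor Cfsg.kInfLower (T : Subgroup H))) : IsEmpty (H ≃* Cfsg.qd p) := by
  obtain ⟨T⟩ : Nonempty (Sylow p H) := inferInstance
  exact ⟨fun e => CL.CF.not_gFus_of_equiv_qd (CL.CF.isKInf_lower.singleton p) e
    ((CL.CF.gFus_singleton_iff (CL.CF.isKInf_lower.isCharPFunctor p) (CL.MSS.sylIn_top T)).2 (h T))⟩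

theorem aux2 {H : Type u} [Group H] [Finite H] {p : ℕ} [Fact p.Prime]
    (h : CL.CF.GFus p {Cfsg.kInfLower} H) (T : Sylow p H) :
    Cfsg.ControlsStrongFusion p (Cfsg.inducedFunctor Cfsg.kInfLower (T : Subgroup H)) :=
  (CL.CF.gFus_singleton_iff (CL.CF.isKInf_lower.isCharPFunctor p) (CL.MSS.sylIn_top T)).1 h


/-- Let p be an odd prime and G a finite group. Then Qd(p) (the natural semidirect product of an elementary abelian group of order p² by SL₂(p)) is not involved in G if and only if, in every section K/R of G and for every Sylow p-subgroup T of K/R, the lower K-infinity subgroup of T controls strong fusion in K/R. -/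
theorem result {G : Type u} [Group G] [Finite G] {p : ℕ} [Fact p.Prime] (hp : p ≠ 2) : ¬ Cfsg.Involves ↥(Cfsg.qd p) G ↔ ∀ (K R : Subgroup G) [hR : (R.subgroupOf K).Normal], ∀ T : Sylow p (↥K ⧸ R.subgroupOf K), Cfsg.ControlsStrongFusion p (Cfsg.inducedFunctor (G := (↥K ⧸ R.subgroupOf K)) Cfsg.kInfLower (T : Subgroup (↥K ⧸ R.subgroupOf K))) := by
  exact ⟨fun h K R _ T => aux2 ((CL.CF.isKInf_lower.gFus
      (CL.CF.allSec_pStable_of_not_involves hp h)).subquot K R) T,
    fun h ⟨K, R, _, ⟨e⟩⟩ => (aux1 (h K R)).false e⟩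

end Cfsg.Agent.S1989
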