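import Cfsg.Statements.S1992
import Cfsg.Agent.TECH.CFNPC
import Cfsg.Agent.CHAR.Burnside
import Cfsg.Agent.SOLV.MinNormal

set_option autoImplicit false
open Cfsg

namespace Cfsg.Agent.S1992

/-- Let G be a finite group in which, for every prime q dividing the order of G, every Sylow q-subgroup is its own normalizer. Then the order of G is a power of a single prime (G is a q-group for some prime q; for G trivial any prime works). -/
theorem result {G : Type*} [Group G] [Finite G] (h : ∀ q : ℕ, q.Prime → q ∣ Nat.card G → ∀ Q : Sylow q G, Subgroup.normalizer ((Q : Subgroup G) : Set G) = Q) : ∃ q : ℕ, q.Prime ∧ IsPGroup q G := by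
  rcases subsingleton_or_nontrivial G with h0 | h0
  · exact ⟨2, Nat.prime_two, fun g => ⟨0, Subsingleton.elim _ _⟩⟩
  have h1 : ∃ N : Subgroup G, N.Normal ∧ N.index.Prime := by
    by_cases h5 : ∃ p : ℕ, p.Prime ∧ p ∣ Nat.card G ∧ 5 ≤ p
    · obtain ⟨p, hp, hd, h5⟩ := h5
      have := Fact.mk hp
      obtain ⟨S⟩ : Nonempty (Sylow p G) := inferInstance
      obtain ⟨N, k1, -, k2⟩ := CL.Tr.exists_normal_index_prime_of_pResidual_ne_top
        (CL.CF.pResidual_ne_top_of_quiet_five h5 S
          ((CL.MSS.sylIn_top S).ne_bot (by rwa [Subgroup.card_top])) fun g hg hc => by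
            rw [h p hp hd S] at hg
            rw [CL.MSS.eq_one_of_coprime_of_mem S.isPGroup' hc hg]
            exact one_mem _)
      exact ⟨N, k1, k2 ▸ hp⟩
    · have := CL.Char.isSolvable_of_primes_subset_pair (G := G) Nat.prime_two Nat.prime_three
        fun r hr hd => by
          have k1 : r < 5 := by
            by_contra k
            exact h5 ⟨r, hr, hd, by omega⟩
          have k2 := hr.two_le
          interval_cases r
          · exact Or.inl rfl
          · exact Or.inr rfl
          · exact absurd hr (by decide)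
      exact CL.exists_normal_index_prime G
  obtain ⟨N, hN, hq⟩ := h1
  have := Fact.mk hq
  refine ⟨N.index, hq, CL.isPGroup_iff_isPiNum.2 fun r hr hd => ?_⟩
  by_contra hne
  have := Fact.mk hr
  obtain ⟨R⟩ : Nonempty (Sylow r G) := inferInstance
  have k1 : (R : Subgroup G) ≤ N := CL.le_of_coprime_index
    (CL.coprime_card_of_isPGroup R.isPGroup' ((Nat.coprime_primes hq hr).2 (Ne.symm hne))).symm
  have k2 := ((CL.MSS.sylIn_top R).of_le k1 le_top).frattini_sup le_top
    Subgroup.le_normalizer_of_normal
  rw [top_inf_eq, h r hr hd R, sup_eq_left.2 k1] at k2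
  rw [k2, Subgroup.index_top] at hq
  exact Nat.not_prime_one hq

end Cfsg.Agent.S1992
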