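import Cfsg.Statements.S2000
import Cfsg.Agent.TECH.FFPair

set_option autoImplicit false
universe u
open Cfsg

namespace Cfsg.Agent.S2000

/-- Let p be a prime and G a finite group. Then Qd(p) (the natural semidirect product of an elementary abelian group of order p² by SL₂(p)) is not involved in G if and only if there is a set 𝓦 of isomorphism-invariant p-group functors (each nontrivial on nontrivial finite p-groups and carried onto W(R) by every isomorphism from a finite p-group Q onto R, hence with characteristic values on finite p-groups) whose induced conjugacy functors control strong fusion in every section of G. -/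
theorem result {G : Type u} [Group G] [Finite G] {p : ℕ} [Fact p.Prime] : ¬ Cfsg.Involves ↥(Cfsg.qd p) G ↔ ∃ 𝓦 : Set (∀ (Q : Type u) [Group Q], Subgroup Q), (∀ W ∈ 𝓦, Cfsg.IsCharPFunctor.{u} p W) ∧ ∀ (K R : Subgroup G) [hR : (R.subgroupOf K).Normal], Cfsg.FamilyControlsStrongFusionIn p ((fun W => Cfsg.inducedFunctor (G := (↥K ⧸ R.subgroupOf K)) W) '' 𝓦) ⊤ := by
  exact ⟨fun h => ⟨_, CL.CF.isCharPFunctor_pair, fun K R _ =>
    (CL.CF.allSec_gFus_pair h).subquot K R⟩,
    fun ⟨_, h1, h2⟩ ⟨K, R, _, ⟨e⟩⟩ => CL.CF.not_gFus_of_equiv_qd h1 e (h2 K R)⟩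

end Cfsg.Agent.S2000
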