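import Cfsg.Statements.S2009


set_option autoImplicit false
open Cfsg

namespace Cfsg.Agent.S2009

theorem inv_of_fpf {H : Type*} [Group H] [Finite H] (N : Subgroup H) [hNn : N.Normal] (e : H)
    (he : e * e = 1) (h : ∀ n ∈ N, e * n = n * e → n = 1) : ∀ n ∈ N, e * n * e⁻¹ = n⁻¹ := by
  let f : N → N := fun n => ⟨(n : H)⁻¹ * (e * n * e⁻¹), N.mul_mem (N.inv_mem n.2)
    (hNn.conj_mem _ n.2 e)⟩
  have hf : Function.Injective f := by
    intro a b hab
    have h1 : (a : H)⁻¹ * (e * a * e⁻¹) = (b : H)⁻¹ * (e * b * e⁻¹) := congrArg Subtype.val hab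
    have h2 : e * ((b : H) * (a : H)⁻¹) = (b * (a : H)⁻¹) * e := by
      calc e * ((b : H) * (a : H)⁻¹)
          = b * ((b : H)⁻¹ * (e * b * e⁻¹)) * (e * a * e⁻¹)⁻¹ * e := by group
        _ = b * ((a : H)⁻¹ * (e * a * e⁻¹)) * (e * a * e⁻¹)⁻¹ * e := by rw [h1]
        _ = _ := by group
    have := h _ (N.mul_mem b.2 (N.inv_mem a.2)) h2
    exact Subtype.ext (mul_inv_eq_one.1 this).symm
  have hs := Finite.injective_iff_surjective.1 hf
  intro n hn
  obtain ⟨m, hm⟩ := hs ⟨n, hn⟩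
  have hm' : (m : H)⁻¹ * (e * m * e⁻¹) = n := congrArg Subtype.val hm
  rw [← hm']
  have h2 : e⁻¹ * e⁻¹ = 1 := by rw [← mul_inv_rev, he, inv_one]
  have hei : e⁻¹ = e := inv_eq_of_mul_eq_one_right he
  calc e * ((m : H)⁻¹ * (e * m * e⁻¹)) * e⁻¹ = e * (m : H)⁻¹ * e * m * (e⁻¹ * e⁻¹) := by group
    _ = e * (m : H)⁻¹ * e⁻¹ * m := by rw [h2, mul_one, hei]
    _ = _ := by group

/-- Let H be a finite group and z an involution such that every proper normal subgroup of H meets the centralizer of z trivially, and suppose z lies in a Klein four-subgroup E of H all three of whose involutions are conjugate to z in H. Then H is simple. -/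
theorem result {H : Type*} [Group H] [Finite H] (z : H) (hz : orderOf z = 2) (hN : ∀ N : Subgroup H, N.Normal → N ≠ ⊤ → N ⊓ Subgroup.centralizer ({z} : Set H) = ⊥) (E : Subgroup H) (hE : IsKleinFour ↥E) (hzE : z ∈ E) (hc : ∀ e ∈ E, e ≠ 1 → IsConj z e) : IsSimpleGroup H := by
  have hz1 : z ≠ 1 := by rintro rfl; simp at hz
  have : Nontrivial H := ⟨⟨z, 1, hz1⟩⟩
  refine ⟨fun N hNn => ?_⟩
  by_cases hT : N = ⊤
  · exact Or.inr hT
  left
  have h0 := hN N hNn hT
  have key : ∀ e ∈ E, e ≠ 1 → ∀ n ∈ N, e * n = n * e → n = 1 := by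
    intro e he he1 n hn hen
    obtain ⟨c, hc⟩ := isConj_iff.1 (hc e he he1)
    have : c⁻¹ * n * c ∈ N ⊓ Subgroup.centralizer ({z} : Set H) := by
      refine Subgroup.mem_inf.2 ⟨by simpa using hNn.conj_mem _ hn c⁻¹, ?_⟩
      rw [Subgroup.mem_centralizer_iff]
      intro y hy
      rw [Set.mem_singleton_iff] at hy
      rw [hy]
      rw [← hc] at hen
      calc z * (c⁻¹ * n * c) = c⁻¹ * (c * z * c⁻¹ * n) * c := by group
        _ = c⁻¹ * (n * (c * z * c⁻¹)) * c := by rw [hen]
        _ = _ := by group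
    rw [h0, Subgroup.mem_bot] at this
    calc n = c * (c⁻¹ * n * c) * c⁻¹ := by group
      _ = 1 := by rw [this]; group
  have hsq : ∀ e ∈ E, e * e = 1 := fun e he =>
    congrArg Subtype.val (IsKleinFour.mul_self (⟨e, he⟩ : E))
  obtain ⟨w, hw1, hwz⟩ : ∃ w : E, w ≠ 1 ∧ w ≠ ⟨z, hzE⟩ := by
    by_contra hcon
    push Not at hcon
    have h4 : Nat.card E = 4 := IsKleinFour.card_four
    have : Nat.card E ≤ Nat.card Bool := by
      classical
      refine Nat.card_le_card_of_injective (fun w : E => decide (w = 1)) ?_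
      intro a b hab
      by_cases ha : a = 1
      · have : b = 1 := by simpa [ha] using hab
        rw [ha, this]
      · have hb : b ≠ 1 := by simpa [ha] using hab
        rw [hcon a ha, hcon b hb]
    rw [h4] at this
    simp at this
  have hw1' : (w : H) ≠ 1 := fun h => hw1 (Subtype.ext h)
  have hzw : z * w ≠ 1 := by
    intro h
    apply hwz
    apply Subtype.ext
    calc (w : H) = (z * z) * w := by rw [hsq z hzE]; group
      _ = z * (z * w) := by group
      _ = z := by rw [h]; group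
  rw [eq_bot_iff]
  intro n hn
  rw [Subgroup.mem_bot]
  apply key (z * w) (E.mul_mem hzE w.2) hzw n hn
  have a1 := inv_of_fpf N z (hsq z hzE) (key z hzE hz1)
  have a2 := inv_of_fpf N w (hsq w w.2) (key w w.2 hw1')
  have b1 := a2 n hn
  have b2 := a1 n⁻¹ (N.inv_mem hn)
  rw [← b1, b1, inv_inv] at b2
  calc z * w * n = (z * (w * n * (w : H)⁻¹) * z⁻¹) * (z * w) := by group
    _ = n * (z * w) := by rw [b1, b2]

end Cfsg.Agent.S2009
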