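import Cfsg.Statements.S2008
import Cfsg.Agent.S2009

set_option autoImplicit false
open Cfsg

namespace Cfsg.Agent.S2008

/-- Let H be a finite group and z an involution such that every proper normal subgroup of H meets the centralizer of z trivially, and suppose z lies in a Klein four-subgroup E of H all three of whose involutions are conjugate to z in H. Then H has no non-trivial abelian normal subgroup. -/
theorem result {H : Type*} [Group H] [Finite H] (z : H) (hz : orderOf z = 2) (hN : ∀ N : Subgroup H, N.Normal → N ≠ ⊤ → N ⊓ Subgroup.centralizer ({z} : Set H) = ⊥) (E : Subgroup H) (hE : IsKleinFour ↥E) (hzE : z ∈ E) (hc : ∀ e ∈ E, e ≠ 1 → IsConj z e) (N : Subgroup H) [N.Normal] (hab : IsMulCommutative ↥N) : N = ⊥ := by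
  have hs := Cfsg.Agent.S2009.result z hz hN E hE hzE hc
  rcases hs.eq_bot_or_eq_top_of_normal N inferInstance with h | h
  · exact h
  exfalso
  have hall : ∀ e ∈ E, e ≠ 1 → e = z := by
    intro e he he1
    obtain ⟨c, hc⟩ := isConj_iff.1 (hc e he he1)
    have hcz : c * z = z * c := by
      have := hab.is_comm.comm (⟨c, by rw [h]; trivial⟩ : N) ⟨z, by rw [h]; trivial⟩
      exact congrArg Subtype.val this
    rw [← hc, hcz]; group
  have h4 : Nat.card E = 4 := IsKleinFour.card_four
  have : Nat.card E ≤ Nat.card Bool := by
    classical
    refine Nat.card_le_card_of_injective (fun w : E => decide (w = 1)) ?_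
    intro a b hab
    by_cases ha : a = 1
    · have : b = 1 := by simpa [ha] using hab
      rw [ha, this]
    · have hb : b ≠ 1 := by simpa [ha] using hab
      apply Subtype.ext
      rw [hall a a.2 (fun h => ha (Subtype.ext h)), hall b b.2 (fun h => hb (Subtype.ext h))]
  rw [h4] at this
  simp at this

end Cfsg.Agent.S2008
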