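import Cfsg.Statements.S2053
import Cfsg.Agent.KSG.SchurCl
import Cfsg.Agent.SPOR.FiS2
import Cfsg.Agent.SPOR.FiS3
-- import your own Cfsg.Agent.* helpers here

set_option autoImplicit false
open Cfsg

namespace Cfsg.Agent.S2053

open CL CL.K CL.SchurC CL.CE CL.FiS

set_option maxRecDepth 100000
set_option exponentiation.threshold 100000

def C : MP := ⟨2, 54, 7, 1, 1, 108, 1, 2⟩

def L : List ℕ :=
  [0x1c3fc4444055529455444002aaa05455110aa08a80555666aa80002455599a00a20095550662800a8255559808888809555606208a08055159120aa80843cfd115155008555119228828843fc1d15510508554511a22222843f311d54444480f037751551064f3f11115411483cc03755501560f0cdd055511183c0f43555141670ccdd04115519c30f4350155167c0fd001155159c3c03751051567c3c0d01511559f0cc0345115563c00ccc455555b0000ccffffffd,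
   0x4000000000000400000000000000000000400000010000000000000100000000000001000000000000010000000000000100000000000000400000000000040000000000000040000000000004000000000000004000000000000400000000000001000000040000000000000000000100000000000001000000000000010000000000000100000000000001000000000000010000000000000100000000000001000000000000010000000000000040000000000004,
   0x4000100000000000001000000000000010000000000000100000000000000004000000000010000000000000040000000000004000000000000010000000000040000000000000001000000000000010000000000000040000000000004000000000000001000000000000100000000000010000000000000010000400000000000000000000001000000000000010000000000000100000000000001000000000000004000000000000400000000000001,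
   0x10000000000000100000000000001000000000000010000000000000100000000000001000000000000004000000000000400000000000001000000000000010000000000000010000000000000100000000000100000000000001000000000000001000000000000010000000000000100000000000000400000000000040000000000000040000000000004000000000000010000000000000100000000000000400000000000040000000000000100000000000001,
   0x10000000000000100000000000000000010000000010000000000000010000000000001000000000000100000000000000100000000000001000000000000010000000000000100000000000001000000001000000000000000000010000000000000040000000000100000000000000100000000000040000000000000010000000000000100000000000000400000000000040000000000000040000000000004000000000000010000000000000100000000000001,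
   0x400000040000000000004000000000000004000000000000400000000000001000000000000010000000000000100000000000001000000000000010000000000000100000000000001000000000000010000000000000100000000000001000000400000000000000000000000100000000000100000000000001000000000001000000000000010000000000000010000000000100000000000000001000000000000010000000000000100000000000001,
   0x143fccccc055515cffccc00155509c551105508a809aaaaaaa800028d5555500a200a7550551400a829d55540448880a755505104a0809d1551105a8088345511516a0089d5115114828883541515520a089d45115112228835111554488880d0155515a20a871511115422881c401555502aa070455055622281c0541555282a50ccff0c315515430fc3f0355155c0ff0033d515543c03ff3051555c3c0f03f1155570cc03cf315551c00ccccfd55550000ccfff5555,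
   0x10000000000000100000000000001000000000000010000000000000100000000000000100000000000010000000000001000000000000000100000000000001000000000001000000000000010000000000000010000000000000100000000000001000000000000010000000000000010000000000001000000000000100000000000000100000000000000100000000000001000000000001000000000000010000000000000010000000000000100000000000001,
   0x10000000000000100000000000001000000000000000000008000000000000000200001000000000000000000000080000000000000800000000000008000000000000080000100000000000001000000000000010000000000000100000000000001000000000000010000000c00000000000000000001000000000000010000000000000100000000000001000000000000010000300000000000000c0000000000000c0000000000000c0000000000000c00000000,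
   0x30000000000000300000000000003000000000000030000000000000300000000000003000000000000030000000000000300000000000003000000000000030000000000000300000000000003000000000000030000000000000300000000000003000000000000030000000000000300000000000003000000000000030000000000000300000000000003000000000000030000000000000300000000000003000000000000030000000000000300000000000003]

theorem mdl : MatMdl (C.ex2 27 1 1) (C.mat2 (Equiv.refl (Fin 27)) F4.w)
    (C.dec2 (Equiv.refl (Fin 27)) F4.w) C.V C.mv (C.bas 27) :=
  matMdl_F4 _ 54 7 1 1 108 (by decide +kernel) rfl

def R : List (List ℕ) := Fi.RC ++ [wpow [0, 1, 2, 3, 4, 5, 7] 9, wpow [1, 2, 3, 4, 5, 6, 7] 9]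

def E : List (List ℕ × List ℕ) := (Fi.O8.spider, [9]) :: ([9, 9, 9], []) ::
  (List.range 9).map (fun i => ([i, 9], [9, i])) ++ R.map (·, [])

theorem chk : lall (fun e => weq C.mv (lmap (C.ex2 27 1 1) L) (llen L) (C.bas 27) e.1 e.2) E = true := by
  decide +kernel

noncomputable def m (i : ℕ) : Matrix (Fin 27) (Fin 27) F4 :=
  C.mat2 (Equiv.refl (Fin 27)) F4.w (lget L i)

theorem rel {v w : List ℕ} (hw : (v, w) ∈ E) : wd m v = wd m w := mdl.wd_eq L (lall_iff.1 chk _ hw)

theorem sq {i : ℕ} (hi : i < 9) : m i * m i = 1 := by
  have := rel (v := [i, i]) (w := []) (by interval_cases i <;> decide)
  simpa [wd] using this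

noncomputable def u (i : ℕ) : GL (Fin 27) F4 :=
  if h : i < 9 then ⟨m i, m i, sq h, sq h⟩ else 1

theorem coe_ev : ∀ w : List ℕ, (∀ i ∈ w, i < 9) → (ev u w : GL (Fin 27) F4).1 = wd m w
  | [], _ => rfl
  | i :: w, h => by
    rw [ev_cons, wd_cons, Units.val_mul, coe_ev w fun j hj => h j (List.mem_cons_of_mem _ hj), u,
      dif_pos (h i List.mem_cons_self)]

theorem pres : Pres u id R := by
  refine ⟨fun a => ?_, fun r hr => Units.ext ((coe_ev r ?_).trans (rel (w := []) ?_))⟩
  · unfold u
    dsimp only [id]
    split_ifs
    · rfl
    · rfl
  · exact ltAll_spec (List.all_eq_true.1 (by decide +kernel : R.all (ltAll 9) = true) r hr)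
  · exact List.mem_append_right _ (List.mem_map_of_mem hr)

theorem spider : (ev u Fi.O8.spider).1 = m 9 :=
  (coe_ev _ (by decide)).trans ((rel List.mem_cons_self).trans (by simp [wd]))

theorem three : 3 ∣ Nat.card (Schur.Mult Spor.Fi22) := by
  refine three_dvd_mult Fi22.code (u := u) (g := Fi22.g) (fun x => by cases x <;> rfl) (fun i => ?_)
    (r := Fi.O8.spider) pres (Fi22.pres.mono (by decide +kernel)) (Units.ext ?_) (fun h => ?_)
    (fun a => Units.ext ?_) (by decide +kernel)
  · by_cases hi : i < 9
    · right
      interval_cases i
      exacts [⟨.a, rfl⟩, ⟨.b, rfl⟩, ⟨.c, rfl⟩, ⟨.d, rfl⟩, ⟨.e, rfl⟩, ⟨.f, rfl⟩, ⟨.g, rfl⟩, ⟨.h, rfl⟩,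
        ⟨.i, rfl⟩]
    · refine Or.inl ⟨dif_neg hi, ?_⟩
      rw [Fi22.g, coxG, lv, List.getElem?_eq_none (not_lt.1 hi)]
      rfl
  · have := rel (v := [9, 9, 9]) (w := []) (by decide)
    rw [Units.val_pow_eq_pow_val, spider, pow_three]
    simpa [wd] using this
  · have := congrArg (fun x : Matrix (Fin 27) (Fin 27) F4 => x 0 0) (h ▸ spider)
    revert this
    decide +kernel
  · have ha : Fi22.code a < 9 := by cases a <;> decide
    have := rel (v := [Fi22.code a, 9]) (w := [9, Fi22.code a]) (by cases a <;> decide)
    rw [Units.val_mul, Units.val_mul, spider, u, dif_pos ha]
    simpa [wd] using this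

theorem two : 2 ∣ Nat.card (Schur.Mult Spor.Fi22) := by
  have := (FiA.T23.quasi_nb Fi.D23.is23 FiA.gp23 (Fi23.letter_mem (a := 10) (by decide))).1
  rw [FiA.gp23.closure_nb (FiA.T23.cn Fi.D23.is23) (Fi23.letter_mem (by decide)), ← Fi23.H_eq] at this
  obtain ⟨h1, ⟨e⟩, -⟩ := Fi23.cover_H
  have h2 : (e.toMonoidHom.comp (QuotientGroup.mk' _)).ker = Subgroup.center Fi23.H := by
    rw [← MonoidHom.comap_ker, (MonoidHom.ker_eq_bot_iff _).2 e.injective, MonoidHom.comap_bot,
      QuotientGroup.ker_mk']
  rw [← h1, ← h2]
  exact card_dvd_mult_of_stem ⟨e.surjective.comp (QuotientGroup.mk'_surjective _), h2.le,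
    this.commutator_eq_top ▸ le_top⟩

/-- The Schur multiplier of the Fischer group Fi₂₂ (the finitely presented group of the definitions) is cyclic of order 6; here the Schur multiplier is described through stem extensions, as in the definitions: surjective homomorphisms onto the group from a finite group, whose kernel is central in that finite group and contained in that finite group's commutator subgroup. -/
theorem result : Cfsg.HasCyclicSchurMultiplier Cfsg.Spor.Fi22 6 := by
  exact cyclic_of_upper upper22 (Nat.Coprime.mul_dvd_of_dvd_of_dvd (by decide) two three)

end Cfsg.Agent.S2053
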