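import Cfsg.Statements.S2087
import Cfsg.Agent.KSG.SL2Mult
import Cfsg.Agent.S0255

set_option autoImplicit false
open Cfsg

namespace Cfsg.Agent.S2087

/-- Exceptional Schur multiplier: over the field with 2 elements, PSL₃ has Schur multiplier cyclic of order 2 (here the Schur multiplier is described through stem extensions, as in the definitions). -/
theorem result {F : Type*} [Field F] [Fintype F] (hF : Fintype.card F = 2) : Cfsg.HasCyclicSchurMultiplier (Matrix.ProjectiveSpecialLinearGroup (Fin 3) F) 2 := by
  have : Fact (Nat.Prime 7) := ⟨by norm_num⟩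
  obtain ⟨e⟩ := Cfsg.Agent.S0255.result (F := ZMod 7) (K := F) (by simp) hF
  refine CL.Schur.hasSchurMultiplier_congr_left ?_ e
  have hc : Nat.card (ZMod 7) = 7 := by simp
  refine CL.AltCover.hasCyclicSchurMultiplier_of_card Nat.prime_two.squarefree ?_
  have h1 : Nat.card (CL.Schur.Mult (Matrix.SpecialLinearGroup (Fin 2) (ZMod 7))) = 1 := by
    have hcard : Nat.card (Matrix.SpecialLinearGroup (Fin 2) (ZMod 7)) = 336 := by
      have := CL.SL.card_SL_mul (F := ZMod 7) 2 (by norm_num)
      rw [Fin.prod_univ_two] at this
      simp only [ZMod.card, Fin.val_zero, Fin.val_one] at this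
      omega
    refine CL.Dk.card_mult_eq_one_of_forall fun p hp hd => ?_
    by_cases h2 : p = 2
    · subst h2
      exact CL.Dk.not_two_dvd_card_mult (F := ZMod 7)
        (by exact_mod_cast (ZMod.natCast_eq_zero_iff 2 7).not.2 (by norm_num)) (φ := MonoidHom.id _)
        Function.injective_id
    · refine CL.Dk.not_dvd_card_mult_of_not_sq_dvd hp ?_
      rw [hcard] at hd ⊢
      have hle := Nat.le_of_dvd (by norm_num) hd
      intro hsq
      have h16 : p ^ 2 ≤ 336 := Nat.le_of_dvd (by norm_num) hsq
      have : p ≤ 18 := by nlinarith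
      interval_cases p <;> first | omega | (norm_num at hp) | (norm_num at hsq)
  rw [CL.Dk.card_mult_PSL2 (by rw [hc]; norm_num), h1, hc]
  decide

end Cfsg.Agent.S2087
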