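import Cfsg.Statements.S2094
import Cfsg.Agent.CHEV.LiftCl
import Cfsg.Agent.CHEV.ClSpin
-- import your own Cfsg.Agent.* helpers here

set_option autoImplicit false
open Cfsg

namespace Cfsg.Agent.S2094

/-- Schur multipliers of the odd-dimensional orthogonal groups: for m ≥ 3 and a field F of odd order q with (m, q) ≠ (3, 3), the Schur multiplier of PΩ_(2m+1)(F) (for the form x₀² + Σ xᵢyᵢ) is cyclic of order 2 = gcd(2, q − 1); here the Schur multiplier is described through stem extensions, as in the definitions. -/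
theorem result {F : Type*} [Field F] [Fintype F] {q : ℕ} (hF : Fintype.card F = q) (hq : Odd q) (m : ℕ) (hm : 3 ≤ m) (hexc : ¬ (m = 3 ∧ q = 3)) : Cfsg.HasCyclicSchurMultiplier (Cfsg.POmega F (Cfsg.quadFormOdd m F)) 2 := by
  obtain ⟨n, rfl⟩ : ∃ n, m = n + 1 := ⟨m - 1, by omega⟩
  have hc : Nat.card F = q := Nat.card_eq_fintype_card.trans hF
  have h1 : 1 < q := hF ▸ Fintype.one_lt_card
  obtain ⟨k, hk⟩ := hq
  have h2 : (2 : F) ≠ 0 := fun h => by
    have : (q : F) = 0 := hF ▸ FiniteField.cast_card_eq_zero F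
    rw [hk] at this
    push_cast at this
    rw [h] at this
    simp at this
  have := CL.Chev.Cl.multiplier_B (F := F) (n := n) (by omega) ⟨-1, by simp, fun h => h2 (by linear_combination -h)⟩
    fun E _ _ π h => CL.Chev.Cl.liftB h (CL.Chev.Cl.spinBSt_good F n) (by omega) (by omega) (by omega) (by omega)
  rwa [hc, hk, Nat.add_sub_cancel, Nat.gcd_mul_right_right] at this

end Cfsg.Agent.S2094
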