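import Cfsg.Statements.S2096
import Cfsg.Agent.CHEV.LiftCl
import Cfsg.Agent.CHEV.ClSpin
-- import your own Cfsg.Agent.* helpers here

set_option autoImplicit false
open Cfsg

namespace Cfsg.Agent.S2096

/-- Schur multipliers of the even-dimensional orthogonal groups of plus type and odd rank: for odd l ≥ 5 and a field F with q elements, the Schur multiplier of PΩ⁺_2l(F) (for the form Σ xᵢyᵢ) is cyclic of order gcd(4, q^l − 1); here the Schur multiplier is described through stem extensions, as in the definitions. -/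
theorem result {F : Type*} [Field F] [Fintype F] {q : ℕ} (hF : Fintype.card F = q) (l : ℕ) (hl : 5 ≤ l) (hodd : Odd l) : Cfsg.HasCyclicSchurMultiplier (Cfsg.POmega F (Cfsg.quadFormPlus l F)) (Nat.gcd 4 (q ^ l - 1)) := by
  obtain ⟨n, rfl⟩ : ∃ n, l = n + 2 := ⟨l - 2, by omega⟩
  have hc : Nat.card F = q := Nat.card_eq_fintype_card.trans hF
  have h1 : 1 < q := hF ▸ Fintype.one_lt_card
  have hn : Odd n := by rcases hodd with ⟨k, hk⟩; exact ⟨k - 1, by omega⟩
  have hg : Nat.gcd 4 (Nat.card F - 1) = Nat.gcd 4 (q ^ (n + 2) - 1) := by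
    obtain ⟨k, rfl⟩ := hn
    have h0 : 1 ≤ q ^ (2 * k + 1 + 2) := Nat.one_le_pow _ _ (by omega)
    have e : q ^ (2 * k + 1 + 2) % 4 = q % 4 ∨ q % 2 = 0 ∧ q ^ (2 * k + 1 + 2) % 2 = 0 := by
      rcases Nat.mod_two_eq_zero_or_one q with h | h
      · exact .inr ⟨h, by rw [Nat.pow_mod, h]; simp⟩
      · have h4 : q ^ 2 % 4 = 1 := by
          have : q % 4 = 1 ∨ q % 4 = 3 := by omega
          rcases this with h | h <;> rw [Nat.pow_mod, h]
        left
        rw [show 2 * k + 1 + 2 = 2 * (k + 1) + 1 by ring, pow_succ, pow_mul, Nat.mul_mod, Nat.pow_mod, h4]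
        simp
    rw [hc, Nat.gcd_rec, Nat.gcd_rec 4 (q ^ _ - 1)]
    generalize q ^ (2 * k + 1 + 2) = r at h0 e
    rcases e with e | e
    · rw [show (q - 1) % 4 = (r - 1) % 4 by omega]
    · have : (q - 1) % 4 = 1 ∨ (q - 1) % 4 = 3 := by omega
      have : (r - 1) % 4 = 1 ∨ (r - 1) % 4 = 3 := by omega
      rcases ‹(q - 1) % 4 = 1 ∨ _› with h | h <;> rcases this with h' | h' <;> rw [h, h'] <;> rfl
  exact CL.Chev.Cl.multiplier_D (F := F) (n := n) (by omega)
    (fun E _ _ π h => CL.Chev.Cl.liftD h (CL.Chev.Cl.spinDSt_good F n) (by omega) (by omega))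
    ((CL.Chev.Cl.kerDOdd Fˣ hn).trans (CL.Chev.Cl.rootsEquiv 4 hg))

end Cfsg.Agent.S2096
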