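import Cfsg.Statements.S2097
import Cfsg.Agent.CHEV.LiftCl
import Cfsg.Agent.CHEV.ClSpin
-- import your own Cfsg.Agent.* helpers here

set_option autoImplicit false
open Cfsg

namespace Cfsg.Agent.S2097

/-- Schur multipliers of the even-dimensional orthogonal groups of plus type and even rank: for even l ≥ 4 and a field F with q elements, (l, q) ≠ (4, 2), the Schur multiplier of PΩ⁺_2l(F) (for the form Σ xᵢyᵢ) is the product of two cyclic groups of order gcd(2, q^l − 1) (so trivial for q even and a four-group for q odd; here the Schur multiplier is described through stem extensions, as in the definitions). -/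
theorem result {F : Type*} [Field F] [Fintype F] {q : ℕ} (hF : Fintype.card F = q) (l : ℕ) (hl : 4 ≤ l) (heven : Even l) (hexc : ¬ (l = 4 ∧ q = 2)) : Cfsg.HasSchurMultiplier (Cfsg.POmega F (Cfsg.quadFormPlus l F)) (Multiplicative (ZMod (Nat.gcd 2 (q ^ l - 1)) × ZMod (Nat.gcd 2 (q ^ l - 1)))) := by
  obtain ⟨n, rfl⟩ : ∃ n, l = n + 2 := ⟨l - 2, by omega⟩
  have hc : Nat.card F = q := Nat.card_eq_fintype_card.trans hF
  have h1 : 1 < q := hF ▸ Fintype.one_lt_card
  have hn : Even n := by rcases heven with ⟨k, hk⟩; exact ⟨k - 1, by omega⟩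
  have hg : Nat.gcd 2 (Nat.card F - 1) = Nat.gcd 2 (q ^ (n + 2) - 1) := by
    have h0 : 1 ≤ q ^ (n + 2) := Nat.one_le_pow _ _ (by omega)
    have e : q ^ (n + 2) % 2 = q % 2 := by
      rcases Nat.mod_two_eq_zero_or_one q with h | h <;> rw [Nat.pow_mod, h] <;> simp
    rw [hc, Nat.gcd_rec, Nat.gcd_rec 2 (q ^ _ - 1), show (q - 1) % 2 = (q ^ (n + 2) - 1) % 2 by omega]
  exact CL.Chev.Cl.multiplier_D (F := F) (n := n) (by omega)
    (fun E _ _ π h => CL.Chev.Cl.liftD h (CL.Chev.Cl.spinDSt_good F n) (by omega) (by omega))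
    (((CL.Chev.Cl.kerDEven Fˣ hn).trans
      ((CL.Chev.Cl.rootsEquiv 2 hg).prodCongr (CL.Chev.Cl.rootsEquiv 2 hg))).trans
      (MulEquiv.prodMultiplicative _ _).symm)

end Cfsg.Agent.S2097
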