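import Cfsg.Statements.S2105
import Cfsg.Agent.CHEV.LiftTypes
import Cfsg.Agent.S1079

set_option autoImplicit false
open Cfsg

namespace Cfsg.Agent.S2105

/-- Schur multipliers of the (adjoint, simple) Chevalley groups of type E₆: over a field with q elements the Schur multiplier is cyclic of order gcd(3, q − 1) (here the Schur multiplier is described through stem extensions, as in the definitions). -/
theorem result {F : Type*} [Field F] [Fintype F] {q : ℕ} (hF : Fintype.card F = q) : Cfsg.HasCyclicSchurMultiplier ↥(Cfsg.Lie.chevE6.group F) (Nat.gcd 3 (q - 1)) := by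
  have hc := Cfsg.Agent.S1079.result hF (Cfsg.Lie.chevE6, 3) (by simp)
  have : Fact (Nat.Prime 3) := ⟨Nat.prime_three⟩
  have : IsCyclic (Subgroup.center (Cfsg.Lie.chevE6.SteinbergGroup F)) :=
    isCyclic_of_card_dvd_prime (p := 3) (hc ▸ Nat.gcd_dvd_left _ _)
  exact CL.Chev.multiplier_of_stb (CL.Chev.perfect_stb (by simp) (by
      rintro (h | h) <;> exact absurd (congrArg Cfsg.Lie.ChevalleyDatum.rank h) (by decide)))
    (CL.Chev.trivial_stb_of_lift fun E _ _ π h => CL.Chev.chkE_E6.exists_lift h CL.Chev.stS_good)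
    (hc ▸ zmodCyclicMulEquiv this).symm

end Cfsg.Agent.S2105
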