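import Cfsg.Statements.S2108
import Cfsg.Agent.CHEV.TwLiftF
import Cfsg.Agent.CHEV.LieData

set_option autoImplicit false
open Cfsg

namespace Cfsg.Agent.S2108

/-- Schur multipliers of the twisted groups of type ²E₆: for a prime power q ≠ 2, with the group realised over the field with q² elements, the Schur multiplier of ²E₆(q) is cyclic of order gcd(3, q + 1) (here the Schur multiplier is described through stem extensions, as in the definitions); q = 2 is exceptional. -/
theorem result {K : Type*} [Field K] [Fintype K] {q : ℕ} (hq : IsPrimePow q) (hK : Fintype.card K = q ^ 2) (h2 : q ≠ 2) : Cfsg.HasCyclicSchurMultiplier ↥(Cfsg.Lie.twistedE6 K q) (Nat.gcd 3 (q + 1)) := by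
  open CL.Chev Cfsg.Lie in
  obtain ⟨T, h, hL⟩ := isLie_2E6 hq (Nat.card_eq_fintype_card.trans hK)
  have := finite_group chevE6 K
  have : Fact (Nat.Prime 3) := ⟨Nat.prime_three⟩
  have hc := h.card_ker
  have := isCyclic_of_card_dvd_prime (p := 3) (hc ▸ Nat.gcd_dvd_left _ _)
  exact hL.multiplier (RootSys.noG2_of_long fun r => long_iff.2 fun k => by rw [chkE_E6.1, chkE_E6.1])
    exists_neighbour stS_good stS_top (stS_sc (by simp))
    (hL.isTw.commutator_eq_top hL.good hL.inj hL.gen (h.pos_le_commutator hL.good hL.isTw hL.adj))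
    (fun σ h1 h2' => StData.Twist.IsE6.trivial ⟨h.A, h.π, h.c, h.f, h.card, h.two_le⟩ h2 stS_good stS_top
      (stS_sc (by simp))) (hc ▸ zmodCyclicMulEquiv this).symm

end Cfsg.Agent.S2108
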