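import Cfsg.Statements.S2140
import Cfsg.Agent.KSG.CoopSL

set_option autoImplicit false
open Cfsg

namespace Cfsg.Agent.S2140

open CL.LS CL.Coop

/-- Minimal index of a proper subgroup of the linear groups: for n ≥ 3 and a field F with q elements, (n, q) ≠ (4, 2), every proper subgroup of PSL_n(F) has index at least (q^n − 1)/(q − 1), and some subgroup has exactly that index (the stabiliser of a point of the projective space). -/
theorem result {F : Type*} [Field F] [Fintype F] {q : ℕ} (hF : Fintype.card F = q) (n : ℕ) (hn : 3 ≤ n) (hexc : ¬ (n = 4 ∧ q = 2)) : (∀ H : Subgroup (Matrix.ProjectiveSpecialLinearGroup (Fin n) F), H ≠ ⊤ → (q ^ n - 1) / (q - 1) ≤ H.index) ∧ (∃ H : Subgroup (Matrix.ProjectiveSpecialLinearGroup (Fin n) F), H.index = (q ^ n - 1) / (q - 1)) := by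
  classical
  subst hF
  have hq := Fintype.one_lt_card (α := F)
  let e := Matrix.SpecialLinearGroup.toLin'_equiv (n := Fin n) (R := F)
  let π : SpecialLinearGroup F (Fin n → F) →* Matrix.ProjectiveSpecialLinearGroup (Fin n) F :=
    (QuotientGroup.mk' _).comp e.symm.toMonoidHom
  have hπ : Function.Surjective π := (QuotientGroup.mk'_surjective _).comp e.symm.surjective
  have h3 : 3 ≤ Module.finrank F (Fin n → F) := by simpa using hn
  refine ⟨le_index_of_actions π hπ fun H _ _ => ?_, ?_⟩
  · obtain ⟨a, b, hab⟩ := exists_pair_ne (SpecialLinearGroup F (Fin n → F) ⧸ H)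
    obtain ⟨g, hg⟩ := MulAction.exists_smul_eq (SpecialLinearGroup F (Fin n → F)) a b
    obtain ⟨φ, x, h₀, h₁⟩ := exists_tv_ne_one
      (MulAction.toPermHom (SpecialLinearGroup F (Fin n → F)) (_ ⧸ H))
      ⟨g, fun h => hab ((congrArg (fun σ : Equiv.Perm _ => σ a) h).symm.trans hg)⟩
    obtain ⟨ω, hω⟩ := not_forall.mp fun h => h₁ (Equiv.ext h)
    have := card_ge_sl h3 (by simpa using hexc) h₀ hω
    rw [Module.finrank_fin_fun, Nat.card_eq_fintype_card] at this
    exact Nat.div_le_of_le_mul (by rwa [mul_comm])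
  · have hx : (Pi.single ⟨0, by omega⟩ 1 : Fin n → F) ≠ 0 := by simp
    have key := exists_index_line π hπ SpecialLinearGroup.toLinearEquiv hx (p := (· ≠ 0))
      (fun g hg => ?_) fun v => ⟨fun hv => ?_, ?_⟩
    · obtain ⟨H, hH⟩ := key
      refine ⟨H, (Nat.div_eq_of_eq_mul_left (by omega) ?_).symm⟩
      rw [← Nat.card_eq_fintype_card, hH, card_ne_zero' (F := F)]
      simp
    · obtain ⟨r, -, hr⟩ := Matrix.SpecialLinearGroup.mem_center_iff.mp
        ((QuotientGroup.eq_one_iff (e.symm g)).mp hg)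
      refine ⟨r, ?_⟩
      rw [← e.apply_symm_apply g]
      change (e.symm g).1.mulVec _ = _
      rw [← hr]
      simp [← Pi.single_smul]
    · have h2 : ∀ w : Fin n → F, ∃ y, y ∉ F ∙ w := fun w =>
        (exists_notMem_of_finrank_lt (U := F ∙ w) (W := ⊤) (by
          have := finrank_span_singleton_le (F := F) w
          rw [finrank_top]; omega)).imp fun _ h => h.2
      obtain ⟨y, hy⟩ := h2 (Pi.single ⟨0, by omega⟩ 1)
      obtain ⟨y', hy'⟩ := h2 v
      obtain ⟨g, hg, -⟩ := exists_map_pair h3 hx hy hv hy'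
      exact ⟨g, 1, one_ne_zero, by rw [one_smul]; exact hg.symm⟩
    · rintro ⟨g, c, hc, rfl⟩
      simpa [hc] using hx

end Cfsg.Agent.S2140
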