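import Cfsg.Statements.S2143
import Cfsg.Agent.KSG.CoopO5

set_option autoImplicit false
open Cfsg

namespace Cfsg.Agent.S2143

open CL.Coop CL.Orth CL.FormCount

/-- Minimal index of a proper subgroup of the odd-dimensional orthogonal groups: for m ≥ 3 and a field F with q elements, q odd and q ≥ 5, every proper subgroup of PΩ_(2m+1)(F) (for the form x₀² + Σ xᵢyᵢ) has index at least (q^(2m) − 1)/(q − 1), and that index is attained. -/
theorem result {F : Type*} [Field F] [Fintype F] {q : ℕ} (hF : Fintype.card F = q) (hodd : Odd q) (h5 : 5 ≤ q) (m : ℕ) (hm : 3 ≤ m) : (∀ H : Subgroup (Cfsg.POmega F (Cfsg.quadFormOdd m F)), H ≠ ⊤ → (q ^ (2 * m) - 1) / (q - 1) ≤ H.index) ∧ (∃ H : Subgroup (Cfsg.POmega F (Cfsg.quadFormOdd m F)), H.index = (q ^ (2 * m) - 1) / (q - 1)) := by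
  obtain ⟨k, rfl⟩ := Nat.exists_eq_add_of_le' hm
  have hp := fun k => Nat.one_le_pow k q (by omega)
  have h1 := (Nat.div_mul_le_self (q ^ (2 * (k + 3)) - 1) (q - 1)).trans_lt
    (Nat.sub_one_lt (Nat.ne_of_gt (hp _)))
  refine ⟨min_odd hF hodd h1 ?_ (by omega), index_sing hF (QOdd (k + 3) F)
    (QOdd_nondeg _ F (CL.Root.two_ne_zero_of_odd (hF ▸ hodd))) (by simp; omega)
    ((card_quadFormOdd_eq hF (k + 3) 0).trans ?_)⟩
  · have h2 := Nat.mul_le_mul_left ((q ^ (2 * (k + 3)) - 1) / (q - 1)) (show 4 ≤ q - 1 by omega)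
    have h3 : 2 ≤ q ^ (k + 3) := le_trans (by omega) (Nat.le_self_pow (by omega) q)
    rw [two_mul (k + 3), pow_add] at h1 h2 ⊢
    rw [mul_tsub]
    have := Nat.mul_le_mul_left (q ^ (k + 3)) h3
    omega
  · rw [card_sq_eq_zero]
    zify [hp]
    simp only [show k + 3 - 1 = k + 2 from rfl]
    ring

end Cfsg.Agent.S2143
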