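import Cfsg.Statements.S2144
import Cfsg.Agent.KSG.CoopO5

set_option autoImplicit false
open Cfsg

namespace Cfsg.Agent.S2144

open CL.Coop CL.Orth CL.FormCount

/-- Minimal index of a proper subgroup of the odd-dimensional orthogonal groups over the field with 3 elements: for m ≥ 3, every proper subgroup of PΩ_(2m+1)(3) (for the form x₀² + Σ xᵢyᵢ) has index at least 3^m(3^m − 1)/2, and that index is attained. -/
theorem result {F : Type*} [Field F] [Fintype F] (hF : Fintype.card F = 3) (m : ℕ) (hm : 3 ≤ m) : (∀ H : Subgroup (Cfsg.POmega F (Cfsg.quadFormOdd m F)), H ≠ ⊤ → 3 ^ m * (3 ^ m - 1) / 2 ≤ H.index) ∧ (∃ H : Subgroup (Cfsg.POmega F (Cfsg.quadFormOdd m F)), H.index = 3 ^ m * (3 ^ m - 1) / 2) := by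
  obtain ⟨k, rfl⟩ := Nat.exists_eq_add_of_le' hm
  have hp := fun k => Nat.one_le_pow k 3 (by omega)
  have hodd : Odd (Fintype.card F) := by rw [hF]; decide
  have h2 := CL.Root.two_ne_zero_of_odd hodd
  have h1 := Nat.div_mul_le_self (3 ^ (k + 3) * (3 ^ (k + 3) - 1)) 2
  refine ⟨min_odd hF (by decide) (h1.trans_lt ?_) ((mul_comm _ _).trans_le h1)
    (by rintro rfl -; norm_num), index_nonsing hF le_rfl (QOdd (k + 3) F) (QOdd_nondeg _ F h2)
    (by simp; omega) (neg_ne_zero.mpr one_ne_zero)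
    ((card_quadFormOdd_eq hF (k + 3) _).trans ?_)
    (Nat.mul_pos (hp _) (Nat.sub_pos_of_lt (Nat.one_lt_pow (by omega) (by omega))))⟩
  · rw [two_mul, pow_add 3 (k + 3)]
    exact Nat.mul_lt_mul_of_pos_left (Nat.sub_one_lt (Nat.ne_of_gt (hp _))) (hp _)
  · have : IsEmpty {x : F // x ^ 2 = -1} := ⟨fun ⟨x, hx⟩ => by
      have h3 := FiniteField.pow_card_sub_one_eq_one x (by rintro rfl; simp at hx)
      rw [hF] at h3
      exact h2 (by linear_combination hx - h3)⟩
    rw [Nat.card_of_isEmpty]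
    simp only [show k + 3 - 1 = k + 2 from rfl]
    ring

end Cfsg.Agent.S2144
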