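import Cfsg.Statements.S2151
import Cfsg.Agent.KSG.CoopU5

set_option autoImplicit false
open Cfsg

namespace Cfsg.Agent.S2151

open CL.Coop CL.FormCount

/-- Minimal index of a proper subgroup of the unitary groups of odd dimension n ≥ 5: for a field F with q² elements, every proper subgroup of PSU_n(q) has index at least (q^n + 1)(q^(n−1) − 1)/(q² − 1), and that index is attained. -/
theorem result {F : Type*} [Field F] [Fintype F] (q : ℕ) (hF : Fintype.card F = q ^ 2) (hq : 2 ≤ q) (n : ℕ) (hn : 5 ≤ n) (hodd : Odd n) : (∀ H : Subgroup (Cfsg.PSU n F q), H ≠ ⊤ → (q ^ n + 1) * (q ^ (n - 1) - 1) / (q ^ 2 - 1) ≤ H.index) ∧ (∃ H : Subgroup (Cfsg.PSU n F q), H.index = (q ^ n + 1) * (q ^ (n - 1) - 1) / (q ^ 2 - 1)) := by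
  obtain ⟨m, rfl⟩ : ∃ m, n = 2 * m + 5 := by
    obtain ⟨k, rfl⟩ := hodd
    exact ⟨k - 2, by omega⟩
  exact ⟨min_odd' hF (Nat.div_mul_le_self _ _), index_iso hF (by omega)
    ((card_hermForm_eq_zero hF _).trans (by rw [if_neg (Nat.not_even_iff_odd.mpr hodd)]))⟩

end Cfsg.Agent.S2151
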