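import Cfsg.Statements.S2152
import Cfsg.Agent.KSG.CoopU5

set_option autoImplicit false
open Cfsg

namespace Cfsg.Agent.S2152

open CL.Coop CL.FormCount

/-- Minimal index of a proper subgroup of the unitary groups of even dimension n ≥ 6: for a field F with q² elements, q ≥ 3, every proper subgroup of PSU_n(q) has index at least (q^n − 1)(q^(n−1) + 1)/(q² − 1), and that index is attained (the isotropic points). -/
theorem result {F : Type*} [Field F] [Fintype F] (q : ℕ) (hF : Fintype.card F = q ^ 2) (hq : 3 ≤ q) (n : ℕ) (hn : 6 ≤ n) (heven : Even n) : (∀ H : Subgroup (Cfsg.PSU n F q), H ≠ ⊤ → (q ^ n - 1) * (q ^ (n - 1) + 1) / (q ^ 2 - 1) ≤ H.index) ∧ (∃ H : Subgroup (Cfsg.PSU n F q), H.index = (q ^ n - 1) * (q ^ (n - 1) + 1) / (q ^ 2 - 1)) := by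
  obtain ⟨m, rfl⟩ : ∃ m, n = 2 * m + 6 := by
    obtain ⟨k, rfl⟩ := heven
    exact ⟨k - 3, by omega⟩
  refine ⟨min_even hF (Nat.div_mul_le_self _ _) ((Nat.div_mul_le_self _ _).trans
    (Nat.mul_le_mul_left _ ?_)), index_iso hF (by omega)
    ((card_hermForm_eq_zero hF _).trans (by rw [if_pos heven]))⟩
  have h1 := Nat.mul_le_mul_right (q ^ (2 * m + 5)) (show 2 ≤ q - 1 by omega)
  have h2 := Nat.one_le_pow (2 * m + 5) q (by omega)
  simp only [show 2 * m + 6 - 1 = 2 * m + 5 from rfl]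
  omega

end Cfsg.Agent.S2152
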