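import Cfsg.Statements.S2153
import Cfsg.Agent.KSG.CoopU5

set_option autoImplicit false
open Cfsg

namespace Cfsg.Agent.S2153

open CL.Coop CL.FormCount CL.Uni

/-- Minimal index of a proper subgroup of the unitary groups PSU_n(2) with n divisible by 6, realised over the field with 4 elements: every proper subgroup has index at least 2^(n−1)(2^n − 1)/3, and that index is attained. -/
theorem result {F : Type*} [Field F] [Fintype F] (hF : Fintype.card F = 4) (n : ℕ) (hn : 6 ∣ n) (hpos : 6 ≤ n) : (∀ H : Subgroup (Cfsg.PSU n F 2), H ≠ ⊤ → 2 ^ (n - 1) * (2 ^ n - 1) / 3 ≤ H.index) ∧ (∃ H : Subgroup (Cfsg.PSU n F 2), H.index = 2 ^ (n - 1) * (2 ^ n - 1) / 3) := by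
  obtain ⟨m, rfl⟩ : ∃ m, n = 2 * m + 6 := by
    obtain ⟨k, rfl⟩ := hn
    exact ⟨3 * k - 3, by omega⟩
  have hF' : Fintype.card F = 2 ^ 2 := hF
  have h1 := Nat.div_mul_le_self (2 ^ (2 * m + 5) * (2 ^ (2 * m + 6) - 1)) 3
  refine ⟨min_even hF' (h1.trans ?_) (h1.trans_eq (by simp [mul_comm])), ?_⟩
  · rw [mul_comm]
    exact Nat.mul_le_mul_left _ (Nat.le_succ _)
  have h2 : (std hF' (Fin (2 * m + 6))).q (Pi.single 0 1) = 1 :=
    ((std hF' _).herm_q _).trans ((isON_single hF' _).self 0)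
  refine index_herm hF' (by omega) (x := Pi.single 0 1) (fun h => by
    simpa using congrFun h 0) ?_
  have h3 := card_hermForm_eq_of_ne hF' (2 * m + 6) (one_pow 2) one_ne_zero
  rw [if_pos ⟨m + 3, by ring⟩] at h3
  rw [← h3, h2]
  refine Nat.card_congr (Equiv.subtypeEquivRight fun v => ⟨fun ⟨_, h⟩ => ?_, fun h => ?_⟩)
  · have h4 : (std hF' _).q v ^ 2 = (std hF' _).q v := CL.Tv.herm_σ_q (f := std hF' _) v
    exact mul_left_cancel₀ (mt h.mp one_ne_zero) ((sq _).symm.trans (h4.trans (mul_one _).symm))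
  · have h4 : (std hF' _).q v = 1 := h
    exact ⟨fun h0 => by simp [h0, CL.Witt.Form.q_zero] at h4, by rw [h4]⟩

end Cfsg.Agent.S2153
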