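import Cfsg.Statements.S2154
import Cfsg.Agent.CHEV.BorelTits
import Cfsg.Agent.CHEV.StGlue

set_option autoImplicit false
open Cfsg

namespace Cfsg.Agent.S2154

/-- The Borel–Tits property of the finite Chevalley groups of types G₂, B₂, D₄, F₄, E₆, E₇, E₈ over a finite field of characteristic p: for every non-trivial p-subgroup U of the group G there are an element g of G and a proper set J of fundamental roots such that the normaliser of U in G lies in the conjugate by g of the standard parabolic subgroup P_J and U lies in the conjugate by g of its unipotent radical U_J. -/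
theorem result {F : Type*} [Field F] [Fintype F] (p : ℕ) [Fact p.Prime] [CharP F p] (D : Cfsg.Lie.ChevalleyDatum) (hD : D ∈ [Cfsg.Lie.chevG2, Cfsg.Lie.chevB2, Cfsg.Lie.chevD4, Cfsg.Lie.chevF4, Cfsg.Lie.chevE6, Cfsg.Lie.chevE7, Cfsg.Lie.chevE8]) (U : Subgroup (GL D.Idx F)) (hUG : U ≤ D.group F) (hU : IsPGroup p ↥U) (hne : U ≠ ⊥) : ∃ g ∈ D.group F, ∃ J : Set ℕ, (∃ i, i < D.rank ∧ i ∉ J) ∧ Subgroup.normalizer (U : Set (GL D.Idx F)) ⊓ D.group F ≤ (D.parabolicSubgroup F J).map (MulAut.conj g).toMonoidHom ∧ U ≤ (D.unipotentRadical F J).map (MulAut.conj g).toMonoidHom := by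
  obtain ⟨_⟩ := CL.Chev.good_of_mem hD
  have hS := CL.Chev.stData_good (D := D) (F := F)
  have h1 := hS.sylIn_U' (p := p) (hS.not_dvd_card_H CL.Chev.stData_adjoint) Set.univ
  rw [CL.Chev.StData.P_univ] at h1
  rw [← CL.Chev.stData_grp] at hUG ⊢
  obtain ⟨a, haG, ha⟩ := h1.exists_conj_le hU hUG
  obtain ⟨g, hg, J, h2, h3⟩ := hS.borelTits (X := U) (g0 := a⁻¹) (inv_mem haG) fun x hx => by
    rw [inv_inv]; exact ha (CL.MSS.conj_mem_cj hx)
  have hJ : {i : Fin D.rank | (i : ℕ) ∈ Fin.val '' J} = J := by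
    ext i; simp [Fin.val_injective.eq_iff]
  refine ⟨g, hg, Fin.val '' J, ?_, fun n hn => ?_, fun x hx => ?_⟩
  · by_contra h
    push Not at h
    have hJ' : J = Set.univ := by
      rw [← hJ]; exact Set.eq_univ_of_forall fun i => h i i.2
    refine hne (eq_bot_iff.2 fun x hx => ?_)
    have := h2 x hx
    rw [hJ', CL.Chev.StData.UJ_univ, Subgroup.mem_bot] at this
    rw [Subgroup.mem_bot]
    calc x = g * (g⁻¹ * x * g) * g⁻¹ := by group
      _ = 1 := by rw [this]; group
  · rw [← CL.Chev.stData_P, hJ]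
    exact ⟨_, h3 n hn.2 fun x hx => (Subgroup.mem_normalizer_iff''.1 hn.1 x).1 hx, by simp [mul_assoc]⟩
  · rw [← CL.Chev.stData_UJ, hJ]
    exact ⟨_, h2 x hx, by simp [mul_assoc]⟩

end Cfsg.Agent.S2154
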