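import Cfsg.Statements.S2155
import Cfsg.Agent.CHEV.BorelTits
import Cfsg.Agent.CHEV.StGlue
import Cfsg.Agent.SIG.FStar

set_option autoImplicit false
open Cfsg

namespace Cfsg.Agent.S2155

/-- In a Chevalley group of type G₂, B₂, D₄, F₄, E₆, E₇ or E₈ over a finite field of characteristic p (for types G₂ and B₂ the field is assumed to have at least 3 elements, so that the group is simple), the generalized Fitting subgroup of every proper standard parabolic subgroup P_J is a p-group (P_J is p-constrained with trivial largest normal subgroup of order prime to p). -/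
theorem result {F : Type*} [Field F] [Fintype F] (p : ℕ) [Fact p.Prime] [CharP F p] (D : Cfsg.Lie.ChevalleyDatum) (hD : D ∈ [Cfsg.Lie.chevG2, Cfsg.Lie.chevB2, Cfsg.Lie.chevD4, Cfsg.Lie.chevF4, Cfsg.Lie.chevE6, Cfsg.Lie.chevE7, Cfsg.Lie.chevE8]) (hq : (D = Cfsg.Lie.chevG2 ∨ D = Cfsg.Lie.chevB2) → 3 ≤ Fintype.card F) (J : Set ℕ) (hJ : ∃ i, i < D.rank ∧ i ∉ J) : IsPGroup p ↥(Cfsg.generalizedFittingSubgroup ↥(D.parabolicSubgroup F J)) := by
  obtain ⟨_⟩ := CL.Chev.good_of_mem hD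
  have hS := CL.Chev.stData_good (D := D) (F := F)
  obtain ⟨i, hi, hiJ⟩ := hJ
  rw [← CL.Comp.isPGroup_fstarOf_iff, ← CL.Chev.stData_P]
  refine CL.Comp.isPGroup_fstarOf_of_centralizer
    (((CL.Chev.stData D F).UJ_le_U _).trans ((CL.Chev.stData D F).U_le_B.trans ((CL.Chev.stData D F).B_le_P _)))
    ((CL.Chev.stData D F).P_le_normalizer_UJ _) (hS.isPGroup_UJ _) ((hS.isPGroup_UJ {i | ↑i ∈ J}).to_le fun g hg => ?_)
  exact hS.mem_UJ_of_centralizes CL.Chev.stData_adjoint CL.Chev.rootSys_irred ⟨⟨i, hi⟩, hiJ⟩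
    ((CL.Chev.stData D F).P_le_grp _ hg.1) fun u hu => (hg.2 u hu).symm

end Cfsg.Agent.S2155
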