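import Cfsg.Statements.S2159
import Cfsg.Agent.CHEV.AutTypes

set_option autoImplicit false
open Cfsg

namespace Cfsg.Agent.S2159

open CL.Chev

/-- Structure of the outer automorphism group of the Chevalley group `G` of type G₂, B₂, D₄, F₄, E₆, E₇ or E₈ over a finite field. Let `D̄` be the image in `Out(G)` of the subgroup generated by the diagonal automorphisms and `F̄` the image of the subgroup generated by the field automorphisms. Then `D̄` is a normal abelian subgroup of `Out(G)`, `F̄` is cyclic, `D̄F̄` is a normal subgroup, and the quotient of `Out(G)` by `D̄F̄` is trivial, of order 2, or non-abelian of order 6 (so isomorphic to the symmetric group on three letters): its index is 1 or 2, or it is 6 with the commutator subgroup of `Out(G)` not inside `D̄F̄`. -/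
theorem result {F : Type*} [Field F] [Finite F] (D : Cfsg.Lie.ChevalleyDatum) (hD : D ∈ [Cfsg.Lie.chevG2, Cfsg.Lie.chevB2, Cfsg.Lie.chevD4, Cfsg.Lie.chevF4, Cfsg.Lie.chevE6, Cfsg.Lie.chevE7, Cfsg.Lie.chevE8])
    (Dbar Fbar : Subgroup (Cfsg.Out ↥(D.group F)))
    (hDbar : Dbar = (Subgroup.closure {φ : MulAut ↥(D.group F) | D.IsDiagonalAut φ}).map (QuotientGroup.mk' (Cfsg.Inn ↥(D.group F))))
    (hFbar : Fbar = (Subgroup.closure {φ : MulAut ↥(D.group F) | D.IsFieldAut φ}).map (QuotientGroup.mk' (Cfsg.Inn ↥(D.group F)))) :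
    Dbar.Normal ∧ IsMulCommutative ↥Dbar ∧ IsCyclic ↥Fbar ∧ (Dbar ⊔ Fbar).Normal ∧
      ((Dbar ⊔ Fbar).index = 1 ∨ (Dbar ⊔ Fbar).index = 2 ∨
        ((Dbar ⊔ Fbar).index = 6 ∧ ¬ commutator (Cfsg.Out ↥(D.group F)) ≤ Dbar ⊔ Fbar)) := by
  simp only [List.mem_cons, List.not_mem_nil, or_false] at hD
  rcases hD with rfl | rfl | rfl | rfl | rfl | rfl | rfl <;>
    obtain ⟨h1, h2, h3, h4, h5, h6⟩ := out_structure Dbar Fbar hDbar hFbar <;>
    refine ⟨h1, h2, h3, h4, ?_⟩ <;> rw [h5]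
  · exact (em _).elim (fun h => Or.inr (Or.inl (card_Sym_G2'.1 h))) fun h => Or.inl (card_Sym_G2'.2 h)
  · exact (em _).elim (fun h => Or.inr (Or.inl (card_Sym_B2'.1 h))) fun h => Or.inl (card_Sym_B2'.2 h)
  · exact Or.inr (Or.inr ⟨card_Sym_D4, fun h => absurd (h6 h _ permD4_mem_Sym _ permD4s_mem_Sym) (by decide)⟩)
  · exact (em _).elim (fun h => Or.inr (Or.inl (card_Sym_F4'.1 h))) fun h => Or.inl (card_Sym_F4'.2 h)
  · exact Or.inr (Or.inl card_Sym_E6)
  · exact Or.inl card_Sym_E7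
  · exact Or.inl card_Sym_E8

end Cfsg.Agent.S2159
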