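import Cfsg.Statements.S2161
import Cfsg.Agent.CHEV.AutTypes

set_option autoImplicit false
open Cfsg

namespace Cfsg.Agent.S2161

open CL.Chev

/-- For the Chevalley groups of types D₄ and E₆ (one root length) over any field: if `π` is a symmetry of the Dynkin diagram and `φ` is an automorphism sending `x_{p_i}(t)` to `x_{p_{π i}}(t)` and `x_{-p_i}(t)` to `x_{-p_{π i}}(t)` for every fundamental root `p_i`, then for every root `r` there is a sign `ε = ±1` with `φ(x_r(t)) = x_{π·r}(ε t)` for all `t`, where `π·r` is the root whose coefficients are those of `r` permuted by `π`. -/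
theorem result {F : Type*} [Field F] (D : Cfsg.Lie.ChevalleyDatum) (hD : D ∈ [Cfsg.Lie.chevD4, Cfsg.Lie.chevE6])
    (π : Equiv.Perm (Fin D.rank)) (hπ : D.IsDiagramSymmetry π) (φ : ↥(D.group F) ≃* ↥(D.group F))
    (hφ : ∀ (g : ↥(D.group F)) (i : Fin D.rank) (t : F),
      (((g : GL D.Idx F) : Matrix D.Idx D.Idx F) = D.x F (D.simple i) t →
        ((φ g : GL D.Idx F) : Matrix D.Idx D.Idx F) = D.x F (D.simple (π i)) t) ∧
      (((g : GL D.Idx F) : Matrix D.Idx D.Idx F) = D.x F (D.neg (D.simple i)) t →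
        ((φ g : GL D.Idx F) : Matrix D.Idx D.Idx F) = D.x F (D.neg (D.simple (π i))) t))
    (r : ℕ) (hr : r < D.nroots) :
    ∃ ε : F, (ε = 1 ∨ ε = -1) ∧ ∀ (g : ↥(D.group F)) (t : F),
      ((g : GL D.Idx F) : Matrix D.Idx D.Idx F) = D.x F r t →
        ((φ g : GL D.Idx F) : Matrix D.Idx D.Idx F) = D.x F (D.permRoot π r) (ε * t) := by
  obtain ⟨inst⟩ := CL.Chev.good_of_mem (D := D) (by
    simp only [List.mem_cons, List.not_mem_nil, or_false] at hD ⊢; tauto)
  have hs : ∀ i j : Fin D.rank, D.cartan i (D.simple j) = D.cartan j (D.simple i) := by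
    simp only [List.mem_cons, List.not_mem_nil, or_false] at hD
    rcases hD with rfl | rfl
    exacts [cartan_symm_D4, cartan_symm_E6]
  have h := (graph_iff (f := fun _ t => t)).1 hφ
  have h' : (stG D F).APin φ π 1 fun _ => RingEquiv.refl F := ⟨fun _ => one_ne_zero,
    fun i t => by simpa [rootSys_simple] using (h i t).1, fun i t => by simpa [rootSys_simple, rootSys_neg] using (h i t).2⟩
  obtain ⟨r', ε, hε, hco, e⟩ := h'.exists_sign ((rootSys D).A_eq_of_symm
    (fun i j => by simpa only [rootSys_A_eq_cartan] using hs i j) (isDiagramSymmetry_iff.1 hπ)) ⟨r, hr⟩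
  refine ⟨ε, hε, fun g t hg => ?_⟩
  rw [(eq_stG_x_iff (r := ⟨r, hr⟩)).1 hg, e, permRoot_eq (r := ⟨r, hr⟩) hco]
  exact eq_stG_x_iff.2 rfl

end Cfsg.Agent.S2161
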