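import Cfsg.Statements.S2298
import Cfsg.Agent.KSG.GL2Char

set_option autoImplicit false
open Cfsg CL.GL2

namespace Cfsg.Agent.S2298

/-- Over a finite field F with q elements, every irreducible complex character of GL₂ has degree 1, q − 1, q or q + 1; and when q ≥ 3 (so that these four numbers are distinct) there are exactly q − 1 irreducible characters of degree 1, exactly q − 1 of degree q, exactly (q − 1)(q − 2)/2 of degree q + 1 and exactly q(q − 1)/2 of degree q − 1. -/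
theorem result {F : Type*} [Field F] [Fintype F] :
    (∀ χ : Matrix.GeneralLinearGroup (Fin 2) F → ℂ, Cfsg.IsIrrCharacter (Matrix.GeneralLinearGroup (Fin 2) F) χ →
      χ 1 = 1 ∨ χ 1 = (Fintype.card F : ℂ) - 1 ∨ χ 1 = (Fintype.card F : ℂ) ∨ χ 1 = (Fintype.card F : ℂ) + 1) ∧
    (3 ≤ Fintype.card F →
      Nat.card {χ : Cfsg.IrrCharacter (Matrix.GeneralLinearGroup (Fin 2) F) // (χ : Matrix.GeneralLinearGroup (Fin 2) F → ℂ) 1 = 1} = Fintype.card F - 1 ∧
      Nat.card {χ : Cfsg.IrrCharacter (Matrix.GeneralLinearGroup (Fin 2) F) // (χ : Matrix.GeneralLinearGroup (Fin 2) F → ℂ) 1 = (Fintype.card F : ℂ)} = Fintype.card F - 1 ∧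
      Nat.card {χ : Cfsg.IrrCharacter (Matrix.GeneralLinearGroup (Fin 2) F) // (χ : Matrix.GeneralLinearGroup (Fin 2) F → ℂ) 1 = (Fintype.card F : ℂ) + 1} = (Fintype.card F - 1) * (Fintype.card F - 2) / 2 ∧
      Nat.card {χ : Cfsg.IrrCharacter (Matrix.GeneralLinearGroup (Fin 2) F) // (χ : Matrix.GeneralLinearGroup (Fin 2) F → ℂ) 1 = (Fintype.card F : ℂ) - 1} = Fintype.card F * (Fintype.card F - 1) / 2) := by
  classical
  obtain ⟨m, hm, -⟩ := exists_noEig_det_one (F := F)
  have := Fact.mk hm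
  have h0 := card_cast_ne_zero (F := F)
  have h1 := card_cast_sub_one_ne_zero (F := F)
  have e1 : (1 : ℂ) ≠ 0 := one_ne_zero
  have e2 : (2 : ℂ) ≠ 0 := two_ne_zero
  refine ⟨fun χ hχ => ?_, fun hq => ?_⟩
  · rcases irr_GL_cases m hχ with ⟨α, rfl⟩ | ⟨α, rfl⟩ | ⟨α, β, -, rfl⟩ | ⟨θ, -, rfl⟩
    · exact Or.inl (linG_one α)
    · exact Or.inr (Or.inr (Or.inl (stG_one α)))
    · exact Or.inr (Or.inr (Or.inr (psG_one α β)))
    · exact Or.inr (Or.inl (dsG_one θ))
  have h2 : (Fintype.card F : ℂ) - 2 ≠ 0 := by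
    rw [sub_ne_zero]; exact_mod_cast (by omega : Fintype.card F ≠ 2)
  refine ⟨?_, ?_, ?_, ?_⟩
  · rw [card_irr_subtype (fun χ => χ 1 = 1) linG, Nat.card_range_of_injective linG_injective,
      card_mulChar]
    intro χ
    refine ⟨fun ⟨hχ, h⟩ => ?_, by rintro ⟨α, rfl⟩; exact ⟨isIrr_linG α, linG_one α⟩⟩
    rcases irr_GL_cases m hχ with ⟨α, rfl⟩ | ⟨α, rfl⟩ | ⟨α, β, -, rfl⟩ | ⟨θ, -, rfl⟩
    · exact ⟨α, rfl⟩
    · rw [stG_one] at h; exact absurd (by linear_combination h) h1
    · rw [psG_one] at h; exact absurd (by linear_combination h) h0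
    · rw [dsG_one] at h; exact absurd (by linear_combination h) h2
  · rw [card_irr_subtype (fun χ => χ 1 = (Fintype.card F : ℂ)) stG,
      Nat.card_range_of_injective stG_injective, card_mulChar]
    intro χ
    refine ⟨fun ⟨hχ, h⟩ => ?_, by rintro ⟨α, rfl⟩; exact ⟨isIrr_stG α, stG_one α⟩⟩
    rcases irr_GL_cases m hχ with ⟨α, rfl⟩ | ⟨α, rfl⟩ | ⟨α, β, -, rfl⟩ | ⟨θ, -, rfl⟩
    · rw [linG_one] at h; exact absurd (by linear_combination -h) h1
    · exact ⟨α, rfl⟩
    · rw [psG_one] at h; exact absurd (by linear_combination h) e1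
    · rw [dsG_one] at h; exact absurd (by linear_combination -h) e1
  · rw [card_irr_subtype (fun χ => χ 1 = (Fintype.card F : ℂ) + 1)
      (fun p : {p : MulChar F ℂ × MulChar F ℂ // p.1 ≠ p.2} => psG p.1.1 p.1.2)]
    · have h := two_mul_card_range
        (fun p : {p : MulChar F ℂ × MulChar F ℂ // p.1 ≠ p.2} => psG p.1.1 p.1.2)
        (fun p => ⟨(p.1.2, p.1.1), p.2.symm⟩) (fun p e => p.2 (congrArg (fun x => x.1.1) e))
        (fun p p' => by rw [psG_eq_iff]; simp [Subtype.ext_iff, Prod.ext_iff])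
      have h3 : Nat.card {p : MulChar F ℂ × MulChar F ℂ // p.1 ≠ p.2} =
          (Fintype.card F - 1) * (Fintype.card F - 2) := by
        rw [Nat.card_eq_fintype_card, Fintype.card_subtype]
        have := Finset.offDiag_card (Finset.univ : Finset (MulChar F ℂ))
        rw [Finset.card_univ, ← Nat.card_eq_fintype_card, card_mulChar] at this
        rw [show Fintype.card F - 2 = Fintype.card F - 1 - 1 by omega, Nat.mul_sub_one, ← this]
        congr 1
        ext p; simp
      omega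
    intro χ
    refine ⟨fun ⟨hχ, h⟩ => ?_, by rintro ⟨p, rfl⟩; exact ⟨isIrr_psG p.2, psG_one _ _⟩⟩
    rcases irr_GL_cases m hχ with ⟨α, rfl⟩ | ⟨α, rfl⟩ | ⟨α, β, hab, rfl⟩ | ⟨θ, -, rfl⟩
    · rw [linG_one] at h; exact absurd (by linear_combination -h) h0
    · rw [stG_one] at h; exact absurd (by linear_combination -h) e1
    · exact ⟨⟨(α, β), hab⟩, rfl⟩
    · rw [dsG_one] at h; exact absurd (by linear_combination -h) e2
  · rw [card_irr_subtype (fun χ => χ 1 = (Fintype.card F : ℂ) - 1)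
      (fun θ : {θ : MulChar (QK m) ℂ // θ ≠ θ ^ Fintype.card F} => dsG θ.1)]
    · have h := two_mul_card_range
        (fun θ : {θ : MulChar (QK m) ℂ // θ ≠ θ ^ Fintype.card F} => dsG θ.1)
        (fun θ => ⟨θ.1 ^ Fintype.card F, by rw [pow_card_pow_card]; exact θ.2.symm⟩)
        (fun θ e => θ.2 (congrArg Subtype.val e))
        (fun p p' => by rw [dsG_eq_iff]; simp [Subtype.ext_iff])
      have h3 : Nat.card {θ : MulChar (QK m) ℂ // θ ≠ θ ^ Fintype.card F} =
          Fintype.card F * (Fintype.card F - 1) := by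
        have h4 := card_pow_card_eq (a := -m.det) (b := m.trace)
        have h5 := card_mulChar (K := QK m)
        rw [card_quad] at h5
        simp only [Nat.card_eq_fintype_card] at h4 h5 ⊢
        simp only [ne_eq, eq_comm (b := _ ^ Fintype.card F)]
        rw [Fintype.card_subtype_compl, h4, h5, Nat.mul_sub_one, sq]
        omega
      omega
    intro χ
    refine ⟨fun ⟨hχ, h⟩ => ?_, by rintro ⟨p, rfl⟩; exact ⟨isIrr_dsG p.2, dsG_one _⟩⟩
    rcases irr_GL_cases m hχ with ⟨α, rfl⟩ | ⟨α, rfl⟩ | ⟨α, β, -, rfl⟩ | ⟨θ, hθ, rfl⟩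
    · rw [linG_one] at h; exact absurd (by linear_combination -h) h2
    · rw [stG_one] at h; exact absurd (by linear_combination h) e1
    · rw [psG_one] at h; exact absurd (by linear_combination h) e2
    · exact ⟨⟨θ, hθ⟩, rfl⟩

end Cfsg.Agent.S2298
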