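import Cfsg.Statements.S2299
import Cfsg.Agent.KSG.SL2Table

set_option autoImplicit false
open Cfsg CL.GL2 CL.Char

namespace Cfsg.Agent.S2299

/-- Over a finite field F with q elements, q odd, every irreducible complex character of SL₂ has degree 1, q, q + 1, q − 1, (q + 1)/2 or (q − 1)/2; and when q ≥ 5 (so that these six numbers are distinct) there are exactly one irreducible character of degree 1, one of degree q, (q − 3)/2 of degree q + 1, (q − 1)/2 of degree q − 1, two of degree (q + 1)/2 and two of degree (q − 1)/2. -/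
theorem result {F : Type*} [Field F] [Fintype F] (hodd : Odd (Fintype.card F)) :
    (∀ χ : Matrix.SpecialLinearGroup (Fin 2) F → ℂ, Cfsg.IsIrrCharacter (Matrix.SpecialLinearGroup (Fin 2) F) χ →
      χ 1 = 1 ∨ χ 1 = (Fintype.card F : ℂ) ∨ χ 1 = (Fintype.card F : ℂ) + 1 ∨ χ 1 = (Fintype.card F : ℂ) - 1 ∨
        χ 1 = (((Fintype.card F + 1) / 2 : ℕ) : ℂ) ∨ χ 1 = (((Fintype.card F - 1) / 2 : ℕ) : ℂ)) ∧
    (5 ≤ Fintype.card F →
      Nat.card {χ : Cfsg.IrrCharacter (Matrix.SpecialLinearGroup (Fin 2) F) // (χ : Matrix.SpecialLinearGroup (Fin 2) F → ℂ) 1 = 1} = 1 ∧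
      Nat.card {χ : Cfsg.IrrCharacter (Matrix.SpecialLinearGroup (Fin 2) F) // (χ : Matrix.SpecialLinearGroup (Fin 2) F → ℂ) 1 = (Fintype.card F : ℂ)} = 1 ∧
      Nat.card {χ : Cfsg.IrrCharacter (Matrix.SpecialLinearGroup (Fin 2) F) // (χ : Matrix.SpecialLinearGroup (Fin 2) F → ℂ) 1 = (Fintype.card F : ℂ) + 1} = (Fintype.card F - 3) / 2 ∧
      Nat.card {χ : Cfsg.IrrCharacter (Matrix.SpecialLinearGroup (Fin 2) F) // (χ : Matrix.SpecialLinearGroup (Fin 2) F → ℂ) 1 = (Fintype.card F : ℂ) - 1} = (Fintype.card F - 1) / 2 ∧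
      Nat.card {χ : Cfsg.IrrCharacter (Matrix.SpecialLinearGroup (Fin 2) F) // (χ : Matrix.SpecialLinearGroup (Fin 2) F → ℂ) 1 = (((Fintype.card F + 1) / 2 : ℕ) : ℂ)} = 2 ∧
      Nat.card {χ : Cfsg.IrrCharacter (Matrix.SpecialLinearGroup (Fin 2) F) // (χ : Matrix.SpecialLinearGroup (Fin 2) F → ℂ) 1 = (((Fintype.card F - 1) / 2 : ℕ) : ℂ)} = 2) := by
  classical
  obtain ⟨m, hm, -⟩ := exists_noEig_det_one (F := F)
  have := Fact.mk hm
  refine ⟨fun χ hχ => ?_, fun hq => ⟨card_irr_degree_one (by omega), card_irr_degree_card, ?_, ?_,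
    card_irr_degree_half_add hodd hq, card_irr_degree_half_sub hodd hq⟩⟩
  · obtain ⟨ν, hν⟩ := exists_nonsquare_unit hodd
    rcases irr_SL_cases_odd hodd m hν hχ with rfl | rfl | ⟨α, -, rfl⟩ | ⟨η, -, rfl⟩ | ⟨α, -, -, h⟩ |
      ⟨η, -, -, h⟩
    · exact Or.inl rfl
    · exact Or.inr (Or.inl stL_one)
    · exact Or.inr (Or.inr (Or.inl (psL_one α)))
    · exact Or.inr (Or.inr (Or.inr (Or.inl (dsL_one η))))
    · exact Or.inr (Or.inr (Or.inr (Or.inr (Or.inl (h.one_psL hodd)))))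
    · exact Or.inr (Or.inr (Or.inr (Or.inr (Or.inr (h.one_dsL hodd)))))
  · have := two_mul_card_irr_degree_succ (F := F)
    rw [card_mulChar_sq_odd hodd] at this
    omega
  · have := two_mul_card_irr_degree_pred (by omega) m
    rw [card_torChar_sq_odd hodd] at this
    omega

end Cfsg.Agent.S2299
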