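import Cfsg.Statements.S2300
import Cfsg.Agent.KSG.SL2Table

set_option autoImplicit false
open Cfsg CL.GL2 CL.Char

namespace Cfsg.Agent.S2300

/-- Over a finite field F with q elements, q even, every irreducible complex character of SL₂ has degree 1, q − 1, q or q + 1; and when q ≥ 4 (so that these four numbers are distinct) there are exactly one irreducible character of degree 1, one of degree q, (q − 2)/2 of degree q + 1 and q/2 of degree q − 1. -/
theorem result {F : Type*} [Field F] [Fintype F] [CharP F 2] :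
    (∀ χ : Matrix.SpecialLinearGroup (Fin 2) F → ℂ, Cfsg.IsIrrCharacter (Matrix.SpecialLinearGroup (Fin 2) F) χ →
      χ 1 = 1 ∨ χ 1 = (Fintype.card F : ℂ) - 1 ∨ χ 1 = (Fintype.card F : ℂ) ∨ χ 1 = (Fintype.card F : ℂ) + 1) ∧
    (4 ≤ Fintype.card F →
      Nat.card {χ : Cfsg.IrrCharacter (Matrix.SpecialLinearGroup (Fin 2) F) // (χ : Matrix.SpecialLinearGroup (Fin 2) F → ℂ) 1 = 1} = 1 ∧
      Nat.card {χ : Cfsg.IrrCharacter (Matrix.SpecialLinearGroup (Fin 2) F) // (χ : Matrix.SpecialLinearGroup (Fin 2) F → ℂ) 1 = (Fintype.card F : ℂ)} = 1 ∧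
      Nat.card {χ : Cfsg.IrrCharacter (Matrix.SpecialLinearGroup (Fin 2) F) // (χ : Matrix.SpecialLinearGroup (Fin 2) F → ℂ) 1 = (Fintype.card F : ℂ) + 1} = (Fintype.card F - 2) / 2 ∧
      Nat.card {χ : Cfsg.IrrCharacter (Matrix.SpecialLinearGroup (Fin 2) F) // (χ : Matrix.SpecialLinearGroup (Fin 2) F → ℂ) 1 = (Fintype.card F : ℂ) - 1} = Fintype.card F / 2) := by
  classical
  have h2 : (2 : F) = 0 := CharTwo.two_eq_zero
  obtain ⟨m, hm, -⟩ := exists_noEig_det_one (F := F)
  have := Fact.mk hm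
  refine ⟨fun χ hχ => ?_, fun hq => ⟨card_irr_degree_one hq, card_irr_degree_card, ?_, ?_⟩⟩
  · rcases irr_SL_cases_even h2 m hχ with rfl | rfl | ⟨α, -, rfl⟩ | ⟨η, -, rfl⟩
    · exact Or.inl rfl
    · exact Or.inr (Or.inr (Or.inl stL_one))
    · exact Or.inr (Or.inr (Or.inr (psL_one α)))
    · exact Or.inr (Or.inl (dsL_one η))
  · have := two_mul_card_irr_degree_succ (F := F)
    rw [card_mulChar_sq_even h2] at this
    omega
  · have := two_mul_card_irr_degree_pred hq m
    rw [card_torChar_sq_even h2] at this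
    omega

end Cfsg.Agent.S2300
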