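import Cfsg.Statements.S2301
import Cfsg.Agent.KSG.GL2Classes

set_option autoImplicit false
open Cfsg

namespace Cfsg.Agent.S2301

/-- Over a finite field with q elements of odd characteristic p, the elements of order p of SL₂ (the non-identity unipotent elements) fall into exactly two conjugacy classes, each of size (q² − 1)/2; two upper unitriangular matrices with non-zero off-diagonal entries b and b′ are conjugate exactly when bb′ is a square. -/
theorem result {F : Type*} [Field F] [Fintype F] (p : ℕ) [Fact p.Prime] [CharP F p] (hp : p ≠ 2) :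
    Nat.card {C : ConjClasses (Matrix.SpecialLinearGroup (Fin 2) F) // ∃ g : Matrix.SpecialLinearGroup (Fin 2) F, orderOf g = p ∧ ConjClasses.mk g = C} = 2 ∧
    (∀ g : Matrix.SpecialLinearGroup (Fin 2) F, orderOf g = p → Nat.card (ConjClasses.mk g).carrier = (Fintype.card F ^ 2 - 1) / 2) ∧
    ∀ g h : Matrix.SpecialLinearGroup (Fin 2) F, (g : Matrix (Fin 2) (Fin 2) F) 0 0 = 1 → (g : Matrix (Fin 2) (Fin 2) F) 1 1 = 1 → (g : Matrix (Fin 2) (Fin 2) F) 1 0 = 0 → (g : Matrix (Fin 2) (Fin 2) F) 0 1 ≠ 0 →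
      (h : Matrix (Fin 2) (Fin 2) F) 0 0 = 1 → (h : Matrix (Fin 2) (Fin 2) F) 1 1 = 1 → (h : Matrix (Fin 2) (Fin 2) F) 1 0 = 0 → (h : Matrix (Fin 2) (Fin 2) F) 0 1 ≠ 0 →
      (IsConj g h ↔ IsSquare ((g : Matrix (Fin 2) (Fin 2) F) 0 1 * (h : Matrix (Fin 2) (Fin 2) F) 0 1)) := by
  classical
  have h2 : (2 : F) ≠ 0 := by
    intro h
    have := (CharP.cast_eq_zero_iff F p 2).1 (by exact_mod_cast h)
    exact hp ((Nat.prime_dvd_prime_iff_eq Fact.out Nat.prime_two).1 this)
  have hodd := CL.GL2.odd_of_two_ne_zero h2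
  refine ⟨?_, ?_, ?_⟩
  · obtain ⟨ν, hν⟩ := quadraticChar_exists_neg_one (CL.GL2.ringChar_ne_two_of_odd hodd)
    have hν0 : ν ≠ 0 := by rintro rfl; simp at hν
    have e1 : (1 : F) + 1 = 2 := by norm_num
    have e3 : (2 : F) ^ 2 = 4 := by norm_num
    have ho : ∀ b : F, b ≠ 0 → orderOf (CL.GL2.upSL 1 b) = p := by
      intro b hb
      rw [CL.GL2.orderOf_SL_eq_char_iff p, CL.GL2.coe_upSL_one, Matrix.trace_fin_two_of]
      refine ⟨fun e => hb ?_, e1⟩
      have := congrArg (fun x : Matrix.SpecialLinearGroup (Fin 2) F => (x : Matrix (Fin 2) (Fin 2) F) 0 1) e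
      simpa [CL.GL2.coe_upSL_one] using this
    have : {C : ConjClasses (Matrix.SpecialLinearGroup (Fin 2) F) | ∃ g : Matrix.SpecialLinearGroup (Fin 2) F,
        orderOf g = p ∧ ConjClasses.mk g = C} =
        {ConjClasses.mk (CL.GL2.upSL 1 1), ConjClasses.mk (CL.GL2.upSL 1 ν)} := by
      ext C
      simp only [Set.mem_ofPred_eq, Set.mem_insert_iff, Set.mem_singleton_iff]
      constructor
      · rintro ⟨g, hg, rfl⟩
        obtain ⟨g1, g2⟩ := (CL.GL2.orderOf_SL_eq_char_iff p).1 hg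
        have hgs := CL.GL2.not_isScal_of_trace_two (fun e => g1 (Subtype.ext e)) g2 g.det_coe
        have hu := CL.GL2.uinv_ne_zero hgs (a := 1) (by rw [CL.GL2.cp, g2, g.det_coe]; ring)
          (by rw [g2]; ring)
        simp only [ConjClasses.mk_eq_mk_iff_isConj, CL.GL2.isConj_SL_iff_odd h2,
          CL.GL2.coe_upSL_one, Matrix.trace_fin_two_of, CL.GL2.uinv_upper, g2, e1, e3, hν, map_one,
          true_and, forall_const]
        rcases quadraticChar_dichotomy hu with h | h <;> simp [h]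
      · rintro (rfl | rfl)
        · exact ⟨_, ho 1 one_ne_zero, rfl⟩
        · exact ⟨_, ho ν hν0, rfl⟩
    rw [← Set.coe_ofPred, this, Nat.card_coe_set_eq, Set.ncard_pair]
    simp only [ne_eq, ConjClasses.mk_eq_mk_iff_isConj, CL.GL2.isConj_SL_iff_odd h2,
      CL.GL2.coe_upSL_one, Matrix.trace_fin_two_of, CL.GL2.uinv_upper, e1, e3, hν, map_one]
    simp
  · intro g hg
    obtain ⟨g1, g2⟩ := (CL.GL2.orderOf_SL_eq_char_iff p).1 hg
    have hgs := CL.GL2.not_isScal_of_trace_two (fun e => g1 (Subtype.ext e)) g2 g.det_coe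
    rw [Nat.card_coe_set_eq, CL.ncard_carrier_eq_index]
    have e := Subgroup.card_mul_index (Subgroup.centralizer ({g} : Set (Matrix.SpecialLinearGroup (Fin 2) F)))
    rw [CL.GL2.card_SL2] at e
    rw [CL.GL2.centralizer_SL] at e ⊢
    rw [CL.GL2.card_centSL_double hgs (a := 1) (by rw [CL.GL2.cp, g2, g.det_coe]; ring)
      (by rw [g2]; ring), CL.GL2.card_sq_eq_one_of_two_ne_zero h2, mul_comm 2, mul_assoc] at e
    rw [← Nat.eq_of_mul_eq_mul_left Fintype.card_pos e, Nat.mul_div_cancel_left _ two_pos]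
  · intro g h g1 g2 g3 g4 h1 h3 h4 h5
    rw [CL.GL2.isConj_SL_iff_odd h2, CL.GL2.uinv_of_ne g4, CL.GL2.uinv_of_ne h5,
      Matrix.trace_fin_two, Matrix.trace_fin_two, g1, g2, h1, h3,
      ← quadraticChar_one_iff_isSquare (mul_ne_zero g4 h5), map_mul]
    have e : ((1 : F) + 1) ^ 2 = 4 := by norm_num
    simp only [e, true_and, forall_const]
    rcases quadraticChar_dichotomy g4 with a | a <;> rcases quadraticChar_dichotomy h5 with b | b <;>
      simp [a, b]

end Cfsg.Agent.S2301
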