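import Cfsg.Statements.S2303
import Cfsg.Agent.KSG.GL2Classes

set_option autoImplicit false
open Cfsg

namespace Cfsg.Agent.S2303

/-- Over a finite field with q elements: a diagonal element of GL₂ with two distinct diagonal entries has centralizer of order (q − 1)² (so q(q + 1) conjugates), and an element of GL₂ with no eigenvector in F² has centralizer of order q² − 1 (so q(q − 1) conjugates). -/
theorem result {F : Type*} [Field F] [Fintype F] (g : Matrix.GeneralLinearGroup (Fin 2) F) :
    ((g : Matrix (Fin 2) (Fin 2) F) 0 1 = 0 → (g : Matrix (Fin 2) (Fin 2) F) 1 0 = 0 → (g : Matrix (Fin 2) (Fin 2) F) 0 0 ≠ (g : Matrix (Fin 2) (Fin 2) F) 1 1 →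
      Nat.card (Subgroup.centralizer ({g} : Set (Matrix.GeneralLinearGroup (Fin 2) F))) = (Fintype.card F - 1) ^ 2) ∧
    ((∀ (c : F) (v : Fin 2 → F), v ≠ 0 → (g : Matrix (Fin 2) (Fin 2) F).mulVec v ≠ c • v) →
      Nat.card (Subgroup.centralizer ({g} : Set (Matrix.GeneralLinearGroup (Fin 2) F))) = Fintype.card F ^ 2 - 1) := by
  rw [CL.GL2.centralizer_GL]
  refine ⟨fun h1 h2 h3 => ?_, fun h => CL.GL2.card_centGL_noEig h⟩
  refine CL.GL2.card_centGL_split (a := (g : Matrix (Fin 2) (Fin 2) F) 0 0) ?_ ?_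
  · rw [CL.GL2.cp_eq, h1]; ring
  · rw [Matrix.trace_fin_two]
    intro h; apply h3; linear_combination -h

end Cfsg.Agent.S2303
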