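import Cfsg.Statements.S2309
import Cfsg.Agent.KSG.GL2Char

set_option autoImplicit false
open Cfsg CL.GL2

namespace Cfsg.Agent.S2309

/-- Over a finite field F with q elements: every irreducible complex character of GL₂ of degree q − 1 vanishes at every diagonal matrix with two distinct entries, and every irreducible complex character of degree q + 1 vanishes at every element with no eigenvector in F². -/
theorem result {F : Type*} [Field F] [Fintype F] (χ : Matrix.GeneralLinearGroup (Fin 2) F → ℂ) (hχ : Cfsg.IsIrrCharacter (Matrix.GeneralLinearGroup (Fin 2) F) χ) (g : Matrix.GeneralLinearGroup (Fin 2) F) :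
    (χ 1 = (Fintype.card F : ℂ) - 1 → (g : Matrix (Fin 2) (Fin 2) F) 0 1 = 0 → (g : Matrix (Fin 2) (Fin 2) F) 1 0 = 0 → (g : Matrix (Fin 2) (Fin 2) F) 0 0 ≠ (g : Matrix (Fin 2) (Fin 2) F) 1 1 → χ g = 0) ∧
    (χ 1 = (Fintype.card F : ℂ) + 1 → (∀ (c : F) (v : Fin 2 → F), v ≠ 0 → (g : Matrix (Fin 2) (Fin 2) F).mulVec v ≠ c • v) → χ g = 0) := by
  classical
  obtain ⟨m, hm, -⟩ := exists_noEig_det_one (F := F)
  have := Fact.mk hm
  have h0 := card_cast_ne_zero (F := F)
  rcases irr_GL_cases m hχ with ⟨α, rfl⟩ | ⟨α, rfl⟩ | ⟨α, β, -, rfl⟩ | ⟨θ, -, rfl⟩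
  · rw [linG_one]
    refine ⟨fun h h1 h2 h3 => ?_, fun h => absurd (by linear_combination -h) h0⟩
    exfalso
    have hd := det_GL_ne_zero g
    rw [Matrix.det_fin_two, h1, zero_mul, sub_zero] at hd
    have h4 : 2 < Fintype.card F := Fintype.two_lt_card_iff.2
      ⟨0, _, _, (left_ne_zero_of_mul hd).symm, (right_ne_zero_of_mul hd).symm, h3⟩
    have : (Fintype.card F : ℂ) = (2 : ℕ) := by push_cast; linear_combination -h
    exact h4.ne' (Nat.cast_injective this)
  · rw [stG_one]
    exact ⟨fun h => absurd (by linear_combination h) (one_ne_zero (α := ℂ)),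
      fun h => absurd (by linear_combination -h) (one_ne_zero (α := ℂ))⟩
  · rw [psG_one]
    exact ⟨fun h => absurd (by linear_combination h) (two_ne_zero (α := ℂ)),
      fun _ h => ps_noEig _ h⟩
  · rw [dsG_one]
    exact ⟨fun _ _ h2 h3 => ds_upper _ h2 h3,
      fun h => absurd (by linear_combination -h) (two_ne_zero (α := ℂ))⟩

end Cfsg.Agent.S2309
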