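import Cfsg.Statements.S2310
import Cfsg.Agent.KSG.GL2Char

set_option autoImplicit false
open Cfsg CL.GL2

namespace Cfsg.Agent.S2310

/-- Over a finite field F with q ≥ 3 elements, let u be the upper unitriangular matrix of GL₂ with off-diagonal entry 1. An irreducible complex character χ of GL₂ takes at u the value 1 if χ has degree 1 or q + 1, the value −1 if χ has degree q − 1, and the value 0 if χ has degree q. -/
theorem result {F : Type*} [Field F] [Fintype F] (hq : 3 ≤ Fintype.card F) (χ : Matrix.GeneralLinearGroup (Fin 2) F → ℂ) (hχ : Cfsg.IsIrrCharacter (Matrix.GeneralLinearGroup (Fin 2) F) χ)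
    (u : Matrix.GeneralLinearGroup (Fin 2) F) (hu : (u : Matrix (Fin 2) (Fin 2) F) = !![1, 1; 0, 1]) :
    (χ 1 = 1 → χ u = 1) ∧ (χ 1 = (Fintype.card F : ℂ) + 1 → χ u = 1) ∧
    (χ 1 = (Fintype.card F : ℂ) - 1 → χ u = -1) ∧ (χ 1 = (Fintype.card F : ℂ) → χ u = 0) := by
  classical
  obtain ⟨m, hm, -⟩ := exists_noEig_det_one (F := F)
  have := Fact.mk hm
  have h0 := card_cast_ne_zero (F := F)
  have h1 := card_cast_sub_one_ne_zero (F := F)
  have h2 : (Fintype.card F : ℂ) - 2 ≠ 0 := by
    rw [sub_ne_zero]; exact_mod_cast (by omega : Fintype.card F ≠ 2)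
  have e1 : (1 : ℂ) ≠ 0 := one_ne_zero
  have e2 : (2 : ℂ) ≠ 0 := two_ne_zero
  have hs : ¬ IsScal (u : Matrix (Fin 2) (Fin 2) F) := by simp [hu, IsScal]
  rcases irr_GL_cases m hχ with ⟨α, rfl⟩ | ⟨α, rfl⟩ | ⟨α, β, -, rfl⟩ | ⟨θ, -, rfl⟩
  · rw [linG_one]
    have : linG α u = 1 := by simp [linG, hu, -Matrix.GeneralLinearGroup.val_det_apply]
    exact ⟨fun _ => this, fun _ => this, fun h => absurd (by linear_combination -h) h2,
      fun h => absurd (by linear_combination -h) h1⟩
  · rw [stG_one]
    exact ⟨fun h => absurd (by linear_combination h) h1, fun h => absurd (by linear_combination -h) e1,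
      fun h => absurd (by linear_combination h) e1,
      fun _ => stG_double α hs (x := 1) (by simp [hu, cp_eq]) (by simp [hu])⟩
  · rw [psG_one]
    refine ⟨fun h => absurd (by linear_combination h) h0, fun _ => ?_,
      fun h => absurd (by linear_combination h) e2, fun h => absurd (by linear_combination h) e1⟩
    rw [psG, ps_unip _ (by simp [hu]) (by simp [hu]) (by simp [hu])]; simp [hu]
  · rw [dsG_one]
    refine ⟨fun h => absurd (by linear_combination h) h2, fun h => absurd (by linear_combination -h) e2,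
      fun _ => ?_, fun h => absurd (by linear_combination -h) e1⟩
    rw [dsG, ds_unip _ (by simp [hu]) (by simp [hu]) (by simp [hu])]; simp [hu]

end Cfsg.Agent.S2310
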