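import Cfsg.Statements.S2315
import Cfsg.Agent.KSG.ClSteinberg
import Cfsg.Agent.CLAS.SLBasic

set_option autoImplicit false
open Cfsg

namespace Cfsg.Agent.S2315


theorem result {F : Type*} [Field F] [Fintype F] (p : ℕ) [Fact p.Prime] [CharP F p] (n : ℕ) :
    Nat.card {g : Matrix.GeneralLinearGroup (Fin n) F // ∃ k : ℕ, orderOf g = p ^ k} = Fintype.card F ^ (n * (n - 1)) := by
  have hp : p.Prime := Fact.out
  classical
  rcases n with _ | n
  · have : Unique {g : GL (Fin 0) F // ∃ k : ℕ, orderOf g = p ^ k} :=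
      ⟨⟨⟨1, 0, by simp⟩⟩, fun a => Subsingleton.elim _ _⟩
    simp
  have := Fintype.ofFinite (Matrix.SpecialLinearGroup (Fin (n + 1)) F)
  have hS := CL.Chev.Cl.slSt_good F n
  have ht := CL.Chev.Cl.slSt_top F n
  have hH := CL.ClSt.not_dvd_card_H_of_R3 (p := p) (CL.Chev.Cl.slSt_R3 F n)
  obtain ⟨f, -, hf⟩ := FiniteField.card F p
  have hq : 1 < Fintype.card F := Fintype.one_lt_card
  have hnd : ∀ i, 0 < i → ¬ p ∣ Fintype.card F ^ i - 1 := fun i hi h => by
    refine hp.not_dvd_one ((Nat.dvd_sub_iff_right (Nat.one_le_pow _ _ Fintype.card_pos) ?_).1 h)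
    rw [hf]
    exact dvd_pow (dvd_pow_self p f.ne_zero) hi.ne'
  have hU : Nat.card (CL.Chev.Cl.slSt F n).U = Fintype.card F ^ (∑ i ∈ Finset.range (n + 1), i) := by
    have h1 := congrArg (fun m => m.factorization p) (CL.SL.card_SL_mul (F := F) (n + 1) (by omega))
    have h2 : ∏ i : Fin (n + 1), (Fintype.card F ^ (n + 1) - Fintype.card F ^ (i : ℕ)) =
        Fintype.card F ^ (∑ i ∈ Finset.range (n + 1), i) *
          ∏ i ∈ Finset.range (n + 1), (Fintype.card F ^ (n + 1 - i) - 1) := by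
      rw [← Finset.prod_pow_eq_pow_sum, ← Finset.prod_mul_distrib,
        Fin.prod_univ_eq_prod_range (fun i => Fintype.card F ^ (n + 1) - Fintype.card F ^ i)]
      refine Finset.prod_congr rfl fun i hi => ?_
      rw [Nat.mul_sub, mul_one, ← pow_add, Nat.add_sub_cancel' (Finset.mem_range.1 hi).le]
    have h3 : ¬ p ∣ ∏ i ∈ Finset.range (n + 1), (Fintype.card F ^ (n + 1 - i) - 1) := by
      rw [Prime.dvd_finsetProd_iff hp.prime]
      rintro ⟨i, hi, h⟩
      exact hnd _ (Nat.sub_pos_of_lt (Finset.mem_range.1 hi)) h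
    have h4 := hnd 1 one_pos
    rw [pow_one] at h4
    rw [h2, Nat.factorization_mul (by omega) Nat.card_pos.ne',
      Nat.factorization_mul (pow_pos Fintype.card_pos _).ne' (fun h => h3 (by rw [h]; exact dvd_zero p)), Finsupp.add_apply,
      Finsupp.add_apply, Nat.factorization_eq_zero_of_not_dvd h3,
      Nat.factorization_eq_zero_of_not_dvd h4, zero_add, add_zero] at h1
    rw [hS.card_U_eq_pow ht hH, h1, hf, ← pow_mul, hp.factorization_pow, Finsupp.single_eq_same]
  have h5 := Finset.sum_range_id_mul_two (n + 1)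
  rw [← h5, pow_mul, ← hU, ← hS.card_unipotent ht hH]
  have key : ∀ g : Matrix.SpecialLinearGroup (Fin (n + 1)) F, (∃ k, g ^ p ^ k = 1) →
      ∃ k : ℕ, orderOf (Matrix.SpecialLinearGroup.toGL g) = p ^ k := by
    rintro g ⟨k, hk⟩
    obtain ⟨j, -, hj⟩ := (Nat.dvd_prime_pow hp).1 (orderOf_dvd_of_pow_eq_one
      (x := Matrix.SpecialLinearGroup.toGL g) (n := p ^ k) (by rw [← map_pow, hk, map_one]))
    exact ⟨j, hj⟩
  refine (Nat.card_congr (Equiv.ofBijective
    (fun g => ⟨Matrix.SpecialLinearGroup.toGL g.1, key g.1 g.2⟩)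
    ⟨fun a b h => Subtype.ext (Matrix.SpecialLinearGroup.toGL_injective (congrArg (·.1) h)), ?_⟩)).symm
  · rintro ⟨g, k, hk⟩
    have h1 : g ^ p ^ k = 1 := hk ▸ pow_orderOf_eq_one g
    have h2 : (g : Matrix (Fin (n + 1)) (Fin (n + 1)) F).det = 1 := by
      have h3 := congrArg (fun x : GL (Fin (n + 1)) F => (x : Matrix (Fin (n + 1)) (Fin (n + 1)) F).det) h1
      simp only [Units.val_pow_eq_pow_val, Matrix.det_pow, Units.val_one, Matrix.det_one] at h3
      have h4 := sub_pow_char_pow (g : Matrix (Fin (n + 1)) (Fin (n + 1)) F).det 1 (p := p) k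
      rw [h3, one_pow, sub_self] at h4
      exact sub_eq_zero.1 (pow_eq_zero_iff (pow_ne_zero _ hp.ne_zero) |>.1 h4)
    let g' : Matrix.SpecialLinearGroup (Fin (n + 1)) F := ⟨g, h2⟩
    have h3 : Matrix.SpecialLinearGroup.toGL g' = g := Units.ext rfl
    exact ⟨⟨g', k, Matrix.SpecialLinearGroup.toGL_injective (by rw [map_pow, map_one, h3, h1])⟩,
      Subtype.ext h3⟩

end Cfsg.Agent.S2315
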