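import Mathlib
import Cfsg.Statements.S2316
import Cfsg.Agent.KSG.ClSteinberg

set_option autoImplicit false
open Cfsg

namespace Cfsg.Agent.S2316


/-- Steinberg's count of unipotent elements for the symplectic group: over a finite field with q elements of characteristic p, the number of elements of Sp_{2m} of p-power order is q^(2m²). -/
theorem result {F : Type*} [Field F] [Fintype F] (p : ℕ) [Fact p.Prime] [CharP F p] (m : ℕ) :
    Nat.card {g : ↥(Matrix.symplecticGroup (Fin m) F) // ∃ k : ℕ, orderOf g = p ^ k} = Fintype.card F ^ (2 * m ^ 2) := by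
  have hp : p.Prime := Fact.out
  rcases m with _ | n
  · have : Subsingleton (Matrix.symplecticGroup (Fin 0) F) := ⟨fun a b => Subtype.ext (Subsingleton.elim _ _)⟩
    have : Unique {g : ↥(Matrix.symplecticGroup (Fin 0) F) // ∃ k : ℕ, orderOf g = p ^ k} :=
      ⟨⟨⟨1, 0, by simp⟩⟩, fun a => Subsingleton.elim _ _⟩
    simp
  have := Fintype.ofFinite (Matrix.symplecticGroup (Fin (n + 1)) F)
  have hS := CL.Chev.Cl.spSt_good F n
  have ht := CL.Chev.Cl.spSt_top F n
  have hH := CL.ClSt.not_dvd_card_H_of_R3 (p := p) (CL.Chev.Cl.spSt_R3 F n)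
  have hU : Nat.card (CL.Chev.Cl.spSt F n).U = Fintype.card F ^ ((n + 1) ^ 2) := by
    obtain ⟨f, -, hf⟩ := FiniteField.card F p
    have hne : ∀ i, Nat.card F ^ (2 * (i + 1)) - 1 ≠ 0 := fun i => by
      have : 1 < Nat.card F ^ (2 * (i + 1)) := Nat.one_lt_pow (by omega) Finite.one_lt_card
      omega
    rw [hS.card_U_eq_pow ht hH, CL.Sp.card_symplecticGroup, Nat.factorization_mul (pow_pos Nat.card_pos _).ne'
      (Finset.prod_ne_zero_iff.2 fun i _ => hne i), Finsupp.add_apply,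
      Nat.factorization_eq_zero_of_not_dvd (n := ∏ _ ∈ _, _), add_zero, Nat.card_eq_fintype_card, hf, ← pow_mul,
      hp.factorization_pow, Finsupp.single_eq_same]
    rw [Prime.dvd_finset_prod_iff hp.prime]
    rintro ⟨i, -, hi⟩
    refine hp.not_dvd_one ((Nat.dvd_sub_iff_right (pow_pos Nat.card_pos _) ?_).1 hi)
    rw [Nat.card_eq_fintype_card, hf]
    exact dvd_pow (dvd_pow_self p f.ne_zero) (by omega)
  rw [mul_comm, pow_mul, ← hU, ← hS.card_unipotent ht hH]
  refine Nat.card_congr (Equiv.subtypeEquivRight fun g => ⟨fun ⟨k, hk⟩ => ⟨k, hk ▸ pow_orderOf_eq_one g⟩,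
    fun ⟨k, hk⟩ => ?_⟩)
  obtain ⟨j, -, hj⟩ := (Nat.dvd_prime_pow Fact.out).1 (orderOf_dvd_of_pow_eq_one hk)
  exact ⟨j, hj⟩

end Cfsg.Agent.S2316
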