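import Cfsg.Statements.S2317
import Cfsg.Agent.KSG.GLnJordan

set_option autoImplicit false
open Cfsg

namespace Cfsg.Agent.S2317

open CL.GLn

theorem result {F : Type*} [Field F] [Fintype F] (p : ℕ) [Fact p.Prime] [CharP F p] (n : ℕ) :
    Nat.card {C : ConjClasses (Matrix.GeneralLinearGroup (Fin n) F) //
      ∃ g : Matrix.GeneralLinearGroup (Fin n) F, (∃ k : ℕ, orderOf g = p ^ k) ∧ ConjClasses.mk g = C} =
      Fintype.card (Nat.Partition n) := by
  classical
  have hU := isUnipotent_iff_orderOf p (Units.coeHom (Matrix (Fin n) (Fin n) F)) Units.val_injective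
  let inv : GL (Fin n) F → Multiset ℕ := fun g =>
    (elemDiv (Matrix.toLin' (g : Matrix (Fin n) (Fin n) F))).map Prod.snd
  have hinv : ∀ (g : GL (Fin n) F) (μ : Multiset ℕ),
      HasJT (Matrix.toLin' (g : Matrix (Fin n) (Fin n) F)) 1 μ → inv g = μ := by
    intro g μ h
    simp [inv, HasED.elemDiv_eq h]
  have key := card_conjClasses_eq (fun g : GL (Fin n) F => ∃ k : ℕ, orderOf g = p ^ k) inv
    (fun μ => (∀ e ∈ μ, 0 < e) ∧ μ.sum = n) ?_ ?_ ?_
  · simp only [and_comm] at key ⊢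
    rw [key, ← Nat.card_eq_fintype_card]
    exact Nat.card_congr
      { toFun := fun μ => ⟨μ.1, fun {i} hi => μ.2.2 i hi, μ.2.1⟩
        invFun := fun P => ⟨P.parts, P.parts_sum, fun _ hi => P.parts_pos hi⟩
        left_inv := fun _ => rfl
        right_inv := fun _ => rfl }
  · intro g h hg hh
    obtain ⟨μ, hμ⟩ := exists_hasJT_one ((hU g).1 hg)
    obtain ⟨ν, hν⟩ := exists_hasJT_one ((hU h).1 hh)
    rw [isConj_units_iff, hinv g μ hμ, hinv h ν hν]
    exact hμ.isConj_iff hν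
  · intro g hg
    obtain ⟨μ, hμ⟩ := exists_hasJT_one ((hU g).1 hg)
    rw [hinv g μ hμ]
    exact ⟨hμ.pos, by simpa using hμ.sum_eq_card⟩
  · rintro μ ⟨h1, h2⟩
    obtain ⟨A, hA⟩ := exists_matrix_hasJT (n := Fin n) (1 : F) h1 (by simpa using h2)
    let g : GL (Fin n) F := Matrix.GeneralLinearGroup.mkOfDetNeZero A
      (by rw [hA.det_eq_one]; exact one_ne_zero)
    exact ⟨g, (hU g).2 hA.isNilpotent_sub_one, hinv g μ hA⟩

end Cfsg.Agent.S2317
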