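import Cfsg.Statements.S2319
import Cfsg.Agent.CHEV.HeckeCent
import Cfsg.Agent.CHEV.OrderGlue
import Cfsg.Agent.CHEV.StGlue

set_option autoImplicit false
open Cfsg

namespace Cfsg.Agent.S2319

set_option backward.isDefEq.respectTransparency false

/-- In a Chevalley group of type G₂, B₂, D₄, F₄, E₆, E₇ or E₈ over a finite field, the number of distinct irreducible constituents of the permutation character on the cosets of B = UH equals the number of conjugacy classes (equivalently, of irreducible characters) of the Weyl group, the Coxeter group of the type with nodes numbered as the fundamental roots. -/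
theorem result {F : Type*} [Field F] [Fintype F]
    (dw : Cfsg.Lie.ChevalleyDatum × (Σ n : ℕ, CoxeterMatrix (Fin n)))
    (hdw : dw ∈ [(Cfsg.Lie.chevG2, ⟨2, CoxeterMatrix.G₂⟩), (Cfsg.Lie.chevB2, ⟨2, CoxeterMatrix.B 2⟩), (Cfsg.Lie.chevD4, ⟨4, Cfsg.Lie.coxeterD4⟩), (Cfsg.Lie.chevF4, ⟨4, CoxeterMatrix.F₄⟩),
      (Cfsg.Lie.chevE6, ⟨6, CoxeterMatrix.E₆⟩), (Cfsg.Lie.chevE7, ⟨7, CoxeterMatrix.E₇⟩), (Cfsg.Lie.chevE8, ⟨8, CoxeterMatrix.E₈⟩)]) :
    Nat.card {χ : Cfsg.IrrCharacter ↥(dw.1.group F) //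
      ∃ φ : ↥(dw.1.group F) → ℂ, Cfsg.IsCharacter ↥(dw.1.group F) φ ∧
        Cfsg.fixedPointCharacter ((dw.1.borelSubgroup F).subgroupOf (dw.1.group F)) = (χ : ↥(dw.1.group F) → ℂ) + φ} =
      Nat.card (ConjClasses dw.2.2.Group) := by
  have key : ∀ (D : Cfsg.Lie.ChevalleyDatum) [CL.Chev.Good D] {H : Type} [Group H],
      ((CL.Chev.rootSys D).W ≃* H) →
      Nat.card {χ : Cfsg.IrrCharacter ↥(D.group F) //
        ∃ φ : ↥(D.group F) → ℂ, Cfsg.IsCharacter ↥(D.group F) φ ∧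
          Cfsg.fixedPointCharacter ((D.borelSubgroup F).subgroupOf (D.group F)) = (χ : ↥(D.group F) → ℂ) + φ} =
        Nat.card (ConjClasses H) := by
    intro D _ H _ e
    rw [← CL.Chev.stG_B, ← CL.Nil.card_conjClasses_congr e]
    exact (CL.Chev.stG_good (D := D) (F := F)).card_constituents CL.Chev.stG_top
  simp only [List.mem_cons, List.not_mem_nil, or_false] at hdw
  rcases hdw with rfl | rfl | rfl | rfl | rfl | rfl | rfl
  · exact key Cfsg.Lie.chevG2 (CL.Chev.RootSys.IsCox.exists_mulEquiv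
      (CL.Chev.isCox_G2 (CL.Chev.of_rootSys_A Cfsg.Lie.chevG2))).choose
  · exact key Cfsg.Lie.chevB2 (CL.Chev.RootSys.IsCox.exists_mulEquiv
      (CL.Chev.isCox_B2 (CL.Chev.of_rootSys_A Cfsg.Lie.chevB2))).choose
  · exact key Cfsg.Lie.chevD4 (CL.Chev.RootSys.IsCox.exists_mulEquiv
      (CL.Chev.isCox_D4 (CL.Chev.of_rootSys_A Cfsg.Lie.chevD4))).choose
  · exact key Cfsg.Lie.chevF4 (CL.Chev.RootSys.IsCox.exists_mulEquiv
      (CL.Chev.isCox_F4 (CL.Chev.of_rootSys_A Cfsg.Lie.chevF4))).choose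
  · exact key Cfsg.Lie.chevE6 (CL.Chev.RootSys.IsCox.exists_mulEquiv
      (CL.Chev.isCox_E6 (CL.Chev.of_rootSys_A Cfsg.Lie.chevE6))).choose
  · exact key Cfsg.Lie.chevE7 (CL.Chev.RootSys.IsCox.exists_mulEquiv
      (CL.Chev.isCox_E7 (CL.Chev.of_rootSys_A Cfsg.Lie.chevE7))).choose
  · exact key Cfsg.Lie.chevE8 (CL.Chev.RootSys.IsCox.exists_mulEquiv
      (CL.Chev.isCox_E8 (CL.Chev.of_rootSys_A Cfsg.Lie.chevE8))).choose

end Cfsg.Agent.S2319
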