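import Cfsg.Statements.S2320
import Cfsg.Agent.KSG.GL2Char

set_option autoImplicit false
open Cfsg CL.GL2

namespace Cfsg.Agent.S2320

/-- Over a finite field F with q elements, every irreducible complex character of GL₂ of degree q takes a value of absolute value 1 at every diagonal matrix with two different diagonal entries and at every element with no eigenvector in F². -/
theorem result {F : Type*} [Field F] [Fintype F] (χ : Matrix.GeneralLinearGroup (Fin 2) F → ℂ) (hχ : Cfsg.IsIrrCharacter (Matrix.GeneralLinearGroup (Fin 2) F) χ) (hdeg : χ 1 = (Fintype.card F : ℂ)) (g : Matrix.GeneralLinearGroup (Fin 2) F) :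
    ((g : Matrix (Fin 2) (Fin 2) F) 0 1 = 0 → (g : Matrix (Fin 2) (Fin 2) F) 1 0 = 0 → (g : Matrix (Fin 2) (Fin 2) F) 0 0 ≠ (g : Matrix (Fin 2) (Fin 2) F) 1 1 → ‖χ g‖ = 1) ∧
    ((∀ (c : F) (v : Fin 2 → F), v ≠ 0 → (g : Matrix (Fin 2) (Fin 2) F).mulVec v ≠ c • v) → ‖χ g‖ = 1) := by
  classical
  obtain ⟨m, hm, -⟩ := exists_noEig_det_one (F := F)
  have := Fact.mk hm
  have h1 := card_cast_sub_one_ne_zero (F := F)
  have e1 : (1 : ℂ) ≠ 0 := one_ne_zero
  rcases irr_GL_cases m hχ with ⟨α, rfl⟩ | ⟨α, rfl⟩ | ⟨α, β, -, rfl⟩ | ⟨θ, -, rfl⟩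
  · rw [linG_one] at hdeg
    exact absurd (by linear_combination -hdeg) h1
  · refine ⟨fun h1 h2 h3 => ?_, fun h => ?_⟩
    · rw [stG_split α (x := (g : Matrix (Fin 2) (Fin 2) F) 0 0) (by rw [cp_eq, h2]; ring)
        (by rw [Matrix.trace_fin_two, add_sub_cancel_left]; exact h3.symm),
        norm_mulChar α (det_GL_ne_zero g)]
    · rw [stG_noEig α h, norm_neg, norm_mulChar α (det_GL_ne_zero g)]
  · rw [psG_one] at hdeg
    exact absurd (by linear_combination hdeg) e1
  · rw [dsG_one] at hdeg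
    exact absurd (by linear_combination -hdeg) e1

end Cfsg.Agent.S2320
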