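import Cfsg.Statements.S2322
import Cfsg.Agent.KSG.SL2Table

set_option autoImplicit false
open Cfsg CL.GL2 CL.Char

namespace Cfsg.Agent.S2322

/-- Over a finite field F with q elements, q odd: every irreducible complex character of SL₂ of degree q − 1 or (q − 1)/2 vanishes at every diagonal matrix whose diagonal entry a has a² ≠ 1, and every irreducible complex character of degree q + 1 or (q + 1)/2 vanishes at every element with no eigenvector in F². -/
theorem result {F : Type*} [Field F] [Fintype F] (hodd : Odd (Fintype.card F)) (χ : Matrix.SpecialLinearGroup (Fin 2) F → ℂ) (hχ : Cfsg.IsIrrCharacter (Matrix.SpecialLinearGroup (Fin 2) F) χ) (g : Matrix.SpecialLinearGroup (Fin 2) F) :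
    ((χ 1 = (Fintype.card F : ℂ) - 1 ∨ χ 1 = (((Fintype.card F - 1) / 2 : ℕ) : ℂ)) →
      (g : Matrix (Fin 2) (Fin 2) F) 0 1 = 0 → (g : Matrix (Fin 2) (Fin 2) F) 1 0 = 0 → (g : Matrix (Fin 2) (Fin 2) F) 0 0 ^ 2 ≠ 1 → χ g = 0) ∧
    ((χ 1 = (Fintype.card F : ℂ) + 1 ∨ χ 1 = (((Fintype.card F + 1) / 2 : ℕ) : ℂ)) →
      (∀ (c : F) (v : Fin 2 → F), v ≠ 0 → (g : Matrix (Fin 2) (Fin 2) F).mulVec v ≠ c • v) → χ g = 0) := by
  classical
  obtain ⟨k, hk⟩ := id hodd
  have h1 : 1 < Fintype.card F := Fintype.one_lt_card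
  refine ⟨fun h _ h2 h3 => ?_, fun h hg => ?_⟩
  · have hne := diag_ne_of_sq_ne h2 h3
    have hq : 5 ≤ Fintype.card F := by
      by_contra hc
      apply h3
      have ha : (g : Matrix (Fin 2) (Fin 2) F) 0 0 ≠ 0 :=
        left_ne_zero_of_mul_eq_one (diag_mul_eq_one h2)
      have := FiniteField.pow_card_sub_one_eq_one _ ha
      rwa [show Fintype.card F - 1 = 2 by omega] at this
    obtain ⟨m, hm, -⟩ := exists_noEig_det_one (F := F)
    have := Fact.mk hm
    rcases h with h | h
    · obtain ⟨η, -, rfl⟩ := eq_dsL_of_degree (by omega) m hχ h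
      exact ds_upper _ h2 hne
    · obtain ⟨ν, hν⟩ := exists_nonsquare_unit hodd
      obtain ⟨η, e2, e1⟩ := exists_torChar_sq m hodd
      have := (isHalf_dsL_of_degree hodd hq hν e2 e1 hχ h).two_mul_sep (g := g)
        (sep_of_root (upper_cp h2) (by rw [upper_trace_sub]; exact hne.symm))
      rw [dsL, ds_upper _ h2 hne] at this
      simpa using this
  · rcases h with h | h
    · obtain ⟨α, -, rfl⟩ := eq_psL_of_degree hχ h
      exact ps_noEig _ hg
    · have := Fact.mk (show NoEig _ from hg)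
      obtain ⟨ν, -, H⟩ := irr_SL_table (g : Matrix (Fin 2) (Fin 2) F)
      rcases H hχ h with h | h | h | ⟨h, η, hη, rfl⟩ | ⟨-, -, α, -, -, h⟩ | h
      · omega
      · omega
      · omega
      · have := dsL_cent η ⟨g, mem_centSL.2 rfl⟩ (NoEig.not_isScal hg)
        rw [torChar_add_inv_three (by omega) hη ⟨g, mem_centSL.2 rfl⟩ (NoEig.not_isScal hg)] at this
        simpa using this
      · have := h.two_mul_sep (g := g) (NoEig.sep hg)
        rw [psL, ps_noEig _ hg] at this
        simpa using this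
      · omega

end Cfsg.Agent.S2322
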