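import Cfsg.Statements.S2328
import Cfsg.Agent.CHEV.StGlue
import Cfsg.Agent.BLK.DefZero
import Cfsg.Agent.BLK.GRoots

set_option autoImplicit false
open Cfsg

namespace Cfsg.Agent.S2328

/-- In a Chevalley group of type G₂, B₂, D₄, F₄, E₆, E₇ or E₈ over a finite field of characteristic p, the Steinberg character vanishes at every element whose order is divisible by p (every element that is not semisimple). -/
theorem result {F : Type*} [Field F] [Fintype F] (p : ℕ) [Fact p.Prime] [CharP F p] (D : Cfsg.Lie.ChevalleyDatum) (hD : D ∈ [Cfsg.Lie.chevG2, Cfsg.Lie.chevB2, Cfsg.Lie.chevD4, Cfsg.Lie.chevF4, Cfsg.Lie.chevE6, Cfsg.Lie.chevE7, Cfsg.Lie.chevE8]) (g : ↥(D.group F)) (hg : p ∣ orderOf g) :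
    D.steinbergCharacter F g = 0 := by
  obtain ⟨_⟩ := CL.Chev.good_of_mem hD
  have := Fintype.ofFinite (D.group F)
  obtain ⟨M, hM⟩ := CL.Glb.exists_isPModular (Fact.out : p.Prime)
  rw [CL.Chev.steinbergCharacter_eq]
  refine CL.Blk.DefZero.vanish hM (χ := ⟨_, CL.BN.isIrr_st _ (CL.Chev.stG_good.idx_surjective _)⟩) ?_ hg
  rw [CL.Blk.defZero_iff_pow_dvd Fact.out, Cfsg.charDegree, Subtype.coe_mk, CL.Chev.stG_good.st_one, Complex.natCast_re,
    Nat.floor_natCast, (CL.Chev.sylIn_stG_U D F p).card_eq_pow_factorization, Subgroup.card_top]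

end Cfsg.Agent.S2328
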