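import Cfsg.Statements.S2329
import Cfsg.Agent.KSG.GL2Classes

set_option autoImplicit false
open Cfsg

namespace Cfsg.Agent.S2329

/-- Over a finite field of characteristic p, any two elements of order p of GL₂ are conjugate: there is a single conjugacy class of non-identity unipotent elements. -/
theorem result {F : Type*} [Field F] [Fintype F] (p : ℕ) [Fact p.Prime] [CharP F p] (g h : Matrix.GeneralLinearGroup (Fin 2) F)
    (hg : orderOf g = p) (hh : orderOf h = p) : IsConj g h := by
  obtain ⟨g1, g2, g3⟩ := (CL.GL2.orderOf_GL_eq_char_iff p).1 hg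
  obtain ⟨h1, h2, h3⟩ := (CL.GL2.orderOf_GL_eq_char_iff p).1 hh
  exact CL.GL2.isConj_GL_of_trace_det
    (CL.GL2.not_isScal_of_trace_two (fun e => g1 (Units.ext e)) g2 g3)
    (CL.GL2.not_isScal_of_trace_two (fun e => h1 (Units.ext e)) h2 h3)
    (h2.trans g2.symm) (h3.trans g3.symm)

end Cfsg.Agent.S2329
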