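import Mathlib
import Cfsg.Statements.S2362
import Cfsg.Agent.KSG.OrthSpec
import Cfsg.Agent.KSG.GLnSylow

set_option autoImplicit false
open Cfsg

namespace Cfsg.Agent.S2362

open Module CL.Witt CL.Witt.Form CL.GLn CL.SpU CL.PrimeCl Polynomial QuadraticMap CL.Orth

theorem spSpec_aux {F : Type*} [Field F] [Fintype F] (htwo : (2 : F) ≠ 0) (p : ℕ) [Fact p.Prime]
    [CharP F p] {j : ℕ} (hj : 0 < j) : SpSpec F (j + 1) (p.lcm (Fintype.card F ^ j + 1)) := by
  have hq : 2 ≤ Fintype.card F := Fintype.one_lt_card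
  have : NeZero (2 * j) := ⟨by omega⟩
  obtain ⟨x, hx⟩ := exists_orderOf_eq_of_dvd (K := FiniteField.Extension F p (2 * j))
    (m := Fintype.card F ^ j + 1) (by
      rw [natCard_extension', pow_mul', ← one_pow 2, Nat.sq_sub_sq]; exact dvd_mul_right _ _)
  have hfr := FiniteField.finrank_extension F p (2 * j)
  let L := Algebra.lmul F (FiniteField.Extension F p (2 * j))
  have hL : Function.Injective L := Algebra.lmul_injective
  have h1 : L (x⁻¹ : _ˣ) * L x = 1 := by rw [← map_mul, Units.inv_mul, map_one]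
  have h4 : x ^ (Fintype.card F ^ j + 1) = 1 := by rw [← hx, pow_orderOf_eq_one]
  have h5 : x ^ 2 ≠ 1 := by
    rw [Ne, ← orderOf_dvd_iff_pow_eq_one, hx]
    intro h
    have := Nat.le_of_dvd two_pos h
    have := Nat.one_lt_pow hj.ne' hq
    omega
  have h6 : IsReal (FormType.alt F) (L x) := by
    refine isReal_alt_of_simil_inv (by rw [hfr]; exact even_two_mul j) h1
      ⟨(FiniteField.frobeniusAlgEquivOfAlgebraic F _ ^ j).toLinearEquiv, fun v => ?_⟩ ?_
    · change (FiniteField.frobeniusAlgEquivOfAlgebraic F _ ^ j) (x * v) =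
        (x⁻¹ : _ˣ) * (FiniteField.frobeniusAlgEquivOfAlgebraic F _ ^ j) v
      rw [map_mul]
      congr 1
      rw [AlgEquiv.coe_pow, FiniteField.coe_frobeniusAlgEquivOfAlgebraic, pow_iterate,
        ← eq_inv_of_mul_eq_one_left ((pow_succ _ _).symm.trans h4), Units.val_pow_eq_pow_val]
    · rw [← map_pow, ← map_one L, ← map_sub]
      refine (IsUnit.mk0 _ (sub_ne_zero.2 fun h => h5 (Units.ext ?_))).map L
      rw [Units.val_pow_eq_pow_val, h, Units.val_one]
  obtain ⟨A, h7, h8⟩ := exists_alt_char (F := F) p one_pos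
  have := nontrivial_of_orderOf htwo (h8 ▸ (Fact.out : p.Prime).ne_one)
  have h9 := pOrd_prodMap htwo (h8 ▸ odd_char htwo) (L x)
  rw [h8, show orderOf (L x) = _ from (orderOf_injective L.toMonoidHom hL _).trans
    (orderOf_units.trans hx)] at h9
  exact SpSpec.of (by rw [finrank_prod, hfr, CL.Sp.finrank_sp]; ring) (h7.prodMap h6) h9

variable {F : Type*} [Field F] [Fintype F] {V : Type*} [AddCommGroup V] [Module F V]
  [FiniteDimensional F V] {Q : QuadraticForm F V}

omit [FiniteDimensional F V] in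
theorem aeval_pow_card (A : Module.End F V) (φ : F[X]) (j : ℕ) :
    aeval (A ^ Fintype.card F ^ j) φ = aeval A φ ^ Fintype.card F ^ j := by
  induction j generalizing φ with
  | zero => simp
  | succ j ih =>
    rw [pow_succ, pow_mul, ← expand_aeval, FiniteField.expand_card, map_pow, ih, ← pow_mul]

theorem pow_eq_one_of_aeval (hQ : (polarBilin Q).Nondegenerate) {t a : O Q} {j : ℕ}
    (ht : t ^ (Fintype.card F ^ j + 1) = 1) {φ : F[X]} (ha : toEnd Q a = aeval (toEnd Q t) φ) :
    a ^ (Fintype.card F ^ j + 1) = 1 := by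
  have hf := (ofQuad_nondeg_iff Q).2 hQ
  have h1 : adj hf (toEnd Q t) = toEnd Q t ^ Fintype.card F ^ j := by
    rw [← one_mul (adj hf _), ← map_one (toEnd Q), ← ht, map_pow, pow_succ, mul_assoc,
      mul_adj_self hf (isIsom_toEnd t), mul_one]
  have h2 := adj_mul_self hf (isIsom_toEnd a)
  have h3 := adj_aeval hf (toEnd Q t) φ
  rw [show φ.map (FormType.quad F).σ = φ from Polynomial.map_id, h1, aeval_pow_card, ← ha] at h3
  exact toEnd_injective (by rw [map_pow, pow_succ, ← h3, h2, map_one])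

theorem eq_one_of_commute_unip (htwo : (2 : F) ≠ 0) (p : ℕ) [Fact p.Prime] [CharP F p]
    (hQ : (polarBilin Q).Nondegenerate) (hV : finrank F V = 3) {u s : O Q} (hu : orderOf u = p)
    (hc : Commute s u) {N : ℕ} (hN : (N : F) ≠ 0) (hs : s ^ N = 1) (hd : dsign s = 1) : s = 1 := by
  have : Nontrivial V := Module.nontrivial_of_finrank_pos (R := F) (by omega)
  have : CharP (Module.End F V) p := charP_of_injective_algebraMap' F p
  obtain ⟨μ, hμ⟩ := exists_hasJT (A := toEnd Q u) (a := 1) ⟨p, by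
    rw [map_one, sub_pow_char_of_commute _ (Commute.one_right _), ← map_pow, ← hu,
      pow_orderOf_eq_one, map_one, one_pow, sub_self]⟩
  have h1 := hμ.eq_singleton_of_pow_ne_zero fun h => (Fact.out : p.Prime).ne_one (by
    rw [hV, hμ.pow_eq_zero_iff] at h
    have h2 : 2 ∉ μ := fun h2 => by
      obtain ⟨k, hk⟩ := even_count_quad htwo (isReal_quad_iff.2 ⟨Q, hQ, u.2⟩) hμ even_two two_pos
      have := Multiset.count_pos.2 h2
      obtain ⟨ν, rfl⟩ := Multiset.le_iff_exists_add.1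
        (Multiset.le_count_iff_replicate_le.1 (show 2 ≤ μ.count 2 by omega))
      have := hμ.sum_eq
      simp [hV] at this
      omega
    have h3 := (hμ.pow_eq_zero_iff 1).2 fun e he => by
      have := h e he
      have : e ≠ 2 := fun h => h2 (h ▸ he)
      omega
    rw [pow_one, map_one, sub_eq_zero, ← map_one (toEnd Q), toEnd_injective.eq_iff] at h3
    rw [← hu, h3, orderOf_one])
  obtain ⟨c, ρ, h2, h3⟩ := exists_eq_add_mul_of_commute (h1 ▸ hμ) (hc.map (toEnd Q))
  have h4 := Module.End.eq_zero_of_isNilpotent_isSemisimple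
    (sub_eq_iff_eq_add'.2 h2 ▸ isNilpotent_mul_of_commute hμ.isNilpotent h3)
    (Module.End.isSemisimple_sub_algebraMap_iff.2 (isSemisimple_of_pow_eq_one hN
      (by rw [← map_pow, hs, map_one])))
  rw [sub_eq_zero] at h4
  by_cases h5 : c = 1
  · exact toEnd_injective (by rw [h4, h5, map_one, map_one])
  · have h6 : moved s = ⊤ := (LinearMap.isUnit_iff_range_eq_top (toEnd Q s - 1)).1 (by
      rw [h4, ← map_one (algebraMap F _), ← map_sub]
      exact (IsUnit.mk0 _ (sub_ne_zero.2 h5)).map _)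
    rw [dsign_eq_one_iff, h6, finrank_top, hV] at hd
    exact absurd hd (by decide)

theorem not_omSpec (htwo : (2 : F) ≠ 0) (p : ℕ) [Fact p.Prime] [CharP F p]
    (hQ : (polarBilin Q).Nondegenerate) {j : ℕ} (hj : 2 ≤ j) (hV : finrank F V = 2 * j + 3) :
    ¬ OmSpec Q (p * (Fintype.card F ^ j + 1)) := by
  rintro ⟨g, hg1, hg2, hg⟩
  have hp : p.Prime := Fact.out
  have hq : 1 < Fintype.card F := Fintype.one_lt_card
  have hF := card_ne_two_of_two_ne_zero htwo
  obtain ⟨r, hr, hr'⟩ := CL.Zsig.exists_prime_orderOf_eq_of_three_le hq (n := 2 * j) (by omega)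
    fun h => hF (Nat.card_eq_fintype_card.trans h.1)
  have := Fact.mk hr
  have hr0 : (r : F) ≠ 0 := fun e => by
    obtain rfl := (Nat.prime_dvd_prime_iff_eq hp hr).1 ((CharP.cast_eq_zero_iff F p r).1 e)
    obtain ⟨k, -, hk⟩ := FiniteField.card F p
    exact CL.Zsig.not_dvd_of_orderOf_ne_zero hr (by omega) (hk ▸ dvd_pow_self p k.ne_zero)
  have hr2 : r ≠ 2 := by
    rintro rfl
    have := orderOf_le_card_univ (x := ((Fintype.card F : ℕ) : ZMod 2))
    rw [ZMod.card] at this
    omega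
  have hrN : r ∣ Fintype.card F ^ j + 1 := by
    have h1 := (CL.Zsig.orderOf_dvd_iff hq.le).1 hr'.dvd
    rw [pow_mul', ← one_pow 2, Nat.sq_sub_sq] at h1
    refine (hr.dvd_mul.1 h1).resolve_right fun h => ?_
    have := Nat.le_of_dvd (by omega) (hr' ▸ (CL.Zsig.orderOf_dvd_iff hq.le).2 h)
    omega
  have hN : ((Fintype.card F ^ j + 1 : ℕ) : F) ≠ 0 := by
    simp [zero_pow (show j ≠ 0 by omega)]
  generalize hNN : Fintype.card F ^ j + 1 = N at hg hrN hN
  have hN0 : N ≠ 0 := by omega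
  obtain ⟨t₀, ht₀, ht⟩ : ∃ t₀, Commute g t₀ ∧ orderOf t₀ = r := ⟨_, Commute.self_pow g _,
    orderOf_pow_orderOf_div (by rw [hg]; exact mul_ne_zero hp.ne_zero hN0) (hg ▸ hrN.mul_left p)⟩
  obtain ⟨hc, t, hQ', h1, h2, h3, h4⟩ := exists_glue htwo hQ
    (by rw [ht]; exact hr.odd_of_ne_two hr2) (by rwa [ht])
  rw [ht] at h1
  have ht1 : t ^ r = 1 := h1 ▸ pow_orderOf_eq_one t
  have ht2 : t ≠ 1 := fun e => hr.ne_one (by rw [← h1, e, orderOf_one])
  obtain ⟨m, hm⟩ := exists_hasM_zero hr0 (A := toEnd _ t) (by rw [← map_pow, ht1, map_one])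
    fun x hx => ((Module.End.isUnit_iff _).1 h2).1 ((sub_eq_zero.2 hx).trans (map_zero _).symm)
  have h5 := hm.finrank_eq hr0
  have h6 := finrank_perp hQ (moved t₀)
  rw [show ord F r = 2 * j from hr'] at h5
  obtain ⟨P, rfl⟩ : ∃ P, m = {P} := by
    have h7 : m.card ≠ 0 := fun e => ht2 (toEnd_injective
      (((hm.eq_one_iff hr0).2 (Multiset.card_eq_zero.1 e)).trans (map_one _).symm))
    refine Multiset.card_eq_one.1 (by_contra fun e => ?_)
    have := Nat.mul_le_mul_left (2 * j) (show 2 ≤ m.card by omega)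
    omega
  have h7 := hm.simil_cyc hr0 (Multiset.nodup_singleton P)
  rw [Multiset.prod_singleton] at h7
  have h8 : ∀ a, Commute a t → a ^ N = 1 := fun a ha => by
    obtain ⟨φ, hφ⟩ := exists_aeval_of_simil_cyc h7 (ha.map (toEnd _))
    rw [← hNN]
    exact pow_eq_one_of_aeval hQ' (orderOf_dvd_iff_pow_eq_one.1 (by rwa [h1, hNN])) hφ
  obtain ⟨a, b, h9, h10⟩ := h4 g ht₀
  have h11 : ∀ k, g ^ k = glue hc (a ^ k, b ^ k) := fun k => by rw [h9, ← map_pow]; rfl
  have hF' : ∀ k, Nat.card F ≠ 2 ∨ k ≠ 4 := fun _ => Or.inl hF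
  have h12 : b ^ p = 1 := by
    refine eq_one_of_commute_unip htwo p (restrict_perp_nondeg hQ hc.inf_eq_bot)
      (by simp at h5; omega) (u := b ^ N) ?_ (Commute.pow_pow_self b _ _) hN ?_ ?_
    · have := orderOf_pow_of_dvd hN0 (hg ▸ dvd_mul_left N p)
      rwa [h11, orderOf_glue, h8 a h10, orderOf_one, Nat.lcm_one_left, hg,
        Nat.mul_div_cancel _ (by omega)] at this
    · have := h11 (p * N)
      rw [← hg, pow_orderOf_eq_one, ← map_one (glue hc), (glue_injective hc).eq_iff, hg] at this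
      rw [← pow_mul]
      exact (congrArg Prod.snd this).symm
    · have := (dickson hQ (hF' _)).map_pow g p
      rwa [dickson_apply, dickson_apply, hg1, one_pow, h11, dsign_glue,
        dsign_of_commute htwo hQ' h3 (h10.pow_left p), one_mul] at this
  have h13 : orderOf (a ^ p) = N := by
    have := orderOf_pow_of_dvd hp.ne_zero (hg ▸ dvd_mul_right p N)
    rwa [h11, orderOf_glue, h12, orderOf_one, Nat.lcm_one_right, hg,
      Nat.mul_div_cancel_left _ hp.pos] at this
  have h14 : spin (a ^ p) = 1 := by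
    have := (spinor hQ (hF' _)).map_pow g p
    rwa [spinor_apply, spinor_apply, hg2, one_pow, h11, spin_glue hQ, h12, spin_one,
      mul_one] at this
  obtain ⟨h, e1, -, e3⟩ := exists_commute_spin htwo hr0 hr2 hQ' ht1 ht2
  obtain ⟨φ, hφ⟩ := exists_aeval_of_simil_cyc h7 ((h10.pow_left p).map (toEnd _))
  obtain ⟨ψ, hψ⟩ := exists_aeval_of_simil_cyc h7 (e1.map (toEnd _))
  have h15 : ∀ φ ψ : F[X], aeval (toEnd _ t) φ = aeval (toEnd _ t) ψ ↔
      AdjoinRoot.mk P φ = AdjoinRoot.mk P ψ := fun φ ψ => by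
    rw [← sub_eq_zero, ← map_sub, h7.aeval_eq_zero_iff, AdjoinRoot.mk_eq_mk,
      ← AdjoinRoot.mk_eq_zero]
    exact ⟨fun h => by simpa [aeval_cyc_apply] using LinearMap.congr_fun h 1,
      fun h => LinearMap.ext fun v => by rw [aeval_cyc_apply, h, zero_mul]; rfl⟩
  have h16 : ∀ {a φ}, toEnd (Q.restrict _) a = aeval (toEnd _ t) φ → ∀ k,
      a ^ k = 1 ↔ AdjoinRoot.mk P φ ^ k = 1 := fun ha k => by
    rw [← map_pow, ← map_one (AdjoinRoot.mk P), ← h15, map_pow, ← ha, map_one, ← map_pow,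
      ← map_one (toEnd _), toEnd_injective.eq_iff]
  have := Fact.mk (mem_cycFactors.1 (hm.mem P (Multiset.mem_singleton_self P))).1
  have : NeZero N := ⟨hN0⟩
  have h17 := IsPrimitiveRoot.orderOf (AdjoinRoot.mk P φ)
  rw [← orderOf_eq_orderOf_iff.2 (h16 hφ), h13] at h17
  obtain ⟨i, -, hi⟩ := h17.eq_pow_of_pow_eq_one ((h16 hψ N).1 (h8 h e1))
  rw [← map_pow, ← h15, map_pow, ← hφ, ← hψ, ← map_pow, toEnd_injective.eq_iff] at hi
  have := (spinor hQ' (hF' _)).map_pow (a ^ p) i
  rw [hi, spinor_apply, spinor_apply, e3, h14, one_pow] at this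
  exact absurd this (by decide)

/-- Let F be a finite field of odd order and n ≥ 3. The simple orthogonal group PΩ(2n+1, F) (type B_n) and the projective symplectic group PSp(2n, F) (type C_n), which have the same order, do not have the same set of element orders. -/
theorem result {F : Type*} [Field F] [Fintype F] (hodd : Odd (Fintype.card F)) (n : ℕ) (hn : 3 ≤ n) :
    Set.range (orderOf : Cfsg.POmega F (Cfsg.quadFormOdd n F) → ℕ) ≠ Set.range (orderOf : Cfsg.PSp n F → ℕ) := by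
  have h2 := CL.Orth.two_ne_zero_of_odd_card hodd
  obtain ⟨p, _⟩ := CharP.exists F
  have := Fact.mk (CharP.char_is_prime F p)
  obtain ⟨j, rfl⟩ : ∃ j, n = j + 1 := ⟨n - 1, by omega⟩
  intro h
  have h1 := spSpec_aux h2 p (j := j) (by omega)
  rw [← mem_range_PSp_iff, ← h, mem_range_POmega_iff h2 (by omega), Nat.Coprime.lcm_eq_mul] at h1
  · exact not_omSpec h2 p (QOdd_nondeg _ F h2) (by omega) (by simp; omega) h1
  · obtain ⟨k, hp, hk⟩ := FiniteField.card F p
    rw [hp.coprime_iff_not_dvd, Nat.dvd_add_right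
      (hk ▸ (dvd_pow_self p k.ne_zero).trans (dvd_pow_self _ (by omega)))]
    exact hp.not_dvd_one

end Cfsg.Agent.S2362
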