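import Cfsg.Statements.S2365
import Cfsg.Agent.CLAS.UniEig

set_option autoImplicit false
open Cfsg

namespace Cfsg.Agent.S2365

/-- Let q be a power of the prime p, F the field with q² elements, m ≥ 4, and let a, b be commuting elements of PSU(m, q) with a of order p. Then every prime divisor of the order of b divides the order of SU(m − 2, q). -/
theorem result {F : Type*} [Field F] [Fintype F] (p : ℕ) [Fact p.Prime] [CharP F p] (m q : ℕ) (hm : 4 ≤ m) (hF : Fintype.card F = q ^ 2)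
    (a b : Cfsg.PSU m F q) (ha : orderOf a = p) (hab : Commute a b) :
    (orderOf b).primeFactors ⊆ (Nat.card ↥(Cfsg.SU (m - 2) F q)).primeFactors := by
  open CL.Uni in
  intro r hr
  obtain ⟨hr, hrb, hb0⟩ := Nat.mem_primeFactors.1 hr
  refine Nat.mem_primeFactors.2 ⟨hr, ?_, Nat.card_pos.ne'⟩
  have := Fact.mk hr
  have hp : p.Prime := Fact.out
  have hpq : p ∣ q := (CharP.cast_eq_zero_iff F p q).1 (CL.SqField.cast_q hF)
  by_cases hrp : r = p
  · exact hrp ▸ hpq.trans (q_dvd_card_SU hF (by omega))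
  by_cases hq1 : r ∣ q + 1
  · refine dvd_card_SU hF le_rfl (by omega) ?_
    rw [← ZMod.natCast_eq_zero_iff] at hq1
    push_cast at hq1
    linear_combination ((q : ZMod r) - 1) * hq1
  set Z := Subgroup.center ↥(Cfsg.SU m F q)
  have hZ : Nat.card Z ∣ q + 1 := by
    rw [card_center_SU hF (by omega)]; exact Nat.gcd_dvd_right _ _
  have lift : ∀ {s : ℕ}, s.Prime → ¬ s ∣ q + 1 → ∀ x : Cfsg.PSU m F q, orderOf x = s →
      ∃ X : ↥(Cfsg.SU m F q), X ^ s = 1 ∧ X ≠ 1 ∧ ∃ k : ℕ, (X : Cfsg.PSU m F q) = x ^ k := by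
    intro s hs hsq x hx
    obtain ⟨X, rfl⟩ := QuotientGroup.mk_surjective x
    have h1 : X ^ s ∈ Z := by
      rw [← QuotientGroup.eq_one_iff, QuotientGroup.mk_pow, ← hx, pow_orderOf_eq_one]
    refine ⟨X ^ Nat.card Z, ?_, fun h => hsq (dvd_trans ?_ hZ), Nat.card Z, rfl⟩
    · rw [← pow_mul, mul_comm, pow_mul]
      exact congrArg Subtype.val (pow_card_eq_one' (x := (⟨_, h1⟩ : Z)))
    · rw [← hx, orderOf_dvd_iff_pow_eq_one, ← QuotientGroup.mk_pow, h, QuotientGroup.mk_one]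
  have hpq1 : ¬ p ∣ q + 1 := fun h => hp.one_lt.ne' (Nat.dvd_one.1 ((Nat.dvd_add_right hpq).1 h))
  obtain ⟨A, hA, hA1, k, hAk⟩ := lift hp hpq1 a ha
  obtain ⟨B, hB, hB1, l, hBl⟩ := lift hr hq1 (b ^ (orderOf b / r)) (orderOf_pow_orderOf_div hb0 hrb)
  have hc : Commute A B := by
    have h1 : Commute (A : Cfsg.PSU m F q) B := by
      rw [hAk, hBl]; exact (hab.pow_right _).pow_pow _ _
    have h2 : A * B * A⁻¹ * B⁻¹ ∈ Z := by
      rw [← QuotientGroup.eq_one_iff]
      exact commutatorElement_eq_one_iff_commute.2 h1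
    have h3 : (A * B * A⁻¹ * B⁻¹) ^ r = 1 := by
      have := (Commute.mul_pow (Subgroup.mem_center_iff.1 h2 B).symm r).symm
      rwa [hB, mul_one, inv_mul_cancel_right, conj_pow, hB, mul_one, mul_inv_cancel] at this
    have h4 : (A * B * A⁻¹ * B⁻¹) ^ Nat.card Z = 1 :=
      congrArg Subtype.val (pow_card_eq_one' (x := (⟨_, h2⟩ : Z)))
    have h5 := pow_gcd_eq_one.2 ⟨h3, h4⟩
    rw [(hr.coprime_iff_not_dvd.2 fun h => hq1 (h.trans hZ)).gcd_eq_one, pow_one,
      mul_inv_eq_one, mul_inv_eq_iff_eq_mul] at h5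
    exact h5
  set ρ := CL.SpU.suToMat m F q
  have hρ : Function.Injective ρ := CL.SpU.suToMat_injective
  have hrF : (r : F) ≠ 0 := fun h =>
    hrp ((Nat.prime_dvd_prime_iff_eq hp hr).1 ((CharP.cast_eq_zero_iff F p r).1 h)).symm
  have : NeZero m := ⟨by omega⟩
  have key := orderOf_add_two_le hF (B := ρ B) (N := ρ A - 1) (CL.SpU.ct_mul_SU hF B) B.1.2 hrF hq1
    (by rw [← map_pow, hB, map_one]) (fun h => hB1 (hρ (by rw [h, map_one])))
    ⟨p, by rw [sub_pow_char_of_commute _ (Commute.one_right _), ← map_pow, hA]; simp⟩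
    (fun h => hA1 (hρ (by rw [map_one]; exact sub_eq_zero.1 h)))
    ((hc.symm.map ρ).sub_right (Commute.one_right _))
  have hx0 : (-(q : ZMod r)) ≠ 0 := by
    rw [Ne, neg_eq_zero, ZMod.natCast_eq_zero_iff]
    intro h
    obtain ⟨p', k, hp', hc', -, e⟩ := CL.SqField.exists_char hF
    obtain rfl := (Nat.prime_dvd_prime_iff_eq hr hp').1 (hr.dvd_of_dvd_pow (e ▸ h))
    exact hrF (CharP.cast_eq_zero F r)
  refine dvd_card_SU hF (e := orderOf (-(q : ZMod r))) ?_ (by simp at key; omega)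
    (pow_orderOf_eq_one _)
  have h0 : 0 < orderOf (-(q : ZMod r)) := ((Ne.isUnit hx0).isOfFinOrder).orderOf_pos
  have h1 : orderOf (-(q : ZMod r)) ≠ 1 := fun h => hq1 (by
    rw [← ZMod.natCast_eq_zero_iff]; push_cast; rw [← orderOf_eq_one_iff.1 h]; simp)
  omega

end Cfsg.Agent.S2365
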