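import Cfsg.Statements.S2367
import Mathlib

set_option autoImplicit false
open Cfsg

namespace Cfsg.Agent.S2367

def orders : List (ℕ × ℕ) :=
  [(7920, 4),
   (95040, 6),
   (443520, 7),
   (10200960, 7),
   (244823040, 10),
   (175560, 3),
   (604800, 7),
   (50232960, 7),
   (86775571046077562880, 21),
   (4157776806543360000, 21),
   (42305421312000, 18),
   (495766656000, 10),
   (64561751654400, 17),
   (4089470473293004800, 18),
   (1255205709190661721292800, 21),
   (44352000, 9),
   (898128000, 7),
   (4030387200, 10),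
   (145926144000, 14),
   (448345497600, 13),
   (460815505920, 9),
   (273030912000000, 14),
   (51765179004000000, 8),
   (90745943887872000, 15),
   (4154781481226426191177580544000000, 41),
   (808017424794512875886459904961710757005754368000000000, 46)]

theorem orders_check : ∀ t ∈ orders, t.1 ∣ Nat.factorial 71 ∧ 2 ^ t.2 ∣ t.1 ∧ t.1 ≠ 0 ∧
    ∀ p ∈ [3, 5, 7, 11, 13, 17, 19, 23, 29, 31, 37, 41, 43, 47, 53, 59, 61, 67, 71],
      p ^ 3 ∣ t.1 → ¬ p ^ 4 ∣ t.1 → p ^ 3 < 2 ^ t.2 := by
  decide +kernel

theorem of_mem_orders {N e : ℕ} (h : (N, e) ∈ orders) (p : ℕ) (hp : p.Prime) (hodd : p ≠ 2)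
    (h3 : N.factorization p = 3) : p ^ 3 < 2 ^ N.factorization 2 := by
  obtain ⟨h1, h2, h0, h4⟩ := orders_check _ h
  simp only at h1 h2 h0 h4
  have hp3 : p ^ 3 ∣ N := (hp.pow_dvd_iff_le_factorization h0).2 h3.ge
  have hp4 : ¬ p ^ 4 ∣ N := fun h => by
    have := (hp.pow_dvd_iff_le_factorization h0).1 h
    omega
  have hle : p ≤ 71 :=
    (hp.dvd_factorial).1 (dvd_trans (dvd_trans (dvd_pow_self p (by norm_num)) hp3) h1)
  have hmem : p ∈ [3, 5, 7, 11, 13, 17, 19, 23, 29, 31, 37, 41, 43, 47, 53, 59, 61, 67, 71] := by
    interval_cases p <;> first | decide | exact absurd rfl hodd | (exfalso; revert hp; norm_num)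
  refine lt_of_lt_of_le (h4 p hmem hp3 hp4) (Nat.pow_le_pow_right two_pos ?_)
  exact (Nat.prime_two.pow_dvd_iff_le_factorization h0).1 h2

theorem cube_lt (p : ℕ) (hp : 5 ≤ p) : p ^ 3 < 2 ^ (2 * p - 1) := by
  induction p, hp using Nat.le_induction with
  | base => norm_num
  | succ k hk ih =>
    have e : 2 * (k + 1) - 1 = (2 * k - 1) + 2 := by omega
    rw [e, pow_add]
    have : (k + 1) ^ 3 ≤ 4 * k ^ 3 := by nlinarith [Nat.mul_le_mul hk hk, Nat.mul_le_mul hk (Nat.mul_le_mul hk hk), sq_nonneg k]
    omega

theorem alt_case (n N : ℕ) (hn : 5 ≤ n) (hN : 2 * N = n.factorial) (p : ℕ) (hp : p.Prime)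
    (hodd : p ≠ 2) (h3 : N.factorization p = 3) : p ^ 3 < 2 ^ N.factorization 2 := by
  have h0 : N ≠ 0 := by
    rintro rfl
    exact absurd hN.symm (Nat.factorial_ne_zero n)
  have hfac : ∀ q, (n.factorial).factorization q = (Nat.factorization 2) q + N.factorization q := by
    intro q
    rw [← hN, Nat.factorization_mul two_ne_zero h0]
    rfl
  have hp' : (n.factorial).factorization p = 3 := by
    rw [hfac, h3, Nat.prime_two.factorization]
    simp [Ne.symm hodd, Finsupp.single_apply]
  have h2' : (n.factorial).factorization 2 = 1 + N.factorization 2 := by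
    rw [hfac, Nat.prime_two.factorization]
    simp
  have hp3 : 3 ≤ p := by have := hp.two_le; omega
  have hn3 : 3 * p ≤ n := by
    by_contra hlt
    push Not at hlt
    have hlog : Nat.log p n < 2 := by
      apply Nat.log_lt_of_lt_pow (by omega)
      nlinarith
    rw [Nat.factorization_factorial hp hlog] at hp'
    simp only [Nat.Ico_succ_singleton, Finset.sum_singleton, pow_one] at hp'
    have := Nat.div_mul_le_self n p
    rw [hp'] at this
    omega
  have hp5 : 5 ≤ p := by
    by_contra hlt
    have hp3' : p = 3 := by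
      have : p ≠ 4 := by rintro rfl; revert hp; norm_num
      omega
    subst hp3'
    have : 3 ^ 4 ∣ n.factorial :=
      dvd_trans (by decide) (Nat.factorial_dvd_factorial (show 9 ≤ n by omega))
    have := (hp.pow_dvd_iff_le_factorization (Nat.factorial_ne_zero n)).1 this
    omega
  have hlog : Nat.log 2 n < n + 3 := lt_of_le_of_lt (Nat.log_le_self 2 n) (by omega)
  rw [Nat.factorization_factorial Nat.prime_two hlog] at h2'
  have hsub : ({1, 2} : Finset ℕ) ⊆ Finset.Ico 1 (n + 3) := by
    intro x hx
    simp only [Finset.mem_insert, Finset.mem_singleton] at hx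
    rw [Finset.mem_Ico]
    omega
  have hle := Finset.sum_le_sum_of_subset (f := fun i => n / 2 ^ i) hsub
  rw [h2', Finset.sum_pair (by norm_num)] at hle
  refine lt_of_lt_of_le (cube_lt p hp5) (Nat.pow_le_pow_right two_pos ?_)
  norm_num at hle
  omega

/-- Let G be an alternating group of degree at least 5 or a simple group with the order of one of the 26 sporadic groups, and let p be an odd prime such that p³ is the exact power of p dividing the order of G. Then p³ is less than the 2-part of the order of G. -/
theorem result {G : Type*} [Group G] [Finite G] (hG : Cfsg.IsAlternating G ∨ Cfsg.IsSporadic G)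
    (p : ℕ) (hp : p.Prime) (hodd : p ≠ 2) (h3 : (Nat.card G).factorization p = 3) :
    p ^ 3 < 2 ^ (Nat.card G).factorization 2 := by
  rcases hG with ⟨n, hn, ⟨e⟩⟩ | hG
  · refine alt_case n _ hn ?_ p hp hodd h3
    haveI : Nontrivial (Fin n) := Fin.nontrivial_iff_two_le.2 (by omega)
    rw [Nat.card_congr e.toEquiv, two_mul_nat_card_alternatingGroup, Nat.card_perm]
    simp
  · rcases hG with h | h | h | h | h | h | h | h | h | h | h | h | h | h | h | h | h | h | h | h | h | h | h | h | h | h
    · exact of_mem_orders (e := 4) (by rw [h.2]; decide +kernel) p hp hodd h3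
    · exact of_mem_orders (e := 6) (by rw [h.2]; decide +kernel) p hp hodd h3
    · exact of_mem_orders (e := 7) (by rw [h.2]; decide +kernel) p hp hodd h3
    · exact of_mem_orders (e := 7) (by rw [h.2]; decide +kernel) p hp hodd h3
    · exact of_mem_orders (e := 10) (by rw [h.2]; decide +kernel) p hp hodd h3
    · exact of_mem_orders (e := 3) (by rw [h.2]; decide +kernel) p hp hodd h3
    · exact of_mem_orders (e := 7) (by rw [h.2]; decide +kernel) p hp hodd h3
    · exact of_mem_orders (e := 7) (by rw [h.2]; decide +kernel) p hp hodd h3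
    · exact of_mem_orders (e := 21) (by rw [h.2]; decide +kernel) p hp hodd h3
    · exact of_mem_orders (e := 21) (by rw [h.2]; decide +kernel) p hp hodd h3
    · exact of_mem_orders (e := 18) (by rw [h.2]; decide +kernel) p hp hodd h3
    · exact of_mem_orders (e := 10) (by rw [h.2]; decide +kernel) p hp hodd h3
    · exact of_mem_orders (e := 17) (by rw [h.2]; decide +kernel) p hp hodd h3
    · exact of_mem_orders (e := 18) (by rw [h.2]; decide +kernel) p hp hodd h3
    · exact of_mem_orders (e := 21) (by rw [h.2]; decide +kernel) p hp hodd h3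
    · exact of_mem_orders (e := 9) (by rw [h.2]; decide +kernel) p hp hodd h3
    · exact of_mem_orders (e := 7) (by rw [h.2]; decide +kernel) p hp hodd h3
    · exact of_mem_orders (e := 10) (by rw [h.2]; decide +kernel) p hp hodd h3
    · exact of_mem_orders (e := 14) (by rw [h.2]; decide +kernel) p hp hodd h3
    · exact of_mem_orders (e := 13) (by rw [h.2]; decide +kernel) p hp hodd h3
    · exact of_mem_orders (e := 9) (by rw [h.2]; decide +kernel) p hp hodd h3
    · exact of_mem_orders (e := 14) (by rw [h.2]; decide +kernel) p hp hodd h3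
    · exact of_mem_orders (e := 8) (by rw [h.2]; decide +kernel) p hp hodd h3
    · exact of_mem_orders (e := 15) (by rw [h.2]; decide +kernel) p hp hodd h3
    · exact of_mem_orders (e := 41) (by rw [h.2]; decide +kernel) p hp hodd h3
    · exact of_mem_orders (e := 46) (by rw [h.2]; decide +kernel) p hp hodd h3

end Cfsg.Agent.S2367
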