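import Cfsg.Statements.S2369
import Cfsg.Agent.CHEV.TwPar

set_option autoImplicit false
open Cfsg

namespace Cfsg.Agent.S2369

set_option backward.isDefEq.respectTransparency false

/-- Let q = 2^(2m+1) with m ≥ 1 and let a, b be commuting elements of the large Ree group ²F₄(q) with a an involution. Then every prime divisor of the order of b divides q(q⁴ − 1). -/
theorem result {K : Type*} [Field K] [Fintype K] (m : ℕ) (hm : 1 ≤ m) (hK : Fintype.card K = 2 ^ (2 * m + 1))
    (a b : ↥(Cfsg.Lie.twistedF4 K (2 ^ m))) (ha : orderOf a = 2) (hab : Commute a b) :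
    (orderOf b).primeFactors ⊆ (2 ^ (2 * m + 1) * ((2 ^ (2 * m + 1)) ^ 4 - 1)).primeFactors := by

  have hF : Nat.card K = 2 ^ (2 * m + 1) := by rw [Nat.card_eq_fintype_card, hK]
  obtain ⟨T, θ, h, hL⟩ := CL.Chev.isLie_2F4 hF
  have := h.charP
  obtain ⟨c, hc⟩ := hL.isTw.exists_card_dvd_two hL.good (p := 2) hL.inj rfl hL.adj hL.top (X := Subgroup.zpowers a)
    (IsPGroup.of_card (n := 1) (by rw [Nat.card_zpowers, ha]; rfl)) (by
      rw [Ne, Subgroup.zpowers_eq_bot]; rintro rfl; simp at ha)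
  rw [hL.isTw.card_B hL.good, h.card_U hL.good hL.isTw (by simp [CL.Chev.Rt]; rfl),
    h.card_H hL.good hL.isTw hL.adj hL.gen, h.cJ_eq hL.good] at hc
  have hb : b ∈ Subgroup.normalizer (Subgroup.zpowers a : Set (Cfsg.Lie.twistedF4 K (2 ^ m))) :=
    Subgroup.centralizer_le_normalizer _ (by
      rintro _ ⟨k, rfl⟩
      exact (hab.zpow_left k).eq)
  have h1 := (Subgroup.orderOf_dvd_natCard _ hb).trans hc
  generalize hq : 2 ^ (2 * m + 1) = q at h1
  have hq1 : 2 ≤ q := by rw [← hq]; exact Nat.le_self_pow (by omega) 2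
  obtain ⟨q, rfl⟩ : ∃ r, q = r + 1 := ⟨q - 1, by omega⟩
  have e : (q + 1) ^ 4 - 1 = q * (1 + (q + 1)) * (1 + (q + 1) ^ 2) := by
    rw [Nat.sub_eq_of_eq_add]; ring
  intro r hr
  have hp := Nat.prime_of_mem_primeFactors hr
  have h2 := (Nat.dvd_of_mem_primeFactors hr).trans h1
  rw [e]
  refine Nat.mem_primeFactors.2 ⟨hp, ?_, by have : q ≠ 0 := by omega
                                            positivity⟩
  rw [Nat.add_sub_cancel] at h2
  rcases (hp.dvd_mul.1 h2) with h3 | h3
  · rcases (hp.dvd_mul.1 h3) with h4 | h4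
    · exact (hp.dvd_of_dvd_pow h4).mul_right _
    · exact (((hp.dvd_of_dvd_pow h4).mul_right _).mul_right _).mul_left _
  · split_ifs at h3
    · exact ((h3.mul_left _).mul_right _).mul_left _
    · exact (h3.mul_left _).mul_left _

end Cfsg.Agent.S2369
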