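import Cfsg.Statements.S2370
import Cfsg.Agent.CHEV.Base2

set_option autoImplicit false
open Cfsg

namespace Cfsg.Agent.S2370

/-- Let q = 2^(2m+1) with m ≥ 1. Every element of 2-power order of the large Ree group ²F₄(q) has order at most 32. -/
theorem result {K : Type*} [Field K] [Fintype K] (m : ℕ) (hm : 1 ≤ m) (hK : Fintype.card K = 2 ^ (2 * m + 1))
    (x : ↥(Cfsg.Lie.twistedF4 K (2 ^ m))) (hx : ∃ j : ℕ, orderOf x = 2 ^ j) : orderOf x ≤ 32 := by
  have : CharP K 2 := charP_of_card_eq_prime_pow hK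
  obtain ⟨j, hj⟩ := hx
  have h1 : (x : GL Cfsg.Lie.chevF4.Idx K) ∈ Cfsg.Lie.chevF4.group K := CL.Chev.genSubgroup_le _ x.2
  have h2 := CL.Chev.pow_eq_one_of_unipotent 2 h1 (j := j) (by rw [← hj, ← Subgroup.coe_pow, pow_orderOf_eq_one]; rfl)
    (M := 11) (k := 5) CL.Chev.ht_le_F4 (by norm_num)
  exact Nat.le_of_dvd (by norm_num) (orderOf_dvd_of_pow_eq_one (n := 2 ^ 5) (Subtype.ext h2))

end Cfsg.Agent.S2370
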