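import Cfsg.Statements.S2371
import Cfsg.Agent.CHEV.ToriGlue

set_option autoImplicit false
open Cfsg

namespace Cfsg.Agent.S2371

open CL.Chev Cfsg.Lie in
set_option backward.isDefEq.respectTransparency false in
theorem chk : TorChk (D := chevG2) (piL (D := chevG2) ([1, 0, 1, 0] : List (Fin 2))) (m := 1) ![1, 1]
    (!![1, 3; -1, -2] : Matrix (Fin 2) (Fin 2) ℤ)
    (!![1, 1; 0, -1] : Matrix (Fin 2) (Fin 2) ℤ)
    (!![1, 1; 0, -1] : Matrix (Fin 2) (Fin 2) ℤ) 3 4 := by
  decide +kernel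

/-- The group G₂(q), q ≥ 3, contains a cyclic subgroup of order q² + q + 1 which is its own centralizer. -/
theorem result {F : Type*} [Field F] [Fintype F] (q : ℕ) (hF : Fintype.card F = q) (hq : 3 ≤ q) :
    ∃ H : Subgroup ↥(Cfsg.Lie.chevG2.group F), IsCyclic ↥H ∧ Nat.card ↥H = q ^ 2 + q + 1 ∧
      Subgroup.centralizer (H : Set ↥(Cfsg.Lie.chevG2.group F)) = H := by
  simpa only [CL.Chev.card_ker_G2, one_mul] using CL.Chev.exists_torus_group (by simp) CL.Chev.scRep_G2 _ chk hF hq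
    (N := q ^ 2 + q + 1) (by simp [CL.Chev.evq, Fin.sum_univ_succ]; ring)

end Cfsg.Agent.S2371
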