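import Cfsg.Statements.S2374
import Cfsg.Agent.CHEV.ToriGlue

set_option autoImplicit false
open Cfsg

namespace Cfsg.Agent.S2374

open CL.Chev Cfsg.Lie in
set_option backward.isDefEq.respectTransparency false in
theorem chk : TorChk (D := chevE7) (piL (D := chevE7) ([3, 2, 4, 5, 3, 4, 5, 6, 3, 0, 1] : List (Fin 7))) (m := 6) ![1, 0, -1, 1, 1, -1, 0]
    (!![0, 1, 1, 1, 1, 1, 1; 1, 1, 1, 2, 2, 1, 1; 0, 0, 0, 0, 0, -1, -1; -1, -1, -1, -1, -1, 0, 0; 1, 1, 1, 1, 0, 0, 0; 0, -1, 0, -1, 0, 0, 0; 0, 1, 0, 1, 1, 1, 0] : Matrix (Fin 7) (Fin 7) ℤ)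
    (!![0, 1, 1, 1, 1, 0, 0; 1, 1, 2, 1, 1, 0, 0; 0, 0, 0, 0, -1, -1, -1; 0, -1, -2, -2, -1, 0, 1; 0, 1, 1, 1, 0, 0, -1; 0, -1, 0, 0, 1, 0, 0; 0, 1, 0, 1, 0, 1, 0] : Matrix (Fin 7) (Fin 7) ℤ)
    (!![0, 1, 1, 1, 0, 1, 1; 1, 0, 0, 1, 1, 0, 0; -1, 0, -1, -1, 0, -1, -1; 0, 0, 1, -1, -2, 0, 1; 1, 0, 0, 1, 1, 1, 0; -1, 0, -1, 0, 1, 0, 0; 0, 0, 0, -1, -2, -1, 0] : Matrix (Fin 7) (Fin 7) ℤ) 2 7 := by
  decide +kernel

/-- The group E₇(q) (the simple Chevalley group of type E₇) contains a cyclic subgroup of order (q⁴ − q² + 1)(q³ + 1)/gcd(2, q − 1) which is its own centralizer. -/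
theorem result {F : Type*} [Field F] [Fintype F] (q : ℕ) (hF : Fintype.card F = q) :
    ∃ H : Subgroup ↥(Cfsg.Lie.chevE7.group F), IsCyclic ↥H ∧ Nat.card ↥H = (q ^ 4 - q ^ 2 + 1) * (q ^ 3 + 1) / Nat.gcd 2 (q - 1) ∧
      Subgroup.centralizer (H : Set ↥(Cfsg.Lie.chevE7.group F)) = H := by
  have hq : 2 ≤ q := hF ▸ Fintype.one_lt_card
  have h1 : q ^ 2 ≤ q ^ 4 := Nat.pow_le_pow_right (by omega) (by omega)
  obtain ⟨T, h2, h3, h4⟩ := CL.Chev.exists_torus_group (by simp) CL.Chev.scRep_E7 _ chk hF hq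
    (N := (q ^ 4 - q ^ 2 + 1) * (q ^ 3 + 1)) (by simp [CL.Chev.evq, Fin.sum_univ_succ, h1]; ring)
  rw [CL.Chev.card_ker_E7, Nat.card_units, Nat.card_eq_fintype_card, hF] at h3
  exact ⟨T, h2, by rw [← h3, Nat.mul_div_cancel_left _ (Nat.gcd_pos_of_pos_left _ (by omega))], h4⟩

end Cfsg.Agent.S2374
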