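import Cfsg.Statements.S2375
import Cfsg.Agent.CHEV.ToriGlue

set_option autoImplicit false
open Cfsg

namespace Cfsg.Agent.S2375

open CL.Chev Cfsg.Lie in
set_option backward.isDefEq.respectTransparency false in
theorem chk : TorChk (D := chevE8) (piL (D := chevE8) ([1, 6, 2, 7, 0, 5, 7, 4, 3, 7] : List (Fin 8))) (m := 7) ![1, 1, 0, -1, -1, -1, 0, 1]
    (!![0, 0, 1, 1, 0, 0, 0, 0; 0, -1, 0, -1, 0, 0, 0, 0; -1, 0, -1, -1, 0, 0, 0, 0; 1, 1, 1, 2, 1, 0, 0, 0; 0, 0, 0, 0, 0, 1, 0, 0; 0, 0, 0, 0, 0, 0, 1, 1; 0, 0, 0, -1, -1, -1, -1, -1; 0, 0, 0, 1, 1, 1, 1, 0] : Matrix (Fin 8) (Fin 8) ℤ)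
    (!![1, 0, 0, 1, 0, 1, 1, 0; 0, 0, -1, 0, -1, -1, -1, -1; 0, -1, 0, -1, -1, -1, -2, -1; 0, 1, 1, 1, 2, 2, 2, 2; 0, 0, 0, 0, 0, -1, 0, 0; 0, 0, 0, 0, -1, 0, 0, -1; 0, 0, -1, -1, 0, -1, -1, -1; 0, 0, 1, 0, 0, 1, 0, 1] : Matrix (Fin 8) (Fin 8) ℤ)
    (!![1, 0, 0, 0, 1, 0, 1, 1; 0, 1, 0, 1, 1, 1, 1, 1; 0, 0, 1, 1, 1, 1, 0, 0; 0, 1, 1, 1, 0, 0, -1, -1; 0, 0, 1, 1, 0, 0, 0, -1; 0, 0, 0, 0, -1, 0, 0, 0; 0, -1, -1, -1, 0, 0, 0, 0; 0, 0, -1, -1, 0, -1, 0, 1] : Matrix (Fin 8) (Fin 8) ℤ) 2 4 := by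
  decide +kernel

/-- The group E₈(q) contains a cyclic subgroup of order q⁸ + q⁷ − q⁵ − q⁴ − q³ + q + 1 which is its own centralizer. -/
theorem result {F : Type*} [Field F] [Fintype F] (q : ℕ) (hF : Fintype.card F = q) :
    ∃ H : Subgroup ↥(Cfsg.Lie.chevE8.group F), IsCyclic ↥H ∧ Nat.card ↥H = q ^ 8 + q ^ 7 - q ^ 5 - q ^ 4 - q ^ 3 + q + 1 ∧
      Subgroup.centralizer (H : Set ↥(Cfsg.Lie.chevE8.group F)) = H := by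
  have hq : 2 ≤ q := hF ▸ Fintype.one_lt_card
  have h1 : q ^ 5 + q ^ 4 + q ^ 3 ≤ q ^ 8 + q ^ 7 := by
    have a1 : q ^ 5 ≤ q ^ 7 := Nat.pow_le_pow_right (by omega) (by omega)
    have a2 : q ^ 4 ≤ q ^ 7 := Nat.pow_le_pow_right (by omega) (by omega)
    have a3 : q ^ 3 ≤ q ^ 7 := Nat.pow_le_pow_right (by omega) (by omega)
    have a4 : q ^ 7 * 2 ≤ q ^ 8 := Nat.mul_le_mul_left _ hq
    omega
  simpa only [CL.Chev.card_ker_E8, one_mul] using CL.Chev.exists_torus_group (by simp) CL.Chev.scRep_E8 _ chk hF hq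
    (N := q ^ 8 + q ^ 7 - q ^ 5 - q ^ 4 - q ^ 3 + q + 1) (by
      rw [Nat.sub_sub, Nat.sub_sub, ← add_assoc]; simp [CL.Chev.evq, Fin.sum_univ_succ, h1]; ring)

end Cfsg.Agent.S2375
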