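import Cfsg.Statements.S2376
import Cfsg.Agent.CHEV.ScTw

set_option autoImplicit false
open Cfsg

namespace Cfsg.Agent.S2376

open CL.Chev Cfsg.Lie in
set_option backward.isDefEq.respectTransparency false in
theorem chk : TorChk (D := chevD4) (fun r => piL (D := chevD4) ([1] : List (Fin 4)) ((okD4 (K := ℚ)).perm r)) (m := 3)
    ![-1, -1, 0, 1] (!![0, 1, 0, 1; 0, -1, 0, 0; 1, 1, 0, 0; 0, 1, 1, 0] : Matrix (Fin 4) (Fin 4) ℤ)
    (!![1, -1, 1, 0; -1, 1, -1, 1; 1, 0, 0, 0; 0, 0, 1, -1] : Matrix (Fin 4) (Fin 4) ℤ)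
    (!![0, 0, 1, 0; 0, 1, 1, 1; 1, 1, 0, 1; 1, 1, 0, 0] : Matrix (Fin 4) (Fin 4) ℤ) 2 4 := by
  decide +kernel

/-- The group ³D₄(q) contains a cyclic subgroup of order (q³ − 1)(q + 1) which is its own centralizer. -/
theorem result {K : Type*} [Field K] [Fintype K] (q : ℕ) (hq : IsPrimePow q) (hK : Fintype.card K = q ^ 3) :
    ∃ H : Subgroup ↥(Cfsg.Lie.twistedD4 K q), IsCyclic ↥H ∧ Nat.card ↥H = (q ^ 3 - 1) * (q + 1) ∧
      Subgroup.centralizer (H : Set ↥(Cfsg.Lie.twistedD4 K q)) = H := by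
  rw [← Nat.card_eq_fintype_card] at hK
  obtain ⟨T, h, hM, hgen⟩ := CL.Chev.exists_twist_D4 hq hK
  have h1 : 1 ≤ q ^ 3 := Nat.one_le_pow _ _ hq.pos
  obtain ⟨A, h2, h3, h4⟩ := CL.Chev.exists_torus_graph (by simp) CL.Chev.scRep_D4 CL.Chev.okD4 CL.Chev.okD4 (fun _ => rfl) hq hK three_pos
    (by simp only [funext CL.Chev.okD4_piF]; decide) T (fun i => (h.π i).trans (CL.Chev.okD4_piF i).symm) h.f hM hgen
    (fun t => h.tau_mem CL.Chev.stG_good hM CL.Chev.stG_adjoint) _ chk hq.two_le (N := (q ^ 3 - 1) * (q + 1))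
    (by simp [CL.Chev.evq, Fin.sum_univ_succ, h1]; ring)
  refine ⟨A, h2, ?_, h4⟩
  have h5 := congrArg (fun B : Subgroup (Fin 4 → Kˣ) => Nat.card B) h.inf_ker
  simp only [Subgroup.card_bot] at h5
  exact ((one_mul _).symm.trans (congrArg (· * Nat.card A) h5.symm)).trans h3

end Cfsg.Agent.S2376
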