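import Cfsg.Statements.S2379
import Cfsg.Agent.KSG.GLnSylow

set_option autoImplicit false
open Cfsg

namespace Cfsg.Agent.S2379

open CL.GLn Polynomial Module

theorem result {F : Type*} [Field F] [Fintype F] {q : ℕ} (hq : Fintype.card F = q) (n : ℕ)
    (r : ℕ) [Fact r.Prime] (hrn : n < r) (hrq : ¬ r ∣ q) (P : Sylow r (Matrix.SpecialLinearGroup (Fin n) F)) :
    Nonempty (↥(P : Subgroup (Matrix.SpecialLinearGroup (Fin n) F)) ≃*
      (Fin ((Finset.Icc 2 n).filter (fun i => orderOf (q : ZMod r) ∣ i)).card →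
        Multiplicative (ZMod (r ^ padicValNat r ((Polynomial.cyclotomic (orderOf (q : ZMod r)) ℤ).eval (q : ℤ)).natAbs)))) := by
  subst hq
  have hr : r.Prime := Fact.out
  obtain ⟨p, hchar⟩ := CharP.exists F
  have := Fact.mk (CharP.char_is_prime F p)
  have hq : 2 ≤ Fintype.card F := Fintype.one_lt_card
  have h1 := CL.Zsig.padicValNat_cv_orderOf hr hrq hq
  rw [CL.Zsig.cv] at h1
  rw [h1]
  have h0 := CL.Zsig.orderOf_ne_zero hr hrq
  suffices h : ∃ g : (Fin ((Finset.Icc 2 n).filter
      (fun i => orderOf ((Fintype.card F : ℕ) : ZMod r) ∣ i)).card → Multiplicative (ZMod (r ^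
        padicValNat r (Fintype.card F ^ orderOf ((Fintype.card F : ℕ) : ZMod r) - 1)))) →*
        Matrix.SpecialLinearGroup (Fin n) F, Function.Injective g by
    obtain ⟨g, hg⟩ := h
    refine nonempty_sylow_mulEquiv g hg ?_ P
    rw [padicValNat_card_sl hr hrq hrn, Nat.card_fun, Nat.card_eq_fintype_card (α := Fin _),
      Fintype.card_fin, Nat.card_congr Multiplicative.toAdd, Nat.card_zmod, ← pow_mul, mul_comm]
  rcases eq_or_ne (orderOf ((Fintype.card F : ℕ) : ZMod r)) 1 with h2 | h2
  · rw [h2, pow_one]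
    rcases n.eq_zero_or_pos with rfl | hn
    · exact ⟨1, fun x y _ => funext fun i => i.elim0⟩
    obtain ⟨x, hx⟩ := exists_orderOf_eq_of_dvd (K := F)
      (m := r ^ padicValNat r (Fintype.card F - 1))
      (by rw [Nat.card_eq_fintype_card]; exact pow_padicValNat_dvd)
    rw [← hx]
    obtain ⟨f, hf⟩ := exists_monoidHom_zmod x
    exact exists_monoidHom_pi_sl (by simp; omega) f hf
  · have : NeZero (orderOf ((Fintype.card F : ℕ) : ZMod r)) := ⟨h0⟩
    obtain ⟨f, hf⟩ := exists_monoidHom_zmod_extension (F := F) p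
      (orderOf ((Fintype.card F : ℕ) : ZMod r)) (pow_padicValNat_dvd (p := r))
    refine exists_monoidHom_sl ?_ (f.compLeft _) (fun x y h => funext fun i => hf (congrFun h i))
      fun x => ?_
    · simp only [finrank_pi_fintype, FiniteField.finrank_extension, Finset.sum_const,
        Finset.card_univ, Fintype.card_fin, smul_eq_mul]
      refine le_trans (Nat.mul_le_mul_right _ ?_)
        (Nat.div_mul_le_self n (orderOf ((Fintype.card F : ℕ) : ZMod r)))
      rw [← Nat.Ioc_filter_dvd_card_eq_div]
      refine Finset.card_le_card (Finset.filter_subset_filter _ fun i hi => ?_)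
      rw [Finset.mem_Icc] at hi
      rw [Finset.mem_Ioc]
      omega
    · rw [norm_pi]
      refine Finset.prod_eq_one fun i _ => norm_eq_one_of_coprime
        ((coprime_sub_one_of_orderOf_ne_one (by omega) hr h2).pow_left (padicValNat r
          (Fintype.card F ^ orderOf ((Fintype.card F : ℕ) : ZMod r) - 1)))
        (pow_ne_zero _ hr.ne_zero) ?_
      rw [MonoidHom.compLeft_apply, Function.comp_apply, ← map_pow]
      convert f.map_one
      conv_rhs => rw [← pow_card_eq_one' (x := x i), Nat.card_congr Multiplicative.toAdd,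
        Nat.card_zmod]

end Cfsg.Agent.S2379
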