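import Cfsg.Statements.S2380
import Cfsg.Agent.KSG.GLnSylow

set_option autoImplicit false
open scoped MatrixGroups
open Cfsg

namespace Cfsg.Agent.S2380

open CL.GLn Polynomial Module

theorem result {F : Type*} [Field F] [Fintype F] {q : ℕ} (hq : Fintype.card F = q) (n : ℕ)
    (r : ℕ) [Fact r.Prime] (hrn : n < r) (hrq : ¬ r ∣ q) (P : Sylow r (GL (Fin n) F)) :
    Nonempty (↥(P : Subgroup (GL (Fin n) F)) ≃*
      (Fin (n / orderOf (q : ZMod r)) →
        Multiplicative (ZMod (r ^ padicValNat r ((Polynomial.cyclotomic (orderOf (q : ZMod r)) ℤ).eval (q : ℤ)).natAbs)))) := by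
  subst hq
  have hr : r.Prime := Fact.out
  obtain ⟨p, hchar⟩ := CharP.exists F
  have := Fact.mk (CharP.char_is_prime F p)
  have hq : 2 ≤ Fintype.card F := Fintype.one_lt_card
  have h1 := CL.Zsig.padicValNat_cv_orderOf hr hrq hq
  rw [CL.Zsig.cv] at h1
  rw [h1]
  have : NeZero (orderOf ((Fintype.card F : ℕ) : ZMod r)) := ⟨CL.Zsig.orderOf_ne_zero hr hrq⟩
  obtain ⟨f, hf⟩ := exists_monoidHom_zmod_extension (F := F) p
    (orderOf ((Fintype.card F : ℕ) : ZMod r)) (pow_padicValNat_dvd (p := r))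
  obtain ⟨g, hg, -⟩ := exists_monoidHom_gl (F := F) (n := Fin n)
    (by simp [finrank_pi_fintype, FiniteField.finrank_extension, Nat.div_mul_le_self])
    (f.compLeft (Fin (n / orderOf ((Fintype.card F : ℕ) : ZMod r))))
    (fun x y h => funext fun i => hf (congrFun h i))
  refine nonempty_sylow_mulEquiv g hg ?_ P
  rw [padicValNat_card_gl hr hrq hrn, Nat.card_fun, Nat.card_eq_fintype_card (α := Fin _),
    Fintype.card_fin, Nat.card_congr Multiplicative.toAdd, Nat.card_zmod, ← pow_mul, mul_comm]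

end Cfsg.Agent.S2380
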