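import Mathlib
import Cfsg.Statements.S2381
import Cfsg.Agent.KSG.GLnSylow
import Cfsg.Agent.KSG.SpUUnip

set_option autoImplicit false
open Cfsg

namespace Cfsg.Agent.S2381

open CL.GLn CL.SpU CL.Witt CL.Witt.Form Polynomial Module

theorem simil_pow_eq_one_iff {F V W : Type*} [Field F] [AddCommGroup V] [Module F V]
    [AddCommGroup W] [Module F W] {A : Module.End F V} {B : Module.End F W} (h : Simil A B)
    (k : ℕ) : A ^ k = 1 ↔ B ^ k = 1 := by
  have := h.aeval_eq_zero_iff (X ^ k - 1)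
  rwa [map_sub, map_sub, aeval_X_pow, aeval_X_pow, map_one, map_one, sub_eq_zero, sub_eq_zero]
    at this

theorem exists_core {F : Type*} [Field F] [Fintype F] {r : ℕ} (hr : r.Prime) (hr2 : r ≠ 2)
    (hrq : ¬ r ∣ Fintype.card F) {d : ℕ} (hd : d = orderOf ((Fintype.card F : ℕ) : ZMod r)) :
    ∃ j, 0 < j ∧ (∀ l, d ∣ 2 * l ↔ j ∣ l) ∧ ∃ A : Module.End F (Fin (2 * j) → F),
      IsReal (FormType.alt F) A ∧
        ∀ k, A ^ k = 1 ↔ r ^ padicValNat r (Fintype.card F ^ d - 1) ∣ k := by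
  obtain ⟨p, hchar⟩ := CharP.exists F
  have := Fact.mk (CharP.char_is_prime F p)
  have := Fact.mk hr
  have hq : 2 ≤ Fintype.card F := Fintype.one_lt_card
  have hd0 : d ≠ 0 := hd ▸ CL.Zsig.orderOf_ne_zero hr hrq
  have : NeZero d := ⟨hd0⟩
  obtain ⟨x, hx⟩ := exists_orderOf_eq_of_dvd (K := FiniteField.Extension F p d)
    (m := r ^ padicValNat r (Fintype.card F ^ d - 1))
    (by rw [natCard_extension']; exact pow_padicValNat_dvd)
  have hfr := FiniteField.finrank_extension F p d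
  let L := Algebra.lmul F (FiniteField.Extension F p d)
  have hL : Function.Injective L := Algebra.lmul_injective
  have h1 : L (x⁻¹ : _ˣ) * L x = 1 := by rw [← map_mul, Units.inv_mul, map_one]
  have h2 : ∀ (y : (FiniteField.Extension F p d)ˣ) (k : ℕ), L y ^ k = 1 ↔ y ^ k = 1 := by
    intro y k
    rw [← map_pow, ← map_one L, hL.eq_iff, ← Units.val_pow_eq_pow_val, Units.val_eq_one]
  rcases Nat.even_or_odd d with ⟨j, hj⟩ | ho
  · refine ⟨j, by omega, fun l => by rw [hj, ← two_mul, Nat.mul_dvd_mul_iff_left two_pos], ?_⟩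
    obtain ⟨D, hD⟩ := exists_simil_of_finrank_eq' (W := Fin (2 * j) → F) (L x)
      (by rw [hfr, Module.finrank_fin_fun, hj, two_mul])
    refine ⟨D, IsReal.of_simil ?_ hD, fun k => by
      rw [← simil_pow_eq_one_iff hD, h2, ← orderOf_dvd_iff_pow_eq_one, hx]⟩
    have h3 : ¬ r ∣ Fintype.card F ^ j - 1 := by
      rw [← CL.Zsig.orderOf_dvd_iff (by omega), ← hd]
      exact Nat.not_dvd_of_pos_of_lt (by omega) (by omega)
    have h4 : x ^ (Fintype.card F ^ j + 1) = 1 := by
      rw [← orderOf_dvd_iff_pow_eq_one, hx]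
      refine (Nat.Coprime.pow_left _ (hr.coprime_iff_not_dvd.2 h3)).dvd_of_dvd_mul_right ?_
      rw [← Nat.sq_sub_sq, one_pow, ← pow_mul, mul_two, ← hj]
      exact pow_padicValNat_dvd
    have h5 : x ^ 2 ≠ 1 := by
      rw [Ne, ← orderOf_dvd_iff_pow_eq_one, hx]
      intro h
      have h6 : r ∣ Fintype.card F ^ d - 1 := (CL.Zsig.orderOf_dvd_iff (by omega)).1 (hd ▸ dvd_rfl)
      have h7 := one_le_padicValNat_of_dvd
        (Nat.sub_pos_of_lt (Nat.one_lt_pow hd0 hq)).ne' h6
      exact hr2 ((Nat.prime_dvd_prime_iff_eq hr Nat.prime_two).1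
        ((dvd_pow_self r (by omega)).trans h))
    refine isReal_alt_of_simil_inv (by rw [hfr]; exact ⟨j, hj⟩) h1
      ⟨(FiniteField.frobeniusAlgEquivOfAlgebraic F _ ^ j).toLinearEquiv, fun v => ?_⟩ ?_
    · change (FiniteField.frobeniusAlgEquivOfAlgebraic F _ ^ j) (x * v) =
        (x⁻¹ : _ˣ) * (FiniteField.frobeniusAlgEquivOfAlgebraic F _ ^ j) v
      rw [map_mul]
      congr 1
      rw [AlgEquiv.coe_pow, FiniteField.coe_frobeniusAlgEquivOfAlgebraic, pow_iterate,
        ← eq_inv_of_mul_eq_one_left ((pow_succ _ _).symm.trans h4), Units.val_pow_eq_pow_val]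
    · rw [← map_pow, ← map_one L, ← map_sub]
      refine (IsUnit.mk0 _ (sub_ne_zero.2 fun h => h5 (Units.ext ?_))).map L
      rw [Units.val_pow_eq_pow_val, h, Units.val_one]
  · refine ⟨d, by omega, fun l => ⟨fun h => (Nat.coprime_two_right.2 ho).dvd_of_dvd_mul_left h,
      fun h => h.mul_left 2⟩, ?_⟩
    obtain ⟨D, hD⟩ := exists_simil_of_finrank_eq' (W := Fin (2 * d) → F)
      ((L x).prodMap (L (x⁻¹ : _ˣ))) (by rw [finrank_prod, hfr, Module.finrank_fin_fun, two_mul])
    refine ⟨D, (isReal_alt_prod_inv h1 (Simil.refl _)).of_simil hD, fun k => ?_⟩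
    rw [← simil_pow_eq_one_iff hD, ← hx, orderOf_dvd_iff_pow_eq_one, ← aeval_X_pow (R := F),
      aeval_prodMap, aeval_X_pow, aeval_X_pow]
    constructor
    · intro h
      exact (h2 _ _).1 (LinearMap.ext fun v => congrArg Prod.fst (LinearMap.congr_fun h (v, 0)))
    · intro h
      rw [(h2 _ _).2 h, (h2 _ _).2 (by rw [inv_pow, h, inv_one])]
      rfl

theorem exists_hom_pi {F W H : Type*} [Field F] [AddCommGroup W] [Module F W]
    [FiniteDimensional F W] [Group H] {f : Form (FormType.alt F) W} (hf : f.Nondeg) {j k n : ℕ}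
    (hW : finrank F W = 2 * j) (h : k * j ≤ n) (ψ : H →* f.O) (hψ : Function.Injective ψ) :
    ∃ φ : (Fin k → H) →* Matrix.symplecticGroup (Fin n) F, Function.Injective φ := by
  obtain ⟨l, rfl⟩ := Nat.exists_eq_add_of_le h
  let g := prodForm (piForm fun _ : Fin k => f) (CL.Sp.spForm l F)
  obtain ⟨e⟩ := CL.Sp.nonempty_O_equiv (f := g) (m := k * j + l)
    (prodForm_nondeg (piForm_nondeg fun _ => hf) (CL.Sp.spForm_nondeg l F))
    (by rw [finrank_prod, CL.Sp.finrank_sp, finrank_pi_fintype]; simp [hW]; ring)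
  let χ : (Fin k → H) →* g.O := MonoidHom.mk' (fun a => ⟨(LinearEquiv.piCongrRight fun i =>
    (ψ (a i)).1).prodCongr (LinearEquiv.refl F _), isIsom_prodMap
      (A := LinearMap.piMap fun i => ((ψ (a i)).1 : W →ₗ[F] W)) (B := LinearMap.id)
      (isIsom_piMap fun i => (ψ (a i)).2) (IsIsom.id _)⟩) fun a b =>
    Subtype.ext (LinearEquiv.ext fun v => Prod.ext (funext fun i => by simp) rfl)
  refine ⟨e.toMonoidHom.comp χ, e.injective.comp fun a b hab => funext fun i => hψ ?_⟩
  refine Subtype.ext (LinearEquiv.ext fun v => ?_)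
  exact congrFun (congrArg Prod.fst (LinearEquiv.congr_fun (congrArg Subtype.val hab)
    (fun _ => v, 0))) i

/-- Sylow subgroups of `Sp_{2n}(q)` for large primes. Let `F` be a field with `q` elements and `r` an odd prime with `r > n` and `r ∤ q` (so `r` does not divide the order `2^n n!` of the Weyl group). Let `d` be the multiplicative order of `q` modulo `r`, `a` the number of `i` with `1 ≤ i ≤ n` and `d ∣ 2i` (the degrees being `2, 4, …, 2n`), and `m` the `r`-part of the value at `q` of the `d`-th cyclotomic polynomial. Then every Sylow `r`-subgroup of the symplectic group `Sp_{2n}(q)` is a direct product of `a` cyclic groups of order `m`. -/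
theorem result {F : Type*} [Field F] [Fintype F] {q : ℕ} (hq : Fintype.card F = q) (n : ℕ)
    (r : ℕ) [Fact r.Prime] (hr2 : r ≠ 2) (hrn : n < r) (hrq : ¬ r ∣ q) (P : Sylow r ↥(Matrix.symplecticGroup (Fin n) F)) :
    Nonempty (↥(P : Subgroup ↥(Matrix.symplecticGroup (Fin n) F)) ≃*
      (Fin ((Finset.Icc 1 n).filter (fun i => orderOf (q : ZMod r) ∣ 2 * i)).card →
        Multiplicative (ZMod (r ^ padicValNat r ((Polynomial.cyclotomic (orderOf (q : ZMod r)) ℤ).eval (q : ℤ)).natAbs)))) := by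
  subst hq
  have hr : r.Prime := Fact.out
  have hq : 2 ≤ Fintype.card F := Fintype.one_lt_card
  have h1 := CL.Zsig.padicValNat_cv_orderOf hr hrq hq
  rw [CL.Zsig.cv] at h1
  rw [h1]
  obtain ⟨j, hj0, hj, A, ⟨f, hf, hA⟩, h2⟩ := exists_core hr hr2 hrq rfl
  generalize hd : orderOf ((Fintype.card F : ℕ) : ZMod r) = d at *
  obtain ⟨e, he, h3⟩ := hA.exists_mem_O hf
  have h4 : orderOf (toUnits (⟨e, he⟩ : f.O)) = r ^ padicValNat r (Fintype.card F ^ d - 1) := by
    rw [MulEquiv.orderOf_eq]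
    refine (Nat.dvd_right_iff_eq.1 fun k => ?_).symm
    rw [← h2, orderOf_dvd_iff_pow_eq_one, show A = e from LinearMap.ext fun v => (h3 v).symm,
      ← Subtype.val_inj, ← LinearEquiv.toLinearMap_inj]
    exact (Eq.congr_left (map_pow LinearEquiv.automorphismGroup.toLinearMapMonoidHom e k)).symm
  obtain ⟨ψ, hψ⟩ := h4 ▸ exists_monoidHom_zmod (toUnits (⟨e, he⟩ : f.O))
  have h5 : ((Finset.Icc 1 n).filter fun i => d ∣ 2 * i).card = n / j := by
    simp only [hj]
    exact Nat.Ioc_filter_dvd_card_eq_div n j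
  obtain ⟨φ, hφ⟩ := exists_hom_pi hf (Module.finrank_fin_fun F)
    (k := ((Finset.Icc 1 n).filter fun i => d ∣ 2 * i).card) (n := n)
    (by rw [h5]; exact Nat.div_mul_le_self n j) ψ hψ
  refine nonempty_sylow_mulEquiv φ hφ ?_ P
  rw [Nat.card_fun, Nat.card_eq_fintype_card (α := Fin _), Fintype.card_fin,
    Nat.card_congr Multiplicative.toAdd, Nat.card_zmod, ← pow_mul, CL.Sp.card_symplecticGroup,
    Nat.card_eq_fintype_card]
  have h6 : ∀ i, Fintype.card F ^ (2 * (i + 1)) - 1 ≠ 0 := fun i =>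
    (Nat.sub_pos_of_lt (Nat.one_lt_pow (by omega) hq)).ne'
  have h7 : ∀ i, 0 < i → i ≤ n → padicValNat r (Fintype.card F ^ (2 * i) - 1) =
      if d ∣ 2 * i then padicValNat r (Fintype.card F ^ d - 1) else 0 := by
    intro i hi0 hi
    split_ifs with h
    · obtain ⟨c, hc⟩ := h
      have hd0 : d ≠ 0 := hd ▸ CL.Zsig.orderOf_ne_zero hr hrq
      have h8 : r ∣ Fintype.card F ^ d - 1 := (CL.Zsig.orderOf_dvd_iff (by omega)).1 (hd ▸ dvd_rfl)
      have := padicValNat.pow_sub_pow (hr.odd_of_ne_two hr2) (Nat.one_lt_pow hd0 hq) h8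
        (fun h => hrq (hr.dvd_of_dvd_pow h)) (n := c) (by rintro rfl; omega)
      rw [one_pow, padicValNat.eq_zero_of_not_dvd (n := c) fun h9 => ?_, add_zero] at this
      · rw [hc, pow_mul, this]
      · rcases (Nat.Prime.dvd_mul hr).1 (hc ▸ h9.mul_left d) with h | h
        · exact hr2 ((Nat.prime_dvd_prime_iff_eq hr Nat.prime_two).1 h)
        · exact Nat.not_dvd_of_pos_of_lt hi0 (by omega) h
    · exact padicValNat.eq_zero_of_not_dvd fun h1 =>
        h (hd ▸ (CL.Zsig.orderOf_dvd_iff (by omega)).2 h1)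
  rw [padicValNat.mul (by positivity) (Finset.prod_ne_zero_iff.2 fun i _ => h6 i),
    padicValNat.eq_zero_of_not_dvd (fun h => hrq (hr.dvd_of_dvd_pow h)), zero_add,
    ← Nat.factorization_def (∏ _ ∈ _, _) hr, Nat.factorization_prod fun i _ => h6 i, Finset.sum_apply']
  simp only [Nat.factorization_def _ hr]
  rw [Finset.sum_congr rfl fun i hi => h7 (i + 1) (by omega) (Finset.mem_range.1 hi),
    Finset.range_eq_Ico, Finset.sum_Ico_add' (fun i => if d ∣ 2 * i then
      padicValNat r (Fintype.card F ^ d - 1) else 0) 0 n 1, ← Finset.sum_filter, Finset.sum_const,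
    smul_eq_mul, mul_comm]
  rfl

end Cfsg.Agent.S2381
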