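import Cfsg.Statements.S2383
import Cfsg.Agent.CHEV.SsGlue

set_option autoImplicit false
open Cfsg

namespace Cfsg.Agent.S2383

/-- Steinberg's count of semisimple classes in characteristic 2 for the types B₂, D₄, E₇, where the finite simply connected group has trivial centre and so coincides with the Chevalley group: for the Chevalley group of type B₂, D₄ or E₇ over a field with `q` elements of characteristic 2, the conjugacy classes of elements of odd order number exactly `q^l`, `l` the rank. -/
theorem result {F : Type*} [Field F] [Fintype F] {q : ℕ} (hq : Fintype.card F = q) [CharP F 2]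
    (D : Cfsg.Lie.ChevalleyDatum) (hD : D ∈ [Cfsg.Lie.chevB2, Cfsg.Lie.chevD4, Cfsg.Lie.chevE7]) :
    Nat.card {c : ConjClasses ↥(D.group F) // ∃ g : ↥(D.group F), ConjClasses.mk g = c ∧ Odd (orderOf g)} = q ^ D.rank := by
  have hD' : D ∈ [Cfsg.Lie.chevG2, Cfsg.Lie.chevB2, Cfsg.Lie.chevD4, Cfsg.Lie.chevF4, Cfsg.Lie.chevE6, Cfsg.Lie.chevE7,
      Cfsg.Lie.chevE8] := by
    simp only [List.mem_cons, List.not_mem_nil, or_false] at hD ⊢; tauto
  obtain ⟨_⟩ := CL.Chev.good_of_mem hD'
  have h1 : Nat.gcd 2 (Nat.card Fˣ) = 1 := by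
    have h2 : 2 ∣ Fintype.card F := (CharP.cast_eq_zero_iff F 2 _).1 (FiniteField.cast_card_eq_zero F)
    have h3 := Fintype.card_pos (α := F)
    rw [Nat.card_units, Nat.card_eq_fintype_card]
    exact (Nat.coprime_two_left.2 (Nat.odd_iff.2 (by omega)))
  rw [← hq]
  simp only [← Nat.coprime_two_right]
  refine CL.Chev.card_semisimple_classes hD' ?_ 2
  simp only [List.mem_cons, List.not_mem_nil, or_false] at hD
  rcases hD with rfl | rfl | rfl
  · rw [CL.Chev.card_ker_B2, h1]
  · rw [CL.Chev.card_ker_D4, h1, one_pow]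
  · rw [CL.Chev.card_ker_E7, h1]

end Cfsg.Agent.S2383
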