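import Cfsg.Statements.S2384
import Cfsg.Agent.KSG.GLnSemisimple

set_option autoImplicit false
open Cfsg

namespace Cfsg.Agent.S2384

open CL.GLn Polynomial

theorem result {F : Type*} [Field F] [Fintype F] {q : ℕ} (hq : Fintype.card F = q) (p : ℕ) [Fact p.Prime] [CharP F p] (n : ℕ) (hn : 1 ≤ n) :
    Nat.card {c : ConjClasses (Matrix.SpecialLinearGroup (Fin n) F) //
      ∃ g : Matrix.SpecialLinearGroup (Fin n) F, ConjClasses.mk g = c ∧ (orderOf g).Coprime p} = q ^ (n - 1) := by
  subst hq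
  have : Nonempty (Fin n) := ⟨⟨0, hn⟩⟩
  let φ : Matrix.SpecialLinearGroup (Fin n) F →* Matrix (Fin n) (Fin n) F :=
    (Units.coeHom _).comp Matrix.SpecialLinearGroup.toGL
  rw [← card_monic_natDegree_coeff_zero hn ((-1) ^ n)]
  refine card_conjClasses_eq (fun g : Matrix.SpecialLinearGroup (Fin n) F => (orderOf g).Coprime p)
    (fun g => (g : Matrix (Fin n) (Fin n) F).charpoly)
    (fun f : F[X] => f.Monic ∧ f.natDegree = n ∧ f.coeff 0 = (-1) ^ n) ?_ ?_ ?_
  · intro g h hg hh
    have h1 := isSemisimple_of_coprime_orderOf p φ hg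
    have h2 := isSemisimple_of_coprime_orderOf p φ hh
    exact ⟨fun h => charpoly_eq_of_isConj (isConj_coe_of_isConj_sl h), fun hc =>
      isConj_sl_of_isConj (isConj_of_isSemisimple_of_charpoly_eq h1 h2 hc)
        (exists_gl_commute_det_of_isSemisimple h1)⟩
  · intro g _
    refine ⟨Matrix.charpoly_monic _, by simp, ?_⟩
    have := Matrix.det_eq_sign_charpoly_coeff (g : Matrix (Fin n) (Fin n) F)
    rw [g.det_coe, Fintype.card_fin] at this
    have h2 : ((-1 : F) ^ n) * (-1) ^ n = 1 := by rw [← mul_pow]; simp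
    calc _ = ((-1 : F) ^ n * (-1) ^ n) * _ := by rw [h2, one_mul]
      _ = (-1) ^ n := by rw [mul_assoc, ← this, mul_one]
  · rintro f ⟨h1, h2, h3⟩
    obtain ⟨A, hA, rfl⟩ := exists_matrix_isSemisimple_charpoly (n := Fin n) h1 (by simpa using h2)
    have hdet : A.det = 1 := by
      rw [Matrix.det_eq_sign_charpoly_coeff, h3, Fintype.card_fin, ← mul_pow]
      simp
    let g : Matrix.SpecialLinearGroup (Fin n) F := ⟨A, hdet⟩
    refine ⟨g, ?_, rfl⟩
    exact coprime_orderOf_of_isSemisimple p φ (fun a b h => Subtype.ext h)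
      (isOfFinOrder_of_finite _) hA

end Cfsg.Agent.S2384
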