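import Cfsg.Statements.S2385
import Cfsg.Agent.KSG.SpUPoly

set_option autoImplicit false
open Cfsg

namespace Cfsg.Agent.S2385

open CL.GLn CL.SpU

/-- In the symplectic group `Sp_{2n}(q)`, `q` a power of the prime `p`, the number of conjugacy classes of elements of order prime to `p` is `q^n`. -/
theorem result {F : Type*} [Field F] [Fintype F] {q : ℕ} (hq : Fintype.card F = q) (p : ℕ) [Fact p.Prime] [CharP F p] (n : ℕ) :
    Nat.card {c : ConjClasses ↥(Matrix.symplecticGroup (Fin n) F) //
      ∃ g : ↥(Matrix.symplecticGroup (Fin n) F), ConjClasses.mk g = c ∧ (orderOf g).Coprime p} = q ^ n := by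
  rw [← hq, ← card_palindromic]
  refine card_conjClasses_eq (fun g : Matrix.symplecticGroup (Fin n) F => (orderOf g).Coprime p)
    (fun g => g.1.charpoly) _ ?_ ?_ ?_
  · intro g h hg hh
    have h1 := isSemisimple_of_coprime_orderOf p (Cfsg.spToMat n F) hg
    have h2 := isSemisimple_of_coprime_orderOf p (Cfsg.spToMat n F) hh
    exact ⟨fun hc => charpoly_eq_of_isConj ((Cfsg.spToMat n F).map_isConj hc), fun hc =>
      isConj_sp_of_isSemisimple h1 (isConj_of_isSemisimple_of_charpoly_eq h1 h2 hc)⟩
  · intro g _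
    exact ⟨Matrix.charpoly_monic _, by simp [two_mul], reverse_charpoly_sp g⟩
  · rintro f ⟨h1, h2, h3⟩
    obtain ⟨g, hg, hg'⟩ := exists_sp_of_palindromic h1 h2 h3
    exact ⟨g, coprime_orderOf_of_isSemisimple p (Cfsg.spToMat n F) Subtype.val_injective
      (isOfFinOrder_of_finite g) hg, hg'⟩

end Cfsg.Agent.S2385
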