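import Cfsg.Statements.S2386
import Cfsg.Agent.KSG.SpUPoly
import Cfsg.Agent.S2390

set_option autoImplicit false
open Cfsg

namespace Cfsg.Agent.S2386

open CL.GLn CL.SpU Polynomial

/-- In the special unitary group `SU_n(q)` (matrices of determinant one over the field with `q²` elements preserving the standard Hermitian form), `q` a power of the prime `p`, the number of conjugacy classes of elements of order prime to `p` is `q^(n-1)`. -/
theorem result {F : Type*} [Field F] [Fintype F] {q : ℕ} (hF : Fintype.card F = q ^ 2) (p : ℕ) [Fact p.Prime] [CharP F p] (n : ℕ) (hn : 1 ≤ n) :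
    Nat.card {c : ConjClasses ↥(Cfsg.SU n F q) // ∃ g : ↥(Cfsg.SU n F q), ConjClasses.mk g = c ∧ (orderOf g).Coprime p} = q ^ (n - 1) := by
  obtain ⟨n, rfl⟩ : ∃ k, n = k + 1 := ⟨n - 1, by omega⟩
  have hε : ((-1 : F) ^ (n + 1)) * (-1) ^ (n + 1) = 1 := by rw [← mul_pow]; simp
  have hε' : ((-1 : F) ^ (n + 1)) ^ q = (-1) ^ (n + 1) := by
    rw [← pow_mul, mul_comm, pow_mul, CL.SqField.neg_pow_q hF, one_pow]
  rw [Nat.add_sub_cancel, ← card_unitary_poly hF n hε hε']
  refine card_conjClasses_eq (fun g : Cfsg.SU (n + 1) F q => (orderOf g).Coprime p)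
    (fun g => (suToMat _ F q g).charpoly) _ ?_ ?_ ?_
  · intro g h hg hh
    exact ⟨fun hc => charpoly_eq_of_isConj ((suToMat _ F q).map_isConj hc),
      Cfsg.Agent.S2390.result hF p _ g h hg hh⟩
  · intro g _
    refine ⟨Matrix.charpoly_monic _, by simp, ?_⟩
    have := charpoly_unitary hF (ct_mul_SU hF g)
    rwa [g.1.det_coe, inv_one, mul_one, Fintype.card_fin] at this
  · rintro f ⟨h1, h2, h3⟩
    obtain ⟨A, hA, rfl⟩ := exists_matrix_isSemisimple_charpoly (n := Fin (n + 1)) h1 (by simpa)
    obtain ⟨B, hB, hAB⟩ := exists_unitary_of_isSemisimple hF hA (left_ne_zero_of_mul_eq_one hε) h3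
    have hc := charpoly_eq_of_isConj hAB
    have hd : B.det = 1 := by
      have h4 := charpoly_unitary hF hB
      rw [← hc, h3, Fintype.card_fin] at h4
      have h5 := C_injective (mul_right_cancel₀ (by simpa using h1.ne_zero) h4)
      rw [← inv_inj, inv_one]
      exact mul_left_cancel₀ (left_ne_zero_of_mul_eq_one hε) (by rw [← h5, mul_one])
    refine ⟨mkSU hF B hB hd, coprime_orderOf_of_isSemisimple p (suToMat _ F q) suToMat_injective
      (isOfFinOrder_of_finite _) ?_, hc.symm⟩
    exact ((isConj_iff_simil _ _).mp hAB).isSemisimple_iff.mp hA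

end Cfsg.Agent.S2386
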