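import Cfsg.Statements.S2387
import Cfsg.Agent.KSG.GLnSemisimple

set_option autoImplicit false
open Cfsg

namespace Cfsg.Agent.S2387

open CL.GLn Polynomial

theorem result {F : Type*} [Field F] [Fintype F] {q : ℕ} (hq : Fintype.card F = q) (p : ℕ) [Fact p.Prime] [CharP F p] (n : ℕ) (hn : 1 ≤ n) :
    Nat.card {c : ConjClasses (GL (Fin n) F) // ∃ g : GL (Fin n) F, ConjClasses.mk g = c ∧ (orderOf g).Coprime p} = (q - 1) * q ^ (n - 1) := by
  subst hq
  rw [← card_monic_natDegree_coeff_zero_ne hn]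
  refine card_conjClasses_eq (fun g : GL (Fin n) F => (orderOf g).Coprime p)
    (fun g => (g : Matrix (Fin n) (Fin n) F).charpoly)
    (fun f : F[X] => f.Monic ∧ f.natDegree = n ∧ f.coeff 0 ≠ 0) ?_ ?_ ?_
  · intro g h hg hh
    rw [isConj_units_iff]
    have h1 := isSemisimple_of_coprime_orderOf p (Units.coeHom (Matrix (Fin n) (Fin n) F)) hg
    have h2 := isSemisimple_of_coprime_orderOf p (Units.coeHom (Matrix (Fin n) (Fin n) F)) hh
    exact ⟨charpoly_eq_of_isConj, isConj_of_isSemisimple_of_charpoly_eq h1 h2⟩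
  · intro g _
    refine ⟨Matrix.charpoly_monic _, by simp, fun h0 => ?_⟩
    have := Matrix.det_eq_sign_charpoly_coeff (g : Matrix (Fin n) (Fin n) F)
    rw [h0, mul_zero] at this
    exact (Matrix.isUnits_det_units g).ne_zero this
  · rintro f ⟨h1, h2, h3⟩
    obtain ⟨A, hA, rfl⟩ := exists_matrix_isSemisimple_charpoly (n := Fin n) h1 (by simpa using h2)
    have hdet : A.det ≠ 0 := by
      rw [Matrix.det_eq_sign_charpoly_coeff]
      exact mul_ne_zero (pow_ne_zero _ (by simp)) h3
    refine ⟨Matrix.GeneralLinearGroup.mkOfDetNeZero A hdet, ?_, rfl⟩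
    exact coprime_orderOf_of_isSemisimple p (Units.coeHom (Matrix (Fin n) (Fin n) F)) Units.val_injective
      (isOfFinOrder_of_finite _) hA

end Cfsg.Agent.S2387
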