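import Cfsg.Statements.S2388
import Cfsg.Agent.KSG.GLnSemisimple

set_option autoImplicit false
open Cfsg

namespace Cfsg.Agent.S2388

open CL.GLn

theorem result {F : Type*} [Field F] [Fintype F] (p : ℕ) [Fact p.Prime] [CharP F p] (n : ℕ)
    (g h : Matrix.SpecialLinearGroup (Fin n) F) (hg : (orderOf g).Coprime p) (hh : (orderOf h).Coprime p)
    (hc : (g : Matrix (Fin n) (Fin n) F).charpoly = (h : Matrix (Fin n) (Fin n) F).charpoly) : IsConj g h := by
  rcases Nat.eq_zero_or_pos n with rfl | hn
  · have : g = h := Subtype.ext (Subsingleton.elim _ _)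
    rw [this]
  have : Nonempty (Fin n) := ⟨⟨0, hn⟩⟩
  let φ : Matrix.SpecialLinearGroup (Fin n) F →* Matrix (Fin n) (Fin n) F :=
    (Units.coeHom _).comp Matrix.SpecialLinearGroup.toGL
  have h1 := isSemisimple_of_coprime_orderOf p φ hg
  have h2 := isSemisimple_of_coprime_orderOf p φ hh
  exact isConj_sl_of_isConj (isConj_of_isSemisimple_of_charpoly_eq h1 h2 hc)
    (exists_gl_commute_det_of_isSemisimple h1)

end Cfsg.Agent.S2388
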