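import Cfsg.Statements.S2391


set_option autoImplicit false
open Cfsg

namespace Cfsg.Agent.S2391


variable {F : Type*} [Field F] {n : ℕ}

/-- The ascending series of `U`-fixed layers. -/
def ser (U : Subgroup (Matrix.SpecialLinearGroup (Fin n) F)) (i : ℕ) : Submodule F (Fin n → F) :=
  Nat.rec ⊥ (fun _ W => ⨅ u : U, W.comap
    (Matrix.mulVecLin ((u : Matrix.SpecialLinearGroup (Fin n) F) : Matrix (Fin n) (Fin n) F) -
      LinearMap.id)) i

theorem ser_zero (U : Subgroup (Matrix.SpecialLinearGroup (Fin n) F)) : ser U 0 = ⊥ := rfl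

theorem mem_ser_succ (U : Subgroup (Matrix.SpecialLinearGroup (Fin n) F)) (i : ℕ) (v : Fin n → F) :
    v ∈ ser U (i + 1) ↔ ∀ u ∈ U, (u : Matrix (Fin n) (Fin n) F).mulVec v - v ∈ ser U i := by
  change v ∈ ⨅ u : U, (ser U i).comap _ ↔ _
  simp [Submodule.mem_iInf]

theorem ser_inv (U : Subgroup (Matrix.SpecialLinearGroup (Fin n) F)) (i : ℕ) :
    ∀ g ∈ Subgroup.normalizer (U : Set (Matrix.SpecialLinearGroup (Fin n) F)), ∀ v ∈ ser U i,
      (g : Matrix (Fin n) (Fin n) F).mulVec v ∈ ser U i := by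
  induction i with
  | zero => intro g _ v hv; rw [ser_zero, Submodule.mem_bot] at hv ⊢; simp [hv]
  | succ i ih =>
    intro g hg v hv
    rw [mem_ser_succ] at hv ⊢
    intro u hu
    have h1 : g⁻¹ * u * g ∈ U := by
      have := (Subgroup.mem_normalizer_iff.1 (Subgroup.inv_mem _ hg) u).1 hu
      simpa using this
    have h2 := ih g hg _ (hv _ h1)
    rw [Matrix.mulVec_sub, Matrix.mulVec_mulVec, ← Matrix.SpecialLinearGroup.coe_mul,
      ← mul_assoc, ← mul_assoc, mul_inv_cancel, one_mul, Matrix.SpecialLinearGroup.coe_mul,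
      ← Matrix.mulVec_mulVec] at h2
    exact h2

theorem ser_le_succ (U : Subgroup (Matrix.SpecialLinearGroup (Fin n) F)) (i : ℕ) :
    ser U i ≤ ser U (i + 1) := by
  intro v hv
  rw [mem_ser_succ]
  intro u hu
  exact (ser U i).sub_mem (ser_inv U i u (Subgroup.le_normalizer hu) v hv) hv

theorem ser_lt_succ [Fintype F] (p : ℕ) [Fact p.Prime] [CharP F p]
    (U : Subgroup (Matrix.SpecialLinearGroup (Fin n) F)) (hU : IsPGroup p ↥U) (i : ℕ)
    (hi : ser U i ≠ ⊤) : ser U i < ser U (i + 1) := by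
  classical
  refine lt_of_le_of_ne (ser_le_succ U i) fun heq => ?_
  set W := ser U i with hW
  have hinv : ∀ u : U, W ≤ W.comap
      (Matrix.mulVecLin ((u : Matrix.SpecialLinearGroup (Fin n) F) : Matrix (Fin n) (Fin n) F)) :=
    fun u v hv => ser_inv U i u (Subgroup.le_normalizer u.2) v hv
  let act : MulAction U ((Fin n → F) ⧸ W) :=
    { smul := fun u x => W.mapQ W _ (hinv u) x
      one_smul := fun x => by
        induction x using Submodule.Quotient.induction_on with
        | H v =>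
          change W.mapQ W _ (hinv 1) _ = _
          simp
      mul_smul := fun a b x => by
        induction x using Submodule.Quotient.induction_on with
        | H v =>
          change W.mapQ W _ (hinv (a * b)) _ = W.mapQ W _ (hinv a) (W.mapQ W _ (hinv b) _)
          simp }
  have hsmul : ∀ (u : U) (v : Fin n → F), u • (Submodule.Quotient.mk v : (Fin n → F) ⧸ W) =
      Submodule.Quotient.mk (((u : Matrix.SpecialLinearGroup (Fin n) F) :
        Matrix (Fin n) (Fin n) F).mulVec v) := fun _ _ => rfl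
  have hfin : Finite ((Fin n → F) ⧸ W) := Module.finite_of_finite F
  have hnt : Nontrivial ((Fin n → F) ⧸ W) := Submodule.Quotient.nontrivial_iff.2 hi
  have hdvd : p ∣ Nat.card ((Fin n → F) ⧸ W) := by
    have := Fintype.ofFinite ((Fin n → F) ⧸ W)
    rw [Nat.card_eq_fintype_card, Module.card_eq_pow_finrank (K := F)]
    refine dvd_pow ?_ (Module.finrank_pos (R := F)).ne'
    exact (CharP.cast_eq_zero_iff F p _).1 (FiniteField.cast_card_eq_zero F)
  have h0 : (0 : (Fin n → F) ⧸ W) ∈ MulAction.fixedPoints U ((Fin n → F) ⧸ W) := by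
    intro u
    rw [← Submodule.Quotient.mk_zero, hsmul, Matrix.mulVec_zero]
  obtain ⟨b, hb, hb0⟩ := hU.exists_fixed_point_of_prime_dvd_card_of_fixed_point _ hdvd h0
  induction b using Submodule.Quotient.induction_on with
  | H v =>
    apply hb0
    symm
    rw [Submodule.Quotient.mk_eq_zero, heq, mem_ser_succ]
    intro u hu
    have := hb ⟨u, hu⟩
    rw [hsmul, Submodule.Quotient.eq] at this
    exact this

theorem result {F : Type*} [Field F] [Fintype F] (p : ℕ) [Fact p.Prime] [CharP F p] (n : ℕ)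
    (U : Subgroup (Matrix.SpecialLinearGroup (Fin n) F)) (hU : IsPGroup p ↥U) (hne : U ≠ ⊥) :
    ∃ (k : ℕ) (V : Fin (k + 2) → Submodule F (Fin n → F)), 1 ≤ k ∧ StrictMono V ∧ V 0 = ⊥ ∧ V (Fin.last (k + 1)) = ⊤ ∧
      (∀ g ∈ Subgroup.normalizer (U : Set (Matrix.SpecialLinearGroup (Fin n) F)), ∀ i, (V i).map (Matrix.mulVecLin (g : Matrix (Fin n) (Fin n) F)) = V i) ∧
      (∀ u ∈ U, ∀ i : Fin (k + 1), ∀ v ∈ V i.succ, (u : Matrix (Fin n) (Fin n) F).mulVec v - v ∈ V (Fin.castSucc i)) := by
  classical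
  have hex : ∃ i, ser U i = ⊤ := by
    by_contra h
    push Not at h
    have hm : StrictMono (ser U) := strictMono_nat_of_lt_succ fun i => ser_lt_succ p U hU i (h i)
    exact not_injective_infinite_finite _ hm.injective
  have h1 : ser U 1 ≠ ⊤ := by
    intro h
    apply hne
    rw [eq_bot_iff]
    intro u hu
    rw [Subgroup.mem_bot]
    apply Subtype.ext
    apply Matrix.toLin'.injective
    refine LinearMap.ext fun v => ?_
    have := (mem_ser_succ U 0 v).1 (h ▸ Submodule.mem_top) u hu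
    rw [ser_zero, Submodule.mem_bot, sub_eq_zero] at this
    simpa using this
  have h0 : ser U 0 ≠ ⊤ := fun h => h1 (top_le_iff.1 (h ▸ ser_le_succ U 0))
  obtain ⟨k, hk⟩ : ∃ k, Nat.find hex = k + 1 := ⟨Nat.find hex - 1, by
    have : Nat.find hex ≠ 0 := fun h => h0 (h ▸ Nat.find_spec hex)
    omega⟩
  refine ⟨k, fun i => ser U i, ?_, ?_, rfl, ?_, ?_, ?_⟩
  · by_contra h
    have : k = 0 := by omega
    subst this
    have := Nat.find_spec hex
    rw [hk] at this
    exact h1 this
  · rw [Fin.strictMono_iff_lt_succ]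
    intro i
    exact ser_lt_succ p U hU i (Nat.find_min hex (by rw [hk]; exact i.2))
  · have := Nat.find_spec hex
    rwa [hk] at this
  · intro g hg i
    apply le_antisymm
    · rintro _ ⟨v, hv, rfl⟩
      exact ser_inv U i g hg v hv
    · intro v hv
      refine ⟨_, ser_inv U i g⁻¹ (Subgroup.inv_mem _ hg) v hv, ?_⟩
      rw [Matrix.mulVecLin_apply, Matrix.mulVec_mulVec, ← Matrix.SpecialLinearGroup.coe_mul,
        mul_inv_cancel, Matrix.SpecialLinearGroup.coe_one, Matrix.one_mulVec]
  · intro u hu i v hv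
    exact (mem_ser_succ U i v).1 hv u hu

end Cfsg.Agent.S2391
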