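import Cfsg.Statements.S2392
import Cfsg.Agent.KSG.LSSL

set_option autoImplicit false
open scoped MatrixGroups
open Cfsg

namespace Cfsg.Agent.S2392

open CL.LS

/-- A lower bound for representations in cross characteristic: for `n ≥ 3` and a field `F` with `q` elements, every homomorphism from `SL_n(F)` to `GL_d(K)`, `K` a field of characteristic different from that of `F`, whose kernel is central has `d ≥ q^(n-1) - 1`. -/
theorem result {F : Type*} [Field F] [Fintype F] {q : ℕ} (hq : Fintype.card F = q) (n : ℕ) (hn : 3 ≤ n)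
    {K : Type*} [Field K] (hK : ringChar K ≠ ringChar F) {d : ℕ}
    (ρ : Matrix.SpecialLinearGroup (Fin n) F →* GL (Fin d) K) (hker : ρ.ker ≤ Subgroup.center (Matrix.SpecialLinearGroup (Fin n) F)) :
    q ^ (n - 1) - 1 ≤ d := by
  let e := Matrix.SpecialLinearGroup.toLin'_equiv (n := Fin n) (R := F)
  let i : Fin n := ⟨0, by omega⟩
  let j : Fin n := ⟨1, by omega⟩
  have hij : i ≠ j := by simp [i, j]
  have h0 : (LinearMap.proj j : Module.Dual F (Fin n → F)) (Pi.single i 1) = 0 := by
    simp [hij.symm]
  have := bound_sl (F := F) (V := Fin n → F) (by simpa using hn) (K := AlgebraicClosure K)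
    (by rwa [ringChar_closure]) ((closureRep ρ).comp e.symm.toMonoidHom) h0 fun h => by
      have h1 := (MulEquivClass.apply_mem_center_iff e.symm).mp (hker (closureRep_eq_one ρ h))
      obtain ⟨r, -, hr⟩ := SpecialLinearGroup.mem_center_iff.mp h1
      have h2 := congrFun (LinearMap.congr_fun hr (Pi.single j 1)) i
      simp [tv_apply h0, hij] at h2
  rwa [Module.finrank_fin_fun, Module.finrank_fin_fun, Nat.card_eq_fintype_card, hq] at this

end Cfsg.Agent.S2392
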