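import Cfsg.Statements.S2393
import Cfsg.Agent.KSG.LSForm
import Cfsg.Agent.CLAS.SpForm

set_option autoImplicit false
open scoped MatrixGroups
open Cfsg

namespace Cfsg.Agent.S2393

open CL.LS CL.Witt

/-- A lower bound for representations in cross characteristic: for `n ≥ 2` and a field `F` with `q` elements, `q` odd, every homomorphism from the symplectic group `Sp_{2n}(F)` to `GL_d(K)`, `K` a field of characteristic different from that of `F`, whose kernel is central has `d ≥ q^(n-1)(q-1)/2`. -/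
theorem result {F : Type*} [Field F] [Fintype F] {q : ℕ} (hq : Fintype.card F = q) (hodd : Odd q) (n : ℕ) (hn : 2 ≤ n)
    {K : Type*} [Field K] (hK : ringChar K ≠ ringChar F) {d : ℕ}
    (ρ : ↥(Matrix.symplecticGroup (Fin n) F) →* GL (Fin d) K) (hker : ρ.ker ≤ Subgroup.center ↥(Matrix.symplecticGroup (Fin n) F)) :
    q ^ (n - 1) * (q - 1) / 2 ≤ d := by
  have hf := CL.Sp.spForm_nondeg n F
  have h2 : (2 : F) ≠ 0 := fun h => by
    have := FiniteField.even_card_of_char_two (F := F) (CharP.ringChar_of_prime_eq_zero Nat.prime_two h)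
    obtain ⟨k, hk⟩ := hodd
    omega
  obtain ⟨e, e', he⟩ := hf.exists_isHyp_alt (k := 1) (by rw [CL.Sp.finrank_sp]; omega)
  have h1 : closureRep ρ ((CL.Sp.spEquiv n F).symm ((CL.Sp.spForm n F).tvO (e 0) 1)) ≠ 1 := fun h => by
    have h3 := (CL.Sp.mem_center_of_mulEquiv _).mp (hker (closureRep_eq_one ρ h))
    obtain ⟨c, hc⟩ := hf.exists_eq_smul_of_commute_Tv (a := 1) one_ne_zero rfl (he.q_left 0)
      (he.linearIndependent_left.ne_zero 0) (g := (CL.Sp.spForm n F).tv (e 0) 1) fun t ht =>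
        (congrArg Subtype.val (Subgroup.mem_center_iff.mp h3 ⟨t, Form.Tv_le_O _ ht⟩)).symm
    exact not_scalar_ei hf (by rw [CL.Sp.finrank_sp]; omega) (he.q_left 0)
      (he.linearIndependent_left.ne_zero 0) (a := 1) one_ne_zero rfl
      ⟨c, by rwa [Form.ei_zero_eq_tv]⟩
  have := bound_alt_odd hf (CL.Sp.finrank_sp n F) h2 (K := AlgebraicClosure K)
    (by rwa [ringChar_closure]) ((closureRep ρ).comp (CL.Sp.spEquiv n F).symm.toMonoidHom)
    ⟨e 0, 1, h1⟩
  rw [Module.finrank_fin_fun, Nat.card_eq_fintype_card, hq] at this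
  obtain ⟨m, rfl⟩ := Nat.exists_eq_add_of_le' (show 1 ≤ n by omega)
  have h3 : 0 < q ^ m := pow_pos hodd.pos _
  rw [add_tsub_cancel_right, Nat.mul_sub_one, ← pow_succ]
  omega

end Cfsg.Agent.S2393
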