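import Mathlib
import Cfsg.Statements.S2394
import Cfsg.Agent.CLAS.SpForm
import Cfsg.Agent.KSG.Zsigmondy

set_option autoImplicit false
open scoped MatrixGroups
open Cfsg

namespace Cfsg.Agent.S2394


/-- The smallest degree of a faithful representation of the symplectic group `Sp_{2n}(q)` over its own field `F_q` is `2n`: every injective homomorphism from `Sp_{2n}(F)` to `GL_d(F)`, `F` the field with `q` elements, has `d ≥ 2n`. -/
theorem result {F : Type*} [Field F] [Fintype F] (n : ℕ) {d : ℕ}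
    (ρ : ↥(Matrix.symplecticGroup (Fin n) F) →* GL (Fin d) F) (hρ : Function.Injective ρ) : 2 * n ≤ d := by
  by_contra hd
  push Not at hd
  have hq : 1 < Fintype.card F := Fintype.one_lt_card
  have hdvd := Subgroup.card_dvd_of_injective ρ hρ
  rw [CL.Sp.card_symplecticGroup, Matrix.card_GL_field, Nat.card_eq_fintype_card] at hdvd
  generalize Fintype.card F = q at hq hdvd
  obtain ⟨m, rfl⟩ : ∃ m, n = m + 1 := ⟨n - 1, by clear hdvd hρ ρ; omega⟩
  by_cases h1 : m = 0
  · subst h1
    have hd' : d < 2 := by omega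
    have h3 : q ^ 2 - 1 + 1 = q ^ 2 := Nat.sub_add_cancel (pow_pos (lt_trans one_pos hq) 2)
    have h2 : q < q ^ 2 := by nlinarith
    have h4 : q ≤ q * (q ^ 2 - 1) := Nat.le_mul_of_pos_right _ (by omega)
    interval_cases d
    · simp at hdvd; omega
    · have := Nat.le_of_dvd (by simp; omega) hdvd
      simp at this; omega
  by_cases h2 : q = 2 ∧ m = 2
  · obtain ⟨rfl, rfl⟩ := h2
    have hd' : d < 6 := by omega
    interval_cases d <;> revert hdvd <;> decide +kernel
  obtain ⟨r, hr, h3, h4⟩ := CL.Zsig.exists_zsigmondy_prime q (2 * (m + 1)) hq (by omega) (by omega) (by omega)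
  have h5 : r ∣ ∏ i : Fin d, (q ^ d - q ^ (i : ℕ)) :=
    (h3.trans ((Finset.dvd_prod_of_mem _ (Finset.self_mem_range_succ m)).mul_left _)).trans hdvd
  obtain ⟨i, -, hi⟩ := (Prime.dvd_finsetProd_iff hr.prime _).1 h5
  obtain ⟨k, hk⟩ : ∃ k, d = i + (k + 1) := ⟨d - i - 1, by have := i.2; omega⟩
  have h6 : q ^ d - q ^ (i : ℕ) = q ^ (i : ℕ) * (q ^ (k + 1) - 1) := by
    rw [Nat.mul_sub_one, ← pow_add, ← hk]
  rw [h6] at hi
  rcases (Nat.Prime.dvd_mul hr).1 hi with h | h
  · have h7 := hr.dvd_of_dvd_pow h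
    exact hr.not_dvd_one ((Nat.dvd_sub_iff_right (pow_pos (lt_trans one_pos hq) _) (dvd_pow h7 (by omega))).1 h3)
  · exact h4 (k + 1) (by omega) (by omega) h

end Cfsg.Agent.S2394
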