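import Cfsg.Statements.S2397
import Cfsg.Agent.CHEV.StbLift
import Cfsg.Agent.CHEV.Core

set_option autoImplicit false
open Cfsg

namespace Cfsg.Agent.S2397

/-- Over a finite field the relators (R3) h̄_r(t₁) h̄_r(t₂) = h̄_r(t₁ t₂) are consequences of (R1) and (R2): for each of the types G₂, B₂, D₄, F₄, E₆, E₇, E₈ (for types B₂ and G₂ the field must have more than two elements — the cases where the Chevalley group is not simple are set aside) the group presented by (R1), (R2) is canonically isomorphic to the one presented by (R1)–(R3), by an isomorphism matching the generators x̄_r(t). -/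
theorem result {K : Type*} [Field K] [Finite K] (D : Cfsg.Lie.ChevalleyDatum) (hD : D ∈ [Cfsg.Lie.chevG2, Cfsg.Lie.chevB2, Cfsg.Lie.chevD4, Cfsg.Lie.chevF4, Cfsg.Lie.chevE6, Cfsg.Lie.chevE7, Cfsg.Lie.chevE8]) (hK : D ∈ [Cfsg.Lie.chevB2, Cfsg.Lie.chevG2] → ∃ x : K, x ≠ 0 ∧ x ≠ 1) :
    ∃ e : D.SteinbergCover K ≃* D.SteinbergGroup K, ∀ (r : ℕ) (t : K), e (D.scGen K r t) = D.stGen K r t := by
  obtain ⟨g⟩ := CL.Chev.good_of_mem hD
  let ψ := CL.Chev.ssLift (CL.Chev.stC D K) CL.Chev.stC_exact (CL.Chev.stC D K).R3_of_finite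
  have h1 : ∀ r t, ψ ((CL.Chev.stS D K).x r t) = (CL.Chev.stC D K).x r t := CL.Chev.ssLift_stGen _ _ _
  refine ⟨MonoidHom.toMulEquiv (CL.Chev.coverToSt D K) ψ
    (CL.Chev.pgx_hom_ext fun r t => (congrArg ψ (CL.Chev.coverToSt_x r t)).trans (h1 r t))
    (CL.Chev.pgx_hom_ext fun r t => (congrArg (CL.Chev.coverToSt D K) (h1 r t)).trans (CL.Chev.coverToSt_x r t)),
    fun r t => ?_⟩
  by_cases hr : r < D.nroots
  · exact CL.Chev.coverToSt_x ⟨r, hr⟩ t
  · simp only [Cfsg.Lie.ChevalleyDatum.scGen, Cfsg.Lie.ChevalleyDatum.stGen, Cfsg.Lie.ChevalleyDatum.stX,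
      dif_neg hr, map_one]

end Cfsg.Agent.S2397
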