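import Cfsg.Statements.S2399
import Cfsg.Agent.CHEV.StbLift
import Cfsg.Agent.CHEV.Core
import Cfsg.Agent.FGS.SchurProj

set_option autoImplicit false
open scoped MatrixGroups
open Cfsg

namespace Cfsg.Agent.S2399

open CL.Chev CL.Schur in
theorem scalar_pow {L : Type*} [Field L] {p : ℕ} (hp : p.Prime) [CharP L p] (n : ℕ) :
    ∃ m : ℕ, m.Coprime p ∧ ∀ z ∈ Subgroup.center (GL (Fin n) L), z ∈ commutator (GL (Fin n) L) → z ^ m = 1 := by
  rcases eq_or_ne n 0 with rfl | hn
  · exact ⟨1, Nat.coprime_one_left _, fun z _ _ => Subsingleton.elim _ _⟩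
  obtain ⟨e, m, hm, rfl⟩ := Nat.exists_eq_pow_mul_and_not_dvd hn p hp.ne_one
  refine ⟨m, ((Nat.Prime.coprime_iff_not_dvd hp).2 hm).symm, fun z hz hz' => ?_⟩
  rw [Matrix.GeneralLinearGroup.center_eq_range_scalar] at hz
  obtain ⟨c, rfl⟩ := hz
  have h1 := Abelianization.commutator_subset_ker (Matrix.GeneralLinearGroup.det (n := Fin (p ^ e * m)) (R := L)) hz'
  have : ExpChar L p := ExpChar.prime hp
  have h2 : (c : L) ^ (p ^ e * m) = 1 := by
    have := congrArg Units.val (MonoidHom.mem_ker.1 h1)
    simpa [Matrix.GeneralLinearGroup.scalar] using this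
  rw [ExpChar.pow_prime_pow_mul_eq_one_iff] at h2
  rw [← map_pow, show c ^ m = 1 from Units.ext (by simpa using h2), map_one]

/-- Projective representations in the natural characteristic lift: for each of the types G₂, B₂, D₄, F₄, E₆, E₇, E₈ over any field `K` (for types B₂ and G₂ the field must have more than two elements — the cases where the Chevalley group is not simple are set aside), every homomorphism from the Chevalley group to `PGL_n(L) = GL_n(L)/Z`, `L` a field of the same characteristic as `K`, lifts uniquely to a homomorphism from the group Δ presented by (R1), (R2) to `GL_n(L)`, compatibly with the projection Δ → Chevalley group sending x̄_r(t) to x_r(t). -/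
theorem result {K : Type*} [Field K] (D : Cfsg.Lie.ChevalleyDatum) (hD : D ∈ [Cfsg.Lie.chevG2, Cfsg.Lie.chevB2, Cfsg.Lie.chevD4, Cfsg.Lie.chevF4, Cfsg.Lie.chevE6, Cfsg.Lie.chevE7, Cfsg.Lie.chevE8]) (hK : D ∈ [Cfsg.Lie.chevB2, Cfsg.Lie.chevG2] → ∃ x : K, x ≠ 0 ∧ x ≠ 1)
    (θ : D.SteinbergCover K →* ↥(D.group K))
    (hθ : ∀ (r : ℕ) (t : K), r < D.nroots → ((θ (D.scGen K r t) : GL D.Idx K) : Matrix D.Idx D.Idx K) = D.x K r t)
    {L : Type*} [Field L] (hL : ringChar L = ringChar K) {n : ℕ}
    (φ : ↥(D.group K) →* GL (Fin n) L ⧸ Subgroup.center (GL (Fin n) L)) :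
    ∃! ψ : D.SteinbergCover K →* GL (Fin n) L, (QuotientGroup.mk' (Subgroup.center (GL (Fin n) L))).comp ψ = φ.comp θ := by
  obtain ⟨g⟩ := CL.Chev.good_of_mem hD
  have hp : Group.IsPerfect (D.SteinbergCover K) :=
    ⟨CL.Chev.perfect_cover hD fun h => hK (by rcases h with rfl | rfl <;> simp)⟩
  have hc := CL.Schur.isCentralExt_mk_center (GL (Fin n) L)
  have h := CL.Schur.IsCentralExt.pbFst (φ.comp θ) hc
  suffices hs : ∃ s : D.SteinbergCover K →* _, (CL.Schur.pbFst (φ.comp θ)
      (QuotientGroup.mk' (Subgroup.center (GL (Fin n) L)))).comp s = MonoidHom.id _ by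
    obtain ⟨s, hs⟩ := hs
    obtain ⟨τ, hτ⟩ := CL.Schur.exists_lift_of_section _ _ s hs
    exact ⟨τ, hτ, fun τ' hτ' => CL.Schur.lift_unique_of_perfect hp hc.central (hτ'.trans hτ.symm)⟩
  rcases CharP.char_is_prime_or_zero K (ringChar K) with hq | hq
  · have : CharP L (ringChar K) := hL ▸ ringChar.charP L
    obtain ⟨m, hm, hz⟩ := scalar_pow (L := L) hq n
    set P := CL.Schur.pullback (φ.comp θ) (QuotientGroup.mk' (Subgroup.center (GL (Fin n) L)))
    set π := CL.Schur.pbFst (φ.comp θ) (QuotientGroup.mk' (Subgroup.center (GL (Fin n) L)))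
    have h' : CL.Schur.IsCentralExt (π.comp (commutator P).subtype) := by
      refine ⟨fun x => ?_, fun x hx => Subgroup.mem_center_iff.2 fun y => Subtype.ext (h.comm hx y)⟩
      obtain ⟨y, hy, e⟩ : x ∈ (commutator P).map π := by
        rw [map_commutator_eq, MonoidHom.range_eq_top.2 h.surj, ← commutator_def, hp.commutator_eq_top]
        trivial
      exact ⟨⟨y, hy⟩, e⟩
    obtain ⟨s, hs⟩ := CL.Chev.exists_section_cover (CL.Chev.StData.exists_lift_of_coprime h' (CL.Chev.stC D K) hm
      fun z hz1 => by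
        have h1 : (z.1 : D.SteinbergCover K × GL (Fin n) L).1 = 1 := hz1
        have h2 := CL.Schur.mem_pullback.1 z.1.2
        rw [h1, map_one, eq_comm, QuotientGroup.mk'_apply, QuotientGroup.eq_one_iff] at h2
        refine Subtype.ext (Subtype.ext (Prod.ext ?_ (hz _ h2 ?_)))
        · change (z.1 : D.SteinbergCover K × GL (Fin n) L).1 ^ m = 1
          rw [h1, one_pow]
        · have := Subgroup.mem_map_of_mem (CL.Schur.pbSnd _ _) z.2
          rw [map_commutator_eq] at this
          exact Subgroup.commutator_mono le_top le_top this)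
    exact ⟨(commutator P).subtype.comp s, hs⟩
  · have : CharZero K := by
      have := ringChar.charP K
      rw [hq] at this
      exact CharP.charP_to_charZero K
    have : Infinite K := CharZero.infinite K
    obtain ⟨s, hs⟩ := Infinite.exists_subset_card_eq K 5
    exact CL.Chev.exists_section_cover
      (CL.Chev.StData.exists_lift_big h CL.Chev.stC_good CL.Chev.exists_neighbour ⟨s, by omega⟩)

end Cfsg.Agent.S2399
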