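import Cfsg.Statements.S2401
import Cfsg.Agent.KSG.ShortSt

set_option autoImplicit false
open Cfsg

namespace Cfsg.Agent.S2401

/-- The Steinberg presentation of `SL_n` over a finite field for `n ≥ 3`: the group generated by symbols `x_ij(t)` (`i ≠ j`, `t` in the field) subject to `x_ij(t) x_ij(u) = x_ij(t + u)` and, for `i ≠ l`, `x_ij(t) x_kl(u) x_ij(t)⁻¹ x_kl(u)⁻¹ = x_il(tu)` if `j = k` and `= 1` if `j ≠ k`, is isomorphic to `SL_n` by an isomorphism sending `x_ij(t)` to the elementary matrix `1 + t E_ij`. -/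
theorem result {K : Type*} [Field K] [Finite K] (n : ℕ) (hn : 3 ≤ n) :
    ∃ e : PresentedGroup
        ({g : FreeGroup ({ij : Fin n × Fin n // ij.1 ≠ ij.2} × K) | ∃ (a : {ij : Fin n × Fin n // ij.1 ≠ ij.2}) (t u : K),
            g = FreeGroup.of (a, t) * FreeGroup.of (a, u) * (FreeGroup.of (a, t + u))⁻¹} ∪
          {g | ∃ (a b : {ij : Fin n × Fin n // ij.1 ≠ ij.2}) (t u : K), a.1.1 ≠ b.1.2 ∧ a.1.2 ≠ b.1.1 ∧
            g = FreeGroup.of (a, t) * FreeGroup.of (b, u) * (FreeGroup.of (a, t))⁻¹ * (FreeGroup.of (b, u))⁻¹} ∪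
          {g | ∃ (a b : {ij : Fin n × Fin n // ij.1 ≠ ij.2}) (h : a.1.1 ≠ b.1.2) (t u : K), a.1.2 = b.1.1 ∧
            g = FreeGroup.of (a, t) * FreeGroup.of (b, u) * (FreeGroup.of (a, t))⁻¹ * (FreeGroup.of (b, u))⁻¹ *
              (FreeGroup.of (⟨(a.1.1, b.1.2), h⟩, t * u))⁻¹}) ≃* Matrix.SpecialLinearGroup (Fin n) K,
      ∀ (a : {ij : Fin n × Fin n // ij.1 ≠ ij.2}) (t : K), ((e (PresentedGroup.of (a, t)) : Matrix (Fin n) (Fin n) K)) = Matrix.transvection a.1.1 a.1.2 t := by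
  classical
  set rels : Set (FreeGroup ({ij : Fin n × Fin n // ij.1 ≠ ij.2} × K)) := _ ∪ _ with hrels
  let X : Fin n → Fin n → K → PresentedGroup rels := fun i j t =>
    if h : i ≠ j then PresentedGroup.of (⟨(i, j), h⟩, t) else 1
  have hX : ∀ i j (h : i ≠ j) t, X i j t = PresentedGroup.mk rels (FreeGroup.of (⟨(i, j), h⟩, t)) :=
    fun i j h t => dif_pos h
  obtain ⟨ψ, hψ⟩ := CL.Chev.Cl.exists_hom_SL hn X (fun i j h s t => by
      rw [hX i j h, hX i j h, hX i j h, eq_comm, ← mul_inv_eq_one, ← map_inv, ← map_mul, ← map_mul]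
      exact PresentedGroup.one_of_mem (Or.inl (Or.inl ⟨_, _, _, rfl⟩)))
    (fun i j k l h h' h1 h2 s t => by
      rw [← commutatorElement_eq_one_iff_commute, hX i j h, hX k l h', ← map_commutatorElement]
      exact PresentedGroup.one_of_mem (Or.inl (Or.inr ⟨⟨(i, j), h⟩, ⟨(k, l), h'⟩, s, t, h1, h2, rfl⟩)))
    (fun i j l h h' h1 s t => by
      rw [hX i j h, hX j l h', hX i l h1, ← map_commutatorElement, ← mul_inv_eq_one, ← map_inv,
        ← map_mul]
      exact PresentedGroup.one_of_mem (Or.inr ⟨⟨(i, j), h⟩, ⟨(j, l), h'⟩, h1, s, t, rfl, rfl⟩))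
  have hr : ∀ r ∈ rels, FreeGroup.lift (fun p : {ij : Fin n × Fin n // ij.1 ≠ ij.2} × K =>
      Matrix.SpecialLinearGroup.transvection p.1.2 p.2) r = 1 := by
    rintro _ ((⟨a, t, u, rfl⟩ | ⟨a, b, t, u, h1, h2, rfl⟩) | ⟨⟨⟨i, j⟩, a⟩, ⟨⟨k, l⟩, b⟩, h, t, u, h1, rfl⟩)
    · simp [Matrix.SpecialLinearGroup.transvection_add]
    · simp only [map_mul, map_inv, FreeGroup.lift_apply_of]
      exact commutatorElement_eq_one_iff_commute.2 (CL.Chev.Cl.tv_commute a.2 b.2 h1 h2 t u)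
    · obtain rfl : j = k := h1
      simp only [map_mul, map_inv, FreeGroup.lift_apply_of, mul_inv_eq_one]
      exact CL.SL.commutator_transvection h a b t u
  refine ⟨MonoidHom.toMulEquiv (PresentedGroup.toGroup hr) ψ ?_ ?_, fun a t => ?_⟩
  · ext ⟨⟨⟨i, j⟩, h⟩, t⟩
    simp only [MonoidHom.comp_apply, PresentedGroup.toGroup.of, hψ, MonoidHom.id_apply]
    exact hX i j h t
  · refine MonoidHom.eq_of_eqOn_dense CL.SL.closure_transvections_eq_top ?_
    rintro _ ⟨i, j, h, t, rfl⟩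
    simp only [MonoidHom.comp_apply, hψ, hX i j h, MonoidHom.id_apply]
    exact PresentedGroup.toGroup.of hr
  · exact congrArg Subtype.val (PresentedGroup.toGroup.of hr)

end Cfsg.Agent.S2401
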