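import Cfsg.Statements.S2409
import Mathlib
import Cfsg.Agent.CHEV.ReeConcrete
import Cfsg.Agent.CHEV.ReeAut
import Cfsg.Agent.CHEV.ReeTori

set_option autoImplicit false
open Cfsg

namespace Cfsg.Agent.S2409

open CL.Ree in
theorem U_le {F : Type*} [Field F] [CharP F 3] [Finite F] {σ : F →+* F} {G : Type*} [Group G]
    (M : Model σ G) (hq : 3 < Nat.card F) {K : Subgroup G} (hH : M.H ≤ K) {a y z : F} (ha : a ≠ 0)
    (hu : M.u a y z ∈ K) : M.U ≤ K := by
  have hc : ∀ (l : Fˣ) {a y z}, M.u a y z ∈ K → M.u (l * a) (l * σ l * y) (l ^ 2 * σ l * z) ∈ K :=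
    fun l _ _ _ h => M.h_conj_u l _ _ _ ▸
      K.mul_mem (K.mul_mem (hH (M.h_mem_H l)) h) (K.inv_mem (hH (M.h_mem_H l)))
  have h0 : M.u 0 0 0 ∈ K := M.u_zero ▸ K.one_mem
  have hZ : ∀ t, M.u 0 0 t ∈ K := fun t => by
    rcases eq_or_ne t 0 with rfl | ht
    · exact h0
    have hb : -a ^ 2 * σ a ≠ 0 := mul_ne_zero (neg_ne_zero.mpr (pow_ne_zero 2 ha)) (Model.σ_ne_zero ha)
    have h1 : M.u 0 0 (-a ^ 2 * σ a) ∈ K := M.u_cube a y z ▸ K.pow_mem hu 3
    generalize -a ^ 2 * σ a = b at hb h1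
    have hs := div_ne_zero ht hb
    have := hc (Units.mk0 ((t / b) ^ 2 / σ (t / b)) (div_ne_zero (pow_ne_zero 2 hs) (Model.σ_ne_zero hs))) h1
    convert this using 2
    · simp
    · simp
    · have := Model.σ_ne_zero (σ := σ) hs
      simp only [Units.val_mk0, map_div₀ σ (_ ^ 2), map_pow, M.tits]
      generalize σ (t / b) = s at this
      field_simp
  have hA : ∀ b, ∃ v w, M.u b v w ∈ K := fun b => by
    rcases eq_or_ne b 0 with rfl | hb
    · exact ⟨0, 0, h0⟩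
    have := hc (Units.mk0 (b / a) (div_ne_zero hb ha)) hu
    rw [Units.val_mk0, div_mul_cancel₀ _ ha] at this
    exact ⟨_, _, this⟩
  have hY' : ∀ {v w}, M.u 0 v w ∈ K → ∀ w', M.u 0 v w' ∈ K := fun {v w} h w' => by
    have := K.mul_mem h (hZ (w' - w))
    rwa [M.u_zero_mul, add_zero, add_sub_cancel] at this
  have hY : ∀ v w, M.u 0 v w ∈ K := fun v w => by
    obtain ⟨b, hb⟩ := M.exists_σ_ne hq
    obtain ⟨_, _, h1⟩ := hA 1
    obtain ⟨_, _, h2⟩ := hA b
    have h3 := K.mul_mem (K.mul_mem h1 h2) (K.inv_mem (K.mul_mem h2 h1))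
    rw [M.u_mul, M.u_mul, M.u_inv, M.u_mul, add_comm b 1, add_neg_cancel] at h3
    replace h3 : M.u 0 (b - σ b) 0 ∈ K := by
      convert hY' h3 0 using 2
      simp only [map_neg, map_one]
      ring
    have hb' := sub_ne_zero.mpr hb.symm
    generalize b - σ b = c at hb' h3
    rcases eq_or_ne v 0 with rfl | hv
    · exact hZ w
    obtain ⟨t, ht⟩ := exists_sq_or M.tits (Units.mk0 (v / c) (div_ne_zero hv hb'))
    have hs := Model.σ_ne_zero (σ := σ) t.ne_zero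
    have h4 := hc (Units.mk0 (σ t / t) (div_ne_zero hs t.ne_zero)) h3
    have e : ((σ t / t) * σ (σ t / t) * c : F) = t ^ 2 * c := by
      rw [map_div₀, M.tits]; field_simp
    rw [Units.val_mk0, mul_zero, e] at h4
    rcases ht with ht | ht <;> have ht' := congrArg Units.val ht <;>
      simp only [Units.val_mk0, Units.val_neg, Units.val_pow_eq_pow_val] at ht'
    · rw [← ht', div_mul_cancel₀ _ hb'] at h4
      exact hY' h4 w
    · have h5 := K.inv_mem h4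
      rw [M.u_zero_inv, ← neg_mul, ← ht', div_mul_cancel₀ _ hb'] at h5
      exact hY' h5 w
  rintro _ ⟨b, v, w, rfl⟩
  obtain ⟨v', w', h1⟩ := hA b
  have := K.mul_mem (hY (v - v') (w - w' + b * (v - v'))) h1
  rw [M.u_mul] at this
  convert this using 2 <;> ring

/-- The small Ree group ²G₂(3^(2m+1)) with `m ≥ 1` is generated by two of its elements. -/
theorem result {K : Type*} [Field K] [Fintype K] {m : ℕ} (hm : 1 ≤ m) (hK : Fintype.card K = 3 ^ (2 * m + 1)) :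
    ∃ a b : ↥(Cfsg.Lie.twistedG2 K (3 ^ m)), Subgroup.closure ({a, b} : Set ↥(Cfsg.Lie.twistedG2 K (3 ^ m))) = ⊤ := by
  have := CL.Ree.charP_three hK
  have hK' := Nat.card_eq_fintype_card.trans hK
  set M := CL.Ree.model hK'
  have hq := CL.Ree.three_lt_card hm hK'
  obtain ⟨ζ, hζ⟩ := IsCyclic.exists_generator (α := Kˣ)
  refine ⟨M.h ζ, M.w * M.u 1 0 0, ?_⟩
  set S := Subgroup.closure ({M.h ζ, M.w * M.u 1 0 0} : Set ↥(Cfsg.Lie.twistedG2 K (3 ^ m)))
  have ha : M.h ζ ∈ S := Subgroup.subset_closure (by simp)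
  have hb : M.w * M.u 1 0 0 ∈ S := Subgroup.subset_closure (by simp)
  have hH : M.H ≤ S := by
    rintro _ ⟨l, rfl⟩
    obtain ⟨n, rfl⟩ := hζ l
    simp only [map_zpow]
    exact S.zpow_mem ha n
  have hl := hH (M.h_mem_H (-1))
  have h1 := S.mul_mem hl (S.mul_mem (S.mul_mem (S.inv_mem hb) hl) hb)
  have e : M.h (-1) * ((M.w * M.u 1 0 0)⁻¹ * M.h (-1) * (M.w * M.u 1 0 0)) =
      (M.h (-1) * (M.u 1 0 0)⁻¹ * (M.h (-1))⁻¹) * M.u 1 0 0 := by
    rw [mul_inv_rev, M.w_inv, ← map_inv, ← M.w_h_w]; group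
  rw [e, M.u_inv, M.h_conj_u, M.u_mul] at h1
  have hU := U_le M hq hH (by simpa [one_add_one_eq_two] using CL.Ree.two_ne_zero') h1
  refine M.eq_top_of_B_le ?_ fun h => ?_
  · rintro _ ⟨a, y, z, l, rfl⟩
    exact S.mul_mem (hU (M.u_mem_U _ _ _)) (hH (M.h_mem_H l))
  · exact M.w_not_mem_B ((M.B.mul_mem_cancel_right (M.u_mem_B 1 0 0)).mp (h hb))

end Cfsg.Agent.S2409
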