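import Cfsg.Statements.S2412
import Cfsg.Agent.KSG.ShortGenU

set_option autoImplicit false
open Cfsg

namespace Cfsg.Agent.S2412

/-- The projective special unitary group `PSU_n(q)` with `n ≥ 3`, realised over the field with `q²` elements, `(n, q) ≠ (3, 2)`, is generated by two of its elements. -/
theorem result {F : Type*} [Field F] [Fintype F] {q : ℕ} (hq : IsPrimePow q) (hF : Fintype.card F = q ^ 2) (n : ℕ) (hn : 3 ≤ n) (h32 : n = 3 → q ≠ 2) :
    ∃ a b : Cfsg.PSU n F q, Subgroup.closure ({a, b} : Set (Cfsg.PSU n F q)) = ⊤ := by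
  obtain ⟨a, b, h⟩ := CL.KSG.exists_pair_SU hF hn (by have := CL.SqField.two_le hF; omega)
  refine ⟨QuotientGroup.mk' _ a, QuotientGroup.mk' _ b, ?_⟩
  rw [← Set.image_pair, ← MonoidHom.map_closure, h, Subgroup.map_top_of_surjective _ (QuotientGroup.mk'_surjective _)]

end Cfsg.Agent.S2412
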