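import Cfsg.Statements.S2413
import Cfsg.Agent.KSG.GenCl

set_option autoImplicit false
open Cfsg

namespace Cfsg.Agent.S2413

/-- The simple orthogonal group `PΩ_{2m+1}(q)` (commutator subgroup of the orthogonal group of `x₀² + Σ x_i y_i` modulo its centre) with `m ≥ 2` and `q` odd is generated by two of its elements. -/
theorem result {F : Type*} [Field F] [Fintype F] (hodd : Odd (Fintype.card F)) (m : ℕ) (hm : 2 ≤ m) :
    ∃ a b : Cfsg.POmega F (Cfsg.quadFormOdd m F), Subgroup.closure ({a, b} : Set (Cfsg.POmega F (Cfsg.quadFormOdd m F))) = ⊤ := by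
  obtain ⟨n, rfl⟩ : ∃ n, m = n + 2 := ⟨m - 2, by omega⟩
  have h : 2 < Fintype.card F := by
    have := Fintype.one_lt_card (α := F)
    obtain ⟨k, hk⟩ := hodd
    omega
  obtain ⟨a, h0, h1⟩ : ∃ a : F, a ≠ 0 ∧ a ≠ 1 := by
    classical
    obtain ⟨a, -, ha⟩ := Finset.exists_mem_notMem_of_card_lt_card (s := {0, 1}) (t := (Finset.univ : Finset F))
      (Finset.card_le_two.trans_lt h)
    exact ⟨a, by simpa using ha⟩
  exact CL.Chev.Cl.two_gen_B (CL.Chev.Cl.pomOddSt_top (by omega) ⟨a, h0, h1⟩) h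

end Cfsg.Agent.S2413
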