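import Cfsg.Statements.S2416
import Cfsg.Agent.CHEV.NGen

set_option autoImplicit false
open scoped MatrixGroups
open Cfsg

namespace Cfsg.Agent.S2416

open CL.Chev Cfsg.Lie

theorem aux {K : Type*} [Field K] (D : ChevalleyDatum) [CL.Chev.Good D] {b : Bool} (hb : b = true → (2 : K) ≠ 0) {i : ℕ}
    (h : allLt D.rank (fun k => lmem k ((Good.C D).reach D.rank b D.rank [i])) = true) :
    D.group K ≤ D.monomialSubgroup K ⊔ D.rootSubgroup K (D.simple i) :=
  group_le_of_reach le_sup_left hb (fun _ hj => List.mem_singleton.1 hj ▸ le_sup_right) h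

/-- A Chevalley group of type G₂, B₂, D₄, F₄, E₆, E₇ or E₈ over a finite field lies in (indeed equals) the subgroup generated by its monomial subgroup `N` and a single fundamental root subgroup `X_p`, where `p` is a short fundamental root if there are two root lengths (any fundamental root otherwise), provided the characteristic is not 2 for types B₂, F₄ and not 3 for type G₂ (and the field has more than two elements for B₂, G₂). -/
theorem result {K : Type*} [Field K] [Finite K] (D : Cfsg.Lie.ChevalleyDatum) (hD : D ∈ [Cfsg.Lie.chevG2, Cfsg.Lie.chevB2, Cfsg.Lie.chevD4, Cfsg.Lie.chevF4, Cfsg.Lie.chevE6, Cfsg.Lie.chevE7, Cfsg.Lie.chevE8])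
    (hK : D ∈ [Cfsg.Lie.chevB2, Cfsg.Lie.chevG2] → ∃ x : K, x ≠ 0 ∧ x ≠ 1)
    (h2 : D ∈ [Cfsg.Lie.chevB2, Cfsg.Lie.chevF4] → ringChar K ≠ 2) (h3 : D = Cfsg.Lie.chevG2 → ringChar K ≠ 3)
    (i : ℕ) (hi : i < D.rank) (hshort : D.isLong (D.simple i) = false) :
    D.group K ≤ D.monomialSubgroup K ⊔ D.rootSubgroup K (D.simple i) := by
  have c2 : ringChar K ≠ 2 → (2 : K) ≠ 0 := fun h e => h (ringChar_eq_of_cast (p := 2) (by exact_mod_cast e))
  simp only [List.mem_cons, List.not_mem_nil, or_false] at hD h2
  rcases hD with rfl | rfl | rfl | rfl | rfl | rfl | rfl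
  · obtain rfl : i = 0 := by
      have := (isLong_G2 ⟨i, hi⟩).symm.trans hshort
      simpa using this
    have := long_le_G2 (K := K) (M := chevG2.monomialSubgroup K ⊔ chevG2.rootSubgroup K (chevG2.simple 0)) le_sup_left
      (fun e => h3 rfl (ringChar_eq_of_cast (p := 3) (by exact_mod_cast e))) le_sup_right
    refine group_le_of_reach (b := false) le_sup_left (by simp) (L := [0, 1]) (fun j hj => ?_) (by decide +kernel)
    simp only [List.mem_cons, List.not_mem_nil, or_false] at hj
    rcases hj with rfl | rfl
    exacts [le_sup_right, this]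
  · obtain rfl : i = 0 := by
      have := (isLong_B2 ⟨i, hi⟩).symm.trans hshort
      simpa using this
    exact aux _ (b := true) (fun _ => c2 (h2 (.inl rfl))) (by decide +kernel)
  · exact aux _ (b := false) (by simp) ((by decide +kernel : ∀ i < chevD4.rank, allLt chevD4.rank (fun k => lmem k
      ((Good.C chevD4).reach chevD4.rank false chevD4.rank [i])) = true) i hi)
  · have h : i < 2 := by
      have := (isLong_F4 ⟨i, hi⟩).symm.trans hshort
      simpa using this
    exact aux _ (b := true) (fun _ => c2 (h2 (.inr rfl))) ((by decide +kernel : ∀ i < 2, allLt chevF4.rank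
      (fun k => lmem k ((Good.C chevF4).reach chevF4.rank true chevF4.rank [i])) = true) i h)
  · exact aux _ (b := false) (by simp) ((by decide +kernel : ∀ i < chevE6.rank, allLt chevE6.rank (fun k => lmem k
      ((Good.C chevE6).reach chevE6.rank false chevE6.rank [i])) = true) i hi)
  · exact aux _ (b := false) (by simp) ((by decide +kernel : ∀ i < chevE7.rank, allLt chevE7.rank (fun k => lmem k
      ((Good.C chevE7).reach chevE7.rank false chevE7.rank [i])) = true) i hi)
  · exact aux _ (b := false) (by simp) ((by decide +kernel : ∀ i < chevE8.rank, allLt chevE8.rank (fun k => lmem k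
      ((Good.C chevE8).reach chevE8.rank false chevE8.rank [i])) = true) i hi)

end Cfsg.Agent.S2416
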