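import Cfsg.Statements.S2417
import Cfsg.Agent.CHEV.NGen

set_option autoImplicit false
open scoped MatrixGroups
open Cfsg

namespace Cfsg.Agent.S2417

open CL.Chev Cfsg.Lie

theorem aux {K : Type*} [Field K] (D : ChevalleyDatum) [CL.Chev.Good D] {i j : ℕ}
    (h : allLt D.rank (fun k => lmem k ((Good.C D).reach D.rank false D.rank [i, j])) = true) :
    D.group K ≤ D.monomialSubgroup K ⊔ D.rootSubgroup K (D.simple i) ⊔ D.rootSubgroup K (D.simple j) :=
  group_le_of_reach (b := false) (le_sup_left.trans le_sup_left) (by simp) (fun _ hj => by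
    simp only [List.mem_cons, List.not_mem_nil, or_false] at hj
    rcases hj with rfl | rfl
    exacts [le_sup_right.trans le_sup_left, le_sup_right]) h

/-- In the characteristics with an exceptional graph symmetry — type B₂ or F₄ in characteristic 2 (field of more than two elements for B₂) and type G₂ in characteristic 3 — the Chevalley group lies in the subgroup generated by its monomial subgroup `N` and the two fundamental root subgroups `X_a`, `X_b` of a short root `a` and a long root `b` joined in the Dynkin diagram. -/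
theorem result {K : Type*} [Field K] [Finite K] (e : Cfsg.Lie.ChevalleyDatum × ℕ)
    (he : e ∈ [(Cfsg.Lie.chevB2, 2), (Cfsg.Lie.chevF4, 2), (Cfsg.Lie.chevG2, 3)]) [CharP K e.2]
    (hK : e.1 = Cfsg.Lie.chevB2 → ∃ x : K, x ≠ 0 ∧ x ≠ 1)
    (i j : ℕ) (hi : i < e.1.rank) (hj : j < e.1.rank) (hshort : e.1.isLong (e.1.simple i) = false)
    (hlong : e.1.isLong (e.1.simple j) = true) (hbond : e.1.bonds i j ≠ 0) :
    e.1.group K ≤ e.1.monomialSubgroup K ⊔ e.1.rootSubgroup K (e.1.simple i) ⊔ e.1.rootSubgroup K (e.1.simple j) := by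
  simp only [List.mem_cons, List.not_mem_nil, or_false] at he
  rcases he with rfl | rfl | rfl
  · have h1 := (isLong_B2 ⟨i, hi⟩).symm.trans hshort
    have h2 := (isLong_B2 ⟨j, hj⟩).symm.trans hlong
    exact aux chevB2 ((by decide +kernel : ∀ i < chevB2.rank, ∀ j < chevB2.rank, decide (1 ≤ i) = false →
      decide (1 ≤ j) = true → allLt chevB2.rank (fun k => lmem k
        ((Good.C chevB2).reach chevB2.rank false chevB2.rank [i, j])) = true) i hi j hj h1 h2)
  · have h1 := (isLong_F4 ⟨i, hi⟩).symm.trans hshort
    have h2 := (isLong_F4 ⟨j, hj⟩).symm.trans hlong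
    exact aux chevF4 ((by decide +kernel : ∀ i < chevF4.rank, ∀ j < chevF4.rank, decide (2 ≤ i) = false →
      decide (2 ≤ j) = true → allLt chevF4.rank (fun k => lmem k
        ((Good.C chevF4).reach chevF4.rank false chevF4.rank [i, j])) = true) i hi j hj h1 h2)
  · have h1 := (isLong_G2 ⟨i, hi⟩).symm.trans hshort
    have h2 := (isLong_G2 ⟨j, hj⟩).symm.trans hlong
    exact aux chevG2 ((by decide +kernel : ∀ i < chevG2.rank, ∀ j < chevG2.rank, decide (1 ≤ i) = false →
      decide (1 ≤ j) = true → allLt chevG2.rank (fun k => lmem k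
        ((Good.C chevG2).reach chevG2.rank false chevG2.rank [i, j])) = true) i hi j hj h1 h2)

end Cfsg.Agent.S2417
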