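import Cfsg.Statements.S2421
import Cfsg.Agent.KSG.GLnUnipDeg

set_option autoImplicit false
open scoped MatrixGroups
open Cfsg

namespace Cfsg.Agent.S2421


theorem result {F : Type*} [Field F] [Fintype F] {n : ℕ} (ν : Fin n → ℕ) (hmono : Monotone ν) (hsum : ∑ i, ν i = n) :
    Cfsg.IsIrrCharacter (GL (Fin n) F) (Cfsg.unipotentCharacterGL n F ν) := by
  exact CL.GLn.isIrr_unipotentCharacterGL hsum hmono

end Cfsg.Agent.S2421
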