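import Cfsg.Statements.S2425
import Cfsg.Agent.KSG.Zel8

set_option autoImplicit false
open scoped MatrixGroups
open Cfsg

namespace Cfsg.Agent.S2425

open CL.GLn CL.Zel

theorem result {F : Type*} [Field F] [Fintype F] [DecidableEq F] {q : ℕ} (hq : Fintype.card F = q) (p : ℕ) [Fact p.Prime] [CharP F p]
    {n : ℕ} (x : GL (Fin n) F) (hx : (orderOf x).Coprime p) :
    Cfsg.unipotentCharacterGL n F (fun _ => 1) x =
      ∏ f ∈ (UniqueFactorizationMonoid.normalizedFactors (x : Matrix (Fin n) (Fin n) F).charpoly).toFinset,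
        (-1 : ℂ) ^ ((f.natDegree - 1) * (UniqueFactorizationMonoid.normalizedFactors (x : Matrix (Fin n) (Fin n) F).charpoly).count f) *
          (q : ℂ) ^ (f.natDegree * (UniqueFactorizationMonoid.normalizedFactors (x : Matrix (Fin n) (Fin n) F).charpoly).count f *
            ((UniqueFactorizationMonoid.normalizedFactors (x : Matrix (Fin n) (Fin n) F).charpoly).count f - 1) / 2) := by
  have h := hasED_elemDiv (Matrix.toLin' x.1)
  have h1 := h.isSemisimple_iff.1 (isSemisimple_of_coprime_orderOf p (Units.coeHom _) hx)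
  have h2 := h.normalizedFactors_charpoly h1
  have h3 := h.finrank_eq
  obtain ⟨h4, m, y, h5, h6⟩ := h
  rw [← h5] at h1 h2 h3 h4
  have h7 : ∀ i, (y i).1 ^ (y i).2 = (y i).1 := fun i => by rw [h1 (y i) (by simp), pow_one]
  have h8 : ∀ i, ((y i).1 ^ (y i).2).Monic ∧ Irreducible ((y i).1 ^ (y i).2) := fun i =>
    (h7 i).symm ▸ ⟨(h4 (y i) (by simp)).1, (h4 (y i) (by simp)).2.1⟩
  have := finiteDimensional_model fun i => (h8 i).1.ne_zero
  have := Module.finite_of_finite F (M := ∀ i, AdjoinRoot ((y i).1 ^ (y i).2))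
  rw [Multiset.map_congr rfl (g := Polynomial.natDegree ∘ Prod.fst) fun z hz => by simp [h1 z hz],
    ← Multiset.map_map, Finset.sum_multiset_map_count, Module.finrank_fin_fun] at h3
  rw [steinberg_eq, cls_eq_iff.2 h6, mob_model _ h8, ← Matrix.charpoly_toLin', h2, funext h7,
    Multiset.map_map, hq]
  conv_lhs => rw [h3, Multiset.map_map, ← Finset.prod_pow_eq_pow_sum]
  refine Finset.prod_mul_distrib.symm.trans (Finset.prod_congr rfl fun f hf => ?_)
  obtain ⟨i, -, rfl⟩ := Multiset.mem_map.1 (Multiset.mem_toFinset.1 hf)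
  obtain ⟨d, hd⟩ := Nat.exists_eq_succ_of_ne_zero (h4 (y i) (by simp)).2.1.natDegree_pos.ne'
  simp [hd, mul_add, pow_add, mul_comm d, ← mul_assoc, mul_assoc _ ((-1 : ℂ) ^ _), ← mul_pow]

end Cfsg.Agent.S2425
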