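import Cfsg.Statements.S2428
import Cfsg.Agent.KSG.SL2Torus

set_option autoImplicit false
open Cfsg CL.GL2 CL.Char

namespace Cfsg.Agent.S2428

/-- Let F be a finite field with q elements, q odd, and let d be a diagonal element of SL₂ over F whose diagonal entry a has a² ≠ 1 (such d exist exactly when q > 3). Then the centraliser of d is precisely the diagonal subgroup T; the normaliser of T has order 2(q − 1) and exactly (q + 5)/2 conjugacy classes; and every element of that normaliser outside T has square equal to −1. -/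
theorem result {F : Type*} [Field F] [Fintype F] (hodd : Odd (Fintype.card F))
    (d : Matrix.SpecialLinearGroup (Fin 2) F) (hd01 : (d : Matrix (Fin 2) (Fin 2) F) 0 1 = 0) (hd10 : (d : Matrix (Fin 2) (Fin 2) F) 1 0 = 0) (hda : (d : Matrix (Fin 2) (Fin 2) F) 0 0 ^ 2 ≠ 1) :
    (∀ g : Matrix.SpecialLinearGroup (Fin 2) F, g ∈ Subgroup.centralizer ({d} : Set (Matrix.SpecialLinearGroup (Fin 2) F)) ↔ ((g : Matrix (Fin 2) (Fin 2) F) 0 1 = 0 ∧ (g : Matrix (Fin 2) (Fin 2) F) 1 0 = 0)) ∧
    Nat.card (Subgroup.normalizer ((Subgroup.centralizer ({d} : Set (Matrix.SpecialLinearGroup (Fin 2) F))) : Set (Matrix.SpecialLinearGroup (Fin 2) F))) = 2 * (Fintype.card F - 1) ∧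
    Nat.card (ConjClasses (Subgroup.normalizer ((Subgroup.centralizer ({d} : Set (Matrix.SpecialLinearGroup (Fin 2) F))) : Set (Matrix.SpecialLinearGroup (Fin 2) F)))) = (Fintype.card F + 5) / 2 ∧
    ∀ g : Matrix.SpecialLinearGroup (Fin 2) F, g ∈ Subgroup.normalizer ((Subgroup.centralizer ({d} : Set (Matrix.SpecialLinearGroup (Fin 2) F))) : Set (Matrix.SpecialLinearGroup (Fin 2) F)) →
      g ∉ Subgroup.centralizer ({d} : Set (Matrix.SpecialLinearGroup (Fin 2) F)) → ((g * g) : Matrix (Fin 2) (Fin 2) F) = -1 := by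
  classical
  have hne := diag_ne_of_sq_ne hd10 hda
  have he : (d : Matrix (Fin 2) (Fin 2) F).trace - (d : Matrix (Fin 2) (Fin 2) F) 0 0 ≠
      (d : Matrix (Fin 2) (Fin 2) F) 0 0 := by rw [upper_trace_sub]; exact hne.symm
  have hr : Reg d := reg_of_sep (sep_of_root (upper_cp hd10) he)
  have hc := card_centSL_split (upper_cp hd10) he
  rw [centralizer_SL]
  refine ⟨fun g => ?_, by rw [hr.card_normalizer, hc], ?_, fun g hg hg' => SL_ext_iff.1 (hr.mul_self hg hg')⟩
  · rw [mem_centSL, mat_ext_iff]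
    simp only [mul_00, mul_01, mul_10, mul_11, hd01, hd10]
    constructor
    · rintro ⟨-, h1, h2, -⟩
      exact ⟨mul_left_cancel₀ (sub_ne_zero.2 hne) (by linear_combination -h1),
        mul_left_cancel₀ (sub_ne_zero.2 hne) (by linear_combination h2)⟩
    · rintro ⟨h1, h2⟩
      rw [h1, h2]
      exact ⟨by ring, by ring, by ring, by ring⟩
  · have := hr.two_mul_card_conjClasses (two_ne_zero_of_odd hodd)
    have : 1 < Fintype.card F := Fintype.one_lt_card
    omega

end Cfsg.Agent.S2428
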