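import Cfsg.Statements.S2430
import Cfsg.Agent.KSG.SL2SylNorm

set_option autoImplicit false
open Cfsg CL.GL2 CL.Char

namespace Cfsg.Agent.S2430

/-- Let F be a finite field with q elements, q odd, ℓ an odd prime, and P a Sylow ℓ-subgroup of SL₂ over F. If ℓ divides q − 1, the centraliser of P is cyclic of order q − 1 (a split torus) and the normaliser of P has order 2(q − 1); if ℓ divides q + 1, the centraliser of P is cyclic of order q + 1 (a non-split torus) and the normaliser of P has order 2(q + 1). -/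
theorem result {F : Type*} [Field F] [Fintype F] (hodd : Odd (Fintype.card F)) (ℓ : ℕ) [Fact ℓ.Prime] (hℓ : ℓ ≠ 2)
    (P : Sylow ℓ (Matrix.SpecialLinearGroup (Fin 2) F)) :
    (ℓ ∣ Fintype.card F - 1 →
      Nat.card (Subgroup.centralizer ((P : Subgroup (Matrix.SpecialLinearGroup (Fin 2) F)) : Set (Matrix.SpecialLinearGroup (Fin 2) F))) = Fintype.card F - 1 ∧
      IsCyclic (Subgroup.centralizer ((P : Subgroup (Matrix.SpecialLinearGroup (Fin 2) F)) : Set (Matrix.SpecialLinearGroup (Fin 2) F))) ∧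
      Nat.card (Subgroup.normalizer ((P : Subgroup (Matrix.SpecialLinearGroup (Fin 2) F)) : Set (Matrix.SpecialLinearGroup (Fin 2) F))) = 2 * (Fintype.card F - 1)) ∧
    (ℓ ∣ Fintype.card F + 1 →
      Nat.card (Subgroup.centralizer ((P : Subgroup (Matrix.SpecialLinearGroup (Fin 2) F)) : Set (Matrix.SpecialLinearGroup (Fin 2) F))) = Fintype.card F + 1 ∧
      IsCyclic (Subgroup.centralizer ((P : Subgroup (Matrix.SpecialLinearGroup (Fin 2) F)) : Set (Matrix.SpecialLinearGroup (Fin 2) F))) ∧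
      Nat.card (Subgroup.normalizer ((P : Subgroup (Matrix.SpecialLinearGroup (Fin 2) F)) : Set (Matrix.SpecialLinearGroup (Fin 2) F))) = 2 * (Fintype.card F + 1)) := by
  classical
  have h1 : 1 < Fintype.card F := Fintype.one_lt_card
  have hp : ℓ.Prime := Fact.out
  have h2 : ¬ (ℓ ∣ Fintype.card F - 1 ∧ ℓ ∣ Fintype.card F + 1) := by
    rintro ⟨e1, e2⟩
    have := Nat.dvd_sub e2 e1
    rw [show Fintype.card F + 1 - (Fintype.card F - 1) = 2 by omega] at this
    exact hℓ ((Nat.prime_dvd_prime_iff_eq hp Nat.prime_two).1 this)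
  have key : (ℓ ∣ Fintype.card F - 1 ∨ ℓ ∣ Fintype.card F + 1) →
      ∃ z : Matrix.SpecialLinearGroup (Fin 2) F, Reg z ∧
      ℓ ∣ Nat.card (centSL (z : Matrix (Fin 2) (Fin 2) F)) ∧
      Subgroup.centralizer ((P : Subgroup (Matrix.SpecialLinearGroup (Fin 2) F)) :
        Set (Matrix.SpecialLinearGroup (Fin 2) F)) = centSL (z : Matrix (Fin 2) (Fin 2) F) ∧
      Subgroup.normalizer ((P : Subgroup (Matrix.SpecialLinearGroup (Fin 2) F)) :
        Set (Matrix.SpecialLinearGroup (Fin 2) F)) =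
        Subgroup.normalizer (centSL (z : Matrix (Fin 2) (Fin 2) F) :
          Set (Matrix.SpecialLinearGroup (Fin 2) F)) := by
    intro h
    have hq : ¬ ℓ ∣ Fintype.card F := by
      intro e
      rcases h with h | h
      · have := Nat.dvd_sub e h
        rw [show Fintype.card F - (Fintype.card F - 1) = 1 by omega] at this
        exact hp.one_lt.ne' (Nat.dvd_one.1 this)
      · exact hp.one_lt.ne' (Nat.dvd_one.1 ((Nat.dvd_add_right e).1 h))
    have hne : (P : Subgroup (Matrix.SpecialLinearGroup (Fin 2) F)) ≠ ⊥ := by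
      apply P.ne_bot_of_dvd_card
      rw [card_SL2']
      rcases h with h | h
      · exact h.mul_left _
      · exact (h.mul_left _).mul_right _
    obtain ⟨z, hz, hr, ho, hle⟩ := exists_reg_of_isPGroup hℓ hq P.2 hne
    exact ⟨z, hr, ho ▸ Subgroup.orderOf_dvd_natCard _ (self_mem_centSL z),
      centralizer_eq_centSL hr.not_isScal hz hle, hr.normalizer_eq hz hle⟩
  refine ⟨fun h => ?_, fun h => ?_⟩
  · obtain ⟨z, hr, hd, e1, e2⟩ := key (Or.inl h)
    rw [e1, e2, hr.card_normalizer]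
    rcases hr.cases with ⟨-, e⟩ | ⟨-, e⟩
    · exact absurd ⟨h, e ▸ hd⟩ h2
    · exact ⟨e, hr.isCyclic, by rw [e]⟩
  · obtain ⟨z, hr, hd, e1, e2⟩ := key (Or.inr h)
    rw [e1, e2, hr.card_normalizer]
    rcases hr.cases with ⟨-, e⟩ | ⟨-, e⟩
    · exact ⟨e, hr.isCyclic, by rw [e]⟩
    · exact absurd ⟨e ▸ hd, h⟩ h2

end Cfsg.Agent.S2430
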