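import Cfsg.Statements.S2434
import Cfsg.Agent.KSG.SL2Table

set_option autoImplicit false
open Cfsg CL.GL2 CL.Char

namespace Cfsg.Agent.S2434

/-- Let F be a finite field with q elements, q odd, and C a cyclic subgroup of order q + 1 of SL₂ over F (a non-split torus; it contains the centre). For every homomorphism θ from C to the non-zero complex numbers with θ² ≠ 1 there is an irreducible complex character χ of degree q − 1 such that χ(c) = −θ(c) − θ(c)⁻¹ for every non-central c in C, χ(zg) = θ(z)χ(g) for central z in C, χ vanishes at diagonal elements with entry a, a² ≠ 1, and χ takes the value −1 at every upper unitriangular element other than 1. Conversely every irreducible character of degree q − 1 has, for some such θ, the values −θ(c) − θ(c)⁻¹ at the non-central elements c of C (for q ≥ 5 these are exactly the cuspidal characters of degree q − 1). -/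
theorem result {F : Type*} [Field F] [Fintype F] (hodd : Odd (Fintype.card F))
    (C : Subgroup (Matrix.SpecialLinearGroup (Fin 2) F)) (hC : IsCyclic C) (hcard : Nat.card C = Fintype.card F + 1) :
    (∀ θ : C →* ℂˣ, (∃ c : C, θ c ^ 2 ≠ 1) →
      ∃ χ : Matrix.SpecialLinearGroup (Fin 2) F → ℂ, Cfsg.IsIrrCharacter (Matrix.SpecialLinearGroup (Fin 2) F) χ ∧ χ 1 = (Fintype.card F : ℂ) - 1 ∧
        (∀ c : C, (c : Matrix.SpecialLinearGroup (Fin 2) F) ∉ Subgroup.center (Matrix.SpecialLinearGroup (Fin 2) F) → χ c = -((θ c).val + (θ c)⁻¹.val)) ∧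
        (∀ c : C, (c : Matrix.SpecialLinearGroup (Fin 2) F) ∈ Subgroup.center (Matrix.SpecialLinearGroup (Fin 2) F) → ∀ g : Matrix.SpecialLinearGroup (Fin 2) F, χ ((c : Matrix.SpecialLinearGroup (Fin 2) F) * g) = (θ c).val * χ g) ∧
        (∀ g : Matrix.SpecialLinearGroup (Fin 2) F, (g : Matrix (Fin 2) (Fin 2) F) 0 1 = 0 → (g : Matrix (Fin 2) (Fin 2) F) 1 0 = 0 → (g : Matrix (Fin 2) (Fin 2) F) 0 0 ^ 2 ≠ 1 → χ g = 0) ∧
        (∀ g : Matrix.SpecialLinearGroup (Fin 2) F, (g : Matrix (Fin 2) (Fin 2) F) 1 0 = 0 → (g : Matrix (Fin 2) (Fin 2) F) 0 0 = 1 → (g : Matrix (Fin 2) (Fin 2) F) 1 1 = 1 → (g : Matrix (Fin 2) (Fin 2) F) 0 1 ≠ 0 → χ g = -1)) ∧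
    (∀ χ : Matrix.SpecialLinearGroup (Fin 2) F → ℂ, Cfsg.IsIrrCharacter (Matrix.SpecialLinearGroup (Fin 2) F) χ → χ 1 = (Fintype.card F : ℂ) - 1 →
      ∃ θ : C →* ℂˣ, (∃ c : C, θ c ^ 2 ≠ 1) ∧
        ∀ c : C, (c : Matrix.SpecialLinearGroup (Fin 2) F) ∉ Subgroup.center (Matrix.SpecialLinearGroup (Fin 2) F) → χ c = -((θ c).val + (θ c)⁻¹.val)) := by
  classical
  obtain ⟨m, hm, rfl⟩ := exists_eq_centSL hC hcard
  have := Fact.mk hm
  have key : ∀ θ : centSL m →* ℂˣ, (∃ c, θ c ^ 2 ≠ 1) ↔ θ ^ 2 ≠ 1 := by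
    intro θ
    rw [ne_eq (θ ^ 2), MonoidHom.ext_iff, not_forall]
    rfl
  refine ⟨fun θ hθ => ?_, fun χ hχ h => ?_⟩
  · have hirr := isIrr_dsL ((key θ).1 hθ)
    refine ⟨dsL m θ, hirr, dsL_one θ, fun c hc => dsL_cent θ c (by rwa [← mem_center_SL_iff]),
      fun c hc g => ?_, fun g _ h2 h3 => ds_upper _ h2 (diag_ne_of_sq_ne h2 h3),
      fun g h1 h2 h3 h4 => dsL_unip θ h1 h2 h3 h4⟩
    have := hirr.apply_center_mul hc g
    rw [dsL_one, dsL_scal θ c (mem_center_SL_iff.1 hc), mul_assoc] at this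
    exact mul_left_cancel₀ card_cast_sub_one_ne_zero this
  · obtain ⟨ν, -, H⟩ := irr_SL_table m
    have h1 : 1 < Fintype.card F := Fintype.one_lt_card
    obtain ⟨k, hk⟩ := id hodd
    rcases H (n := Fintype.card F - 1) hχ (by rw [h, cast_card_sub_one]) with
      h | h | h | ⟨h, η, hη, rfl⟩ | ⟨-, h, α, -, -, h'⟩ | h
    · omega
    · omega
    · omega
    · exact ⟨η, (key η).2 hη, fun c hc => dsL_cent η c (by rwa [← mem_center_SL_iff])⟩
    · obtain ⟨η, hη⟩ := exists_torChar_sq_ne m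
      refine ⟨η, (key η).2 hη, fun c hc => ?_⟩
      rw [mem_center_SL_iff] at hc
      have hn : NoEig ((c : Matrix.SpecialLinearGroup (Fin 2) F) : Matrix (Fin 2) (Fin 2) F) := by
        rw [← emb_unemb_cent c]
        apply noEig_emb
        rw [ne_eq, ← isScal_emb_iff hm.not_isScal, emb_unemb_cent]
        exact hc
      have := h'.two_mul_sep hn.sep
      rw [psL, ps_noEig _ hn] at this
      rw [torChar_add_inv_three (by omega) hη c hc]
      simpa using this
    · omega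

end Cfsg.Agent.S2434
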