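import Cfsg.Statements.S2435
import Cfsg.Agent.KSG.SL2Table

set_option autoImplicit false
open Cfsg CL.GL2 CL.Char

namespace Cfsg.Agent.S2435

/-- Let F be a finite field with q elements, q odd and q ≥ 5, and χ an irreducible complex character of SL₂ over F. If χ has degree (q + 1)/2, then at a diagonal element with entry a, a² ≠ 1, χ takes the value 1 when a is a square in F and −1 otherwise. If χ has degree (q − 1)/2, then at an element g with no eigenvector in F² (so g has order dividing q + 1), χ takes the value −1 when g raised to the power (q + 1)/2 is the identity and the value 1 otherwise. -/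
theorem result {F : Type*} [Field F] [Fintype F] (hodd : Odd (Fintype.card F)) (hq : 5 ≤ Fintype.card F)
    (χ : Matrix.SpecialLinearGroup (Fin 2) F → ℂ) (hχ : Cfsg.IsIrrCharacter (Matrix.SpecialLinearGroup (Fin 2) F) χ) (g : Matrix.SpecialLinearGroup (Fin 2) F) :
    (χ 1 = (((Fintype.card F + 1) / 2 : ℕ) : ℂ) → (g : Matrix (Fin 2) (Fin 2) F) 0 1 = 0 → (g : Matrix (Fin 2) (Fin 2) F) 1 0 = 0 → (g : Matrix (Fin 2) (Fin 2) F) 0 0 ^ 2 ≠ 1 →
      (IsSquare ((g : Matrix (Fin 2) (Fin 2) F) 0 0) → χ g = 1) ∧ (¬ IsSquare ((g : Matrix (Fin 2) (Fin 2) F) 0 0) → χ g = -1)) ∧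
    (χ 1 = (((Fintype.card F - 1) / 2 : ℕ) : ℂ) → (∀ (c : F) (v : Fin 2 → F), v ≠ 0 → (g : Matrix (Fin 2) (Fin 2) F).mulVec v ≠ c • v) →
      (((g ^ ((Fintype.card F + 1) / 2)) : Matrix (Fin 2) (Fin 2) F) = 1 → χ g = -1) ∧ (((g ^ ((Fintype.card F + 1) / 2)) : Matrix (Fin 2) (Fin 2) F) ≠ 1 → χ g = 1)) := by
  classical
  obtain ⟨ν, hν⟩ := exists_nonsquare_unit hodd
  refine ⟨fun h _ h2 h3 => ?_, fun h hg => ?_⟩
  · obtain ⟨α, a2, a1⟩ := exists_mulChar_sq hodd
    have hne := diag_ne_of_sq_ne h2 h3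
    have e := (isHalf_psL_of_degree hodd hq hν a2 a1 hχ h).two_mul_sep (g := g)
      (sep_of_root (upper_cp h2) (by rw [upper_trace_sub]; exact hne.symm))
    have hd := diag_mul_eq_one h2
    have ha := left_ne_zero_of_mul_eq_one hd
    have hi : α⁻¹ = α := (eq_inv_iff_mul_eq_one.2 ((sq α).symm.trans a2)).symm
    rw [psL, ps_upper _ h2 hne, eq_inv_of_mul_eq_one_right hd, ← MulChar.inv_apply', hi, ← two_mul]
      at e
    rw [mul_left_cancel₀ two_ne_zero e]
    exact mulChar_sq_isSquare hodd a2 a1 ha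
  · have := Fact.mk (show NoEig _ from hg)
    obtain ⟨η, e2, e1⟩ := exists_torChar_sq (g : Matrix (Fin 2) (Fin 2) F) hodd
    have e := (isHalf_dsL_of_degree hodd hq hν e2 e1 hχ h).two_mul_sep (g := g) (NoEig.sep hg)
    have h1 := dsL_cent η ⟨g, mem_centSL.2 rfl⟩ (NoEig.not_isScal hg)
    have h2 := torChar_sq_apply hodd e2 e1 ⟨g, mem_centSL.2 rfl⟩
    rw [Units.val_inv_eq_inv_val, h2] at h1
    rw [h1] at e
    have h3 : ((g ^ ((Fintype.card F + 1) / 2) : Matrix.SpecialLinearGroup (Fin 2) F) :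
        Matrix (Fin 2) (Fin 2) F) = 1 ↔ g ^ ((Fintype.card F + 1) / 2) = 1 :=
      (SL_ext_iff (h := 1)).symm
    rw [Matrix.SpecialLinearGroup.coe_pow] at h3
    refine ⟨fun h4 => ?_, fun h4 => ?_⟩
    · rw [if_pos (h3.1 h4)] at e
      linear_combination (1 / 2 : ℂ) * e
    · rw [if_neg (fun h5 => h4 (h3.2 h5))] at e
      linear_combination (1 / 2 : ℂ) * e

end Cfsg.Agent.S2435
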