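import Cfsg.Statements.S2436
import Cfsg.Agent.KSG.SL2Borel

set_option autoImplicit false
open Cfsg CL.GL2 CL.Char

namespace Cfsg.Agent.S2436

/-- Let F be a finite field with q elements, q odd, ℓ any prime and S a Sylow ℓ-subgroup of SL₂ over F with normaliser N. Then SL₂ and N have the same number of irreducible complex characters of degree not divisible by ℓ (the McKay equality holds for SL₂ over F at every prime). -/
theorem result {F : Type*} [Field F] [Fintype F] (hodd : Odd (Fintype.card F)) (ℓ : ℕ) [Fact ℓ.Prime] (S : Sylow ℓ (Matrix.SpecialLinearGroup (Fin 2) F)) :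
    Nat.card {χ : Cfsg.IrrCharacter (Matrix.SpecialLinearGroup (Fin 2) F) // ¬ ℓ ∣ Cfsg.charDegree (χ : Matrix.SpecialLinearGroup (Fin 2) F → ℂ)} =
      Nat.card {ψ : Cfsg.IrrCharacter (Subgroup.normalizer ((S : Subgroup (Matrix.SpecialLinearGroup (Fin 2) F)) : Set (Matrix.SpecialLinearGroup (Fin 2) F))) //
        ¬ ℓ ∣ Cfsg.charDegree (ψ : Subgroup.normalizer ((S : Subgroup (Matrix.SpecialLinearGroup (Fin 2) F)) : Set (Matrix.SpecialLinearGroup (Fin 2) F)) → ℂ)} := by
  classical
  have h2 := two_ne_zero_of_odd hodd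
  have hℓ : ℓ.Prime := Fact.out
  have h1 : 1 < Fintype.card F := Fintype.one_lt_card
  obtain ⟨k, hk⟩ := id hodd
  by_cases hN : Subgroup.normalizer ((S : Subgroup (Matrix.SpecialLinearGroup (Fin 2) F)) :
    Set (Matrix.SpecialLinearGroup (Fin 2) F)) = ⊤
  · exact card_irr_degree_congr ((MulEquiv.subgroupCongr hN).trans Subgroup.topEquiv)
      (fun d => ¬ ℓ ∣ d)
  by_cases hp : ℓ ∣ Fintype.card F
  · obtain ⟨p, hp'⟩ := CharP.exists F
    have := Fact.mk (CharP.char_is_prime F p)
    obtain ⟨n, -, hn⟩ := FiniteField.card F p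
    obtain rfl : ℓ = p := (Nat.prime_dvd_prime_iff_eq hℓ Fact.out).1 (hℓ.dvd_of_dvd_pow (hn ▸ hp))
    obtain ⟨e⟩ := normalizer_sylow_equiv ℓ S
    rw [card_irr_degree_congr e (fun d => ¬ ℓ ∣ d), card_irr_degree_of_forall (fun d => ¬ ℓ ∣ d)
      (fun χ hχ h => not_char_dvd_pred ℓ (h.trans (charDegree_borel_dvd hχ))),
      card_conjClasses_borelSL hodd]
    have h3 := card_irr (G := Matrix.SpecialLinearGroup (Fin 2) F)
    rw [card_conjClasses_SL2_odd hodd] at h3
    have h4 : Nat.card {χ : IrrCharacter (Matrix.SpecialLinearGroup (Fin 2) F) //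
        ℓ ∣ charDegree (χ : Matrix.SpecialLinearGroup (Fin 2) F → ℂ)} = 1 := by
      rw [Nat.card_eq_one_iff_exists]
      exact ⟨⟨⟨stL F, isIrr_stL⟩, (char_dvd_charDegree_iff ℓ isIrr_stL).2 rfl⟩, fun χ =>
        Subtype.ext (Subtype.ext ((char_dvd_charDegree_iff ℓ χ.1.2).1 χ.2))⟩
    simp only [Nat.card_eq_fintype_card] at h3 h4 ⊢
    rw [Fintype.card_subtype_compl, h3, h4]
    rfl
  by_cases hl2 : ℓ = 2
  · subst hl2
    obtain ⟨a, w, h⟩ := exists_syl2 hodd S
    by_cases h8 : 8 ∣ Nat.card (centSL (a : Matrix (Fin 2) (Fin 2) F))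
    · have h7 := (h.eight_dvd_iff hodd).1 h8
      rw [card_irr_degree_SL_odd hodd (by omega) (fun d => ¬ 2 ∣ d),
        card_irr_degree_congr (MulEquiv.subgroupCongr (h.normalizer_eq h2 h8).symm) (fun d => ¬ 2 ∣ d)]
      have hi := h.index_cent h2
      have hn := Subgroup.normal_of_index_eq_two hi
      have hD : ∀ χ, IsIrrCharacter (S : Subgroup (Matrix.SpecialLinearGroup (Fin 2) F)) χ →
          charDegree χ ∈ ({1, 2} : Finset ℕ) := by
        intro χ hχ
        have := charDegree_dvd_index hχ ((centSL (a : Matrix (Fin 2) (Fin 2) F)).subgroupOf _)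
          (fun x hx y hy => Subtype.ext (centSL_comm (h.reg h2).not_isScal
            (Subgroup.mem_subgroupOf.1 hx) (Subgroup.mem_subgroupOf.1 hy)))
        rw [hi] at this
        simpa using (Nat.dvd_prime Nat.prime_two).1 this
      have e1 := sum_irr_degree _ hD (fun d => d ^ 2)
      have e2 := sum_irr_degree _ hD (fun _ => 1)
      have e3 := sum_irr_degree _ hD (fun d => if ¬ 2 ∣ d then 1 else 0)
      rw [sum_charDegree_sq, ← Subgroup.card_mul_index _, hi] at e1
      rw [Finset.sum_const, Finset.card_univ, ← Nat.card_eq_fintype_card, card_irr] at e2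
      have e4 := h.two_mul_card_conjClasses h2
      rw [card_irr_degree_eq_sum (fun d => ¬ 2 ∣ d), e3]
      simp only [Finset.sum_pair (show (1 : ℕ) ≠ 2 by decide), smul_eq_mul] at e1 e2 ⊢
      split_ifs <;> omega
    · have c := h.card_normalizer h2 h8
      rw [h.card_eq_eight h2 h8] at c
      have hq : 5 ≤ Fintype.card F := by
        by_contra hc
        apply hN
        apply Subgroup.eq_top_of_card_eq
        rw [c, card_SL2, show Fintype.card F = 3 by omega]
        rfl
      have h7 := (h.eight_dvd_iff hodd).not.1 h8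
      rw [card_irr_degree_SL_odd hodd hq (fun d => ¬ 2 ∣ d)]
      have e0 := sum_charDegree_sq (Subgroup.normalizer
        ((S : Subgroup (Matrix.SpecialLinearGroup (Fin 2) F)) : Set (Matrix.SpecialLinearGroup (Fin 2) F)))
      have hD : ∀ χ, IsIrrCharacter (Subgroup.normalizer
          ((S : Subgroup (Matrix.SpecialLinearGroup (Fin 2) F)) :
            Set (Matrix.SpecialLinearGroup (Fin 2) F))) χ →
          charDegree χ ∈ ({1, 2, 3, 4} : Finset ℕ) := by
        intro χ hχ
        have := Finset.single_le_sum (f := fun χ : IrrCharacter (Subgroup.normalizer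
          ((S : Subgroup (Matrix.SpecialLinearGroup (Fin 2) F)) :
            Set (Matrix.SpecialLinearGroup (Fin 2) F))) => charDegree χ.1 ^ 2)
          (fun _ _ => Nat.zero_le _) (Finset.mem_univ ⟨χ, hχ⟩)
        rw [e0, c] at this
        have h5 := hχ.charDegree_pos
        have h6 : charDegree χ < 5 := by by_contra hc; nlinarith
        simp only [Finset.mem_insert, Finset.mem_singleton]
        omega
      have e1 := sum_irr_degree _ hD (fun d => d ^ 2)
      have e3 := sum_irr_degree _ hD (fun d => if ¬ 2 ∣ d then 1 else 0)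
      have e4 := card_linear (G := Subgroup.normalizer
        ((S : Subgroup (Matrix.SpecialLinearGroup (Fin 2) F)) : Set (Matrix.SpecialLinearGroup (Fin 2) F)))
      have e5 := Subgroup.card_mul_index ((S : Subgroup (Matrix.SpecialLinearGroup (Fin 2) F)).subgroupOf
        (Subgroup.normalizer ((S : Subgroup (Matrix.SpecialLinearGroup (Fin 2) F)) :
          Set (Matrix.SpecialLinearGroup (Fin 2) F))))
      rw [Nat.card_congr (Subgroup.subgroupOfEquivOfLe Subgroup.le_normalizer).toEquiv,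
        h.card_eq_eight h2 h8, c, ← h.commutator_normalizer h2 h8, ← e4] at e5
      rw [e0, c] at e1
      rw [card_irr_degree_eq_sum (fun d => ¬ 2 ∣ d), e3]
      rw [Finset.sum_insert (by decide), Finset.sum_insert (by decide), Finset.sum_pair (by decide)]
        at e1 ⊢
      simp only [Nat.cast_one] at e1 ⊢
      split_ifs <;> omega
  have hne : (S : Subgroup (Matrix.SpecialLinearGroup (Fin 2) F)) ≠ ⊥ := by
    intro e
    apply hN
    rw [e]
    exact Subgroup.normalizer_eq_top _
  obtain ⟨z, hz, hr, ho, hle⟩ := exists_reg_of_isPGroup hl2 hp S.2 hne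
  have hd : ℓ ∣ Nat.card (centSL (z : Matrix (Fin 2) (Fin 2) F)) :=
    ho ▸ Subgroup.orderOf_dvd_natCard _ (self_mem_centSL z)
  have hl : ¬ ℓ ∣ 2 := fun e => hl2 ((Nat.prime_dvd_prime_iff_eq hℓ Nat.prime_two).1 e)
  have hl1 : ¬ ℓ ∣ 1 := fun e => hl (e.mul_right 2)
  have hl4 : ¬ ℓ ∣ 4 := fun e => hl (hℓ.dvd_of_dvd_pow (n := 2) e)
  have hi := hr.index_eq_two
  have hn := Subgroup.normal_of_index_eq_two hi
  refine Eq.trans ?_ ((card_irr_degree_congr (MulEquiv.subgroupCongr (hr.normalizer_eq hz hle).symm)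
    (fun d => ¬ ℓ ∣ d)).trans (card_irr_degree_of_forall (fun d => ¬ ℓ ∣ d) (fun χ hχ h => hl (h.trans
      ((charDegree_dvd_index hχ ((centSL (z : Matrix (Fin 2) (Fin 2) F)).subgroupOf _)
        (fun a ha b hb => Subtype.ext (centSL_comm hr.not_isScal (Subgroup.mem_subgroupOf.1 ha)
          (Subgroup.mem_subgroupOf.1 hb)))).trans hi.dvd))))).symm
  have e := hr.two_mul_card_conjClasses h2
  have hc : Nat.Coprime ℓ 2 := (Nat.Prime.coprime_iff_not_dvd hℓ).2 hl
  have e1 : ℓ ∣ (Fintype.card F + 1) / 2 ↔ ℓ ∣ Fintype.card F + 1 := by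
    rw [← hc.dvd_mul_left, show 2 * ((Fintype.card F + 1) / 2) = Fintype.card F + 1 by omega]
  have e2 : ℓ ∣ (Fintype.card F - 1) / 2 ↔ ℓ ∣ Fintype.card F - 1 := by
    rw [← hc.dvd_mul_left, show 2 * ((Fintype.card F - 1) / 2) = Fintype.card F - 1 by omega]
  have e3 : ¬ (ℓ ∣ Fintype.card F - 1 ∧ ℓ ∣ Fintype.card F + 1) := by
    rintro ⟨e1, e2⟩
    have := Nat.dvd_sub e2 e1
    rw [show Fintype.card F + 1 - (Fintype.card F - 1) = 2 by omega] at this
    exact hl this
  have hq : 5 ≤ Fintype.card F := by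
    by_contra hc
    rcases hr.cases with ⟨-, e⟩ | ⟨-, e⟩ <;> rw [e, show Fintype.card F = 3 by omega] at hd
    exacts [hl4 hd, hl hd]
  rw [card_irr_degree_SL_odd hodd hq (fun d => ¬ ℓ ∣ d)]
  simp only [e1, e2, hp, hl1, not_false_iff, if_true]
  rcases hr.cases with ⟨-, e'⟩ | ⟨-, e'⟩ <;> rw [e'] at hd e
  · simp only [hd, show ¬ ℓ ∣ Fintype.card F - 1 from fun h => e3 ⟨h, hd⟩, not_true, not_false_iff,
      if_true, if_false]
    omega
  · simp only [hd, show ¬ ℓ ∣ Fintype.card F + 1 from fun h => e3 ⟨hd, h⟩, not_true, not_false_iff,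
      if_true, if_false]
    omega

end Cfsg.Agent.S2436
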