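import Cfsg.Statements.S2438
import Cfsg.Agent.KSG.SL2Table

set_option autoImplicit false
open Cfsg CL.GL2 CL.Char

namespace Cfsg.Agent.S2438

theorem sum_unip {F : Type*} [Field F] [Fintype F] [DecidableEq F]
    (f : Matrix.SpecialLinearGroup (Fin 2) F → ℂ) :
    (∑ g : Matrix.SpecialLinearGroup (Fin 2) F, if (g : Matrix (Fin 2) (Fin 2) F) 1 0 = 0 ∧
      (g : Matrix (Fin 2) (Fin 2) F) 0 0 = 1 ∧ (g : Matrix (Fin 2) (Fin 2) F) 1 1 = 1 then f g else 0) =
      ∑ b : F, f (upSL 1 b) := by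
  rw [← Finset.sum_filter]
  symm
  refine Finset.sum_bij (fun b _ => upSL 1 b) (fun b _ => by simp [coe_upSL_one])
    (fun b _ c _ e => ?_) (fun g hg => ?_) (fun _ _ => rfl)
  · have := SL_ext_iff.1 e
    rw [coe_upSL_one, coe_upSL_one] at this
    simpa using congrFun (congrFun this 0) 1
  · obtain ⟨h1, h2, h3⟩ := (Finset.mem_filter.1 hg).2
    exact ⟨g 0 1, Finset.mem_univ _, SL_ext_iff.2 (by
      rw [coe_upSL_one]; exact mat_ext h2.symm rfl h1.symm h3.symm)⟩

theorem sum_of {F : Type*} [Field F] [Fintype F] [DecidableEq F]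
    (f : Matrix.SpecialLinearGroup (Fin 2) F → ℂ) (c : ℂ) (h : ∀ b : F, b ≠ 0 → f (upSL 1 b) = c) :
    ∑ b : F, f (upSL 1 b) = f 1 + (Fintype.card F - 1) * c := by
  have e : (upSL 1 (0 : F)) = 1 := SL_ext_iff.2 (by rw [coe_upSL_one]; simp [Matrix.one_fin_two])
  have : ∀ b : F, f (upSL 1 b) = (if b = 0 then f 1 else 0) + if b = 0 then 0 else c := by
    intro b
    split_ifs with hb
    · rw [hb, e, add_zero]
    · rw [h b hb, zero_add]
  simp only [this, Finset.sum_add_distrib, sum_ite_ne_zero, Finset.sum_ite_eq', Finset.mem_univ,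
    if_true]

theorem sum_half {F : Type*} [Field F] [Fintype F] [DecidableEq F] {ν : Fˣ}
    {f χ : Matrix.SpecialLinearGroup (Fin 2) F → ℂ} (h : IsHalf ν f χ) :
    2 * ∑ b : F, χ (upSL 1 b) = ∑ b : F, f (upSL 1 b) := by
  simp only [h.apply, sig_upSL, Finset.sum_add_distrib]
  rw [two_mul]
  congr 1
  exact (Fintype.sum_equiv (Units.mulLeft ν) _ _ fun b => rfl).symm

/-- Let F be a finite field with q elements, q odd, q ≥ 5, U the upper unitriangular subgroup of SL₂ over F, and χ an irreducible complex character. The sum of the values of χ over U equals 2q, q, 0, q, 0 according as the degree of χ is q + 1, q, q − 1, (q + 1)/2, (q − 1)/2; so among these five degrees the sum vanishes exactly for the degrees q − 1 and (q − 1)/2, i.e. the irreducible characters of those two degrees are the ones whose restriction to U does not contain the trivial character (the cuspidal characters), while those of degree q + 1, q and (q + 1)/2 are not cuspidal.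 -/
theorem result {F : Type*} [Field F] [Fintype F] [DecidableEq F] (hodd : Odd (Fintype.card F)) (hq : 5 ≤ Fintype.card F)
    (χ : Matrix.SpecialLinearGroup (Fin 2) F → ℂ) (hχ : Cfsg.IsIrrCharacter (Matrix.SpecialLinearGroup (Fin 2) F) χ) :
    (χ 1 = (Fintype.card F : ℂ) + 1 →
      (∑ g : Matrix.SpecialLinearGroup (Fin 2) F, if (g : Matrix (Fin 2) (Fin 2) F) 1 0 = 0 ∧ (g : Matrix (Fin 2) (Fin 2) F) 0 0 = 1 ∧ (g : Matrix (Fin 2) (Fin 2) F) 1 1 = 1 then χ g else 0) = 2 * (Fintype.card F : ℂ)) ∧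
    (χ 1 = (Fintype.card F : ℂ) →
      (∑ g : Matrix.SpecialLinearGroup (Fin 2) F, if (g : Matrix (Fin 2) (Fin 2) F) 1 0 = 0 ∧ (g : Matrix (Fin 2) (Fin 2) F) 0 0 = 1 ∧ (g : Matrix (Fin 2) (Fin 2) F) 1 1 = 1 then χ g else 0) = (Fintype.card F : ℂ)) ∧
    (χ 1 = (Fintype.card F : ℂ) - 1 →
      (∑ g : Matrix.SpecialLinearGroup (Fin 2) F, if (g : Matrix (Fin 2) (Fin 2) F) 1 0 = 0 ∧ (g : Matrix (Fin 2) (Fin 2) F) 0 0 = 1 ∧ (g : Matrix (Fin 2) (Fin 2) F) 1 1 = 1 then χ g else 0) = 0) ∧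
    (χ 1 = (((Fintype.card F + 1) / 2 : ℕ) : ℂ) →
      (∑ g : Matrix.SpecialLinearGroup (Fin 2) F, if (g : Matrix (Fin 2) (Fin 2) F) 1 0 = 0 ∧ (g : Matrix (Fin 2) (Fin 2) F) 0 0 = 1 ∧ (g : Matrix (Fin 2) (Fin 2) F) 1 1 = 1 then χ g else 0) = (Fintype.card F : ℂ)) ∧
    (χ 1 = (((Fintype.card F - 1) / 2 : ℕ) : ℂ) →
      (∑ g : Matrix.SpecialLinearGroup (Fin 2) F, if (g : Matrix (Fin 2) (Fin 2) F) 1 0 = 0 ∧ (g : Matrix (Fin 2) (Fin 2) F) 0 0 = 1 ∧ (g : Matrix (Fin 2) (Fin 2) F) 1 1 = 1 then χ g else 0) = 0) := by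
  rw [sum_unip]
  obtain ⟨ν, hν⟩ := exists_nonsquare_unit hodd
  obtain ⟨m, hm, -⟩ := exists_noEig_det_one (F := F)
  have := Fact.mk hm
  have hp : ∀ α : MulChar F ℂ, ∑ b : F, psL α (upSL 1 b) = 2 * (Fintype.card F : ℂ) := by
    intro α
    rw [sum_of _ 1 fun b hb => psL_unip α (by simp [coe_upSL_one]) (by simp [coe_upSL_one])
      (by simp [coe_upSL_one]) (by simpa [coe_upSL_one] using hb), psL_one]
    ring
  have hd : ∀ η, ∑ b : F, dsL m η (upSL 1 b) = 0 := by
    intro η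
    rw [sum_of _ (-1) fun b hb => dsL_unip η (by simp [coe_upSL_one]) (by simp [coe_upSL_one])
      (by simp [coe_upSL_one]) (by simpa [coe_upSL_one] using hb), dsL_one]
    ring
  refine ⟨fun h => ?_, fun h => ?_, fun h => ?_, fun h => ?_, fun h => ?_⟩
  · obtain ⟨α, -, rfl⟩ := eq_psL_of_degree hχ h
    exact hp α
  · rw [eq_stL_of_degree hχ h, sum_of _ 0 fun b hb => stL_unip (by simp [coe_upSL_one])
      (by simp [coe_upSL_one]) (by simpa [coe_upSL_one] using hb), stL_one]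
    ring
  · obtain ⟨η, -, rfl⟩ := eq_dsL_of_degree (by omega) m hχ h
    exact hd η
  · obtain ⟨α, a2, a1⟩ := exists_mulChar_sq hodd
    have := sum_half (isHalf_psL_of_degree hodd hq hν a2 a1 hχ h)
    rw [hp] at this
    exact mul_left_cancel₀ two_ne_zero this
  · obtain ⟨η, a2, a1⟩ := exists_torChar_sq m hodd
    have := sum_half (isHalf_dsL_of_degree hodd hq hν a2 a1 hχ h)
    rw [hd] at this
    simpa using this

end Cfsg.Agent.S2438
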