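import Cfsg.Statements.S2439
import Cfsg.Agent.KSG.PSL2Basic
import Cfsg.Agent.BLK.QuotP
import Cfsg.Agent.BLK.DefCard
import Cfsg.Agent.S0914

set_option autoImplicit false
open Cfsg CL.GL2 CL.Char

namespace Cfsg.Agent.S2439

/-- Let F be a finite field with q elements of odd characteristic p, and M a maximal ideal of the algebraic integers containing p. Then SL₂ over F has exactly three p-blocks relative to M: the irreducible character of degree q (the Steinberg character) alone; the other irreducible characters taking the same value at −1 as at 1 (the principal block); and the irreducible characters χ with χ(−1) = −χ(1). Every Sylow p-subgroup is a defect group of each of the last two blocks. -/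
theorem result {F : Type*} [Field F] [Fintype F] (p : ℕ) [Fact p.Prime] [CharP F p] (hp : p ≠ 2)
    (M : Ideal Cfsg.AlgInt) (hM : Cfsg.IsPModular p M) :
    (∀ B : Set (Cfsg.IrrCharacter (Matrix.SpecialLinearGroup (Fin 2) F)), Cfsg.IsPBlock M B ↔
      (B = {χ : Cfsg.IrrCharacter (Matrix.SpecialLinearGroup (Fin 2) F) | (χ : Matrix.SpecialLinearGroup (Fin 2) F → ℂ) 1 = (Fintype.card F : ℂ)} ∨
       B = {χ : Cfsg.IrrCharacter (Matrix.SpecialLinearGroup (Fin 2) F) | (χ : Matrix.SpecialLinearGroup (Fin 2) F → ℂ) (-1) = (χ : Matrix.SpecialLinearGroup (Fin 2) F → ℂ) 1 ∧ (χ : Matrix.SpecialLinearGroup (Fin 2) F → ℂ) 1 ≠ (Fintype.card F : ℂ)} ∨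
       B = {χ : Cfsg.IrrCharacter (Matrix.SpecialLinearGroup (Fin 2) F) | (χ : Matrix.SpecialLinearGroup (Fin 2) F → ℂ) (-1) = -(χ : Matrix.SpecialLinearGroup (Fin 2) F → ℂ) 1})) ∧
    Nat.card {B : Set (Cfsg.IrrCharacter (Matrix.SpecialLinearGroup (Fin 2) F)) // Cfsg.IsPBlock M B} = 3 ∧
    ∀ P : Sylow p (Matrix.SpecialLinearGroup (Fin 2) F),
      Cfsg.IsDefectGroup p M {χ : Cfsg.IrrCharacter (Matrix.SpecialLinearGroup (Fin 2) F) | (χ : Matrix.SpecialLinearGroup (Fin 2) F → ℂ) (-1) = (χ : Matrix.SpecialLinearGroup (Fin 2) F → ℂ) 1 ∧ (χ : Matrix.SpecialLinearGroup (Fin 2) F → ℂ) 1 ≠ (Fintype.card F : ℂ)} (P : Subgroup (Matrix.SpecialLinearGroup (Fin 2) F)) ∧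
      Cfsg.IsDefectGroup p M {χ : Cfsg.IrrCharacter (Matrix.SpecialLinearGroup (Fin 2) F) | (χ : Matrix.SpecialLinearGroup (Fin 2) F → ℂ) (-1) = -(χ : Matrix.SpecialLinearGroup (Fin 2) F → ℂ) 1} (P : Subgroup (Matrix.SpecialLinearGroup (Fin 2) F)) := by
  classical
  have h2 := two_ne_zero_of_char_ne (F := F) p hp
  have hodd := odd_of_two_ne_zero h2
  have hpp : p.Prime := Fact.out
  let St : IrrCharacter (Matrix.SpecialLinearGroup (Fin 2) F) := ⟨stL F, isIrr_stL⟩
  have hq0 : 0 < Fintype.card F := Fintype.card_pos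
  have hSt : blockOf M St.1 = {St} := (Cfsg.Agent.S0914.result p M hM St).1 (by
    rw [CL.Blk.charDegree_of_eq (stL_one (F := F)), card_SL2', mul_assoc, Nat.mul_div_cancel_left _ hq0,
      hpp.dvd_mul]
    exact not_or.2 ⟨not_char_dvd_succ p, not_char_dvd_pred p⟩)
  have hdeg : ∀ χ : IrrCharacter (Matrix.SpecialLinearGroup (Fin 2) F),
      χ.1 1 = (Fintype.card F : ℂ) ↔ χ = St := fun χ =>
    ⟨fun h => Subtype.ext (eq_stL_of_degree χ.2 h), fun h => h ▸ stL_one⟩
  have hnd : ∀ χ : IrrCharacter (Matrix.SpecialLinearGroup (Fin 2) F), χ ≠ St → ¬ p ∣ charDegree χ.1 :=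
    fun χ h e => h (Subtype.ext ((char_dvd_charDegree_iff p χ.2).1 e))
  have h1 : ∀ χ : IrrCharacter (Matrix.SpecialLinearGroup (Fin 2) F), χ.1 1 ≠ 0 := fun χ => by
    rw [CL.Blk.irr_one_eq]; exact_mod_cast CL.Blk.charDegree_ne_zero χ
  have hc : ∀ (χ : IrrCharacter (Matrix.SpecialLinearGroup (Fin 2) F)) (g : Matrix.SpecialLinearGroup (Fin 2) F),
      IsScal (g : Matrix (Fin 2) (Fin 2) F) → centralChar χ.1 g = χ.1 g / χ.1 1 := fun χ g hg => by
    rw [centralChar, centralizer_SL, centSL_eq_top hg, Subgroup.index_top, Nat.cast_one, one_mul]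
  have hsg : ∀ χ : IrrCharacter (Matrix.SpecialLinearGroup (Fin 2) F),
      χ.1 (-1) / χ.1 1 = 1 ∨ χ.1 (-1) / χ.1 1 = -1 := fun χ => by
    obtain ⟨ε, hε, h⟩ := exists_sign χ.2
    have := h 1
    rw [mul_one] at this
    rwa [this, mul_div_cancel_right₀ _ (h1 χ)]
  have h2n : (2 : ℂ) ∉ (CL.Blk.V M).nonunits := fun h => hp ((Nat.prime_dvd_prime_iff_eq hpp
    Nat.prime_two).1 ((CL.Blk.natCast_mem_nonunits_iff hM 2).1 (by exact_mod_cast h)))
  have key : ∀ χ ψ : IrrCharacter (Matrix.SpecialLinearGroup (Fin 2) F), χ ≠ St →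
      (SameBlock M χ.1 ψ.1 ↔ ψ ≠ St ∧ ψ.1 (-1) / ψ.1 1 = χ.1 (-1) / χ.1 1) := by
    intro χ ψ hχ
    constructor
    · intro h
      refine ⟨?_, ?_⟩
      · rintro rfl
        exact hχ (hSt.le (CL.Blk.sameBlock_symm hM h))
      · have := (CL.Blk.sameBlock_iff hM χ ψ).1 h (-1)
        rw [hc _ _ (isScal_SL_iff.2 (Or.inr rfl)), hc _ _ (isScal_SL_iff.2 (Or.inr rfl))] at this
        rcases hsg χ with e | e <;> rcases hsg ψ with e' | e' <;> rw [e, e'] at this ⊢
        · exact absurd (by convert this using 1; norm_num) h2n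
        · exact absurd (by convert (CL.Blk.V M).nonunits.neg_mem this using 1; norm_num) h2n
    · rintro ⟨hψ, e⟩
      refine CL.Blk.sameBlock_of_reg hM fun g hg => ?_
      by_cases hs : IsScal (g : Matrix (Fin 2) (Fin 2) F)
      · rw [hc _ _ hs, hc _ _ hs]
        rcases isScal_SL_iff.1 hs with rfl | rfl
        · rw [div_self (h1 _), div_self (h1 _), sub_self]; exact zero_mem _
        · rw [e, sub_self]; exact zero_mem _
      have hr := reg_of_coprime p hs hg (by rw [pow_orderOf_eq_one]; exact isScal_one)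
      have hi : p ∣ (Subgroup.centralizer ({g} : Set (Matrix.SpecialLinearGroup (Fin 2) F))).index := by
        rw [centralizer_SL]
        rcases hr.cases with ⟨-, e⟩ | ⟨-, e⟩
        · rw [index_eq_of_card_mul (n := Fintype.card F * (Fintype.card F - 1)) e (by ring)]
          exact (char_dvd_card p).mul_right _
        · rw [index_eq_of_card_mul (n := Fintype.card F * (Fintype.card F + 1)) e (by ring)]
          exact (char_dvd_card p).mul_right _
      have : ∀ χ : IrrCharacter (Matrix.SpecialLinearGroup (Fin 2) F), χ ≠ St →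
          centralChar χ.1 g ∈ (CL.Blk.V M).nonunits := fun χ h =>
        CL.Blk.div_mem_nonunits (CL.Blk.mul_mem_nonunits_right
          ((CL.Blk.natCast_mem_nonunits_iff hM _).2 hi) (CL.Blk.irr_mem_V χ g)) (by
            rw [CL.Blk.irr_one_eq, CL.Blk.natCast_mem_nonunits_iff hM]; exact hnd χ h)
      exact sub_mem (this χ hχ) (this ψ hψ)
  have hStn : St.1 (-1) = St.1 1 := by
    have := stL_neg (F := F) 1
    rwa [mul_one] at this
  have hneg : ∀ χ : IrrCharacter (Matrix.SpecialLinearGroup (Fin 2) F), χ.1 (-1) = -χ.1 1 → χ ≠ St := by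
    rintro χ h rfl
    exact h1 St (by linear_combination (h - hStn) / 2)
  have b1 : blockOf M St.1 = {χ | χ.1 1 = (Fintype.card F : ℂ)} := by
    rw [hSt]; ext χ; exact (hdeg χ).symm
  have b2 : ∀ χ : IrrCharacter (Matrix.SpecialLinearGroup (Fin 2) F), χ ≠ St → χ.1 (-1) / χ.1 1 = 1 →
      blockOf M χ.1 = {ψ | ψ.1 (-1) = ψ.1 1 ∧ ψ.1 1 ≠ (Fintype.card F : ℂ)} := fun χ h e => by
    ext ψ
    rw [CL.Blk.mem_blockOf_iff, key χ ψ h, e, div_eq_one_iff_eq (h1 ψ), and_comm]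
    exact and_congr_right fun _ => (hdeg ψ).not.symm
  have b3 : ∀ χ : IrrCharacter (Matrix.SpecialLinearGroup (Fin 2) F), χ ≠ St → χ.1 (-1) / χ.1 1 = -1 →
      blockOf M χ.1 = {ψ | ψ.1 (-1) = -ψ.1 1} := fun χ h e => by
    ext ψ
    rw [CL.Blk.mem_blockOf_iff, key χ ψ h, e, div_eq_iff (h1 ψ), neg_one_mul]
    exact and_iff_right_of_imp (hneg ψ)
  have ho : CL.Blk.irrOne (Matrix.SpecialLinearGroup (Fin 2) F) ≠ St := fun e => by
    have := (hdeg _).2 e
    rw [CL.Blk.irrOne_apply] at this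
    have : 1 = Fintype.card F := by exact_mod_cast this
    have : 1 < Fintype.card F := Fintype.one_lt_card
    omega
  have b2' := b2 _ ho (by simp [CL.Blk.irrOne_apply])
  obtain ⟨ν, hν⟩ := exists_nonsquare_unit hodd
  obtain ⟨θ, hθ, -, hθ'⟩ := exists_irr_not_sig h2 hν (ε := -1) (Or.inr rfl)
  replace hθ' := hθ' 1
  rw [mul_one, neg_one_mul] at hθ'
  have hθ1 := hneg ⟨θ, hθ⟩ hθ'
  have b3' := b3 ⟨θ, hθ⟩ hθ1 (by rw [div_eq_iff (h1 _), neg_one_mul]; exact hθ')
  rw [← b1, ← b2', ← b3']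
  have hB : ∀ B, IsPBlock M B ↔ B = blockOf M St.1 ∨
      B = blockOf M (CL.Blk.irrOne (Matrix.SpecialLinearGroup (Fin 2) F)).1 ∨ B = blockOf M θ := by
    intro B
    constructor
    · rintro ⟨χ, rfl⟩
      by_cases h : χ = St
      · exact Or.inl (by rw [h])
      rcases hsg χ with e | e
      exacts [Or.inr (Or.inl ((b2 χ h e).trans b2'.symm)), Or.inr (Or.inr ((b3 χ h e).trans b3'.symm))]
    · rintro (rfl | rfl | rfl)
      exacts [⟨St, rfl⟩, ⟨_, rfl⟩, ⟨⟨θ, hθ⟩, rfl⟩]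
  have hdef : ∀ χ : IrrCharacter (Matrix.SpecialLinearGroup (Fin 2) F), χ ≠ St →
      ∀ P : Sylow p (Matrix.SpecialLinearGroup (Fin 2) F), IsDefectGroup p M (blockOf M χ.1) P := by
    intro χ h P
    have := CL.Blk.minVal_le (p := p) (CL.Blk.mem_blockOf_self hM χ)
    rw [Nat.factorization_eq_zero_of_not_dvd (hnd χ h)] at this
    rw [CL.Blk.isDefectGroup_sylow_iff hM (CL.Blk.isPBlock_blockOf χ), CL.Blk.blockDefect_eq,
      Nat.le_zero.1 this, Nat.sub_zero]
  refine ⟨hB, ?_, fun P => ⟨hdef _ ho P, hdef ⟨θ, hθ⟩ hθ1 P⟩⟩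
  refine (Nat.card_coe_set_eq {B | IsPBlock M B}).trans (Set.ncard_eq_three.2 ⟨_, _, _, ?_, ?_, ?_,
    Set.ext hB⟩)
  · intro e
    exact ho (hSt.le (e.ge (CL.Blk.mem_blockOf_self hM _)))
  · intro e
    exact hθ1 (hSt.le (e.ge (CL.Blk.mem_blockOf_self hM ⟨θ, hθ⟩)))
  · intro e
    have := b3'.le (e.le (CL.Blk.mem_blockOf_self hM _))
    simp only [Set.mem_setOf_eq, CL.Blk.irrOne_apply] at this
    norm_num at this

end Cfsg.Agent.S2439
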