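import Cfsg.Statements.S2440
import Cfsg.Agent.KSG.GLnBlocks

set_option autoImplicit false
open Cfsg

namespace Cfsg.Agent.S2440


theorem result (p : ℕ) [Fact p.Prime] (n : ℕ) (hn : 2 ≤ n) (M : Ideal Cfsg.AlgInt) (hM : Cfsg.IsPModular p M) :
    Nat.card {B : Set (Cfsg.IrrCharacter (Matrix.SpecialLinearGroup (Fin n) (ZMod p))) // Cfsg.IsPBlock M B} =
      Nat.gcd n (p - 1) + 1 := by
  classical
  obtain ⟨h0, h1⟩ := CL.GLn.card_blockDefect_full_sl (F := ZMod p) hM hn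
  rw [ZMod.card] at h1
  rw [← h1, ← CL.GLn.card_blockDefect_zero_sl (F := ZMod p) hM n, ← Nat.card_sum]
  refine Nat.card_congr ((Equiv.subtypeEquivRight fun B => ?_).trans
    (subtypeOrEquiv _ _ (by
      rw [Pi.disjoint_iff]
      exact fun B => Prop.disjoint_iff.2 fun h => h0 (h.1.2.symm.trans h.2.2))))
  exact ⟨fun h => (CL.GLn.blockDefect_sl hM h).symm.imp (⟨h, ·⟩) (⟨h, ·⟩),
    fun h => h.elim And.left And.left⟩

end Cfsg.Agent.S2440
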