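import Cfsg.Statements.S2441
import Cfsg.Agent.CHEV.ChevBlocks
import Cfsg.Agent.CHEV.StGlue

set_option autoImplicit false
open Cfsg

namespace Cfsg.Agent.S2441

/-- For a prime p, the Chevalley groups of types G₂, F₄ and E₈ over the field with p elements (types for which the simply connected and adjoint groups coincide, so the group has trivial centre) each have exactly two p-blocks relative to any maximal ideal of the algebraic integers containing p (only the count is asserted; it arises as the defect-zero block of the Steinberg character plus a single block of maximal defect). -/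
theorem result (p : ℕ) [Fact p.Prime] (M : Ideal Cfsg.AlgInt) (hM : Cfsg.IsPModular p M) :
    Nat.card {B : Set (Cfsg.IrrCharacter (Cfsg.Lie.chevG2.group (ZMod p))) // Cfsg.IsPBlock M B} = 2 ∧
    Nat.card {B : Set (Cfsg.IrrCharacter (Cfsg.Lie.chevF4.group (ZMod p))) // Cfsg.IsPBlock M B} = 2 ∧
    Nat.card {B : Set (Cfsg.IrrCharacter (Cfsg.Lie.chevE8.group (ZMod p))) // Cfsg.IsPBlock M B} = 2 := by
  have key : ∀ (D : Cfsg.Lie.ChevalleyDatum) [CL.Chev.Good D],
      Nat.card {B : Set (Cfsg.IrrCharacter (D.group (ZMod p))) // Cfsg.IsPBlock M B} = 2 := fun D _ => by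
    have := CL.Chev.finite_group D (ZMod p)
    have := Fintype.ofFinite (D.group (ZMod p))
    rw [CL.Chev.stG_good.card_blocks CL.Chev.stG_R3 CL.Chev.rootSys_irred CL.Chev.stG_top
      (CL.Chev.stG_good.not_dvd_card_H (p := p) CL.Chev.stG_adjoint) hM, CL.Chev.center_group_eq_bot,
      Subgroup.card_bot]
  exact ⟨key _, key _, key _⟩

end Cfsg.Agent.S2441
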