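import Cfsg.Statements.S2442
import Cfsg.Agent.KSG.Zel7

set_option autoImplicit false
open scoped MatrixGroups
open Cfsg

namespace Cfsg.Agent.S2442


open Classical in
theorem result {F : Type*} [Field F] [Fintype F] [DecidableEq F] (n : ℕ) (hn : 2 ≤ n) :
    Nat.totient (Fintype.card F ^ n - 1) / n ≤
      Nat.card {χ : Cfsg.IrrCharacter (GL (Fin n) F) //
        (χ : GL (Fin n) F → ℂ) 1 = ∏ i ∈ Finset.Ico 1 n, ((Fintype.card F : ℂ) ^ i - 1) ∧
        ∀ m : ℕ, 0 < m → m < n →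
          (∑ g : GL (Fin n) F,
            if (∀ i j : Fin n, ¬ (i.val < m ∧ m ≤ j.val) → (g : Matrix (Fin n) (Fin n) F) i j = (1 : Matrix (Fin n) (Fin n) F) i j)
            then (χ : GL (Fin n) F → ℂ) g else 0) = 0} := by
  obtain ⟨n, rfl⟩ := Nat.exists_eq_add_of_le' (show 1 ≤ n by omega)
  refine (CL.Zel.totient_le F hn).trans ((CL.Zel.card_cusp _).ge.trans ?_)
  rw [Nat.card_congr (Equiv.sigmaSubtype _)]
  refine Nat.card_le_card_of_injective (fun χ => ⟨χ.1, χ.2.2.irr.2.trans ?_, fun m =>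
    χ.2.2.sum_eq_zero χ.1.2.isClassFunction⟩) fun _ _ h => Subtype.ext (congrArg (·.1) h)
  simp [CL.Zel.phi, Finset.prod_Ico_eq_prod_range, add_comm]

end Cfsg.Agent.S2442
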