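import Cfsg.Statements.S2531
import Mathlib

set_option autoImplicit false
open Cfsg

namespace Cfsg.Agent.S2531

open Projectivization in
theorem cast_ncard {F V : Type*} [Field F] [Finite F] [AddCommGroup V] [Module F V] [Finite V]
    (W : Submodule F V) (hW : W ≠ ⊥) :
    (({x : Projectivization F V | x.rep ∈ W}.ncard : ℕ) : F) = 1 := by
  have e : {x : Projectivization F V | x.rep ∈ W} =
      Set.range (Projectivization.map W.subtype W.injective_subtype) := by
    ext x
    refine ⟨fun hx => ⟨mk F ⟨x.rep, hx⟩ fun h => x.rep_nonzero (congrArg Subtype.val h),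
      x.mk_rep⟩, ?_⟩
    rintro ⟨y, rfl⟩
    induction y using Projectivization.ind with
    | h v hv =>
      obtain ⟨a, ha⟩ := exists_smul_eq_mk_rep F (W.subtype v)
        (by simpa using hv)
      change (mk F (W.subtype v) _).rep ∈ W
      rw [← ha]
      exact W.smul_mem _ v.2
  have h1 := congrArg (Nat.cast : ℕ → F) (Projectivization.card' F W)
  cases nonempty_fintype F
  have := Submodule.nontrivial_iff_ne_bot.2 hW
  rw [Module.natCard_eq_pow_finrank (K := F), Nat.cast_add, Nat.cast_mul, Nat.cast_pow,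
    Nat.cast_sub Nat.card_pos, Nat.card_eq_fintype_card (α := F), FiniteField.cast_card_eq_zero,
    zero_pow Module.finrank_pos.ne'] at h1
  rw [e, Set.ncard_range_of_injective (Projectivization.map_injective (τ := RingHom.id F) _ _)]
  linear_combination h1

theorem count {P : Type*} [Finite P] (S : Set (Equiv.Perm P))
    (h : ∀ a b c d : P, a ≠ b → c ≠ d → ∃! s, s ∈ S ∧ s a = c ∧ s b = d) (a : P) (X Y : Set P)
    (hX : a ∉ X) (hY : a ∉ Y) :
    ∑ s ∈ {s | s ∈ S ∧ s a = a}.toFinite.toFinset, {x | x ∈ X ∧ s x ∈ Y}.ncard =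
      X.ncard * Y.ncard := by
  classical
  have := Finset.sum_card_bipartiteAbove_eq_sum_card_bipartiteBelow
    (s := {s | s ∈ S ∧ s a = a}.toFinite.toFinset) (t := X.toFinite.toFinset)
    (fun s x => s x ∈ Y)
  rw [Finset.sum_congr rfl (g := fun s => {x | x ∈ X ∧ s x ∈ Y}.ncard) (fun s _ => by
    rw [← Set.ncard_coe_finset]; congr 1; ext x; simp),
    Finset.sum_congr rfl (s₁ := X.toFinite.toFinset) (g := fun _ => Y.ncard) (fun x hx => by
      have hx' : a ≠ x := fun e => hX (e ▸ X.toFinite.mem_toFinset.1 hx)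
      rw [← Set.ncard_coe_finset]
      refine Set.ncard_congr (fun s _ => s x) (fun s hs => by simpa using (by simpa using hs :
        (s ∈ S ∧ s a = a) ∧ s x ∈ Y).2) (fun s t hs ht e => ?_) fun y hy => ?_
      · have hs' : (s ∈ S ∧ s a = a) ∧ s x ∈ Y := by simpa using hs
        have ht' : (t ∈ S ∧ t a = a) ∧ t x ∈ Y := by simpa using ht
        exact (h a x a (s x) hx' fun e => hY (e ▸ hs'.2)).unique ⟨hs'.1.1, hs'.1.2, rfl⟩
          ⟨ht'.1.1, ht'.1.2, e.symm⟩
      · obtain ⟨s, hs, -⟩ := h a x a y hx' fun e => hY (e ▸ hy)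
        exact ⟨s, by simpa using ⟨⟨hs.1, hs.2.1⟩, hs.2.2 ▸ hy⟩, hs.2.2⟩)] at this
  rw [this, Finset.sum_const, smul_eq_mul, Set.ncard_eq_toFinset_card X]

/-- Let `F` be a finite field and `n ≥ 3`. No set of permutations of the points of the projective space of `Fⁿ`, each induced by an invertible semilinear transformation of `Fⁿ` (so a subset of the full projective semilinear group), is sharply 2-transitive on the points: it is impossible that for all pairs of distinct points `(a, b)` and `(c, d)` exactly one member of the set sends `a` to `c` and `b` to `d`. -/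
theorem result {F : Type*} [Field F] [Finite F]
    (n : ℕ) (hn : 3 ≤ n) (S : Set (Equiv.Perm (Projectivization F (Fin n → F))))
    (hS : ∀ s ∈ S, ∃ (σ : F ≃+* F) (f : (Fin n → F) →ₛₗ[(σ : F →+* F)] (Fin n → F)) (hf : Function.Injective f),
      ∀ x, s x = Projectivization.map f hf x) :
    ¬ (∀ a b c d : Projectivization F (Fin n → F), a ≠ b → c ≠ d →
        ∃! s, s ∈ S ∧ s a = c ∧ s b = d) := by
  intro h
  classical
  let i : Fin n := ⟨0, by omega⟩
  let H : Submodule F (Fin n → F) := LinearMap.ker (LinearMap.proj i)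
  have hr : ∀ (W : Submodule F (Fin n → F)) v hv, (Projectivization.mk F v hv).rep ∈ W ↔ v ∈ W :=
    fun W v hv => by
      obtain ⟨a, ha⟩ := Projectivization.exists_smul_eq_mk_rep F v hv
      rw [← ha]
      exact W.smul_mem_iff a.ne_zero
  let a := Projectivization.mk F (Pi.single i (1 : F) : Fin n → F) (by simp)
  have ha : a ∉ {x : Projectivization F (Fin n → F) | x.rep ∈ H} := fun h' => by
    simpa [H] using (hr H _ _).1 h'
  have hW : ∀ (σ : F →+* F) (f : (Fin n → F) →ₛₗ[σ] (Fin n → F)), H ⊓ H.comap f ≠ ⊥ := by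
    intro σ f e
    have := Nat.card_le_card_of_injective (fun v : Fin n → F => (v i, f v i)) fun v w hvw => by
      rw [← sub_eq_zero, ← Submodule.mem_bot F, ← e]
      simpa [H, sub_eq_zero] using hvw
    rw [Nat.card_fun, Nat.card_prod, ← sq, Nat.card_fin] at this
    have := (Nat.pow_le_pow_iff_right Finite.one_lt_card).1 this
    omega
  have hH : H ≠ ⊥ := fun e => hW (RingHom.id F) LinearMap.id (by rw [e, bot_inf_eq])
  have h1 := congrArg (Nat.cast : ℕ → F) (count S h a _ _ ha ha)
  rw [Nat.cast_mul, cast_ncard H hH, Nat.cast_sum, Finset.sum_congr rfl (g := fun _ => 1)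
    (fun s hs => by
      obtain ⟨σ, f, hf, hs'⟩ := hS s (Set.Finite.mem_toFinset _ |>.1 hs).1
      rw [← cast_ncard _ (hW _ f)]
      congr 2
      ext x
      induction x using Projectivization.ind with
      | h v hv => simp only [Set.mem_ofPred_eq, hs', Projectivization.map_mk, hr]; rfl)] at h1
  obtain ⟨v, hv, hv0⟩ := H.exists_mem_ne_zero_of_ne_bot hH
  have hb : a ∉ ({Projectivization.mk F v hv0} : Set _) := fun e => ha (e ▸ (hr H v hv0).2 hv)
  have h2 := congrArg (Nat.cast : ℕ → F) (count S h a _ {a}ᶜ hb (by simp))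
  rw [Nat.cast_sum, Finset.sum_congr rfl (g := fun _ => 1) (fun s hs => by
    have hs' := (Set.Finite.mem_toFinset _ |>.1 hs).2
    rw [show {x | x ∈ ({Projectivization.mk F v hv0} : Set _) ∧ s x ∈ ({a}ᶜ : Set _)} =
      {Projectivization.mk F v hv0} from Set.ext fun x => and_iff_left_of_imp fun hx e =>
        hb (s.injective (e.trans hs'.symm) ▸ hx)]
    simp), h1] at h2
  have h3 := congrArg (Nat.cast : ℕ → F) (Set.ncard_add_ncard_compl ({a} : Set _))
  have h4 := cast_ncard (⊤ : Submodule F (Fin n → F)) fun e => hH (eq_bot_iff.2 (e ▸ le_top))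
  simp only [Submodule.mem_top, Set.ofPred_true, Set.ncard_univ] at h4
  simp only [Set.ncard_singleton, h4, one_mul, Nat.cast_add, Nat.cast_one] at h2 h3
  rw [← h2] at h3
  simp at h3

end Cfsg.Agent.S2531
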