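import Cfsg.Statements.S2532
import Cfsg.Agent.KSG.AltBasic

set_option autoImplicit false
open Cfsg

namespace Cfsg.Agent.S2532

open Equiv Equiv.Perm MulAction

theorem exists_points {m r : ℕ} (H : Subgroup (Perm (Fin m))) (hm : 2 ^ Nat.card H * (Nat.card H * r) < m) :
    ∃ (S : Subgroup H) (x : Fin r → Fin m), (∀ i, stabilizer H (x i) = S) ∧
      ∀ i j (h : H), h • x i = x j → i = j := by
  classical
  have hfin : Fintype H := Fintype.ofFinite H
  have hfin2 : Fintype (Subgroup H) := Fintype.ofFinite _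
  have hcard : Fintype.card (Subgroup H) ≤ 2 ^ Nat.card H := by
    have := Fintype.card_le_of_injective (fun S : Subgroup H => (S : Set H)) SetLike.coe_injective
    rwa [Fintype.card_set, ← Nat.card_eq_fintype_card (α := H)] at this
  obtain ⟨S, hS⟩ := Fintype.exists_lt_card_fiber_of_mul_lt_card (fun x : Fin m => stabilizer H x)
    (n := Nat.card H * r) (by
      rw [Fintype.card_fin]
      exact lt_of_le_of_lt (Nat.mul_le_mul_right _ hcard) hm)
  set X := Finset.univ.filter (fun x : Fin m => stabilizer H x = S) with hX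
  let q : Fin m → orbitRel.Quotient H (Fin m) := Quotient.mk''
  have h1 : X.card ≤ Nat.card H * (X.image q).card := by
    refine Finset.card_le_mul_card_image X _ (fun a ha => ?_)
    obtain ⟨y, -, rfl⟩ := Finset.mem_image.1 ha
    rw [Nat.card_eq_fintype_card, ← Finset.card_univ]
    refine le_trans (Finset.card_le_card (t := Finset.univ.image (fun h : H => h • y)) ?_)
      Finset.card_image_le
    intro z hz
    obtain ⟨h, hh⟩ : z ∈ orbit H y := Quotient.exact (Finset.mem_filter.1 hz).2
    exact Finset.mem_image.2 ⟨h, Finset.mem_univ _, hh⟩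
  have h2 : r ≤ (X.image q).card := le_of_lt (Nat.lt_of_mul_lt_mul_left (lt_of_lt_of_le hS h1))
  obtain ⟨e⟩ : Nonempty (Fin r ↪ X.image q) := Function.Embedding.nonempty_of_card_le (by rwa [Fintype.card_fin, Fintype.card_coe])
  choose x hx hx' using fun i => Finset.mem_image.1 (e i).2
  refine ⟨S, x, fun i => (Finset.mem_filter.1 (hx i)).2, fun i j h hh => e.injective (Subtype.ext ?_)⟩
  rw [← hx' i, ← hx' j]
  exact (Quotient.sound (show x j ∈ orbit H (x i) from ⟨h, hh⟩)).symm

/-- There is a function `f` of two natural-number arguments such that, whenever `m ≥ f(n, r)`, every subgroup of order `n` of the alternating group of degree `m` centralizes some subgroup of that alternating group isomorphic to the alternating group of degree `r`. -/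
theorem result :
    ∃ f : ℕ → ℕ → ℕ, ∀ (m r : ℕ) (H : Subgroup ↥(alternatingGroup (Fin m))), f (Nat.card H) r ≤ m →
      ∃ K : Subgroup ↥(alternatingGroup (Fin m)), Nonempty (↥K ≃* ↥(alternatingGroup (Fin r))) ∧
        K ≤ Subgroup.centralizer (H : Set ↥(alternatingGroup (Fin m))) := by
  classical
  refine ⟨fun n r => 2 ^ n * (n * r) + 1, fun m r H hm => ?_⟩
  let H' := H.map (alternatingGroup (Fin m)).subtype
  have hc : Nat.card H' = Nat.card H := Subgroup.card_map_of_injective (Subgroup.subtype_injective _)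
  obtain ⟨S, x, hS, hx⟩ := exists_points (r := r) H' (by rw [hc]; exact hm)
  have hwd : ∀ (i) (a b : H'), a • x i = b • x i ↔ (a : H' ⧸ S) = b := by
    intro i a b
    rw [QuotientGroup.eq, ← hS i, mem_stabilizer_iff, mul_smul, inv_smul_eq_iff, eq_comm]
  let e : (H' ⧸ S) × Fin r ↪ Fin m := ⟨fun p => p.1.out • x p.2, by
    rintro ⟨a, i⟩ ⟨b, j⟩ h
    have h' : a.out • x i = b.out • x j := h
    have hij : i = j := hx i j (b.out⁻¹ * a.out) (by rw [mul_smul, h', inv_smul_smul])
    subst hij
    rw [hwd, QuotientGroup.out_eq', QuotientGroup.out_eq'] at h'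
    rw [h']⟩
  have he : ∀ (h : H') (a : H' ⧸ S) (i), h • e (a, i) = e (h • a, i) := by
    intro h a i
    show h • a.out • x i = (h • a).out • x i
    rw [← mul_smul, hwd, QuotientGroup.out_eq', ← smul_eq_mul, ← MulAction.Quotient.smul_mk,
      QuotientGroup.out_eq']
  have : Fintype (H' ⧸ S) := Fintype.ofFinite _
  obtain ⟨φ, hφ, hφ'⟩ := CL.KSG.exists_alt_embedding e
  let ψ : alternatingGroup (Fin r) →* alternatingGroup ((H' ⧸ S) × Fin r) :=
    { toFun := fun g => ⟨prodCongrRight fun _ => g.1, by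
        rw [mem_alternatingGroup, sign_prodCongrRight, mem_alternatingGroup.1 g.2]; simp⟩
      map_one' := rfl
      map_mul' := fun _ _ => rfl }
  have hψ : Function.Injective ψ := by
    intro a b hab
    ext i
    have := congrArg (fun g : alternatingGroup ((H' ⧸ S) × Fin r) => (g.1 ((1 : H'), i)).2) hab
    exact congrArg Fin.val this
  refine ⟨(φ.comp ψ).range, ⟨(MonoidHom.ofInjective (f := φ.comp ψ) (hφ.comp hψ)).symm⟩, ?_⟩
  rintro _ ⟨g, rfl⟩
  rw [Subgroup.mem_centralizer_iff]
  intro h hh
  apply Subtype.ext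
  ext1 y
  let h' : H' := ⟨h.1, h, hh, rfl⟩
  show h' • ((φ (ψ g)).1 y) = (φ (ψ g)).1 (h' • y)
  rw [hφ', viaEmbeddingHom_apply]
  by_cases hy : y ∈ Set.range e
  · obtain ⟨⟨a, i⟩, rfl⟩ := hy
    rw [he, viaEmbedding_apply, viaEmbedding_apply]
    exact he _ _ _
  · rw [viaEmbedding_apply_of_notMem _ _ _ hy, viaEmbedding_apply_of_notMem]
    rintro ⟨⟨a, i⟩, ha⟩
    exact hy ⟨(h'⁻¹ • a, i), by rw [← he, ha, inv_smul_smul]⟩

end Cfsg.Agent.S2532
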