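import Cfsg.Statements.S2534
import Cfsg.Agent.KSG.HallSym4

set_option autoImplicit false
open Cfsg

namespace Cfsg.Agent.S2534

/-- For `n ≥ 5` and a set of primes `π`, the alternating group of degree `n` satisfies the full Sylow analogue for `π` (its maximal `π`-subgroups are pairwise conjugate; for a finite group this says Hall `π`-subgroups exist, are all conjugate, and contain every `π`-subgroup up to conjugacy) if and only if either at most one prime of `π` divides its order or every prime dividing its order lies in `π`. -/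
theorem result (n : ℕ) (hn : 5 ≤ n) (π : Set ℕ) :
    Cfsg.IsDPiGroup π ↥(alternatingGroup (Fin n)) ↔
      ((∀ r s : ℕ, r.Prime → s.Prime → r ∈ π → s ∈ π → r ∣ Nat.card ↥(alternatingGroup (Fin n)) → s ∣ Nat.card ↥(alternatingGroup (Fin n)) → r = s) ∨
        ∀ r : ℕ, r.Prime → r ∣ Nat.card ↥(alternatingGroup (Fin n)) → r ∈ π) := by
  refine ⟨fun hD => by_contra fun h => CL.HallSym.not_d (n := n) ?_ hD, CL.HallSym.d_of_triv⟩
  have key : ∀ r : ℕ, r.Prime → r ∣ Nat.card ↥(alternatingGroup (Fin n)) → r ≤ n := fun r hr hd =>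
    hr.dvd_factorial.1 (by simpa using hd.trans (CL.HallSym.card_dvd _))
  push Not at h
  obtain ⟨⟨r, s, hr, hs, h1, h2, h3, h4, h5⟩, t, ht, h6, h7⟩ := h
  exact ⟨⟨r, s, hr, hs, h5, h1, h2, key r hr h3, key s hs h4⟩, t, ht, key t ht h6, h7⟩

end Cfsg.Agent.S2534
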