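import Cfsg.Statements.S2536
import Cfsg.Agent.KSG.HallSym4

set_option autoImplicit false
open Cfsg

namespace Cfsg.Agent.S2536

/-- Let `π` be a set of primes and `n` a natural number such that at least two primes of `π` divide `n!` but not every prime dividing `n!` lies in `π`. Then the symmetric group of degree `n` has a Hall `π`-subgroup if and only if either `n` is prime and the primes of `π` dividing `n!` are exactly the primes smaller than `n` (a point stabilizer is then such a subgroup), or `n ∈ {7, 8}` and the primes of `π` dividing `n!` are exactly 2 and 3. -/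
theorem result (n : ℕ) (π : Set ℕ)
    (h2 : ∃ r s : ℕ, r.Prime ∧ s.Prime ∧ r ≠ s ∧ r ∈ π ∧ s ∈ π ∧ r ≤ n ∧ s ≤ n)
    (hns : ∃ r : ℕ, r.Prime ∧ r ≤ n ∧ r ∉ π) :
    Cfsg.IsEPiGroup π (Equiv.Perm (Fin n)) ↔
      ((n.Prime ∧ ∀ r : ℕ, r.Prime → r ≤ n → (r ∈ π ↔ r < n)) ∨
       ((n = 7 ∨ n = 8) ∧ ∀ r : ℕ, r.Prime → r ≤ n → (r ∈ π ↔ (r = 2 ∨ r = 3)))) := by
  have h : CL.HallSym.Prop2 (Fintype.card (Fin n)) π := by rw [Fintype.card_fin]; exact ⟨h2, hns⟩
  constructor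
  · rintro ⟨H, hH⟩
    obtain ⟨T, -, hT⟩ := CL.HallSym.exists_halves h le_top (CL.isPiHallOf_top.2 hH)
    rw [Fintype.card_fin] at hT
    exact hT.imp (fun h => ⟨h.1, h.2.2⟩) fun h => ⟨h.1, h.2.2⟩
  · intro h1
    have h5 := h.five_le
    obtain ⟨k, hk⟩ : ∃ k, CL.HallSym.Typ (Fintype.card (Fin n)) π k := by
      rw [Fintype.card_fin] at h5 ⊢
      exact h1.elim (fun h => ⟨n - 1, Or.inl ⟨h.1, by omega, h.2⟩⟩)
        fun h => ⟨4, Or.inr ⟨h.1, rfl, h.2⟩⟩
    exact (CL.HallSym.exists_hall h5 le_top hk).imp fun _ => CL.isPiHallOf_top.1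

end Cfsg.Agent.S2536
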