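import Cfsg.Statements.S2537
import Cfsg.Agent.KSG.SL2Eig
import Cfsg.Agent.SOLV.Hall

set_option autoImplicit false
open Cfsg CL.GL2 CL.Char

namespace Cfsg.Agent.S2537

open scoped MatrixGroups

theorem hall_iff {F : Type*} [Field F] [Fintype F] [DecidableEq F] :
    (∃ H : Subgroup PSL(2, F), IsPiHall ({2, 3} : Set ℕ) H) ↔
      ∃ M : Subgroup SL(2, F), Group.IsSolvable M ∧ ¬ 2 ∣ M.index ∧ ¬ 3 ∣ M.index := by
  constructor
  · rintro ⟨H, h1, h2⟩
    refine ⟨H.comap (pslMk F), ?_, ?_⟩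
    · rw [← isSolvable_map_pslMk_iff, Subgroup.map_comap_eq_self_of_surjective pslMk_surjective]
      exact isSolvable_of_primes_subset_pair Nat.prime_two Nat.prime_three h1
    · rw [Subgroup.index_comap_of_surjective _ pslMk_surjective]
      exact ⟨h2 2 Nat.prime_two (by simp), h2 3 Nat.prime_three (by simp)⟩
  · rintro ⟨M, h1, h2, h3⟩
    obtain ⟨H, hH⟩ := CL.exists_isPiHallOf ({2, 3} : Set ℕ) (M.map (pslMk F)) (isSolvable_map_pslMk_iff.2 h1)
    refine ⟨H, CL.IsPiHallOf.isPiHall hH fun r _ hr e => ?_⟩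
    have := hr.trans (M.index_map_dvd pslMk_surjective)
    rcases e with rfl | rfl
    exacts [h2 this, h3 this]

/-- Let `F` be a finite field with `q` elements of characteristic `p ≥ 5`, and `ε = 1` if `q ≡ 1 (mod 4)`, `ε = -1` otherwise. Then `PSL(2, F)` has a Hall `{2, 3}`-subgroup if and only if `3` divides `q − ε`, or the `{2,3}`-part of `q² − 1` is 24, or the `{2,3}`-part of `q² − 1` is 48 (the `{2,3}`-part of `m` being the largest divisor of `m` with no prime factor other than 2 and 3). -/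
theorem result {F : Type*} [Field F] [Fintype F] {p : ℕ} [Fact p.Prime] [CharP F p]
    (hp : 5 ≤ p) (q : ℕ) (hq : Fintype.card F = q) :
    (∃ H : Subgroup (Matrix.ProjectiveSpecialLinearGroup (Fin 2) F), Cfsg.IsPiHall ({2, 3} : Set ℕ) H) ↔
      (3 ∣ q - 1 ∧ q % 4 = 1) ∨ (3 ∣ q + 1 ∧ q % 4 = 3) ∨
        2 ^ (q ^ 2 - 1).factorization 2 * 3 ^ (q ^ 2 - 1).factorization 3 = 24 ∨
        2 ^ (q ^ 2 - 1).factorization 2 * 3 ^ (q ^ 2 - 1).factorization 3 = 48 := by
  classical
  subst hq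
  have hpp : p.Prime := Fact.out
  have h2 := two_ne_zero_of_char_ne (F := F) p (by omega)
  have hodd := Nat.odd_iff.1 (odd_of_two_ne_zero h2)
  have h3 : ¬ 3 ∣ Fintype.card F := fun e => by
    obtain ⟨m, -, hm⟩ := FiniteField.card F p
    rw [hm] at e
    have := (Nat.prime_dvd_prime_iff_eq Nat.prime_three hpp).1 (Nat.prime_three.dvd_of_dvd_pow e)
    omega
  have h5 : 5 ≤ Fintype.card F := hp.trans (Nat.le_of_dvd Fintype.card_pos (char_dvd_card p))
  have hn : Fintype.card F ^ 2 - 1 = (Fintype.card F + 1) * (Fintype.card F - 1) := Nat.sq_sub_sq _ 1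
  have hn0 : Fintype.card F ^ 2 - 1 ≠ 0 := by rw [hn]; exact Nat.mul_ne_zero (by omega) (by omega)
  have a2 := Nat.ordProj_dvd (Fintype.card F ^ 2 - 1) 2
  have a3 := Nat.ordProj_dvd (Fintype.card F ^ 2 - 1) 3
  have b2 := Nat.pow_succ_factorization_not_dvd hn0 Nat.prime_two
  have b3 := Nat.pow_succ_factorization_not_dvd hn0 Nat.prime_three
  have c2 : 2 ^ 3 ∣ 2 ^ (Fintype.card F ^ 2 - 1).factorization 2 :=
    pow_dvd_pow _ ((Nat.prime_two.pow_dvd_iff_le_factorization hn0).1 (by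
      rw [hn]
      rcases (by omega : 4 ∣ Fintype.card F + 1 ∨ 4 ∣ Fintype.card F - 1) with h | h
      · exact mul_dvd_mul h (by omega : 2 ∣ Fintype.card F - 1)
      · exact mul_dvd_mul (a := 2) (c := 4) (by omega : 2 ∣ Fintype.card F + 1) h))
  have c3 : 3 ^ 1 ∣ 3 ^ (Fintype.card F ^ 2 - 1).factorization 3 :=
    pow_dvd_pow _ ((Nat.prime_three.pow_dvd_iff_le_factorization hn0).1 (by
      rw [hn]
      rcases (by omega : Fintype.card F % 3 = 2 ∨ Fintype.card F % 3 = 1) with h | h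
      · exact (by omega : 3 ∣ Fintype.card F + 1).mul_right _
      · exact (by omega : 3 ∣ Fintype.card F - 1).mul_left _))
  have h24 : 24 ∣ _ := mul_dvd_mul c2 c3
  generalize (Fintype.card F ^ 2 - 1).factorization 2 = i at *
  generalize (Fintype.card F ^ 2 - 1).factorization 3 = j at *
  have hA := Nat.Coprime.mul_dvd_of_dvd_of_dvd (Nat.Coprime.pow i j (by decide : Nat.Coprime 2 3)) a2 a3
  have key : ∀ K : Subgroup SL(2, F), (¬ 2 ∣ K.index ∧ ¬ 3 ∣ K.index) ↔ 2 ^ i * 3 ^ j ∣ Nat.card K := by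
    intro K
    have e := K.card_mul_index.trans card_SL2
    constructor
    · rintro ⟨k2, k3⟩
      refine Nat.Coprime.dvd_of_dvd_mul_right (Nat.Coprime.mul_left
        (Nat.Coprime.pow_left _ ((Nat.Prime.coprime_iff_not_dvd Nat.prime_two).2 k2))
        (Nat.Coprime.pow_left _ ((Nat.Prime.coprime_iff_not_dvd Nat.prime_three).2 k3))) ?_
      rw [e]
      exact hA.mul_left _
    · intro h
      constructor <;> intro k
      · refine b2 (Nat.Coprime.dvd_of_dvd_mul_left (Nat.Coprime.pow_left _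
          ((Nat.Prime.coprime_iff_not_dvd Nat.prime_two).2 (by omega : ¬ 2 ∣ Fintype.card F))) ?_)
        rw [← e, pow_succ]
        exact mul_dvd_mul ((dvd_mul_right _ _).trans h) k
      · refine b3 (Nat.Coprime.dvd_of_dvd_mul_left (Nat.Coprime.pow_left _
          ((Nat.Prime.coprime_iff_not_dvd Nat.prime_three).2 h3)) ?_)
        rw [← e, pow_succ]
        exact mul_dvd_mul ((dvd_mul_left _ _).trans h) k
  have nd : ∀ {r a b : ℕ}, r.Prime → ¬ r ∣ a → ¬ r ∣ b → ¬ r ∣ a * b := fun hr h1 h2 e =>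
    (hr.dvd_mul.1 e).elim h1 h2
  rw [hall_iff]
  constructor
  · rintro ⟨M, h1, h4⟩
    have hM := (key M).1 h4
    rcases solvable_cases h1 with h | ⟨d, -, hd, h⟩ | ⟨-, a, -, w, -, hq, h⟩
    · have := h24.trans (hM.trans ((Subgroup.card_dvd_of_le h).trans (card_center_SL2.trans (gcd_odd h2)).dvd))
      omega
    · by_cases hr : Reg d
      · have := h24.trans (hM.trans ((Subgroup.card_dvd_of_le h).trans hr.card_normalizer.dvd))
        rcases hr.cases with ⟨-, e⟩ | ⟨-, e⟩ <;> rw [e] at this <;> omega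
      · have := index_eq_of_card_mul (card_normalizer_of_not_reg hr hd) (n := Fintype.card F + 1) (by ring)
        exact (h4.1 ((by omega : 2 ∣ Fintype.card F + 1).trans (this ▸ Subgroup.index_dvd_of_le h))).elim
    · have := hM.trans ((Subgroup.card_dvd_of_le h).trans (hq.card_normalizer_dvd h2))
      have h6 := Nat.le_of_dvd (by decide) this
      have h7 := Nat.pos_of_dvd_of_pos this (by decide)
      right; right
      generalize 2 ^ i * 3 ^ j = A at h24 h6 h7
      omega
  · obtain ⟨a, w, hq⟩ := exists_QP h2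
    have h8 : 8 ∣ Nat.card (Subgroup.normalizer (Subgroup.closure ({a, w} : Set SL(2, F)) : Set SL(2, F))) :=
      (hq.card h2).symm.dvd.trans (Subgroup.card_dvd_of_le Subgroup.le_normalizer)
    rintro (⟨h, h'⟩ | ⟨h, h'⟩ | h | h)
    · obtain ⟨d, hd, hd'⟩ := exists_reg_split (F := F) (by omega)
      refine ⟨_, isSolvable_normalizer_centSL hd.not_isScal, ?_⟩
      obtain ⟨k, hk⟩ : 2 ∣ Fintype.card F + 1 := by omega
      rw [index_eq_of_card_mul (hd.card_normalizer.trans (congrArg _ (hd.cases.resolve_left fun e => hd' e.1).2))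
        (n := Fintype.card F * k) (by rw [hk]; ring)]
      exact ⟨nd Nat.prime_two (by omega) (by omega), nd Nat.prime_three h3 (by omega)⟩
    · obtain ⟨d, hd'⟩ := exists_noEig_SL (F := F)
      have hd := reg_of_noEig hd'
      refine ⟨_, isSolvable_normalizer_centSL hd.not_isScal, ?_⟩
      obtain ⟨k, hk⟩ : 2 ∣ Fintype.card F - 1 := by omega
      rw [index_eq_of_card_mul (hd.card_normalizer.trans (congrArg _ (card_centSL_noEig hd')))
        (n := Fintype.card F * k) (by rw [hk]; ring)]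
      exact ⟨nd Nat.prime_two (by omega) (by omega), nd Nat.prime_three h3 (by omega)⟩
    · exact ⟨_, hq.isSolvable_normalizer h2, (key _).2 (h ▸ Nat.Coprime.mul_dvd_of_dvd_of_dvd
        (by decide : Nat.Coprime 8 3) h8 (hq.three_dvd h2))⟩
    · refine ⟨_, hq.isSolvable_normalizer h2, (key _).2 (h ▸ Nat.Coprime.mul_dvd_of_dvd_of_dvd
        (by decide : Nat.Coprime 16 3) (hq.sixteen_dvd h2 ?_) (hq.three_dvd h2))⟩
      have h4 := four_dvd_card_centSL h2 (trace_eq_zero_of_mul_self hq.sq (not_isScal_of_mul_self h2 hq.sq))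
      have h16 : 16 ∣ (Fintype.card F + 1) * (Fintype.card F - 1) := by
        rw [← hn]; exact (by decide : 16 ∣ 48).trans (h ▸ hA)
      rcases (reg_of_mul_self h2 hq.sq).cases with ⟨-, e⟩ | ⟨-, e⟩ <;> rw [e] at h4 ⊢
      · obtain ⟨k, hk⟩ : 2 ∣ Fintype.card F - 1 := by omega
        rw [hk, mul_left_comm] at h16
        exact Nat.Coprime.dvd_of_dvd_mul_right (Nat.Coprime.pow_left 3
          ((Nat.Prime.coprime_iff_not_dvd Nat.prime_two).2 (by omega : ¬ 2 ∣ k)))
          (Nat.dvd_of_mul_dvd_mul_left two_pos h16)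
      · obtain ⟨k, hk⟩ : 2 ∣ Fintype.card F + 1 := by omega
        rw [hk, mul_assoc] at h16
        exact Nat.Coprime.dvd_of_dvd_mul_left (Nat.Coprime.pow_left 3
          ((Nat.Prime.coprime_iff_not_dvd Nat.prime_two).2 (by omega : ¬ 2 ∣ k)))
          (Nat.dvd_of_mul_dvd_mul_left two_pos h16)

end Cfsg.Agent.S2537
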