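import Cfsg.Statements.S2538
import Cfsg.Agent.KSG.HallSym4

set_option autoImplicit false
open Cfsg

namespace Cfsg.Agent.S2538

/-- For every `n` and every set of primes `π`, a subgroup of the alternating group of degree `n` is a Hall `π`-subgroup of it if and only if it is the intersection with the alternating group of some Hall `π`-subgroup of the symmetric group of degree `n`. -/
theorem result (n : ℕ) (π : Set ℕ)
    (M : Subgroup ↥(alternatingGroup (Fin n))) :
    Cfsg.IsPiHall π M ↔ ∃ M₀ : Subgroup (Equiv.Perm (Fin n)), Cfsg.IsPiHall π M₀ ∧ M = M₀.subgroupOf (alternatingGroup (Fin n)) := by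
  refine ⟨fun h => ?_, by rintro ⟨M₀, h, rfl⟩; exact CL.IsPiHall.subgroupOf_normal h _⟩
  obtain ⟨H, hH⟩ := CL.HallSym.e_iff.2 ⟨M, h⟩
  obtain ⟨g, rfl⟩ := (CL.HallSym.c_alt ⟨M, h⟩).2 _ M (CL.IsPiHall.subgroupOf_normal hH _) h
  refine ⟨_, CL.IsPiHall.conj_smul hH (g : Equiv.Perm (Fin n)), Subgroup.ext fun x => ?_⟩
  rw [Subgroup.mem_map_equiv, Subgroup.mem_subgroupOf, Subgroup.mem_subgroupOf,
    Subgroup.mem_pointwise_smul_iff_inv_smul_mem]
  rfl

end Cfsg.Agent.S2538
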