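import Cfsg.Statements.S2540
import Cfsg.Agent.KSG.GLnTori
import Cfsg.Agent.CLAS.SLBasic

set_option autoImplicit false
open Cfsg

namespace Cfsg.Agent.S2540

open CL.GLn Matrix
open scoped commutatorElement

theorem eq_of_perfect {S H : Type*} [Group S] [Group H] (hS : commutator S = ⊤) (f g : S →* H)
    (h : ∀ s, (f s)⁻¹ * g s ∈ Subgroup.center H) (s : S) : f s = g s := by
  have : commutator S ≤ f.eqLocus g := by
    rw [commutator_eq_closure, Subgroup.closure_le]
    rintro _ ⟨a, b, rfl⟩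
    change f ⁅a, b⁆ = g ⁅a, b⁆
    obtain ⟨z, hz, ha⟩ : ∃ z ∈ Subgroup.center H, g a = f a * z := ⟨_, h a, by group⟩
    obtain ⟨w, hw, hb⟩ : ∃ w ∈ Subgroup.center H, g b = f b * w := ⟨_, h b, by group⟩
    rw [map_commutatorElement, map_commutatorElement, ha, hb]
    have hz' := Subgroup.mem_center_iff.1 hz
    have hw' := Subgroup.mem_center_iff.1 hw
    simp only [commutatorElement_def, _root_.mul_inv_rev]
    calc f a * f b * (f a)⁻¹ * (f b)⁻¹
        = f a * (f b * z * z⁻¹) * ((f a)⁻¹ * w * w⁻¹) * (f b)⁻¹ := by group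
      _ = f a * z * (f b * z⁻¹ * w * (f a)⁻¹) * (w⁻¹ * (f b)⁻¹) := by
          rw [hz' (f b), hw' (f a)⁻¹]; group
      _ = _ := by rw [mul_assoc (f b), hw' z⁻¹]; group
  exact this (hS ▸ Subgroup.mem_top s)

theorem eq_top_of_map_eq_top {S : Type*} [Group S] (hS : commutator S = ⊤) (N : Subgroup S)
    (h : N.map (QuotientGroup.mk' (Subgroup.center S)) = ⊤) : N = ⊤ := by
  rw [eq_top_iff, ← hS, commutator_eq_closure, Subgroup.closure_le]
  rintro _ ⟨a, b, rfl⟩
  have key : ∀ a : S, ∃ x ∈ N, ∃ z ∈ Subgroup.center S, a = x * z := fun a => by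
    obtain ⟨x, hx, h1⟩ : QuotientGroup.mk' (Subgroup.center S) a ∈ N.map _ := h ▸ Subgroup.mem_top _
    obtain ⟨z, hz, rfl⟩ := (QuotientGroup.mk'_eq_mk' _).1 h1
    exact ⟨x, hx, z, hz, rfl⟩
  obtain ⟨x, hx, z, hz, rfl⟩ := key a
  obtain ⟨y, hy, w, hw, rfl⟩ := key b
  have hz' := Subgroup.mem_center_iff.1 hz
  have hw' := Subgroup.mem_center_iff.1 hw
  have : ⁅x * z, y * w⁆ = x * y * x⁻¹ * y⁻¹ := by
    simp only [commutatorElement_def, _root_.mul_inv_rev]
    symm
    calc x * y * x⁻¹ * y⁻¹ = x * (y * z * z⁻¹) * (x⁻¹ * w * w⁻¹) * y⁻¹ := by group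
      _ = x * z * (y * z⁻¹ * w * x⁻¹) * (w⁻¹ * y⁻¹) := by
          rw [hz' y, hw' x⁻¹]; group
      _ = _ := by rw [mul_assoc y, hw' z⁻¹]; group
  rw [SetLike.mem_coe, this]
  exact N.mul_mem (N.mul_mem (N.mul_mem hx hy) (N.inv_mem hx)) (N.inv_mem hy)

theorem result {F : Type*} [Field F] [Fintype F] (n : ℕ) (hn : 1 ≤ n) (hex : ¬ (n = 2 ∧ Fintype.card F ≤ 3)) (G : Subgroup (Matrix.GeneralLinearGroup (Fin n) F)) (hG : ∀ s : Matrix.SpecialLinearGroup (Fin n) F, ∀ g ∈ G, (Matrix.SpecialLinearGroup.toGL s) * g * (Matrix.SpecialLinearGroup.toGL s)⁻¹ ∈ G) : (∀ g ∈ G, ∃ c : F, (g : Matrix (Fin n) (Fin n) F) = c • (1 : Matrix (Fin n) (Fin n) F)) ∨ (Matrix.SpecialLinearGroup.toGL : Matrix.SpecialLinearGroup (Fin n) F →* _).range ≤ G := by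
  rcases eq_or_ne n 1 with rfl | hn1
  · refine Or.inl fun g _ => ⟨g 0 0, ?_⟩
    ext i j
    simp [Subsingleton.elim i 0, Subsingleton.elim j 0]
  have : Nontrivial (Fin n) := Fin.nontrivial_iff_two_le.2 (by omega)
  have hS : commutator (SpecialLinearGroup (Fin n) F) = ⊤ := by
    rcases eq_or_ne n 2 with rfl | hn2
    · obtain ⟨a, ha⟩ := exists_orderOf_eq_of_dvd (K := F) dvd_rfl
      refine CL.SL.commutator_eq_top_of_sq_ne_one a.ne_zero fun h => hex ⟨rfl, ?_⟩
      have h1 : a ^ 2 = 1 := Units.ext h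
      have := Nat.le_of_dvd two_pos (orderOf_dvd_of_pow_eq_one h1)
      rw [ha, Nat.card_eq_fintype_card] at this
      omega
    · exact CL.SL.commutator_eq_top_of_three_le (by rw [Fintype.card_fin]; omega)
  have hsimple := CL.SL.psl_isSimpleGroup_of_perfect hS
  have hN : (G.comap (SpecialLinearGroup.toGL : SpecialLinearGroup (Fin n) F →* _)).Normal :=
    ⟨fun t ht s => by simpa using hG s _ ht⟩
  rcases (hN.map (QuotientGroup.mk' (Subgroup.center _))
    (QuotientGroup.mk'_surjective _)).eq_bot_or_eq_top with h | h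
  · left
    intro g hg
    have h1 := eq_of_perfect hS SpecialLinearGroup.toGL
      ((MulAut.conj g).toMonoidHom.comp SpecialLinearGroup.toGL) fun s => by
        have h2 := G.mul_mem (hG s⁻¹ g hg) (G.inv_mem hg)
        let t : SpecialLinearGroup (Fin n) F := ⟨(s⁻¹ : SpecialLinearGroup (Fin n) F) *
          ((g : Matrix (Fin n) (Fin n) F) * s * (g⁻¹ : GL (Fin n) F)), by
            rw [det_mul, det_mul, det_mul, s.det_coe, s⁻¹.det_coe, one_mul, mul_one, ← det_mul,
              Units.mul_inv, det_one]⟩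
        have h3 : SpecialLinearGroup.toGL t = (SpecialLinearGroup.toGL s)⁻¹ *
            (g * SpecialLinearGroup.toGL s * g⁻¹) := Units.ext rfl
        have h4 : t ∈ G.comap SpecialLinearGroup.toGL := by
          rw [Subgroup.mem_comap, h3]
          simpa [mul_assoc] using h2
        have h5 := (Subgroup.map_eq_bot_iff _).1 h h4
        rw [QuotientGroup.ker_mk', mem_center_sl_iff] at h5
        change (SpecialLinearGroup.toGL s)⁻¹ * (g * SpecialLinearGroup.toGL s * g⁻¹) ∈ _
        rw [← h3, mem_center_gl_iff]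
        exact h5
    obtain ⟨c, hc⟩ := Matrix.mem_range_scalar_of_commute_single (M := (g : Matrix (Fin n) (Fin n) F))
      fun i j hij => by
        have h2 : SpecialLinearGroup.toGL (SpecialLinearGroup.transvection hij (1 : F)) * g =
            g * SpecialLinearGroup.toGL (SpecialLinearGroup.transvection hij (1 : F)) := by
          rw [← eq_mul_inv_iff_mul_eq]
          exact h1 _
        have h3 := congrArg Units.val h2
        simp only [Units.val_mul, SpecialLinearGroup.coe_GL_coe_matrix,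
          SpecialLinearGroup.transvection_coe, add_mul, mul_add, one_mul, mul_one,
          add_right_inj] at h3
        exact h3
    exact ⟨c, by rw [← hc, Matrix.scalar_apply, Matrix.smul_one_eq_diagonal]⟩
  · right
    rintro _ ⟨s, rfl⟩
    exact (eq_top_of_map_eq_top hS _ h).ge (Subgroup.mem_top s)

end Cfsg.Agent.S2540
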