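import Cfsg.Statements.S2541


set_option autoImplicit false
open Cfsg

namespace Cfsg.Agent.S2541

theorem pow_sixty (σ : Equiv.Perm (Fin 6)) : σ ^ 60 = 1 := by
  classical
  rw [← orderOf_dvd_iff_pow_eq_one, ← Equiv.Perm.lcm_cycleType, Multiset.lcm_dvd]
  intro b hb
  have h1 := Equiv.Perm.two_le_of_mem_cycleType hb
  have h2 := Equiv.Perm.le_card_support_of_mem_cycleType hb
  have h3 : σ.support.card ≤ 6 := by simpa using Finset.card_le_univ σ.support
  have h4 : b ≤ 6 := h2.trans h3
  interval_cases b <;> norm_num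

/-- Let F be a field with 9 elements. The symmetric group S_6 is not isomorphic to PGL_2(F) (although both have index-2 subgroups isomorphic to A_6). -/
theorem result {F : Type*} [Field F] [Fintype F] (hF : Fintype.card F = 9) : ¬ Nonempty (Equiv.Perm (Fin 6) ≃* Matrix.ProjGenLinGroup (Fin 2) F) := by
  classical
  rintro ⟨e⟩
  obtain ⟨g, hg⟩ := IsCyclic.exists_generator (α := Fˣ)
  have ho : orderOf g = 8 := by
    rw [orderOf_eq_card_of_forall_mem_zpowers hg, Nat.card_eq_fintype_card, Fintype.card_units, hF]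
  let D : Fˣ →* GL (Fin 2) F :=
    { toFun := fun a => ⟨!![(a : F), 0; 0, 1], !![((a⁻¹ : Fˣ) : F), 0; 0, 1], by
        ext i j; fin_cases i <;> fin_cases j <;> simp [Matrix.mul_apply, Fin.sum_univ_two], by
        ext i j; fin_cases i <;> fin_cases j <;> simp [Matrix.mul_apply, Fin.sum_univ_two]⟩
      map_one' := by
        ext i j; fin_cases i <;> fin_cases j <;> simp
      map_mul' := fun a b => by
        ext i j; fin_cases i <;> fin_cases j <;> simp [Matrix.mul_apply, Fin.sum_univ_two] }
  have h1 : (Matrix.ProjGenLinGroup.mk (D g)) ^ 60 = 1 := by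
    obtain ⟨σ, hσ⟩ := e.surjective (Matrix.ProjGenLinGroup.mk (D g))
    rw [← hσ, ← map_pow, pow_sixty, map_one]
  rw [← map_pow, ← map_pow, Matrix.ProjGenLinGroup.mk_eq_one,
    Matrix.GeneralLinearGroup.center_eq_range_scalar] at h1
  obtain ⟨u, hu⟩ := h1
  have h00 := congrArg (fun M : GL (Fin 2) F => (M : Matrix (Fin 2) (Fin 2) F) 0 0) hu
  have h11 := congrArg (fun M : GL (Fin 2) F => (M : Matrix (Fin 2) (Fin 2) F) 1 1) hu
  simp [D] at h00 h11
  have h2 : g ^ 60 = 1 := by
    apply Units.ext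
    rw [h11] at h00
    simpa using h00.symm
  rw [← orderOf_dvd_iff_pow_eq_one, ho] at h2
  norm_num at h2

end Cfsg.Agent.S2541
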