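import Cfsg.Statements.S2542
import Cfsg.Agent.CLAS.PGL2A5
import Cfsg.Agent.CLAS.PGL2Solv
import Cfsg.Agent.S0675

set_option autoImplicit false
open Cfsg

namespace Cfsg.Agent.S2542

open CL.Dk CL.PGL2

/-- Let F be a field with 11 elements. PSL_2(F) has a subgroup H of index 11 isomorphic to the alternating group A_5, and the action of PSL_2(F) on the cosets of H is 2-transitive (of degree 11). -/
theorem result {F : Type*} [Field F] [Fintype F] (hF : Fintype.card F = 11) : ∃ H : Subgroup (Matrix.ProjectiveSpecialLinearGroup (Fin 2) F), H.index = 11 ∧ Nonempty (H ≃* alternatingGroup (Fin 5)) ∧ MulAction.IsMultiplyPretransitive (Matrix.ProjectiveSpecialLinearGroup (Fin 2) F) ((Matrix.ProjectiveSpecialLinearGroup (Fin 2) F) ⧸ H) 2 := by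
  classical
  have hq : Nat.card F = 11 := by rw [Nat.card_eq_fintype_card, hF]
  have hodd : Odd (Nat.card F) := by rw [hq]; decide
  obtain ⟨W, hW, ⟨e⟩⟩ := exists_alt_five_psl (two_ne_zero_of_odd hodd) (by rw [hq]; norm_num)
  have e' := (comapEquivOfLe psl2pgl_injective hW).trans e
  set H := W.comap (psl2pgl F)
  have hc := card_of_alt_five ⟨e'⟩
  have hG := card_pslIn_of_odd hodd
  rw [← Nat.card_congr (pslInEquiv F).toEquiv, ← H.card_mul_index, hc, hq] at hG
  have hi : H.index = 11 := by omega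
  refine ⟨H, hi, ⟨e'⟩, ?_⟩
  set G := Matrix.ProjectiveSpecialLinearGroup (Fin 2) F
  have := Fintype.ofFinite (G ⧸ H)
  have hcard : Fintype.card (G ⧸ H) = 11 := by rw [← Nat.card_eq_fintype_card, ← hi]; rfl
  let φ := MulAction.toPermHom G (G ⧸ H)
  have hs : IsSimpleGroup G :=
    Matrix.ProjectiveSpecialLinearGroup.rank_two_simple (F := F) (by omega)
  have hφ : Function.Injective φ := by
    rw [← MonoidHom.ker_eq_bot_iff]
    refine φ.normal_ker.eq_bot_or_eq_top.resolve_right fun h => ?_
    have : H = ⊤ := by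
      rw [eq_top_iff, ← h, ← Subgroup.normalCore_eq_ker]
      exact H.normalCore_le
    rw [this, Subgroup.index_top] at hi
    omega
  have htr : MulAction.IsPretransitive φ.range (G ⧸ H) := ⟨fun a b => by
    obtain ⟨g, hg⟩ := MulAction.exists_smul_eq G a b
    exact ⟨⟨φ g, g, rfl⟩, hg⟩⟩
  rcases Cfsg.Agent.S0675.result (by rw [hcard]; norm_num) φ.range with h | h
  · exact absurd (isSolvable_of_mulEquiv (MonoidHom.ofInjective hφ) h)
      (not_isSolvable_psl (by omega))
  · refine ⟨fun a b => ?_⟩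
    obtain ⟨⟨_, g, rfl⟩, hg⟩ := h.exists_smul_eq a b
    exact ⟨g, hg⟩

end Cfsg.Agent.S2542
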