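import Cfsg.Statements.S2543
import Cfsg.Agent.CLAS.PGL2A5

set_option autoImplicit false
open scoped Pointwise
open Cfsg

namespace Cfsg.Agent.S2543

open CL.Dk CL.PGL2

/-- Let F be a field with 11 elements. PSL_2(F) has exactly 22 subgroups isomorphic to the alternating group A_5, and they form two conjugacy classes: there are two such subgroups that are not conjugate, and every such subgroup is conjugate to one of these two. -/
theorem result {F : Type*} [Field F] [Fintype F] (hF : Fintype.card F = 11) : Nat.card {H : Subgroup (Matrix.ProjectiveSpecialLinearGroup (Fin 2) F) // Nonempty (H ≃* alternatingGroup (Fin 5))} = 22 ∧ ∃ H K : Subgroup (Matrix.ProjectiveSpecialLinearGroup (Fin 2) F), Nonempty (H ≃* alternatingGroup (Fin 5)) ∧ Nonempty (K ≃* alternatingGroup (Fin 5)) ∧ (∀ g : Matrix.ProjectiveSpecialLinearGroup (Fin 2) F, MulAut.conj g • H ≠ K) ∧ ∀ L : Subgroup (Matrix.ProjectiveSpecialLinearGroup (Fin 2) F), Nonempty (L ≃* alternatingGroup (Fin 5)) → ∃ g : Matrix.ProjectiveSpecialLinearGroup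 (Fin 2) F, MulAut.conj g • L = H ∨ MulAut.conj g • L = K := by
  have hq : Nat.card F = 11 := by rw [Nat.card_eq_fintype_card, hF]
  have hodd : Odd (Nat.card F) := by rw [hq]; decide
  have h2 := two_ne_zero_of_odd hodd
  obtain ⟨W, hW, e⟩ := exists_alt_five_psl h2 (by rw [hq]; norm_num)
  have hN := normalizer_eq_of_alt_five (by rw [hq]; norm_num) (by omega) e
  have ecj : ∀ h, Nonempty (cjs h W ≃* alternatingGroup (Fin 5)) := fun h =>
    ⟨(cjsEquiv h W).symm.trans e.some⟩
  have sm : ∀ (g : Matrix.ProjectiveSpecialLinearGroup (Fin 2) F)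
      (L : Subgroup (Matrix.ProjectiveSpecialLinearGroup (Fin 2) F)),
      MulAut.conj g • L = L.map (MulAut.conj g).toMonoidHom := fun g L => rfl
  constructor
  · rw [card_psl_subgroups_eq]
    have h1 := card_conjugates_mul_card_normalizer W
    rw [hN, card_of_alt_five e, card_PGL2, hq] at h1
    have h3 : Nat.card {V : Subgroup (Matrix.ProjGenLinGroup (Fin 2) F) //
        Nonempty (V ≃* alternatingGroup (Fin 5)) ∧ V ≤ pslIn F} =
        Nat.card {V : Subgroup (Matrix.ProjGenLinGroup (Fin 2) F) // ∃ h, V = cjs h W} := by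
      refine Nat.card_congr (Equiv.subtypeEquivRight fun V => ⟨fun h => ?_, ?_⟩)
      · exact exists_cjs_of_alt_five h2 e h.1
      · rintro ⟨h, rfl⟩
        exact ⟨ecj h, cjs_le_pslIn_iff.2 hW⟩
    omega
  · obtain ⟨t, ht⟩ := exists_not_mem_pslIn hodd
    have hW' : cjs t W ≤ pslIn F := cjs_le_pslIn_iff.2 hW
    refine ⟨W.comap (psl2pgl F), (cjs t W).comap (psl2pgl F),
      ⟨(comapEquivOfLe psl2pgl_injective hW).trans e.some⟩,
      ⟨(comapEquivOfLe psl2pgl_injective hW').trans (ecj t).some⟩, fun g hg => ?_,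
      fun L hL => ?_⟩
    · obtain ⟨g, hg, e⟩ := exists_conj_psl_iff.1 ⟨g, hg.symm.trans (sm g _)⟩
      rw [map_comap_psl2pgl hW, map_comap_psl2pgl hW'] at e
      have : g⁻¹ * t ∈ W := by
        rw [← hN]
        exact cjs_eq_iff_mem_normalizer.1 (by rw [cjs_mul, e, cjs_inv_cjs])
      exact ht ((Subgroup.mul_mem_cancel_left _ (inv_mem hg)).1 (hW this))
    · obtain ⟨g, hg⟩ := exists_cjs_of_alt_five h2 (H := L.map (psl2pgl F))
        ⟨(L.equivMapOfInjective _ psl2pgl_injective).symm.trans hL.some⟩ e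
      by_cases hg' : g ∈ pslIn F
      · obtain ⟨k, hk⟩ := (exists_conj_psl_iff (V := L) (W := W.comap (psl2pgl F))).2
          ⟨g, hg', by rw [map_comap_psl2pgl hW, hg]⟩
        exact ⟨k, Or.inl ((sm k L).trans hk.symm)⟩
      · obtain ⟨k, hk⟩ := (exists_conj_psl_iff (V := L) (W := (cjs t W).comap (psl2pgl F))).2
          ⟨t * g, by
            rw [Subgroup.mul_mem_iff_of_index_two (index_pslIn_of_odd hodd)]
            exact iff_of_false ht hg', by rw [map_comap_psl2pgl hW', cjs_mul, ← hg]⟩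
        exact ⟨k, Or.inr ((sm k L).trans hk.symm)⟩

end Cfsg.Agent.S2543
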