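import Cfsg.Statements.S2544
import Cfsg.Agent.KSG.GLnStSL
import Cfsg.Agent.CHAR.Quot
import Cfsg.Agent.BLK.DefZero
import Cfsg.Agent.BLK.GRoots

set_option autoImplicit false
open Cfsg

namespace Cfsg.Agent.S2544

open CL.GLn Matrix

theorem result {F : Type*} [Field F] [Fintype F] (p : ℕ) [Fact p.Prime] [CharP F p] (n : ℕ) (hn : 2 ≤ n) : ∃ χ : Matrix.ProjectiveSpecialLinearGroup (Fin n) F → ℂ, Cfsg.IsIrrCharacter (Matrix.ProjectiveSpecialLinearGroup (Fin n) F) χ ∧ ∀ P : Sylow p (Matrix.ProjectiveSpecialLinearGroup (Fin n) F), χ 1 = Nat.card P ∧ ∀ x : Matrix.ProjectiveSpecialLinearGroup (Fin n) F, x ∈ P → x ≠ 1 → χ x = 0 := by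
  classical
  have hp : p.Prime := Fact.out
  have : Nonempty (Fin n) := ⟨⟨0, by omega⟩⟩
  obtain ⟨χ, hχ, h⟩ := (isIrr_unipotentCharacterGL_toGL (F := F) (ν := fun _ : Fin n => 1) (by simp)
    monotone_const).exists_quot (Subgroup.center _) fun z hz => by
      rw [map_one]
      exact unipotentCharacterGL_center _ ((SpecialLinearGroup.toGL_mem_center_iff z).2 hz)
  have h1 : (Nat.card (ProjectiveSpecialLinearGroup (Fin n) F)).factorization p =
      (Nat.card (SpecialLinearGroup (Fin n) F)).factorization p := by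
    rw [← CL.SL.card_center_mul_card_PSL, Nat.factorization_mul Nat.card_pos.ne' Nat.card_pos.ne',
      Finsupp.add_apply, Nat.factorization_eq_zero_of_not_dvd (n := Nat.card (Subgroup.center _)),
      zero_add]
    rw [CL.SL.card_center_SL, Nat.card_eq_fintype_card]
    exact fun h => hp.not_dvd_one ((Nat.dvd_sub_iff_right Fintype.card_pos
      ((CharP.cast_eq_zero_iff F p _).1 (FiniteField.cast_card_eq_zero F))).1
      (h.trans (Nat.gcd_dvd_right _ _)))
  have h2 : χ 1 = (p ^ (Nat.card (ProjectiveSpecialLinearGroup (Fin n) F)).factorization p : ℕ) := by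
    rw [h1, ← card_uniSL_eq_pow, card_uniSL, Nat.cast_pow, ← steinberg_one]
    simpa using (congrFun h 1).symm
  obtain ⟨M, hM⟩ := CL.Glb.exists_isPModular hp
  refine ⟨χ, hχ, fun P => ⟨by rw [h2, P.card_eq_multiplicity], fun x hx hx1 => ?_⟩⟩
  refine CL.Blk.DefZero.vanish (χ := ⟨χ, hχ⟩) hM ((CL.Blk.defZero_iff_pow_dvd hp).2 ?_) ?_
  · exact (Nat.cast_injective (R := ℂ) (h2.symm.trans (CL.Blk.irr_one_eq ⟨χ, hχ⟩))).dvd
  · obtain ⟨k, hk⟩ := (IsPGroup.iff_orderOf.1 P.2) ⟨x, hx⟩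
    rw [← Subgroup.orderOf_coe] at hk
    rcases k with _ | k
    · exact absurd (orderOf_eq_one_iff.1 hk) hx1
    · exact hk ▸ dvd_pow_self p k.succ_ne_zero

end Cfsg.Agent.S2544
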