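import Cfsg.Statements.S2552


set_option autoImplicit false
open Cfsg

namespace Cfsg.Agent.S2552

/-- Let F be a finite field and n ≥ 1. For every k, the special linear group SL_n(F) acts transitively on the set of k-dimensional subspaces of F^n: any two subspaces of the same dimension are carried onto each other by some matrix of determinant 1. -/
theorem result {F : Type*} [Field F] [Fintype F] (n : ℕ) (hn : 1 ≤ n) (U₁ U₂ : Submodule F (Fin n → F)) (h : Module.finrank F U₁ = Module.finrank F U₂) : ∃ g : Matrix.SpecialLinearGroup (Fin n) F, U₁.map ((Matrix.SpecialLinearGroup.toLin' g : (Fin n → F) ≃ₗ[F] (Fin n → F)) : (Fin n → F) →ₗ[F] (Fin n → F)) = U₂ := by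
  classical
  obtain ⟨e, he⟩ := Submodule.exists_linearEquiv_restrict_eq (LinearEquiv.ofFinrankEq U₁ U₂ h)
  have hmap : U₁.map (e : (Fin n → F) →ₗ[F] (Fin n → F)) = U₂ := by
    apply Submodule.eq_of_le_of_finrank_eq
    · rintro _ ⟨x, hx, rfl⟩
      have := he ⟨x, hx⟩
      change e x ∈ U₂
      rw [← this]; exact Subtype.mem _
    · rw [LinearEquiv.finrank_map_eq, h]
  obtain ⟨v, hv0, hv⟩ : ∃ v : Fin n → F, v ≠ 0 ∧ (U₂ = ⊥ ∨ v ∈ U₂) := by
    by_cases hb : U₂ = ⊥
    · refine ⟨fun _ => 1, fun h0 => ?_, Or.inl hb⟩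
      exact one_ne_zero (congrFun h0 ⟨0, hn⟩)
    · obtain ⟨v, hv, hv0⟩ := Submodule.exists_mem_ne_zero_of_ne_bot hb
      exact ⟨v, hv0, Or.inr hv⟩
  obtain ⟨φ, hφ⟩ := Module.Projective.exists_dual_eq_one F hv0
  set d : F := LinearMap.det (e : (Fin n → F) →ₗ[F] (Fin n → F)) with hd
  have hd0 : d ≠ 0 := (LinearEquiv.isUnit_det' e).ne_zero
  have h1 : 1 + ((d⁻¹ - 1) • φ) v = d⁻¹ := by simp [hφ]
  have hu : IsUnit (1 + ((d⁻¹ - 1) • φ) v) := by
    rw [h1]; exact (inv_ne_zero hd0).isUnit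
  let t := LinearEquiv.dilatransvection hu
  have ht : U₂.map (t : (Fin n → F) →ₗ[F] (Fin n → F)) = U₂ := by
    apply Submodule.eq_of_le_of_finrank_eq
    · rcases hv with hv | hv
      · simp [hv]
      · rintro _ ⟨x, hx, rfl⟩
        change t x ∈ U₂
        rw [LinearEquiv.dilatransvection.apply]
        exact U₂.add_mem hx (U₂.smul_mem _ hv)
    · rw [LinearEquiv.finrank_map_eq]
  let L : (Fin n → F) →ₗ[F] (Fin n → F) :=
    (t : (Fin n → F) →ₗ[F] (Fin n → F)) ∘ₗ (e : (Fin n → F) →ₗ[F] (Fin n → F))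
  have hL : (LinearMap.toMatrix' L).det = 1 := by
    rw [LinearMap.det_toMatrix', LinearMap.det_comp, ← hd,
      LinearEquiv.dilatransvection.coe_toLinearMap, LinearMap.transvection.det, h1,
      inv_mul_cancel₀ hd0]
  refine ⟨⟨LinearMap.toMatrix' L, hL⟩, ?_⟩
  change U₁.map (Matrix.toLin' (LinearMap.toMatrix' L)) = U₂
  rw [Matrix.toLin'_toMatrix', Submodule.map_comp, hmap, ht]

end Cfsg.Agent.S2552
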