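import Mathlib
import Cfsg.Statements.S2561
import Cfsg.Agent.KSG.OrthF2

set_option autoImplicit false
open Cfsg

namespace Cfsg.Agent.S2561

open CL.Orth QuadraticMap


/-- Fix the non-singular alternating form on the 2m-dimensional space over the field of two elements obtained by polarizing the plus-type form Σ xᵢyᵢ (m ≥ 1). The functions q on the space with q(u + v) = q(u) + q(v) + f(u, v) (the quadratic forms polarizing to f) number 2^(2m); each is equivalent under an invertible linear map either to the plus-type form or to the minus-type form Σ xᵢyᵢ + (z₁² + z₁z₂ + z₂²); and those of plus type number 2^(2m−1) + 2^(m−1), those of minus type 2^(2m−1) − 2^(m−1). -/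
theorem result (m : ℕ) (hm : 1 ≤ m) :
    Nat.card {q : (Fin m ⊕ Fin m → ZMod 2) → ZMod 2 // (∀ u v : (Fin m ⊕ Fin m → ZMod 2), q (u + v) = q u + q v + (Cfsg.quadFormPlus m (ZMod 2) (u + v) - Cfsg.quadFormPlus m (ZMod 2) u - Cfsg.quadFormPlus m (ZMod 2) v))} = 2 ^ (2 * m) ∧
    (∀ q : (Fin m ⊕ Fin m → ZMod 2) → ZMod 2, (∀ u v : (Fin m ⊕ Fin m → ZMod 2), q (u + v) = q u + q v + (Cfsg.quadFormPlus m (ZMod 2) (u + v) - Cfsg.quadFormPlus m (ZMod 2) u - Cfsg.quadFormPlus m (ZMod 2) v)) →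
      (∃ g : (Fin m ⊕ Fin m → ZMod 2) ≃ₗ[ZMod 2] (Fin m ⊕ Fin m → ZMod 2), ∀ v, q v = Cfsg.quadFormPlus m (ZMod 2) (g v)) ∨
      (∃ g : (Fin m ⊕ Fin m → ZMod 2) ≃ₗ[ZMod 2] ((Fin (m - 1) ⊕ Fin (m - 1)) ⊕ Fin 2 → ZMod 2), ∀ v, q v = Cfsg.quadFormMinus (m - 1) (ZMod 2) 1 1 (g v))) ∧
    Nat.card {q : (Fin m ⊕ Fin m → ZMod 2) → ZMod 2 // (∀ u v : (Fin m ⊕ Fin m → ZMod 2), q (u + v) = q u + q v + (Cfsg.quadFormPlus m (ZMod 2) (u + v) - Cfsg.quadFormPlus m (ZMod 2) u - Cfsg.quadFormPlus m (ZMod 2) v)) ∧ ∃ g : (Fin m ⊕ Fin m → ZMod 2) ≃ₗ[ZMod 2] (Fin m ⊕ Fin m → ZMod 2), ∀ v, q v = Cfsg.quadFormPlus m (ZMod 2) (g v)} = 2 ^ (2 * m - 1) + 2 ^ (m - 1) ∧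
    Nat.card {q : (Fin m ⊕ Fin m → ZMod 2) → ZMod 2 // (∀ u v : (Fin m ⊕ Fin m → ZMod 2), q (u + v) = q u + q v + (Cfsg.quadFormPlus m (ZMod 2) (u + v) - Cfsg.quadFormPlus m (ZMod 2) u - Cfsg.quadFormPlus m (ZMod 2) v)) ∧ ∃ g : (Fin m ⊕ Fin m → ZMod 2) ≃ₗ[ZMod 2] ((Fin (m - 1) ⊕ Fin (m - 1)) ⊕ Fin 2 → ZMod 2), ∀ v, q v = Cfsg.quadFormMinus (m - 1) (ZMod 2) 1 1 (g v)} = 2 ^ (2 * m - 1) - 2 ^ (m - 1) := by
  obtain ⟨k, rfl⟩ : ∃ k, m = k + 1 := ⟨m - 1, by omega⟩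
  have hQ := QPlus_nondeg (k + 1) (ZMod 2)
  have hF : Fintype.card (ZMod 2) = 2 := ZMod.card 2
  have hcl : ∀ q : (Fin (k + 1) ⊕ Fin (k + 1) → ZMod 2) → ZMod 2,
      (∀ u v, q (u + v) = q u + q v + polar (QPlus (k + 1) (ZMod 2)) u v) →
      (∃ g : (Fin (k + 1) ⊕ Fin (k + 1) → ZMod 2) ≃ₗ[ZMod 2] (Fin (k + 1) ⊕ Fin (k + 1) → ZMod 2),
        ∀ v, q v = QPlus (k + 1) (ZMod 2) (g v)) ∨
      (∃ g : (Fin (k + 1) ⊕ Fin (k + 1) → ZMod 2) ≃ₗ[ZMod 2] ((Fin k ⊕ Fin k) ⊕ Fin 2 → ZMod 2),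
        ∀ v, q v = QMinus k (ZMod 2) 1 1 (g v)) := by
    intro q hq
    rcases even_classification (ofFunTwo_nondeg hQ q hq) (finrank_sum_fin _) zmod2_aniso with
      ⟨φ, hφ⟩ | ⟨φ, hφ⟩
    · exact Or.inl ⟨φ.symm, fun v => by rw [← hφ, φ.apply_symm_apply]; rfl⟩
    · exact Or.inr ⟨φ.symm, fun v => by rw [← hφ, φ.apply_symm_apply]; rfl⟩
  have hc : ∀ c, Nat.card {v // QPlus (k + 1) (ZMod 2) v = c} = _ :=
    CL.FormCount.card_quadFormPlus_eq hF (k + 1)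
  have hpos : 1 ≤ 2 ^ k := Nat.one_le_two_pow
  have hp2 : 2 ^ (2 * (k + 1) - 1) = 2 * 2 ^ k * 2 ^ k := by
    rw [show 2 * (k + 1) - 1 = k + k + 1 by omega]; ring
  have hp3 : (2 ^ (k + 1) - 1) * 2 ^ k = 2 * 2 ^ k * 2 ^ k - 2 ^ k := by
    rw [Nat.sub_mul]; ring_nf
  have hp4 : 2 ^ k ≤ 2 * 2 ^ k * 2 ^ k := Nat.le_mul_of_pos_left _ (by omega)
  refine ⟨?_, hcl, ?_, ?_⟩
  · refine (Nat.card_congr (twistEquiv hQ)).symm.trans ?_
    simp [two_mul]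
  · refine Eq.trans (Nat.card_congr ((Equiv.subtypeSubtypeEquivSubtypeInter _ _).symm.trans
      ((twistEquiv hQ).subtypeEquiv (p := fun w => QPlus (k + 1) (ZMod 2) w = 0)
        fun w => (exists_twist_iff hQ w).symm).symm)) ?_
    rw [hc, if_pos rfl, Nat.add_sub_cancel, hp2, hp3, pow_succ]
    omega
  · refine Eq.trans (Nat.card_congr ((Equiv.subtypeSubtypeEquivSubtypeInter _ _).symm.trans
      ((twistEquiv hQ).subtypeEquiv (p := fun w => QPlus (k + 1) (ZMod 2) w = 1)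
        fun w => ?_).symm)) ?_
    · constructor
      · intro h
        refine (hcl _ (twistEquiv hQ w).2).resolve_left fun h' => ?_
        rw [(exists_twist_iff hQ w).1 h'] at h
        exact zero_ne_one h
      · rintro ⟨g, hg⟩
        refine (zmod2_cases _).resolve_left fun h => ?_
        obtain ⟨g', hg'⟩ := (exists_twist_iff hQ w).2 h
        exact not_isPlus_QMinus zmod2_aniso (IsPlus.of_isom (g'.symm.trans g) (fun v => by
          have h1 := hg (g'.symm v)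
          rw [twistEquiv_apply, hg', g'.apply_symm_apply] at h1
          exact h1.symm) (isPlus_QPlus (k + 1)))
    · rw [hc, if_neg one_ne_zero, Nat.add_sub_cancel, hp2, hp3, zero_add]

end Cfsg.Agent.S2561
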