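import Mathlib
import Cfsg.Statements.S2563
import Cfsg.Agent.CLAS.OrthIsoPerm
import Cfsg.Agent.CLAS.FormCount
import Cfsg.Agent.KSG.OrthF2

set_option autoImplicit false
open Cfsg

namespace Cfsg.Agent.S2563

open CL.Orth CL.OrthE QuadraticMap

/-- The sign character of the field of two elements. -/
def chi (a : ZMod 2) : ℤ := if a = 0 then 1 else -1

theorem sum_chi {α : Type*} [Fintype α] (f : α → ZMod 2) :
    ∑ v, chi (f v) = 2 * (Nat.card {v // f v = 0} : ℤ) - Fintype.card α := by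
  classical
  have h : ∀ v, chi (f v) = 2 * (if f v = 0 then (1 : ℤ) else 0) - 1 := fun v => by
    unfold chi; split_ifs <;> simp
  simp only [h, Finset.sum_sub_distrib, ← Finset.mul_sum, Finset.sum_boole, Finset.sum_const,
    Finset.card_univ, nsmul_eq_mul, mul_one]
  rw [Nat.card_eq_fintype_card, Fintype.card_subtype]

theorem QA_cons (m : ℕ) (a : ZMod 2) (v : Fin m → ZMod 2) :
    QA (m + 1) (ZMod 2) (Fin.cons a v) = a * a + a * ∑ i, v i + QA m (ZMod 2) v := by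
  simp only [QA_apply, Fin.sum_univ_succ, Fin.cons_zero, Fin.cons_succ, le_refl, if_true,
    Fin.zero_le, Fin.succ_le_succ_iff, Finset.mul_sum]
  have : ∀ i : Fin m, ¬ (i.succ ≤ 0) := fun i => by simp
  simp [this]

theorem sum_cons (m : ℕ) (f : (Fin (m + 1) → ZMod 2) → ℤ) :
    ∑ v, f v = ∑ v : Fin m → ZMod 2, f (Fin.cons 0 v) + ∑ v : Fin m → ZMod 2, f (Fin.cons 1 v) := by
  rw [← (Fin.consEquiv fun _ => ZMod 2).sum_comp, Fintype.sum_prod_type]
  exact Fin.sum_univ_two _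

theorem sums (m : ℕ) :
    (∑ v, chi (QA (m + 1) (ZMod 2) v) = ∑ v, chi (QA m (ZMod 2) v) - ∑ v, chi (QA m (ZMod 2) v + ∑ i, v i)) ∧
    (∑ v, chi (QA (m + 1) (ZMod 2) v + ∑ i, v i) =
      ∑ v, chi (QA m (ZMod 2) v) + ∑ v, chi (QA m (ZMod 2) v + ∑ i, v i)) := by
  have h1 : ∀ a b : ZMod 2, chi (1 * 1 + 1 * a + b) = - chi (b + a) := by decide
  have h2 : ∀ a b : ZMod 2, chi (1 * 1 + 1 * a + b + (1 + a)) = chi b := by decide
  constructor
  · rw [sum_cons]
    simp only [QA_cons, h1, zero_mul, zero_add, Finset.sum_neg_distrib]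
    ring
  · rw [sum_cons]
    simp only [QA_cons, Fin.sum_univ_succ, Fin.cons_zero, Fin.cons_succ, h2, zero_mul, zero_add]
    ring

theorem sums' (k : ℕ) : ∑ v, chi (QA (4 * k + 2) (ZMod 2) v) = (-4) ^ k * (-2) ∧
    ∑ v, chi (QA (4 * k + 2) (ZMod 2) v + ∑ i, v i) = (-4) ^ k * 2 := by
  induction k with
  | zero =>
    have h0 : ∑ v, chi (QA 0 (ZMod 2) v) = 1 := by simp [QA_apply, chi]
    have h0' : ∑ v, chi (QA 0 (ZMod 2) v + ∑ i, v i) = 1 := by simp [QA_apply, chi]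
    obtain ⟨a1, b1⟩ := sums 0
    obtain ⟨a2, b2⟩ := sums (0 + 1)
    rw [h0, h0'] at a1 b1
    rw [a1, b1] at a2 b2
    exact ⟨a2.trans (by norm_num), b2.trans (by norm_num)⟩
  | succ k ih =>
    obtain ⟨a0, b0⟩ := ih
    obtain ⟨a1, b1⟩ := sums (4 * k + 2)
    obtain ⟨a2, b2⟩ := sums (4 * k + 2 + 1)
    obtain ⟨a3, b3⟩ := sums (4 * k + 2 + 1 + 1)
    obtain ⟨a4, b4⟩ := sums (4 * k + 2 + 1 + 1 + 1)
    rw [a0, b0] at a1 b1
    rw [a1, b1] at a2 b2
    rw [a2, b2] at a3 b3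
    rw [a3, b3] at a4 b4
    exact ⟨a4.trans (by ring), b4.trans (by ring)⟩

theorem sum_plus (m : ℕ) : 0 < ∑ v, chi (QPlus (m + 1) (ZMod 2) v) := by
  rw [sum_chi]
  have h := CL.FormCount.card_quadFormPlus_eq (F := ZMod 2) (q := 2) (by simp) (m + 1) 0
  have h' : Nat.card {v // QPlus (m + 1) (ZMod 2) v = 0} = _ := h
  rw [h']
  have h1 : 1 ≤ 2 ^ (m + 1) := Nat.one_le_two_pow
  simp only [if_true, Nat.add_sub_cancel, Fintype.card_fun, ZMod.card, Fintype.card_sum,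
    Fintype.card_fin]
  push_cast [h1]
  have : (0 : ℤ) < 2 ^ m := by positivity
  have e1 : (2 : ℤ) ^ (m + 1) = 2 * 2 ^ m := by ring
  have e2 : (2 : ℤ) ^ (m + 1 + (m + 1)) = 4 * 2 ^ m * 2 ^ m := by ring
  rw [e1, e2]; nlinarith

theorem sum_minus (m : ℕ) : ∑ v, chi (QMinus (m + 1) (ZMod 2) 1 1 v) < 0 := by
  rw [sum_chi]
  have h := CL.FormCount.card_quadFormMinus_eq (F := ZMod 2) (q := 2) (by simp) (m + 1) zmod2_aniso 0
  have h' : Nat.card {v // QMinus (m + 1) (ZMod 2) 1 1 v = 0} = _ := h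
  rw [h']
  have h1 : 1 ≤ 2 ^ (m + 1) := Nat.one_le_two_pow
  simp only [if_true, Nat.add_sub_cancel, Fintype.card_fun, ZMod.card, Fintype.card_sum,
    Fintype.card_fin]
  push_cast [h1]
  have : (0 : ℤ) < 2 ^ m := by positivity
  have e1 : (2 : ℤ) ^ (m + 1) = 2 * 2 ^ m := by ring
  have e2 : (2 : ℤ) ^ (m + 1 + (m + 1) + 2) = 16 * 2 ^ m * 2 ^ m := by ring
  rw [e1, e2]; nlinarith


/-- For k ≥ 1 the symmetric group of degree 4k + 4 embeds in a full orthogonal group in dimension 4k + 2 over the field of two elements: in the isometry group of the plus-type form Σ xᵢyᵢ when k is odd, and in that of the minus-type form Σ xᵢyᵢ + (z₁² + z₁z₂ + z₂²) when k is even (through its action on even partitions of a (4k+4)-set, with the form 'half the size of a part, modulo 2'). -/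
theorem result (k : ℕ) (hk : 1 ≤ k) :
    (Odd k → ∃ φ : Equiv.Perm (Fin (4 * k + 4)) →* ↥(Cfsg.isometryGroup (ZMod 2) (Cfsg.quadFormPlus (2 * k + 1) (ZMod 2))), Function.Injective φ) ∧
    (Even k → ∃ φ : Equiv.Perm (Fin (4 * k + 4)) →* ↥(Cfsg.isometryGroup (ZMod 2) (Cfsg.quadFormMinus (2 * k) (ZMod 2) 1 1)), Function.Injective φ) := by
  have hchar : ∀ n : ℕ, ((n : ℕ) : ZMod 2) = 0 ↔ 2 ∣ n := fun n => ZMod.natCast_eq_zero_iff n 2
  obtain ⟨φ, hφ⟩ := exists_hom_perm (F := ZMod 2) (m := 4 * k + 2) (k := (2 * k + 2) * (4 * k + 5))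
    (exists_natCast_of_card_prime Nat.prime_two (by simp)) (by ring)
    ((hchar _).2 ⟨2 * k + 2, by ring⟩) ((hchar _).2 ⟨(k + 1) * (4 * k + 5), by ring⟩) (by omega)
  have hnd : (polarBilin (QA (4 * k + 2) (ZMod 2))).Nondegenerate :=
    QA_nondeg (by rw [Ne, hchar]; omega)
  have hs := (sums' k).1
  obtain ⟨j, hj⟩ : ∃ j, 2 * k = j + 1 := ⟨2 * k - 1, by omega⟩
  have hcl := even_classification hnd (m := 2 * k) (by simp; ring) zmod2_aniso
  refine ⟨fun hk' => ?_, fun hk' => ?_⟩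
  · rcases hcl with ⟨e, he⟩ | ⟨e, he⟩
    · exact ⟨((toO (QPlus (2 * k + 1) (ZMod 2))).symm.toMonoidHom.comp
        (congrO e he).symm.toMonoidHom).comp φ,
        ((toO _).symm.injective.comp (congrO e he).symm.injective).comp hφ⟩
    · exfalso
      rw [← e.toEquiv.sum_comp] at hs
      simp only [LinearEquiv.coe_toEquiv, he] at hs
      have h1 : ∑ v, chi (QMinus (2 * k) (ZMod 2) 1 1 v) < 0 := by rw [hj]; exact sum_minus j
      rw [hs, hk'.neg_pow] at h1
      have : (0 : ℤ) < 4 ^ k := by positivity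
      linarith
  · rcases hcl with ⟨e, he⟩ | ⟨e, he⟩
    · exfalso
      rw [← e.toEquiv.sum_comp] at hs
      simp only [LinearEquiv.coe_toEquiv, he] at hs
      have h1 := sum_plus (2 * k)
      rw [hs, hk'.neg_pow] at h1
      have : (0 : ℤ) < 4 ^ k := by positivity
      linarith
    · exact ⟨((toO (QMinus (2 * k) (ZMod 2) 1 1)).symm.toMonoidHom.comp
        (congrO e he).symm.toMonoidHom).comp φ,
        ((toO _).symm.injective.comp (congrO e he).symm.injective).comp hφ⟩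

end Cfsg.Agent.S2563
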