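import Mathlib
import Cfsg.Statements.S2565
import Cfsg.Agent.CLAS.OrthIsoPerm
import Cfsg.Agent.KSG.OrthOmega

set_option autoImplicit false
open Cfsg

namespace Cfsg.Agent.S2565

open CL.Orth CL.OrthE QuadraticMap


/-- The commutator subgroup of the full orthogonal group of the plus-type form Σ xᵢyᵢ in dimension 6 over the field of two elements (the group Ω⁺₆(2), of index 2) is isomorphic to the alternating group of degree 8. -/
theorem result :
    (Cfsg.Omega (ZMod 2) (Cfsg.quadFormPlus 3 (ZMod 2))).index = 2 ∧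
    Nonempty (↥(Cfsg.Omega (ZMod 2) (Cfsg.quadFormPlus 3 (ZMod 2))) ≃* alternatingGroup (Fin 8)) := by
  obtain ⟨e⟩ := nonempty_O_QPlus_three_equiv (F := ZMod 2) (by simp)
  have h5 : 5 ≤ Nat.card (Fin 8) := by simp
  refine ⟨?_, ⟨?_⟩⟩
  · have h := index_Omega (R := QPlus 3 (ZMod 2))
    refine h.trans (index_commutator_of_two_eq_zero (QPlus_nondeg 3 _) rfl (Or.inr ?_) ?_) <;> simp
  · exact (commutatorCongr ((toO (QPlus 3 (ZMod 2))).trans e)).trans
      (MulEquiv.subgroupCongr (alternatingGroup.commutator_perm_eq h5))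

end Cfsg.Agent.S2565
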