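import Mathlib
import Cfsg.Statements.S2566
import Cfsg.Agent.CLAS.OrthIso4
import Cfsg.Agent.S0250

set_option autoImplicit false
open Cfsg

namespace Cfsg.Agent.S2566

open CL.Orth CL.OrthE QuadraticMap Matrix

theorem exists_transpose (F : Type*) [Field F] : ∃ τ : O (QPlus 2 F), τ * τ = 1 ∧
    ∀ v, mat2 F (τ.1 v) = (mat2 F v)ᵀ := by
  refine ⟨refl (QPlus 2 F) (Sum.elim ![0, 1] ![0, 1]), refl_mul_self _, fun v => ?_⟩
  rw [refl_apply, polar_QPlus, QPlus_apply, mat2_apply, mat2_apply]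
  ext i j
  fin_cases i <;> fin_cases j <;> simp [Fin.sum_univ_two]

theorem abstract {G H K : Type*} [Group G] [Group H] [Group K] [Finite H] (e : H ≃* K) (φ : H × H →* G)
    (hφ : Function.Injective φ) (hc : Nat.card G = 2 * (Nat.card H * Nat.card H)) (τ : G)
    (hτ : ∀ a b, τ * φ (a, b) * τ⁻¹ = φ (b, a)) :
    ∃ A B : Subgroup G, Nonempty (A ≃* K) ∧ Nonempty (B ≃* K) ∧ A ⊓ B = ⊥ ∧
      (∀ a ∈ A, ∀ b ∈ B, a * b = b * a) ∧ (A ⊔ B).index = 2 ∧
      ∃ g : G, A.map (MulAut.conj g).toMonoidHom = B := by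
  have i1 : Function.Injective (φ.comp (MonoidHom.inl H H)) := fun a b h => congrArg Prod.fst (hφ h)
  have i2 : Function.Injective (φ.comp (MonoidHom.inr H H)) := fun a b h => congrArg Prod.snd (hφ h)
  refine ⟨(φ.comp (MonoidHom.inl H H)).range, (φ.comp (MonoidHom.inr H H)).range,
    ⟨(MonoidHom.ofInjective i1).symm.trans e⟩,
    ⟨(MonoidHom.ofInjective i2).symm.trans e⟩, ?_, ?_, ?_, τ, ?_⟩
  · rw [eq_bot_iff]
    rintro x ⟨⟨a, rfl⟩, ⟨b, hb⟩⟩
    have := congrArg Prod.fst (hφ hb)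
    simp only [MonoidHom.inr_apply, MonoidHom.inl_apply] at this
    rw [← this, map_one]; exact Subgroup.one_mem _
  · rintro _ ⟨a, rfl⟩ _ ⟨b, rfl⟩
    simp only [MonoidHom.comp_apply, ← map_mul]
    simp
  · have h1 : (φ.comp (MonoidHom.inl H H)).range ⊔ (φ.comp (MonoidHom.inr H H)).range = φ.range := by
      apply le_antisymm
      · exact sup_le (by rintro _ ⟨a, rfl⟩; exact ⟨_, rfl⟩) (by rintro _ ⟨a, rfl⟩; exact ⟨_, rfl⟩)
      · rintro _ ⟨⟨a, b⟩, rfl⟩
        have : φ (a, b) = φ.comp (MonoidHom.inl H H) a * φ.comp (MonoidHom.inr H H) b := by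
          simp only [MonoidHom.comp_apply, ← map_mul]; simp
        rw [this]
        exact Subgroup.mul_mem_sup ⟨a, rfl⟩ ⟨b, rfl⟩
    rw [h1]
    have h2 := φ.range.index_mul_card
    rw [← Nat.card_congr (MonoidHom.ofInjective hφ).toEquiv, Nat.card_prod, hc] at h2
    have h3 : 0 < Nat.card H * Nat.card H := Nat.mul_pos Nat.card_pos Nat.card_pos
    exact Nat.eq_of_mul_eq_mul_right h3 h2
  · ext x
    constructor
    · rintro ⟨_, ⟨a, rfl⟩, rfl⟩
      exact ⟨a, (hτ a 1).symm⟩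
    · rintro ⟨a, rfl⟩
      exact ⟨_, ⟨a, rfl⟩, hτ a 1⟩


/-- The full orthogonal group of the plus-type form x₁y₁ + x₂y₂ in dimension 4 over the field of two elements has order 72 and is isomorphic to the wreath product of the symmetric group of degree 3 by a group of order 2: it has a normal subgroup isomorphic to the direct product of two symmetric groups of degree 3, of index 2, whose two direct factors are interchanged by conjugation by some element. -/
theorem result :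
    Nat.card ↥(Cfsg.isometryGroup (ZMod 2) (Cfsg.quadFormPlus 2 (ZMod 2))) = 72 ∧
    ∃ (A B : Subgroup ↥(Cfsg.isometryGroup (ZMod 2) (Cfsg.quadFormPlus 2 (ZMod 2)))),
      Nonempty (↥A ≃* Equiv.Perm (Fin 3)) ∧ Nonempty (↥B ≃* Equiv.Perm (Fin 3)) ∧ A ⊓ B = ⊥ ∧ (∀ a ∈ A, ∀ b ∈ B, a * b = b * a) ∧
      (A ⊔ B).index = 2 ∧ ∃ g : ↥(Cfsg.isometryGroup (ZMod 2) (Cfsg.quadFormPlus 2 (ZMod 2))), A.map (MulAut.conj g).toMonoidHom = B := by
  have hc : Nat.card ↥(Cfsg.isometryGroup (ZMod 2) (Cfsg.quadFormPlus 2 (ZMod 2))) = 72 := by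
    have h := card_O_QPlus (F := ZMod 2) (q := 2) (by simp) 1
    exact (Nat.card_congr (toO (QPlus 2 (ZMod 2))).toEquiv).trans (h.trans (by simp))
  refine ⟨hc, ?_⟩
  obtain ⟨e⟩ := Cfsg.Agent.S0250.result (F := ZMod 2) (by simp)
  obtain ⟨φ, hφ⟩ := exists_hom_QPlus_two (F := ZMod 2)
  obtain ⟨τ, hτ1, hτ⟩ := exists_transpose (ZMod 2)
  have hinj : Function.Injective φ := by
    rw [injective_iff_map_eq_one]
    intro g hg
    rcases eq_or_of_fix_mat2 (g := g) (fun X => by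
      rw [← mat2_elim X, ← hφ, hg]; rfl) with h | h
    · exact h
    · rw [h, neg_one_eq_one_SL rfl]; rfl
  have hH : Nat.card (Matrix.SpecialLinearGroup (Fin 2) (ZMod 2)) = 6 := by
    rw [Nat.card_congr e.toEquiv, Nat.card_perm]; simp [Nat.factorial]
  refine abstract e ((toO (QPlus 2 (ZMod 2))).symm.toMonoidHom.comp φ)
    ((toO _).symm.injective.comp hinj) (hc.trans (by rw [hH])) ((toO (QPlus 2 (ZMod 2))).symm τ) fun a b => ?_
  suffices h : τ * φ (a, b) * τ⁻¹ = φ (b, a) by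
    have := congrArg (toO (QPlus 2 (ZMod 2))).symm h
    rw [map_mul, map_mul, map_inv] at this
    exact this
  rw [inv_eq_of_mul_eq_one_right hτ1]
  refine O_ext fun v => mat2_injective ?_
  rw [O_mul_apply, O_mul_apply, hτ, hφ, hτ, hφ]
  simp [Matrix.transpose_mul, Matrix.mul_assoc]

end Cfsg.Agent.S2566
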