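import Cfsg.Statements.S2567


set_option autoImplicit false
open Cfsg

namespace Cfsg.Agent.S2567

/-- Lifting elements of prime order from PGL to GL: let F be a finite field with q elements, r a prime not dividing q − 1, and x an element of order r in GL_n(F) modulo its centre (the scalar matrices). Then x has exactly one preimage in GL_n(F) of order r. -/
theorem result {F : Type*} [Field F] [Fintype F] {q n r : ℕ} (hF : Fintype.card F = q) (hr : r.Prime) (hdiv : ¬ r ∣ q - 1) (x : GL (Fin n) F ⧸ Subgroup.center (GL (Fin n) F)) (hx : orderOf x = r) : ∃! g : GL (Fin n) F, (QuotientGroup.mk g : GL (Fin n) F ⧸ Subgroup.center (GL (Fin n) F)) = x ∧ orderOf g = r := by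
  classical
  have := Fact.mk hr
  have hZpow : ∀ z ∈ Subgroup.center (GL (Fin n) F), z ^ (q - 1) = 1 := by
    intro z hz
    rw [Matrix.GeneralLinearGroup.center_eq_range_scalar] at hz
    obtain ⟨u, rfl⟩ := hz
    rw [← map_pow, ← hF, ← Fintype.card_units, pow_card_eq_one, map_one]
  have hcop : Nat.Coprime r (q - 1) := (Nat.Prime.coprime_iff_not_dvd hr).mpr hdiv
  have hx1 : x ≠ 1 := by
    rintro rfl
    rw [orderOf_one] at hx
    exact hr.one_lt.ne hx
  obtain ⟨g, rfl⟩ := QuotientGroup.mk_surjective x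
  have hgr : g ^ r ∈ Subgroup.center (GL (Fin n) F) := by
    rw [← QuotientGroup.eq_one_iff, QuotientGroup.mk_pow, ← hx, pow_orderOf_eq_one]
  obtain ⟨k, hk⟩ : ∃ k : ℕ, ((q - 1) * k) % r = 1 := by
    obtain ⟨k, -, hk⟩ := Nat.exists_mul_mod_eq_one_of_coprime hcop.symm hr.one_lt
    exact ⟨k, hk⟩
  have hmk : (QuotientGroup.mk (g ^ ((q - 1) * k)) : GL (Fin n) F ⧸ Subgroup.center (GL (Fin n) F)) = QuotientGroup.mk g := by
    rw [QuotientGroup.mk_pow, ← pow_mod_orderOf, hx, hk, pow_one]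
  refine ⟨g ^ ((q - 1) * k), ⟨hmk, ?_⟩, ?_⟩
  · apply orderOf_eq_prime
    · rw [← pow_mul, mul_comm, pow_mul, pow_mul, hZpow _ hgr, one_pow]
    · intro h1
      rw [h1] at hmk
      exact hx1 hmk.symm
  · rintro y ⟨hy, hyr⟩
    rw [QuotientGroup.eq] at hy
    have hz : g = y * (y⁻¹ * g) := by group
    have hc : Commute y (y⁻¹ * g) := (Subgroup.mem_center_iff.mp hy y)
    rw [hz, hc.mul_pow, pow_mul (y⁻¹ * g), hZpow _ hy, one_pow, mul_one, ← pow_mod_orderOf, hyr,
      hk, pow_one]

end Cfsg.Agent.S2567
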