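import Cfsg.Statements.S2568
import Cfsg.Agent.KSG.GLnTori

set_option autoImplicit false
open Cfsg

namespace Cfsg.Agent.S2568

open CL.GLn Polynomial

theorem result {F : Type*} [Field F] [Fintype F] {p q : ℕ} [Fact p.Prime] [CharP F p] (hF : Fintype.card F = q) (n r i t : ℕ) (hr : r.Prime) (hrp : r ≠ p) (hi : i = orderOf (q : ZMod r)) (ht : t * i = r - 1) : Nat.card {C : ConjClasses (GL (Fin n) F) // ∃ g : GL (Fin n) F, ConjClasses.mk g = C ∧ orderOf g = r} = Nat.choose (n / i + t) t - 1 := by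
  classical
  subst hF
  have := Fact.mk hr
  have hp : p.Prime := Fact.out
  have hcop : p.Coprime r := (Nat.coprime_primes hp hr).2 hrp.symm
  have hr0 : (r : F) ≠ 0 := natCast_ne_zero_of_coprime p hcop.symm
  have hi0 : 0 < i := by
    rcases Nat.eq_zero_or_pos i with h | h
    · rw [h, mul_zero] at ht
      have := hr.two_le
      omega
    · exact h
  have hT : (cycFactors F r).card = t := by
    rw [card_cycFactors p hcop, Nat.totient_prime hr, ← hi, ← ht, Nat.mul_div_cancel _ hi0]
  have hdeg : ∀ P ∈ cycFactors F r, P.natDegree = i := fun P hP => by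
    rw [hi]
    exact natDegree_of_dvd_cyclotomic p hcop (mem_cycFactors.1 hP).1 (mem_cycFactors.1 hP).2.2
  -- the elementary divisors attached to a multiset of non-trivial factors
  let ed : Multiset F[X] → Multiset (F[X] × ℕ) := fun m =>
    (m + Multiset.replicate (n - i * m.card) (X - 1)).map fun P => (P, 1)
  let inv : GL (Fin n) F → Multiset F[X] := fun g =>
    ((elemDiv (Matrix.toLin' (g : Matrix (Fin n) (Fin n) F))).map Prod.fst).filter (· ≠ X - 1)
  have hsum : ∀ m : Multiset F[X], (∀ P ∈ m, P ∈ cycFactors F r) → ∀ k,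
      (((m + Multiset.replicate k (X - 1)).map fun P => ((P, 1) : F[X] × ℕ)).map
        fun x : F[X] × ℕ => x.2 * x.1.natDegree).sum = i * m.card + k := by
    intro m hm k
    have h1 : (m.map natDegree) = Multiset.replicate m.card i := by
      rw [Multiset.map_congr rfl fun P hP => hdeg P (hm P hP)]
      simp
    have h2 : (X - 1 : F[X]).natDegree = 1 := natDegree_X_sub_C 1
    simp [h1, h2, mul_comm]
  have hA : ∀ g : GL (Fin n) F, orderOf g = r →
      elemDiv (Matrix.toLin' (g : Matrix (Fin n) (Fin n) F)) = ed (inv g) ∧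
      ((∀ P ∈ inv g, P ∈ cycFactors F r) ∧ (inv g).card ≤ n / i) ∧ inv g ≠ 0 := by
    intro g hg
    have hs := hasED_elemDiv (Matrix.toLin' (g : Matrix (Fin n) (Fin n) F))
    set s := elemDiv (Matrix.toLin' (g : Matrix (Fin n) (Fin n) F)) with hsdef
    have hss := hs.isSemisimple_iff.1 (isSemisimple_of_coprime_orderOf p
      (Units.coeHom (Matrix (Fin n) (Fin n) F)) (g := g) (by rw [hg]; exact hcop.symm))
    have h1 := (hs.matrix_pow_eq_one_iff r).1 (by
      rw [← Units.val_pow_eq_pow_val, ← hg, pow_orderOf_eq_one, Units.val_one])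
    have h2 : ∀ P ∈ inv g, P ∈ cycFactors F r := by
      intro P hP
      obtain ⟨hP1, hP2⟩ := Multiset.mem_filter.1 hP
      obtain ⟨x, hx, rfl⟩ := Multiset.mem_map.1 hP1
      have h3 := h1 x hx
      rw [hss x hx, pow_one] at h3
      exact ((dvd_X_pow_sub_one_iff (hs.1 x hx).2.1 (hs.1 x hx).1).1 h3).resolve_left hP2
    have h3 : s = (inv g + Multiset.replicate ((s.map Prod.fst).count (X - 1)) (X - 1)).map
        fun P => (P, 1) := by
      rw [← Multiset.filter_eq', add_comm]
      change s = (_ + (s.map Prod.fst).filter fun P => ¬ P = X - 1).map _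
      rw [Multiset.filter_add_not, Multiset.map_map]
      conv_lhs => rw [← Multiset.map_id s]
      exact Multiset.map_congr rfl fun x hx => Prod.ext rfl (hss x hx)
    have h4 := hs.finrank_eq
    rw [h3, hsum _ h2, Module.finrank_fin_fun] at h4
    have h5 : (s.map Prod.fst).count (X - 1) = n - i * (inv g).card := by omega
    refine ⟨by rw [h3, h5], ⟨h2, ?_⟩, fun h0 => ?_⟩
    · rw [Nat.le_div_iff_mul_le hi0, mul_comm]
      omega
    · have h6 : (g : Matrix (Fin n) (Fin n) F) ^ 1 = 1 := by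
        rw [hs.matrix_pow_eq_one_iff, h3, h0]
        intro x hx
        obtain ⟨P, hP, rfl⟩ := Multiset.mem_map.1 hx
        rw [zero_add] at hP
        rw [Multiset.eq_of_mem_replicate hP]
        simp
      rw [pow_one, Units.val_eq_one] at h6
      rw [h6, orderOf_one] at hg
      exact hr.one_lt.ne hg
  rw [card_conjClasses_eq (fun g : GL (Fin n) F => orderOf g = r) inv
    (fun m => ((∀ P ∈ m, P ∈ cycFactors F r) ∧ m.card ≤ n / i) ∧ m ≠ 0)]
  · rw [← hT, ← card_multiset_le]
    have hfin : Finite {m : Multiset F[X] // (∀ a ∈ m, a ∈ cycFactors F r) ∧ m.card ≤ n / i} :=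
      Nat.finite_of_card_ne_zero (by
        rw [card_multiset_le]; exact (Nat.choose_pos (Nat.le_add_left _ _)).ne')
    have := Fintype.ofFinite
      {m : Multiset F[X] // (∀ a ∈ m, a ∈ cycFactors F r) ∧ m.card ≤ n / i}
    let z : {m : Multiset F[X] // (∀ a ∈ m, a ∈ cycFactors F r) ∧ m.card ≤ n / i} :=
      ⟨0, by simp, by simp⟩
    have e : {m : Multiset F[X] // ((∀ P ∈ m, P ∈ cycFactors F r) ∧ m.card ≤ n / i) ∧ m ≠ 0} ≃
        {m // ¬ m = z} :=
      { toFun := fun m => ⟨⟨m.1, m.2.1⟩, fun h => m.2.2 (congrArg Subtype.val h)⟩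
        invFun := fun m => ⟨m.1.1, m.1.2, fun h => m.2 (Subtype.ext h)⟩
        left_inv := fun _ => rfl
        right_inv := fun _ => rfl }
    rw [Nat.card_congr e, Nat.card_eq_fintype_card, Nat.card_eq_fintype_card,
      Fintype.card_subtype_compl, Fintype.card_subtype_eq]
  · intro g h hg hh
    rw [isConj_units_iff, isConj_iff_elemDiv_eq]
    refine ⟨fun h1 => ?_, fun h1 => by rw [(hA g hg).1, (hA h hh).1, h1]⟩
    simp only [inv, h1]
  · exact fun g hg => (hA g hg).2
  · rintro m ⟨⟨h1, h2⟩, h3⟩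
    rw [Nat.le_div_iff_mul_le hi0, mul_comm] at h2
    have hmem : ∀ x ∈ ed m, x.2 = 1 ∧ (x.1 = X - 1 ∨ x.1 ∈ cycFactors F r) := by
      intro x hx
      obtain ⟨P, hP, rfl⟩ := Multiset.mem_map.1 hx
      refine ⟨rfl, ?_⟩
      rcases Multiset.mem_add.1 hP with h | h
      · exact Or.inr (h1 P h)
      · exact Or.inl (Multiset.eq_of_mem_replicate h)
    have hed : IsED (ed m) := by
      intro x hx
      obtain ⟨h4, h5 | h5⟩ := hmem x hx
      · exact ⟨h5 ▸ monic_X_sub_C 1, h5 ▸ irreducible_X_sub_C 1, by omega⟩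
      · exact ⟨(mem_cycFactors.1 h5).2.1, (mem_cycFactors.1 h5).1, by omega⟩
    obtain ⟨A, hAs⟩ := exists_matrix_hasED (n := Fin n) hed (by
      rw [hsum m h1, Fintype.card_fin]; omega)
    have hAr : A ^ r = 1 := by
      rw [hAs.matrix_pow_eq_one_iff]
      intro x hx
      rw [(hmem x hx).1, pow_one]
      exact (dvd_X_pow_sub_one_iff (hed x hx).2.1 (hed x hx).1).2 (hmem x hx).2
    let g : GL (Fin n) F := (IsUnit.of_pow_eq_one hAr hr.ne_zero).unit
    have hg : (g : Matrix (Fin n) (Fin n) F) = A := rfl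
    have hX := X_sub_one_notMem_cycFactors hr0
    refine ⟨g, ?_, ?_⟩
    · rw [orderOf_eq_prime_iff]
      refine ⟨Units.ext (by rw [Units.val_pow_eq_pow_val]; exact hAr), fun h => ?_⟩
      obtain ⟨P, hP⟩ := Multiset.exists_mem_of_ne_zero h3
      have h4 := (hAs.matrix_pow_eq_one_iff 1).1 (by rw [pow_one, ← hg, h, Units.val_one]) (P, 1)
        (Multiset.mem_map_of_mem _ (Multiset.mem_add.2 (Or.inl hP)))
      simp only [pow_one] at h4
      have h5 := mem_cycFactors.1 (h1 P hP)
      have h6 : P = X - 1 := eq_of_monic_of_associated h5.2.1 (monic_X_sub_C 1)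
        (h5.1.associated_of_dvd (irreducible_X_sub_C 1) h4)
      exact hX (h6 ▸ h1 P hP)
    · simp only [inv, hg, hAs.elemDiv_eq, ed, Multiset.map_map, Function.comp_def,
        Multiset.map_id', Multiset.filter_add]
      rw [(Multiset.filter_eq_self (p := fun x => x ≠ X - 1)).2
          fun P hP (h : P = X - 1) => hX (h ▸ h1 P hP),
        Multiset.filter_eq_nil.2 fun P hP h => h (Multiset.eq_of_mem_replicate hP), add_zero]

end Cfsg.Agent.S2568
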