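import Cfsg.Statements.S2569
import Cfsg.Agent.KSG.GLnSemisimple

set_option autoImplicit false
open Cfsg

namespace Cfsg.Agent.S2569

open CL.GLn

theorem result {F : Type*} [Field F] [Fintype F] {p : ℕ} [Fact p.Prime] [CharP F p] {n : ℕ} (x g : GL (Fin n) F) (hx : (orderOf x).Coprime p) : ∃ h : GL (Fin n) F, (h : Matrix (Fin n) (Fin n) F).det = 1 ∧ h * x * h⁻¹ = g * x * g⁻¹ := by
  rcases Nat.eq_zero_or_pos n with rfl | hn
  · exact ⟨1, by simp, Units.ext (Subsingleton.elim _ _)⟩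
  have : Nonempty (Fin n) := ⟨⟨0, hn⟩⟩
  have h1 := isSemisimple_of_coprime_orderOf p (Units.coeHom (Matrix (Fin n) (Fin n) F)) hx
  have h2 : IsConj x (g * x * g⁻¹) := isConj_iff.2 ⟨g, rfl⟩
  obtain ⟨h, h3, h4⟩ := exists_conj_det ((isConj_units_iff _ _).1 h2)
    (exists_gl_commute_det_of_isSemisimple h1) one_ne_zero
  refine ⟨h, h4, ?_⟩
  rw [mul_inv_eq_iff_eq_mul]
  exact Units.ext h3

end Cfsg.Agent.S2569
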