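import Cfsg.Statements.S2570
import Cfsg.Agent.KSG.GLnJordan

set_option autoImplicit false
open Cfsg

namespace Cfsg.Agent.S2570

open CL.GLn

theorem result {F : Type*} [Field F] [Fintype F] {p : ℕ} [Fact p.Prime] [CharP F p] (n : ℕ) : Nat.card {C : ConjClasses (GL (Fin n) F) // ∃ g : GL (Fin n) F, ConjClasses.mk g = C ∧ orderOf g = p} = (Finset.univ.filter (fun μ : Nat.Partition n => ∀ a ∈ μ.parts, a ≤ p)).card - 1 := by
  classical
  have hp : p.Prime := Fact.out
  let inv : GL (Fin n) F → Multiset ℕ := fun g =>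
    (elemDiv (Matrix.toLin' (g : Matrix (Fin n) (Fin n) F))).map Prod.snd
  have hinv : ∀ (g : GL (Fin n) F) (μ : Multiset ℕ),
      HasJT (Matrix.toLin' (g : Matrix (Fin n) (Fin n) F)) 1 μ → inv g = μ := by
    intro g μ h
    simp [inv, HasED.elemDiv_eq h]
  have hord : ∀ g : GL (Fin n) F, orderOf g = p ↔
      ((g : Matrix (Fin n) (Fin n) F) - 1) ^ p = 0 ∧
        ¬ ((g : Matrix (Fin n) (Fin n) F) - 1) ^ 1 = 0 := by
    intro g
    have h1 := pow_char_pow_eq_one_iff F p (g : Matrix (Fin n) (Fin n) F) 1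
    rw [pow_one] at h1
    rw [orderOf_eq_prime_iff, ← h1, pow_one, sub_eq_zero, ← Units.val_pow_eq_pow_val,
      Units.val_eq_one, Units.val_eq_one]
  have key := card_conjClasses_eq (fun g : GL (Fin n) F => orderOf g = p) inv
    (fun μ => ((∀ e ∈ μ, 0 < e) ∧ μ.sum = n) ∧ (∀ e ∈ μ, e ≤ p) ∧ ¬ ∀ e ∈ μ, e ≤ 1) ?_ ?_ ?_
  · let one : Nat.Partition n := ⟨Multiset.replicate n 1, fun {i} hi => by
      rw [Multiset.eq_of_mem_replicate hi]; exact one_pos, by simp⟩
    have hone : one ∈ Finset.univ.filter (fun μ : Nat.Partition n => ∀ a ∈ μ.parts, a ≤ p) := by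
      simp only [Finset.mem_filter, Finset.mem_univ, true_and]
      intro a ha
      rw [Multiset.eq_of_mem_replicate ha]
      exact hp.one_le
    have h1 : ∀ P : Nat.Partition n, P = one ↔ ∀ e ∈ P.parts, e ≤ 1 := by
      intro P
      constructor
      · rintro rfl e he
        rw [Multiset.eq_of_mem_replicate he]
      · intro h
        have h2 : P.parts = Multiset.replicate P.parts.card 1 :=
          Multiset.eq_replicate_card.2 fun e he => le_antisymm (h e he) (P.parts_pos he)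
        have h3 := P.parts_sum
        rw [h2] at h3
        simp only [Multiset.sum_replicate, smul_eq_mul, mul_one] at h3
        ext1
        rw [h2, h3]
    rw [key, ← Finset.card_erase_of_mem hone, ← Nat.card_eq_finsetCard]
    exact Nat.card_congr
      { toFun := fun μ => ⟨⟨μ.1, fun {i} hi => μ.2.1.1 i hi, μ.2.1.2⟩, by
          simp only [Finset.mem_erase, Finset.mem_filter, Finset.mem_univ, true_and, Ne, h1]
          exact ⟨μ.2.2.2, μ.2.2.1⟩⟩
        invFun := fun P => ⟨P.1.parts, ⟨fun _ hi => P.1.parts_pos hi, P.1.parts_sum⟩, by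
          have := P.2
          simp only [Finset.mem_erase, Finset.mem_filter, Finset.mem_univ, true_and, Ne, h1] at this
          exact ⟨this.2, this.1⟩⟩
        left_inv := fun _ => rfl
        right_inv := fun _ => rfl }
  · intro g h hg hh
    obtain ⟨μ, hμ⟩ := exists_hasJT_one ⟨_, ((hord g).1 hg).1⟩
    obtain ⟨ν, hν⟩ := exists_hasJT_one ⟨_, ((hord h).1 hh).1⟩
    rw [isConj_units_iff, hinv g μ hμ, hinv h ν hν]
    exact hμ.isConj_iff hν
  · intro g hg
    obtain ⟨μ, hμ⟩ := exists_hasJT_one ⟨_, ((hord g).1 hg).1⟩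
    rw [hinv g μ hμ, ← hμ.sub_one_pow_eq_zero_iff, ← hμ.sub_one_pow_eq_zero_iff]
    exact ⟨⟨hμ.pos, by simpa using hμ.sum_eq_card⟩, (hord g).1 hg⟩
  · rintro μ ⟨⟨h1, h2⟩, h3⟩
    obtain ⟨A, hA⟩ := exists_matrix_hasJT (n := Fin n) (1 : F) h1 (by simpa using h2)
    let g : GL (Fin n) F := Matrix.GeneralLinearGroup.mkOfDetNeZero A
      (by rw [hA.det_eq_one]; exact one_ne_zero)
    rw [← hA.sub_one_pow_eq_zero_iff, ← hA.sub_one_pow_eq_zero_iff] at h3
    exact ⟨g, (hord g).2 h3, hinv g μ hA⟩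

end Cfsg.Agent.S2570
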