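import Cfsg.Statements.S2571
import Cfsg.Agent.KSG.GLnCentJordan

set_option autoImplicit false
open Cfsg

namespace Cfsg.Agent.S2571

open CL.GLn

theorem result {F : Type*} [Field F] [Fintype F] {q n : ℕ} (hF : Fintype.card F = q) (hn : 1 ≤ n) (u : GL (Fin n) F) (hnil : ((u : Matrix (Fin n) (Fin n) F) - 1) ^ n = 0) (hreg : ((u : Matrix (Fin n) (Fin n) F) - 1).rank = n - 1) : Nat.card ↥(Subgroup.centralizer ({u} : Set (GL (Fin n) F))) = (q - 1) * q ^ (n - 1) := by
  subst hF
  have : Nonempty (Fin n) := ⟨⟨0, hn⟩⟩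
  have hJ := hasJT_singleton_of_rank ⟨_, hnil⟩ (by simpa using hreg)
  rw [Fintype.card_fin] at hJ
  have h1 := HasJT.card_centU (ι := Unit) (d := fun _ => n) hJ (S := n) fun _ => le_rfl
  rw [Finset.sum_eq_single n, Finset.prod_eq_single n] at h1
  · have c1 : (Finset.univ.filter fun _ : Unit => n = n).card = 1 := by simp
    rw [c1] at h1
    simp only [Finset.univ_unique, one_pow, pow_one,
      min_self, Finset.sum_singleton, Finset.prod_singleton, Fin.default_eq_zero,
      Fin.val_zero, pow_zero] at h1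
    rw [card_centralizer_eq]
    obtain ⟨m, rfl⟩ : ∃ m, n = m + 1 := ⟨n - 1, by omega⟩
    refine Nat.eq_of_mul_eq_mul_right (Fintype.card_pos (α := F)) (h1.trans ?_)
    simp only [Nat.add_sub_cancel]
    ring
  · intro i _ hi
    have : (Finset.univ.filter fun _ : Unit => n = i) = ∅ := by simp [hi.symm]
    rw [this]
    simp
  · simp
  · intro i _ hi
    simp [hi.symm]
  · simp

end Cfsg.Agent.S2571
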