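import Cfsg.Statements.S2572
import Cfsg.Agent.KSG.GLnCentJordan

set_option autoImplicit false
open Cfsg

namespace Cfsg.Agent.S2572

open CL.GLn

theorem result {F : Type*} [Field F] [Fintype F] {q n : ℕ} (hF : Fintype.card F = q) (hn : 2 ≤ n) (t : GL (Fin n) F) (ht : Cfsg.IsTransvection (t : Matrix (Fin n) (Fin n) F)) : Nat.card ↥(Subgroup.centralizer ({t} : Set (GL (Fin n) F))) = q ^ (2 * n - 3) * (q - 1) * ∏ i : Fin (n - 2), (q ^ (n - 2) - q ^ (i : ℕ)) := by
  subst hF
  have ht2 : ((t : Matrix (Fin n) (Fin n) F) - 1) ^ 2 = 0 := by rw [pow_two]; exact ht.2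
  obtain ⟨m, rfl⟩ : ∃ m, n = m + 2 := ⟨n - 2, by omega⟩
  let d : Option (Fin m) → ℕ := fun k => k.elim 2 fun _ => 1
  obtain ⟨A, hA⟩ := exists_matrix_hasJT (n := Fin (m + 2)) (1 : F) (μ := Finset.univ.val.map d)
    (by
      intro e he
      obtain ⟨k, -, rfl⟩ := Multiset.mem_map.1 he
      cases k <;> simp [d])
    (by
      change ∑ k, d k = _
      simp [Fintype.sum_option, d, add_comm])
  have hA2 : (A - 1) ^ 2 = 0 := (hA.sub_one_pow_eq_zero_iff 2).2 (by
    intro e he
    obtain ⟨k, -, rfl⟩ := Multiset.mem_map.1 he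
    cases k <;> simp [d])
  have hAr : (A - 1).rank = 1 := by
    have := hA.rank_sub_one
    simp at this
    omega
  have hconj : IsConj A (t : Matrix (Fin (m + 2)) (Fin (m + 2)) F) := by
    refine isConj_of_unipotent_of_rank ⟨_, hA2⟩ ⟨_, ht2⟩ fun k => ?_
    rcases k with _ | _ | k
    · simp
    · simp [hAr, ht.1]
    · rw [pow_eq_zero_of_le (by omega) hA2, pow_eq_zero_of_le (by omega) ht2]
  have hJ := hA.of_simil ((isConj_iff_simil _ _).1 hconj)
  have h1 := hJ.card_centU (S := 2) fun k => by cases k <;> simp [d]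
  have c0 : (Finset.univ.filter fun k => d k = 0).card = 0 := by
    rw [Finset.card_filter, Fintype.sum_option]; simp [d]
  have c1 : (Finset.univ.filter fun k => d k = 1).card = m := by
    rw [Finset.card_filter, Fintype.sum_option]; simp [d]
  have c2 : (Finset.univ.filter fun k => d k = 2).card = 1 := by
    rw [Finset.card_filter, Fintype.sum_option]; simp [d]
  have c3 : ∑ k, ∑ l, min (d k) (d l) = (2 * (m + 2) - 3) + (m ^ 2 + 1) := by
    simp [Fintype.sum_option, d]
    have : 2 * (m + 2) - 3 = 2 * m + 1 := by omega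
    rw [this]
    ring
  simp only [Finset.sum_range_succ, Finset.prod_range_succ, Finset.range_zero, Finset.sum_empty,
    Finset.prod_empty] at h1
  rw [c0, c1, c2, c3] at h1
  rw [card_centralizer_eq]
  refine Nat.eq_of_mul_eq_mul_right (pow_pos (Fintype.card_pos (α := F)) _) (h1.trans ?_)
  change _ = Fintype.card F ^ (2 * (m + 2) - 3) * (Fintype.card F - 1) *
    (∏ i : Fin m, (Fintype.card F ^ m - Fintype.card F ^ (i : ℕ))) * _
  generalize ∏ i : Fin m, (Fintype.card F ^ m - Fintype.card F ^ (i : ℕ)) = P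
  simp
  ring

end Cfsg.Agent.S2572
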