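import Cfsg.Statements.S2573
import Cfsg.Agent.KSG.GLnJordan

set_option autoImplicit false
open Cfsg

namespace Cfsg.Agent.S2573

open CL.GLn

theorem result {F : Type*} [Field F] [Finite F] {n : ℕ} (u : Matrix (Fin n) (Fin n) F) (hnil : (u - 1) ^ n = 0) (hreg : (u - 1).rank = n - 1) (W : Submodule F (Fin n → F)) (hW : ∀ v ∈ W, u.mulVec v ∈ W) : W = LinearMap.ker (Matrix.mulVecLin ((u - 1) ^ Module.finrank F W)) := by
  rcases Nat.eq_zero_or_pos n with rfl | hn
  · exact Subsingleton.elim _ _
  have : Nonempty (Fin n) := ⟨⟨0, hn⟩⟩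
  have hJ := hasJT_singleton_of_rank ⟨_, hnil⟩ (by simpa using hreg)
  have hle : Module.finrank F W ≤ n := by
    simpa using Submodule.finrank_le W
  let N : Module.End F (Fin n → F) := Matrix.toLin' (u - 1)
  have hN : ∀ v ∈ W, N v ∈ W := by
    intro v hv
    simp only [N, Matrix.toLin'_apply, Matrix.sub_mulVec, Matrix.one_mulVec]
    exact W.sub_mem (hW v hv) hv
  have hNn : N ^ n = 0 := by rw [← Matrix.toLin'_pow, hnil, map_zero]
  have h1 : IsNilpotent (N.restrict hN) := ⟨n, by
    rw [Module.End.pow_restrict]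
    ext v
    simp [hNn]⟩
  have h2 := pow_finrank_eq_zero_of_isNilpotent h1
  apply Submodule.eq_of_le_of_finrank_eq
  · intro v hv
    rw [LinearMap.mem_ker]
    have h3 := congrArg Subtype.val (LinearMap.congr_fun h2 ⟨v, hv⟩)
    rw [Module.End.pow_restrict, LinearMap.coe_restrict_apply, ← Matrix.toLin'_pow] at h3
    exact h3
  · have h3 := hJ.rank_sub_one_pow (Module.finrank F W)
    have h4 := LinearMap.finrank_range_add_finrank_ker
      (Matrix.mulVecLin ((u - 1) ^ Module.finrank F W))
    simp only [Multiset.map_singleton, Multiset.sum_singleton, Fintype.card_fin,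
      min_eq_left hle, Matrix.rank] at h3
    rw [Module.finrank_fin_fun] at h4
    omega

end Cfsg.Agent.S2573
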