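import Cfsg.Statements.S2574
import Cfsg.Agent.KSG.SpUReal

set_option autoImplicit false
open Cfsg

namespace Cfsg.Agent.S2574

open CL.GLn CL.SpU CL.Witt CL.Sp Module

theorem eq_ker {F V : Type*} [Field F] [AddCommGroup V] [Module F V] [FiniteDimensional F V]
    {A : Module.End F V} {a : F} (h : HasJT A a {finrank F V}) {W : Submodule F V}
    (hW : ∀ v ∈ W, A v ∈ W) :
    W = LinearMap.ker ((A - algebraMap F _ a) ^ finrank F W) := by
  have hN : ∀ v ∈ W, (A - algebraMap F _ a : Module.End F V) v ∈ W := fun v hv =>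
    W.sub_mem (hW v hv) (W.smul_mem a hv)
  obtain ⟨k, hk⟩ := h.isNilpotent
  have h1 : IsNilpotent ((A - algebraMap F _ a : Module.End F V).restrict hN) := ⟨k, by
    rw [Module.End.pow_restrict]
    ext v
    simp [hk]⟩
  have h2 := pow_finrank_eq_zero_of_isNilpotent h1
  apply Submodule.eq_of_le_of_finrank_eq
  · intro v hv
    have h3 := congrArg Subtype.val (LinearMap.congr_fun h2 ⟨v, hv⟩)
    rw [Module.End.pow_restrict, LinearMap.coe_restrict_apply] at h3
    exact h3
  · rw [h.finrank_ker_pow]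
    simp [min_eq_left (Submodule.finrank_le W)]

/-- A regular unipotent element of the symplectic group has totally isotropic small invariant subspaces: over a finite field, if u ∈ Sp_2m(F) satisfies (u − 1)^(2m) = 0 and rank(u − 1) = 2m − 1, and W is a u-invariant subspace with 2 dim W ≤ 2m, then the alternating form vanishes identically on W. -/
theorem result {F : Type*} [Field F] [Finite F] {m : ℕ} (u : Matrix.symplecticGroup (Fin m) F) (hnil : ((u : Matrix (Fin m ⊕ Fin m) (Fin m ⊕ Fin m) F) - 1) ^ (2 * m) = 0) (hreg : ((u : Matrix (Fin m ⊕ Fin m) (Fin m ⊕ Fin m) F) - 1).rank = 2 * m - 1) (W : Submodule F (Fin m ⊕ Fin m → F)) (hW : ∀ v ∈ W, (u : Matrix (Fin m ⊕ Fin m) (Fin m ⊕ Fin m) F).mulVec v ∈ W) (hdim : 2 * Module.finrank F W ≤ 2 * m) : ∀ v ∈ W, ∀ w ∈ W, Cfsg.sympForm m F v w = 0 := by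
  rcases Nat.eq_zero_or_pos m with rfl | hm
  · intro v _ w _
    simp [sympForm_eq]
  have : Nonempty (Fin m ⊕ Fin m) := ⟨Sum.inl ⟨0, hm⟩⟩
  have hJ := hasJT_singleton_of_rank ⟨_, hnil⟩ (by simpa [two_mul] using hreg)
  rw [← Module.finrank_fintype_fun_eq_card F] at hJ
  have hA := isIsom_sp u
  have hf := spForm_nondeg m F
  have hW' : ∀ v ∈ (spForm m F).perp W, Matrix.toLin' u.1 v ∈ (spForm m F).perp W := by
    intro v hv w hw
    have hs : Function.Surjective ((Matrix.toLin' u.1).restrict (p := W) (q := W) hW) := by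
      rw [← LinearMap.injective_iff_surjective]
      intro x y hxy
      exact Subtype.ext (hA.injective hf (congrArg Subtype.val hxy))
    obtain ⟨w', hw'⟩ := hs ⟨w, hw⟩
    have : Matrix.toLin' u.1 w' = w := congrArg Subtype.val hw'
    rw [← this]
    exact (hA.B_eq _ _).trans (hv _ w'.2)
  have h1 := eq_ker hJ (W := W) hW
  have h2 := eq_ker hJ hW'
  have h3 := hf.finrank_add_finrank_perp W
  rw [finrank_sp] at h3
  have h4 : W ≤ (spForm m F).perp W := by
    rw [h2]
    conv_lhs => rw [h1]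
    exact (LinearMap.iterateKer _).monotone (by omega)
  intro v hv w hw
  rw [← spForm_B]
  exact h4 hw v hv

end Cfsg.Agent.S2574
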