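import Cfsg.Statements.S2575
import Cfsg.Agent.KSG.CyclicPow

set_option autoImplicit false
open Cfsg

namespace Cfsg.Agent.S2575

/-- Which diagonal involutions of PGL_n(q) lie in PSL_n(q), q odd: for the diagonal matrix t with i entries −1 and n − i entries 1, some non-zero scalar multiple of t has determinant one if and only if i is even or the 2-part of q − 1 exceeds the 2-part of n (that is, −1 is an n-th power in the field exactly in the latter case). -/
theorem result {F : Type*} [Field F] [Fintype F] {q : ℕ} (hF : Fintype.card F = q) (hq : Odd q) {n : ℕ} (hn : 1 ≤ n) (i : ℕ) (hi : i ≤ n) : (∃ c : F, c ≠ 0 ∧ (c • Matrix.diagonal (fun j : Fin n => if (j : ℕ) < i then (-1 : F) else 1)).det = 1) ↔ (Even i ∨ padicValNat 2 n < padicValNat 2 (q - 1)) := by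
  classical
  have hq1 : 1 < q := hF ▸ Fintype.one_lt_card
  have hchar : ringChar F ≠ 2 := by
    intro h
    have := FiniteField.even_card_of_char_two h
    rw [hF] at this
    rw [Nat.odd_iff] at hq
    omega
  have hneg : (-1 : F) ≠ 1 := Ring.neg_one_ne_one_of_char_ne_two hchar
  have hdet : ∀ c : F, (c • Matrix.diagonal (fun j : Fin n => if (j : ℕ) < i then (-1 : F) else 1)).det
      = c ^ n * (-1) ^ i := by
    intro c
    rw [Matrix.det_smul, Matrix.det_diagonal, Finset.prod_ite, Finset.prod_const, Finset.prod_const_one,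
      mul_one, Fintype.card_fin, Fin.card_filter_val_lt, min_eq_right hi]
  simp_rw [hdet]
  rcases Nat.even_or_odd i with he | ho
  · simp only [he, true_or, iff_true]
    exact ⟨1, one_ne_zero, by rw [he.neg_one_pow]; simp⟩
  · have hne : ¬ Even i := Nat.not_even_iff_odd.mpr ho
    simp only [hne, false_or, ho.neg_one_pow]
    have h1 : (∃ c : F, c ≠ 0 ∧ c ^ n * (-1) = 1) ↔ ∃ c : F, c ≠ 0 ∧ c ^ n = -1 := by
      refine exists_congr fun c => and_congr_right fun _ => ?_
      rw [mul_neg, mul_one, neg_eq_iff_eq_neg]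
    rw [h1, CL.CyclicPow.field_exists_pow_eq_iff n (neg_ne_zero.mpr one_ne_zero), hF,
      neg_one_pow_eq_one_iff_even hneg, even_iff_two_dvd]
    have hN : q - 1 ≠ 0 := by omega
    have hpos : (q - 1) / (q - 1).gcd n ≠ 0 :=
      (Nat.div_pos (Nat.le_of_dvd (by omega) (Nat.gcd_dvd_left _ _))
        (Nat.gcd_pos_of_pos_left _ (by omega))).ne'
    have h2 := padicValNat_dvd_iff_le (p := 2) (n := 1) hpos
    rw [pow_one] at h2
    rw [h2, CL.CyclicPow.padicValNat_div_gcd 2 hN (by omega)]
    omega

end Cfsg.Agent.S2575
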