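import Cfsg.Statements.S2576
import Cfsg.Agent.KSG.CyclicPow

set_option autoImplicit false
open Cfsg

namespace Cfsg.Agent.S2576

/-- Which involutions of PGL_2m(q) coming from a scalar of the quadratic extension field lie in PSL_2m(q), q odd: let μ generate the Sylow 2-subgroup of the multiplicative group of the field with q elements (μ has order the 2-part of q − 1) and let t be the block-diagonal matrix with m diagonal blocks [[0, 1], [μ, 0]] (so t² is the scalar μ and t is an involution modulo scalars). Then some non-zero scalar multiple of t has determinant one if and only if q ≡ 3 (mod 4) or the 2-part of q − 1 is less than the 2-part of 2m. -/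
theorem result {F : Type*} [Field F] [Fintype F] {q : ℕ} (hF : Fintype.card F = q) (hq : Odd q) {m : ℕ} (hm : 1 ≤ m) (μ : F) (hμ : orderOf μ = 2 ^ padicValNat 2 (q - 1)) : (∃ c : F, c ≠ 0 ∧ (c • Matrix.blockDiagonal (fun _ : Fin m => !![(0 : F), 1; μ, 0])).det = 1) ↔ (q % 4 = 3 ∨ padicValNat 2 (q - 1) < padicValNat 2 (2 * m)) := by
  classical
  have hq1 : 1 < q := hF ▸ Fintype.one_lt_card
  have hN : q - 1 ≠ 0 := by omega
  have hqo := Nat.odd_iff.mp hq
  have hμ0 : μ ≠ 0 := by
    rintro rfl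
    have h1 := pow_orderOf_eq_one (0 : F)
    rw [hμ, zero_pow (by positivity)] at h1
    exact zero_ne_one h1
  have hdet : ∀ c : F, (c • Matrix.blockDiagonal (fun _ : Fin m => !![(0 : F), 1; μ, 0])).det
      = c ^ (2 * m) * (-μ) ^ m := by
    intro c
    rw [Matrix.det_smul, Matrix.det_blockDiagonal]
    simp [Matrix.det_fin_two]
  simp_rw [hdet]
  have hpos : (q - 1) / (q - 1).gcd (2 * m) ≠ 0 :=
    (Nat.div_pos (Nat.le_of_dvd (by omega) (Nat.gcd_dvd_left _ _))
      (Nat.gcd_pos_of_pos_left _ (by omega))).ne'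
  have h1 : (∃ c : F, c ≠ 0 ∧ c ^ (2 * m) * (-μ) ^ m = 1) ↔
      ∃ c : F, c ≠ 0 ∧ c ^ (2 * m) = (-μ) ^ m := by
    constructor
    · rintro ⟨c, hc, h⟩
      exact ⟨c⁻¹, inv_ne_zero hc, by rw [inv_pow]; exact inv_eq_of_mul_eq_one_right h⟩
    · rintro ⟨c, hc, h⟩
      exact ⟨c⁻¹, inv_ne_zero hc, by rw [inv_pow, ← h, inv_mul_cancel₀ (pow_ne_zero _ hc)]⟩
  rw [h1, CL.CyclicPow.field_exists_pow_eq_iff _ (pow_ne_zero _ (neg_ne_zero.mpr hμ0)), hF,
    ← pow_mul, ← orderOf_dvd_iff_pow_eq_one]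
  have ha1 : 1 ≤ padicValNat 2 (q - 1) := by
    rw [← padicValNat_dvd_iff_le hN]; omega
  have ha2 : 2 ≤ padicValNat 2 (q - 1) ↔ q % 4 = 1 := by
    rw [← padicValNat_dvd_iff_le hN]; omega
  by_cases h3 : q % 4 = 3
  · simp only [h3, true_or, iff_true]
    have ha : padicValNat 2 (q - 1) = 1 := by omega
    rw [ha, pow_one] at hμ
    have hsq : μ ^ 2 = 1 := by rw [← hμ, pow_orderOf_eq_one]
    rcases sq_eq_one_iff.mp hsq with h | h
    · rw [h, orderOf_one] at hμ; omega
    · simp [h]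
  · have h4 : 2 ≤ padicValNat 2 (q - 1) := ha2.mpr (by omega)
    obtain ⟨b, hb⟩ : ∃ b, padicValNat 2 (q - 1) = b + 1 := ⟨padicValNat 2 (q - 1) - 1, by omega⟩
    have ho : orderOf (-μ) = 2 ^ (b + 1) := by
      apply orderOf_eq_prime_pow
      · rw [Even.neg_pow (Nat.even_pow.mpr ⟨even_two, by omega⟩), ← orderOf_dvd_iff_pow_eq_one, hμ,
          hb, Nat.pow_dvd_pow_iff_le_right (by norm_num)]
        omega
      · rw [Even.neg_pow (Nat.even_pow.mpr ⟨even_two, by omega⟩), ← hb, ← hμ, pow_orderOf_eq_one]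
    have hm0 : m ≠ 0 := by omega
    rw [ho, padicValNat_dvd_iff_le (mul_ne_zero hm0 hpos), padicValNat.mul hm0 hpos,
      CL.CyclicPow.padicValNat_div_gcd 2 hN (by omega), padicValNat.mul (by norm_num) hm0,
      padicValNat_self]
    simp only [h3, false_or]
    omega

end Cfsg.Agent.S2576
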