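import Cfsg.Statements.S2670
import Cfsg.Agent.KSG.GLnProj

set_option autoImplicit false
open Cfsg

namespace Cfsg.Agent.S2670

open CL.GLn CL.Elus CL.ElusL Polynomial Matrix

theorem result {F : Type*} [Field F] [Fintype F] {q : ℕ} (hF : Fintype.card F = q) {n r : ℕ} (hn : 2 ≤ n) (hr : r.Prime) (hrq : r ∣ q - 1) : Nat.card {C : ConjClasses (GL (Fin n) F ⧸ Subgroup.center (GL (Fin n) F)) // ∃ g : GL (Fin n) F ⧸ Subgroup.center (GL (Fin n) F), ConjClasses.mk g = C ∧ orderOf g = r} = (Nat.choose (n + r - 1) (r - 1) - r - (if r ∣ n then 1 else 0)) / r + r * (if r ∣ n then 1 else 0) := by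
  subst hF
  have := Fact.mk hr
  have : Nonempty (Fin n) := ⟨⟨0, by omega⟩⟩
  have hn0 : n ≠ 0 := by omega
  obtain ⟨p, _, _, hp, -⟩ := FiniteField.card' F
  have := Fact.mk hp
  obtain ⟨ζ, hζ⟩ := exists_isPrimitiveRoot hrq
  have hr0 : (r : F) ≠ 0 := (hζ.neZero' (n := r)).out
  refine CL.GLnProj.card_classes (φ := Units.coeHom _) (fun g => ?_)
    (fun g k h => (isConj_units_iff g k).2 h) p (fun h => hr0 (h ▸ CharP.cast_eq_zero F p)) hζ
    (by simp) (fun a => ⟨GeneralLinearGroup.mkOfDetNeZero (diagonal _) (by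
      simp [Finset.prod_ne_zero_iff, hζ.ne_zero hr.ne_zero]), rfl⟩) (fun b g h => ?_)
    fun ⟨k, hk⟩ c g h hc => ?_
  · simp [GeneralLinearGroup.mem_center_iff_val_mem_range_scalar, smul_one_eq_diagonal, eq_comm]
  · have := ne_zero_of_pow_eq (r := 1) (CL.GLnProj.det_ne_zero _ g) ((pow_one _).trans h)
    exact ⟨GeneralLinearGroup.mkOfDetNeZero (b • 1) (by simpa [hr.ne_zero, hn0] using this), rfl⟩
  · obtain ⟨A, hA⟩ := exists_hasED_replicate (V := Fin n → F) (monic_X_pow_sub_C c hr.ne_zero)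
      ((X_pow_sub_C_irreducible_iff_of_prime hr).2 hc) (k := k) (by simpa)
    obtain ⟨B, rfl⟩ := Matrix.toLin'.surjective A
    have h1 : B ^ r = c • 1 := (pow_eq_smul_iff _ _ _).2 (by
      simpa [sub_eq_zero] using aeval_eq_zero_of_replicate hA)
    refine ⟨GeneralLinearGroup.mkOfDetNeZero B fun h2 => hc 0 ?_, h1⟩
    simpa [h2, hr.ne_zero, hn0, eq_comm] using congrArg det h1

end Cfsg.Agent.S2670
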