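import Cfsg.Statements.S2578
import Cfsg.Agent.KSG.GLnCentJordan

set_option autoImplicit false
open Cfsg

namespace Cfsg.Agent.S2578

open CL.GLn

theorem result {F : Type*} [Field F] [Fintype F] {q : ℕ} (hF : Fintype.card F = q) {n : ℕ} (hn : 2 ≤ n) : Nat.card {C : ConjClasses (Matrix.SpecialLinearGroup (Fin n) F) // ∃ u : Matrix.SpecialLinearGroup (Fin n) F, ConjClasses.mk u = C ∧ ((u : Matrix (Fin n) (Fin n) F) - 1) ^ n = 0 ∧ ((u : Matrix (Fin n) (Fin n) F) - 1).rank = n - 1} = Nat.gcd n (q - 1) := by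
  subst hF
  have : Nonempty (Fin n) := ⟨⟨0, by omega⟩⟩
  have hJ := hasJT_jordanBlock (F := F) (k := n) (by omega)
  let u₀ : Matrix.SpecialLinearGroup (Fin n) F := ⟨Cfsg.jordanBlock n F, hJ.det_eq_one⟩
  have hu₀ : (u₀ : Matrix (Fin n) (Fin n) F) = Cfsg.jordanBlock n F := rfl
  have h1 := card_sl_classes u₀ (powMonoidHom n : Fˣ →* Fˣ).range fun c => by
    have h2 := hJ.exists_commute_det_iff_of_singleton c
    constructor
    · rintro ⟨b, rfl⟩
      exact exists_gl_commute_det (h2.2 ⟨b, b.ne_zero, by simp⟩)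
    · rintro ⟨g, h3, h4⟩
      obtain ⟨b, hb, hb'⟩ := h2.1 ⟨Matrix.toLin' (g : Matrix (Fin n) (Fin n) F),
        g.isUnit.map (Matrix.toLinAlgEquiv' (R := F) (n := Fin n)),
        (commute_toLin'_iff _ _).2 h3, by rw [LinearMap.det_toLin', h4]⟩
      exact ⟨Units.mk0 b hb, Units.ext (by simpa using hb')⟩
  rw [IsCyclic.index_powMonoidHom_range, Nat.card_units, Nat.card_eq_fintype_card (α := F),
    Nat.gcd_comm]
    at h1
  rw [← h1]
  congr 2
  ext C
  refine exists_congr fun u => and_congr_right fun _ => ?_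
  constructor
  · rintro ⟨h2, h3⟩
    have h4 := hasJT_singleton_of_rank ⟨_, h2⟩ (by simpa using h3)
    rw [Fintype.card_fin] at h4
    exact (hJ.isConj_iff h4).2 rfl
  · intro h2
    have h3 := hJ.of_simil ((isConj_iff_simil _ _).1 h2)
    refine ⟨(h3.sub_one_pow_eq_zero_iff n).2 (by simp), ?_⟩
    have := h3.rank_sub_one
    simp at this
    omega

end Cfsg.Agent.S2578
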