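import Cfsg.Statements.S2580
import Cfsg.Agent.KSG.GLnElemDiv

set_option autoImplicit false
open Cfsg

namespace Cfsg.Agent.S2580

theorem result {F : Type*} [Field F] [Finite F] {n : ℕ} (A : Matrix (Fin n) (Fin n) F) : IsConj A A.transpose :=
  CL.GLn.isConj_transpose A

end Cfsg.Agent.S2580
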