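import Cfsg.Statements.S2581
import Cfsg.Agent.KSG.GLnCentJordan

set_option autoImplicit false
open Cfsg

namespace Cfsg.Agent.S2581

open CL.GLn

theorem sum_min_eq {ι : Type*} [Fintype ι] (d : ι → ℕ) (S : ℕ) (hS : ∀ k, d k ≤ S) :
    ∑ k, ∑ l, min (d k) (d l) =
      ∑ i ∈ Finset.range (S + 1), ∑ j ∈ Finset.range (S + 1),
        min i j * (Finset.univ.filter fun k => d k = i).card *
          (Finset.univ.filter fun k => d k = j).card := by
  classical
  have key : ∀ f : ℕ → ℕ, ∑ k, f (d k) =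
      ∑ i ∈ Finset.range (S + 1), f i * (Finset.univ.filter fun k => d k = i).card := by
    intro f
    rw [← Finset.sum_fiberwise_of_maps_to (s := Finset.univ) (t := Finset.range (S + 1)) (g := d)
      (fun k _ => Finset.mem_range.2 (Nat.lt_succ_of_le (hS k)))]
    refine Finset.sum_congr rfl fun i _ => ?_
    rw [Finset.sum_congr rfl (g := fun _ => f i) fun k hk => by rw [(Finset.mem_filter.1 hk).2]]
    simp [mul_comm]
  rw [key fun i => ∑ l, min i (d l)]
  refine Finset.sum_congr rfl fun i _ => ?_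
  rw [key fun j => min i j, Finset.sum_mul]
  refine Finset.sum_congr rfl fun j _ => ?_
  ring

theorem sum_min_split (s : Finset ℕ) (a : ℕ → ℕ) (h0 : a 0 = 0) :
    ∑ i ∈ s, ∑ j ∈ s, min i j * a i * a j =
      (2 * (∑ i ∈ s, ∑ j ∈ s, if i < j then i * a i * a j else 0) + ∑ i ∈ s, (i - 1) * a i ^ 2) +
        ∑ i ∈ s, a i ^ 2 := by
  have h1 : ∑ i ∈ s, ∑ j ∈ s, (if j < i then j * a j * a i else 0) =
      ∑ i ∈ s, ∑ j ∈ s, if i < j then i * a i * a j else 0 := Finset.sum_comm
  have h2 : ∑ i ∈ s, (i - 1) * a i ^ 2 + ∑ i ∈ s, a i ^ 2 =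
      ∑ i ∈ s, ∑ j ∈ s, if j = i then i * a i * a j else 0 := by
    rw [← Finset.sum_add_distrib]
    refine Finset.sum_congr rfl fun i hi => ?_
    rw [Finset.sum_ite_eq' s i, if_pos hi]
    rcases i with _ | i
    · simp [h0]
    · simp; ring
  rw [two_mul, add_assoc, h2]
  nth_rewrite 2 [← h1]
  rw [← Finset.sum_add_distrib, ← Finset.sum_add_distrib]
  refine Finset.sum_congr rfl fun i _ => ?_
  rw [← Finset.sum_add_distrib, ← Finset.sum_add_distrib]
  refine Finset.sum_congr rfl fun j _ => ?_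
  rcases lt_trichotomy i j with h | rfl | h
  · simp [h, h.le, h.ne', not_lt.2 h.le]
  · simp
  · simp [h, h.le, h.ne, not_lt.2 h.le]; ring

theorem result {F : Type*} [Field F] [Fintype F] {q : ℕ} (hF : Fintype.card F = q) {t : ℕ} (d : Fin t → ℕ) (hd : ∀ k, 1 ≤ d k) : Nat.card {g : GL ((k : Fin t) × Fin (d k)) F // (g : Matrix ((k : Fin t) × Fin (d k)) ((k : Fin t) × Fin (d k)) F) * Cfsg.jordanTypeMatrix d F = Cfsg.jordanTypeMatrix d F * (g : Matrix ((k : Fin t) × Fin (d k)) ((k : Fin t) × Fin (d k)) F)} = q ^ (2 * (∑ i ∈ Finset.range (Finset.univ.sup d + 1), ∑ j ∈ Finset.range (Finset.univ.sup d + 1), if i < j then i * (Finset.univ.filter (fun k : Fin t => d k = i)).card * (Finset.univ.filter (fun k : Fin t => d k = j)).card else 0) + ∑ i ∈ Finset.range (Finset.univ.sup d + 1), (i - 1) * (Finset.univ.filter (fun k : Fin t => d k = i)).card ^ 2) * ∏ i ∈ Finset.range (Finset.univ.sup d + 1), ∏ j : Fin ((Finset.univ.filter (fun k : Fin t => d k = i)).card), (q ^ (Finset.univ.filter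 (fun k : Fin t => d k = i)).card - q ^ (j : ℕ)) := by
  subst hF
  have hS : ∀ k, d k ≤ Finset.univ.sup d := fun k => Finset.le_sup (Finset.mem_univ k)
  have h1 := (hasJT_jordanTypeMatrix (F := F) d hd).card_centU hS
  rw [sum_min_eq d _ hS, sum_min_split _ (fun i => (Finset.univ.filter fun k => d k = i).card)
    (by
      rw [Finset.card_eq_zero, Finset.filter_eq_empty_iff]
      intro k _
      have := hd k
      omega), pow_add, mul_right_comm] at h1
  rw [card_commuting_gl_eq]
  exact Nat.eq_of_mul_eq_mul_right (pow_pos Fintype.card_pos _) h1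

end Cfsg.Agent.S2581
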