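import Cfsg.Statements.S2582
import Cfsg.Agent.KSG.SpUUnip

set_option autoImplicit false
open Cfsg

namespace Cfsg.Agent.S2582

open CL.GLn CL.SpU

/-- Which unipotent Jordan types occur in the finite symplectic group: over a finite field, a unipotent matrix with Jordan block sizes d_1, …, d_t (sum 2m, all at least 1) is similar to an element of Sp_2m(F) if and only if every odd block size occurs an even number of times. -/
theorem result {F : Type*} [Field F] [Fintype F] {m t : ℕ} (d : Fin t → ℕ) (hd : ∀ k, 1 ≤ d k) (hsum : ∑ k, d k = 2 * m) : (∃ e : ((k : Fin t) × Fin (d k)) ≃ (Fin m ⊕ Fin m), ∃ A : Matrix.symplecticGroup (Fin m) F, IsConj (Matrix.reindex e e (Cfsg.jordanTypeMatrix d F)) (A : Matrix (Fin m ⊕ Fin m) (Fin m ⊕ Fin m) F)) ↔ ∀ j : ℕ, Odd j → Even (Finset.univ.filter (fun k : Fin t => d k = j)).card := by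
  have hcount : ∀ j, (Finset.univ.val.map d).count j =
      (Finset.univ.filter (fun k : Fin t => d k = j)).card := by
    intro j
    rw [Multiset.count_map]
    simp only [eq_comm (a := j)]
    rfl
  simp only [← hcount]
  constructor
  · rintro ⟨e, A, h⟩
    exact (isReal_iff_even_count (hasJT_reindex_jordanTypeMatrix d hd e)).mp
      ((isReal_sp A).of_simil ((isConj_iff_simil _ _).mp h).symm)
  · intro h
    have e : ((k : Fin t) × Fin (d k)) ≃ (Fin m ⊕ Fin m) :=
      Fintype.equivOfCardEq (by simp [hsum, two_mul])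
    obtain ⟨A, hA⟩ := ((isReal_iff_even_count
      (hasJT_reindex_jordanTypeMatrix (F := F) d hd e)).mpr h).exists_sp (CL.Sp.finrank_sp m F)
    exact ⟨e, A, (isConj_iff_simil _ _).mpr hA⟩

end Cfsg.Agent.S2582
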