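import Mathlib
import Cfsg.Statements.S2584
import Cfsg.Agent.KSG.OrthUnip

set_option autoImplicit false
open Cfsg

namespace Cfsg.Agent.S2584

open CL.GLn CL.SpU CL.Orth

/-- Which unipotent Jordan types occur in a finite orthogonal group in characteristic two: over a finite field of characteristic 2 and in even dimension 2m, a unipotent matrix with Jordan block sizes d_1, …, d_t (sum 2m, all at least 1) is similar to an isometry of some quadratic form on F^(2m) with non-degenerate polar form if and only if every odd block size occurs an even number of times (the same condition as for the symplectic group, which contains these orthogonal groups). -/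
theorem result {F : Type*} [Field F] [Fintype F] [CharP F 2] {m t : ℕ} (d : Fin t → ℕ) (hd : ∀ k, 1 ≤ d k) (hsum : ∑ k, d k = 2 * m) : (∃ Q : QuadraticForm F (Fin (2 * m) → F), (QuadraticMap.polarBilin Q).Nondegenerate ∧ ∃ e : ((k : Fin t) × Fin (d k)) ≃ Fin (2 * m), ∃ A : ↥(Cfsg.isometryGroup F ⇑Q), IsConj (Matrix.reindex e e (Cfsg.jordanTypeMatrix d F)) ((A : Matrix.GeneralLinearGroup (Fin (2 * m)) F) : Matrix (Fin (2 * m)) (Fin (2 * m)) F)) ↔ ∀ j : ℕ, Odd j → Even (Finset.univ.filter (fun k : Fin t => d k = j)).card := by
  have hcount : ∀ j, (Finset.univ.val.map d).count j =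
      (Finset.univ.filter (fun k : Fin t => d k = j)).card := by
    intro j
    rw [Multiset.count_map]
    simp only [eq_comm (a := j)]
    rfl
  simp only [← hcount]
  constructor
  · rintro ⟨Q, hQ, e, A, h⟩
    exact (isReal_iff_even_count (hasJT_reindex_jordanTypeMatrix d hd e)).mp
      (isReal_quad_iff_alt.1 ((isReal_quad_matrix_iff _).2 ⟨Q, hQ, A, h⟩))
  · intro h
    have e : ((k : Fin t) × Fin (d k)) ≃ Fin (2 * m) := Fintype.equivOfCardEq (by simp [hsum])
    obtain ⟨Q, hQ, A, hA⟩ := (isReal_quad_matrix_iff _).1 (isReal_quad_iff_alt.2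
      ((isReal_iff_even_count (hasJT_reindex_jordanTypeMatrix (F := F) d hd e)).mpr h))
    exact ⟨Q, hQ, e, A, hA⟩

end Cfsg.Agent.S2584
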