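import Cfsg.Statements.S2586
import Cfsg.Agent.KSG.SpUReal

set_option autoImplicit false
open Cfsg

namespace Cfsg.Agent.S2586

open CL.GLn CL.SpU

/-- Over a finite field, every element of the symplectic group Sp_2m(F) is conjugate by an invertible matrix to its inverse. -/
theorem result {F : Type*} [Field F] [Finite F] {m : ℕ} (A : Matrix.symplecticGroup (Fin m) F) : IsConj (A : Matrix (Fin m ⊕ Fin m) (Fin m ⊕ Fin m) F) ((A⁻¹ : Matrix.symplecticGroup (Fin m) F) : Matrix (Fin m ⊕ Fin m) (Fin m ⊕ Fin m) F) := by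
  refine (isConj_iff_simil _ _).mpr ((isReal_sp A).simil_inv ?_)
  rw [Module.End.mul_eq_comp, ← Matrix.toLin'_mul, ← Submonoid.coe_mul, inv_mul_cancel,
    Submonoid.coe_one, Matrix.toLin'_one]
  rfl

end Cfsg.Agent.S2586
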