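import Cfsg.Statements.S2590
import Cfsg.Agent.KSG.SpUReal
import Cfsg.Agent.KSG.OrthBasic

set_option autoImplicit false
open Cfsg

namespace Cfsg.Agent.S2590

open CL.GLn CL.SpU CL.Witt

/-- Two semisimple elements of odd order of a finite orthogonal group (isometry group of a quadratic form on F^n with non-degenerate polar form, F finite of characteristic p; the elements have odd order prime to p) are conjugate in the orthogonal group if and only if they are conjugate in GL_n(F). -/
theorem result {F : Type*} [Field F] [Fintype F] {p : ℕ} [Fact p.Prime] [CharP F p] {n : ℕ} (Q : QuadraticForm F (Fin n → F)) (hQ : (QuadraticMap.polarBilin Q).Nondegenerate) (A B : ↥(Cfsg.isometryGroup F ⇑Q)) (hodd : Odd (orderOf A)) (hA : (orderOf A).Coprime p) : IsConj A B ↔ IsConj ((A : Matrix.GeneralLinearGroup (Fin n) F) : Matrix (Fin n) (Fin n) F) ((B : Matrix.GeneralLinearGroup (Fin n) F) : Matrix (Fin n) (Fin n) F) := by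
  let φ : ↥(Cfsg.isometryGroup F ⇑Q) →* Matrix (Fin n) (Fin n) F :=
    (Units.coeHom _).comp (Cfsg.isometryGroup F ⇑Q).subtype
  refine ⟨fun h => φ.map_isConj h, fun h => ?_⟩
  have hf : (Form.ofQuad Q).Nondeg := (Form.ofQuad_nondeg_iff Q).mpr hQ
  have hI : ∀ g : ↥(Cfsg.isometryGroup F ⇑Q),
      Form.IsIsom (Form.ofQuad Q) (Form.ofQuad Q) (Matrix.toLin' (φ g)) := fun g =>
    (Form.quad_isIsom_iff _ _ _).mpr (CL.Orth.mem_isometryGroup.mp g.2)
  have h2 : IsUnit (Matrix.toLin' (φ A) + 1 : Module.End F (Fin n → F)) ∨ (2 : F) = 0 := by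
    by_cases h2 : (2 : F) = 0
    · exact Or.inr h2
    left
    rw [LinearMap.isUnit_iff_ker_eq_bot, LinearMap.ker_eq_bot']
    intro v hv
    have h3 : Matrix.toLin' (φ A) v = (-1 : F) • v := by
      rw [neg_one_smul, ← add_eq_zero_iff_eq_neg]; exact hv
    have h4 : ∀ k : ℕ, Matrix.toLin' (φ (A ^ k)) v = (-1 : F) ^ k • v := by
      intro k
      induction k with
      | zero => simp
      | succ k ih =>
        rw [pow_succ', map_mul, Matrix.toLin'_mul, LinearMap.comp_apply, ih, map_smul, h3,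
          smul_smul, pow_succ]
    have h5 := h4 (orderOf A)
    rw [pow_orderOf_eq_one, map_one, Matrix.toLin'_one, hodd.neg_one_pow, LinearMap.id_apply,
      neg_one_smul, eq_neg_iff_add_eq_zero, ← two_smul F, smul_eq_zero] at h5
    exact h5.resolve_left h2
  obtain ⟨u, hu, hu'⟩ := isomConj_of_ssAt_one hf (LinearEquiv.refl F _) (Form.IsIsom.id _)
    (hI A) (hI B) ((isConj_iff_simil _ _).mp h)
    (ssAt_of_isSemisimple (isSemisimple_of_coprime_orderOf p φ hA) _) h2
  rw [← isConj_mulEquiv_iff (CL.Orth.toO Q), isConj_iff]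
  refine ⟨⟨u, hu.q_eq⟩, ?_⟩
  rw [mul_inv_eq_iff_eq_mul]
  exact CL.Orth.O_ext hu'

end Cfsg.Agent.S2590
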