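import Cfsg.Statements.S2591
import Cfsg.Agent.KSG.SpURegular

set_option autoImplicit false
open Cfsg

namespace Cfsg.Agent.S2591

open CL.GLn CL.SpU CL.Witt

/-- Over a finite field of odd order and for m ≥ 1, the regular unipotent elements of Sp_2m(F) (u − 1 nilpotent of rank 2m − 1, a single Jordan block) form exactly two conjugacy classes of Sp_2m(F) (one class under the similarity group, which splits in two). -/
theorem result {F : Type*} [Field F] [Fintype F] {q : ℕ} (hF : Fintype.card F = q) (hq : Odd q) {m : ℕ} (hm : 1 ≤ m) : Nat.card {C : ConjClasses ↥(Matrix.symplecticGroup (Fin m) F) // ∃ u : Matrix.symplecticGroup (Fin m) F, ConjClasses.mk u = C ∧ ((u : Matrix (Fin m ⊕ Fin m) (Fin m ⊕ Fin m) F) - 1) ^ (2 * m) = 0 ∧ ((u : Matrix (Fin m ⊕ Fin m) (Fin m ⊕ Fin m) F) - 1).rank = 2 * m - 1} = 2 := by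
  subst hF
  have h2 := two_ne_zero_of_odd_card hq
  have : Nonempty (Fin m ⊕ Fin m) := ⟨Sum.inl ⟨0, hm⟩⟩
  have hc : Fintype.card (Fin m ⊕ Fin m) = 2 * m - 1 + 1 := by simp; omega
  have hf := CL.Sp.spForm_nondeg m F
  have hP : ∀ u : Matrix.symplecticGroup (Fin m) F, ((u.1 - 1) ^ (2 * m) = 0 ∧
      (u.1 - 1).rank = 2 * m - 1) ↔ HasJT (Matrix.toLin' u.1) 1 {2 * m - 1 + 1} := by
    intro u
    constructor
    · rintro ⟨h1, h3⟩
      rw [← hc]
      exact hasJT_singleton_of_rank ⟨_, h1⟩ (by rw [h3, hc]; rfl)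
    · intro h
      refine ⟨(h.sub_one_pow_eq_zero_iff _).2 (by simp; omega), ?_⟩
      have := h.rank_sub_one
      rw [hc, Multiset.card_singleton] at this
      omega
  simp only [hP]
  rw [card_conjClasses_eq (fun u : Matrix.symplecticGroup (Fin m) F =>
    HasJT (Matrix.toLin' u.1) 1 {2 * m - 1 + 1}) (fun u => ∃ v, (CL.Sp.spForm m F).B v
      (((Matrix.toLin' u.1 - 1 : Module.End F _) ^ (2 * m - 1)) v) = 1) (fun _ => True)]
  · rw [Nat.card_congr (Equiv.subtypeUnivEquiv fun _ => trivial)]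
    simp
  · intro g h hg hh
    rw [isConj_sp_iff, eq_iff_iff]
    exact ⟨fun k => k.regular_value 1,
      isomConj_regular hf (isIsom_sp g) hg h2 hf (isIsom_sp h) hh⟩
  · exact fun _ _ => trivial
  · intro t _
    obtain ⟨A, hJ, f, hf', hA⟩ := exists_isReal_single (F := F) hm
    rw [show 2 * m = 2 * m - 1 + 1 by omega] at hJ
    obtain ⟨v₀, hv₀, hv⟩ := exists_regular_value hf' hA hJ
    have key : ∀ c : F, c ≠ 0 → ∃ g : Matrix.symplecticGroup (Fin m) F,
        HasJT (Matrix.toLin' g.1) 1 {2 * m - 1 + 1} ∧ ((∃ v, (CL.Sp.spForm m F).B v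
          (((Matrix.toLin' g.1 - 1 : Module.End F _) ^ (2 * m - 1)) v) = 1) ↔
          ∃ v, c * f.B v (((A - 1) ^ (2 * m - 1)) v) = 1) := by
      intro c hc0
      have h3 : ∀ x, f.B ((algebraMap F (Module.End F _) c) x) x = 0 := fun x => by
        simp [f.alt_B_self]
      obtain ⟨g, hg⟩ := exists_sp_isomConj (m := m)
        (twistAlt_nondeg hf' h3 ((IsUnit.mk0 c hc0).map _)) (by simp [two_mul]) (A := A)
        ((Form.alt_isIsom_iff _ _ _).mpr fun x y => by simp [twistAlt_B, hA.B_eq])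
      refine ⟨g, hJ.of_simil hg.simil, (hg.regular_value 1).symm.trans ?_⟩
      simp [twistAlt_B, FormType.alt_σ]
    by_cases ht : t
    · obtain ⟨g, hg, hg'⟩ := key _ (inv_ne_zero hv₀)
      exact ⟨g, hg, propext (iff_of_true (hg'.mpr ⟨v₀, inv_mul_cancel₀ hv₀⟩) ht)⟩
    · obtain ⟨d, hd⟩ := FiniteField.exists_nonsquare (F := F) (fun h => h2 (by
        have := ringChar.Nat.cast_ringChar (R := F)
        rwa [h] at this))
      have hd0 : d ≠ 0 := by rintro rfl; exact hd IsSquare.zero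
      obtain ⟨g, hg, hg'⟩ := key _ (mul_ne_zero hd0 (inv_ne_zero hv₀))
      refine ⟨g, hg, propext (iff_of_false (hg'.not.mpr ?_) ht)⟩
      rintro ⟨v, h3⟩
      obtain ⟨x, hx⟩ := hv v
      rw [hx, mul_comm (x ^ 2), ← mul_assoc, inv_mul_cancel_right₀ hv₀] at h3
      exact hd ⟨d * x, by linear_combination (-d) * h3⟩

end Cfsg.Agent.S2591
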