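import Cfsg.Statements.S2593
import Cfsg.Agent.KSG.SpUWall

set_option autoImplicit false
open Cfsg

namespace Cfsg.Agent.S2593

open CL.SpU CL.SymmTwo CL.GLn

/-- Number of conjugacy classes of involutions in the symplectic group Sp_2m(F) over a finite field of characteristic two (m ≥ 1): for each s with 1 ≤ s ≤ m there is one class with rank(t − 1) = s if s is odd and two if s is even (according as v ↦ f(v, tv), f the symplectic form, vanishes identically or not), so m + ⌊m/2⌋ classes in all. -/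
theorem result {F : Type*} [Field F] [Fintype F] [CharP F 2] {m : ℕ} (hm : 1 ≤ m) : Nat.card {C : ConjClasses ↥(Matrix.symplecticGroup (Fin m) F) // ∃ g : Matrix.symplecticGroup (Fin m) F, ConjClasses.mk g = C ∧ orderOf g = 2} = m + m / 2 := by
  classical
  have hf := CL.Sp.spForm_nondeg m F
  have hsq : ∀ a : Matrix.symplecticGroup (Fin m) F, orderOf a = 2 → a ^ 2 = 1 := fun a ha => by
    rw [← ha, pow_orderOf_eq_one]
  have hr0 : ∀ a : Matrix.symplecticGroup (Fin m) F, (a.1 - 1).rank = 0 ↔ a = 1 := fun a => by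
    refine ⟨fun h => ?_, by rintro rfl; simp⟩
    rw [← finrank_mov_spEquiv, finrank_zero_iff_forall_zero] at h
    apply (CL.Sp.spEquiv m F).injective
    rw [map_one]
    exact Subtype.ext (LinearEquiv.ext fun x => sub_eq_zero.mp (congrArg Subtype.val (h (mvm _ x))))
  rw [card_conjClasses_eq (fun a : Matrix.symplecticGroup (Fin m) F => orderOf a = 2)
    (fun a => ((a.1 - 1).rank, ∀ v, Cfsg.sympForm m F v (Matrix.mulVec a.1 v) = 0))
    (fun t => 1 ≤ t.1 ∧ t.1 ≤ m ∧ (t.2 → Even t.1))]
  · rw [show m + m / 2 = Nat.card (Fin m ⊕ Fin (m / 2)) by simp]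
    symm
    refine Nat.card_congr (Equiv.ofBijective (Sum.elim
      (fun i => ⟨(i + 1, False), by omega, by omega, False.elim⟩)
      (fun i => ⟨(2 * (i + 1), True), by omega, by omega, fun _ => even_two_mul _⟩)) ⟨?_, ?_⟩)
    · rintro (i | i) (j | j) h <;> simp at h
      · exact congrArg _ (Fin.ext h)
      · exact congrArg _ (Fin.ext h)
    · rintro ⟨⟨s, P⟩, h1, h2, h3⟩
      by_cases hP : P
      · obtain ⟨k, rfl⟩ := h3 hP
        simp only at h1 h2
        refine ⟨Sum.inr ⟨k - 1, by omega⟩, Subtype.ext (Prod.ext ?_ (by simp [hP]))⟩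
        simp only [Sum.elim_inr]
        omega
      · simp only at h1 h2
        refine ⟨Sum.inl ⟨s - 1, by omega⟩, Subtype.ext (Prod.ext ?_ (by simp [hP]))⟩
        simp only [Sum.elim_inl]
        omega
  · intro a b ha hb
    rw [isConj_invol_iff (hsq a ha) (hsq b hb), Prod.mk.injEq, eq_iff_iff]
  · intro a ha
    refine ⟨Nat.pos_of_ne_zero fun h => ?_, ?_, fun h => ?_⟩
    · rw [(hr0 a).mp h, orderOf_one] at ha
      omega
    · have := (totSing_of_sq (hsq a ha)).two_mul_finrank_le hf
      rw [finrank_mov_spEquiv, CL.Sp.finrank_sp] at this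
      simp only
      omega
    · simp only at h ⊢
      rw [← finrank_mov_spEquiv]
      exact even_finrank_of_alt (wall_nondeg hf _) ((wall_isAlt_spEquiv a).mpr h)
  · rintro ⟨s, P⟩ ⟨h1, h2, h3⟩
    simp only at h1 h2 h3
    obtain ⟨θ, hθ, hS, hP⟩ : ∃ θ : LinearMap.BilinForm F (Fin s → F), θ.Nondegenerate ∧
        θ.IsSymm ∧ (θ.IsAlt ↔ P) := by
      by_cases hP : P
      · obtain ⟨g, hg⟩ := exists_alt_nondeg (F := F) (V := Fin s → F) (by simpa using h3 hP)
        exact ⟨bil g, g.nondeg_iff.mp hg, ⟨fun x y => by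
          rw [bil_apply, bil_apply, g.alt_symm, CharTwo.neg_eq]⟩,
          iff_of_true g.alt_B_self hP⟩
      · refine ⟨Matrix.toBilin' 1, ?_, ⟨fun x y => ?_⟩, iff_of_false (fun h => ?_) hP⟩
        · exact Matrix.nondegenerate_toBilin'_iff.mpr (Matrix.nondegenerate_of_det_ne_zero (by simp))
        · simp [Matrix.toBilin'_apply', dotProduct_comm]
        · simpa [Matrix.toBilin'_apply'] using h (Pi.single ⟨0, h1⟩ 1)
    obtain ⟨a, ha, ha1, ha2⟩ := exists_of_totSing_form h2 θ hθ hS
    refine ⟨a, orderOf_eq_prime ?_ fun h => ?_, Prod.ext ha1 (propext (ha2.trans hP))⟩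
    · apply (CL.Sp.spEquiv m F).injective
      rw [map_pow, map_one, pow_two]
      exact (mv_mv_eq_zero_iff _).mp ((totSing_mov_iff hf _).mp ha)
    · rw [(hr0 a).mpr h] at ha1
      omega

end Cfsg.Agent.S2593
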