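import Cfsg.Statements.S2594
import Cfsg.Agent.KSG.SpUWall
import Cfsg.Agent.S2680

set_option autoImplicit false
open Cfsg

namespace Cfsg.Agent.S2594

open CL.SpU CL.SymmTwo

/-- Over a finite field with q elements, q even, an element t of Sp_2m(F) with rank(t − 1) = 1 (a symplectic transvection) has centraliser in Sp_2m(F) of order q^(2m−1) · |Sp_(2m−2)(q)| = q^(2m−1) · q^((m−1)²) · Π_(i=1)^(m−1) (q^(2i) − 1). -/
theorem result {F : Type*} [Field F] [Fintype F] [CharP F 2] {q : ℕ} (hF : Fintype.card F = q) {m : ℕ} (hm : 1 ≤ m) (t : Matrix.symplecticGroup (Fin m) F) (ht : ((t : Matrix (Fin m ⊕ Fin m) (Fin m ⊕ Fin m) F) - 1).rank = 1) : Nat.card ↥(Subgroup.centralizer ({t} : Set ↥(Matrix.symplecticGroup (Fin m) F))) = q ^ (2 * m - 1) * (q ^ ((m - 1) ^ 2) * ∏ i : Fin (m - 1), (q ^ (2 * ((i : ℕ) + 1)) - 1)) := by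
  have h1 := (finrank_mov_spEquiv t).trans ht
  have h2 : (CL.Sp.spForm m F).TotSing (mov (CL.Sp.spEquiv m F t)) := by
    obtain ⟨v, hv, hv'⟩ := finrank_eq_one_iff'.mp h1
    rw [CL.Witt.Form.alt_totSing_iff]
    intro w hw w' hw'
    obtain ⟨a, ha⟩ := hv' ⟨w, hw⟩
    obtain ⟨b, hb⟩ := hv' ⟨w', hw'⟩
    rw [show w = a • v.1 from (congrArg Subtype.val ha).symm,
      show w' = b • v.1 from (congrArg Subtype.val hb).symm]
    simp [CL.Witt.Form.alt_B_self]
  have h3 : t ^ 2 = 1 := by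
    apply (CL.Sp.spEquiv m F).injective
    rw [map_pow, map_one, pow_two]
    exact (mv_mv_eq_zero_iff _).mp ((totSing_mov_iff (CL.Sp.spForm_nondeg m F) _).mp h2)
  rw [Cfsg.Agent.S2680.result hF t h3 ht odd_one]
  simp

end Cfsg.Agent.S2594
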