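import Mathlib
import Cfsg.Statements.S2597
import Cfsg.Agent.KSG.OrthInvol

set_option autoImplicit false
open Cfsg

namespace Cfsg.Agent.S2597

open CL.Orth Module


/-- Number of conjugacy classes of involutions in Ω⁺_2m(F) (the commutator subgroup of the orthogonal group of Σ x_i y_i) over a finite field F of characteristic two, m ≥ 1, excluding the case m = 2 over the field of two elements: the involutions of Ω are those with s = rank(t − 1) even, giving two O-classes for each even s with 2 ≤ s ≤ m, each of which is a single Ω-class except that for m even the class with s = m and v ↦ f(v, tv) identically zero splits in two; in all 2⌊m/2⌋ + 1 classes if m is even and 2⌊m/2⌋ if m is odd. -/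
theorem result {F : Type*} [Field F] [Fintype F] [CharP F 2] {m : ℕ} (hm : 1 ≤ m) (h : Fintype.card F ≠ 2 ∨ m ≠ 2) : Nat.card {C : ConjClasses ↥(Cfsg.Omega F (Cfsg.quadFormPlus m F)) // ∃ g : ↥(Cfsg.Omega F (Cfsg.quadFormPlus m F)), ConjClasses.mk g = C ∧ orderOf g = 2} = 2 * (m / 2) + (if Even m then 1 else 0) := by
  have hQ := QPlus_nondeg m F
  refine (card_classes_congr (CL.OrthE.commutatorCongr (toO (QPlus m F))) 2).trans ?_
  split_ifs with he
  · exact card_invol_classes_commutator_even hQ (good_plus h) (finrank_sum_fin m) hm he
      (QPlus_hypFam F m)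
  · rw [two_mul, add_zero]
    refine card_invol_classes_commutator hQ (reflGroup_eq_top hQ (good_plus h)) (finrank_sum_fin m)
      (QPlus_hypFam F m) (fun W hW => ?_) (fun s => (QPlus_hypFam F m).exists_invol hQ)
      (Or.inr (Nat.not_even_iff_odd.1 he))
    have := two_mul_finrank_le_of_singular hQ hW
    rw [finrank_sum_fin] at this
    omega

end Cfsg.Agent.S2597
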