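import Cfsg.Statements.S2599


set_option autoImplicit false
open Cfsg

namespace Cfsg.Agent.S2599

/-- An irreducible invariant subspace of a semisimple isometry is non-degenerate or totally singular: let Q be a quadratic form on F^n (F finite of characteristic p) with non-degenerate polar form f, x an isometry of Q of order prime to p, and U a non-zero x-invariant subspace containing no x-invariant subspace other than 0 and U. Then U meets its f-orthogonal trivially, or Q vanishes on U, or p = 2, U is a line spanned by a non-singular vector and x fixes U pointwise. -/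
theorem result {F : Type*} [Field F] [Fintype F] {p : ℕ} [Fact p.Prime] [CharP F p] {n : ℕ} (Q : QuadraticForm F (Fin n → F)) (hQ : (QuadraticMap.polarBilin Q).Nondegenerate) (x : ↥(Cfsg.isometryGroup F ⇑Q)) (hx : (orderOf x).Coprime p) (U : Submodule F (Fin n → F)) (hU0 : U ≠ ⊥) (hUx : ∀ u ∈ U, ((x : Matrix.GeneralLinearGroup (Fin n) F) : Matrix (Fin n) (Fin n) F).mulVec u ∈ U) (hirr : ∀ W : Submodule F (Fin n → F), W ≤ U → (∀ w ∈ W, ((x : Matrix.GeneralLinearGroup (Fin n) F) : Matrix (Fin n) (Fin n) F).mulVec w ∈ W) → W = ⊥ ∨ W = U) : U ⊓ LinearMap.BilinForm.orthogonal (QuadraticMap.polarBilin Q) U = ⊥ ∨ (∀ u ∈ U, Q u = 0) ∨ (p = 2 ∧ Module.finrank F U = 1 ∧ (∃ u ∈ U, Q u ≠ 0) ∧ ∀ u ∈ U, ((x : Matrix.GeneralLinearGroup (Fin n) F) : Matrix (Fin n) (Fin n) F).mulVec u = u) := by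
  classical
  set X : Matrix (Fin n) (Fin n) F :=
    ((x : Matrix.GeneralLinearGroup (Fin n) F) : Matrix (Fin n) (Fin n) F) with hX
  have hQx : ∀ u, Q (X.mulVec u) = Q u := fun u => x.2 u u
  have hpol : ∀ u v, QuadraticMap.polar Q (X.mulVec u) (X.mulVec v) = QuadraticMap.polar Q u v := by
    intro u v
    simp only [QuadraticMap.polar, ← Matrix.mulVec_add, hQx]
  have hinj : Function.Injective X.mulVec :=
    Matrix.mulVec_injective_of_isUnit (x : Matrix.GeneralLinearGroup (Fin n) F).isUnit
  have hsurj : ∀ u ∈ U, ∃ u' ∈ U, X.mulVec u' = u := by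
    intro u hu
    let f : U →ₗ[F] U := X.mulVecLin.restrict (p := U) (q := U) hUx
    have hf : Function.Injective f := fun a b h => Subtype.ext (hinj (congrArg Subtype.val h))
    obtain ⟨u', hu'⟩ := (LinearMap.injective_iff_surjective.mp hf) ⟨u, hu⟩
    exact ⟨u', u'.2, congrArg Subtype.val hu'⟩
  rcases hirr (U ⊓ LinearMap.BilinForm.orthogonal (QuadraticMap.polarBilin Q) U) inf_le_left
    (by
      rintro w ⟨hw, hw'⟩
      refine ⟨hUx w hw, fun u hu => ?_⟩
      obtain ⟨u', hu', rfl⟩ := hsurj u hu
      rw [QuadraticMap.polarBilin_apply_apply, hpol]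
      exact hw' u' hu') with h | h
  · exact Or.inl h
  right
  have hiso : ∀ u ∈ U, ∀ v ∈ U, QuadraticMap.polar Q u v = 0 := by
    intro u hu v hv
    rw [← h] at hv
    exact hv.2 u hu
  have hadd : ∀ u ∈ U, ∀ v ∈ U, Q (u + v) = Q u + Q v := by
    intro u hu v hv
    have := hiso u hu v hv
    rw [QuadraticMap.polar] at this
    linear_combination this
  by_cases hp : p = 2
  · subst hp
    let W : Submodule F (Fin n → F) :=
      { carrier := {u | u ∈ U ∧ Q u = 0}
        add_mem' := fun {a b} ha hb => ⟨U.add_mem ha.1 hb.1, by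
          rw [hadd a ha.1 b hb.1, ha.2, hb.2, add_zero]⟩
        zero_mem' := ⟨U.zero_mem, map_zero Q⟩
        smul_mem' := fun c a ha => ⟨U.smul_mem c ha.1, by
          rw [QuadraticMap.map_smul, ha.2, smul_zero]⟩ }
    rcases hirr W (fun u hu => hu.1) (fun w hw => ⟨hUx w hw.1, (hQx w).trans hw.2⟩) with hW | hW
    · right
      have hW' : ∀ u ∈ U, Q u = 0 → u = 0 := by
        intro u hu h0
        have : u ∈ W := ⟨hu, h0⟩
        rwa [hW, Submodule.mem_bot] at this
      have hfix : ∀ u ∈ U, X.mulVec u = u := by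
        intro u hu
        rw [← sub_eq_zero]
        apply hW' _ (U.sub_mem (hUx u hu) hu)
        rw [sub_eq_add_neg, hadd _ (hUx u hu) _ (U.neg_mem hu), hQx, QuadraticMap.map_neg,
          CharTwo.add_self_eq_zero]
      obtain ⟨u, hu, hu0⟩ := Submodule.exists_mem_ne_zero_of_ne_bot hU0
      refine ⟨rfl, ?_, ⟨u, hu, fun h0 => hu0 (hW' u hu h0)⟩, hfix⟩
      have hle : Submodule.span F {u} ≤ U := (Submodule.span_singleton_le_iff_mem _ _).mpr hu
      rcases hirr _ hle (fun w hw => by rw [hfix w (hle hw)]; exact hw) with h1 | h1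
      · exact absurd (Submodule.span_singleton_eq_bot.mp h1) hu0
      · rw [← h1, finrank_span_singleton hu0]
    · left
      intro u hu
      rw [← hW] at hu
      exact hu.2
  · left
    intro u hu
    have h2 : (2 : F) ≠ 0 := by
      intro h2
      have : ((2 : ℕ) : F) = 0 := by exact_mod_cast h2
      rw [CharP.cast_eq_zero_iff F p] at this
      exact hp ((Nat.prime_dvd_prime_iff_eq Fact.out Nat.prime_two).mp this)
    have := hiso u hu u hu
    rw [QuadraticMap.polar_self, two_smul, ← two_mul] at this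
    exact (mul_eq_zero.mp this).resolve_left h2

end Cfsg.Agent.S2599
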