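import Mathlib
import Cfsg.Statements.S2609
import Cfsg.Agent.KSG.OrthOmega

set_option autoImplicit false
open Cfsg

namespace Cfsg.Agent.S2609


/-- Spinor norm criterion for Ω over a finite field of odd order: let Q be a quadratic form on F^n, n ≥ 2, with non-degenerate polar form, and let g be an isometry written as a product of reflections in non-singular vectors v_1, …, v_k. Then g lies in Ω (the commutator subgroup of the orthogonal group) if and only if k is even and Q(v_1)⋯Q(v_k) is a square; in particular, for g of determinant one, whether that product is a square does not depend on the chosen factorisation (it is the spinor norm of g). -/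
theorem result {F : Type*} [Field F] [Fintype F] (h2 : (2 : F) ≠ 0) {n : ℕ} (hn : 2 ≤ n) (Q : QuadraticForm F (Fin n → F)) (hQ : (QuadraticMap.polarBilin Q).Nondegenerate) (g : ↥(Cfsg.isometryGroup F ⇑Q)) (vs : List (Fin n → F)) (hvs : ∀ v ∈ vs, Q v ≠ 0) (hg : ((g : Matrix.GeneralLinearGroup (Fin n) F) : Matrix (Fin n) (Fin n) F) = (vs.map (fun v => Cfsg.reflectionMatrix ⇑Q v)).prod) : g ∈ Cfsg.Omega F ⇑Q ↔ (Even vs.length ∧ IsSquare (vs.map (fun v => Q v)).prod) := by
  have h1 : CL.Orth.toO Q g = (vs.map (CL.Orth.refl Q)).prod :=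
    CL.Orth.O_ext fun x => by
      rw [CL.Orth.toO_apply, hg, CL.Orth.list_prod_reflectionMatrix_mulVec]
  rw [CL.Orth.mem_Omega_iff,
    CL.Orth.mem_commutator_iff hQ (Or.inl (CL.Orth.card_ne_two_of_two_ne_zero h2)), h1,
    CL.Orth.dsign_list_prod hQ vs hvs, CL.Orth.spin_list_prod hQ vs hvs,
    neg_one_pow_eq_one_iff_even (by decide), CL.Orth.sqSign_eq_one_iff]

end Cfsg.Agent.S2609
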