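import Mathlib
import Cfsg.Statements.S2611
import Cfsg.Agent.KSG.OrthMaxTS

set_option autoImplicit false
open Cfsg

namespace Cfsg.Agent.S2611

open Matrix CL.Orth

theorem exists_levi {F : Type*} [Field F] {m : ℕ} (M : Matrix (Fin m) (Fin m) F) (hM : M.det ≠ 0) :
    ∃ g : O (QPlus m F), ∀ v, g.1 v = fromBlocks M 0 0 (M⁻¹)ᵀ *ᵥ v := by
  have h : IsUnit M.det := IsUnit.mk0 _ hM
  refine ⟨⟨glEquiv _ F ⟨fromBlocks M 0 0 (M⁻¹)ᵀ, fromBlocks M⁻¹ 0 0 Mᵀ, ?_, ?_⟩, fun v => ?_⟩,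
    fun v => glEquiv_apply _ _⟩
  · rw [fromBlocks_multiply]
    simp [← transpose_mul, mul_nonsing_inv _ h]
  · rw [fromBlocks_multiply]
    simp [← transpose_mul, nonsing_inv_mul _ h]
  · rw [glEquiv_apply, QPlus_apply, QPlus_apply, fromBlocks_mulVec]
    simp only [Sum.elim_inl, Sum.elim_inr, zero_mulVec, add_zero, zero_add]
    change (M *ᵥ (v ∘ Sum.inl)) ⬝ᵥ ((M⁻¹)ᵀ *ᵥ (v ∘ Sum.inr)) = (v ∘ Sum.inl) ⬝ᵥ (v ∘ Sum.inr)
    rw [dotProduct_mulVec, vecMul_transpose, mulVec_mulVec, nonsing_inv_mul _ h, one_mulVec]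

theorem levi_mul {F : Type*} [Field F] {m : ℕ} {M N : Matrix (Fin m) (Fin m) F}
    {g h : O (QPlus m F)} (hg : ∀ v, g.1 v = fromBlocks M 0 0 (M⁻¹)ᵀ *ᵥ v)
    (hh : ∀ v, h.1 v = fromBlocks N 0 0 (N⁻¹)ᵀ *ᵥ v) (v : Fin m ⊕ Fin m → F) :
    (g * h).1 v = fromBlocks (M * N) 0 0 ((M * N)⁻¹)ᵀ *ᵥ v := by
  rw [O_mul_apply, hg, hh, mulVec_mulVec, fromBlocks_multiply, Matrix.mul_inv_rev, transpose_mul]
  simp

theorem spin_levi {F : Type*} [Field F] [Fintype F] {m : ℕ} (h : Fintype.card F ≠ 2 ∨ m ≠ 2)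
    (M : Matrix (Fin m) (Fin m) F) (hM : M.det ≠ 0) :
    ∃ g : O (QPlus m F), (∀ v, g.1 v = fromBlocks M 0 0 (M⁻¹)ᵀ *ᵥ v) ∧ spin g = sqSign M.det := by
  have hQ := QPlus_nondeg m F
  have hF := good_plus h
  refine diagonal_transvection_induction_of_det_ne_zero (fun M => ∃ g : O (QPlus m F),
    (∀ v, g.1 v = fromBlocks M 0 0 (M⁻¹)ᵀ *ᵥ v) ∧ spin g = sqSign M.det) M hM ?_ ?_ ?_
  · intro D hD
    rw [det_diagonal] at hD ⊢
    have hD' : ∀ i, D i ≠ 0 := fun i => Finset.prod_ne_zero_iff.1 hD i (Finset.mem_univ i)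
    obtain ⟨g, -, h3, h4⟩ := (QPlus_hypFam F m).exists_torus hQ D hD' Finset.univ
    refine ⟨g, fun v => ?_, h3⟩
    have hinv : (diagonal D)⁻¹ = diagonal fun i => (D i)⁻¹ :=
      inv_eq_right_inv (by rw [diagonal_mul_diagonal]; simp [hD'])
    rw [h4, hinv, diagonal_transpose, fromBlocks_diagonal]
    simp only [QuadraticMap.polar_comm _ (Pi.single _ 1) v, polar_QPlus_single_inl,
      polar_QPlus_single_inr]
    ext (k | k) <;> simp [Finset.sum_apply, Pi.single_apply, mulVec_diagonal] <;> ring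
  · intro t
    by_cases h2 : (2 : F) = 0
    · obtain ⟨g, hg⟩ := exists_levi t.toMatrix (by simp)
      exact ⟨g, hg, by rw [spin_of_two_eq_zero h2, sqSign_of_two_eq_zero h2]⟩
    · obtain ⟨g, hg⟩ := exists_levi (transvection t.i t.j (t.c / 2))
        (by rw [det_transvection_of_ne _ _ t.hij]; simp)
      refine ⟨g * g, fun v => ?_, ?_⟩
      · rw [levi_mul hg hg, transvection_mul_transvection_same _ _ t.hij,
          show t.c / 2 + t.c / 2 = t.c by field_simp; ring]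
        rfl
      · rw [spin_mul hQ hF, Int.units_mul_self, TransvectionStruct.det, sqSign_one]
  · rintro A B hA hB ⟨g, hg, hg'⟩ ⟨k, hk, hk'⟩
    exact ⟨g * k, levi_mul hg hk, by rw [spin_mul hQ hF, hg', hk', det_mul, sqSign_mul hA hB]⟩


/-- For the hyperbolic quadratic form Σ x_i y_i on F^(2m) (F finite, m ≥ 1, excluding m = 2 over the field of two elements) and an invertible m × m matrix A, the block-diagonal isometry diag(A, (A⁻¹)ᵀ), which stabilises the two maximal totally singular subspaces x = 0 and y = 0, lies in Ω⁺_2m(F) (the commutator subgroup of the orthogonal group) if and only if det A is a square in F. -/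
theorem result {F : Type*} [Field F] [Fintype F] {m : ℕ} (hm : 1 ≤ m) (h : Fintype.card F ≠ 2 ∨ m ≠ 2) (A : GL (Fin m) F) : (∃ g : ↥(Cfsg.isometryGroup F (Cfsg.quadFormPlus m F)), g ∈ Cfsg.Omega F (Cfsg.quadFormPlus m F) ∧ ((g : Matrix.GeneralLinearGroup (Fin m ⊕ Fin m) F) : Matrix (Fin m ⊕ Fin m) (Fin m ⊕ Fin m) F) = Matrix.fromBlocks (A : Matrix (Fin m) (Fin m) F) 0 0 ((A : Matrix (Fin m) (Fin m) F)⁻¹).transpose) ↔ IsSquare (A : Matrix (Fin m) (Fin m) F).det := by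
  obtain ⟨g, hg, hs⟩ := spin_levi h A.1 A.det_ne_zero
  refine (exists_mem_Omega_iff (R := QPlus m F) g _ hg).trans ?_
  have hd : dsign g = 1 := dsign_of_mem_stab_max (QPlus_nondeg m F) (good_plus h)
    (finrank_sum_fin m) (finrank_EPlus m) (singular_EPlus m) (mem_stab_of_mem fun u hu =>
      mem_EPlus.2 fun i => by
        have : u ∘ Sum.inr = 0 := funext (mem_EPlus.1 hu)
        rw [hg, fromBlocks_mulVec, this]; simp)
  rw [mem_commutator_iff (QPlus_nondeg m F) (good_plus h), hd, hs, sqSign_eq_one_iff]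
  simp

end Cfsg.Agent.S2611
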