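import Mathlib
import Cfsg.Statements.S2612
import Cfsg.Agent.KSG.OrthMaxTS

set_option autoImplicit false
open Cfsg

namespace Cfsg.Agent.S2612


/-- For the hyperbolic quadratic form Σ x_i y_i on F^(2m) (F finite, m ≥ 1, excluding m = 2 over the field of two elements), Ω⁺_2m(F) (the commutator subgroup of the orthogonal group) contains an element interchanging the two complementary maximal totally singular subspaces {y = 0} and {x = 0} if and only if m is even (dimension divisible by 4). -/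
theorem result {F : Type*} [Field F] [Fintype F] {m : ℕ} (hm : 1 ≤ m) (h : Fintype.card F ≠ 2 ∨ m ≠ 2) : (∃ g : ↥(Cfsg.isometryGroup F (Cfsg.quadFormPlus m F)), g ∈ Cfsg.Omega F (Cfsg.quadFormPlus m F) ∧ (∀ v : Fin m ⊕ Fin m → F, (∀ i, v (Sum.inr i) = 0) → ∀ i, (((g : Matrix.GeneralLinearGroup (Fin m ⊕ Fin m) F) : Matrix (Fin m ⊕ Fin m) (Fin m ⊕ Fin m) F).mulVec v) (Sum.inl i) = 0) ∧ (∀ v : Fin m ⊕ Fin m → F, (∀ i, v (Sum.inl i) = 0) → ∀ i, (((g : Matrix.GeneralLinearGroup (Fin m ⊕ Fin m) F) : Matrix (Fin m ⊕ Fin m) (Fin m ⊕ Fin m) F).mulVec v) (Sum.inr i) = 0)) ↔ Even m := by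
  have hQ := CL.Orth.QPlus_nondeg m F
  have hF := CL.Orth.good_plus h
  have hds := CL.Orth.dsign_eq_one_iff_max hQ hF
    (CL.Orth.finrank_sum_fin m) (CL.Orth.finrank_EPlus m) (CL.Orth.singular_EPlus m)
  have key : ∀ g : CL.Orth.O (CL.Orth.QPlus m F),
      (∀ v ∈ CL.Orth.EPlus m F, g.1 v ∈ CL.Orth.FPlus m F) → (CL.Orth.dsign g = 1 ↔ Even m) := by
    intro g hg
    have h1 : (CL.Orth.EPlus m F).map (g.1 : (Fin m ⊕ Fin m → F) →ₗ[F] (Fin m ⊕ Fin m → F)) =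
        CL.Orth.FPlus m F :=
      Submodule.eq_of_le_of_finrank_eq (by rintro _ ⟨v, hv, rfl⟩; exact hg v hv)
        (by rw [CL.Orth.finrank_map_O, CL.Orth.finrank_EPlus, CL.Orth.finrank_FPlus])
    rw [hds, h1, CL.Orth.EPlus_inf_FPlus, finrank_bot, Nat.sub_zero]
  constructor
  · rintro ⟨g, hg, h1, -⟩
    have h4 := (CL.Orth.mem_Omega_iff (Q := CL.Orth.QPlus m F) g).1 hg
    exact (key _ fun v hv => CL.Orth.mem_FPlus.2 (h1 v (CL.Orth.mem_EPlus.1 hv))).1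
      ((CL.Orth.mem_commutator_iff hQ hF _).1 h4).1
  · intro hev
    let σ : CL.Orth.O (CL.Orth.QPlus m F) :=
      ⟨LinearEquiv.funCongrLeft F F (Equiv.sumComm (Fin m) (Fin m)), fun v => by
        simp [CL.Orth.QPlus_apply, mul_comm]⟩
    have hσ1 : ∀ v ∈ CL.Orth.EPlus m F, σ.1 v ∈ CL.Orth.FPlus m F := fun v hv =>
      CL.Orth.mem_FPlus.2 fun i => CL.Orth.mem_EPlus.1 hv i
    have hσ2 : ∀ v ∈ CL.Orth.FPlus m F, σ.1 v ∈ CL.Orth.EPlus m F := fun v hv =>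
      CL.Orth.mem_EPlus.2 fun i => CL.Orth.mem_FPlus.1 hv i
    obtain ⟨s, hs, h1⟩ := CL.Orth.exists_mul_mem_commutator_of_dsign hQ hF
      (CL.Orth.stab _ (CL.Orth.EPlus m F) ⊓ CL.Orth.stab _ (CL.Orth.FPlus m F)) (fun h2 => by
        obtain ⟨t, ht, hts⟩ := CL.Orth.exists_sqSign_eq_neg_one h2
        have hh := CL.Orth.QPlus_hypFam F m
        have hef := (hh.ef ⟨0, hm⟩ ⟨0, hm⟩).trans (if_pos rfl)
        refine ⟨CL.Orth.torus _ _ _ t, ⟨CL.Orth.mem_stab_of_mem fun u hu => ?_,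
          CL.Orth.mem_stab_of_mem fun u hu => ?_⟩, CL.Orth.dsign_torus hQ (hh.Qe _) (hh.Qf _) hef ht,
          by rw [CL.Orth.spin_torus hQ (hh.Qe _) (hh.Qf _) hef ht, hts]⟩
        · rw [CL.Orth.torus_apply (hh.Qe _) (hh.Qf _) hef ht, QuadraticMap.polar_comm _ (Pi.single (Sum.inl _) 1),
            CL.Orth.polar_QPlus_single_inl, CL.Orth.mem_EPlus.1 hu]
          exact CL.Orth.mem_EPlus.2 fun i => by simp [CL.Orth.mem_EPlus.1 hu]
        · rw [CL.Orth.torus_apply (hh.Qe _) (hh.Qf _) hef ht, QuadraticMap.polar_comm _ (Pi.single (Sum.inr _) 1),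
            CL.Orth.polar_QPlus_single_inr, CL.Orth.mem_FPlus.1 hu]
          exact CL.Orth.mem_FPlus.2 fun i => by simp [CL.Orth.mem_FPlus.1 hu])
      ((key σ hσ1).2 hev)
    refine ⟨(CL.Orth.toO (CL.Orth.QPlus m F)).symm (σ * s), ?_, fun v hv => ?_, fun v hv => ?_⟩
    · exact (CL.Orth.mem_Omega_iff (Q := CL.Orth.QPlus m F) _).2
        (by rwa [MulEquiv.apply_symm_apply])
    · rw [CL.Orth.toO_symm_mulVec]
      refine CL.Orth.mem_FPlus.1 (hσ1 _ ?_)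
      rw [← CL.Orth.mem_stab.1 hs.1]
      exact ⟨v, CL.Orth.mem_EPlus.2 hv, rfl⟩
    · rw [CL.Orth.toO_symm_mulVec]
      refine CL.Orth.mem_EPlus.1 (hσ2 _ ?_)
      rw [← CL.Orth.mem_stab.1 hs.2]
      exact ⟨v, CL.Orth.mem_FPlus.2 hv, rfl⟩

end Cfsg.Agent.S2612
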