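import Mathlib
import Cfsg.Statements.S2613
import Cfsg.Agent.KSG.OrthMaxTS

set_option autoImplicit false
open Cfsg

namespace Cfsg.Agent.S2613


/-- For the hyperbolic form Σ x_j y_j on F^(2m), F finite with q elements, q odd, and 1 ≤ i ≤ m: the involution negating the first i hyperbolic pairs (x_j, y_j ↦ −x_j, −y_j for j < i) and fixing the rest lies in Ω⁺_2m(q) (commutator subgroup of the orthogonal group) if and only if q^i ≡ 1 (mod 4); its (−1)-eigenspace is a hyperbolic 2i-space. -/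
theorem result {F : Type*} [Field F] [Fintype F] {q : ℕ} (hF : Fintype.card F = q) (hq : Odd q) {m : ℕ} (i : ℕ) (hi : 1 ≤ i) (him : i ≤ m) : (∃ g : ↥(Cfsg.isometryGroup F (Cfsg.quadFormPlus m F)), g ∈ Cfsg.Omega F (Cfsg.quadFormPlus m F) ∧ ((g : Matrix.GeneralLinearGroup (Fin m ⊕ Fin m) F) : Matrix (Fin m ⊕ Fin m) (Fin m ⊕ Fin m) F) = Matrix.diagonal (fun k : Fin m ⊕ Fin m => if (Sum.elim (fun j : Fin m => (j : ℕ)) (fun j : Fin m => (j : ℕ)) k) < i then (-1 : F) else 1)) ↔ q ^ i % 4 = 1 := by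
  have hQ := CL.Orth.QPlus_nondeg m F
  subst hF
  have h2 := CL.Orth.two_ne_zero_of_odd_card hq
  obtain ⟨g, h1, h3, h4⟩ := (CL.Orth.QPlus_hypFam F m).exists_torus hQ
    (fun j => if (j : ℕ) < i then (-1 : F) else 1) (fun j => by split_ifs <;> simp) Finset.univ
  refine (CL.Orth.exists_mem_Omega_iff (R := CL.Orth.QPlus m F) g _ fun v => ?_).trans ?_
  · rw [h4]
    simp only [QuadraticMap.polar_comm _ (Pi.single _ 1) v, CL.Orth.polar_QPlus_single_inl,
      CL.Orth.polar_QPlus_single_inr]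
    ext (k | k) <;> by_cases hk : (k : ℕ) < i <;>
      simp [Finset.sum_apply, Pi.single_apply, Matrix.mulVec_diagonal, hk] <;> ring
  · rw [CL.Orth.mem_commutator_iff hQ (Or.inl (CL.Orth.card_ne_two_of_two_ne_zero h2)), h1, h3,
      Finset.prod_ite, Finset.prod_const, Finset.prod_const_one, mul_one,
      CL.Orth.sqSign_pow (by simp), Fin.card_filter_val_lt, min_eq_right him,
      CL.Orth.sqSign_neg_one_pow hq]
    split_ifs with h <;> simp [h]

end Cfsg.Agent.S2613
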