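import Mathlib
import Cfsg.Statements.S2614
import Cfsg.Agent.KSG.OrthMaxTS

set_option autoImplicit false
open Cfsg

namespace Cfsg.Agent.S2614


/-- For the form x_0² + Σ x_j y_j on F^(2m+1), F finite with q elements, q odd, and 1 ≤ i ≤ m: the involution of determinant one negating the first i hyperbolic pairs (and fixing x_0 and the other pairs) lies in Ω_(2m+1)(q) (commutator subgroup of the orthogonal group) if and only if q^i ≡ 1 (mod 4); its (−1)-eigenspace is a hyperbolic 2i-space. -/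
theorem result {F : Type*} [Field F] [Fintype F] {q : ℕ} (hF : Fintype.card F = q) (hq : Odd q) {m : ℕ} (i : ℕ) (hi : 1 ≤ i) (him : i ≤ m) : (∃ g : ↥(Cfsg.isometryGroup F (Cfsg.quadFormOdd m F)), g ∈ Cfsg.Omega F (Cfsg.quadFormOdd m F) ∧ ((g : Matrix.GeneralLinearGroup (Unit ⊕ (Fin m ⊕ Fin m)) F) : Matrix (Unit ⊕ (Fin m ⊕ Fin m)) (Unit ⊕ (Fin m ⊕ Fin m)) F) = Matrix.diagonal (fun k : Unit ⊕ (Fin m ⊕ Fin m) => if (Sum.elim (fun _ : Unit => i) (Sum.elim (fun j : Fin m => (j : ℕ)) (fun j : Fin m => (j : ℕ))) k) < i then (-1 : F) else 1)) ↔ q ^ i % 4 = 1 := by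
  subst hF
  have h2 := CL.Orth.two_ne_zero_of_odd_card hq
  have hQ := CL.Orth.QOdd_nondeg m F h2
  obtain ⟨g, h1, h3, h4⟩ := (CL.Orth.QOdd_hypFam F m).exists_torus hQ
    (fun j => if (j : ℕ) < i then (-1 : F) else 1) (fun j => by split_ifs <;> simp) Finset.univ
  refine (CL.Orth.exists_mem_Omega_iff (R := CL.Orth.QOdd m F) g _ fun v => ?_).trans ?_
  · have a1 : ∀ j, QuadraticMap.polar (CL.Orth.QOdd m F) (Pi.single (Sum.inr (Sum.inl j)) 1) v =
        v (.inr (.inr j)) := fun j => by simp [CL.Orth.polar_QOdd, Pi.single_apply]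
    have a2 : ∀ j, QuadraticMap.polar (CL.Orth.QOdd m F) (Pi.single (Sum.inr (Sum.inr j)) 1) v =
        v (.inr (.inl j)) := fun j => by simp [CL.Orth.polar_QOdd, Pi.single_apply]
    rw [h4]
    simp only [a1, a2]
    ext (k | k | k)
    · simp [Finset.sum_apply, Matrix.mulVec_diagonal]
    all_goals
      by_cases hk : (k : ℕ) < i <;>
        simp [Finset.sum_apply, Pi.single_apply, Matrix.mulVec_diagonal, hk] <;> ring
  · rw [CL.Orth.mem_commutator_iff hQ (Or.inl (CL.Orth.card_ne_two_of_two_ne_zero h2)), h1, h3,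
      Finset.prod_ite, Finset.prod_const, Finset.prod_const_one, mul_one,
      CL.Orth.sqSign_pow (by simp), Fin.card_filter_val_lt, min_eq_right him,
      CL.Orth.sqSign_neg_one_pow hq]
    split_ifs with h <;> simp [h]

end Cfsg.Agent.S2614
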