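import Mathlib
import Cfsg.Statements.S2615
import Cfsg.Agent.KSG.OrthMaxTS

set_option autoImplicit false
open Cfsg

namespace Cfsg.Agent.S2615


/-- For an elliptic form Σ_(j<m−1) x_j y_j + (z₁² + a z₁z₂ + b z₂²) (anisotropic binary part) on F^(2m), F finite with q elements, q odd, and 1 ≤ i ≤ m − 1: the involution negating the first i hyperbolic pairs and fixing the rest lies in Ω⁻_2m(q) (commutator subgroup of the orthogonal group) if and only if q^i ≡ 1 (mod 4). -/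
theorem result {F : Type*} [Field F] [Fintype F] {q : ℕ} (hF : Fintype.card F = q) (hq : Odd q) {m : ℕ} (a b : F) (hab : ∀ z₁ z₂ : F, z₁ ^ 2 + a * z₁ * z₂ + b * z₂ ^ 2 = 0 → z₁ = 0 ∧ z₂ = 0) (i : ℕ) (hi : 1 ≤ i) (him : i + 1 ≤ m) : (∃ g : ↥(Cfsg.isometryGroup F (Cfsg.quadFormMinus (m - 1) F a b)), g ∈ Cfsg.Omega F (Cfsg.quadFormMinus (m - 1) F a b) ∧ ((g : Matrix.GeneralLinearGroup ((Fin (m - 1) ⊕ Fin (m - 1)) ⊕ Fin 2) F) : Matrix ((Fin (m - 1) ⊕ Fin (m - 1)) ⊕ Fin 2) ((Fin (m - 1) ⊕ Fin (m - 1)) ⊕ Fin 2) F) = Matrix.diagonal (fun k : (Fin (m - 1) ⊕ Fin (m - 1)) ⊕ Fin 2 => if (Sum.elim (Sum.elim (fun j : Fin (m - 1) => (j : ℕ)) (fun j : Fin (m - 1) => (j : ℕ))) (fun _ : Fin 2 => i) k) < i then (-1 : F) else 1)) ↔ q ^ i % 4 = 1 := by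
  subst hF
  have h2 := CL.Orth.two_ne_zero_of_odd_card hq
  have hQ := CL.Orth.QMinus_nondeg (m - 1) F hab
  obtain ⟨g, h1, h3, h4⟩ := (CL.Orth.QMinus_hypFam F (m - 1) a b).exists_torus hQ
    (fun j => if (j : ℕ) < i then (-1 : F) else 1) (fun j => by split_ifs <;> simp) Finset.univ
  refine (CL.Orth.exists_mem_Omega_iff (R := CL.Orth.QMinus (m - 1) F a b) g _ fun v => ?_).trans ?_
  · have a1 : ∀ j, QuadraticMap.polar (CL.Orth.QMinus (m - 1) F a b)
        (Pi.single (Sum.inl (Sum.inl j)) 1) v =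
        v (.inl (.inr j)) := fun j => by simp [CL.Orth.polar_QMinus, Pi.single_apply]
    have a2 : ∀ j, QuadraticMap.polar (CL.Orth.QMinus (m - 1) F a b)
        (Pi.single (Sum.inl (Sum.inr j)) 1) v =
        v (.inl (.inl j)) := fun j => by simp [CL.Orth.polar_QMinus, Pi.single_apply]
    rw [h4]
    simp only [a1, a2]
    ext ((k | k) | k)
    rotate_left 2
    · simp [Finset.sum_apply, Matrix.mulVec_diagonal]
    all_goals
      by_cases hk : (k : ℕ) < i <;>
        simp [Finset.sum_apply, Pi.single_apply, Matrix.mulVec_diagonal, hk] <;> ring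
  · rw [CL.Orth.mem_commutator_iff hQ (Or.inl (CL.Orth.card_ne_two_of_two_ne_zero h2)), h1, h3,
      Finset.prod_ite, Finset.prod_const, Finset.prod_const_one, mul_one,
      CL.Orth.sqSign_pow (by simp), Fin.card_filter_val_lt, min_eq_right (by omega),
      CL.Orth.sqSign_neg_one_pow hq]
    split_ifs with h <;> simp [h]

end Cfsg.Agent.S2615
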