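import Mathlib
import Cfsg.Statements.S2616
import Cfsg.Agent.KSG.OrthOmega

set_option autoImplicit false
open Cfsg

namespace Cfsg.Agent.S2616


/-- Standard bases of a non-degenerate quadratic space of even dimension 2m over a finite field: either there is a hyperbolic basis e_i, f_i (Q(e_i) = Q(f_i) = 0, B(e_i, f_j) = δ_ij, the e's pairwise orthogonal and the f's pairwise orthogonal, B the polar form), or there is an elliptic basis: hyperbolic pairs e_i, f_i for i < m − 1 together with x, y orthogonal to them with Q(x) = 1, B(x, y) = 1, Q(y) = ζ where t² + t + ζ has no root in the field. -/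
theorem result {F V : Type*} [Field F] [Finite F] [AddCommGroup V] [Module F V] [FiniteDimensional F V] {m : ℕ} (hm : 1 ≤ m) (hV : Module.finrank F V = 2 * m) (Q : QuadraticForm F V) (hQ : (QuadraticMap.polarBilin Q).Nondegenerate) : (∃ b : Module.Basis (Fin m ⊕ Fin m) F V, (∀ i, Q (b (Sum.inl i)) = 0 ∧ Q (b (Sum.inr i)) = 0) ∧ (∀ i j, QuadraticMap.polar ⇑Q (b (Sum.inl i)) (b (Sum.inr j)) = if i = j then 1 else 0) ∧ (∀ i j, QuadraticMap.polar ⇑Q (b (Sum.inl i)) (b (Sum.inl j)) = 0 ∧ QuadraticMap.polar ⇑Q (b (Sum.inr i)) (b (Sum.inr j)) = 0)) ∨ (∃ (b : Module.Basis ((Fin (m - 1) ⊕ Fin (m - 1)) ⊕ Fin 2) F V) (ζ : F), (∀ t : F, t ^ 2 + t + ζ ≠ 0) ∧ (∀ i, Q (b (Sum.inl (Sum.inl i))) = 0 ∧ Q (b (Sum.inl (Sum.inr i))) = 0) ∧ (∀ i j, QuadraticMap.polar ⇑Q (b (Sum.inl (Sum.inl i))) (b (Sum.inl (Sum.inr j))) = if i = j then 1 else 0) ∧ (∀ i j, QuadraticMap.polar ⇑Q (b (Sum.inl (Sum.inl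 i))) (b (Sum.inl (Sum.inl j))) = 0 ∧ QuadraticMap.polar ⇑Q (b (Sum.inl (Sum.inr i))) (b (Sum.inl (Sum.inr j))) = 0) ∧ (∀ i (k : Fin 2), QuadraticMap.polar ⇑Q (b (Sum.inl (Sum.inl i))) (b (Sum.inr k)) = 0 ∧ QuadraticMap.polar ⇑Q (b (Sum.inl (Sum.inr i))) (b (Sum.inr k)) = 0) ∧ Q (b (Sum.inr 0)) = 1 ∧ QuadraticMap.polar ⇑Q (b (Sum.inr 0)) (b (Sum.inr 1)) = 1 ∧ Q (b (Sum.inr 1)) = ζ) := by
  obtain ⟨k, rfl⟩ : ∃ k, m = k + 1 := ⟨m - 1, by omega⟩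
  rcases CL.Orth.even_structure hQ hV with ⟨e, f, h⟩ | ⟨e, f, x, y, h, hx, hy, hQx, hxy, hζ⟩
  · obtain ⟨φ, -, hφ⟩ := h.exists_isometry_plus hV
    left
    refine ⟨(Pi.basisFun F _).map φ, ?_⟩
    simp only [Module.Basis.map_apply, Pi.basisFun_apply, hφ, Sum.elim_inl, Sum.elim_inr]
    exact ⟨fun i => ⟨h.Qe i, h.Qf i⟩, h.ef, fun i j => ⟨h.ee i j, h.ff i j⟩⟩
  · obtain ⟨φ, -, hφ⟩ := h.exists_isometry_minus (by omega)
      (CL.Orth.disc_ne_zero_of_aniso (CL.Orth.aniso_of_irred hζ)) hx hy hQx hxy rfl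
    right
    refine ⟨(Pi.basisFun F ((Fin k ⊕ Fin k) ⊕ Fin 2)).map φ, Q y, hζ, ?_⟩
    have hb : ∀ i, ((Pi.basisFun F ((Fin k ⊕ Fin k) ⊕ Fin 2)).map φ) i =
        Sum.elim (Sum.elim e f) ![x, y] i := by
      intro i
      rw [Module.Basis.map_apply, Pi.basisFun_apply, hφ]
    refine ⟨fun i => ⟨?_, ?_⟩, fun i j => ?_, fun i j => ⟨?_, ?_⟩, fun i l => ⟨?_, ?_⟩, ?_, ?_, ?_⟩
    · exact (congrArg Q (hb _)).trans (h.Qe i)
    · exact (congrArg Q (hb _)).trans (h.Qf i)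
    · exact (congrArg₂ (QuadraticMap.polar Q) (hb _) (hb _)).trans (h.ef i j)
    · exact (congrArg₂ (QuadraticMap.polar Q) (hb _) (hb _)).trans (h.ee i j)
    · exact (congrArg₂ (QuadraticMap.polar Q) (hb _) (hb _)).trans (h.ff i j)
    · refine (congrArg₂ (QuadraticMap.polar Q) (hb _) (hb _)).trans ?_
      fin_cases l
      · exact CL.Orth.mem_perp_span.1 hx _ ⟨Sum.inl i, rfl⟩
      · exact CL.Orth.mem_perp_span.1 hy _ ⟨Sum.inl i, rfl⟩
    · refine (congrArg₂ (QuadraticMap.polar Q) (hb _) (hb _)).trans ?_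
      fin_cases l
      · exact CL.Orth.mem_perp_span.1 hx _ ⟨Sum.inr i, rfl⟩
      · exact CL.Orth.mem_perp_span.1 hy _ ⟨Sum.inr i, rfl⟩
    · exact (congrArg Q (hb _)).trans hQx
    · exact (congrArg₂ (QuadraticMap.polar Q) (hb _) (hb _)).trans hxy
    · exact (congrArg Q (hb _))

end Cfsg.Agent.S2616
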