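import Cfsg.Statements.S2617


set_option autoImplicit false
open Cfsg

namespace Cfsg.Agent.S2617

theorem aniso {F : Type*} [Field F] (ζ : F) (hζ : ∀ t : F, t ^ 2 + t + ζ ≠ 0) (a b : F)
    (h : a ^ 2 + 1 * a * b + ζ * b ^ 2 = 0) : a = 0 ∧ b = 0 := by
  by_cases hb : b = 0
  · subst hb
    simpa using h
  · exfalso
    apply hζ (a / b)
    field_simp
    linear_combination h

/-- The two standard quadratic forms of even dimension 2m over a finite field are not isometric: there is no linear isomorphism carrying the elliptic form Σ_(i<m−1) x_i y_i + z₁² + z₁z₂ + ζ z₂² (t² + t + ζ without roots) to the hyperbolic form Σ_(i<m) x_i y_i (they have different Witt index). -/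
theorem result {F : Type*} [Field F] [Finite F] {m : ℕ} (hm : 1 ≤ m) (ζ : F) (hζ : ∀ t : F, t ^ 2 + t + ζ ≠ 0) (g : (Fin m ⊕ Fin m → F) ≃ₗ[F] ((Fin (m - 1) ⊕ Fin (m - 1)) ⊕ Fin 2 → F)) : ¬ (∀ v : Fin m ⊕ Fin m → F, Cfsg.quadFormMinus (m - 1) F 1 ζ (g v) = Cfsg.quadFormPlus m F v) := by
  classical
  intro hQ
  let ι : (Fin m → F) →ₗ[F] (Fin m ⊕ Fin m → F) :=
    { toFun := fun u => Sum.elim u 0
      map_add' := fun u v => by ext (i | i) <;> simp
      map_smul' := fun c u => by ext (i | i) <;> simp }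
  have hι : Function.Injective ι := fun u v h => funext fun i => congrFun h (Sum.inl i)
  let T : (Fin m → F) →ₗ[F] ((Fin (m - 1) ⊕ Fin (m - 1)) ⊕ Fin 2 → F) := g.toLinearMap ∘ₗ ι
  have hT : Function.Injective T := g.injective.comp hι
  have hT0 : ∀ u, Cfsg.quadFormMinus (m - 1) F 1 ζ (T u) = 0 := by
    intro u
    have := hQ (ι u)
    refine this.trans ?_
    simp [Cfsg.quadFormPlus, ι]
  let π : (Fin m → F) →ₗ[F] (Fin (m - 1) → F) :=
    LinearMap.funLeft F F (fun i => Sum.inl (Sum.inr i)) ∘ₗ T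
  let ξ : (Fin m → F) →ₗ[F] (Fin (m - 1) → F) :=
    LinearMap.funLeft F F (fun i => Sum.inl (Sum.inl i)) ∘ₗ T
  have hπ : ∀ u i, π u i = T u (Sum.inl (Sum.inr i)) := fun _ _ => rfl
  have hξ : ∀ u i, ξ u i = T u (Sum.inl (Sum.inl i)) := fun _ _ => rfl
  have hker : ∀ k ∈ LinearMap.ker π, (∀ i, T k (Sum.inl (Sum.inr i)) = 0) ∧
      T k (Sum.inr 0) = 0 ∧ T k (Sum.inr 1) = 0 := by
    intro k hk
    have h1 : ∀ i, T k (Sum.inl (Sum.inr i)) = 0 := fun i => by
      rw [← hπ, LinearMap.mem_ker.mp hk]; rfl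
    refine ⟨h1, aniso ζ hζ _ _ ?_⟩
    have := hT0 k
    simpa [Cfsg.quadFormMinus, h1] using this
  have hinj : Disjoint (LinearMap.ker π) (LinearMap.ker ξ) := by
    rw [Submodule.disjoint_def]
    intro k hk hk'
    obtain ⟨h1, h2, h3⟩ := hker k hk
    apply hT
    rw [map_zero]
    ext ((i | i) | i)
    · rw [← hξ, LinearMap.mem_ker.mp hk']; rfl
    · exact h1 i
    · fin_cases i
      · exact h2
      · exact h3
  let B : LinearMap.BilinForm F (Fin (m - 1) → F) := Matrix.toBilin' 1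
  have hB : B.Nondegenerate := by
    rw [LinearMap.BilinForm.nondegenerate_toBilin'_iff_det_ne_zero]; simp
  have hle : LinearMap.range π ≤ B.orthogonal ((LinearMap.ker π).map ξ) := by
    rintro _ ⟨u, rfl⟩ _ ⟨k, hk, rfl⟩
    obtain ⟨h1, h2, h3⟩ := hker k hk
    have e1 := hT0 (u + k)
    have e2 := hT0 u
    simp only [Cfsg.quadFormMinus, map_add, Pi.add_apply, h1, h2, h3, add_zero, add_mul,
      Finset.sum_add_distrib] at e1 e2
    simp only [B, Matrix.toBilin'_apply', Matrix.one_mulVec, dotProduct, hξ, hπ]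
    linear_combination e1 - e2
  have d1 := Submodule.finrank_mono hle
  rw [LinearMap.BilinForm.finrank_orthogonal hB] at d1
  have d2 := LinearMap.finrank_range_add_finrank_ker π
  have d3 : Module.finrank F ((LinearMap.ker π).map ξ) = Module.finrank F (LinearMap.ker π) := by
    have hi : Function.Injective (ξ.domRestrict (LinearMap.ker π)) := by
      rw [← LinearMap.ker_eq_bot, LinearMap.ker_domRestrict, ← Submodule.disjoint_iff_comap_eq_bot]
      exact hinj
    rw [← LinearMap.range_domRestrict, LinearMap.finrank_range_of_inj hi]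
  have d4 := Submodule.finrank_le ((LinearMap.ker π).map ξ)
  simp only [Module.finrank_fintype_fun_eq_card, Fintype.card_fin] at d1 d2 d4
  omega

end Cfsg.Agent.S2617
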