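import Mathlib
import Cfsg.Statements.S2618
import Cfsg.Agent.KSG.OrthOmega

set_option autoImplicit false
open Cfsg

namespace Cfsg.Agent.S2618


/-- Standard (parabolic) basis of a non-degenerate quadratic space of odd dimension 2m + 1 over a finite field (the non-degeneracy of the polar form forces the characteristic to be odd): there is a basis e_i, f_i (i < m), x with Q(e_i) = Q(f_i) = 0, B(e_i, f_j) = δ_ij (B the polar form), the e's pairwise orthogonal and the f's pairwise orthogonal, x orthogonal to all of them and Q(x) ≠ 0. -/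
theorem result {F V : Type*} [Field F] [Finite F] [AddCommGroup V] [Module F V] [FiniteDimensional F V] {m : ℕ} (hV : Module.finrank F V = 2 * m + 1) (Q : QuadraticForm F V) (hQ : (QuadraticMap.polarBilin Q).Nondegenerate) : ∃ b : Module.Basis (Unit ⊕ (Fin m ⊕ Fin m)) F V, Q (b (Sum.inl ())) ≠ 0 ∧ (∀ i, QuadraticMap.polar ⇑Q (b (Sum.inl ())) (b (Sum.inr (Sum.inl i))) = 0 ∧ QuadraticMap.polar ⇑Q (b (Sum.inl ())) (b (Sum.inr (Sum.inr i))) = 0) ∧ (∀ i, Q (b (Sum.inr (Sum.inl i))) = 0 ∧ Q (b (Sum.inr (Sum.inr i))) = 0) ∧ (∀ i j, QuadraticMap.polar ⇑Q (b (Sum.inr (Sum.inl i))) (b (Sum.inr (Sum.inr j))) = if i = j then 1 else 0) ∧ (∀ i j, QuadraticMap.polar ⇑Q (b (Sum.inr (Sum.inl i))) (b (Sum.inr (Sum.inl j))) = 0 ∧ QuadraticMap.polar ⇑Q (b (Sum.inr (Sum.inr i))) (b (Sum.inr (Sum.inr j))) = 0) := by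
  obtain ⟨e, f, x, h, hx, hQx⟩ := CL.Orth.odd_structure hQ hV
  have h' : CL.Orth.IsHypFam Q (fun i => (Q x)⁻¹ • e i) (fun i => Q x • f i) := by
    refine ⟨fun i => ?_, fun i => ?_, fun i j => ?_, fun i j => ?_, fun i j => ?_⟩
    · rw [CL.Orth.Q_smul, h.Qe, mul_zero]
    · rw [CL.Orth.Q_smul, h.Qf, mul_zero]
    · rw [CL.Orth.polar_smul_left', CL.Orth.polar_smul_right', h.ee, mul_zero, mul_zero]
    · rw [CL.Orth.polar_smul_left', CL.Orth.polar_smul_right', h.ff, mul_zero, mul_zero]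
    · rw [CL.Orth.polar_smul_left', CL.Orth.polar_smul_right', h.ef, ← mul_assoc,
        inv_mul_cancel₀ hQx, one_mul]
  obtain ⟨φ, -, hφ⟩ := h.exists_isometry_odd (CL.Orth.two_ne_zero_of_odd hQ ⟨m, hV⟩) hV hx hQx
  let u : Unit ⊕ (Fin m ⊕ Fin m) → Fˣ := Sum.elim (fun _ => 1)
    (Sum.elim (fun _ => (Units.mk0 _ hQx)⁻¹) (fun _ => 1))
  refine ⟨((Pi.basisFun F _).map φ).unitsSMul u, ?_⟩
  have hxe : ∀ i, QuadraticMap.polar Q x (e i) = 0 := fun i => by
    rw [QuadraticMap.polar_comm]; exact CL.Orth.mem_perp_span.1 hx _ ⟨Sum.inl i, rfl⟩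
  have hxf : ∀ i, QuadraticMap.polar Q x (f i) = 0 := fun i => by
    rw [QuadraticMap.polar_comm]; exact CL.Orth.mem_perp_span.1 hx _ ⟨Sum.inr i, rfl⟩
  simp only [Module.Basis.unitsSMul_apply, Module.Basis.map_apply, Pi.basisFun_apply, hφ,
    Sum.elim_inl, Sum.elim_inr, u, one_smul, Units.smul_def, Units.val_inv_eq_inv_val,
    Units.val_mk0, smul_smul, inv_mul_cancel₀ hQx, Units.val_one]
  exact ⟨hQx, fun i => ⟨hxe i, hxf i⟩, fun i => ⟨h.Qe i, h.Qf i⟩, h.ef,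
    fun i j => ⟨h.ee i j, h.ff i j⟩⟩

end Cfsg.Agent.S2618
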