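import Cfsg.Statements.S2620
import Cfsg.Agent.KSG.GramDisc

set_option autoImplicit false
open Cfsg

namespace Cfsg.Agent.S2620

/-- Discriminant of the hyperbolic quadratic form Σ_(i<m) x_i y_i over a field with q elements, q odd, m ≥ 1: the determinant of the Gram matrix of its polar form in any basis is a square if and only if m(q − 1)/2 is even (equivalently q^m ≡ 1 (mod 4)). -/
theorem result {F : Type*} [Field F] [Fintype F] {q : ℕ} (hF : Fintype.card F = q) (hq : Odd q) {m : ℕ} (hm : 1 ≤ m) {ι : Type*} [Fintype ι] [DecidableEq ι] (b : Module.Basis ι F (Fin m ⊕ Fin m → F)) : IsSquare (Matrix.of (fun i j : ι => QuadraticMap.polar (Cfsg.quadFormPlus m F) (b i) (b j))).det ↔ Even (m * (q - 1) / 2) := by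
  have h : ∀ u v : Fin m ⊕ Fin m → F, QuadraticMap.polar (Cfsg.quadFormPlus m F) u v =
      u ⬝ᵥ ((Matrix.fromBlocks (0 : Matrix (Fin m) (Fin m) F) 1 1
        (0 : Matrix (Fin m) (Fin m) F)).mulVec v) := by
    intro u v
    simp only [QuadraticMap.polar, Cfsg.quadFormPlus, Matrix.fromBlocks_mulVec, dotProduct,
      Fintype.sum_sum_type, Pi.add_apply]
    simp only [Matrix.zero_mulVec, Matrix.one_mulVec, zero_add, add_zero, Sum.elim_inl,
      Sum.elim_inr, Function.comp_apply]
    rw [← Finset.sum_sub_distrib, ← Finset.sum_sub_distrib, ← Finset.sum_add_distrib]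
    exact Finset.sum_congr rfl fun i _ => by ring
  simp only [h]
  obtain ⟨d, hd, hdet⟩ := CL.GramDisc.det_gram_basis
    (Matrix.fromBlocks (0 : Matrix (Fin m) (Fin m) F) 1 1 (0 : Matrix (Fin m) (Fin m) F)) b
  rw [hdet, CL.GramDisc.isSquare_mul_sq_iff hd, CL.GramDisc.det_hyperbolic,
    CL.GramDisc.isSquare_neg_one_pow_iff hF hq]

end Cfsg.Agent.S2620
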