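import Cfsg.Statements.S2621
import Cfsg.Agent.KSG.GramDisc

set_option autoImplicit false
open Cfsg

namespace Cfsg.Agent.S2621

/-- Discriminant of an elliptic quadratic form Σ_(i<m−1) x_i y_i + z₁² + a z₁z₂ + c z₂² (binary part anisotropic) in dimension 2m over a field with q elements, q odd, m ≥ 1: the determinant of the Gram matrix of its polar form in any basis is a square if and only if m(q − 1)/2 is odd (equivalently q^m ≡ 3 (mod 4)). -/
theorem result {F : Type*} [Field F] [Fintype F] {q : ℕ} (hF : Fintype.card F = q) (hq : Odd q) {m : ℕ} (hm : 1 ≤ m) (a c : F) (hac : ∀ z₁ z₂ : F, z₁ ^ 2 + a * z₁ * z₂ + c * z₂ ^ 2 = 0 → z₁ = 0 ∧ z₂ = 0) {ι : Type*} [Fintype ι] [DecidableEq ι] (b : Module.Basis ι F ((Fin (m - 1) ⊕ Fin (m - 1)) ⊕ Fin 2 → F)) : IsSquare (Matrix.of (fun i j : ι => QuadraticMap.polar (Cfsg.quadFormMinus (m - 1) F a c) (b i) (b j))).det ↔ ¬ Even (m * (q - 1) / 2) := by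
  classical
  have hmk : m = (m - 1) + 1 := by omega
  rw [show m * (q - 1) / 2 = ((m - 1) + 1) * (q - 1) / 2 by rw [← hmk]]
  revert b
  generalize m - 1 = k
  intro b
  let A : Matrix ((Fin k ⊕ Fin k) ⊕ Fin 2) ((Fin k ⊕ Fin k) ⊕ Fin 2) F :=
    Matrix.fromBlocks (Matrix.fromBlocks (0 : Matrix (Fin k) (Fin k) F) 1 1
        (0 : Matrix (Fin k) (Fin k) F)) 0 0 !![2, a; a, 2 * c]
  have h : ∀ u v : (Fin k ⊕ Fin k) ⊕ Fin 2 → F,
      QuadraticMap.polar (Cfsg.quadFormMinus k F a c) u v = u ⬝ᵥ (A.mulVec v) := by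
    intro u v
    simp only [A, QuadraticMap.polar, Cfsg.quadFormMinus, Matrix.fromBlocks_mulVec, dotProduct,
      Fintype.sum_sum_type, Pi.add_apply]
    simp only [Matrix.zero_mulVec, Matrix.one_mulVec, zero_add, add_zero, Sum.elim_inl,
      Sum.elim_inr, Function.comp_apply, Pi.zero_apply, Fin.sum_univ_two, Matrix.mulVec,
      dotProduct]
    have : ∑ i : Fin k, (u (Sum.inl (Sum.inl i)) + v (Sum.inl (Sum.inl i))) *
        (u (Sum.inl (Sum.inr i)) + v (Sum.inl (Sum.inr i))) =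
        ∑ i : Fin k, u (Sum.inl (Sum.inl i)) * u (Sum.inl (Sum.inr i)) +
        ∑ i : Fin k, v (Sum.inl (Sum.inl i)) * v (Sum.inl (Sum.inr i)) +
        ∑ i : Fin k, u (Sum.inl (Sum.inl i)) * v (Sum.inl (Sum.inr i)) +
        ∑ i : Fin k, u (Sum.inl (Sum.inr i)) * v (Sum.inl (Sum.inl i)) := by
      rw [← Finset.sum_add_distrib, ← Finset.sum_add_distrib, ← Finset.sum_add_distrib]
      exact Finset.sum_congr rfl fun i _ => by ring
    rw [this]
    simp [Matrix.one_apply]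
    ring
  simp only [h]
  obtain ⟨d, hd, hdet⟩ := CL.GramDisc.det_gram_basis A b
  have hA : A.det = (-1) ^ (k + 1) * (a ^ 2 - 4 * c) := by
    simp only [A, Matrix.det_fromBlocks_zero₂₁, CL.GramDisc.det_hyperbolic, Matrix.det_fin_two_of]
    ring
  have h2 : (2 : F) ≠ 0 := by
    have hc : ringChar F ≠ 2 := by
      intro hc
      have := FiniteField.even_card_of_char_two hc
      rw [hF] at this
      rcases hq with ⟨r, hr⟩
      omega
    exact Ring.two_ne_zero hc
  have hns : ¬ IsSquare (a ^ 2 - 4 * c) := by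
    rintro ⟨r, hr⟩
    have := (hac (r - a) 2 (by linear_combination -hr)).2
    exact h2 this
  rw [hdet, CL.GramDisc.isSquare_mul_sq_iff hd, hA,
    ← CL.GramDisc.isSquare_neg_one_pow_iff hF hq]
  have hx : ((-1 : F) ^ (k + 1)) ≠ 0 := pow_ne_zero _ (neg_ne_zero.2 one_ne_zero)
  have hδ : a ^ 2 - 4 * c ≠ 0 := fun h0 => hns (h0 ▸ IsSquare.zero)
  rw [← quadraticChar_one_iff_isSquare (mul_ne_zero hx hδ), map_mul,
    quadraticChar_neg_one_iff_not_isSquare.2 hns, ← quadraticChar_neg_one_iff_not_isSquare]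
  constructor <;> intro h' <;> linarith

end Cfsg.Agent.S2621
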