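import Mathlib
import Cfsg.Statements.S2623
import Cfsg.Agent.KSG.OrthOmega

set_option autoImplicit false
open Cfsg

namespace Cfsg.Agent.S2623


/-- Over a finite field of odd order, two quadratic forms on F^n with non-degenerate polar forms are isometric (related by an invertible linear change of variables) if and only if their discriminants (determinants of the Gram matrices of their polar forms) lie in the same square class. -/
theorem result {F : Type*} [Field F] [Fintype F] (h2 : (2 : F) ≠ 0) {n : ℕ} (Q₁ Q₂ : QuadraticForm F (Fin n → F)) (h₁ : (QuadraticMap.polarBilin Q₁).Nondegenerate) (h₂ : (QuadraticMap.polarBilin Q₂).Nondegenerate) : (∃ g : (Fin n → F) ≃ₗ[F] (Fin n → F), ∀ v, Q₂ (g v) = Q₁ v) ↔ IsSquare ((Matrix.of (fun i j : Fin n => QuadraticMap.polar ⇑Q₁ (Pi.single i 1) (Pi.single j 1))).det * (Matrix.of (fun i j : Fin n => QuadraticMap.polar ⇑Q₂ (Pi.single i 1) (Pi.single j 1))).det) := by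
  have e1 := CL.Orth.gram_det_ne_zero h₁ (Pi.basisFun F (Fin n))
  have e2 := CL.Orth.gram_det_ne_zero h₂ (Pi.basisFun F (Fin n))
  have g1 : ∀ Q : QuadraticForm F (Fin n → F), CL.Orth.gram Q (Pi.basisFun F (Fin n)) =
      Matrix.of (fun i j : Fin n => QuadraticMap.polar ⇑Q (Pi.single i 1) (Pi.single j 1)) := by
    intro Q
    ext i j
    simp [CL.Orth.gram_apply]
  rw [g1] at e1 e2
  rw [← CL.Orth.sqSign_eq_iff e1 e2, ← CL.Orth.dsc_eq_std h₁, ← CL.Orth.dsc_eq_std h₂]
  constructor
  · rintro ⟨g, hg⟩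
    exact (CL.Orth.dsc_congr h₁ g hg).symm
  · exact CL.Orth.exists_isometry_of_dsc_eq h2 h₁ h₂ rfl

end Cfsg.Agent.S2623
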