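import Cfsg.Statements.S2625
import Cfsg.Agent.KSG.GramDisc

set_option autoImplicit false
open Cfsg

namespace Cfsg.Agent.S2625

/-- For a quadratic form Q on F^n with non-degenerate polar form, F finite and n odd (so |F| is odd), the multiplier of any similarity is a square: if g is an invertible linear map with Q(g v) = c·Q(v) for all v then c is a square. -/
theorem result {F : Type*} [Field F] [Fintype F] {n : ℕ} (hn : Odd n) (Q : QuadraticForm F (Fin n → F)) (hQ : (QuadraticMap.polarBilin Q).Nondegenerate) (g : (Fin n → F) ≃ₗ[F] (Fin n → F)) (c : F) (hg : ∀ v, Q (g v) = c * Q v) : IsSquare c := by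
  classical
  let A : Matrix (Fin n) (Fin n) F :=
    LinearMap.toMatrix₂ (Pi.basisFun F (Fin n)) (Pi.basisFun F (Fin n)) (QuadraticMap.polarBilin Q)
  have hA : A.det ≠ 0 := (LinearMap.nondegenerate_iff_det_ne_zero (Pi.basisFun F (Fin n))).1 hQ
  have hform : ∀ u v : Fin n → F, QuadraticMap.polar Q u v = u ⬝ᵥ A.mulVec v := by
    intro u v
    have := LinearMap.toMatrix₂_toLinearMap₂ (Pi.basisFun F (Fin n)) (Pi.basisFun F (Fin n)) A
    have h2 : Matrix.toLinearMap₂ (Pi.basisFun F (Fin n)) (Pi.basisFun F (Fin n)) A =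
        QuadraticMap.polarBilin Q := Matrix.toLinearMap₂_toMatrix₂ _ _ _
    rw [← QuadraticMap.polarBilin_apply_apply, ← h2, Matrix.toLinearMap₂_apply]
    simp only [Pi.basisFun_repr, dotProduct, Matrix.mulVec, Finset.mul_sum, smul_eq_mul]
    refine Finset.sum_congr rfl fun x _ => Finset.sum_congr rfl fun y _ => by ring
  obtain ⟨d, hd, hdet⟩ := CL.GramDisc.det_gram_basis A ((Pi.basisFun F (Fin n)).map g)
  have hM : (Matrix.of (fun i j : Fin n => ((Pi.basisFun F (Fin n)).map g) i ⬝ᵥ
      (A.mulVec (((Pi.basisFun F (Fin n)).map g) j)))) = c • A := by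
    ext i j
    simp only [Matrix.of_apply, Module.Basis.map_apply, ← hform, Matrix.smul_apply, smul_eq_mul]
    have : A i j = QuadraticMap.polar Q (Pi.basisFun F (Fin n) i) (Pi.basisFun F (Fin n) j) := by
      simp [A, LinearMap.toMatrix₂_apply]
    rw [this]
    simp only [QuadraticMap.polar, ← map_add, hg]
    ring
  rw [hM, Matrix.det_smul, Fintype.card_fin] at hdet
  have h1 : c ^ n = d ^ 2 := by
    apply mul_right_cancel₀ hA
    rw [hdet]; ring
  obtain ⟨k, rfl⟩ := hn
  have hc : c ≠ 0 := by
    rintro rfl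
    rw [zero_pow (by omega)] at h1
    exact hd (pow_eq_zero_iff (by norm_num) |>.1 h1.symm)
  refine ⟨d / c ^ k, ?_⟩
  field_simp
  linear_combination h1

end Cfsg.Agent.S2625
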