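import Cfsg.Statements.S2626

set_option autoImplicit false
open Cfsg

namespace Cfsg.Agent.S2626

/-- Block diagonal embedding of general linear groups. -/
def blockGL {F : Type*} [Field F] {k l : ℕ} :
    Matrix.GeneralLinearGroup (Fin k) F × Matrix.GeneralLinearGroup (Fin l) F →*
      Matrix.GeneralLinearGroup (Fin k ⊕ Fin l) F where
  toFun p := ⟨Matrix.fromBlocks p.1.val 0 0 p.2.val, Matrix.fromBlocks p.1.inv 0 0 p.2.inv,
    by simp [Matrix.fromBlocks_multiply], by simp [Matrix.fromBlocks_multiply]⟩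
  map_one' := by ext1; simp
  map_mul' p q := by
    apply Units.ext
    simp [Matrix.fromBlocks_multiply]

/-- Block diagonal embedding of isometry groups. -/
def blockIso {F : Type*} [Field F] {k l : ℕ} (Q₁ : (Fin k → F) → F) (Q₂ : (Fin l → F) → F) :
    ↥(Cfsg.isometryGroup F Q₁) × ↥(Cfsg.isometryGroup F Q₂) →*
      ↥(Cfsg.isometryGroup F (fun v : Fin k ⊕ Fin l → F => Q₁ (v ∘ Sum.inl) + Q₂ (v ∘ Sum.inr))) :=
  (blockGL.comp ((Cfsg.isometryGroup F Q₁).subtype.prodMap (Cfsg.isometryGroup F Q₂).subtype)).codRestrict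
    _ (by
      rintro ⟨g₁, g₂⟩ u v
      have h1 := g₁.2 (u ∘ Sum.inl) (u ∘ Sum.inl)
      have h2 := g₂.2 (u ∘ Sum.inr) (u ∘ Sum.inr)
      simp only [Units.coeHom_apply] at h1 h2
      simp [blockGL, Matrix.fromBlocks_mulVec, h1, h2])

/-- Ω of an orthogonal direct sum contains the product of the Ω's: for quadratic forms Q₁ on F^k and Q₂ on F^l with non-degenerate polar forms (F finite) and Q = Q₁ ⊕ Q₂ on F^(k+l), if g₁ lies in Ω(Q₁) and g₂ in Ω(Q₂) (commutator subgroups of the orthogonal groups) then the block-diagonal isometry diag(g₁, g₂) lies in Ω(Q). -/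
theorem result {F : Type*} [Field F] [Fintype F] {k l : ℕ} (Q₁ : QuadraticForm F (Fin k → F)) (Q₂ : QuadraticForm F (Fin l → F)) (h₁ : (QuadraticMap.polarBilin Q₁).Nondegenerate) (h₂ : (QuadraticMap.polarBilin Q₂).Nondegenerate) (g₁ : ↥(Cfsg.isometryGroup F ⇑Q₁)) (g₂ : ↥(Cfsg.isometryGroup F ⇑Q₂)) (hg₁ : g₁ ∈ Cfsg.Omega F ⇑Q₁) (hg₂ : g₂ ∈ Cfsg.Omega F ⇑Q₂) : ∃ g : ↥(Cfsg.isometryGroup F (fun v : Fin k ⊕ Fin l → F => Q₁ (v ∘ Sum.inl) + Q₂ (v ∘ Sum.inr))), g ∈ Cfsg.Omega F (fun v : Fin k ⊕ Fin l → F => Q₁ (v ∘ Sum.inl) + Q₂ (v ∘ Sum.inr)) ∧ ((g : Matrix.GeneralLinearGroup (Fin k ⊕ Fin l) F) : Matrix (Fin k ⊕ Fin l) (Fin k ⊕ Fin l) F) = Matrix.fromBlocks ((g₁ : Matrix.GeneralLinearGroup (Fin k) F) : Matrix (Fin k) (Fin k) F) 0 0 ((g₂ : Matrix.GeneralLinearGroup (Fin l) F) : Matrix (Fin l) (Fin l) F) := by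
  refine ⟨blockIso Q₁ Q₂ (g₁, g₂), ?_, rfl⟩
  have h : (g₁, g₂) ∈ commutator (↥(Cfsg.isometryGroup F ⇑Q₁) × ↥(Cfsg.isometryGroup F ⇑Q₂)) := by
    rw [commutator_def, ← Subgroup.top_prod_top, Subgroup.commutator_prod_prod]
    exact ⟨hg₁, hg₂⟩
  have h2 := Subgroup.mem_map_of_mem (blockIso Q₁ Q₂) h
  rw [commutator_def, Subgroup.map_commutator] at h2
  exact Subgroup.commutator_mono le_top le_top h2

end Cfsg.Agent.S2626
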