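import Mathlib
import Cfsg.Statements.S2629
import Cfsg.Agent.KSG.OrthMaxTS

set_option autoImplicit false
open Cfsg

namespace Cfsg.Agent.S2629


/-- For the hyperbolic form Σ x_i y_i on F^(2m) over a finite field of odd order (m ≥ 1), an isometry g preserves the class of the maximal totally singular subspace U₀ = {y = 0} (that is, m − dim(U₀ ∩ gU₀) is even) if and only if det g = 1: the stabiliser of each of the two classes of maximal totally singular subspaces is SO. -/
theorem result {F : Type*} [Field F] [Fintype F] (h2 : (2 : F) ≠ 0) {m : ℕ} (hm : 1 ≤ m) (g : ↥(Cfsg.isometryGroup F (Cfsg.quadFormPlus m F))) : Even (m - Module.finrank F ↥(LinearMap.ker (LinearMap.funLeft F F (Sum.inr : Fin m → Fin m ⊕ Fin m)) ⊓ (LinearMap.ker (LinearMap.funLeft F F (Sum.inr : Fin m → Fin m ⊕ Fin m))).map (Matrix.mulVecLin ((g : Matrix.GeneralLinearGroup (Fin m ⊕ Fin m) F) : Matrix (Fin m ⊕ Fin m) (Fin m ⊕ Fin m) F)))) ↔ ((g : Matrix.GeneralLinearGroup (Fin m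 ⊕ Fin m) F) : Matrix (Fin m ⊕ Fin m) (Fin m ⊕ Fin m) F).det = 1 := by
  have hQ := CL.Orth.QPlus_nondeg m F
  have h1 := CL.Orth.dsign_eq_one_iff_max hQ (Or.inl (CL.Orth.card_ne_two_of_two_ne_zero h2))
    (CL.Orth.finrank_sum_fin m) (CL.Orth.finrank_EPlus m) (CL.Orth.singular_EPlus m)
    (CL.Orth.toO (CL.Orth.QPlus m F) g)
  have h3 := CL.Orth.map_mulVecLin_eq (R := CL.Orth.QPlus m F) g (CL.Orth.EPlus m F)
  have h4 := CL.Orth.det_toO (Q := CL.Orth.QPlus m F) g
  rw [← h3, ← CL.Orth.det_eq_one_iff_dsign hQ h2, h4] at h1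
  exact h1.symm

end Cfsg.Agent.S2629
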