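import Mathlib
import Cfsg.Statements.S2634
import Cfsg.Agent.KSG.OrthMaxTS

set_option autoImplicit false
open Cfsg

namespace Cfsg.Agent.S2634


/-- Over a finite field of characteristic two, Ω (the commutator subgroup of the orthogonal group of a quadratic form Q on F^n with non-degenerate polar form; excluding dimension 4 over the field of two elements) acts transitively on the non-singular 1-spaces: for u, v with Q(u) ≠ 0 and Q(v) ≠ 0 some element of Ω carries the line through u to the line through v. -/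
theorem result {F : Type*} [Field F] [Fintype F] [CharP F 2] {n : ℕ} (h : Fintype.card F ≠ 2 ∨ n ≠ 4) (Q : QuadraticForm F (Fin n → F)) (hQ : (QuadraticMap.polarBilin Q).Nondegenerate) (u v : Fin n → F) (hu : Q u ≠ 0) (hv : Q v ≠ 0) : ∃ g : ↥(Cfsg.isometryGroup F ⇑Q), g ∈ Cfsg.Omega F ⇑Q ∧ (F ∙ ((g : Matrix.GeneralLinearGroup (Fin n) F) : Matrix (Fin n) (Fin n) F).mulVec u) = F ∙ v := by
  have h2 : (2 : F) = 0 := CharTwo.two_eq_zero
  obtain ⟨c, hc, hcv⟩ := CL.Orth.exists_mul_self_mul_eq hv hu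
    (by rw [CL.Orth.sqSign_of_two_eq_zero h2, CL.Orth.sqSign_of_two_eq_zero h2])
  obtain ⟨g, hg⟩ := CL.Orth.exists_map_eq_of_Q_eq hQ (u := u) (v := c • v)
    (by rw [CL.Orth.Q_smul, hcv]) hu
  obtain ⟨s, hs, h1⟩ := CL.Orth.exists_mul_mem_commutator hQ
    (CL.Orth.good_of_card (by simpa using h)) (CL.Orth.stab Q (F ∙ u))
    ⟨u, hu, CL.Orth.refl_mem_stab_of_mem (Submodule.mem_span_singleton_self u)⟩
    (fun h => absurd h2 h) g
  obtain ⟨g', hg', h3⟩ := CL.Orth.exists_Omega_map_eq (R := Q) (U := F ∙ u) (W := F ∙ v)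
    ⟨g * s, h1, by
      rw [CL.Orth.map_O_mul, CL.Orth.mem_stab.1 hs, Submodule.map_span, Set.image_singleton]
      change (F ∙ g.1 u) = _
      rw [hg, Submodule.span_singleton_smul_eq (IsUnit.mk0 c hc)]⟩
  refine ⟨g', hg', ?_⟩
  rw [Submodule.map_span, Set.image_singleton] at h3
  exact h3

end Cfsg.Agent.S2634
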