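import Cfsg.Statements.S2636
import Cfsg.Agent.CLAS.FieldAut

set_option autoImplicit false
open Cfsg

namespace Cfsg.Agent.S2636

open CL.FieldAut Matrix

theorem result {F : Type*} [Field F] [Fintype F] {q₀ r n : ℕ} (hr : r.Prime) (hn : 1 ≤ n) (hF : Fintype.card F = q₀ ^ r) (σ : F ≃+* F) (hσ : orderOf σ = r) : Nat.card {g : GL (Fin n) F // ∃ c : F, c ≠ 0 ∧ (g : Matrix (Fin n) (Fin n) F).map σ = c • (g : Matrix (Fin n) (Fin n) F)} = (q₀ ^ r - 1) / (q₀ - 1) * ∏ i : Fin n, (q₀ ^ n - q₀ ^ (i : ℕ)) := by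
  classical
  have : Nonempty (Fin n) := ⟨⟨0, hn⟩⟩
  have := Fintype.ofFinite (fixF σ)
  have hk : Nat.card (fixF σ) = q₀ := by
    have h1 := card_fixF_pow σ
    rw [hσ, Nat.card_eq_fintype_card (α := F), hF] at h1
    exact Nat.pow_left_injective hr.ne_zero h1
  let e : fixF σ →+* F := (fixF σ).subtype
  let ψ : Fˣ × GL (Fin n) (fixF σ) →* GL (Fin n) F :=
    MonoidHom.noncommCoprod (GeneralLinearGroup.scalar (Fin n)) (GeneralLinearGroup.map e)
      fun c g => Units.ext (Matrix.scalar_commute (c : F) (fun _ => Commute.all _ _) _)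
  have hψ : ∀ c g, ((ψ (c, g) : GL (Fin n) F) : Matrix (Fin n) (Fin n) F) =
      (c : F) • (g : Matrix (Fin n) (Fin n) (fixF σ)).map e := by
    intro c g
    change Matrix.scalar (Fin n) (c : F) * (g : Matrix (Fin n) (Fin n) (fixF σ)).map e = _
    rw [Matrix.scalar_apply, ← Matrix.smul_eq_diagonal_mul]
  have h1 : Nat.card {g : GL (Fin n) F // ∃ c : F, c ≠ 0 ∧ (g : Matrix (Fin n) (Fin n) F).map σ =
      c • (g : Matrix (Fin n) (Fin n) F)} = Nat.card ψ.range := by
    refine Nat.card_congr (Equiv.subtypeEquivRight fun g => ⟨?_, ?_⟩)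
    · rintro ⟨c, -, hc⟩
      obtain ⟨i, j, hij⟩ : ∃ i j, (g : Matrix (Fin n) (Fin n) F) i j ≠ 0 := by
        by_contra h
        push Not at h
        exact g.ne_zero (Matrix.ext h)
      have hc' : ∀ a b, σ ((g : Matrix (Fin n) (Fin n) F) a b) = c * (g : Matrix (Fin n) (Fin n) F) a b :=
        fun a b => congrFun (congrFun hc a) b
      have hc0 : c ≠ 0 := by
        rintro rfl
        exact hij (by simpa using hc' i j)
      let M : Matrix (Fin n) (Fin n) (fixF σ) := fun a b =>
        ⟨((g : Matrix (Fin n) (Fin n) F) i j)⁻¹ * (g : Matrix (Fin n) (Fin n) F) a b,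
          mem_fixF.2 (by rw [map_mul, map_inv₀, hc', hc']; field_simp)⟩
      have hM : M.map e = ((g : Matrix (Fin n) (Fin n) F) i j)⁻¹ • (g : Matrix (Fin n) (Fin n) F) := rfl
      have hdet : M.det ≠ 0 := by
        intro h0
        have h2 := RingHom.map_det e M
        rw [h0, map_zero, RingHom.mapMatrix_apply, hM, Matrix.det_smul] at h2
        exact mul_ne_zero (pow_ne_zero _ (inv_ne_zero hij)) (GeneralLinearGroup.det_ne_zero g) h2.symm
      refine ⟨(Units.mk0 _ hij, GeneralLinearGroup.mkOfDetNeZero M hdet), Units.ext ?_⟩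
      rw [hψ]
      change (g : Matrix (Fin n) (Fin n) F) i j • M.map e = _
      rw [hM, smul_smul, mul_inv_cancel₀ hij, one_smul]
    · rintro ⟨⟨c, g₀⟩, rfl⟩
      refine ⟨σ c / c, div_ne_zero (by simp) c.ne_zero, ?_⟩
      rw [hψ]
      ext a b
      have := mem_fixF.1 ((g₀ : Matrix (Fin n) (Fin n) (fixF σ)) a b).2
      simp only [Matrix.map_apply, Matrix.smul_apply, smul_eq_mul, map_mul, e, Subfield.coe_subtype, this]
      field_simp
  have h2 : Nat.card ψ.ker = q₀ - 1 := by
    rw [← hk, ← Nat.card_units]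
    symm
    refine Nat.card_eq_of_bijective (fun b => ⟨(Units.map (e : fixF σ →* F) b⁻¹,
      GeneralLinearGroup.scalar (Fin n) b), ?_⟩) ⟨?_, ?_⟩
    · refine Units.ext ?_
      rw [hψ]
      ext a b'
      by_cases h : a = b'
      · subst h
        simp
      · simp [h]
    · intro b b' h
      have h3 := congrArg (fun x => x.1.1) h
      simp only [map_inv, _root_.inv_inj] at h3
      exact Units.ext (e.injective (congrArg Units.val h3))
    · rintro ⟨⟨c, g₀⟩, h⟩
      have h3 := congrArg Units.val (MonoidHom.mem_ker.1 h)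
      rw [hψ] at h3
      obtain ⟨i⟩ := ‹Nonempty (Fin n)›
      have h4 : ∀ a b, (c : F) * e ((g₀ : Matrix (Fin n) (Fin n) (fixF σ)) a b) =
          (1 : Matrix (Fin n) (Fin n) F) a b := fun a b => congrFun (congrFun h3 a) b
      have h5 := h4 i i
      rw [Matrix.one_apply_eq] at h5
      have h6 : (g₀ : Matrix (Fin n) (Fin n) (fixF σ)) i i ≠ 0 := by
        intro h0; rw [h0] at h5; simp at h5
      refine ⟨Units.mk0 _ h6, Subtype.ext (Prod.ext (Units.ext ?_) (Units.ext ?_))⟩
      · simp only [map_inv, Units.val_inv_eq_inv_val, Units.coe_map, Units.val_mk0, MonoidHom.coe_coe]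
        exact (eq_inv_of_mul_eq_one_left h5).symm
      · ext a b
        apply mul_left_cancel₀ c.ne_zero
        change _ = (c : F) * e _
        rw [h4]
        by_cases hab : a = b
        · subst hab
          simpa [e] using h5
        · simp [hab]
  have h3 := Subgroup.card_eq_card_quotient_mul_card_subgroup ψ.ker
  rw [Nat.card_congr (QuotientGroup.quotientKerEquivRange ψ).toEquiv, h2, Nat.card_prod,
    Nat.card_units, Matrix.card_GL_field, ← Nat.card_eq_fintype_card, hk, Nat.card_eq_fintype_card, hF] at h3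
  have hq : 1 < q₀ := hk ▸ Finite.one_lt_card
  rw [h1]
  apply Nat.eq_of_mul_eq_mul_right (by omega : 0 < q₀ - 1)
  rw [← h3, mul_right_comm, Nat.div_mul_cancel (by simpa using Nat.sub_dvd_pow_sub_pow q₀ 1 r)]

end Cfsg.Agent.S2636
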