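import Cfsg.Statements.S2637
import Cfsg.Agent.KSG.SpURes

set_option autoImplicit false
open Cfsg

namespace Cfsg.Agent.S2637

open CL.SpU CL.GLn CL.Witt Module Polynomial

/-- Centraliser of a fixed-point-free element of order three in Sp_2m(q) when q ≡ 2 (mod 3): if x ∈ Sp_2m(F) (|F| = q, m ≥ 1) satisfies x³ = 1 and x − 1 is invertible, then its centraliser in Sp_2m(F) has the order of the unitary group GU_m(q), namely q^(m(m−1)/2) Π_(i=1)^m (q^i − (−1)^i) (x lies in the centre of a subgroup GU_m(q) of Sp_2m(q)). -/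
theorem result {F : Type*} [Field F] [Fintype F] {q : ℕ} (hF : Fintype.card F = q) (hq : q % 3 = 2) {m : ℕ} (hm : 1 ≤ m) (x : Matrix.symplecticGroup (Fin m) F) (hx3 : x ^ 3 = 1) (hfpf : IsUnit ((x : Matrix (Fin m ⊕ Fin m) (Fin m ⊕ Fin m) F) - 1)) : (Nat.card ↥(Subgroup.centralizer ({x} : Set ↥(Matrix.symplecticGroup (Fin m) F))) : ℤ) = (q : ℤ) ^ (m * (m - 1) / 2) * ∏ i : Fin m, ((q : ℤ) ^ ((i : ℕ) + 1) - (-1) ^ ((i : ℕ) + 1)) := by
  classical
  have h3 : (3 : F) ≠ 0 := by
    intro h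
    have h1 : ((q : ℕ) : F) = 0 := by rw [← hF]; exact FiniteField.cast_card_eq_zero F
    rw [← Nat.div_add_mod q 3, hq] at h1
    push_cast at h1
    rw [h, zero_mul, zero_add] at h1
    exact one_ne_zero (α := F) (by linear_combination h - h1)
  have hq1 : 1 ≤ q := by omega
  have hroot : ∀ r : F, r ^ 2 + r + 1 ≠ 0 := by
    intro r hr
    have h1 : r ^ 3 = 1 := by linear_combination (r - 1) * hr
    have h2 : r ^ q = r := by rw [← hF]; exact FiniteField.pow_card r
    rw [← Nat.div_add_mod q 3, hq, pow_add, pow_mul, h1, one_pow, one_mul] at h2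
    have h4 : r = 1 := by linear_combination r ^ 2 * h2 - (r - 1) * h1
    rw [h4] at hr
    exact h3 (by linear_combination hr)
  have hmon : (X ^ 2 + X + 1 : F[X]).Monic := by monicity!
  have hdeg : (X ^ 2 + X + 1 : F[X]).natDegree = 2 := by compute_degree!
  have hirr : Irreducible (X ^ 2 + X + 1 : F[X]) := by
    refine irreducible_of_degree_le_three_of_not_isRoot (by rw [hdeg]; decide) fun r hr => ?_
    exact hroot r (by simpa using hr)
  have := Fact.mk hirr
  let K := AdjoinRoot (X ^ 2 + X + 1 : F[X])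
  have hKc : Nat.card K = q ^ 2 := by rw [card_adjoinRoot hirr.ne_zero, hF, hdeg]
  have : Finite K := Nat.finite_of_card_ne_zero (by rw [hKc]; positivity)
  have := Fintype.ofFinite K
  have hK : Fintype.card K = q ^ 2 := by rw [← Nat.card_eq_fintype_card, hKc]
  let ω : K := AdjoinRoot.root _
  have hω : aeval ω (X ^ 2 + X + 1 : F[X]) = 0 := by
    rw [AdjoinRoot.aeval_eq, AdjoinRoot.mk_self]
  have hω3 : ω ^ 3 = 1 := by
    have : ω ^ 2 + ω + 1 = 0 := by simpa using hω
    linear_combination (ω - 1) * this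
  have hωq : ω ^ q * ω = 1 := by
    rw [← pow_succ, show q + 1 = 3 * (q / 3 + 1) by omega, pow_mul, hω3, one_pow]
  obtain ⟨l, hl, hl'⟩ := exists_dual_vanishing hK hF
  have hσ : ∀ a : F, (CL.Uni.HT hK).σ (algebraMap F K a) = algebraMap F K a :=
    algebraMap_pow_q hF
  have h : ∀ x, l ((CL.Uni.std hK (Fin m)).B x x) = 0 := fun x => hl' _ (herm_B_self_pow hK _ x)
  have hx : aeval (Matrix.toLin' x.1 : Module.End F _) (X ^ 2 + X + 1 : F[X]) = 0 := by
    rw [← toLin'_aeval]
    have h1 : x.1 ^ 3 = 1 := by rw [← SubmonoidClass.coe_pow, hx3]; rfl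
    have h2 : (x.1 - 1) * (x.1 ^ 2 + x.1 + 1) = 0 := by
      rw [← sub_eq_zero.mpr h1]; noncomm_ring
    simp [hfpf.mul_right_eq_zero.mp h2]
  have key : IsomConj (CL.Sp.spForm m F) (resAlt hσ l _ h) (Matrix.toLin' x.1)
      (Algebra.lsmul F F (Fin m → K) ω) := by
    refine isomConj_of_isUnit (CL.Sp.spForm_nondeg m F)
      (resAlt_nondeg hσ l (CL.Uni.std_nondeg hK _) h hl) (isIsom_sp x) ?_
      (simil_of_aeval_irreducible hirr hx (by rw [aeval_algHom_apply, hω, map_zero]) ?_) ?_
    · refine (Form.alt_isIsom_iff _ _ _).mpr fun u v => ?_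
      rw [resAlt_B, resAlt_B, Algebra.lsmul_coe, Form.B_smul_left, Form.B_smul_right,
        ← mul_assoc, CL.Uni.HT_σ, hωq, one_mul]
    · rw [← Module.finrank_mul_finrank F K (Fin m → K), finrank_eq_two hK hF, CL.Sp.finrank_sp,
        Module.finrank_fin_fun]
    · have h1 : IsUnit (Matrix.toLin' (x.1 - 1) : Module.End F _) :=
        hfpf.map Matrix.toLinAlgEquiv'
      rw [map_sub, Matrix.toLin'_one] at h1
      simp only [map_add, map_pow, aeval_X, map_one] at hx
      have h2 : (Matrix.toLin' x.1 ^ 2 - 1 : Module.End F _) =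
          (Matrix.toLin' x.1 - 1) * (-Matrix.toLin' x.1 ^ 2) := by
        rw [show (-Matrix.toLin' x.1 ^ 2 : Module.End F _) = Matrix.toLin' x.1 + 1 by
          rw [neg_eq_iff_add_eq_zero, ← add_assoc, hx], sub_mul, one_mul, mul_add, mul_one, pow_two]
        abel
      rw [h2]
      exact h1.mul ((isReal_sp x).isUnit.pow 2).neg
  rw [card_centralizer_sp, key.card_centralizer,
    card_centralizer_res hσ l h hl AdjoinRoot.adjoinRoot_eq_top, ← cast_guOrder (by omega),
    ← CL.Uni.card_std_O hK, card_O_eq_card_end (CL.Uni.std_nondeg hK _)]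
  simp only [Form.herm_isIsom_iff]

end Cfsg.Agent.S2637
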