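import Cfsg.Statements.S2638
import Cfsg.Agent.KSG.GLnTori

set_option autoImplicit false
open Cfsg

namespace Cfsg.Agent.S2638

open CL.GLn Polynomial

theorem result {F : Type*} [Field F] [Fintype F] {p q : ℕ} [Fact p.Prime] [CharP F p] (hF : Fintype.card F = q) {n r : ℕ} (hn : 1 ≤ n) (hr : r.Prime) (hrp : r ≠ p) (hi : orderOf (q : ZMod r) = n) (x : GL (Fin n) F) (hx : orderOf x = r) : IsCyclic ↥(Subgroup.centralizer ({x} : Set (GL (Fin n) F))) ∧ Nat.card ↥(Subgroup.centralizer ({x} : Set (GL (Fin n) F))) = q ^ n - 1 := by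
  subst hF
  have := Fact.mk hr
  have hp : p.Prime := Fact.out
  have hcop : p.Coprime r := (Nat.coprime_primes hp hr).2 hrp.symm
  have hs := hasED_elemDiv (Matrix.toLin' (x : Matrix (Fin n) (Fin n) F))
  have hss := hs.isSemisimple_iff.1 (isSemisimple_of_coprime_orderOf p
    (Units.coeHom (Matrix (Fin n) (Fin n) F)) (g := x) (by rw [hx]; exact hcop.symm))
  have h1 := (hs.matrix_pow_eq_one_iff r).1 (by
    rw [← Units.val_pow_eq_pow_val, ← hx, pow_orderOf_eq_one, Units.val_one])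
  have h2 : ¬ ∀ y ∈ elemDiv (Matrix.toLin' (x : Matrix (Fin n) (Fin n) F)),
      y.1 ^ y.2 ∣ X ^ 1 - 1 := by
    rw [← hs.matrix_pow_eq_one_iff, pow_one, Units.val_eq_one]
    rintro rfl
    rw [orderOf_one] at hx
    exact hr.one_lt.ne hx
  push Not at h2
  obtain ⟨y, hy, hy1⟩ := h2
  obtain ⟨hm, hirr, -⟩ := hs.1 y hy
  have h3 := h1 y hy
  rw [hss y hy, pow_one] at h3 hy1
  have h4 : y.1 ∈ cycFactors F r := ((dvd_X_pow_sub_one_iff hirr hm).1 h3).resolve_left
    fun h => hy1 (by rw [h, pow_one])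
  have h5 := natDegree_of_dvd_cyclotomic p hcop hirr (mem_cycFactors.1 h4).2.2
  rw [hi] at h5
  have h6 := hs.eq_singleton hy (by rw [hss y hy, h5]; simp)
  rw [h6] at hs
  obtain ⟨φ₁, -⟩ := exists_centralizer_equiv x
  obtain ⟨φ₂, -⟩ := hs.simil_cyc.exists_centU_equiv
  obtain ⟨φ₃, -⟩ := exists_centU_cyc_equiv (y.1 ^ y.2)
  let φ := (φ₁.trans φ₂).trans φ₃.symm
  have hirr' : Irreducible (y.1 ^ y.2) := by rwa [hss y hy, pow_one]
  have := Fact.mk hirr'
  have := finiteDimensional_adjoinRoot hirr'.ne_zero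
  have : Finite (AdjoinRoot (y.1 ^ y.2)) := Module.finite_of_finite F
  refine ⟨isCyclic_of_surjective φ.symm φ.symm.surjective, ?_⟩
  rw [Nat.card_congr φ.toEquiv, Nat.card_units, card_adjoinRoot hirr'.ne_zero, hss y hy, pow_one,
    h5]

end Cfsg.Agent.S2638
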