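import Cfsg.Statements.S2639
import Cfsg.Agent.KSG.SpURes

set_option autoImplicit false
open Cfsg

namespace Cfsg.Agent.S2639

open CL.SpU CL.Witt Module

/-- The unitary group embeds in the symplectic group of twice the dimension over the subfield: for a field K with q² elements and a field F with q elements (isomorphic to the subfield of K of order q), there is an injective homomorphism GU_m(q) → Sp_2m(F). -/
theorem result {K F : Type*} [Field K] [Fintype K] [Field F] [Fintype F] {q : ℕ} (hK : Fintype.card K = q ^ 2) (hF : Fintype.card F = q) (m : ℕ) : ∃ φ : ↥(Cfsg.GU m K q) →* ↥(Matrix.symplecticGroup (Fin m) F), Function.Injective φ := by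
  obtain ⟨_⟩ := nonempty_algebra_of_card hK hF
  obtain ⟨l, hl, hl'⟩ := exists_dual_vanishing hK hF
  have hσ : ∀ a : F, (CL.Uni.HT hK).σ (algebraMap F K a) = algebraMap F K a :=
    algebraMap_pow_q hF
  have h : ∀ x, l ((CL.Uni.std hK (Fin m)).B x x) = 0 := fun x => hl' _ (herm_B_self_pow hK _ x)
  obtain ⟨e⟩ := CL.Sp.nonempty_O_equiv (m := m)
    (resAlt_nondeg hσ l (CL.Uni.std_nondeg hK _) h hl) (by
      rw [← Module.finrank_mul_finrank F K, finrank_eq_two hK hF, Module.finrank_fin_fun])
  exact ⟨e.toMonoidHom.comp ((resHom hσ l _ h).comp (CL.Uni.guEquiv hK m).toMonoidHom),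
    e.injective.comp ((resHom_injective hσ l _ h).comp (CL.Uni.guEquiv hK m).injective)⟩

end Cfsg.Agent.S2639
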