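import Cfsg.Statements.S2640
import Cfsg.Agent.CLAS.UniOrth

set_option autoImplicit false
open Cfsg

namespace Cfsg.Agent.S2640

/-- For m even, the unitary group GU_m(q) (over the field with q² elements) embeds in the orthogonal group O⁺_2m(q) of the hyperbolic form Σ x_i y_i over the field with q elements (there is an injective homomorphism). -/
theorem result {K F : Type*} [Field K] [Fintype K] [Field F] [Fintype F] {q : ℕ} (hK : Fintype.card K = q ^ 2) (hF : Fintype.card F = q) (m : ℕ) (hm : Even m) : ∃ φ : ↥(Cfsg.GU m K q) →* ↥(Cfsg.isometryGroup F (Cfsg.quadFormPlus m F)), Function.Injective φ := by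
  obtain ⟨ι, hι⟩ := CL.Uni.exists_ringHom_fixed hK (K := F) (by rw [Nat.card_eq_fintype_card, hF])
  let _ := ι.toAlgebra
  have hf := CL.Uni.std_nondeg hK (Fin m)
  obtain ⟨Q, hQ, hQ'⟩ := CL.Uni.exists_quad (F := F) hι (CL.Uni.std hK (Fin m))
  have hN := CL.Uni.nondeg_of_quad hf hQ'
  obtain ⟨φ, hφ⟩ := CL.Orth.exists_isometry_QPlus (m := m) hN
    (by rw [CL.Uni.finrank_eq_two_mul hK hF]; simp)
    ((CL.Uni.isPlus_iff_even hF hf hQ hN).2 (by simpa using hm))
  exact ⟨((CL.Orth.congrO φ hφ).symm.trans (CL.Orth.toO (CL.Orth.QPlus m F)).symm).toMonoidHom.comp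
    ((CL.Uni.resO hQ).comp (CL.Uni.guEquiv hK m).toMonoidHom),
    fun _ _ h => (CL.Uni.guEquiv hK m).injective (CL.Uni.resO_injective hQ
      (((CL.Orth.congrO φ hφ).symm.trans (CL.Orth.toO (CL.Orth.QPlus m F)).symm).injective h))⟩

end Cfsg.Agent.S2640
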