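import Cfsg.Statements.S2641
import Cfsg.Agent.CLAS.UniOrth

set_option autoImplicit false
open Cfsg

namespace Cfsg.Agent.S2641

/-- For m odd, the unitary group GU_m(q) (over the field with q² elements) embeds in the orthogonal group O⁻_2m(q) of an elliptic form (Σ_(i<m−1) x_i y_i plus an anisotropic binary form) over the field with q elements (there is an injective homomorphism). -/
theorem result {K F : Type*} [Field K] [Fintype K] [Field F] [Fintype F] {q : ℕ} (hK : Fintype.card K = q ^ 2) (hF : Fintype.card F = q) (m : ℕ) (hm : Odd m) (a b : F) (hab : ∀ z₁ z₂ : F, z₁ ^ 2 + a * z₁ * z₂ + b * z₂ ^ 2 = 0 → z₁ = 0 ∧ z₂ = 0) : ∃ φ : ↥(Cfsg.GU m K q) →* ↥(Cfsg.isometryGroup F (Cfsg.quadFormMinus (m - 1) F a b)), Function.Injective φ := by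
  obtain ⟨ι, hι⟩ := CL.Uni.exists_ringHom_fixed hK (K := F) (by rw [Nat.card_eq_fintype_card, hF])
  let _ := ι.toAlgebra
  have hf := CL.Uni.std_nondeg hK (Fin m)
  obtain ⟨Q, hQ, hQ'⟩ := CL.Uni.exists_quad (F := F) hι (CL.Uni.std hK (Fin m))
  have hN := CL.Uni.nondeg_of_quad hf hQ'
  obtain ⟨φ, hφ⟩ := CL.Orth.exists_isometry_QMinus (m := m - 1) hN
    (by rw [CL.Uni.finrank_eq_two_mul hK hF, Nat.sub_add_cancel hm.pos]; simp)
    (fun h => (Nat.not_even_iff_odd.2 hm)
      (by simpa using (CL.Uni.isPlus_iff_even hF hf hQ hN).1 h)) hab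
  exact ⟨((CL.Orth.congrO φ hφ).symm.trans
    (CL.Orth.toO (CL.Orth.QMinus (m - 1) F a b)).symm).toMonoidHom.comp
    ((CL.Uni.resO hQ).comp (CL.Uni.guEquiv hK m).toMonoidHom),
    fun _ _ h => (CL.Uni.guEquiv hK m).injective (CL.Uni.resO_injective hQ
      (((CL.Orth.congrO φ hφ).symm.trans (CL.Orth.toO (CL.Orth.QMinus (m - 1) F a b)).symm).injective h))⟩

end Cfsg.Agent.S2641
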