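import Cfsg.Statements.S2642
import Cfsg.Agent.KSG.SpUClasses
import Cfsg.Agent.S2570

set_option autoImplicit false
open Cfsg

namespace Cfsg.Agent.S2642

open CL.GLn CL.SpU

/-- Number of conjugacy classes of elements of order p in the general unitary group GU_n(q), q a power of p: every unipotent Jordan type occurs and the classes correspond to the partitions of n with all parts at most p other than the all-ones partition, exactly as in GL_n; so there are (number of partitions of n with parts ≤ p) − 1 classes. -/
theorem result {K : Type*} [Field K] [Fintype K] {p q n : ℕ} [Fact p.Prime] [CharP K p] (hK : Fintype.card K = q ^ 2) : Nat.card {C : ConjClasses ↥(Cfsg.GU n K q) // ∃ g : ↥(Cfsg.GU n K q), ConjClasses.mk g = C ∧ orderOf g = p} = (Finset.univ.filter (fun μ : Nat.Partition n => ∀ a ∈ μ.parts, a ≤ p)).card - 1 := by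
  rw [← Cfsg.Agent.S2570.result (F := K) (p := p) n]
  simp only [← Subgroup.orderOf_coe]
  rw [card_conjClasses_GU hK (fun g => orderOf g = p) (fun a b h ha => orderOf_eq_of_isConj h ▸ ha)]
  congr 3
  ext C
  refine exists_congr fun g => and_congr_right fun _ => and_iff_left_of_imp fun hg => ?_
  refine (exists_unitary_isConj_iff hK g.isUnit).mp (exists_unitary_of_isNilpotent hK ?_)
  exact (isUnipotent_iff_orderOf p (Units.coeHom _) Units.val_injective g).mp
    ⟨1, by rw [pow_one, hg]⟩

end Cfsg.Agent.S2642
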