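import Cfsg.Statements.S2643
import Cfsg.Agent.KSG.SpUUnip
import Cfsg.Agent.KSG.SpUPoly
import Cfsg.Agent.CLAS.UniBasic

set_option autoImplicit false
open Cfsg

namespace Cfsg.Agent.S2643

open CL.GLn CL.SpU Polynomial

/-- Regular unipotent classes of SU_n(q), n ≥ 2: the elements u of the special unitary group (isometries of Σ u_i v_i^q of determinant one over the field with q² elements) with (u − 1)^n = 0 and rank(u − 1) = n − 1 form exactly gcd(n, q + 1) conjugacy classes of SU_n(q). -/
theorem result {K : Type*} [Field K] [Fintype K] {q n : ℕ} (hK : Fintype.card K = q ^ 2) (hn : 2 ≤ n) : Nat.card {C : ConjClasses ↥(Cfsg.SU n K q) // ∃ u : ↥(Cfsg.SU n K q), ConjClasses.mk u = C ∧ (((u : GL (Fin n) K) : Matrix (Fin n) (Fin n) K) - 1) ^ n = 0 ∧ (((u : GL (Fin n) K) : Matrix (Fin n) (Fin n) K) - 1).rank = n - 1} = Nat.gcd n (q + 1) := by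
  classical
  have : Nonempty (Fin n) := ⟨⟨0, by omega⟩⟩
  have hJ0 := hasJT_jordanBlock (F := K) (k := n) (by omega)
  obtain ⟨B, hB, hB'⟩ := exists_unitary_of_isNilpotent hK hJ0.isNilpotent_sub_one
  have hJ := hJ0.of_simil ((isConj_iff_simil _ _).mp hB')
  let u₀ : Cfsg.SU n K q := mkSU hK B hB hJ.det_eq_one
  let U : Subgroup Kˣ := (powMonoidHom (q + 1) : Kˣ →* Kˣ).ker
  let ι : Cfsg.SU n K q →* Cfsg.GU n K q :=
    (Matrix.SpecialLinearGroup.toGL.comp (Cfsg.SU n K q).subtype).codRestrict _ fun g => g.2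
  have hι : ∀ g, guToMat n K q (ι g) = suToMat n K q g := fun _ => rfl
  let φ : Cfsg.GU n K q →* U :=
    (Matrix.GeneralLinearGroup.det.comp (Cfsg.GU n K q).subtype).codRestrict _ fun g =>
      Units.ext (det_pow_eq_one_of_unitary hK (ct_mul_GU hK g))
  have hφ : ∀ g, (((φ g : U) : Kˣ) : K) = (guToMat n K q g).det := fun _ => rfl
  have hU : ∀ c : U, ((c : Kˣ) : K) ^ (q + 1) = 1 := fun c => congrArg Units.val c.2
  have h1 := card_split_classes ι (fun a b h => suToMat_injective (by rw [← hι, h, hι])) φ ?_ ?_ u₀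
    (powMonoidHom n : U →* U).range ?_
  · rw [IsCyclic.index_powMonoidHom_range, CL.SqField.card_ker_norm hK, Nat.gcd_comm] at h1
    rw [← h1]
    congr 2
    ext C
    refine exists_congr fun u => and_congr_right fun _ => ?_
    rw [isConj_GU_iff hK]
    change (suToMat n K q u - 1) ^ n = 0 ∧ (suToMat n K q u - 1).rank = n - 1 ↔
      IsConj B (suToMat n K q u)
    constructor
    · rintro ⟨h2, h3⟩
      have h4 := hasJT_singleton_of_rank ⟨_, h2⟩ (by simpa using h3)
      rw [Fintype.card_fin] at h4
      exact (hJ.isConj_iff h4).2 rfl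
    · intro h2
      have h3 := hJ.of_simil ((isConj_iff_simil _ _).1 h2)
      refine ⟨(h3.sub_one_pow_eq_zero_iff n).2 (by simp), ?_⟩
      have := h3.rank_sub_one
      simp at this
      omega
  · intro c
    obtain ⟨w, hw, -, hw'⟩ := exists_unitary_commute_det_eq hK (A := (1 : Matrix (Fin n) (Fin n) K))
      (by rw [ct_one, one_mul]) (fun c hc => by
        obtain ⟨g, hg⟩ := Matrix.GeneralLinearGroup.det_surjective (n := Fin n) (Units.mk0 c hc)
        exact ⟨g, by simp, congrArg Units.val hg⟩) (hU c)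
    exact ⟨mkGU hK w hw, Subtype.ext (Units.ext hw')⟩
  · intro g
    constructor
    · intro h
      exact ⟨mkSU hK _ (ct_mul_GU hK g) (by rw [← guToMat_apply, ← hφ, h]; rfl),
        guToMat_injective rfl⟩
    · rintro ⟨s, rfl⟩
      exact Subtype.ext (Units.ext s.1.det_coe)
  · intro c
    constructor
    · rintro ⟨b, rfl⟩
      refine ⟨mkGU hK (((b : Kˣ) : K) • 1) ?_, guToMat_injective ?_, Subtype.ext (Units.ext ?_)⟩
      · rw [ct_smul, ct_one, smul_mul_smul_comm, ← pow_succ, hU, one_smul, one_mul]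
      · rw [map_mul, map_mul]
        exact ((Commute.one_left B).smul_left ((b : Kˣ) : K)).eq
      · rw [hφ]
        simp [guToMat_apply, coe_mkGU]
    · rintro ⟨g, hg, rfl⟩
      have hg' : guToMat n K q g * B = B * guToMat n K q g := by
        have := congrArg (guToMat n K q) hg
        rwa [map_mul, map_mul] at this
      obtain ⟨b, r, hb, hr⟩ := exists_eq_add_mul_of_commute hJ ((commute_toLin'_iff _ _).2 hg')
      have hnil : IsNilpotent (Matrix.toLin' (guToMat n K q g) -
          algebraMap K (Module.End K (Fin n → K)) b) := by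
        rw [hb, add_sub_cancel_left]
        exact isNilpotent_mul_of_commute hJ.isNilpotent hr
      obtain ⟨μ, hμ⟩ := exists_hasJT hnil
      have h2 := hμ.charpoly_eq
      rw [Matrix.charpoly_toLin', Module.finrank_fin_fun] at h2
      have h3 := det_eq_pow_of_isNilpotent hnil
      rw [LinearMap.det_toLin', Module.finrank_fin_fun] at h3
      have h4 := congrArg (eval (b ^ q)) (charpoly_unitary hK (ct_mul_GU hK g))
      have hrev : ∀ k : ℕ, ((X - C b : K[X]) ^ k).reverse = (1 - C b * X) ^ k := by
        intro k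
        induction k with
        | zero => simpa using reverse_C (1 : K)
        | succ k ih => rw [pow_succ, reverse_mul_of_domain, ih, reverse_X_sub_C, pow_succ]
      rw [← guToMat_apply, h2, hrev] at h4
      have hd : (guToMat n K q g).det ≠ 0 := by rw [← hφ]; exact Units.ne_zero _
      have hn0 : n ≠ 0 := by omega
      simp [hn0, hd, CL.SqField.conj_apply] at h4
      have h5 : b ^ (q + 1) = 1 := by rw [pow_succ']; linear_combination -h4
      have hb0 : b ≠ 0 := by rintro rfl; simp at h5
      refine ⟨⟨Units.mk0 b hb0, Units.ext h5⟩, Subtype.ext (Units.ext ?_)⟩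
      rw [hφ, h3]
      rfl

end Cfsg.Agent.S2643
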