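import Cfsg.Statements.S2644
import Cfsg.Agent.KSG.SpUClasses

set_option autoImplicit false
open Cfsg

namespace Cfsg.Agent.S2644

open CL.GLn CL.SpU

/-- In the special unitary group SU_n(q) with n ≥ 3 (isometries of Σ u_i v_i^q of determinant one over the field with q² elements), any two transvections (elements t with t − 1 of rank one and square zero) are conjugate. -/
theorem result {K : Type*} [Field K] [Fintype K] {q n : ℕ} (hK : Fintype.card K = q ^ 2) (hn : 3 ≤ n) (s t : ↥(Cfsg.SU n K q)) (hs : Cfsg.IsTransvection (((s : GL (Fin n) K) : Matrix (Fin n) (Fin n) K))) (ht : Cfsg.IsTransvection (((t : GL (Fin n) K) : Matrix (Fin n) (Fin n) K))) : IsConj s t := by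
  change Cfsg.IsTransvection (suToMat n K q s) at hs
  change Cfsg.IsTransvection (suToMat n K q t) at ht
  have hs2 : (suToMat n K q s - 1) ^ 2 = 0 := by rw [pow_two]; exact hs.2
  have ht2 : (suToMat n K q t - 1) ^ 2 = 0 := by rw [pow_two]; exact ht.2
  refine isConj_SU_of_isConj hK s t (isConj_of_unipotent_of_rank ⟨_, hs2⟩ ⟨_, ht2⟩ ?_) ?_
  · intro k
    rcases k with _ | _ | k
    · simp
    · simp [hs.1, ht.1]
    · rw [pow_eq_zero_of_le (by omega) hs2, pow_eq_zero_of_le (by omega) ht2]
  · intro c hc
    obtain ⟨μ, hμ⟩ := exists_hasJT_one ⟨_, hs2⟩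
    have h1 : 1 ∈ μ := by
      by_contra h1
      have h2 := hμ.rank_sub_one
      have h3 := hμ.sum_eq_card
      rw [hs.1, Fintype.card_fin] at h2
      rw [Fintype.card_fin] at h3
      have h4 := Multiset.card_nsmul_le_sum (s := μ) (a := 2) fun e he => by
        have := hμ.pos e he
        have : e ≠ 1 := fun h => h1 (h ▸ he)
        omega
      rw [smul_eq_mul] at h4
      omega
    have := hμ.exists_commute_det_pow h1 hc
    rw [pow_one] at this
    exact exists_gl_commute_det this

end Cfsg.Agent.S2644
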