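import Mathlib
import Cfsg.Statements.S2645
import Cfsg.Agent.KSG.OrthSS

set_option autoImplicit false
open Cfsg

namespace Cfsg.Agent.S2645

open CL.GLn CL.PrimeCl CL.Orth

/-- Number of conjugacy classes of elements of odd prime order r, r different from the characteristic, in the symplectic group Sp_2m(q): let i be the multiplicative order of q modulo r and t = (r − 1)/i. If i is odd the eigenvalue orbits pair off (Λ ≠ Λ⁻¹) and the classes correspond to the non-zero (t/2)-tuples (a_j) with 2i Σ a_j ≤ 2m, giving C(⌊m/i⌋ + t/2, t/2) − 1 classes; if i is even (Λ = Λ⁻¹) they correspond to the non-zero t-tuples with i Σ a_j ≤ 2m, giving C(⌊2m/i⌋ + t, t) − 1 classes. -/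
theorem result {F : Type*} [Field F] [Fintype F] {p q : ℕ} [Fact p.Prime] [CharP F p] (hF : Fintype.card F = q) (m r i t : ℕ) (hr : r.Prime) (hr2 : r ≠ 2) (hrp : r ≠ p) (hi : i = orderOf (q : ZMod r)) (ht : t * i = r - 1) : Nat.card {C : ConjClasses ↥(Matrix.symplecticGroup (Fin m) F) // ∃ g : Matrix.symplecticGroup (Fin m) F, ConjClasses.mk g = C ∧ orderOf g = r} = if Odd i then Nat.choose (m / i + t / 2) (t / 2) - 1 else Nat.choose (2 * m / i + t) t - 1 := by
  subst hF
  have := Fact.mk hr
  have hr0 : (r : F) ≠ 0 :=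
    natCast_ne_zero_of_coprime p ((Nat.coprime_primes hr Fact.out).2 hrp)
  have hi0 : 0 < i := hi ▸ ord_pos hr0
  obtain ⟨S, h1, h2, h3⟩ := exists_card_inv hr0 hr2 (t := t) (by rw [hi] at ht; exact ht)
  refine (card_classes_sp hr0 hr2 m).trans ((h3 fun k => 0 < k ∧ ord F r * k ≤ 2 * m).trans ?_)
  unfold ord at *
  rw [← hi] at *
  split_ifs at h1 ⊢ with h
  · rw [← h1]
    exact card_multiset_pos_le S (R := fun k => 0 < 2 * k ∧ i * (2 * k) ≤ 2 * m) fun k => by
      rw [Nat.le_div_iff_mul_le hi0]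
      constructor <;> rintro ⟨h4, h5⟩ <;> constructor <;> nlinarith
  · rw [← h1]
    exact card_multiset_pos_le S (R := fun k => 0 < k ∧ i * k ≤ 2 * m) fun k => by
      rw [Nat.le_div_iff_mul_le hi0, mul_comm]

end Cfsg.Agent.S2645
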