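import Cfsg.Statements.S2646
import Cfsg.Agent.KSG.GUCent
import Cfsg.Agent.S2581

set_option autoImplicit false
open Cfsg

namespace Cfsg.Agent.S2646

open CL.GLn CL.SpU CL.Uni CL.GUCent Polynomial

theorem result {K : Type*} [Field K] [Fintype K] {q n t : ℕ} (hK : Fintype.card K = q ^ 2) (d : Fin t → ℕ) (hd : ∀ k, 1 ≤ d k) (e : ((k : Fin t) × Fin (d k)) ≃ Fin n) (u : ↥(Cfsg.GU n K q)) (hu : IsConj (Matrix.reindex e e (Cfsg.jordanTypeMatrix d K)) ((u : GL (Fin n) K) : Matrix (Fin n) (Fin n) K)) : (Nat.card ↥(Subgroup.centralizer ({u} : Set ↥(Cfsg.GU n K q))) : ℤ) = (q : ℤ) ^ (2 * (∑ i ∈ Finset.range (Finset.univ.sup d + 1), ∑ j ∈ Finset.range (Finset.univ.sup d + 1), if i < j then i * (Finset.univ.filter (fun k : Fin t => d k = i)).card * (Finset.univ.filter (fun k : Fin t => d k = j)).card else 0) + ∑ i ∈ Finset.range (Finset.univ.sup d + 1), (i - 1) * (Finset.univ.filter (fun k : Fin t => d k = i)).card ^ 2) * ∏ i ∈ Finset.range (Finset.univ.sup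 d + 1), ((q : ℤ) ^ ((Finset.univ.filter (fun k : Fin t => d k = i)).card * ((Finset.univ.filter (fun k : Fin t => d k = i)).card - 1) / 2) * ∏ j : Fin (Finset.univ.filter (fun k : Fin t => d k = i)).card, ((q : ℤ) ^ ((j : ℕ) + 1) - (-1) ^ ((j : ℕ) + 1))) := by
  have hS : ∀ k, d k ≤ Finset.univ.sup d := fun k => Finset.le_sup (Finset.mem_univ k)
  have h1 : HasJT (model fun k => (X - C 1 : K[X]) ^ d k) 1 (Finset.univ.val.map d) := by
    rw [HasJT, Multiset.map_map]
    exact hasED_of_simil_model (fun i => ((X - C 1 : K[X]), d i))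
      (fun i => ⟨monic_X_sub_C 1, irreducible_X_sub_C 1, hd i⟩) (Simil.refl _)
  obtain ⟨ε, hε⟩ := simil_iff_conj.1 (((hasJT_reindex_jordanTypeMatrix d hd e).of_simil
    ((isConj_iff_simil _ _).1 hu)).simil h1)
  have := finiteDimensional_model (h := fun k => (X - C 1 : K[X]) ^ d k)
    fun k => pow_ne_zero _ (X_sub_C_ne_zero 1)
  have hf := nondeg_comap_equiv (std_nondeg hK (Fin n)) ε.symm
  let Φ := Matrix.toLinAlgEquiv'.trans (ε.conjAlgEquiv K)
  have h2 : ∀ M, ct hK M * M = 1 ↔ adj hf (Φ M) * Φ M = 1 := fun M => by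
    rw [adj_mul_self_eq_one_iff, ← preserves_hermForm_iff, ε.surjective.forall₂, forall_comm]
    simp [Φ, CL.Witt.Form.comap, std_B_eq_hermForm]
  have h3 := card_cent_model hK hd hf (hε ▸ (h2 _).1 (ct_mul_GU hK u)) hS
  rw [S2581.sum_min_eq d _ hS, S2581.sum_min_split _ (fun i => (Finset.univ.filter fun k => d k = i).card)
    (by simpa using fun k => Nat.ne_of_gt (hd k)), pow_add, mul_right_comm, Nat.mul_left_inj
    (pow_ne_zero _ (CL.SqField.q_ne_zero hK)), ← Nat.card_congr (Φ.toEquiv.subtypeEquiv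
      (p := fun M => ct hK M * M = 1 ∧ Commute M u.1.1) fun M => and_congr (h2 M) (by
        rw [← hε]; exact (commute_map_iff Φ.injective).symm))] at h3
  rw [Nat.card_congr (β := {M // ct hK M * M = 1 ∧ Commute M u.1.1}) ⟨fun g => ⟨_, ct_mul_GU hK g.1,
    congrArg (guToMat n K q) (Subgroup.mem_centralizer_singleton_iff.1 g.2)⟩, fun M => ⟨mkGU hK M.1 M.2.1,
    Subgroup.mem_centralizer_singleton_iff.2 (Subtype.ext (Units.ext M.2.2))⟩,
    fun _ => Subtype.ext (Subtype.ext (Units.ext rfl)), fun _ => rfl⟩, h3]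
  push_cast
  refine congrArg _ (Finset.prod_congr rfl fun i _ => ?_)
  rw [guOrder, Finset.prod_range]
  push_cast
  refine congrArg _ (Finset.prod_congr rfl fun j _ => ?_)
  split_ifs with h
  · simp [pow_succ, h.neg_one_pow]
  · simp [pow_succ (-1 : ℤ), (Nat.not_even_iff_odd.1 h).neg_one_pow,
      Nat.one_le_pow _ _ (CL.SqField.q_ne_zero hK).bot_lt]

end Cfsg.Agent.S2646
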