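import Cfsg.Statements.S2658
import Cfsg.Agent.KSG.SecLift
import Cfsg.Agent.CHEV.Order
import Cfsg.Agent.CHEV.OrderGlue
import Cfsg.Agent.CHEV.StGlue
import Cfsg.Agent.CHEV.Aut

set_option autoImplicit false
open scoped MatrixGroups
open Cfsg

namespace Cfsg.Agent.S2658

open CL.Chev Cfsg.Lie in
theorem index_H (K : Type*) [Field K] [Finite K] {q : ℕ} (hq : Nat.card K = q) :
    (stG chevG2 K).H.relIndex ⊤ = q ^ 6 * ((q + 1) ^ 2 * ((q ^ 2 + q + 1) * (q * (q - 1) + 1))) := by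
  have h1 := card_H_G2 (stG_good (D := chevG2) (F := K)) stG_adjoint (of_rootSys_A _) hq
  have h2 := card_grp_G2 (stG_good (D := chevG2) (F := K)) stG_adjoint (of_rootSys_A _) (by simp; rfl) hq
  have hq2 : 1 < q := hq ▸ Finite.one_lt_card
  obtain ⟨d, rfl⟩ : ∃ d, q = d + 1 := ⟨q - 1, by omega⟩
  refine CL.SecL.relIndex_eq_of_card (by rw [inf_top_eq]; exact h1) ?_ (pow_ne_zero _ (by omega))
  have h3 : (stG chevG2 K).grp = ⊤ := stG_top
  erw [h3] at h2
  rw [h2, Nat.add_sub_cancel]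
  have e1 : (d + 1) ^ 2 - 1 = d * (d + 2) := Nat.sub_eq_of_eq_add (by ring)
  have e2 : (d + 1) ^ 6 - 1 = d * ((d + 2) * (((d + 1) ^ 2 + (d + 1) + 1) * ((d + 1) * d + 1))) :=
    Nat.sub_eq_of_eq_add (by ring)
  rw [e1, e2]; ring

open CL.Chev Cfsg.Lie in
theorem weyl {w : Equiv.Perm (Rt chevG2)} (hw : w ∈ (rootSys chevG2).W) : w ^ 6 = 1 := by
  obtain ⟨l, rfl⟩ := (rootSys chevG2).mem_W_iff.1 hw
  refine CL.SecL.dih_pow (s := (rootSys chevG2).sp) (rootSys chevG2).sp_mul_self (by decide) ?_ l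
  let i0 : Fin chevG2.rank := (0 : Fin 2)
  let i1 : Fin chevG2.rank := (1 : Fin 2)
  have : ∀ r : Fin 12, ((fun s : Rt chevG2 => rsT i0 (rsT i1 s))^[6] r).val = r.val := by decide +kernel
  have e : ((rootSys chevG2).sp i0 * (rootSys chevG2).sp i1 : Equiv.Perm (Rt chevG2)) =
      fun s : Rt chevG2 => rsT i0 (rsT i1 s) := by
    ext s
    simp only [Equiv.Perm.mul_apply, RootSys.sp_apply, rootSys_σ, rf_sm_eq]
  change ((rootSys chevG2).sp i0 * (rootSys chevG2).sp i1) ^ 6 = 1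
  ext r
  rw [Equiv.Perm.coe_pow, e]
  exact this r

theorem arith5 {q : ℕ} (hq : (q : ZMod 5) = 1) :
    ¬ 5 ∣ q ^ 6 * ((q + 1) ^ 2 * ((q ^ 2 + q + 1) * (q * (q - 1) + 1))) := by
  obtain _ | d := q
  · exact absurd hq (by decide)
  · rw [← ZMod.natCast_eq_zero_iff, Nat.add_sub_cancel]
    have : (d : ZMod 5) = 0 := by simpa using hq
    push_cast
    rw [this]
    decide

theorem arith8 {q : ℕ} (hq : (q : ZMod 8) = 1 ∨ (q : ZMod 8) = 5) :
    ¬ 8 ∣ q ^ 6 * ((q + 1) ^ 2 * ((q ^ 2 + q + 1) * (q * (q - 1) + 1))) := by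
  obtain _ | d := q
  · exact absurd hq (by decide)
  · rw [← ZMod.natCast_eq_zero_iff, Nat.add_sub_cancel]
    have : (d : ZMod 8) = 0 ∨ (d : ZMod 8) = 4 := by
      push_cast at hq
      generalize (d : ZMod 8) = x at hq
      revert x; decide
    push_cast
    rcases this with h | h <;> rw [h] <;> decide

theorem five_pow (n : ℕ) : ((5 ^ n : ℕ) : ZMod 8) = 1 ∨ ((5 ^ n : ℕ) : ZMod 8) = 5 := by
  push_cast
  induction n with
  | zero => simp
  | succ k ih => rcases ih with h | h <;> rw [pow_succ, h] <;> decide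

theorem pow_four {p : ℕ} (hp : p.Prime) (h : p ≠ 5) (n : ℕ) : (((p ^ n) ^ 4 : ℕ) : ZMod 5) = 1 := by
  have h1 : (p : ZMod 5) ≠ 0 := by
    rw [Ne, ZMod.natCast_eq_zero_iff]
    exact fun h5 => h ((Nat.prime_dvd_prime_iff_eq (by norm_num) hp).1 h5).symm
  push_cast
  rw [← pow_mul, mul_comm, pow_mul]
  generalize (p : ZMod 5) = x at h1
  have : x ^ 4 = 1 := by revert x; decide
  rw [this, one_pow]

/-- Alternating sections of the groups of type G₂. Let `F` be a finite field of characteristic `p` and let `G` be the Chevalley group of type G₂ over `F`. If some subgroup of `G` has a quotient isomorphic to the alternating group of degree `r`, then `r` is at most 6, or 7 in characteristic 5. (Only an upper bound is asserted.) -/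
theorem result {F : Type*} [Field F] [Fintype F] (p : ℕ) [Fact p.Prime] [CharP F p]
    (r : ℕ) (H : Subgroup ↥(Cfsg.Lie.chevG2.group F)) (K : Subgroup ↥H) [K.Normal]
    (h : Nonempty (↥H ⧸ K ≃* ↥(alternatingGroup (Fin r)))) :
    r ≤ 6 + (if p = 5 then 1 else 0) := by
  by_contra hr
  obtain ⟨e⟩ := h
  obtain ⟨n, hp, hn⟩ := FiniteField.card F p
  rw [← Nat.card_eq_fintype_card] at hn
  split_ifs at hr with h5
  · subst h5
    obtain ⟨L, f, hf⟩ := CL.SecL.exists_sec (n := 8) (by omega) H K e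
    obtain ⟨U, hU, hU2⟩ := CL.SecL.exists_U
    have := CL.Chev.finite_group Cfsg.Lie.chevG2 F
    obtain ⟨s, hs, hs'⟩ := CL.SecL.exists_four (CL.Chev.stG_good (D := Cfsg.Lie.chevG2) (F := F)) CL.Chev.stG_adjoint
      (M := ⊤) (0 : Fin 2) (1 : Fin 2) (fun h _ _ i => by
        fin_cases i
        · exact Or.inr Iff.rfl
        · exact Or.inl rfl)
    exact CL.SecL.two_case (fun x hx y hy => CL.Chev.stG_R3.H_comm hx hy) (index_H F hn ▸ arith8 (five_pow n)) s hs hs'
      (H.subtype.comp L.subtype) (H.subtype_injective.comp L.subtype_injective) (fun _ => trivial) f hf U hU hU2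
  · obtain ⟨L, f, hf⟩ := CL.SecL.exists_sec (n := 7) (by omega) H K e
    obtain ⟨a, c, ha, ha1, hc⟩ := CL.SecL.alt7_five
    let E := FiniteField.Extension F p 4
    have hE : Nat.card E = (p ^ (n : ℕ)) ^ 4 := by rw [FiniteField.natCard_extension, hn]
    have := CL.Chev.finite_group Cfsg.Lie.chevG2 E
    have : Fact (Nat.Prime 5) := ⟨by norm_num⟩
    have hS := CL.Chev.stG_good (D := Cfsg.Lie.chevG2) (F := E)
    have := CL.SecL.one_prime hS CL.Chev.stG_R3 (e := 6) (M := ⊤) (fun g _ => by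
        obtain ⟨w, hw, hl⟩ := CL.SecL.exists_like hS CL.Chev.stG_top g
        exact ⟨w, weyl hw, hl⟩) (index_H E hE ▸ arith5 (pow_four hp h5 n))
      (j := (CL.Chev.fieldHom _ (algebraMap F E)).comp (H.subtype.comp L.subtype))
      ((CL.Chev.fieldHom_injective _).comp (H.subtype_injective.comp L.subtype_injective)) (fun l => trivial) f hf ha ha1
      (by norm_num) hc
    norm_num at this

end Cfsg.Agent.S2658
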