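import Cfsg.Statements.S2660
import Cfsg.Agent.KSG.SecLift
import Cfsg.Agent.CHEV.TwD4
import Cfsg.Agent.CHEV.StGlue
import Cfsg.Agent.CHEV.Aut

set_option autoImplicit false
open scoped MatrixGroups
open Cfsg

namespace Cfsg.Agent.S2660

open CL.Chev Cfsg.Lie in
theorem index_H {K : Type*} [Field K] [Finite K] {q : ℕ} {T : (stG chevD4 K).Twist (Fin 2)}
    (hT : StData.Twist.IsD4 (R := rootSys chevD4) T q) {M : Subgroup (chevD4.group K)} (hM : T.IsTw M) :
    (stG chevD4 K).H.relIndex M = q ^ 12 * ((q + 1) * (q ^ 3 + 1) * (q ^ 8 + q ^ 4 + 1)) := by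
  have h1 := hT.card_H stG_good hM stG_adjoint
  have h2 := hT.card_eq stG_good hM stG_adjoint (by simp; rfl)
  have hq2 := hT.two_le
  obtain ⟨d, rfl⟩ : ∃ d, q = d + 1 := ⟨q - 1, by omega⟩
  refine CL.SecL.relIndex_eq_of_card h1 ?_ (mul_ne_zero (pow_ne_zero _ (by omega)) (by positivity))
  rw [h2, Nat.add_sub_cancel]
  have e1 : (d + 1) ^ 2 - 1 = d * (d + 2) := Nat.sub_eq_of_eq_add (by ring)
  have e2 : (d + 1) ^ 6 - 1 = d * (((d + 1) ^ 2 + (d + 1) + 1) * ((d + 1) ^ 3 + 1)) :=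
    Nat.sub_eq_of_eq_add (by ring)
  rw [e1, e2]; ring

open CL.Chev Cfsg.Lie in
theorem weyl {K : Type*} [Field K] {q : ℕ} {T : (stG chevD4 K).Twist (Fin 2)}
    (hT : StData.Twist.IsD4 (R := rootSys chevD4) T q) {w : Equiv.Perm (Rt chevD4)} (hw : w ∈ T.W1) : w ^ 6 = 1 := by
  obtain ⟨l, hl⟩ := T.gen.surj ⟨w, hw⟩
  have := CL.SecL.dih_pow T.gen.mul_self (n := 6) (by decide)
    (orderOf_dvd_iff_pow_eq_one.1 (dvd_of_eq (hT.orderOf_s 0 1))) l
  have e2 : (⟨w, hw⟩ : T.W1) ^ 6 = 1 := by rw [← hl]; exact this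
  exact congrArg Subtype.val e2

open CL.Chev Cfsg.Lie in
theorem fieldHom_evG {D : ChevalleyDatum} [Good D] {K E : Type*} [Field K] [Field E] (f : K →+* E)
    (w : List (ℕ × K)) : fieldHom D f (evG D w) = evG D (w.map fun x => (x.1, f x.2)) := by
  induction w with
  | nil => rw [List.map_nil, evG_nil, evG_nil, map_one]
  | cons x w ih =>
    obtain ⟨r, t⟩ := x
    rw [List.map_cons, evG_cons, evG_cons, map_mul, ih]
    congr 1
    unfold xN
    split_ifs
    · exact fieldHom_x f _ t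
    · exact map_one _

open CL.Chev Cfsg.Lie in
theorem mem_ext {K E : Type*} [Field K] [Field E] (f : K →+* E) {q : ℕ} (hq : ∀ t : K, t ^ q ^ 3 = t)
    (g : chevD4.genSubgroup K (d4Words K q)) :
    fieldHom chevD4 f (jG chevD4 _ g) ∈ (jG chevD4 (d4Words E (q ^ 4))).range := by
  have h4 : ∀ t : K, t ^ q ^ 4 = t ^ q := fun t => by rw [pow_succ q 3, pow_mul, hq]
  refine range_jG_le (A := (jG chevD4 (d4Words E (q ^ 4))).range.comap (fieldHom chevD4 f)) (fun w hw => ?_) ⟨g, rfl⟩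
  rw [Subgroup.mem_comap, fieldHom_evG]
  refine evG_mem_range ?_
  rcases hw with ⟨t, ht, r, hr, rfl⟩ | ⟨t, rs, hrs, rfl⟩
  · exact Or.inl ⟨f t, by rw [← map_pow, h4, ht], r, hr, rfl⟩
  · refine Or.inr ⟨f t, rs, hrs, ?_⟩
    rw [← map_pow, ← map_pow, h4, sq (q ^ 4), pow_mul, h4, h4, ← pow_mul, ← sq]
    rfl

theorem arith5 {q : ℕ} (hq : (q : ZMod 5) = 1) : ¬ 5 ∣ q ^ 12 * ((q + 1) * (q ^ 3 + 1) * (q ^ 8 + q ^ 4 + 1)) := by
  rw [← ZMod.natCast_eq_zero_iff]
  push_cast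
  rw [hq]
  decide

theorem arith8 {q : ℕ} (hq : (q : ZMod 8) = 1 ∨ (q : ZMod 8) = 5) :
    ¬ 8 ∣ q ^ 12 * ((q + 1) * (q ^ 3 + 1) * (q ^ 8 + q ^ 4 + 1)) := by
  rw [← ZMod.natCast_eq_zero_iff]
  push_cast
  rcases hq with h | h <;> rw [h] <;> decide

theorem five_pow (n : ℕ) : ((5 ^ n : ℕ) : ZMod 8) = 1 ∨ ((5 ^ n : ℕ) : ZMod 8) = 5 := by
  push_cast
  induction n with
  | zero => simp
  | succ k ih => rcases ih with h | h <;> rw [pow_succ, h] <;> decide

theorem pow_four {p : ℕ} (hp : p.Prime) (h : p ≠ 5) (n : ℕ) : (((p ^ n) ^ 4 : ℕ) : ZMod 5) = 1 := by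
  have h1 : (p : ZMod 5) ≠ 0 := by
    rw [Ne, ZMod.natCast_eq_zero_iff]
    exact fun h5 => h ((Nat.prime_dvd_prime_iff_eq (by norm_num) hp).1 h5).symm
  push_cast
  rw [← pow_mul, mul_comm, pow_mul]
  generalize (p : ZMod 5) = x at h1
  have : x ^ 4 = 1 := by revert x; decide
  rw [this, one_pow]

/-- Alternating sections of the triality-twisted groups ³D₄. Let `q = p^a` be a prime power and `K` a field with `q³` elements, and let `G` be the twisted group ³D₄(q) realised over `K`. If some subgroup of `G` has a quotient isomorphic to the alternating group of degree `r`, then `r` is at most 6, or 7 in characteristic 5. (Only an upper bound is asserted.) -/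
theorem result {K : Type*} [Field K] [Fintype K] (p a : ℕ) [Fact p.Prime] [CharP K p]
    (ha : 1 ≤ a) (hK : Fintype.card K = (p ^ a) ^ 3) (r : ℕ) (H : Subgroup ↥(Cfsg.Lie.twistedD4 K (p ^ a))) (N : Subgroup ↥H) [N.Normal]
    (h : Nonempty (↥H ⧸ N ≃* ↥(alternatingGroup (Fin r)))) :
    r ≤ 6 + (if p = 5 then 1 else 0) := by
  by_contra hr
  obtain ⟨e⟩ := h
  have hp : p.Prime := Fact.out
  rw [← Nat.card_eq_fintype_card] at hK
  have hinj := fun L : Subgroup H => (CL.Chev.jG_injective _).comp (H.subtype_injective.comp L.subtype_injective)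
  split_ifs at hr with h5
  · subst h5
    obtain ⟨L, f, hf⟩ := CL.SecL.exists_sec (n := 8) (by omega) H N e
    obtain ⟨U, hU, hU2⟩ := CL.SecL.exists_U
    have := CL.Chev.finite_group Cfsg.Lie.chevD4 K
    obtain ⟨T, hT, hM, -⟩ := CL.Chev.exists_twist_D4 (hp.isPrimePow.pow (by omega)) hK
    obtain ⟨s, hs, hs'⟩ := CL.SecL.exists_four (CL.Chev.stG_good (D := Cfsg.Lie.chevD4) (F := K)) CL.Chev.stG_adjoint
      (M := (CL.Chev.jG Cfsg.Lie.chevD4 (Cfsg.Lie.d4Words K (5 ^ a))).range) (0 : Fin 4) (1 : Fin 4)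
      (fun h _ hh i => by
        have key : ∀ i, Commute h ((CL.Chev.stG Cfsg.Lie.chevD4 K).x ((CL.Chev.rootSys Cfsg.Lie.chevD4).simple i) 1) →
            Commute h ((CL.Chev.stG Cfsg.Lie.chevD4 K).x ((CL.Chev.rootSys Cfsg.Lie.chevD4).simple (T.π i)) 1) := by
          intro i hc
          have := hc.map T.σ
          rwa [T.mem_Fix.1 (hM.le_fix hh), T.map_pos, map_one] at this
        have k0 := key (0 : Fin 4)
        have k2 := key (2 : Fin 4)
        have k3 := key (3 : Fin 4)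
        erw [hT.π] at k0 k2 k3
        fin_cases i
        · exact Or.inr Iff.rfl
        · exact Or.inl rfl
        · exact Or.inr ⟨fun h => k3 (k2 h), k0⟩
        · exact Or.inr ⟨k3, fun h => k2 (k0 h)⟩)
    exact CL.SecL.two_case (fun x hx y hy => CL.Chev.stG_R3.H_comm hx hy) (index_H hT hM ▸ arith8 (five_pow a)) s hs hs'
      ((CL.Chev.jG _ _).comp (H.subtype.comp L.subtype)) (hinj L) (fun _ => ⟨_, rfl⟩) f hf U hU hU2
  · obtain ⟨L, f, hf⟩ := CL.SecL.exists_sec (n := 7) (by omega) H N e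
    obtain ⟨b, c, hb, hb1, hc⟩ := CL.SecL.alt7_five
    let E := FiniteField.Extension K p 4
    have hE : Nat.card E = ((p ^ a) ^ 4) ^ 3 := by rw [FiniteField.natCard_extension, hK]; ring
    have := CL.Chev.finite_group Cfsg.Lie.chevD4 E
    have : Fact (Nat.Prime 5) := ⟨by norm_num⟩
    have hS := CL.Chev.stG_good (D := Cfsg.Lie.chevD4) (F := E)
    obtain ⟨T, hT, hM, -⟩ := CL.Chev.exists_twist_D4 ((hp.isPrimePow.pow (by omega)).pow (by omega)) hE
    have := CL.SecL.one_prime hS CL.Chev.stG_R3 (e := 6)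
      (M := (CL.Chev.jG Cfsg.Lie.chevD4 (Cfsg.Lie.d4Words E ((p ^ a) ^ 4))).range) (fun g hg => by
        obtain ⟨w, hw, hl⟩ := CL.SecL.exists_like_tw hS hM hg
        exact ⟨w, weyl hT hw, hl⟩) (index_H hT hM ▸ arith5 (pow_four hp h5 a))
      (j := (CL.Chev.fieldHom _ (algebraMap K E)).comp ((CL.Chev.jG _ _).comp (H.subtype.comp L.subtype)))
      ((CL.Chev.fieldHom_injective _).comp (hinj L))
      (fun l => mem_ext _ (fun t => hK ▸ CL.Chev.pow_natCard t) _) f hf hb hb1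
      (by norm_num) hc
    norm_num at this

end Cfsg.Agent.S2660
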