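import Cfsg.Statements.S2669
import Cfsg.Agent.KSG.Shintani

set_option autoImplicit false
open Cfsg

namespace Cfsg.Agent.S2669

theorem card_pairs {X : Type*} [Group X] (G H Y : Subgroup X) (a : X) :
    Nat.card {p : G × H // (p.2 : X)⁻¹ * a * p.1 ∈ Y} =
      Nat.card {k : G // ∃ h ∈ H, h⁻¹ * a * k ∈ Y} * Nat.card ↥(Y ⊓ H) := by
  rw [← Nat.card_prod]
  have hc : ∀ k : {k : G // ∃ h ∈ H, h⁻¹ * a * k ∈ Y}, ∃ h ∈ H, h⁻¹ * a * (k.1 : X) ∈ Y :=
    fun k => k.2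
  choose h0 h0H h0Y using hc
  symm
  refine Nat.card_congr (Equiv.ofBijective
    (fun q => ⟨(q.1.1, ⟨h0 q.1 * q.2, H.mul_mem (h0H _) q.2.2.2⟩), ?_⟩) ⟨?_, ?_⟩)
  · have := Y.mul_mem (Y.inv_mem q.2.2.1) (h0Y q.1)
    simpa [mul_assoc] using this
  · rintro ⟨k, u⟩ ⟨k', u'⟩ h
    simp only [Subtype.mk.injEq, Prod.mk.injEq] at h
    obtain ⟨h1, h2⟩ := h
    have hk : k = k' := Subtype.ext h1
    subst hk
    have hu : u = u' := Subtype.ext (mul_left_cancel h2)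
    rw [hu]
  · rintro ⟨⟨k, h⟩, hp⟩
    let k' : {k : G // ∃ h ∈ H, h⁻¹ * a * k ∈ Y} := ⟨k, h, h.2, hp⟩
    refine ⟨(k', ⟨(h0 k')⁻¹ * h, ?_, H.mul_mem (H.inv_mem (h0H _)) h.2⟩), ?_⟩
    · have := Y.mul_mem (h0Y k') (Y.inv_mem hp)
      simpa [mul_assoc, k'] using this
    · simp [k']

theorem card_double {X : Type*} [Group X] (G H Y : Subgroup X) (a : X) :
    Nat.card {k : G // ∃ h ∈ H, h⁻¹ * a⁻¹ * k ∈ Y} * Nat.card ↥(Y ⊓ H) =
      Nat.card {h : H // ∃ k ∈ G, k⁻¹ * a * h ∈ Y} * Nat.card ↥(Y ⊓ G) := by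
  rw [← card_pairs, ← card_pairs]
  refine Nat.card_congr ((Equiv.prodComm G H).subtypeEquiv ?_)
  rintro ⟨k, h⟩
  rw [← Y.inv_mem_iff]
  simp [mul_assoc]

/-- Shintani descent preserves numbers of fixed points on coset spaces (abstract form). Let `σ` be an automorphism of a group `X` and `e ≥ 1`; write `G` for the fixed points of `σᵉ` and `H` for the fixed points of `σ`, and assume `G` is finite. Let `Y` be a `σ`-stable subgroup of `X` on which the maps `a ↦ a σ(a)⁻¹` and `a ↦ a σᵉ(a)⁻¹` are surjective (as for a closed connected `σ`-stable subgroup of an algebraic group). Let `g ∈ G`, let `a ∈ X` satisfy `g = a σ(a)⁻¹` and put `x = σᵉ(a)⁻¹ a` (the Shintani image, an element of `H`). The element `g σ` of the semidirect product acts on the cosets of `Y ∩ G` in `G` by `k (Y ∩ G) ↦ g σ(k) (Y ∩ G)`, fixing that coset exactly when `k⁻¹ g σ(k) ∈ Y`; and `x` fixes the coset `h (Y ∩ H)` of `H` exactly when `h⁻¹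 x h ∈ Y`. Then the two numbers of fixed cosets agree; in cross-multiplied form, `#{k ∈ G : k⁻¹ g σ(k) ∈ Y} · |Y ∩ H| = #{h ∈ H : h⁻¹ x h ∈ Y} · |Y ∩ G|`. -/
theorem result {X : Type*} [Group X] (σ : MulAut X) (e : ℕ) (he : 1 ≤ e)
    [Finite ↥((MulEquiv.toMonoidHom (σ ^ e)).eqLocus (MonoidHom.id X))]
    (Y : Subgroup X) (hY : ∀ y : X, y ∈ Y ↔ σ y ∈ Y)
    (hYL : ∀ y ∈ Y, ∃ a ∈ Y, y = a * (σ a)⁻¹) (hYLe : ∀ y ∈ Y, ∃ a ∈ Y, y = a * ((σ ^ e) a)⁻¹)
    (g : X) (hg : g ∈ (MulEquiv.toMonoidHom (σ ^ e)).eqLocus (MonoidHom.id X)) (a : X) (ha : g = a * (σ a)⁻¹) :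
    Nat.card {k : ↥((MulEquiv.toMonoidHom (σ ^ e)).eqLocus (MonoidHom.id X)) // (k : X)⁻¹ * g * σ k ∈ Y} *
        Nat.card ↥(Y ⊓ (MulEquiv.toMonoidHom σ).eqLocus (MonoidHom.id X)) =
      Nat.card {h : ↥((MulEquiv.toMonoidHom σ).eqLocus (MonoidHom.id X)) // (h : X)⁻¹ * (((σ ^ e) a)⁻¹ * a) * h ∈ Y} *
        Nat.card ↥(Y ⊓ (MulEquiv.toMonoidHom (σ ^ e)).eqLocus (MonoidHom.id X)) := by
  have hYp : ∀ (n : ℕ) (y : X), y ∈ Y → (σ ^ n) y ∈ Y := by
    intro n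
    induction n with
    | zero => intro y hy; simpa using hy
    | succ n ih => intro y hy; rw [CL.Shintani.pow_succ_apply']; exact (hY _).1 (ih y hy)
  rw [CL.Shintani.mem_fix] at hg
  subst ha
  have key := card_double ((MulEquiv.toMonoidHom (σ ^ e)).eqLocus (MonoidHom.id X))
    ((MulEquiv.toMonoidHom σ).eqLocus (MonoidHom.id X)) Y a
  convert key using 4
  · funext k
    have hk : (σ ^ e) (k : X) = k := k.2
    apply propext
    constructor
    · intro h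
      obtain ⟨c, hc, hcc⟩ := hYL _ h
      refine ⟨a⁻¹ * k * c, (CL.Shintani.mem_fix _ _).2 ?_, ?_⟩
      · rw [map_mul, map_mul, map_inv]
        have : σ c = (((k : X)⁻¹ * (a * (σ a)⁻¹) * σ k))⁻¹ * c := by rw [hcc]; group
        rw [this]; group
      · have : (a⁻¹ * k * c)⁻¹ * a⁻¹ * k = c⁻¹ := by group
        rw [this]; exact Y.inv_mem hc
    · rintro ⟨h, hh, hy⟩
      rw [CL.Shintani.mem_fix] at hh
      have h1 := Y.mul_mem (Y.inv_mem hy) ((hY _).1 hy)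
      rw [map_mul, map_mul, map_inv, map_inv, hh] at h1
      convert h1 using 1
      group
  · funext h
    have hh : σ (h : X) = h := h.2
    have h2 := CL.Shintani.pow_apply_of_fixed σ hh e
    apply propext
    constructor
    · intro hy
      obtain ⟨c, hc, hcc⟩ := hYLe _ (Y.inv_mem hy)
      refine ⟨a * h * c, (CL.Shintani.mem_fix _ _).2 ?_, ?_⟩
      · rw [map_mul, map_mul, h2]
        have : (σ ^ e) c = ((h : X)⁻¹ * (((σ ^ e) a)⁻¹ * a) * h) * c := by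
          rw [← inv_inv ((h : X)⁻¹ * (((σ ^ e) a)⁻¹ * a) * h), hcc]; group
        rw [this]; group
      · have : (a * h * c)⁻¹ * a * h = c⁻¹ := by group
        rw [this]; exact Y.inv_mem hc
    · rintro ⟨k, hk, hy⟩
      rw [CL.Shintani.mem_fix] at hk
      have h1 := Y.mul_mem (Y.inv_mem (hYp e _ hy)) hy
      rw [map_mul, map_mul, map_inv, hk, h2] at h1
      convert h1 using 1
      group

end Cfsg.Agent.S2669
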