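import Mathlib
import Cfsg.Statements.S2671
import Cfsg.Agent.KSG.PrimeClass
import Cfsg.Agent.KSG.SpUClasses
import Cfsg.Agent.KSG.SpUPoly

set_option autoImplicit false
open Cfsg

namespace Cfsg.Agent.S2671

open CL.GLn CL.PrimeCl CL.SpU Polynomial

theorem tw_eq_map {K : Type*} [Field K] [Fintype K] {q : ℕ} (hK : Fintype.card K = q ^ 2)
    {P : K[X]} (hP : Irreducible P) (hm : P.Monic) :
    tw q P = P.map (CL.SqField.conj hK : K →+* K) := by
  obtain ⟨p, e, hp, hc, -, hq⟩ := CL.SqField.exists_char hK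
  have := Fact.mk hP
  have := Fact.mk hp
  have : CharP (AdjoinRoot P) p := charP_of_injective_algebraMap (algebraMap K _).injective p
  refine tw_eq_of_aeval hP ((MulEquiv.irreducible_iff
    (Polynomial.mapEquiv (CL.SqField.conj hK))).2 hP) (hm.map _) ?_
  have h1 := Polynomial.hom_eval₂ P (algebraMap K (AdjoinRoot P)) (iterateFrobenius _ p e)
    (AdjoinRoot.root P)
  rw [← aeval_def, AdjoinRoot.aeval_eq, AdjoinRoot.mk_self, map_zero, iterateFrobenius_def,
    ← hq] at h1
  change aeval _ (P.map (CL.SqField.conj hK : K →+* K)) = 0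
  rw [aeval_def, eval₂_map, h1]
  congr 1
  ext x
  simp [iterateFrobenius_def, ← hq, CL.SqField.conj_apply]

theorem isConj_iff_map {K : Type*} [Field K] [Fintype K] {q : ℕ} (hK : Fintype.card K = q ^ 2)
    {r : ℕ} [Fact r.Prime] (hr : (r : K) ≠ 0) (hq : q.Coprime r) {n : ℕ}
    {g : Matrix (Fin n) (Fin n) K} {m : Multiset K[X]} {k : ℕ}
    (h : HasM r (Matrix.toLin' g) m k) :
    IsConj g (ct hK g)⁻¹ ↔ m.map (tw (q * (r - 1))) = m := by
  have h1 : g ^ r = 1 := Matrix.toLin'.injective (by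
    rw [Matrix.toLin'_pow, h.pow_eq_one, Matrix.toLin'_one]; rfl)
  have h2 : ct hK g ^ r = 1 := by rw [← ct_pow, h1, ct_one]
  have h3 : (ct hK g)⁻¹ = ct hK g ^ (r - 1) := Matrix.inv_eq_left_inv (by
    rw [← pow_succ, Nat.sub_add_cancel (Fact.out : r.Prime).one_le, h2])
  have h4 : Simil (Matrix.toLin' (ct hK g)) (Matrix.toLin' g ^ q) := by
    refine simil_of_isSemisimple_of_charpoly_eq (isSemisimple_toLin'_of_pow_eq_one hr h2)
      (isSemisimple_of_pow_eq_one hr (h.pow hr hq).pow_eq_one) ?_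
    rw [Matrix.charpoly_toLin', charpoly_ct, ← Matrix.charpoly_toLin', h.ed.charpoly_eq,
      (h.pow hr hq).ed.charpoly_eq, Polynomial.map_multiset_prod]
    congr 1
    simp only [edOf, Multiset.map_add, Multiset.map_map, Function.comp_def, pow_one,
      Multiset.map_replicate, Polynomial.map_sub, map_X, Polynomial.map_one, add_left_inj]
    exact Multiset.map_congr rfl fun P hP =>
      (tw_eq_map hK (mem_cycFactors.1 (h.mem P hP)).1 (mem_cycFactors.1 (h.mem P hP)).2.1).symm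
  have h5 := h4.aeval (X ^ (r - 1))
  rw [aeval_X_pow, aeval_X_pow, ← pow_mul, ← Matrix.toLin'_pow] at h5
  rw [isConj_iff_simil, h3, ← h.simil_pow_iff hr (Nat.Coprime.mul_left hq coprime_sub_one)]
  exact ⟨fun h6 => h6.trans h5, fun h6 => h6.trans h5.symm⟩

theorem exists_neg_eq_iff {r : ℕ} [Fact r.Prime] (hr2 : r ≠ 2) {x : ZMod r} (hx : x ≠ 0) :
    (∃ j : ℕ, -x = (x ^ 2) ^ j) ↔ orderOf x % 4 = 2 := by
  have : Fact (2 < r) := ⟨lt_of_le_of_ne (Fact.out : r.Prime).two_le hr2.symm⟩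
  have h0 : 0 < orderOf x := orderOf_pos_iff.2 (isOfFinOrder_iff_pow_eq_one.2 ⟨r - 1,
    Nat.sub_pos_of_lt (Fact.out : r.Prime).one_lt, ZMod.pow_card_sub_one_eq_one hx⟩)
  have key : ∀ j, orderOf x = j + j → x ^ j = -1 := fun j hj => by
    have h1 : x ^ j * x ^ j = 1 := by rw [← pow_add, ← hj, pow_orderOf_eq_one]
    exact (mul_self_eq_one_iff.1 h1).resolve_left (pow_ne_one_of_lt_orderOf (by omega) (by omega))
  constructor
  · rintro ⟨j, hj⟩
    obtain ⟨l, hl⟩ : Even (orderOf x) := by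
      rw [← exists_neg_one_eq_pow_iff hr2 hx]
      refine ⟨2 * j + (orderOf x - 1), mul_right_cancel₀ hx ?_⟩
      rw [← pow_succ, add_assoc, Nat.sub_add_cancel h0, pow_add, pow_orderOf_eq_one, pow_mul, ← hj]
      ring
    have h1 : x ^ (l + 1) = x ^ (2 * j) := by rw [pow_succ, key l hl, pow_mul, ← hj]; ring
    rw [(orderOf_pos_iff.1 h0).pow_eq_pow_iff_modEq, hl, ← two_mul] at h1
    have h2 := h1.of_mul_right
    unfold Nat.ModEq at h2
    omega
  · intro h
    refine ⟨orderOf x / 4 + 1, ?_⟩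
    rw [← pow_mul, show 2 * (orderOf x / 4 + 1) = (2 * (orderOf x / 4) + 1) + 1 by ring, pow_succ,
      key _ (by omega)]
    ring

/-- Number of conjugacy classes of elements of odd prime order r in the general unitary group GU_n(q), for r not dividing q(q + 1): let i be the multiplicative order of q modulo r, b = i if i is odd and b = i/2 if i is even, and s = (r − 1)/b. If i ≢ 2 (mod 4) the eigenvalue orbits pair off into dual pairs of totally isotropic blocks and there are C(⌊n/(2b)⌋ + s/2, s/2) − 1 classes; if i ≡ 2 (mod 4) each orbit gives a non-degenerate block of dimension i/2 and there are C(⌊2n/i⌋ + s, s) − 1 classes. -/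
theorem result {K : Type*} [Field K] [Fintype K] {p q n r i b s : ℕ} [Fact p.Prime] [CharP K p] (hK : Fintype.card K = q ^ 2) (hr : r.Prime) (hr2 : r ≠ 2) (hrp : r ≠ p) (hi : i = orderOf (q : ZMod r)) (hi2 : i ≠ 2) (hb : b = if Odd i then i else i / 2) (hs : s * b = r - 1) : Nat.card {C : ConjClasses ↥(Cfsg.GU n K q) // ∃ g : ↥(Cfsg.GU n K q), ConjClasses.mk g = C ∧ orderOf g = r} = if i % 4 = 2 then Nat.choose (2 * n / i + s) s - 1 else Nat.choose (n / (2 * b) + s / 2) (s / 2) - 1 := by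
  have := Fact.mk hr
  have hr0 : (r : K) ≠ 0 :=
    natCast_ne_zero_of_coprime p ((Nat.coprime_primes hr Fact.out).2 hrp)
  have hc : ((Fintype.card K : ℕ) : ZMod r) = (q : ZMod r) ^ 2 := by rw [hK, Nat.cast_pow]
  have hx : (q : ZMod r) ≠ 0 := fun h => card_ne_zero_zmod hr0 (by rw [hc, h]; simp)
  have hq : q.Coprime r := (hr.coprime_iff_not_dvd.2 fun h =>
    hx ((ZMod.natCast_eq_zero_iff _ _).2 h)).symm
  have hob : ord K r = b := by
    rw [ord, hc, orderOf_pow' _ two_ne_zero, ← hi, hb]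
    split_ifs with h
    · rw [Nat.coprime_two_right.2 h, Nat.div_one]
    · rw [Nat.gcd_eq_right (even_iff_two_dvd.1 (Nat.not_odd_iff_even.1 h))]
  have hb0 : 0 < b := hob ▸ ord_pos hr0
  have hT : (cycFactors K r).card = s := by
    rw [card_cyc hr0, hob, ← hs, Nat.mul_div_cancel _ hb0]
  have hcc : ((q * (r - 1) : ℕ) : ZMod r) = -q := by rw [Nat.cast_mul, cast_sub_one]; ring
  rw [← Nat.card_congr (Equiv.subtypeEquivRight (q := fun C : ConjClasses (Cfsg.GU n K q) =>
    ∃ g : Cfsg.GU n K q, ConjClasses.mk g = C ∧ orderOf g = r)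
    (p := fun C => ∃ g : Cfsg.GU n K q, ConjClasses.mk g = C ∧ orderOf (g : GL (Fin n) K) = r)
    fun C => by simp only [Subgroup.orderOf_coe]),
    card_conjClasses_GU hK (fun g => orderOf g = r) fun a b h1 h2 =>
      (orderOf_eq_of_isConj h1).symm.trans h2]
  let φ : GL (Fin n) K →* Module.End K (Fin n → K) :=
    (Matrix.toLinAlgEquiv' (R := K)).toMulEquiv.toMonoidHom.comp (Units.coeHom _)
  rw [card_classes hr0 φ (Matrix.toLinAlgEquiv'.injective.comp Units.val_injective) _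
    (fun g h _ _ hs => (isConj_units_iff _ _).2 ((isConj_iff_simil _ _).2 hs))
    (fun m => ((∀ P ∈ m, P ∈ cycFactors K r) ∧ m.map (tw (q * (r - 1))) = m) ∧
      (0 < m.card ∧ b * m.card ≤ n))]
  · split_ifs with h
    · rw [← hT]
      refine (card_tw_fixed hr0 (by rw [hcc, hc, exists_neg_eq_iff hr2 hx, ← hi, h])
        fun k => 0 < k ∧ b * k ≤ n).trans (card_multiset_pos_le _
          (R := fun k => 0 < k ∧ b * k ≤ n) fun k => ?_)
      have h1 : i = 2 * b := by rw [hb, if_neg (Nat.not_odd_iff_even.2 ⟨i / 2, by omega⟩)]; omega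
      rw [h1, Nat.mul_div_mul_left _ _ two_pos, Nat.le_div_iff_mul_le hb0, mul_comm]
    · obtain ⟨S, h1, h2⟩ := card_tw_free hr0 (Nat.Coprime.mul_left hq coprime_sub_one)
        ⟨1, by rw [hcc, hc]; ring⟩ (by rwa [hcc, hc, exists_neg_eq_iff hr2 hx, ← hi])
      rw [show s / 2 = S.card by omega]
      refine (h2 fun k => 0 < k ∧ b * k ≤ n).trans (card_multiset_pos_le _
          (R := fun k => 0 < 2 * k ∧ b * (2 * k) ≤ n) fun k => ?_)
      rw [Nat.le_div_iff_mul_le (by omega), show k * (2 * b) = b * (2 * k) by ring]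
      exact and_congr_left' (by omega)
  · intro m
    rw [Multiset.card_pos]
    constructor
    · rintro ⟨⟨h1, h2⟩, h3, h4⟩
      obtain ⟨k, hk⟩ := Nat.exists_eq_add_of_le h4
      obtain ⟨A, hA⟩ := exists_hasM_of_finrank (V := Fin n → K) hr0 h1 (k := k)
        (by rw [hob, Module.finrank_fin_fun, hk])
      obtain ⟨g, rfl⟩ := Matrix.toLin'.surjective A
      obtain ⟨g, rfl⟩ := Matrix.isUnit_toLin'_iff.1 (IsUnit.of_pow_eq_one hA.pow_eq_one hr.ne_zero)
      exact ⟨h3, g, k, (isConj_iff_map hK hr0 hq hA).2 h2, hA⟩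
    · rintro ⟨h3, g, k, h1, h2⟩
      refine ⟨⟨h2.mem, (isConj_iff_map hK hr0 hq h2).1 h1⟩, h3, ?_⟩
      have := h2.finrank_eq hr0
      rw [hob, Module.finrank_fin_fun] at this
      omega

end Cfsg.Agent.S2671
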