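import Cfsg.Statements.S2672
import Cfsg.Agent.KSG.GLnProj
import Cfsg.Agent.CLAS.UniGen
import Cfsg.Agent.CLAS.UniED

set_option autoImplicit false
open Cfsg

namespace Cfsg.Agent.S2672

open CL.GLn CL.Elus CL.ElusL CL.SpU Polynomial Matrix

theorem result {K : Type*} [Field K] [Fintype K] {q n r : ℕ} (hK : Fintype.card K = q ^ 2) (hn : 3 ≤ n) (hr : r.Prime) (hr2 : r ≠ 2) (hrq : r ∣ q + 1) : Nat.card {C : ConjClasses (↥(Cfsg.GU n K q) ⧸ Subgroup.center ↥(Cfsg.GU n K q)) // ∃ g : ↥(Cfsg.GU n K q) ⧸ Subgroup.center ↥(Cfsg.GU n K q), ConjClasses.mk g = C ∧ orderOf g = r} = (Nat.choose (n + r - 1) (r - 1) - r - (if r ∣ n then 1 else 0)) / r + r * (if r ∣ n then 1 else 0) := by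
  have := Fact.mk hr
  have : Nonempty (Fin n) := ⟨⟨0, by omega⟩⟩
  obtain ⟨p, _, _, hp, -⟩ := FiniteField.card' K
  have := Fact.mk hp
  obtain ⟨ζ, hζ⟩ := exists_isPrimitiveRoot (F := K) (r := r) (by
    rw [hK]; exact hrq.trans ⟨q - 1, by simpa using Nat.sq_sub_sq q 1⟩)
  have hr0 : (r : K) ≠ 0 := (hζ.neZero' (n := r)).out
  have hs : ∀ (g : Cfsg.GU n K q) (c : K), guToMat n K q g = c • 1 → c ^ (q + 1) = 1 := fun g c h => by
    have := ct_mul_GU hK g
    rw [← guToMat_apply, h, ct_smul, ct_one, smul_mul_smul_comm, one_mul, ← pow_succ] at this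
    exact smul_left_injective K one_ne_zero (this.trans (one_smul _ _).symm)
  refine CL.GLnProj.card_classes (φ := guToMat n K q) (fun g => CL.Uni.mem_center_GU_iff hK (by omega))
    (fun g k h => (isConj_GU_iff hK g k).2 h) p (fun h => hr0 (h ▸ CharP.cast_eq_zero K p)) hζ
    (by simp) (fun a => ⟨mkGU hK (diagonal _) ?_, rfl⟩) (fun b g h => ⟨mkGU hK (b • 1) ?_, rfl⟩)
    fun hk c g h hc => ?_
  · rw [ct_eq, diagonal_map (map_zero _), diagonal_transpose, diagonal_mul_diagonal,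
      ← diagonal_one]
    congr 1; funext i
    change (_ : K) ^ q * _ = _
    rw [← pow_succ, ← pow_mul, mul_comm, pow_mul, (hζ.pow_eq_one_iff_dvd _).2 hrq, one_pow]
  · rw [ct_smul, ct_one, smul_mul_smul_comm, one_mul, ← pow_succ,
      norm_eq_one_of_pow (hF := hK) hr2 hrq rfl (hs g _ h), one_smul]
  · obtain ⟨A, h1, h2⟩ := exists_real_irred (hF := hK) hr.ne_zero (hs g c h)
      ((X_pow_sub_C_irreducible_iff_of_prime hr).2 hc) hk
    obtain ⟨B, hB⟩ := (isReal_herm_iff.1 h1).exists_GU hK (n := n) (by simp)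
    exact ⟨B, (pow_eq_smul_iff _ _ _).2 (by
      simpa [sub_eq_zero] using (hB.aeval_eq_zero_iff _).1 h2)⟩

end Cfsg.Agent.S2672
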