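import Mathlib
import Cfsg.Statements.S2673
import Cfsg.Agent.KSG.OrthSS

set_option autoImplicit false
open Cfsg

namespace Cfsg.Agent.S2673

open CL.GLn CL.PrimeCl CL.Orth

/-- Number of conjugacy classes of elements of odd prime order r ≠ p in the orthogonal group O_(2m+1)(q) of x_0² + Σ x_j y_j, q odd: with i the multiplicative order of q mod r and t = (r − 1)/i, there are C(⌊m/i⌋ + t/2, t/2) − 1 classes if i is odd (dual pairs of totally singular i-blocks) and C(⌊(2m+1)/i⌋ + t, t) − 1 if i is even (elliptic i-blocks). -/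
theorem result {F : Type*} [Field F] [Fintype F] {p q : ℕ} [Fact p.Prime] [CharP F p] (hF : Fintype.card F = q) (hq : Odd q) (m r i t : ℕ) (hr : r.Prime) (hr2 : r ≠ 2) (hrp : r ≠ p) (hi : i = orderOf (q : ZMod r)) (ht : t * i = r - 1) : Nat.card {C : ConjClasses ↥(Cfsg.isometryGroup F (Cfsg.quadFormOdd m F)) // ∃ g : ↥(Cfsg.isometryGroup F (Cfsg.quadFormOdd m F)), ConjClasses.mk g = C ∧ orderOf g = r} = if Odd i then Nat.choose (m / i + t / 2) (t / 2) - 1 else Nat.choose ((2 * m + 1) / i + t) t - 1 := by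
  subst hF
  have := Fact.mk hr
  have hr0 : (r : F) ≠ 0 :=
    natCast_ne_zero_of_coprime p ((Nat.coprime_primes hr Fact.out).2 hrp)
  have hi0 : 0 < i := hi ▸ ord_pos hr0
  obtain ⟨S, h1, h2, h3⟩ := exists_card_inv hr0 hr2 (t := t) (by rw [hi] at ht; exact ht)
  have hd : Module.finrank F (Unit ⊕ (Fin m ⊕ Fin m) → F) = 2 * m + 1 := by simp; ring
  refine (card_classes_congr (toO (QOdd m F)) r).trans ?_
  rw [card_classes_O hr0 hr2 (QOdd_nondeg m F (two_ne_zero_of_odd_card hq)), hd]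
  refine (h3 fun k => 0 < k ∧ ord F r * k ≤ 2 * m + 1 ∧
    (ord F r * k = 2 * m + 1 → (IsPlus (QOdd m F) ↔ Even k))).trans ?_
  unfold ord at *
  rw [← hi] at *
  split_ifs at h1 ⊢ with h
  · rw [← h1]
    refine card_multiset_pos_le S (R := fun k => 0 < 2 * k ∧ i * (2 * k) ≤ 2 * m + 1 ∧
      (i * (2 * k) = 2 * m + 1 → (IsPlus (QOdd m F) ↔ Even (2 * k)))) fun k => ?_
    rw [Nat.le_div_iff_mul_le hi0, mul_left_comm, mul_comm i]
    exact ⟨fun h => by omega, fun h => ⟨by omega, by omega, by omega⟩⟩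
  · rw [← h1]
    refine card_multiset_pos_le S (R := fun k => 0 < k ∧ i * k ≤ 2 * m + 1 ∧
      (i * k = 2 * m + 1 → (IsPlus (QOdd m F) ↔ Even k))) fun k => ?_
    rw [Nat.le_div_iff_mul_le hi0, mul_comm i]
    obtain ⟨j, hj⟩ := (Nat.not_odd_iff_even.1 h).mul_left k
    exact ⟨fun h => ⟨h.1, h.2.1⟩, fun h => ⟨h.1, h.2, by omega⟩⟩

end Cfsg.Agent.S2673
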