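import Mathlib
import Cfsg.Statements.S2674
import Cfsg.Agent.KSG.OrthSS

set_option autoImplicit false
open Cfsg

namespace Cfsg.Agent.S2674

open CL.GLn CL.PrimeCl CL.Orth

/-- Number of conjugacy classes of elements of odd prime order r ≠ p in the orthogonal group O⁺_2m(q) of Σ x_j y_j (m ≥ 1): with i the multiplicative order of q mod r and t = (r − 1)/i — if i is odd, C(⌊m/i⌋ + t/2, t/2) − 1; if i is even, C(⌊2m/i⌋ + t, t) − 1 minus, when i divides 2m with odd quotient, the C(2m/i + t − 1, t − 1) tuples using the whole space (an odd number of elliptic i-blocks fills an elliptic, not a hyperbolic, space). -/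
theorem result {F : Type*} [Field F] [Fintype F] {p q : ℕ} [Fact p.Prime] [CharP F p] (hF : Fintype.card F = q) (m r i t : ℕ) (hm : 1 ≤ m) (hr : r.Prime) (hr2 : r ≠ 2) (hrp : r ≠ p) (hi : i = orderOf (q : ZMod r)) (ht : t * i = r - 1) : Nat.card {C : ConjClasses ↥(Cfsg.isometryGroup F (Cfsg.quadFormPlus m F)) // ∃ g : ↥(Cfsg.isometryGroup F (Cfsg.quadFormPlus m F)), ConjClasses.mk g = C ∧ orderOf g = r} = if Odd i then Nat.choose (m / i + t / 2) (t / 2) - 1 else Nat.choose (2 * m / i + t) t - 1 - (if i ∣ 2 * m ∧ Odd (2 * m / i) then Nat.choose (2 * m / i + t - 1) (t - 1) else 0) := by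
  subst hF
  have := Fact.mk hr
  have hr0 : (r : F) ≠ 0 :=
    natCast_ne_zero_of_coprime p ((Nat.coprime_primes hr Fact.out).2 hrp)
  have hi0 : 0 < i := hi ▸ ord_pos hr0
  obtain ⟨S, h1, h2, h3⟩ := exists_card_inv hr0 hr2 (t := t) (by rw [hi] at ht; exact ht)
  have hd : Module.finrank F (Fin m ⊕ Fin m → F) = 2 * m := by simp; ring
  refine (card_classes_congr (toO (QPlus m F)) r).trans ?_
  rw [card_classes_O hr0 hr2 (QPlus_nondeg m F), hd]
  refine (h3 fun k => 0 < k ∧ ord F r * k ≤ 2 * m ∧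
    (ord F r * k = 2 * m → (IsPlus (QPlus m F) ↔ Even k))).trans ?_
  unfold ord at *
  rw [← hi] at *
  simp only [isPlus_QPlus, true_iff]
  split_ifs at h1 ⊢ with h h'
  · rw [← h1]
    refine card_multiset_pos_le S (R := fun k => 0 < 2 * k ∧ i * (2 * k) ≤ 2 * m ∧
      (i * (2 * k) = 2 * m → Even (2 * k))) fun k => ?_
    rw [Nat.le_div_iff_mul_le hi0, mul_left_comm, mul_comm i]
    exact ⟨fun h => by omega, fun h => ⟨by omega, by omega, fun _ => even_two_mul k⟩⟩
  · rw [← h1]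
    obtain ⟨⟨N, hN⟩, h5⟩ := h'
    rw [hN, Nat.mul_div_cancel_left _ hi0] at h5 ⊢
    refine card_multiset_pos_lt S h2 h5.pos (R := fun k => 0 < k ∧ i * k ≤ i * N ∧
      (i * k = i * N → Even k)) fun k => and_congr_right fun _ => ?_
    rw [Nat.mul_le_mul_left_iff hi0, Nat.mul_right_inj hi0.ne']
    refine ⟨fun h => lt_of_le_of_ne h.1 fun h6 => ?_, fun h => ⟨h.le, fun h6 => absurd h6 h.ne⟩⟩
    exact Nat.not_even_iff_odd.2 h5 (h6 ▸ h.2 h6)
  · rw [← h1]
    refine card_multiset_pos_le S (R := fun k => 0 < k ∧ i * k ≤ 2 * m ∧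
      (i * k = 2 * m → Even k)) fun k => ?_
    rw [Nat.le_div_iff_mul_le hi0, mul_comm k]
    refine ⟨fun h => ⟨h.1, h.2.1⟩, fun h => ⟨h.1, h.2, fun h6 => ?_⟩⟩
    rw [← h6, Nat.mul_div_cancel_left _ hi0] at h'
    exact Nat.not_odd_iff_even.1 fun h7 => h' ⟨Dvd.intro _ rfl, h7⟩

end Cfsg.Agent.S2674
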