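import Mathlib
import Cfsg.Statements.S2676
import Cfsg.Agent.KSG.ClsNum

set_option autoImplicit false
open Classical
open Cfsg

namespace Cfsg.Agent.S2676

open CL.Nil CL.Orth CL.GLn CL.SpU

theorem sum_replicate_count {N : ℕ} (μ : Multiset ℕ) (h0 : ∀ a ∈ μ, 0 < a) (h1 : ∀ a ∈ μ, a ≤ N) :
    ∑ j ∈ Finset.range N, Multiset.replicate (μ.count (j + 1)) (j + 1) = μ := by
  ext a
  rcases a with _ | a
  · rw [Multiset.count_eq_zero_of_notMem fun h => (h0 0 h).false]
    simp [Multiset.count_sum', Multiset.count_replicate]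
  · rw [count_sum_replicate]
    split_ifs with h
    · rfl
    · exact (Multiset.count_eq_zero_of_notMem fun h' => h (h1 _ h')).symm

theorem le_of_mem_parts {N : ℕ} (μ : Nat.Partition N) {a : ℕ} (h : a ∈ μ.parts) : a ≤ N := by
  rw [← μ.parts_sum]; exact Multiset.single_le_sum (fun _ _ => Nat.zero_le _) _ h

theorem card_order_add_one {G : Type*} [Group G] [Finite G] {p : ℕ} (hp : p.Prime) :
    Nat.card {C : ConjClasses G // ∃ g, ConjClasses.mk g = C ∧ g ^ p = 1} =
      Nat.card {C : ConjClasses G // ∃ g, ConjClasses.mk g = C ∧ orderOf g = p} + 1 := by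
  have := Fact.mk hp
  have h1 : {C : ConjClasses G | ∃ g, ConjClasses.mk g = C ∧ g ^ p = 1} =
      insert (ConjClasses.mk 1) {C : ConjClasses G | ∃ g, ConjClasses.mk g = C ∧ orderOf g = p} := by
    ext C
    constructor
    · rintro ⟨g, rfl, hg⟩
      by_cases h : g = 1
      · exact .inl (h ▸ rfl)
      · exact .inr ⟨g, rfl, orderOf_eq_prime hg h⟩
    · rintro (rfl | ⟨g, rfl, hg⟩)
      · exact ⟨1, rfl, one_pow _⟩
      · exact ⟨g, rfl, hg ▸ pow_orderOf_eq_one g⟩
  have h3 := congrArg Set.ncard h1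
  rw [Set.ncard_insert_of_notMem, ← Nat.card_coe_set_eq, ← Nat.card_coe_set_eq] at h3
  · exact h3
  · rintro ⟨g, h, hg⟩
    rw [ConjClasses.mk_eq_mk_iff_isConj, isConj_one_left] at h
    rw [h, orderOf_one] at hg
    exact hp.one_lt.ne hg


/-- Number of conjugacy classes of elements of order p in Sp_2m(q), q a power of the odd prime p: the classes correspond to the signed partitions of 2m — partitions with all parts at most p in which every odd part has even multiplicity, each even part size that occurs carrying a sign — other than the all-ones partition; so the count is the sum over such partitions of 2^(number of distinct even parts), minus one. -/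
theorem result {F : Type*} [Field F] [Fintype F] {p : ℕ} [Fact p.Prime] [CharP F p] (hp : p ≠ 2) (m : ℕ) : Nat.card {C : ConjClasses ↥(Matrix.symplecticGroup (Fin m) F) // ∃ g : Matrix.symplecticGroup (Fin m) F, ConjClasses.mk g = C ∧ orderOf g = p} = (∑ μ ∈ Finset.univ.filter (fun μ : Nat.Partition (2 * m) => (∀ a ∈ μ.parts, a ≤ p) ∧ ∀ j : ℕ, Odd j → Even (μ.parts.count j)), 2 ^ ((μ.parts.toFinset.filter (fun j : ℕ => Even j)).card)) - 1 := by
  classical
  have hpp : p.Prime := Fact.out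
  have h2 : (2 : F) ≠ 0 := fun h =>
    hp ((Nat.prime_dvd_prime_iff_eq hpp Nat.prime_two).1 ((CharP.cast_eq_zero_iff F p 2).1 h))
  let c : Nat.Partition (2 * m) → Prop := fun μ =>
    (∀ a ∈ μ.parts, a ≤ p) ∧ ∀ j : ℕ, Odd j → Even (μ.parts.count j)
  let D := Σ μ : {μ // c μ}, (μ.1.parts.toFinset.filter (fun j : ℕ => Even j) → ℤˣ)
  let sg : D → ℕ → ℤˣ := fun d j =>
    if h : j + 1 ∈ d.1.1.parts.toFinset.filter (fun j : ℕ => Even j) then d.2 ⟨_, h⟩ else 1
  have hpow : ∀ g : Matrix.symplecticGroup (Fin m) F, g ^ p = 1 ↔ ((spFS g).A - 1) ^ p = 0 := by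
    intro g
    have h1 := pow_char_pow_eq_one_iff F p g.1 1
    have h3 := toLin'_sub_one_pow g.1 p
    rw [pow_one] at h1
    rw [map_one] at h3
    rw [Subtype.ext_iff, SubmonoidClass.coe_pow, OneMemClass.coe_one, h1, ← h3,
      LinearEquiv.map_eq_zero_iff]
  have hsym : ∀ j, CL.Nil.Sym (CL.Witt.FormType.alt F) j ↔ Even (j + 1) := fun j => by
    rw [sym_alt h2, Nat.even_add_one, Nat.not_even_iff_odd]
  have key := card_classes_eq_of_rel (G := Matrix.symplecticGroup (Fin m) F) (D := D)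
    (fun g => g ^ p = 1)
    (fun g d => Uni (good_alt h2) (2 * m) (spFS g) (fun j => d.1.1.parts.count (j + 1)) (sg d))
    ?_ ?_ ?_ ?_
  · rw [card_order_add_one hpp] at key
    refine Nat.eq_sub_of_add_eq (key.trans ?_)
    rw [Nat.card_eq_fintype_card, Fintype.card_sigma]
    simp only [Fintype.card_fun, Fintype.card_units_int, Fintype.card_coe]
    exact (Finset.sum_subtype (Finset.univ.filter c) (by simp)
      fun μ => 2 ^ (μ.parts.toFinset.filter (fun j : ℕ => Even j)).card).symm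
  · intro g hg
    rw [hpow] at hg
    obtain ⟨a, s, h⟩ := exists_uni (good_alt h2) (2 * m) (spFS g) (isIsom_sp g)
      (dim_spFS g ▸ pow_finrank_eq_zero_of_isNilpotent ⟨p, hg⟩)
    have hmem : ∀ e ∈ ∑ j ∈ Finset.range (2 * m), Multiset.replicate (a j) (j + 1),
        ∃ j < 2 * m, a j ≠ 0 ∧ e = j + 1 := fun e he => by
      obtain ⟨j, hj, h1⟩ := Multiset.mem_sum.1 he
      exact ⟨j, Finset.mem_range.1 hj, Multiset.mem_replicate.1 h1⟩
    let μ : Nat.Partition (2 * m) := ⟨∑ j ∈ Finset.range (2 * m), Multiset.replicate (a j) (j + 1),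
      fun he => by obtain ⟨j, -, -, rfl⟩ := hmem _ he; omega, by
        refine Eq.trans ?_ (h.dim_eq.symm.trans (dim_spFS g))
        rw [Multiset.sum_sum]
        simp [mul_comm]⟩
    have hc : ∀ j < 2 * m, μ.parts.count (j + 1) = a j := fun j hj => by
      rw [count_sum_replicate, if_pos hj]
    refine ⟨⟨⟨μ, fun e he => ?_, fun j hj => ?_⟩, fun x => s (x.1 - 1)⟩,
      h.congr (fun j hj => (hc j hj).symm) fun j hj hs => ?_⟩
    · obtain ⟨j, h1, h3, rfl⟩ := hmem _ he
      exact (h.pow_eq_zero_iff p).1 hg j h1 h3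
    · obtain ⟨j, rfl⟩ : ∃ i, j = i + 1 := ⟨j - 1, by have := hj.pos; omega⟩
      rw [count_sum_replicate]
      split_ifs with h1
      · exact (h.valid j h1).1 (by rw [hsym]; exact Nat.not_even_iff_odd.2 hj)
      · exact Even.zero
    · simp only [sg]
      split_ifs with h1
      · rfl
      · refine (h.valid j hj).2 hs ?_
        rw [← hc j hj, Multiset.count_eq_zero]
        exact fun h3 => h1 (Finset.mem_filter.2 ⟨Multiset.mem_toFinset.2 h3, (hsym j).1 hs⟩)
  · exact fun g h d h3 h4 => (isConj_sp_iff g h).2 (h3.iso h4)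
  · rintro g h ⟨μ, s⟩ ⟨μ', s'⟩ h3 h4 h5
    have h6 := h3.of_iso (S' := spFS h) ((isConj_sp_iff g h).1 h5)
    obtain rfl : μ = μ' := by
      refine Subtype.ext (Nat.Partition.ext ?_)
      rw [← sum_replicate_count μ.1.parts (fun _ => μ.1.parts_pos) fun _ => le_of_mem_parts μ.1,
        ← sum_replicate_count μ'.1.parts (fun _ => μ'.1.parts_pos) fun _ => le_of_mem_parts μ'.1]
      exact Finset.sum_congr rfl fun j hj => by
        rw [show μ.1.parts.count (j + 1) = _ from h6.mult_eq h4 (Finset.mem_range.1 hj)]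
    congr 1
    funext ⟨j, hj⟩
    have h7 := Multiset.mem_toFinset.1 (Finset.mem_filter.1 hj).1
    obtain ⟨j, rfl⟩ : ∃ i, j = i + 1 := ⟨j - 1, by have := μ.1.parts_pos h7; omega⟩
    have h8 := h6.sign_eq h4 (j := j) (le_of_mem_parts μ.1 h7)
      ((hsym j).2 (Finset.mem_filter.1 hj).2)
    simpa only [sg, dif_pos hj] using h8
  · rintro ⟨μ, s⟩
    obtain ⟨S, h1, h3⟩ := exists_uni_of_valid (N := 2 * m) (m := fun j => μ.1.parts.count (j + 1))
      (s := sg ⟨μ, s⟩) (good_alt h2) fun j _ =>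
        ⟨fun h => μ.2.2 _ (by rwa [hsym, Nat.not_even_iff_odd] at h), fun _ h => dif_neg fun h' =>
          Multiset.count_eq_zero.1 h (Multiset.mem_toFinset.1 (Finset.mem_filter.1 h').1)⟩
    have h4 : S.dim = 2 * m := by
      rw [h3.dim_eq]
      conv_rhs => rw [← μ.1.parts_sum,
        ← sum_replicate_count μ.1.parts (fun _ => μ.1.parts_pos) fun _ => le_of_mem_parts μ.1]
      rw [Multiset.sum_sum]
      simp [mul_comm]
    obtain ⟨B, hB⟩ := exists_sp_isomConj S.nd h4 h1
    have h5 := h3.of_iso (S' := spFS B) hB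
    refine ⟨B, (hpow B).2 ((h5.pow_eq_zero_iff p).2 fun j _ h => ?_), h5⟩
    exact μ.2.1 _ (Multiset.count_ne_zero.1 h)

end Cfsg.Agent.S2676
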