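import Cfsg.Statements.S2677
import Cfsg.Agent.CLAS.UniGen
import Cfsg.Agent.CLAS.FieldAut
import Cfsg.Agent.KSG.SpURes
import Cfsg.Agent.KSG.SpUUnitary
import Cfsg.Agent.SOLV.Basic

set_option autoImplicit false
open Cfsg

namespace Cfsg.Agent.S2677

/-- Centraliser of a field automorphism of odd prime order in PGU_n(q): let q = q₀^r with r an odd prime, K the field with q² elements and σ a field automorphism of K of order r (fixed field of order q₀²). The elements g of GU_n(q) whose entrywise image under σ is a scalar multiple of g — those whose coset modulo the q + 1 unitary scalars is fixed by σ — number (q + 1)/(q₀ + 1) · |GU_n(q₀)|; equivalently the centraliser in PGU_n(q) of the induced automorphism has the order of PGU_n(q₀). -/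
theorem result {K : Type*} [Field K] [Fintype K] {q₀ q r n : ℕ} (hr : r.Prime) (hr2 : r ≠ 2) (hn : 1 ≤ n) (hq : q = q₀ ^ r) (hK : Fintype.card K = q ^ 2) (σ : K ≃+* K) (hσ : orderOf σ = r) : (Nat.card {g : ↥(Cfsg.GU n K q) // ∃ c : K, c ≠ 0 ∧ ((g : GL (Fin n) K) : Matrix (Fin n) (Fin n) K).map σ = c • ((g : GL (Fin n) K) : Matrix (Fin n) (Fin n) K)} : ℤ) = ((q + 1) / (q₀ + 1) : ℕ) * ((q₀ : ℤ) ^ (n * (n - 1) / 2) * ∏ i : Fin n, ((q₀ : ℤ) ^ ((i : ℕ) + 1) - (-1) ^ ((i : ℕ) + 1))) := by
  open CL.SpU CL.FieldAut in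
  classical
  set K₀ := fixF σ
  have : Fintype K₀ := Fintype.ofFinite _
  have hK₀ : Fintype.card K₀ = q₀ ^ 2 := by
    have := card_fixF_pow σ
    rw [hσ, Nat.card_eq_fintype_card, Nat.card_eq_fintype_card, hK, hq, ← pow_mul, mul_comm,
      pow_mul] at this
    exact Nat.pow_left_injective hr.ne_zero this
  obtain ⟨k, hk⟩ := hr.odd_of_ne_two hr2
  have hpow : ∀ x : K₀, (x : K) ^ q = (x ^ q₀ : K₀) := fun x => by
    rw [hq, hk, pow_succ, pow_mul, pow_mul, ← hK₀, ← SubmonoidClass.coe_pow, ← SubmonoidClass.coe_pow,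
      FiniteField.pow_card_pow]
  have hct : ∀ A : Matrix (Fin n) (Fin n) K₀,
      ct hK (A.map K₀.subtype) = (ct hK₀ A).map K₀.subtype := fun A => by
    ext i j; simp [ct_apply, hpow]
  have hinj : Function.Injective fun A : Matrix (Fin n) (Fin n) K₀ => A.map K₀.subtype :=
    Matrix.map_injective K₀.subtype.injective
  set ρ := guToMat n K q
  have hρ : Function.Injective ρ := guToMat_injective
  let ι : Cfsg.GU n K₀ q₀ →* Cfsg.GU n K q :=
    ((Matrix.GeneralLinearGroup.map K₀.subtype).comp (Subgroup.subtype _)).codRestrict _ fun A => by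
      rw [mem_GU_iff hK]
      change ct hK ((guToMat n K₀ q₀ A).map K₀.subtype) * (guToMat n K₀ q₀ A).map K₀.subtype = 1
      rw [hct, ← Matrix.map_mul, guToMat_apply, ct_mul_GU]
      simp
  have hι : ∀ A, ρ (ι A) = (guToMat n K₀ q₀ A).map K₀.subtype := fun _ => rfl
  have hιi : Function.Injective ι := fun A B h =>
    guToMat_injective (hinj (by simp only [← hι, h]))
  have hrange : ∀ g, g ∈ ι.range ↔ (ρ g).map σ = ρ g := fun g => by
    constructor
    · rintro ⟨A, rfl⟩
      ext i j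
      exact mem_fixF.1 (guToMat n K₀ q₀ A i j).2
    · intro h
      let A : Matrix (Fin n) (Fin n) K₀ := Matrix.of fun i j =>
        ⟨ρ g i j, mem_fixF.2 (congrFun (congrFun h i) j)⟩
      have hA : A.map K₀.subtype = ρ g := rfl
      refine ⟨mkGU hK₀ A (hinj ?_), hρ hA⟩
      simp only
      rw [Matrix.map_mul, ← hct, hA, guToMat_apply, ct_mul_GU]
      simp
  have hsc : ∀ e : K, e ^ (q + 1) = 1 →
      ct hK (e • (1 : Matrix (Fin n) (Fin n) K)) * (e • 1) = 1 := fun e he => by
    rw [ct_smul, ct_one, smul_mul_smul, ← pow_succ, he, one_smul, mul_one]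
  let s : rootsOfUnity (q + 1) K →* Cfsg.GU n K q := MonoidHom.mk'
    (fun e => mkGU hK ((e.1 : K) • 1) (hsc _ ((mem_rootsOfUnity' _ _).1 e.2)))
    fun a b => hρ (by
      rw [map_mul]
      change ((a * b).1 : K) • (1 : Matrix (Fin n) (Fin n) K) = ((a.1 : K) • 1) * ((b.1 : K) • 1)
      simp [smul_smul, mul_comm])
  have hs : ∀ e, ρ (s e) = (e.1 : K) • 1 := fun _ => rfl
  have i0 : Fin n := ⟨0, hn⟩
  have hsi : Function.Injective s := fun a b h => Subtype.ext (Units.ext (by
    simpa [hs] using congrFun (congrFun (congrArg ρ h) i0) i0))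
  have hN : s.range.Normal := ⟨by
    rintro _ ⟨e, rfl⟩ g
    refine ⟨e, hρ ?_⟩
    rw [map_mul, map_mul, hs, Matrix.mul_smul, mul_one, Matrix.smul_mul, ← map_mul,
      mul_inv_cancel, map_one]⟩
  have hsup : ∀ g, g ∈ ι.range ⊔ s.range ↔ ∃ c : K, c ≠ 0 ∧ (ρ g).map σ = c • ρ g := fun g => by
    rw [Subgroup.mem_sup_of_normal_right]
    constructor
    · rintro ⟨h, hh, _, ⟨e, rfl⟩, rfl⟩
      refine ⟨σ e.1 * (e.1 : K)⁻¹, by simp, ?_⟩
      rw [map_mul, hs, Matrix.mul_smul, mul_one, smul_smul, inv_mul_cancel_right₀ e.1.ne_zero]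
      conv_rhs => rw [← (hrange h).1 hh]
      ext i j; simp
    · rintro ⟨c, hc, h⟩
      have hg := ct_mul_GU hK g
      rw [← guToMat_apply] at hg
      change ct hK (ρ g) * ρ g = 1 at hg
      have hg0 : ρ g ≠ 0 := fun h0 => by
        simpa [h0] using congrFun (congrFun hg i0) i0
      have hc1 : c ^ (q + 1) = 1 := by
        have e1 : ct hK ((ρ g).map σ) = (ct hK (ρ g)).map σ := by
          ext i j; simp [ct_apply]
        have e2 : ct hK ((ρ g).map σ) * (ρ g).map σ = 1 := by
          rw [e1, ← Matrix.map_mul (f := σ), hg]; simp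
        rw [h, ct_smul, smul_mul_smul, hg, ← pow_succ] at e2
        simpa using congrFun (congrFun e2 i0) i0
      have hn1 : nrm σ (orderOf σ) c = 1 := by
        have : ∀ j : ℕ, (ρ g).map (σ ^ j : K ≃+* K) = nrm σ j c • ρ g := fun j => by
          induction j with
          | zero => ext; simp [nrm]
          | succ j ih =>
            ext a b
            have h1 := congrFun (congrFun ih a) b
            have h2 := congrFun (congrFun h a) b
            simp only [Matrix.map_apply, Matrix.smul_apply, smul_eq_mul] at h1 h2 ⊢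
            rw [pow_succ, RingAut.mul_apply, h2, map_mul, h1, nrm_succ]
            ring
        have h1 := this (orderOf σ)
        rw [pow_orderOf_eq_one] at h1
        exact smul_left_injective K hg0 (by simpa using h1.symm)
      obtain ⟨e, he0, he⟩ := exists_mul_apply_eq (isOfFinOrder_of_finite σ) hn1
      have hNe : σ (e ^ (q + 1)) = e ^ (q + 1) := by
        rw [map_pow]; conv_rhs => rw [← he, mul_pow, hc1, one_mul]
      obtain ⟨d, hd⟩ := CL.SqField.exists_norm_eq hK₀ (μ := ⟨_, mem_fixF.2 hNe⟩)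
        (Subtype.ext (by rw [← hpow]; exact CL.SqField.norm_pow_q hK e))
      have hd' : (d : K) ^ (q + 1) = e ^ (q + 1) := by
        rw [pow_succ, hpow, ← Subfield.coe_mul, ← pow_succ, hd]
      have hd0 : (d : K) ≠ 0 := fun h0 => he0 (by
        rw [h0, zero_pow (by omega), eq_comm] at hd'; exact eq_zero_of_pow_eq_zero hd')
      let u : rootsOfUnity (q + 1) K := ⟨Units.mk0 (e / d) (div_ne_zero he0 hd0),
        (mem_rootsOfUnity' _ _).2 (by simp [div_pow, hd', he0])⟩
      refine ⟨g * s u, (hrange _).2 ?_, (s u)⁻¹, inv_mem ⟨u, rfl⟩, by simp⟩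
      rw [map_mul, hs, Matrix.mul_smul, mul_one]
      ext a b
      have h2 := congrFun (congrFun h a) b
      simp only [Matrix.map_apply, Matrix.smul_apply, smul_eq_mul, u, Units.val_mk0, map_mul,
        map_div₀, mem_fixF.1 d.2] at h2 ⊢
      rw [h2]
      conv_rhs => rw [← he]
      ring
  have hinf : Nat.card (ι.range ⊓ s.range : Subgroup _) = q₀ + 1 := by
    rw [← CL.SqField.card_norm_eq hK₀ one_ne_zero (one_pow _)]
    symm
    have hm : ∀ d : {x : K₀ // x ^ (q₀ + 1) = 1}, (d.1 : K) ^ (q + 1) = 1 := fun d => by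
      rw [pow_succ, hpow, ← Subfield.coe_mul, ← pow_succ, d.2]; rfl
    refine Nat.card_congr (Equiv.ofBijective (fun d => ⟨s (rootsOfUnity.mkOfPowEq _ (hm d)),
      (hrange _).2 ?_, _, rfl⟩) ⟨fun a b h => ?_, ?_⟩)
    · ext a b
      simp [hs, mem_fixF.1 d.1.2, Matrix.one_apply, apply_ite σ]
    · exact Subtype.ext (Subtype.ext (by
        simpa using congrArg (fun x => ((x.1 : Kˣ) : K)) (hsi (congrArg Subtype.val h))))
    · rintro ⟨_, h, e, rfl⟩
      have h1 : σ e.1 = e.1 := by simpa [hs] using congrFun (congrFun ((hrange _).1 h) i0) i0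
      refine ⟨⟨⟨e.1, mem_fixF.2 h1⟩, Subtype.ext ?_⟩, Subtype.ext (congrArg s (by ext; simp))⟩
      rw [pow_succ, Subfield.coe_mul, ← hpow, ← pow_succ]
      exact (mem_rootsOfUnity' _ _).1 e.2
  have key := CL.card_sup_mul_card_inf ι.range s.range
  rw [hinf, ← Nat.card_congr (MonoidHom.ofInjective hιi).toEquiv,
    ← Nat.card_congr (MonoidHom.ofInjective hsi).toEquiv, CL.Uni.card_GU hK₀,
    CL.Uni.card_rootsOfUnity_of_dvd hK dvd_rfl] at key
  obtain ⟨m, hm⟩ : q₀ + 1 ∣ q + 1 := by simpa [hq] using (hr.odd_of_ne_two hr2).nat_add_dvd_pow_add_pow q₀ 1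
  rw [← cast_guOrder (CL.SqField.q_ne_zero hK₀), ← Nat.cast_mul, Nat.cast_inj, hm,
    Nat.mul_div_cancel_left _ (Nat.succ_pos _)]
  refine (Nat.card_congr (Equiv.subtypeEquivRight hsup)).symm.trans ?_
  refine Nat.eq_of_mul_eq_mul_right (Nat.succ_pos q₀) (key.trans ?_)
  rw [hm]; simp only [Nat.succ_eq_add_one]; ring

end Cfsg.Agent.S2677
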