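import Cfsg.Statements.S2678
import Cfsg.Agent.KSG.SpURes

set_option autoImplicit false
open Cfsg

namespace Cfsg.Agent.S2678

open CL.SpU CL.Witt Module

/-- Field-extension embedding of symplectic groups: for a field K with q² elements and a field F with q elements there is an injective homomorphism Sp_2a(K) → Sp_4a(F). -/
theorem result {K F : Type*} [Field K] [Fintype K] [Field F] [Fintype F] {q : ℕ} (hK : Fintype.card K = q ^ 2) (hF : Fintype.card F = q) (a : ℕ) : ∃ φ : ↥(Matrix.symplecticGroup (Fin a) K) →* ↥(Matrix.symplecticGroup (Fin (2 * a)) F), Function.Injective φ := by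
  obtain ⟨_⟩ := nonempty_algebra_of_card hK hF
  obtain ⟨l, hl, -⟩ := exists_dual_vanishing hK hF
  have hσ : ∀ c : F, (FormType.alt K).σ (algebraMap F K c) = algebraMap F K c := fun _ => rfl
  have h : ∀ x, l ((CL.Sp.spForm a K).B x x) = 0 := fun x => by rw [Form.alt_B_self, map_zero]
  obtain ⟨e⟩ := CL.Sp.nonempty_O_equiv (m := 2 * a)
    (resAlt_nondeg hσ l (CL.Sp.spForm_nondeg a K) h hl) (by
      rw [← Module.finrank_mul_finrank F K, finrank_eq_two hK hF, CL.Sp.finrank_sp])
  exact ⟨e.toMonoidHom.comp ((resHom hσ l _ h).comp (CL.Sp.spEquiv a K).toMonoidHom),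
    e.injective.comp ((resHom_injective hσ l _ h).comp (CL.Sp.spEquiv a K).injective)⟩

end Cfsg.Agent.S2678
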