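import Mathlib
import Cfsg.Statements.S2679
import Cfsg.Agent.KSG.OrthSim
import Cfsg.Agent.CLAS.OrthIso4

set_option autoImplicit false
open Cfsg

namespace Cfsg.Agent.S2679

open CL.Orth


/-- An elliptic orthogonal group embeds in the hyperbolic orthogonal group of the same dimension over the quadratic extension: for a field F with q elements and a field K with q² elements there is an injective homomorphism from O⁻_2m(F) (isometries of Σ_(j<m−1) x_j y_j + z₁² + a z₁z₂ + c z₂², binary part anisotropic) to O⁺_2m(K) (isometries of Σ_(j<m) x_j y_j over K). -/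
theorem result {F K : Type*} [Field F] [Fintype F] [Field K] [Fintype K] {q : ℕ} (hF : Fintype.card F = q) (hK : Fintype.card K = q ^ 2) {m : ℕ} (hm : 1 ≤ m) (a c : F) (hac : ∀ z₁ z₂ : F, z₁ ^ 2 + a * z₁ * z₂ + c * z₂ ^ 2 = 0 → z₁ = 0 ∧ z₂ = 0) : ∃ φ : ↥(Cfsg.isometryGroup F (Cfsg.quadFormMinus (m - 1) F a c)) →* ↥(Cfsg.isometryGroup K (Cfsg.quadFormPlus m K)), Function.Injective φ := by
  obtain ⟨k, rfl⟩ : ∃ k, m = k + 1 := ⟨m - 1, by omega⟩
  obtain ⟨f, ω, h1, h2, -⟩ := CL.OrthE.exists_ringHom_sq hF hK hac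
  have hd : f a ^ 2 - 4 * f c ≠ 0 := by
    rw [← map_ofNat f 4, ← map_pow, ← map_mul, ← map_sub, map_ne_zero]
    exact disc_ne_zero_of_aniso hac
  obtain ⟨e, he⟩ := exists_isometry_QPlus (QMinus_nondeg_of_disc k K hd) (finrank_minus k)
    (isPlus_QMinus_of_root k hd (w := -ω) (by rw [← h1, ← h2]; ring))
  exact ⟨(toO (QPlus (k + 1) K)).symm.toMonoidHom.comp ((congrO e he).symm.toMonoidHom.comp
      ((mapO f (QMinus_comp f k a c)).comp (toO (QMinus k F a c)).toMonoidHom)),
    (toO _).symm.injective.comp ((congrO e he).symm.injective.comp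
      ((mapO_injective f (QMinus_comp f k a c)).comp (toO _).injective))⟩

end Cfsg.Agent.S2679
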