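import Cfsg.Statements.S2682
import Cfsg.Agent.KSG.SpUWall

set_option autoImplicit false
open Cfsg

namespace Cfsg.Agent.S2682

open CL.SpU CL.SymmTwo

/-- Centraliser order of an involution t of Sp_2m(q), q even, with s = rank(t − 1) even and f(v, tv) ≠ 0 for some v, f the symplectic form (type c_s): |C(t)| = q^(2ms − (3s² − 3s)/2 − 1) · |Sp_(s−2)(q)| · |Sp_(2m−2s)(q)|. -/
theorem result {F : Type*} [Field F] [Fintype F] [CharP F 2] {q : ℕ} (hF : Fintype.card F = q) {m s : ℕ} (t : Matrix.symplecticGroup (Fin m) F) (ht : t ^ 2 = 1) (hs : ((t : Matrix (Fin m ⊕ Fin m) (Fin m ⊕ Fin m) F) - 1).rank = s) (heven : Even s) (hna : ∃ v : Fin m ⊕ Fin m → F, Cfsg.sympForm m F v ((t : Matrix (Fin m ⊕ Fin m) (Fin m ⊕ Fin m) F).mulVec v) ≠ 0) : Nat.card ↥(Subgroup.centralizer ({t} : Set ↥(Matrix.symplecticGroup (Fin m) F))) = q ^ (2 * m * s - (3 * s ^ 2 - 3 * s) / 2 - 1) * ((q : ℕ) ^ (((s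 - 2) / 2) ^ 2) * ∏ i : Fin ((s - 2) / 2), (q ^ (2 * ((i : ℕ) + 1)) - 1)) * ((q : ℕ) ^ ((m - s) ^ 2) * ∏ i : Fin (m - s), (q ^ (2 * ((i : ℕ) + 1)) - 1)) := by
  have hna' : ¬ (wall (CL.Sp.spEquiv m F t)).IsAlt := by
    rw [wall_isAlt_spEquiv]
    push Not
    exact hna
  have hs' := (finrank_mov_spEquiv t).trans hs
  have hs0 : s ≠ 0 := by
    rintro rfl
    refine hna' fun u => ?_
    rw [finrank_zero_iff_forall_zero.mp hs' u]
    simp
  have hsm := (totSing_of_sq ht).two_mul_finrank_le (CL.Sp.spForm_nondeg m F)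
  rw [hs', CL.Sp.finrank_sp] at hsm
  obtain ⟨j, rfl⟩ : ∃ j, s = 2 * j + 2 := by
    obtain ⟨k, hk⟩ := heven
    exact ⟨k - 1, by omega⟩
  rw [card_centralizer_invol ht hs, card_IsomB_even (wall_isSymm_of_sq ht)
    (wall_nondeg (CL.Sp.spForm_nondeg m F) _) hna' hs',
    Nat.card_eq_fintype_card, hF, spOrd_eq_fin, spOrd_eq_fin,
    show (2 * j + 2 - 2) / 2 = j by omega]
  obtain ⟨d, rfl⟩ : ∃ d, m = 2 * j + 2 + d := ⟨m - (2 * j + 2), by omega⟩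
  have e1 : 2 * (2 * j + 2 + d) * (2 * j + 2) = 8 * (j * j) + 16 * j + 8 + 4 * (j * d) + 4 * d := by
    ring
  have e2 : (2 * j + 2) ^ 2 = 4 * (j * j) + 8 * j + 4 := by ring
  rw [show 2 * (2 * j + 2 + d) * (2 * j + 2) - (3 * (2 * j + 2) ^ 2 - 3 * (2 * j + 2)) / 2 - 1 =
    (2 * j + 1) + (2 * (2 * j + 2 + d) * (2 * j + 2) - (3 * (2 * j + 2) ^ 2 - (2 * j + 2)) / 2) by
      rw [e1, e2]; omega, pow_add q (2 * j + 1)]
  ring

end Cfsg.Agent.S2682
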