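import Mathlib
import Cfsg.Statements.S2683
import Cfsg.Agent.KSG.OrthInvol

set_option autoImplicit false
open Cfsg

namespace Cfsg.Agent.S2683

open CL.Orth Module CL.SymmTwo


/-- For the hyperbolic form Σ x_j y_j on F^(2m) over a finite field with q elements, q even (excluding m = 2 over the field of two elements), and an involution x of the orthogonal group with s = rank(x − 1) odd (type b_s; such x lie outside Ω): the elements of Ω (the commutator subgroup of the orthogonal group) commuting with x number q^(2m(s−1) − (3s² − 3s)/2) · |Sp_(s−1)(q)| · |Sp_(2m−2s)(q)|, where |Sp_2k(q)| = q^(k²) Π_(i=1)^k (q^(2i) − 1). -/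
theorem result {F : Type*} [Field F] [Fintype F] [CharP F 2] {q : ℕ} (hF : Fintype.card F = q) {m s : ℕ} (h : Fintype.card F ≠ 2 ∨ m ≠ 2) (x : ↥(Cfsg.isometryGroup F (Cfsg.quadFormPlus m F))) (hx : x ^ 2 = 1) (hs : (((x : Matrix.GeneralLinearGroup (Fin m ⊕ Fin m) F) : Matrix (Fin m ⊕ Fin m) (Fin m ⊕ Fin m) F) - 1).rank = s) (hodd : Odd s) : Nat.card {g : ↥(Cfsg.Omega F (Cfsg.quadFormPlus m F)) // (g : ↥(Cfsg.isometryGroup F (Cfsg.quadFormPlus m F))) * x = x * (g : ↥(Cfsg.isometryGroup F (Cfsg.quadFormPlus m F)))} = q ^ (2 * m * (s - 1) - (3 * s ^ 2 - 3 * s) / 2) * ((q : ℕ) ^ (((s - 1) / 2) ^ 2) * ∏ i : Fin ((s - 1) / 2), (q ^ (2 * ((i : ℕ) + 1)) - 1)) * ((q : ℕ) ^ ((m - s) ^ 2) * ∏ i : Fin (m - s), (q ^ (2 * ((i : ℕ) + 1)) - 1)) := by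
  have hQ := QPlus_nondeg m F
  have ht := toO_mul_self (R := QPlus m F) hx
  have h1 := (finrank_moved_toO (Q := QPlus m F) x).trans hs
  have h2 := two_mul_finrank_moved_le ht
  rw [finrank_sum_fin, h1] at h2
  obtain ⟨i, rfl⟩ := hodd
  obtain ⟨j, rfl⟩ : ∃ j, m = 2 * i + (j + 1) := ⟨m - (2 * i + 1), by omega⟩
  have h3 := card_commute_nonsing hQ (good_plus h) (isPlus_QPlus _) ht
    (fun hh => by have := Nat.even_iff.1 (hh.even hQ); omega) h1 (finrank_sum_fin _)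
  rw [card_IsomB_odd (theta_isSymm ht) (theta_nondeg hQ _) h1, Nat.card_eq_fintype_card (α := F),
    hF] at h3
  refine (card_commute_congr (toO (QPlus _ F)) x).trans ?_
  have hq : 0 < q := hF ▸ Fintype.card_pos
  refine Nat.eq_of_mul_eq_mul_left (pow_pos hq (2 * i)) (h3.trans ?_)
  rw [Nat.add_sub_cancel, Nat.mul_div_cancel_left _ two_pos,
    show 2 * i + (j + 1) - (2 * i + 1) = j by omega, ← spOrd_eq_fin, ← spOrd_eq_fin]
  have e1 : 2 * i * (2 * (j + 1)) + 2 * i * (2 * i - 1) / 2 =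
      2 * i + (2 * (2 * i + (j + 1)) * (2 * i) - (3 * (2 * i + 1) ^ 2 - 3 * (2 * i + 1)) / 2) := by
    have a1 : 2 * i * (2 * i - 1) / 2 = i * (2 * i - 1) := by
      rw [mul_assoc, Nat.mul_div_cancel_left _ two_pos]
    have a2 : (3 * (2 * i + 1) ^ 2 - 3 * (2 * i + 1)) / 2 = 3 * i * (2 * i + 1) :=
      Nat.div_eq_of_eq_mul_right two_pos (Nat.sub_eq_of_eq_add (by ring))
    rw [a1, a2]
    rcases i with _ | i
    · simp
    · rw [show 2 * (i + 1) - 1 = 2 * i + 1 by omega]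
      zify [show 3 * (i + 1) * (2 * (i + 1) + 1) ≤ 2 * (2 * (i + 1) + (j + 1)) * (2 * (i + 1)) by
        nlinarith]
      ring
  rw [e1, pow_add]; ring

end Cfsg.Agent.S2683
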