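import Mathlib
import Cfsg.Statements.S2684
import Cfsg.Agent.KSG.OrthInvol

set_option autoImplicit false
open Cfsg

namespace Cfsg.Agent.S2684

open CL.Orth Module CL.SymmTwo


/-- For the hyperbolic form Q = Σ x_j y_j on F^(2m) over a finite field with q elements, q even (excluding m = 2 over the field of two elements), and an involution x ≠ 1 of the orthogonal group with s = rank(x − 1) even and Q vanishing on the image of x − 1 (equivalently f(v, xv) = 0 for all v, where f(u, w) = Q(u + w) − Q(u) − Q(w) is the bilinear form of Q; type a_s, which lies in Ω): its centraliser in Ω (the commutator subgroup of the orthogonal group) has order q^(2ms − (3s² + s)/2) · |Sp_s(q)| · |Ω⁺_(2m−2s)(q)|, where |Ω⁺_2k(q)| = q^(k(k−1)) (q^k − 1) Π_(i=1)^(k−1) (q^(2i) − 1) for k ≥ 1 and the last factor is 1 when s = m. -/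
theorem result {F : Type*} [Field F] [Fintype F] [CharP F 2] {q : ℕ} (hF : Fintype.card F = q) {m s : ℕ} (h : Fintype.card F ≠ 2 ∨ m ≠ 2) (x : ↥(Cfsg.isometryGroup F (Cfsg.quadFormPlus m F))) (hx : x ^ 2 = 1) (hx1 : x ≠ 1) (hs : (((x : Matrix.GeneralLinearGroup (Fin m ⊕ Fin m) F) : Matrix (Fin m ⊕ Fin m) (Fin m ⊕ Fin m) F) - 1).rank = s) (heven : Even s) (halt : ∀ v : Fin m ⊕ Fin m → F, Cfsg.quadFormPlus m F ((((x : Matrix.GeneralLinearGroup (Fin m ⊕ Fin m) F) : Matrix (Fin m ⊕ Fin m) (Fin m ⊕ Fin m) F) - 1).mulVec v) = 0) : Nat.card {g : ↥(Cfsg.Omega F (Cfsg.quadFormPlus m F)) // (g : ↥(Cfsg.isometryGroup F (Cfsg.quadFormPlus m F))) * x = x * (g : ↥(Cfsg.isometryGroup F (Cfsg.quadFormPlus m F)))} = q ^ (2 * m * s - (3 * s ^ 2 + s) / 2) * ((q : ℕ) ^ ((s / 2) ^ 2) * ∏ i : Fin (s / 2), (q ^ (2 * ((i : ℕ) + 1)) - 1)) * (if s = m then 1 else q ^ ((m - s) * (m - s - 1)) * (q ^ (m - s) - 1) * ∏ i : Fin (m - s - 1), (q ^ (2 * ((i :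 ℕ) + 1)) - 1)) := by
  have hQ := QPlus_nondeg m F
  have ht := toO_mul_self (R := QPlus m F) hx
  have h1 := (finrank_moved_toO (Q := QPlus m F) x).trans hs
  have h2 := two_mul_finrank_moved_le ht
  rw [finrank_sum_fin, h1] at h2
  obtain ⟨i, rfl⟩ : ∃ i, s = 2 * i := ⟨s / 2, by have := Nat.even_iff.1 heven; omega⟩
  obtain ⟨k, rfl⟩ : ∃ k, m = 2 * i + k := ⟨m - 2 * i, by omega⟩
  have h3 := card_commute_sing hQ (good_plus h) (isPlus_QPlus _) ht
    ((singMoved_toO (R := QPlus _ F) x).2 halt) h1 (finrank_sum_fin _)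
  rw [Nat.card_eq_fintype_card (α := F), hF] at h3
  refine (card_commute_congr (toO (QPlus _ F)) x).trans ?_
  have e1 : 2 * i * (2 * k) + 2 * i * (2 * i - 1) / 2 =
      2 * (2 * i + k) * (2 * i) - (3 * (2 * i) ^ 2 + 2 * i) / 2 := by
    have a1 : 2 * i * (2 * i - 1) / 2 = i * (2 * i - 1) := by
      rw [mul_assoc, Nat.mul_div_cancel_left _ two_pos]
    have a2 : (3 * (2 * i) ^ 2 + 2 * i) / 2 = i * (6 * i + 1) :=
      Nat.div_eq_of_eq_mul_right two_pos (by ring)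
    rw [a1, a2]
    rcases i with _ | i
    · simp
    · rw [show 2 * (i + 1) - 1 = 2 * i + 1 by omega]
      exact (Nat.sub_eq_of_eq_add (by ring)).symm
  rw [Nat.mul_div_cancel_left _ two_pos, ← spOrd_eq_fin, ← e1, Nat.add_sub_cancel_left]
  rcases k with _ | k
  · have h4 : Nat.card (O (QPlus 0 F)) = 1 :=
      Nat.card_eq_one_iff_unique.2 ⟨⟨fun a b => O_ext fun v => Subsingleton.elim _ _⟩, ⟨1⟩⟩
    rw [if_pos rfl, one_mul, h4] at h3
    rw [h3, if_pos (add_zero _).symm]; ring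
  · rw [if_neg (Nat.succ_ne_zero k), CL.OrthE.card_O_QPlus hF] at h3
    rw [if_neg (by omega), Nat.add_sub_cancel, ← Finset.prod_range fun i => q ^ (2 * (i + 1)) - 1]
    refine Nat.eq_of_mul_eq_mul_left two_pos (h3.trans ?_)
    ring

end Cfsg.Agent.S2684
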