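import Mathlib
import Cfsg.Statements.S2685
import Cfsg.Agent.KSG.OrthInvol

set_option autoImplicit false
open Cfsg

namespace Cfsg.Agent.S2685

open CL.Orth Module CL.SymmTwo


/-- For the hyperbolic form Q = Σ x_j y_j on F^(2m) over a finite field with q elements, q even (excluding m = 2 over the field of two elements), and an involution x of the orthogonal group with s = rank(x − 1) even and Q not vanishing on the image of x − 1 (f(v, xv) ≠ 0 for some v, where f(u, w) = Q(u + w) − Q(u) − Q(w) is the bilinear form of Q; type c_s, which lies in Ω): its centraliser in Ω (the commutator subgroup of the orthogonal group) has order q^(2m(s−1) − (3s² − 5s)/2 − 1) · |Sp_(s−2)(q)| · |Sp_(2m−2s)(q)|. -/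
theorem result {F : Type*} [Field F] [Fintype F] [CharP F 2] {q : ℕ} (hF : Fintype.card F = q) {m s : ℕ} (h : Fintype.card F ≠ 2 ∨ m ≠ 2) (x : ↥(Cfsg.isometryGroup F (Cfsg.quadFormPlus m F))) (hx : x ^ 2 = 1) (hs : (((x : Matrix.GeneralLinearGroup (Fin m ⊕ Fin m) F) : Matrix (Fin m ⊕ Fin m) (Fin m ⊕ Fin m) F) - 1).rank = s) (heven : Even s) (hna : ∃ v : Fin m ⊕ Fin m → F, Cfsg.quadFormPlus m F ((((x : Matrix.GeneralLinearGroup (Fin m ⊕ Fin m) F) : Matrix (Fin m ⊕ Fin m) (Fin m ⊕ Fin m) F) - 1).mulVec v) ≠ 0) : Nat.card {g : ↥(Cfsg.Omega F (Cfsg.quadFormPlus m F)) // (g : ↥(Cfsg.isometryGroup F (Cfsg.quadFormPlus m F))) * x = x * (g : ↥(Cfsg.isometryGroup F (Cfsg.quadFormPlus m F)))} = q ^ (2 * m * (s - 1) - (3 * s ^ 2 - 5 * s) / 2 - 1) * ((q : ℕ) ^ (((s - 2) / 2) ^ 2) * ∏ i : Fin ((s - 2) / 2), (q ^ (2 * ((i : ℕ) + 1)) - 1)) * ((q : ℕ) ^ ((m - s) ^ 2) * ∏ i : Fin (m - s), (q ^ (2 * ((i : ℕ) + 1)) - 1)) := by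
  have hQ := QPlus_nondeg m F
  have ht := toO_mul_self (R := QPlus m F) hx
  have h1 := (finrank_moved_toO (Q := QPlus m F) x).trans hs
  have h2 := two_mul_finrank_moved_le ht
  have hns : ¬ SingMoved (toO (QPlus m F) x) := fun hh => by
    obtain ⟨v, hv⟩ := hna
    exact hv ((singMoved_toO (R := QPlus m F) x).1 hh v)
  have h0 : 0 < s := by
    rw [← h1]
    refine finrank_moved_pos fun h0 => hns ?_
    rw [h0]
    intro v hv
    rw [moved_one, Submodule.mem_bot] at hv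
    rw [hv, map_zero]
  rw [finrank_sum_fin, h1] at h2
  obtain ⟨i, rfl⟩ : ∃ i, s = 2 * i + 2 := ⟨s / 2 - 1, by have := Nat.even_iff.1 heven; omega⟩
  obtain ⟨j, rfl⟩ : ∃ j, m = 2 * i + 1 + (j + 1) := ⟨m - (2 * i + 2), by omega⟩
  have h3 := card_commute_nonsing hQ (good_plus h) (isPlus_QPlus _) ht hns h1 (finrank_sum_fin _)
  rw [card_IsomB_even (theta_isSymm ht) (theta_nondeg hQ _)
    (fun hh => hns ((theta_isAlt_iff _).1 hh)) h1, Nat.card_eq_fintype_card (α := F), hF] at h3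
  refine (card_commute_congr (toO (QPlus _ F)) x).trans ?_
  have hq : 0 < q := hF ▸ Fintype.card_pos
  refine Nat.eq_of_mul_eq_mul_left (pow_pos hq (2 * i + 1)) (h3.trans ?_)
  rw [Nat.add_sub_cancel, Nat.add_sub_cancel, Nat.mul_div_cancel_left _ two_pos,
    show 2 * i + 1 + (j + 1) - (2 * i + 2) = j by omega, ← spOrd_eq_fin, ← spOrd_eq_fin]
  have e1 : (2 * i + 1) * (2 * (j + 1)) + (2 * i + 1) * (2 * i) / 2 =
      2 * (2 * i + 1 + (j + 1)) * (2 * i + 2 - 1) -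
        (3 * (2 * i + 2) ^ 2 - 5 * (2 * i + 2)) / 2 - 1 := by
    have a1 : (2 * i + 1) * (2 * i) / 2 = i * (2 * i + 1) :=
      Nat.div_eq_of_eq_mul_right two_pos (by ring)
    have a2 : (3 * (2 * i + 2) ^ 2 - 5 * (2 * i + 2)) / 2 = (i + 1) * (6 * i + 1) :=
      Nat.div_eq_of_eq_mul_right two_pos (Nat.sub_eq_of_eq_add (by ring))
    rw [a1, a2, Nat.sub_sub, show 2 * i + 2 - 1 = 2 * i + 1 by omega]
    exact (Nat.sub_eq_of_eq_add (by ring)).symm
  rw [e1]; ring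

end Cfsg.Agent.S2685
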