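import Cfsg.Statements.S2697
import Cfsg.Agent.CLAS.LangPSL

set_option autoImplicit false
open Cfsg

namespace Cfsg.Agent.S2697

open CL.AutPSL CL.Lang

/-- Let T = PSL_n(F) be simple over a finite field (n ≥ 2; |F| ≥ 4 when n = 2) and let x be a field automorphism or a graph-field automorphism of T of prime order r. Then an element y of the coset Inndiag(T)·x (that is, y = δ x with δ in the inner-diagonal group, the image of PGL_n(F)) has order r if and only if y is conjugate to x by an element of Inndiag(T). -/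
theorem result {F : Type*} [Field F] [Fintype F] {p f : ℕ} [Fact p.Prime] (hF : Fintype.card F = p ^ f) (hf : 1 ≤ f) {n : ℕ} (hn : 2 ≤ n) (hs : n = 2 → 4 ≤ Fintype.card F) (x δ : MulAut (Matrix.ProjectiveSpecialLinearGroup (Fin n) F)) (hx : Cfsg.IsFieldAutClassPSL x ∨ Cfsg.IsGraphFieldAutClassPSL x) {r : ℕ} (hr : r.Prime) (hxr : orderOf x = r) (hδ : δ ∈ Cfsg.inndiagPSL n F) :
    orderOf (δ * x) = r ↔ Cfsg.IsConjUnder (Cfsg.inndiagPSL n F) x (δ * x) := by
  have : Nontrivial (Fin n) := Fin.nontrivial_iff_two_le.2 hn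
  have hN := range_diag_normal (ι := Fin n) (F := F) (by simpa using hn)
  rw [inndiagPSL_eq] at hδ ⊢
  refine LangProp.iff ?_ hxr hδ
  rcases hx with ⟨α, σ, -, h⟩ | ⟨h3, α, φ, γ, σ, hσ, hφ, hγ, h⟩
  · rw [isStdField_iff] at h
    refine LangProp.of_conj hN (α := α) ?_
    rw [← hxr, ← orderOf_conj' α, h, orderOf_fld]
    exact langProp_fld σ
  · rw [isStdField_iff] at hφ
    rw [isInverseTranspose_iff] at hγ
    subst hφ hγ
    refine LangProp.of_conj hN (α := α) ?_
    rw [← orderOf_conj' α, h] at hxr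
    obtain rfl := eq_two_of_gf (by simpa using h3) hr hxr
    obtain ⟨-, h', rfl⟩ := gf_data hF hσ (sq_eq_one_of_gf hxr)
    rw [h]
    exact langProp_gf h'

end Cfsg.Agent.S2697
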