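import Cfsg.Statements.S2703
import Cfsg.Agent.CLAS.Gr3

set_option autoImplicit false
open Cfsg

namespace Cfsg.Agent.S2703

open CL.Gr CL.AutPSL

/-- Let T = PSL_n(F) over the field with q elements, q odd, n = 2m ≥ 4 even, and ι the inverse-transpose automorphism. Its centralizer in G = Inndiag(T) (the image of PGL_n(F)) is isomorphic to the projective conformal orthogonal group of the plus-type form Σ xᵢ yᵢ in dimension n when n(q − 1)/4 is even, and to that of a minus-type form (Σ xᵢ yᵢ + z₁² + a z₁ z₂ + b z₂² with anisotropic binary part) when n(q − 1)/4 is odd. -/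
theorem result {F : Type*} [Field F] [Fintype F] (hodd : Odd (Fintype.card F)) {n m : ℕ} (hm : 2 ≤ m) (hnm : n = 2 * m) (ι : MulAut (Matrix.ProjectiveSpecialLinearGroup (Fin n) F)) (hι : Cfsg.IsInverseTransposeAutPSL ι) :
    (Even (n * (Fintype.card F - 1) / 4) → Nonempty (↥(Cfsg.inndiagPSL n F ⊓ Subgroup.centralizer {ι}) ≃* Cfsg.PGO F (Cfsg.quadFormPlus m F))) ∧ (¬ Even (n * (Fintype.card F - 1) / 4) → ∃ a b : F, (∀ z₁ z₂ : F, z₁ ^ 2 + a * z₁ * z₂ + b * z₂ ^ 2 = 0 → z₁ = 0 ∧ z₂ = 0) ∧ Nonempty (↥(Cfsg.inndiagPSL n F ⊓ Subgroup.centralizer {ι}) ≃* Cfsg.PGO F (Cfsg.quadFormMinus (m - 1) F a b))) := by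
  have : Nontrivial (Fin n) := Fin.nontrivial_iff_two_le.2 (by omega)
  obtain rfl := (isInverseTranspose_iff ι).1 hι
  have h3 : Even (n * (Fintype.card F - 1) / 4) ↔ Even m ∨ Fintype.card F % 4 = 1 := by
    obtain ⟨k, hk⟩ := hodd
    rw [hk, hnm, show 2 * m * (2 * k + 1 - 1) / 4 = m * k by
      rw [Nat.add_sub_cancel, mul_mul_mul_comm, Nat.mul_div_cancel_left _ (by decide : 0 < 2 * 2)],
      Nat.even_mul, Nat.even_iff (n := k)]
    exact or_congr_right (by omega)
  rw [h3, inndiagPSL_eq']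
  exact (fam_L (by simp; omega)).dot amb_L hodd hm (by simpa using hnm) ⟨1, by simp, rfl⟩

end Cfsg.Agent.S2703
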