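import Cfsg.Statements.S2704
import Cfsg.Agent.CLAS.LangPSL

set_option autoImplicit false
open Cfsg

namespace Cfsg.Agent.S2704

open CL.AutPSL CL.Lang

/-- Let T = PSL_n(F) over the field F with p^f elements, n ≥ 3, and G = Inndiag(T) the image of PGL_n(F). If x is an involutory graph-field automorphism of T then f is even; x is G-conjugate to every other involutory graph-field automorphism; C_G(x) is isomorphic to the projective general unitary group PGU_n(q₀) with q₀² = p^f, realised over F itself through the Hermitian form Σ uᵢ vᵢ^{q₀}; and the G-class of x is the union of exactly gcd(n, q₀ − 1) T-classes. -/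
theorem result {F : Type*} [Field F] [Fintype F] {p f : ℕ} [Fact p.Prime] (hF : Fintype.card F = p ^ f) (hf : 1 ≤ f) {n : ℕ} (hn : 3 ≤ n) (x : MulAut (Matrix.ProjectiveSpecialLinearGroup (Fin n) F)) (hx : Cfsg.IsGraphFieldAutClassPSL x) (hx2 : orderOf x = 2) :
    Even f ∧ (∀ y : MulAut (Matrix.ProjectiveSpecialLinearGroup (Fin n) F), Cfsg.IsGraphFieldAutClassPSL y → orderOf y = 2 → Cfsg.IsConjUnder (Cfsg.inndiagPSL n F) x y) ∧ Nonempty (↥(Cfsg.inndiagPSL n F ⊓ Subgroup.centralizer {x}) ≃* Cfsg.PGU n F (p ^ (f / 2))) ∧ Cfsg.splitClassCount (Cfsg.inndiagPSL n F) (Cfsg.Inn (Matrix.ProjectiveSpecialLinearGroup (Fin n) F)) x = Nat.gcd n (p ^ (f / 2) - 1) := by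
  have : Nontrivial (Fin n) := Fin.nontrivial_iff_two_le.2 (by omega)
  have hN := range_diag_normal (ι := Fin n) (F := F) (by simp; omega)
  have key : ∀ y : MulAut (Matrix.ProjectiveSpecialLinearGroup (Fin n) F),
      Cfsg.IsGraphFieldAutClassPSL y → orderOf y = 2 → Even f ∧
      ∃ h : Fintype.card F = (p ^ (f / 2)) ^ 2, ∃ α ∈ (diag (Fin n) F).range,
        α * y * α⁻¹ = fld (Fin n) F (CL.SqField.conj h) * tau (Fin n) F := by
    rintro y ⟨h3, α, φ, γ, σ, hσ, hφ, hγ, h⟩ hy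
    rw [isStdField_iff] at hφ
    rw [isInverseTranspose_iff] at hγ
    subst hφ hγ
    rw [← orderOf_conj' α, h] at hy
    obtain ⟨he, h', rfl⟩ := gf_data hF hσ (sq_eq_one_of_gf hy)
    refine ⟨he, h', ?_⟩
    have h1 : ∀ σ, Commute (fld (Fin n) F σ) (fld (Fin n) F (CL.SqField.conj h') * tau (Fin n) F) :=
      fun σ => Commute.mul_right (Commute.map (CL.FieldAut.ringAut_mul_comm _ _) _)
        (tau_mul_fld σ).symm
    have h2 : Commute (tau (Fin n) F) (fld (Fin n) F (CL.SqField.conj h') * tau (Fin n) F) :=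
      Commute.mul_right (tau_mul_fld _) (Commute.refl _)
    obtain ⟨g, β, hβ, e⟩ : ∃ g β, Commute β (fld (Fin n) F (CL.SqField.conj h') * tau (Fin n) F) ∧
        α⁻¹ = diag (Fin n) F g * β := by
      obtain ⟨γ, e | ⟨-, e⟩⟩ := exists_eq_gam (ι := Fin n) (by simp; omega) α⁻¹
      · exact ⟨_, _, h1 _, e.trans (gam_eq γ)⟩
      · exact ⟨_, _, (h1 _).mul_left h2, e.trans (by rw [gam_eq γ, mul_assoc])⟩
    refine ⟨_, inv_mem ⟨g, rfl⟩, ?_⟩
    rw [← hβ.mul_inv_cancel, ← h, ← inv_inv α, e]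
    group
  obtain ⟨he, h, α, hα, e⟩ := key x hx hx2
  rw [inndiagPSL_eq]
  refine ⟨he, fun y hy hy2 => ?_, ?_, ?_⟩
  · obtain ⟨-, _, β, hβ, e'⟩ := key y hy hy2
    refine ⟨β⁻¹ * α, mul_mem (inv_mem hβ) hα, ?_⟩
    rw [mul_assoc β⁻¹, mul_inv_rev, ← mul_assoc, mul_assoc β⁻¹, e, ← e']
    group
  · obtain ⟨a⟩ := nonempty_cent_conj hN α x
    obtain ⟨b⟩ := nonempty_cent_gf (n := n) h
    rw [e] at a
    exact ⟨a.trans b⟩
  · rw [splitClassCount_conj hN inferInstance α, e, split_gf]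

end Cfsg.Agent.S2704
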