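import Cfsg.Statements.S2715
import Cfsg.Agent.CLAS.LangO5

set_option autoImplicit false
open Cfsg

namespace Cfsg.Agent.S2715

open CL.Lang CL.AutForm CL.Orth CL.OutOrth

/-- Let T = PΩ⁺_{2m}(F) (m ≥ 4, |F| = p^f; the form Σ xᵢ yᵢ), G = Inndiag(T) the image of the class-preserving similarities in Aut(T), and x a field automorphism of T of prime order r. Then r divides f; C_G(x) is isomorphic to Inndiag(PΩ⁺_{2m}(F₀)) for a field F₀ with p^(f/r) elements; and the G-class of x is the union of exactly c T-classes, where c = 1 if r is odd or p = 2, and otherwise (r = 2, p odd) c = 2 when m is odd and p^(f/2) ≡ 1 (mod 4), and c = 4 in the remaining cases. -/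
theorem result {F : Type*} [Field F] [Fintype F] {p f : ℕ} [Fact p.Prime] (hF : Fintype.card F = p ^ f) (hf : 1 ≤ f) {m : ℕ} (hm : 4 ≤ m) (x : MulAut (Cfsg.POmega F (Cfsg.quadFormPlus m F))) (hx : Cfsg.IsFieldAutClassPOmega (Cfsg.quadFormPlus m F) x) {r : ℕ} (hr : r.Prime) (hxr : orderOf x = r) (F₀ : Type*) [Field F₀] [Fintype F₀] (hF₀ : Fintype.card F₀ = p ^ (f / r)) :
    r ∣ f ∧ Nonempty (↥(Cfsg.inndiagPOmegaPlus m F ⊓ Subgroup.centralizer {x}) ≃* ↥(Cfsg.inndiagPOmegaPlus m F₀)) ∧ ((Odd r ∨ p = 2) → Cfsg.splitClassCount (Cfsg.inndiagPOmegaPlus m F) (Cfsg.Inn (Cfsg.POmega F (Cfsg.quadFormPlus m F))) x = 1) ∧ ((r = 2 ∧ p ≠ 2 ∧ Odd m ∧ p ^ (f / 2) % 4 = 1) → Cfsg.splitClassCount (Cfsg.inndiagPOmegaPlus m F) (Cfsg.Inn (Cfsg.POmega F (Cfsg.quadFormPlus m F))) x = 2) ∧ ((r = 2 ∧ p ≠ 2 ∧ ¬ (Odd m ∧ p ^ (f / 2) % 4 = 1)) → Cfsg.splitClassCount (Cfsg.inndiagPOmegaPlus m F) (Cfsg.Inn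 (Cfsg.POmega F (Cfsg.quadFormPlus m F))) x = 4) := by
  have hQ : OK (QPlus m F) := ok_plus (by omega)
  have hE : EvenDim (QPlus m F) m := evenDim_QPlus (by omega)
  obtain ⟨α, σ, h, ho⟩ := field_data hQ (isSim_inr_QPlus m) hx
  obtain rfl : orderOf σ = r := ho.symm.trans hxr
  obtain ⟨e, he⟩ := exists_fixEmb σ (hF₀.trans (CL.FieldAut.card_fixF hF σ).symm)
  have H := isExt_QPlus e m
  have hQ₀ := H.ok hQ
  have hE₀ := H.evenDim hQ hE
  obtain ⟨h3, h4⟩ := package hQ H (φ := fieldO (isSim_inr_QPlus m σ)) (desc_inr σ) he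
    (inr_pow_orderOf σ) hE.Zs_commutator_le (inndiagPlus_normal hm hQ hE) h hQ₀
  rw [comap_ker_sdsign H hE₀ hE] at h3
  rw [inndiagPlus_eq hQ.nondeg hQ.five hE, inndiagPlus_eq hQ₀.nondeg hQ₀.five hE₀]
  refine ⟨CL.FieldAut.orderOf_dvd hF σ, h3, fun ho => h4.trans (count_even_odd hQ H he hE
    (ho.symm.imp_left (two_eq_zero_iff hF).2)), fun ⟨h5, h6, h7⟩ => h4.trans ?_,
    fun ⟨h5, h6, h7⟩ => h4.trans ?_⟩ <;>
  rw [count_plus_two hQ hE he h5 (mt (two_eq_zero_iff hF).1 h6)]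
  · exact if_neg fun h => (sign_cond h6 (h5 ▸ hF₀) m).1 h h7
  · exact if_pos ((sign_cond h6 (h5 ▸ hF₀) m).2 h7)

end Cfsg.Agent.S2715
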