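import Cfsg.Statements.S2716
import Cfsg.Agent.CLAS.LangO5

set_option autoImplicit false
open Cfsg

namespace Cfsg.Agent.S2716

open CL.Lang CL.AutForm CL.Orth CL.OutOrth

/-- Let T = PΩ⁻_{2m+2}(F) (m ≥ 3, |F| = p^f; the form Σ xᵢ yᵢ + z₁² + a z₁ z₂ + b z₂² with anisotropic binary part), G = Inndiag(T), and x a field automorphism of T of prime order r. Then r is odd and divides f; C_G(x) is isomorphic to Inndiag(PΩ⁻_{2m+2}(F₀)) for a field F₀ with p^(f/r) elements and some anisotropic binary part over F₀; and the G-class of x is a single T-class. -/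
theorem result {F : Type*} [Field F] [Fintype F] {p f : ℕ} [Fact p.Prime] (hF : Fintype.card F = p ^ f) (hf : 1 ≤ f) {m : ℕ} (hm : 3 ≤ m) (a b : F) (hab : (∀ z₁ z₂ : F, z₁ ^ 2 + a * z₁ * z₂ + b * z₂ ^ 2 = 0 → z₁ = 0 ∧ z₂ = 0)) (x : MulAut (Cfsg.POmega F (Cfsg.quadFormMinus m F a b))) (hx : Cfsg.IsFieldAutClassPOmegaMinus m x) {r : ℕ} (hr : r.Prime) (hxr : orderOf x = r) (F₀ : Type*) [Field F₀] [Fintype F₀] (hF₀ : Fintype.card F₀ = p ^ (f / r)) :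
    Odd r ∧ r ∣ f ∧ (∃ a₀ b₀ : F₀, (∀ z₁ z₂ : F₀, z₁ ^ 2 + a₀ * z₁ * z₂ + b₀ * z₂ ^ 2 = 0 → z₁ = 0 ∧ z₂ = 0) ∧ Nonempty (↥(Cfsg.inndiagPOmegaMinus m F a b ⊓ Subgroup.centralizer {x}) ≃* ↥(Cfsg.inndiagPOmegaMinus m F₀ a₀ b₀))) ∧ Cfsg.splitClassCount (Cfsg.inndiagPOmegaMinus m F a b) (Cfsg.Inn (Cfsg.POmega F (Cfsg.quadFormMinus m F a b))) x = 1 := by
  have hQ : OK (QMinus m F a b) := ok_minus (by omega) hab
  have hE := evenDim_QMinus (m := m) (by omega) (disc_ne_zero_of_aniso hab)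
  obtain ⟨a', b', hQ', hE', σ, ha, hb, Θ, hab', h1, h2, h3, h4, h5⟩ := minus_data hm hQ hE hx
  obtain rfl : orderOf σ = r := h4.symm.trans hxr
  have ho := hr.odd_of_ne_two h5
  obtain ⟨e, he⟩ := exists_fixEmb σ (hF₀.trans (CL.FieldAut.card_fixF hF σ).symm)
  obtain ⟨a₀, rfl⟩ := (he a').1 ha
  obtain ⟨b₀, rfl⟩ := (he b').1 hb
  have H := isExt_QMinus e m a₀ b₀
  have hQ₀ := H.ok hQ'
  have hE₀ := H.evenDim hQ' hE'
  obtain ⟨⟨c⟩, h7⟩ := package hQ' H (φ := fieldO (isSim_inr_QMinus m ha hb)) (desc_inr σ) he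
    (inr_pow_orderOf σ) hE'.Zs_commutator_le (normal_ker hQ' hE' (range_ind_QMinus (by omega) hab'))
    (α := 1) (x := Θ x) (by rw [one_mul, inv_one, mul_one]; exact h3) hQ₀
  rw [comap_ker_sdsign H hE₀ hE'] at c
  obtain ⟨d⟩ := nonempty_cent_equiv Θ h1 x
  have h6 := Nonempty.intro (d.trans c)
  rw [inndiagMinus_eq hab (by omega) hQ.nondeg hQ.five hE]
  refine ⟨ho, CL.FieldAut.orderOf_dvd hF σ, ⟨a₀, b₀, aniso_of_map e hab', ?_⟩,
    (splitClassCount_congr Θ h1 h2 x).trans (h7.trans (count_even_odd hQ' H he hE' (.inr ho)))⟩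
  rw [inndiagMinus_eq (aniso_of_map e hab') (by omega) hQ₀.nondeg hQ₀.five hE₀]
  exact h6

end Cfsg.Agent.S2716
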