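import Mathlib
import Cfsg.Statements.S2718
import Cfsg.Agent.KSG.OrthSim

set_option autoImplicit false
open Cfsg

namespace Cfsg.Agent.S2718

open CL.Orth CL.AutForm


/-- Let T = PΩ⁺_{2m}(F) with m ≥ 4 and |F| = q odd, G = Inndiag(T), and γ an involutory graph automorphism of T induced by a similarity (one interchanging the two classes of maximal totally singular subspaces). Then the G-class of γ is either a single T-class or the union of exactly two T-classes, and it is the union of two unless m is odd and q ≡ 3 (mod 4). -/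
theorem result {F : Type*} [Field F] [Fintype F] (hodd : Odd (Fintype.card F)) {m : ℕ} (hm : 4 ≤ m) (γ : MulAut (Cfsg.POmega F (Cfsg.quadFormPlus m F))) (hγ : Cfsg.IsSimilarityGraphAutPOmegaPlus m γ) (hγ2 : orderOf γ = 2) :
    (Cfsg.splitClassCount (Cfsg.inndiagPOmegaPlus m F) (Cfsg.Inn (Cfsg.POmega F (Cfsg.quadFormPlus m F))) γ = 1 ∨ Cfsg.splitClassCount (Cfsg.inndiagPOmegaPlus m F) (Cfsg.Inn (Cfsg.POmega F (Cfsg.quadFormPlus m F))) γ = 2) ∧ (¬ (Odd m ∧ Fintype.card F % 4 = 3) → Cfsg.splitClassCount (Cfsg.inndiagPOmegaPlus m F) (Cfsg.Inn (Cfsg.POmega F (Cfsg.quadFormPlus m F))) γ = 2) := by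
  have h := (evenDim_QPlus (F := F) (m := m) (by omega)).oddEven (two_ne_zero_of_odd_card hodd)
  have hQ := nondeg_QPlus (F := F) m
  have h5 := five_le_plus (m := m) (by omega)
  have h1 := negOne_mem_QPlus hodd m
  have hI := inndiagPlus_eq hQ h5 h.evenDim
  rw [h.evenDim.sdsign_eq_delta h.two] at hI
  obtain ⟨A, hA, hA', hγ⟩ := hγ
  obtain ⟨g, rfl⟩ := (GO.mem_quadSim_iff (Q := QPlus m F)).1 hA
  obtain rfl := (isInduced_iff_rho hQ h5 g γ).1 hγ
  have hg : h.delta g = -1 := by
    rw [← Int.units_ne_iff_eq_neg, ← h.evenDim.sdsign_eq_delta h.two]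
    exact fun e => hA' ((h.evenDim.preserves_iff (isPlus_QPlus m) g).2 e)
  have H := h.splitClassCount_graph hQ h5 hI (by omega) hg (orderOf_eq_two_iff'.1 hγ2).1
  exact ⟨H.1, fun e => H.2 (Or.inr (h1.2 e))⟩

end Cfsg.Agent.S2718
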