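import Mathlib
import Cfsg.Statements.S2719
import Cfsg.Agent.KSG.OrthSim

set_option autoImplicit false
open Cfsg

namespace Cfsg.Agent.S2719

open CL.Orth CL.AutForm CL.AutInd CL.FieldAut CL.Witt.Form QuadraticMap Module

theorem sqSign_of_fixed {F : Type*} [Field F] [Finite F] {σ : F ≃+* F} (hσ : orderOf σ = 2) {x : F}
    (hx : σ x = x) : sqSign x = 1 := by
  obtain ⟨y, rfl⟩ := exists_nrm_eq hx
  by_cases hy : y = 0
  · rw [hy, hσ, nrm_succ', zero_mul]; exact sqSign_of_isSquare (IsSquare.zero)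
  have h1 : sqSign (σ y) = sqSign y := by
    have : IsSquare (σ y) ↔ IsSquare y :=
      ⟨fun h => by simpa using h.map σ.symm, fun h => h.map σ⟩
    by_cases h : IsSquare y
    · rw [sqSign_of_isSquare h, sqSign_of_isSquare (this.2 h)]
    · rw [sqSign_eq_neg_one_iff.2 h, sqSign_eq_neg_one_iff.2 (mt this.1 h)]
  rw [hσ, nrm_succ', nrm_succ', show nrm σ 0 y = 1 from rfl, map_one, mul_one,
    sqSign_mul hy ((map_ne_zero σ).2 hy), h1, Int.units_mul_self]

theorem isPlus_of_semi {F : Type*} [Field F] [Finite F] {ι : Type} [Fintype ι] [DecidableEq ι]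
    {Q : QuadraticForm F (ι → F)} {m : ℕ} (h : OddEven Q m) {γ : GammaL ι F} {μ : F}
    (hγ : IsSim (ofQuad Q) γ μ) {c : Fˣ} (hc : γ * γ = sc ι c) (hσ : γ.right ≠ 1) : IsPlus Q := by
  have : Nonempty ι := Fintype.card_pos_iff.1 (by have := h.two_le; simp at this; omega)
  have h1 : γ.right * γ.right = 1 := (congrArg SemidirectProduct.right hc).trans (sc_right c)
  have ho : orderOf γ.right = 2 := orderOf_eq_two_iff'.2 ⟨h1, hσ⟩
  have h1' : ∀ x, γ.right (γ.right x) = x := fun x => congrArg (fun τ : F ≃+* F => τ x) h1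
  have h2 : γ.right c = c := by
    have := mul_sc γ c
    rw [← hc, ← mul_assoc, mul_left_inj, hc] at this
    exact congrArg Units.val (sc_injective this).symm
  obtain ⟨d, hd⟩ := exists_nrm_eq h2
  rw [ho, nrm_succ', nrm_succ', show nrm γ.right 0 d = 1 from rfl, map_one, mul_one] at hd
  have hd0 : d ≠ 0 := by
    rintro rfl
    exact c.ne_zero (by rw [← hd, zero_mul])
  let s : (ι → F) →+ (ι → F) := (DistribSMul.toAddMonoidHom _ d⁻¹).comp (DistribSMul.toAddMonoidHom _ γ)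
  have hs : ∀ v, s v = d⁻¹ • γ • v := fun v => rfl
  have hs1 : ∀ (a : F) v, s (a • v) = γ.right a • s v := fun a v => by
    rw [hs, hs, gammaL_smul_smul, smul_comm]
  have hs2 : ∀ v, s (s v) = v := fun v => by
    rw [hs, hs, gammaL_smul_smul, ← mul_smul γ, hc, sc_smul, smul_smul, smul_smul, map_inv₀, ← mul_inv,
      hd, inv_mul_cancel₀ c.ne_zero, one_smul]
  have hq : ∀ v, Q (s v) = d⁻¹ * d⁻¹ * μ * γ.right (Q v) := fun v => by
    rw [hs, Q_smul, mul_assoc _ μ]; exact congrArg _ (hγ.q_eq v)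
  have hB : ∀ u v, polar Q (s u) (s v) = d⁻¹ * d⁻¹ * μ * γ.right (polar Q u v) := fun u v => by
    rw [polar, ← map_add, hq, hq, hq, polar, map_sub, map_sub]; ring
  generalize d⁻¹ * d⁻¹ * μ = ν at hq hB
  obtain ⟨e, he0, he⟩ := exists_mul_apply_eq (σ := γ.right) (isOfFinOrder_of_finite _) (m := ν) (by
    obtain ⟨v, hv⟩ := h.exists_Q_ne_zero
    have := hq (s v)
    rw [hs2, hq, map_mul, h1', ← mul_assoc] at this
    rw [ho, nrm_succ', nrm_succ', show nrm γ.right 0 ν = 1 from rfl, map_one, mul_one]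
    exact mul_right_cancel₀ hv (this.symm.trans (one_mul _).symm))
  obtain ⟨b, hb⟩ := exists_basis_fixed (isOfFinOrder_of_finite γ.right) s hs1
    (fun v => by rw [ho]; exact hs2 v) (ι := ι) (by simp)
  have h3 : (γ.right : F →+* F).mapMatrix (e⁻¹ • gram Q b) = e⁻¹ • gram Q b := by
    ext i j
    have := hB (b i) (b j)
    rw [hb, hb] at this
    have hν : ν ≠ 0 := by rintro rfl; exact he0 (by rw [← he, zero_mul])
    simp only [RingHom.mapMatrix_apply, Matrix.map_apply, Matrix.smul_apply, smul_eq_mul, gram_apply,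
      map_mul, map_inv₀, RingHom.coe_coe]
    conv_rhs => rw [this, ← he]
    field_simp
  have h4 : γ.right (e⁻¹ • gram Q b).det = (e⁻¹ • gram Q b).det := by
    have := (γ.right : F →+* F).map_det (e⁻¹ • gram Q b)
    rwa [h3] at this
  have h5 := sqSign_of_fixed ho h4
  have h6 : Fintype.card ι = 2 * m := by rw [← h.dim]; simp
  rw [Matrix.det_smul, sqSign_mul (pow_ne_zero _ (inv_ne_zero he0)) (gram_det_ne_zero h.nondeg b),
    h6, pow_mul', pow_two, sqSign_mul_self, one_mul] at h5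
  rw [isPlus_iff_dsc h.two h.nondeg h.dim, dsc_eq h.nondeg b, h5,
    sqSign_of_fixed ho (x := -1) (by simp), one_pow]


/-- Let T = PΩ⁻_{2m+2}(F) with m ≥ 3 and |F| = q odd (form with anisotropic binary part z₁² + a z₁ z₂ + b z₂²), G = Inndiag(T), and γ an involutory graph automorphism of T (an automorphism in the image of the semisimilarity group, not inner-diagonal, of order 2). Then the G-class of γ is either a single T-class or the union of exactly two T-classes, and it is the union of two unless m is even and q ≡ 1 (mod 4). -/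
theorem result {F : Type*} [Field F] [Fintype F] (hodd : Odd (Fintype.card F)) {m : ℕ} (hm : 3 ≤ m) (a b : F) (hab : (∀ z₁ z₂ : F, z₁ ^ 2 + a * z₁ * z₂ + b * z₂ ^ 2 = 0 → z₁ = 0 ∧ z₂ = 0)) (γ : MulAut (Cfsg.POmega F (Cfsg.quadFormMinus m F a b))) (hγ : Cfsg.IsGraphAutClassPOmegaMinus m a b γ) (hγ2 : orderOf γ = 2) :
    (Cfsg.splitClassCount (Cfsg.inndiagPOmegaMinus m F a b) (Cfsg.Inn (Cfsg.POmega F (Cfsg.quadFormMinus m F a b))) γ = 1 ∨ Cfsg.splitClassCount (Cfsg.inndiagPOmegaMinus m F a b) (Cfsg.Inn (Cfsg.POmega F (Cfsg.quadFormMinus m F a b))) γ = 2) ∧ (¬ (Even m ∧ Fintype.card F % 4 = 1) → Cfsg.splitClassCount (Cfsg.inndiagPOmegaMinus m F a b) (Cfsg.Inn (Cfsg.POmega F (Cfsg.quadFormMinus m F a b))) γ = 2) := by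
  have h := (evenDim_QMinus (F := F) (m := m) (by omega) (disc_ne_zero_of_aniso hab)).oddEven
    (two_ne_zero_of_odd_card hodd)
  have hQ := nondeg_QMinus (F := F) m hab
  have h5 := five_le_minus (m := m) (by omega)
  have h1 := negOne_mem_QMinus hodd m hab
  have hI := inndiagMinus_eq hab (by omega) hQ h5 h.evenDim
  rw [h.evenDim.sdsign_eq_delta h.two] at hI
  obtain ⟨hγ1, hγ3, -⟩ := hγ
  obtain ⟨δ, rfl⟩ := (gammaPOmega_eq hQ h5).le hγ1
  have h2 := (orderOf_eq_two_iff'.1 hγ2).1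
  obtain ⟨g, rfl⟩ : ∃ g, GO.toSemi g = δ := by
    refine GO.exists_toSemi_eq (by_contra fun hσ => ?_)
    obtain ⟨c, hc⟩ := ((real_Om _ hQ h5).ind_eq_one_iff (good_Om _ hQ h5) (δ * δ)).1
      ((map_mul _ _ _).trans h2)
    obtain ⟨μ, hμ⟩ := δ.2
    exact not_isPlus_QMinus hab (isPlus_of_semi h hμ hc hσ)
  have hg : h.delta g = -1 := by
    rw [← Int.units_ne_iff_eq_neg]
    exact fun e => hγ3 (hI.ge ⟨g, e, rfl⟩)
  have H := h.splitClassCount_graph hQ h5 hI (by omega) hg h2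
  refine ⟨H.1, fun e => H.2 ?_⟩
  have := Nat.odd_iff.1 hodd
  rcases Nat.even_or_odd m with hm' | hm'
  · exact Or.inr (h1.2 ⟨hm', by have : ¬ Fintype.card F % 4 = 1 := fun e' => e ⟨hm', e'⟩; omega⟩)
  · exact Or.inl hm'.add_one

end Cfsg.Agent.S2719
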