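import Mathlib
import Cfsg.Statements.S2723
import Cfsg.Agent.KSG.OrthSim

set_option autoImplicit false
open Cfsg

namespace Cfsg.Agent.S2723

open CL.Orth CL.AutForm


/-- Let T = PΩ⁺_{2m}(F) with m ≥ 4 and |F| = q odd. The image of the special orthogonal group in Aut(T) contains the inner automorphism group T with index 1 (they coincide) when m is odd and q ≡ 3 (mod 4), and with index 2 otherwise (the index is 2 exactly when the discriminant of the form is a square). -/
theorem result {F : Type*} [Field F] [Fintype F] (hodd : Odd (Fintype.card F)) {m : ℕ} (hm : 4 ≤ m) :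
    ((Odd m ∧ Fintype.card F % 4 = 3) → (Cfsg.Inn (Cfsg.POmega F (Cfsg.quadFormPlus m F))).relIndex (Cfsg.psoAut F (Cfsg.quadFormPlus m F)) = 1) ∧ (¬ (Odd m ∧ Fintype.card F % 4 = 3) → (Cfsg.Inn (Cfsg.POmega F (Cfsg.quadFormPlus m F))).relIndex (Cfsg.psoAut F (Cfsg.quadFormPlus m F)) = 2) := by
  have h := (evenDim_QPlus (F := F) (m := m) (by omega)).oddEven (two_ne_zero_of_odd_card hodd)
  have hQ := nondeg_QPlus (F := F) m
  have h5 := five_le_plus (m := m) (by omega)
  have h1 := negOne_mem_QPlus hodd m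
  exact ⟨fun H => h.relIndex_Inn_pso_of_notMem hQ h5 fun e => h1.1 e H,
    fun H => h.relIndex_Inn_pso_of_mem hQ h5 (h1.2 H)⟩

end Cfsg.Agent.S2723
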