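import Mathlib
import Cfsg.Statements.S2725
import Cfsg.Agent.KSG.OrthSim

set_option autoImplicit false
open Cfsg

namespace Cfsg.Agent.S2725

open CL.Orth CL.AutForm


/-- Let T = PΩ⁺_{2m}(F) with m ≥ 4 and |F| = q odd. The inner-diagonal group G = Inndiag(T) (image of the class-preserving similarities) taken modulo the inner automorphism group T is cyclic of order 2 when m is odd and q ≡ 3 (mod 4), cyclic of order 4 when m is odd and q ≡ 1 (mod 4), and elementary abelian of order 4 when m is even. -/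
theorem result {F : Type*} [Field F] [Fintype F] (hodd : Odd (Fintype.card F)) {m : ℕ} (hm : 4 ≤ m) :
    ((Odd m ∧ Fintype.card F % 4 = 3) → (∃ φ : ↥(Cfsg.inndiagPOmegaPlus m F) →* Multiplicative (ZMod 2), Function.Surjective φ ∧ φ.ker = (Cfsg.Inn (Cfsg.POmega F (Cfsg.quadFormPlus m F))).subgroupOf (Cfsg.inndiagPOmegaPlus m F))) ∧ ((Odd m ∧ Fintype.card F % 4 = 1) → (∃ φ : ↥(Cfsg.inndiagPOmegaPlus m F) →* Multiplicative (ZMod 4), Function.Surjective φ ∧ φ.ker = (Cfsg.Inn (Cfsg.POmega F (Cfsg.quadFormPlus m F))).subgroupOf (Cfsg.inndiagPOmegaPlus m F))) ∧ (Even m → (∃ φ : ↥(Cfsg.inndiagPOmegaPlus m F) →* Multiplicative (ZMod 2 × ZMod 2), Function.Surjective φ ∧ φ.ker = (Cfsg.Inn (Cfsg.POmega F (Cfsg.quadFormPlus m F))).subgroupOf (Cfsg.inndiagPOmegaPlus m F))) := by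
  have h := (evenDim_QPlus (F := F) (m := m) (by omega)).oddEven (two_ne_zero_of_odd_card hodd)
  have hQ := nondeg_QPlus (F := F) m
  have h5 := five_le_plus (m := m) (by omega)
  have h1 := negOne_mem_QPlus hodd m
  have hI := inndiagPlus_eq hQ h5 h.evenDim
  rw [h.evenDim.sdsign_eq_delta h.two] at hI
  exact ⟨fun H => h.inndiag_mod_Inn_of_notMem hQ h5 hI fun e => h1.1 e H,
    fun H => h.inndiag_mod_Inn_of_odd hQ h5 hI (h1.2 fun e => by omega) H.1,
    fun H => h.inndiag_mod_Inn_of_even hQ h5 hI (h1.2 fun e => Nat.not_odd_iff_even.2 H e.1) H⟩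

end Cfsg.Agent.S2725
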