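import Mathlib
import Cfsg.Statements.S2726
import Cfsg.Agent.KSG.OrthSim

set_option autoImplicit false
open Cfsg

namespace Cfsg.Agent.S2726

open CL.Orth CL.AutForm


/-- Let T = PΩ⁻_{2m+2}(F) with m ≥ 3 and |F| = q odd (form with anisotropic binary part). Inside Aut(T), the image G̃ of the conformal orthogonal group of the form modulo the image of the special orthogonal group is elementary abelian of order 4. -/
theorem result {F : Type*} [Field F] [Fintype F] (hodd : Odd (Fintype.card F)) {m : ℕ} (hm : 3 ≤ m) (a b : F) (hab : (∀ z₁ z₂ : F, z₁ ^ 2 + a * z₁ * z₂ + b * z₂ ^ 2 = 0 → z₁ = 0 ∧ z₂ = 0)) :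
    (∃ φ : ↥(Cfsg.pgoAut F (Cfsg.quadFormMinus m F a b)) →* Multiplicative (ZMod 2 × ZMod 2), Function.Surjective φ ∧ φ.ker = (Cfsg.psoAut F (Cfsg.quadFormMinus m F a b)).subgroupOf (Cfsg.pgoAut F (Cfsg.quadFormMinus m F a b))) := by
  have h := (evenDim_QMinus (F := F) (m := m) (by omega) (disc_ne_zero_of_aniso hab)).oddEven
    (two_ne_zero_of_odd_card hodd)
  have hQ := nondeg_QMinus (F := F) m hab
  have h5 := five_le_minus (m := m) (by omega)
  have h1 := negOne_mem_QMinus hodd m hab
  exact h.pgo_mod_pso hQ h5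

end Cfsg.Agent.S2726
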