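import Cfsg.Statements.S2734
import Cfsg.Agent.CHEV.Fold

set_option autoImplicit false
open Cfsg

namespace Cfsg.Agent.S2734

set_option backward.isDefEq.respectTransparency false

/-- In the Chevalley group of type D₄ over a finite field F (the matrix group generated by the root elements), a graph automorphism attached to a symmetry π of the Dynkin diagram (sending each fundamental root element x_p(t) to x_{π(p)}(t) and each x_{−p}(t) to x_{−π(p)}(t)) that has order 3 — a standard triality graph automorphism, π being a 3-cycle of the three outer nodes — has fixed-point subgroup isomorphic to the Chevalley group of type G₂ over F. -/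
theorem result {F : Type*} [Field F] [Fintype F] (τ : MulAut ↥(Cfsg.Lie.chevD4.group F)) (hτ : Cfsg.Lie.chevD4.IsGraphAut τ) (hτ3 : orderOf τ = 3) :
    Nonempty (↥(MonoidHom.eqLocus τ.toMonoidHom (MonoidHom.id ↥(Cfsg.Lie.chevD4.group F))) ≃* ↥(Cfsg.Lie.chevG2.group F)) := by

  obtain ⟨π, h1, h2⟩ := CL.Chev.isGraphAut_iff.1 hτ
  simp only [Cfsg.Lie.ChevalleyDatum.graphExp, CL.Chev.isLong_D4, Bool.false_and, Bool.false_eq_true, if_false, pow_one] at h2
  have h3 : π * π ≠ 1 := fun e => by
    have h4 : ∀ i, π (π i) = i := fun i => DFunLike.congr_fun e i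
    have : τ ^ 2 = 1 := MulEquiv.toMonoidHom_injective (CL.Chev.hom_ext_simple (fun i t => by simp [sq, h2, h4])
      fun i t => by simp [sq, h2, h4])
    exact absurd (hτ3 ▸ orderOf_dvd_of_pow_eq_one this) (by decide)
  have h4 : π = CL.Chev.permD4 ∨ π = CL.Chev.permD4 * CL.Chev.permD4 := by
    have := CL.Chev.sym_D4 h1
    simp only [Finset.mem_insert, Finset.mem_singleton, Set.mem_insert_iff, Set.mem_singleton_iff] at this
    rcases this with rfl | rfl | rfl | rfl | rfl | rfl <;> first | exact absurd (by decide +kernel) h3 | simp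
  obtain ⟨φ, h5, h6, -⟩ := CL.Chev.foldG2_ok.exists_hom (CL.Chev.stG Cfsg.Lie.chevD4 F) CL.Chev.stG_exact (by simp)
    CL.Chev.stG_R3 CL.Chev.stG_good
  exact ⟨((MonoidHom.ofInjective h5).trans (MulEquiv.subgroupCongr (h6.trans (CL.Chev.foldG2_grp _ h4 h2)))).symm⟩

end Cfsg.Agent.S2734
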