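import Cfsg.Statements.S2736
import Cfsg.Agent.CLAS.LangO5

set_option autoImplicit false
open Cfsg

namespace Cfsg.Agent.S2736

open CL.Lang CL.AutForm CL.Orth CL.OutOrth

/-- Let T = PΩ⁺_{2m}(F) with m ≥ 5 (dimension ≠ 8) and x a field automorphism or a graph-field automorphism of T of prime order r. Then an element y of the coset Inndiag(T)·x (y = δ x with δ induced by a class-preserving similarity) has order r if and only if y is conjugate to x by an element of Inndiag(T). -/
theorem result {F : Type*} [Field F] [Fintype F] {m : ℕ} (hm : 5 ≤ m) (x δ : MulAut (Cfsg.POmega F (Cfsg.quadFormPlus m F))) (hx : Cfsg.IsFieldAutClassPOmega (Cfsg.quadFormPlus m F) x ∨ Cfsg.IsGraphFieldAutClassPOmegaPlus m x) {r : ℕ} (hr : r.Prime) (hxr : orderOf x = r) (hδ : δ ∈ Cfsg.inndiagPOmegaPlus m F) :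
    orderOf (δ * x) = r ↔ Cfsg.IsConjUnder (Cfsg.inndiagPOmegaPlus m F) x (δ * x) := by
  have hQ : OK (QPlus m F) := ok_plus (by omega)
  have hE : EvenDim (QPlus m F) m := evenDim_QPlus (by omega)
  rw [inndiagPlus_eq hQ.nondeg hQ.five hE] at hδ ⊢
  subst hxr
  refine LangProp.iff ?_ rfl hδ
  rcases hx with hx | hx
  · obtain ⟨α, σ, h, ho⟩ := field_data hQ (isSim_inr_QPlus m) hx
    have := langProp_of_conj hQ (inndiagPlus_normal (by omega) hQ hE) h
      (langProp_even hQ hE (inr_pow_orderOf σ) (ho ▸ hr))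
    exact ho ▸ this
  · exact langProp_graphField (by omega) hQ hE hx hr

end Cfsg.Agent.S2736
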