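import Cfsg.Statements.S2751
import Cfsg.Agent.TECH.Gold33f
import Cfsg.Agent.TECH.AmalgamS3In

set_option autoImplicit false
set_option linter.unusedVariables false
open Cfsg

namespace Cfsg.Agent.S2751

/-- Goldschmidt's bound for amalgams of index (3, 3): let M₁ and M₂ be finite subgroups of a group G such that M₁ ⊓ M₂ is a Sylow 2-subgroup of both M₁ and M₂, each quotient Mᵢ / O₂(Mᵢ) is isomorphic to the symmetric group of degree 3, and no nontrivial subgroup of M₁ ⊓ M₂ is normal in both M₁ and M₂. Then M₁ ⊓ M₂ has order at most 2^7. -/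
theorem result {G : Type*} [Group G] (M₁ M₂ : Subgroup G) [Finite M₁] [Finite M₂] (ha₁ : ∃ P : Sylow 2 M₁, (P : Subgroup M₁) = (M₁ ⊓ M₂).subgroupOf M₁) (ha₂ : ∃ P : Sylow 2 M₂, (P : Subgroup M₂) = (M₁ ⊓ M₂).subgroupOf M₂) (hb₁ : Nonempty (M₁ ⧸ Cfsg.pCore 2 M₁ ≃* Equiv.Perm (Fin 3))) (hb₂ : Nonempty (M₂ ⧸ Cfsg.pCore 2 M₂ ≃* Equiv.Perm (Fin 3))) (hc : ∀ N : Subgroup G, N ≤ M₁ ⊓ M₂ → (N.subgroupOf M₁).Normal → (N.subgroupOf M₂).Normal → N = ⊥) : Nat.card ↥(M₁ ⊓ M₂) ≤ 2 ^ 7 := by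
  obtain ⟨S₁, hS₁⟩ := ha₁
  obtain ⟨S₂, hS₂⟩ := ha₂
  have key : ∀ {M : Subgroup G}, M ≤ M₁ ⊔ M₂ → CL.Amalg.SylowIn 2 (M₁ ⊓ M₂) M →
      CL.Amalg.SylowIn 2 ((M₁ ⊓ M₂).subgroupOf (M₁ ⊔ M₂)) (M.subgroupOf (M₁ ⊔ M₂)) := by
    intro M hM s
    refine ⟨Subgroup.comap_mono s.le, CL.Amalg.isPGroup_subgroupOf s.isPGroup, fun Q a b c x hx => ?_⟩
    refine s.maximal (Q.map (M₁ ⊔ M₂).subtype) (a.map _)
      (fun y hy => ⟨⟨y, hM (s.le hy)⟩, b hy, rfl⟩) ?_ ⟨x, hx, rfl⟩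
    rintro _ ⟨y, hy, rfl⟩
    exact c hy
  have f₁ : Finite (M₁.subgroupOf (M₁ ⊔ M₂)) :=
    Finite.of_equiv _ (Subgroup.subgroupOfEquivOfLe le_sup_left).symm.toEquiv
  have f₂ : Finite (M₂.subgroupOf (M₁ ⊔ M₂)) :=
    Finite.of_equiv _ (Subgroup.subgroupOfEquivOfLe le_sup_right).symm.toEquiv
  have h : CL.Amalg.S3Amalgam (M₁.subgroupOf (M₁ ⊔ M₂)) (M₂.subgroupOf (M₁ ⊔ M₂)) := by
    refine CL.Amalg.s3Amalgam_of
      (by rw [← Subgroup.subgroupOf_sup le_sup_left le_sup_right, Subgroup.subgroupOf_self])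
      (fun N a b => ?_) (key le_sup_left (CL.Amalg.sylowIn_of_subgroupOf inf_le_left S₁ hS₁))
      (key le_sup_right (CL.Amalg.sylowIn_of_subgroupOf inf_le_right S₂ hS₂))
      ((CL.Amalg.isS3Mod_of_equiv hb₁).subgroupOf le_sup_left)
      ((CL.Amalg.isS3Mod_of_equiv hb₂).subgroupOf le_sup_right)
    have h1 : N.map (M₁ ⊔ M₂).subtype ≤ M₁ ⊓ M₂ := by
      rintro _ ⟨y, hy, rfl⟩
      exact a hy
    have h2 := CL.Amalg.le_normalizer_map_subtype N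
    exact (Subgroup.map_eq_bot_iff_of_injective _ (Subgroup.subtype_injective _)).1
      (hc _ h1 ((CL.Amalg.subgroupOf_normal_iff (h1.trans inf_le_left)).2 (le_sup_left.trans h2))
        ((CL.Amalg.subgroupOf_normal_iff (h1.trans inf_le_right)).2 (le_sup_right.trans h2)))
  have := CL.Gold.bound h
  rw [show M₁.subgroupOf (M₁ ⊔ M₂) ⊓ M₂.subgroupOf (M₁ ⊔ M₂) = (M₁ ⊓ M₂).subgroupOf (M₁ ⊔ M₂) from rfl,
    Nat.card_congr (Subgroup.subgroupOfEquivOfLe (inf_le_left.trans le_sup_left)).toEquiv] at this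
  exact this

end Cfsg.Agent.S2751
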