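import Cfsg.Statements.S2752
import Cfsg.Agent.PLOC.S4F.Act

set_option autoImplicit false
universe u
open Cfsg

namespace Cfsg.Agent.S2752

/-- Let M be an elementary abelian 2-subgroup of a finite group L and G a subgroup of L acting faithfully on M by conjugation (G normalizes M and meets C(M) trivially). Assume O₂(G) = 1, the symmetric group of degree 3 is not involved in G, and every non-abelian composition factor of G is a Suzuki group Sz(2^(2n+1)) or a group PSL₂(3^(2n+1)). Then every elementary abelian 2-subgroup A of G satisfies |M / C_M(A)| ≥ |A|² and |[M, A]| ≥ |A|². -/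
theorem result {L : Type u} [Group L] [Finite L] (M G : Subgroup L) (hM : Cfsg.IsElementaryAbelian 2 M) (hGM : G ≤ Subgroup.normalizer (M : Set L)) (hf : G ⊓ Subgroup.centralizer (M : Set L) = ⊥) (ha : Cfsg.pCore 2 ↥G = ⊥) (hb : ¬ Cfsg.Involves (Equiv.Perm (Fin 3)) ↥G) (hc : Cfsg.IsCompositionKGroupWith Cfsg.IsSuzukiOrPSL2OddPowerThree ↥G) (A : Subgroup L) (hA : A ≤ G) (hAe : Cfsg.IsElementaryAbelian 2 A) : Nat.card A ^ 2 * Nat.card ↥(M ⊓ Subgroup.centralizer (A : Set L)) ≤ Nat.card M ∧ Nat.card A ^ 2 ≤ Nat.card ↥⁅M, A⁆ := by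
  have hK : CL.S4F.HK ↥G := ⟨hb, CL.S4F.kSec_of_comp _ hc⟩
  have hO : Cfsg.pCoreOf 2 G = ⊥ := by rw [Cfsg.pCoreOf, ha, Subgroup.map_bot]
  refine ⟨CL.S4F.mu_le hK hO hM hGM hf hA hAe, ?_⟩
  have hred : CL.MSS.PRedFor 2 G M := by
    intro N hN hGN hp
    have hP : IsPGroup 2 (N.subgroupOf G) := by
      intro x
      obtain ⟨k, hk⟩ := hp (x : G) x.2
      refine ⟨k, ?_⟩
      have h1 : ((x : G) : L) ^ 2 ^ k ∈ G ⊓ Subgroup.centralizer (M : Set L) :=
        ⟨G.pow_mem (x : G).2 _, hk⟩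
      rw [hf, Subgroup.mem_bot] at h1
      ext
      simpa using h1
    have : (N.subgroupOf G).Normal := by
      rw [Subgroup.normal_subgroupOf_iff_le_normalizer hN]; exact hGN
    have hle : N.subgroupOf G ≤ Cfsg.pCore 2 G := le_sSup ⟨this, hP⟩
    rw [ha, le_bot_iff] at hle
    intro x hx
    have : (⟨x, hN hx⟩ : G) ∈ N.subgroupOf G := hx
    rw [hle, Subgroup.mem_bot] at this
    have hx1 : x = 1 := congrArg Subtype.val this
    rw [hx1]; exact one_mem _
  have hc2 : ⁅A, A⁆ ≤ Subgroup.centralizer (M : Set L) := by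
    rw [Subgroup.commutator_le]
    intro a ha' b hb'
    have : a * b = b * a := congrArg Subtype.val (hAe.1.is_comm.comm (⟨a, ha'⟩ : A) ⟨b, hb'⟩)
    rw [commutatorElement_eq_one_iff_mul_comm.2 this]; exact one_mem _
  have h := CL.S4F.sq_le_card_commutator hK hM hGM hred hA hc2
    (fun r hr => by rw [hAe.2 r hr]; exact one_mem _)
  have hrel : (Subgroup.centralizer (M : Set L)).relIndex A = Nat.card A := by
    have : (Subgroup.centralizer (M : Set L)).subgroupOf A = ⊥ := by
      rw [Subgroup.subgroupOf_eq_bot, disjoint_iff, eq_bot_iff, ← hf]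
      exact fun x hx => ⟨hA hx.2, hx.1⟩
    rw [Subgroup.relIndex, this, Subgroup.index_bot]
  rwa [hrel] at h

end Cfsg.Agent.S2752
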