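import Cfsg.Statements.S2758
import Cfsg.Agent.TECH.InvolveLift

set_option autoImplicit false
open Cfsg

namespace Cfsg.Agent.S2758

open Subgroup CL.MSS

/-- For an odd prime p and a finite group G the following are equivalent: the dihedral group of order 2p is involved in G; some element of 2-power order normalizes but does not centralize some p-subgroup of G; some element of 2-power order inverts some nonidentity element of p-power order. -/
theorem result {G : Type*} [Group G] [Finite G] {p : ℕ} [Fact p.Prime] (hp : p ≠ 2) : (Cfsg.Involves (DihedralGroup p) G ↔ ∃ (x : G) (P : Subgroup G), (∃ k : ℕ, orderOf x = 2 ^ k) ∧ IsPGroup p ↥P ∧ x ∈ Subgroup.normalizer (P : Set G) ∧ x ∉ Subgroup.centralizer (P : Set G)) ∧ (Cfsg.Involves (DihedralGroup p) G ↔ ∃ x y : G, (∃ k : ℕ, orderOf x = 2 ^ k) ∧ (∃ k : ℕ, orderOf y = p ^ k) ∧ y ≠ 1 ∧ x * y * x⁻¹ = y⁻¹) := by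
  have h13 : Cfsg.Involves (DihedralGroup p) G → ∃ (x : G) (P : Subgroup G),
      (∃ k : ℕ, orderOf x = 2 ^ k) ∧ IsPGroup p ↥P ∧ x ∈ Subgroup.normalizer (P : Set G) ∧
        x ∉ Subgroup.centralizer (P : Set G) := by
    intro h
    obtain ⟨K, f, hf⟩ := CL.Sec.involves_iff.1 h
    obtain ⟨x, k, P, hx, hP, hn, a, ha, hne⟩ := exists_lift_of_dihedral hp f hf
    refine ⟨x, P.map K.subtype, ?_, hP.map _, ?_, fun hc => hne ?_⟩
    · have h1 : (x : G) ^ 2 ^ k = 1 := by exact_mod_cast congrArg Subtype.val hx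
      obtain ⟨j, -, hj⟩ := (Nat.dvd_prime_pow Nat.prime_two).1 (orderOf_dvd_of_pow_eq_one h1)
      exact ⟨j, hj⟩
    · exact CL.map_le_normalizer_map K.subtype (zpowers_le.2 hn)
        (mem_map_of_mem _ (mem_zpowers x))
    · have h1 := hc a (mem_map_of_mem K.subtype ha)
      rw [← map_mul, ← map_mul]
      congr 1
      exact Subtype.ext h1.symm
  have h32 : (∃ (x : G) (P : Subgroup G),
      (∃ k : ℕ, orderOf x = 2 ^ k) ∧ IsPGroup p ↥P ∧ x ∈ Subgroup.normalizer (P : Set G) ∧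
        x ∉ Subgroup.centralizer (P : Set G)) → ∃ x y : G, (∃ k : ℕ, orderOf x = 2 ^ k) ∧
        (∃ k : ℕ, orderOf y = p ^ k) ∧ y ≠ 1 ∧ x * y * x⁻¹ = y⁻¹ := by
    rintro ⟨x, P, ⟨k, hk⟩, hP, hn, hc⟩
    obtain ⟨x', y, h1, -, -, h3, h4, h5⟩ := exists_inverted (MonoidHom.id G) hP k (x := x)
      (by rw [← hk, pow_orderOf_eq_one]) hn (by
        by_contra h
        push Not at h
        exact hc fun a ha => (h a ha).symm)
    refine ⟨x', y, ?_, ⟨1, by rw [pow_one]; exact orderOf_eq_prime h4 h3⟩, h3, h5⟩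
    obtain ⟨j, -, hj⟩ := (Nat.dvd_prime_pow Nat.prime_two).1 (orderOf_dvd_of_pow_eq_one h1)
    exact ⟨j, hj⟩
  have h21 : (∃ x y : G, (∃ k : ℕ, orderOf x = 2 ^ k) ∧
        (∃ k : ℕ, orderOf y = p ^ k) ∧ y ≠ 1 ∧ x * y * x⁻¹ = y⁻¹) →
      Cfsg.Involves (DihedralGroup p) G := by
    rintro ⟨x, y, ⟨k, hk⟩, ⟨n, hn⟩, hy, h⟩
    obtain ⟨j, h1, h2⟩ := exists_pow_order_prime (p := p) (n := n) (z := y)
      (by rw [← hn, pow_orderOf_eq_one]) hy
    exact involves_dihedral_of_inverts hp (k := k) (x := x) (by rw [← hk, pow_orderOf_eq_one])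
      h1 h2 (by rw [← conj_pow, h, inv_pow])
  exact ⟨⟨h13, fun h => h21 (h32 h)⟩, ⟨fun h => h32 (h13 h), h21⟩⟩

end Cfsg.Agent.S2758
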