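import Cfsg.Statements.S2759
import Cfsg.Agent.TECH.InvolveLift

set_option autoImplicit false
open Cfsg

namespace Cfsg.Agent.S2759

open Subgroup CL.MSS

/-- For a finite group G, the symmetric group of degree 4 is involved in G if and only if there is a 2-subgroup T of G such that the symmetric group of degree 3 is involved in N(T)/C(T). -/
theorem result {G : Type*} [Group G] [Finite G] : Cfsg.Involves (Equiv.Perm (Fin 4)) G ↔ ∃ T : Subgroup G, IsPGroup 2 ↥T ∧ Cfsg.Involves (Equiv.Perm (Fin 3)) (↥(Subgroup.normalizer (T : Set G)) ⧸ (Subgroup.centralizer (T : Set G)).subgroupOf (Subgroup.normalizer (T : Set G))) := by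
  constructor
  · intro h
    obtain ⟨K, f, hf⟩ := CL.Sec.involves_iff.1 h
    have := permFourV_normal
    obtain ⟨P, hP, hPV, hN⟩ := exists_frattini_lift f hf permFourV four_permFourV.isPGroup
    obtain ⟨φ, hφ, hk⟩ := exists_perm_four_to_three
    refine ⟨P.map K.subtype, hP.map _, ?_⟩
    have hle : (normalizer (P : Set K)).map K.subtype ≤
        normalizer ((P.map K.subtype : Subgroup G) : Set G) := CL.map_le_normalizer_map _ le_rfl
    let ι₀ : normalizer (P : Set K) →* normalizer ((P.map K.subtype : Subgroup G) : Set G) :=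
      (K.subtype.comp (normalizer (P : Set K)).subtype).codRestrict _
        fun x => hle (mem_map_of_mem _ x.2)
    refine involves_of_ker_le ((QuotientGroup.mk' _).comp ι₀)
      ((φ.comp f).comp (normalizer (P : Set K)).subtype) (fun z => ?_) fun x hx => ?_
    · obtain ⟨s, rfl⟩ := hφ z
      obtain ⟨x, hx, rfl⟩ : s ∈ (normalizer (P : Set K)).map f := by rw [hN]; trivial
      exact ⟨⟨x, hx⟩, rfl⟩
    · have h1 : ((x : K) : G) ∈ centralizer ((P.map K.subtype : Subgroup G) : Set G) :=
        mem_subgroupOf.1 ((QuotientGroup.eq_one_iff (ι₀ x)).1 hx)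
      refine (hk (f x)).2 ?_
      rw [← hPV]
      rintro _ ⟨a, ha, rfl⟩
      rw [← map_mul, ← map_mul]
      congr 1
      exact Subtype.ext (h1 a (mem_map_of_mem K.subtype ha))
  · rintro ⟨T, hT, h⟩
    obtain ⟨e⟩ := perm_three_equiv_dihedral
    have : Fact (Nat.Prime 3) := ⟨Nat.prime_three⟩
    set N := normalizer (T : Set G) with hN
    set C := (centralizer (T : Set G)).subgroupOf N with hC
    obtain ⟨K, f, hf⟩ := CL.Sec.involves_iff.1 h
    set π := QuotientGroup.mk' C with hπ
    let g : K.comap π →* K := π.subgroupComap K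
    have hg : Function.Surjective g :=
      π.subgroupComap_surjective_of_surjective K (QuotientGroup.mk'_surjective C)
    obtain ⟨x, k, P, hx, hP, hn, a, ha, hne⟩ := exists_lift_of_dihedral (p := 3) (by norm_num)
      (e.toMonoidHom.comp (f.comp g)) (e.surjective.comp (hf.comp hg))
    obtain ⟨x', y, h1, -, h2, h3, h4, h5⟩ := exists_inverted g hP k hx hn ⟨a, ha, fun h => hne (by
      simp only [MonoidHom.comp_apply, ← map_mul] at h ⊢
      rw [h])⟩
    obtain ⟨n, hyn⟩ := isPGroup_iff_forall_mem.1 hP y h2
    have hmem : ∀ z : K.comap π, g z = 1 ↔ (z : N) ∈ centralizer ((T.subgroupOf N : Subgroup N) : Set N) := by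
      intro z
      rw [← Subtype.val_inj]
      change ((z : N) : N ⧸ C) = 1 ↔ _
      rw [QuotientGroup.eq_one_iff, mem_subgroupOf]
      constructor
      · intro hz t ht
        exact Subtype.ext (hz t ht)
      · intro hz t ht
        exact congrArg Subtype.val (hz ⟨t, le_normalizer ht⟩ ht)
    refine CL.Sec.involves_of_subgroup (K := N) (involves_perm_four_of_two_group
      (T := T.subgroupOf N) (isPGroup_subgroupOf hT N) (x := x') (y := y) (k := k) (n := n)
      (by exact_mod_cast congrArg Subtype.val h1) (by exact_mod_cast congrArg Subtype.val hyn)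
      ?_ ?_ fun hc => h3 ((hmem y).2 hc))
    · exact (hmem (y ^ 3)).1 (by rw [map_pow, h4])
    · exact (hmem (x' * y * x'⁻¹ * y)).1 (by rw [map_mul, map_mul, map_mul, map_inv, h5]; simp)

end Cfsg.Agent.S2759
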