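import Cfsg.Statements.S2760
import Cfsg.Agent.TECH.SecC

set_option autoImplicit false
open Cfsg

namespace Cfsg.Agent.S2760

open CL.MSS Subgroup

/-- Let G be a finite group with C_G(O₂(G)) ≤ O₂(G) and H a subgroup of G such that H is normal in G, or the subgroup O²(H) generated by the elements of H of odd order is normal in G. Then C_H(O₂(H)) ≤ O₂(H). -/
theorem result {G : Type*} [Group G] [Finite G] (hchar : Subgroup.centralizer (Cfsg.pCore 2 G : Set G) ≤ Cfsg.pCore 2 G) (H : Subgroup G) (hH : H.Normal ∨ ((Cfsg.pResidual 2 ↥H).map H.subtype).Normal) : Subgroup.centralizer (Cfsg.pCore 2 ↥H : Set ↥H) ≤ Cfsg.pCore 2 ↥H := by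
  have : Fact (Nat.Prime 2) := ⟨Nat.prime_two⟩
  have hG := chP_top_iff.2 hchar
  refine chP_iff.2 ?_
  rcases hH with h | h
  · exact hG.of_normal le_top le_normalizer_of_normal
  · have h1 : ChP 2 (oU[2] H) := hG.of_normal le_top le_normalizer_of_normal
    refine chP_of_isPGroup (isPGroup_of_oU_le (oP_isPGroup _) (le_trans ?_ h1.le))
    exact le_inf (oU_mono inf_le_left) ((oU_le _).trans (inf_le_right.trans
      (centralizer_anti (oP_le_oP_of_normal (oU_le H) (oU_normal H)))))

end Cfsg.Agent.S2760
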