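import Cfsg.Statements.S2762
import Cfsg.Agent.TECH.QdOver

set_option autoImplicit false
open Cfsg

namespace Cfsg.Agent.S2762

open Subgroup CL.QdF Multiplicative

/-- Structure of Qd over a finite field F of characteristic p (the affine subgroup of SL₃(F)): its largest normal p-subgroup is the group of translations (matrices with upper-left block the identity), the block-diagonal matrices form a complement isomorphic to SL₂(F), and the translation subgroup is a natural SL₂(F)-module for that complement. -/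
theorem result {F : Type*} [Field F] [Fintype F] {p : ℕ} [Fact p.Prime] [CharP F p] : (∀ M : ↥(Cfsg.qdOver F), M ∈ Cfsg.pCore p ↥(Cfsg.qdOver F) ↔ ((M : Matrix.SpecialLinearGroup (Fin 3) F) : Matrix (Fin 3) (Fin 3) F) 0 0 = 1 ∧ ((M : Matrix.SpecialLinearGroup (Fin 3) F) : Matrix (Fin 3) (Fin 3) F) 0 1 = 0 ∧ ((M : Matrix.SpecialLinearGroup (Fin 3) F) : Matrix (Fin 3) (Fin 3) F) 1 0 = 0 ∧ ((M : Matrix.SpecialLinearGroup (Fin 3) F) : Matrix (Fin 3) (Fin 3) F) 1 1 = 1) ∧ ∃ K : Subgroup ↥(Cfsg.qdOver F), (∀ M : ↥(Cfsg.qdOver F), M ∈ K ↔ ((M : Matrix.SpecialLinearGroup (Fin 3) F) : Matrix (Fin 3) (Fin 3) F) 0 2 = 0 ∧ ((M : Matrix.SpecialLinearGroup (Fin 3) F) : Matrix (Fin 3) (Fin 3) F) 1 2 = 0) ∧ K ⊓ Cfsg.pCore p ↥(Cfsg.qdOver F) = ⊥ ∧ K ⊔ Cfsg.pCore p ↥(Cfsg.qdOver F) = ⊤ ∧ Nonempty (↥K ≃* Matrix.SpecialLinearGroup (Fin 2) F) ∧ Cfsg.IsNaturalSL2Module F (Cfsg.pCore p ↥(Cfsg.qdOver F)) K := by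
  rw [pCore_qdOver p]
  have hK : ∀ (A : Matrix.SpecialLinearGroup (Fin 2) F) (v : Fin 2 → F),
      mk3 A v ∈ (emb (F := F)).range ↔ v = 0 := fun A v =>
    ⟨fun ⟨B, hB⟩ => (mk3_inj.1 hB).2.symm, fun h => ⟨A, h ▸ rfl⟩⟩
  have hinj : Function.Injective (emb (F := F)) := fun _ _ h => (mk3_inj.1 h).1
  refine ⟨fun M => ?_, emb.range, fun M => ?_, ?_, ?_, ⟨(MonoidHom.ofInjective hinj).symm⟩, ?_⟩
  · obtain ⟨A, v, rfl⟩ := exists_mk3 M
    rw [mk3_mem_ker]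
    exact ⟨fun h => h ▸ ⟨rfl, rfl, rfl, rfl⟩, fun h => CL.Dickson.ext2 h.1 h.2.1 h.2.2.1 h.2.2.2⟩
  · obtain ⟨A, v, rfl⟩ := exists_mk3 M
    rw [hK]
    refine ⟨fun h => h ▸ ⟨rfl, rfl⟩, fun h => ?_⟩
    ext i
    fin_cases i
    · exact h.1
    · exact h.2
  · rw [eq_bot_iff]
    rintro M ⟨h1, h2⟩
    obtain ⟨A, v, rfl⟩ := exists_mk3 M
    rw [mem_bot, (hK A v).1 h1, mk3_mem_ker.1 h2, mk3_one]
  · rw [eq_top_iff]
    rintro M -
    obtain ⟨A, v, rfl⟩ := exists_mk3 M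
    have : mk3 A v = mk3 1 v * mk3 A 0 := by rw [mk3_mul, one_mul, smul_zero, add_zero]
    rw [this]
    exact mul_mem (mem_sup_right (mk3_mem_ker.2 rfl)) (mem_sup_left ((hK A 0).2 rfl))
  · let e : Multiplicative (Fin 2 → F) ≃* (proj (F := F)).ker :=
      (MonoidHom.ofInjective trans_injective).trans (MulEquiv.subgroupCongr range_trans)
    have he : ∀ w, ((e (ofAdd w) : (proj (F := F)).ker) : qdOver F) = mk3 1 w := fun w => rfl
    refine ⟨le_normalizer_of_normal, proj.comp (Subgroup.subtype _),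
      MulEquiv.toAdditiveLeft e.symm, fun A => ⟨⟨emb A, A, rfl⟩, proj_mk3 A 0⟩, ?_, ?_⟩
    · rw [centralizer_ker]
      rfl
    · rintro ⟨_, A, rfl⟩ v
      obtain ⟨w, rfl⟩ := e.surjective v
      refine ⟨e (ofAdd (A • toAdd w)), ?_, ?_⟩
      · rw [he, ← mk3_conj A 0]
        rfl
      · show toAdd (e.symm (e _)) = Matrix.mulVec (proj (mk3 A 0)).1 (toAdd (e.symm (e w)))
        rw [e.symm_apply_apply, e.symm_apply_apply, proj_mk3]
        rfl

end Cfsg.Agent.S2762
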