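import Cfsg.Statements.S2766
import Cfsg.Agent.TECH.PushQd

set_option autoImplicit false
open Cfsg

namespace Cfsg.Agent.S2766

/-- Let p ≥ 5 be prime and G a maximal p-local subgroup of a finite group H (G is the normalizer of a nontrivial p-subgroup and lies in no other such normalizer). Suppose C_G(O_p(G)) ≤ O_p(G), G/K ≅ PSL₂(p^n) for some normal K and n ≥ 1, a Sylow p-subgroup S of G lies in exactly one maximal subgroup of G, and N_H(S) is not contained in G. Then G = G₀ × E for subgroups G₀ ≅ Qd(p^n) (the natural semidirect product of the plane over the field with p^n elements by SL₂) and E an elementary abelian p-group. -/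
theorem result {H : Type*} [Group H] [Finite H] {p : ℕ} [Fact p.Prime] (hp : 5 ≤ p) (G : Subgroup H) (hloc : ∃ R : Subgroup H, IsPGroup p ↥R ∧ R ≠ ⊥ ∧ G = Subgroup.normalizer (R : Set H)) (hmax : ∀ R : Subgroup H, IsPGroup p ↥R → R ≠ ⊥ → G ≤ Subgroup.normalizer (R : Set H) → Subgroup.normalizer (R : Set H) = G) (S : Sylow p ↥G) (hE₁ : Subgroup.centralizer (Cfsg.pCore p ↥G : Set ↥G) ≤ Cfsg.pCore p ↥G) (hE₂ : ∃! M : Subgroup ↥G, IsCoatom M ∧ (S : Subgroup ↥G) ≤ M) (K : Subgroup ↥G) [K.Normal] (F : Type) [Field F] [Fintype F] (n : ℕ) (hn : 1 ≤ n) (hF : Fintype.card F = p ^ n) (hE₃ : Nonempty (↥G ⧸ K ≃* Matrix.ProjectiveSpecialLinearGroup (Fin 2) F)) (hN : ¬ Subgroup.normalizer (((S : Subgroup ↥G).map G.subtype : Subgroup H) : Set H) ≤ G) : ∃ G₀ E : Subgroup H, Cfsg.IsInternalDirectProduct G₀ E G ∧ Cfsg.IsElementaryAbelian p E ∧ Nonempty (↥G₀ ≃* ↥(Cfsg.qdOver F)) := by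
  open CL.Push CL.Th CL.MSS Subgroup in
  obtain ⟨M, h⟩ := exists_PU (sylIn_top S) hE₁ hE₂ K F hF hE₃
  have hφ := G.subtype_injective
  have hG : ∀ U : Subgroup G, IsPGroup p U → U ≠ ⊥ → U.Normal →
      Subgroup.normalizer ((U.map G.subtype : Subgroup H) : Set H) = G := fun U h1 h2 h3 =>
    hmax _ (h1.map _) (fun e => h2 ((Subgroup.map_eq_bot_iff_of_injective _ hφ).1 e))
      (G.range_subtype.ge.trans ((MonoidHom.range_eq_map _).le.trans
        ((CL.Push.map_le_norm_iff hφ).2 (CL.Push.norm_top _ _))))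
  have hn' : ∀ U ≤ (S : Subgroup G).map G.subtype, U ≠ ⊥ →
      Subgroup.normalizer (((S : Subgroup G).map G.subtype : Subgroup H) : Set H) ≤
        Subgroup.normalizer (U : Set H) → ¬ G.subtype.range ≤ Subgroup.normalizer (U : Set H) :=
    fun U h1 h2 h3 h4 => hN (h3.trans (hmax U ((S.isPGroup'.map _).to_le h1) h2
      (G.range_subtype.ge.trans h4)).le)
  have hd : CL.Push.NoChar (S : Subgroup G) := fun U h1 h2 h3 => hN
    ((CL.Push.norm_le_norm_map_char hφ _ U).trans
    (hG _ (S.isPGroup'.to_le (Subgroup.map_subtype_le U)) (fun e => h1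
      ((Subgroup.map_eq_bot_iff_of_injective _ (Subgroup.subtype_injective _)).1 e)) h3).le)
  obtain ⟨f, he⟩ := h.ff_of_noChar hd
  have := CL.Push.charP_of_card hF
  rcases f.cfg h he hφ hn' with ⟨x, hx, c⟩ | ⟨B, P, P', E, F', c⟩
  · have := h.normal
    have e1 : Subgroup.map G.subtype (Subgroup.comap G.subtype (Subgroup.map (MulAut.conj x).toMonoidHom
        ((Cfsg.pCore p G).map G.subtype))) = Subgroup.map (MulAut.conj x).toMonoidHom
        ((Cfsg.pCore p G).map G.subtype) := Subgroup.map_comap_eq_self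
      ((CL.MSS.cj_mono x (Subgroup.map_mono h.T_le)).trans (hx.le.trans (Subgroup.map_le_range _ _)))
    have hT : ⁅Cfsg.pCore p G, Cfsg.pCore p G⁆ = ⊥ := by
      by_contra e
      have h1 := hG _ (h.pgroupT.to_le (Subgroup.commutator_le_left _ _)) e inferInstance
      have h2 : x ∈ G := h1.le (CL.MSS.mem_normalizer_iff_cj.2 (by
        rw [Subgroup.map_commutator, CL.MSS.cj_commutator, ← e1, ← Subgroup.map_commutator,
          c.derived_eq' h, Subgroup.map_commutator]))
      have h3 := CL.MSS.subtype_map_cj ⟨x, h2⟩ (Cfsg.pCore p G)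
      rw [CL.MSS.cj_eq_of_normal] at h3
      rw [← h3, Subgroup.comap_map_eq_self_of_injective hφ] at c
      exact h.not_le (c.sup1.ge.trans (sup_le inf_le_left le_rfl))
    obtain ⟨h1, G₀, ⟨-, -, h2, h3, h4⟩, ⟨e⟩⟩ := c.split_qd h f he hT (by omega) (F := F) rfl
    refine ⟨G₀.map G.subtype, (Subgroup.center G).map G.subtype, ⟨Subgroup.map_subtype_le _,
      Subgroup.map_subtype_le _, ?_, ?_, ?_⟩, ⟨?_, ?_⟩,
      ⟨(G₀.equivMapOfInjective _ hφ).symm.trans e⟩⟩
    · rintro _ ⟨a, ha, rfl⟩ _ ⟨b, hb, rfl⟩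
      rw [← map_mul, ← map_mul, h2 a ha b hb]
    · rw [← Subgroup.map_inf _ _ _ hφ, h3, Subgroup.map_bot]
    · rw [← Subgroup.map_sup, h4, ← MonoidHom.range_eq_map, G.range_subtype]
    · infer_instance
    · rintro _ ⟨a, ha, rfl⟩
      rw [← map_pow, h1.2 a ha, map_one]
  · have := (⟨c, h, f, he⟩ : CL.Push.Ctx4 p _ _ _ M B P P' E F').eq_three
    omega

end Cfsg.Agent.S2766
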