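import Cfsg.Statements.S2769
import Cfsg.Agent.TECH.PushBaum

set_option autoImplicit false
open Cfsg
open scoped commutatorElement

namespace Cfsg.Agent.S2769

/-- Let G be a finite group and p a prime with C_G(O_p(G)) ≤ O_p(G), S a Sylow p-subgroup lying in exactly one maximal subgroup of G, and G/K ≅ PSL₂(p^n) for some normal K and n ≥ 1. Let J(S) be generated by the abelian subgroups of S of largest order. If [Z(J(S)), S] ≠ 1, then either [Z(J(S)), S] ∩ Z(S) is normal in G or C_S(Z(J(S))) is normal in G. -/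
theorem result {G : Type*} [Group G] [Finite G] {p : ℕ} [Fact p.Prime] (S : Sylow p G) (hE₁ : Subgroup.centralizer (Cfsg.pCore p G : Set G) ≤ Cfsg.pCore p G) (hE₂ : ∃! M : Subgroup G, IsCoatom M ∧ (S : Subgroup G) ≤ M) (K : Subgroup G) [K.Normal] (F : Type) [Field F] [Fintype F] (n : ℕ) (hn : 1 ≤ n) (hF : Fintype.card F = p ^ n) (hE₃ : Nonempty (G ⧸ K ≃* Matrix.ProjectiveSpecialLinearGroup (Fin 2) F)) (h : ⁅(Cfsg.centerThompsonAOf (S : Subgroup G)), (S : Subgroup G)⁆ ≠ ⊥) : (⁅(Cfsg.centerThompsonAOf (S : Subgroup G)), (S : Subgroup G)⁆ ⊓ ((S : Subgroup G) ⊓ Subgroup.centralizer ((S : Subgroup G) : Set G))).Normal ∨ (((S : Subgroup G) ⊓ Subgroup.centralizer (Cfsg.centerThompsonAOf (S : Subgroup G) : Set G))).Normal := by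
  obtain ⟨M, h⟩ := CL.Push.exists_PU (CL.MSS.sylIn_top S) hE₁ hE₂ K F hF hE₃
  by_cases hZ : CL.Push.ctr (S : Subgroup G) ≤ Subgroup.center G
  · exact Or.inl (CL.Push.normal_of_le_center (inf_le_right.trans hZ))
  by_cases hJ : Cfsg.thompsonSubgroupAOf (S : Subgroup G) ≤ Cfsg.pCore p G
  · exact Or.inr (h.baumann_normal hZ hJ).2
  left
  obtain ⟨E, hE, e⟩ := h.baumann hZ hJ
  have hle : E ≤ Cfsg.centerThompsonAOf (S : Subgroup G) := e ▸ le_sup_right
  have h1 : ⁅Cfsg.centerThompsonAOf (S : Subgroup G), (S : Subgroup G)⁆ ≤ E := by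
    rw [e]
    refine Subgroup.commutator_le.2 fun x hx s hs => ?_
    obtain ⟨z, hz, y, hy, rfl⟩ := (CL.Push.perm2_of_normalizes (H := CL.Push.ctr (S : Subgroup G))
      (K := E) (by rw [Subgroup.normalizer_eq_top]; exact le_top)).symm x (by rwa [sup_comm])
    have : ⁅z * y, s⁆ = z * (s * z⁻¹ * s⁻¹) := by
      rw [commutatorElement_def, mul_assoc z, ← hy.2 s hs]; group
    rw [this]
    exact mul_mem hz (hE.conj_mem _ (inv_mem hz) s)
  refine CL.Push.normal_of_le_center fun x hx => h.mem_center (E := E)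
    (CL.ThA.thompsonSubgroupAOf_le _) hJ ?_ (h1 hx.1) hx.2.2
  exact Subgroup.le_centralizer_iff.1 (hle.trans inf_le_right)

end Cfsg.Agent.S2769
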