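import Cfsg.Statements.S2770
import Cfsg.Agent.TECH.PushBaum

set_option autoImplicit false
open Cfsg

namespace Cfsg.Agent.S2770

/-- Let G be a finite group and p a prime with C_G(O_p(G)) ≤ O_p(G), S a Sylow p-subgroup lying in exactly one maximal subgroup of G, and G/K ≅ PSL₂(p^n) for some normal K and n ≥ 1. If Z(S) is not elementary abelian, then either ℧¹(Z(S)) (the subgroup generated by the p-th powers of the elements of Z(S)) is normal in G or C_S(Z(J(S))) is normal in G, J(S) being generated by the abelian subgroups of S of largest order. -/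
theorem result {G : Type*} [Group G] [Finite G] {p : ℕ} [Fact p.Prime] (S : Sylow p G) (hE₁ : Subgroup.centralizer (Cfsg.pCore p G : Set G) ≤ Cfsg.pCore p G) (hE₂ : ∃! M : Subgroup G, IsCoatom M ∧ (S : Subgroup G) ≤ M) (K : Subgroup G) [K.Normal] (F : Type) [Field F] [Fintype F] (n : ℕ) (hn : 1 ≤ n) (hF : Fintype.card F = p ^ n) (hE₃ : Nonempty (G ⧸ K ≃* Matrix.ProjectiveSpecialLinearGroup (Fin 2) F)) (h : ¬ Cfsg.IsElementaryAbelian p ((S : Subgroup G) ⊓ Subgroup.centralizer ((S : Subgroup G) : Set G))) : (Cfsg.powerClosure p 1 ((S : Subgroup G) ⊓ Subgroup.centralizer ((S : Subgroup G) : Set G))).Normal ∨ (((S : Subgroup G) ⊓ Subgroup.centralizer (Cfsg.centerThompsonAOf (S : Subgroup G) : Set G))).Normal := by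
  obtain ⟨M, h⟩ := CL.Push.exists_PU (CL.MSS.sylIn_top S) hE₁ hE₂ K F hF hE₃
  have key : (∀ z ∈ CL.Push.ctr (S : Subgroup G), z ^ p ∈ Subgroup.center G) →
      (Cfsg.powerClosure p 1 (CL.Push.ctr (S : Subgroup G))).Normal := fun hz =>
    CL.Push.normal_of_le_center ((Subgroup.closure_le _).2 (by
      rintro _ ⟨x, hx, rfl⟩
      rw [pow_one]; exact hz x hx))
  by_cases hZ : CL.Push.ctr (S : Subgroup G) ≤ Subgroup.center G
  · exact Or.inl (key fun z hz => pow_mem (hZ hz) p)
  by_cases hJ : Cfsg.thompsonSubgroupAOf (S : Subgroup G) ≤ Cfsg.pCore p G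
  · exact Or.inr (h.baumann_normal hZ hJ).2
  obtain ⟨A, hA, hAT⟩ : ∃ A ∈ CL.ThA.maxAbIn (S : Subgroup G), ¬ A ≤ Cfsg.pCore p G := by
    by_contra hc
    exact hJ (CL.ThA.thompsonSubgroupAOf_le_iff.2 fun A hA => by_contra fun e => hc ⟨A, hA, e⟩)
  exact Or.inl (key fun z hz => (h.ff_of_maxAb hZ hA hAT).pow_mem_center h (h.ctr_le hz))

end Cfsg.Agent.S2770
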