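import Cfsg.Statements.S2773
import Cfsg.Agent.TECH.Foc3M
import Cfsg.Agent.TECH.CFPair

set_option autoImplicit false
universe u
open Cfsg

namespace Cfsg.Agent.S2773

open Subgroup CL CL.MSS CL.CF CL.Foc3 CL.Push


/-- For every nontrivial finite 3-group S there is a nontrivial characteristic subgroup K of S such that, in every finite group G containing S as a Sylow 3-subgroup, S ∩ G' is the product of S ∩ (C_G(Z(S)))' and S ∩ (N_G(K))' (derived subgroups; product taken elementwise). -/
theorem result {S : Type u} [Group S] [Finite S] [Nontrivial S] (hS : IsPGroup 3 S) : ∃ K : Subgroup S, K ≠ ⊥ ∧ K.Characteristic ∧ ∀ (G : Type u) [Group G] [Finite G] (τ : S →* G), Function.Injective τ → (∃ P : Sylow 3 G, (P : Subgroup G) = τ.range) → ∀ g : G, g ∈ τ.range ⊓ commutator G ↔ ∃ a ∈ τ.range ⊓ ⁅Subgroup.centralizer ((τ.range ⊓ Subgroup.centralizer (τ.range : Set G) : Subgroup G) : Set G), Subgroup.centralizer ((τ.range ⊓ Subgroup.centralizer (τ.range : Set G) : Subgroup G) : Set G)⁆, ∃ b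 ∈ τ.range ⊓ ⁅Subgroup.normalizer ((K.map τ : Subgroup G) : Set G), Subgroup.normalizer ((K.map τ : Subgroup G) : Set G)⁆, g = a * b := by
  haveI : Fact (Nat.Prime 3) := ⟨Nat.prime_three⟩
  refine ⟨kF 3 S, isCharPFunctor_kF.1 S hS inferInstance,
    characteristic_iff_map_eq.2 fun φ => isCharPFunctor_kF.2 _ _ hS φ, ?_⟩
  intro G _ _ τ hτ hP
  have hT : SylIn 3 τ.range ⊤ := sylIn_top_iff.2 hP
  have eK := iF_range (isCharPFunctor_kF (p := 3)) hS hτ
  rw [← eK]
  generalize τ.range = T at hT
  have hF := iF_isCF (G := G) (isCharPFunctor_kF (p := 3))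
  have k0 : TrCtl _ T ⊤ := (famTr_iff (iFam_isCF isChar_pair) hT).1 (gTr_pair (p := 3) (by decide))
  have hC : T ≤ centralizer (ctr T : Set G) := le_cent_ctr T
  have hK := cf_le_normalizer hF hT.pgroup
  refine (trCtl_pair_iff hC le_top le_top).1 (k0.trans fun N hN => ?_)
  obtain ⟨W, k1, rfl⟩ := mem_nrm_iFam.1 hN
  rcases k1 with rfl | rfl
  swap
  · exact trCtl_of_mem (N := normalizer ((inducedFunctor (kF 3) T : Subgroup G) : Set G)) (by simp)
      inf_le_right
  rw [show inducedFunctor zF T = ctr T from Th.map_center_subtype T]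
  refine FusCtl.trCtl (hT.of_le (le_inf le_top (hC.trans (centralizer_le_normalizer _))) le_top)
    (by simpa using ⟨hC, hK⟩) fun x hx A hA h => ?_
  obtain ⟨c, hc, y, hy, rfl⟩ := (hT.of_le hC le_top).frattini
    (MSS.normalizer_le_normalizer_centralizer _ hx.2)
  have hy' : y ∈ normalizer ((inducedFunctor (kF 3) T : Subgroup G) : Set G) := by
    rw [mem_normalizer_iff_cj] at hy ⊢
    have := (hF T hT.pgroup).2.2 y
    exact this.symm.trans (congrArg _ hy)
  have k2 : cjS y A ⊆ T := (cjS_subset_cj hA).trans (mem_normalizer_iff_cj.1 hy).le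
  exact (fusClosed_realized (steps_inv _) T).comp (realized_single hA ⟨_, by simp, hy'⟩ k2)
    (realized_single k2 ⟨_, by simp, hc⟩ (by rwa [← cjS_mul]))

end Cfsg.Agent.S2773
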