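import Cfsg.Statements.S2779
import Cfsg.Agent.TECH.NatMod

set_option autoImplicit false
open Cfsg

namespace Cfsg.Agent.S2779

/-- Let L act on the elementary abelian p-group V (inside a finite group, by conjugation, faithfully) as SL₂(F) on its natural module, F a field with p^n elements, and let S be a Sylow p-subgroup of L. Then [V, S, S] = 1; |V| = p^(2n) and |C_V(S)| = p^n; and for every nonidentity s ∈ S and every v ∈ V outside C_V(S): C_V(s) = C_V(S) = [V, S] = [V, s] = the subgroup generated by the commutators [v, t], t ∈ S. -/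
theorem result {G : Type*} [Group G] [Finite G] {p : ℕ} [Fact p.Prime] {F : Type*} [Field F] [Fintype F] (n : ℕ) (hF : Fintype.card F = p ^ n) (V L : Subgroup G) (hnat : Cfsg.IsNaturalSL2Module F V L) (hf : L ⊓ Subgroup.centralizer (V : Set G) = ⊥) (S : Sylow p ↥L) (T : Subgroup G) (hT : T = ((S : Subgroup ↥L).map L.subtype)) : ⁅⁅V, T⁆, T⁆ = ⊥ ∧ Nat.card V = p ^ (2 * n) ∧ Nat.card ↥(V ⊓ Subgroup.centralizer ((T : Subgroup G) : Set G)) = p ^ n ∧ ∀ s ∈ T, s ≠ 1 → (V ⊓ Subgroup.centralizer ({s} : Set G)) = (V ⊓ Subgroup.centralizer ((T : Subgroup G) : Set G)) ∧ ⁅V, T⁆ = (V ⊓ Subgroup.centralizer ((T : Subgroup G) : Set G)) ∧ ⁅V, Subgroup.zpowers s⁆ = (V ⊓ Subgroup.centralizer ((T : Subgroup G) : Set G)) ∧ ∀ v ∈ V, v ∉ Subgroup.centralizer (T : Set G) → Subgroup.closure {x : G | ∃ t ∈ T, x = v * t * v⁻¹ * t⁻¹} = (V ⊓ Subgroup.centralizer ((T : Subgroup G) : Set G)) := by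
  open CL.Push CL.Th CL.MSS Subgroup in
  have := charP_of_card hF
  obtain ⟨ρ, ψ, h⟩ := CL.Push.exists_natU hnat hf S
  rw [← hT] at h
  refine ⟨Subgroup.commutator_eq_bot_iff_le_centralizer.2 (h.comm_le.trans inf_le_right), ?_,
    by rw [h.card_cent, Nat.card_eq_fintype_card, hF], fun s hs h1 => ?_⟩
  · rw [← Subgroup.relIndex_bot_left, h.card, Nat.card_eq_fintype_card, hF, ← pow_mul, mul_comm]
  have h2 : V ⊓ Subgroup.centralizer (T : Set G) ≤ ⁅V, Subgroup.zpowers s⁆ := fun c hc => by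
    obtain ⟨v, hv, rfl⟩ := h.exists_comm hs h1 hc
    exact Subgroup.commutator_mem_commutator hv (Subgroup.mem_zpowers s)
  have h3 := Subgroup.commutator_mono (le_refl V) ((Subgroup.zpowers_le_of_mem hs))
  refine ⟨h.cent_single hs h1, le_antisymm h.comm_le (h2.trans h3),
    le_antisymm (h3.trans h.comm_le) h2, fun v hv h4 => le_antisymm ((Subgroup.closure_le _).2 ?_)
    fun c hc => ?_⟩
  · rintro _ ⟨t, ht, rfl⟩
    exact h.comm_mem hv ht
  · obtain ⟨t, ht, rfl⟩ := h.exists_comm' hv h4 hc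
    exact Subgroup.subset_closure ⟨t, ht, rfl⟩

end Cfsg.Agent.S2779
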