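import Cfsg.Statements.S2780
import Cfsg.Agent.TECH.NatMod

set_option autoImplicit false
open Cfsg

namespace Cfsg.Agent.S2780

/-- Let L act on the elementary abelian p-group V (inside a finite group, faithfully) as SL₂(F) on its natural module, F a field with p^n elements, S a Sylow p-subgroup of L. Then: for every g ∈ L not normalizing S, V is the internal direct product of C_V(S) and C_V(gSg⁻¹); every nonidentity element of L of order prime to p acts on V without nonidentity fixed points; and C_V(S) and V/C_V(S) are irreducible for N_L(S): the only N_L(S)-invariant subgroups of C_V(S) are 1 and C_V(S), and the only N_L(S)-invariant subgroups between C_V(S) and V are those two. -/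
theorem result {G : Type*} [Group G] [Finite G] {p : ℕ} [Fact p.Prime] {F : Type*} [Field F] [Fintype F] (n : ℕ) (hF : Fintype.card F = p ^ n) (V L : Subgroup G) (hnat : Cfsg.IsNaturalSL2Module F V L) (hf : L ⊓ Subgroup.centralizer (V : Set G) = ⊥) (S : Sylow p ↥L) (T : Subgroup G) (hT : T = ((S : Subgroup ↥L).map L.subtype)) : (∀ g ∈ L, g ∉ Subgroup.normalizer (T : Set G) → Cfsg.IsInternalDirectProduct (V ⊓ Subgroup.centralizer ((T : Subgroup G) : Set G)) (V ⊓ Subgroup.centralizer ((T.map (MulAut.conj g).toMonoidHom : Subgroup G) : Set G)) V) ∧ (∀ x ∈ L, x ≠ 1 → (orderOf x).Coprime p → (V ⊓ Subgroup.centralizer ({x} : Set G)) = ⊥) ∧ (∀ U : Subgroup G, U ≤ (V ⊓ Subgroup.centralizer ((T : Subgroup G) : Set G)) → L ⊓ Subgroup.normalizer (T : Set G) ≤ Subgroup.normalizer (U : Set G) → U = ⊥ ∨ U = (V ⊓ Subgroup.centralizer ((T : Subgroup G) : Set G))) ∧ (∀ U : Subgroup G, (V ⊓ Subgroup.centralizer ((T : Subgroup G) : Set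 G)) ≤ U → U ≤ V → L ⊓ Subgroup.normalizer (T : Set G) ≤ Subgroup.normalizer (U : Set G) → U = (V ⊓ Subgroup.centralizer ((T : Subgroup G) : Set G)) ∨ U = V) := by
  open CL.Push CL.Th CL.MSS Subgroup in
  have := charP_of_card hF
  obtain ⟨ρ, ψ, h⟩ := CL.Push.exists_natU hnat hf S
  rw [← hT] at h
  have hc : ∀ a ∈ V, ∀ b ∈ V, a * b = b * a := fun a ha b hb =>
    h.inj (mul_mem ha hb) (mul_mem hb ha) (by rw [h.add a ha b hb, h.add b hb a ha, add_comm])
  refine ⟨fun g hg h1 => ?_, fun x hx h1 h2 => ?_, fun U h1 h2 => ?_, fun U h1 h2 h3 => ?_⟩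
  · have h2 : ρ ⟨g, hg⟩ 1 0 ≠ 0 := fun e => h1 (h.mem_norm e)
    have h3 : V ⊓ Subgroup.centralizer ((T.map (MulAut.conj g).toMonoidHom : Subgroup G) : Set G) =
        (V ⊓ Subgroup.centralizer (T : Set G)).map (MulAut.conj g).toMonoidHom := by
      rw [CL.MSS.cj_inf, CL.MSS.cj_centralizer, CL.MSS.cj_eq_of_mem_normalizer (h.norm hg)]
    refine ⟨inf_le_left, inf_le_left, fun a ha b hb => hc a ha.1 b hb.1, ?_,
      le_antisymm (sup_le inf_le_left inf_le_left) fun v hv => ?_⟩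
    · rw [h3]
      refine (Subgroup.eq_bot_iff_forall _).2 ?_
      rintro _ ⟨ha, y, hy, rfl⟩
      have h4 := (h.mem_cent.1 ha).2
      have h5 := h.mem_cent.1 hy
      erw [h.act ⟨g, hg⟩ y h5.1] at h4
      rw [CL.Quad.smul_fin_two, h5.2, mul_zero, add_zero, mul_eq_zero_iff_left h2] at h4
      rw [(h.ker y h5.1).1 (CL.Push.vec_ext h4 h5.2), map_one]
    · obtain ⟨y, hy, e⟩ := h.surj ![ψ v 1 / ρ ⟨g, hg⟩ 1 0, 0]
      have h4 := h.conj_mem ⟨g, hg⟩ hy
      rw [h3, ← mul_inv_cancel_right v (g * y * g⁻¹)⁻¹, inv_inv]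
      refine Subgroup.mul_mem_sup (h.mem_cent.2 ⟨mul_mem hv (inv_mem h4), ?_⟩)
        (CL.MSS.conj_mem_cj (h.mem_cent.2 ⟨hy, by rw [e]; rfl⟩))
      rw [h.add v hv _ (inv_mem h4), h.inv h4, h.act ⟨g, hg⟩ y hy, e]
      simp [CL.Quad.smul_fin_two]
      field_simp
      ring
  · refine (Subgroup.eq_bot_iff_forall _).2 fun v hv => by_contra fun h3 => h1 ?_
    obtain ⟨g, e⟩ := CL.Push.exists_smul_e0 fun e => h3 ((h.ker v hv.1).1 e)
    have h4 := (h.fix_iff ⟨x, hx⟩ hv.1).1 (hv.2 x rfl)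
    rw [← e, ← mul_smul, ← inv_smul_eq_iff, ← mul_smul] at h4
    have a0 := congrFun h4 0
    have a1 := congrFun h4 1
    have a2 := CL.Dickson.det2 (g⁻¹ * (ρ ⟨x, hx⟩ * g))
    rw [CL.Quad.smul_fin_two] at a0 a1
    simp only [Matrix.cons_val_zero, Matrix.cons_val_one, mul_one, mul_zero, add_zero] at a0 a1
    rw [a0, a1, mul_zero, sub_zero, one_mul] at a2
    have a3 : (g⁻¹ * ρ ⟨x, hx⟩ * g⁻¹⁻¹) ^ p = 1 := by
      rw [inv_inv, mul_assoc, CL.Dickson.ext2 (h := CL.Dickson.u _) a0 rfl a1 a2, CL.Dickson.u_pow,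
        CharP.cast_eq_zero, zero_mul, CL.Dickson.u_zero]
    rw [conj_pow, conj_eq_one_iff, ← map_pow, map_eq_one_iff _ h.bij.1] at a3
    exact orderOf_eq_one_iff.1 (h2.eq_one_of_dvd (orderOf_dvd_of_pow_eq_one (congrArg Subtype.val a3)))
  · refine or_iff_not_imp_left.2 fun e => le_antisymm h1 fun c hc => ?_
    obtain ⟨⟨w, hw⟩, h3⟩ := Subgroup.ne_bot_iff_exists_ne_one.1 e
    have h4 := h.mem_cent.1 (h1 hw)
    have h5 : ψ w 0 ≠ 0 := fun e => h3 (Subtype.ext ((h.ker w h4.1).1 (CL.Push.vec_ext e h4.2)))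
    by_cases h6 : ψ c 0 = 0
    · rw [(h.ker c hc.1).1 (CL.Push.vec_ext h6 (h.mem_cent.1 hc).2)]; exact one_mem _
    obtain ⟨g, hg, e⟩ := h.exists_diag (div_ne_zero h6 h5)
    rw [h.inj hc.1 (h.conj_mem ⟨g, hg.1⟩ h4.1) (by
      rw [e w h4.1]
      exact CL.Push.vec_ext (by simp; field_simp) (by simp [h4.2, (h.mem_cent.1 hc).2]))]
    exact CL.MSS.conj_mem_of_normalizes h2 hg hw
  · refine or_iff_not_imp_left.2 fun e => le_antisymm h2 fun c hc => ?_
    obtain ⟨w, hw, h4⟩ := SetLike.not_le_iff_exists.1 fun e' => e (le_antisymm e' h1)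
    have h5 : ψ w 1 ≠ 0 := fun e => h4 (h.mem_cent.2 ⟨h2 hw, e⟩)
    by_cases h6 : ψ c 1 = 0
    · exact h1 (h.mem_cent.2 ⟨hc, h6⟩)
    obtain ⟨g, hg, e⟩ := h.exists_diag (div_ne_zero h5 h6)
    have h7 := CL.MSS.conj_mem_of_normalizes h3 hg hw
    refine (U.mul_mem_cancel_right (inv_mem h7)).1 (h1 (h.mem_cent.2
      ⟨mul_mem hc (inv_mem (h2 h7)), ?_⟩))
    rw [h.add c hc _ (inv_mem (h2 h7)), h.inv (h2 h7), e w (h2 hw)]
    simp
    field_simp
    ring

end Cfsg.Agent.S2780
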