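import Cfsg.Statements.S2787
import Cfsg.Agent.TECH.NoQuad
import Cfsg.Agent.FUS.PSL2Dih
import Cfsg.Agent.S1073
import Cfsg.Agent.S1069

set_option autoImplicit false
open Cfsg

namespace Cfsg.Agent.S2787

/-- Let p be a prime and let H act by conjugation on the elementary abelian p-subgroup V of a finite group, irreducibly (no H-invariant subgroups of V other than 1 and V) and nontrivially, and suppose H/C_H(V) is isomorphic to PSL₂(F) for a field F with p^n elements, p^n odd, or p = 3 and H/C_H(V) is isomorphic to a Ree group ²G₂(3^(2m+1)), m ≥ 1. Then no subgroup A of H acting nontrivially on V acts quadratically: [V, A, A] = 1 forces [V, A] = 1. -/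
theorem result {G : Type*} [Group G] [Finite G] {p : ℕ} [Fact p.Prime] (V H : Subgroup G) (hV : Cfsg.IsElementaryAbelian p V) (hHV : H ≤ Subgroup.normalizer (V : Set G)) (hirr : ∀ U : Subgroup G, U ≤ V → H ≤ Subgroup.normalizer (U : Set G) → U = ⊥ ∨ U = V) (hnt : ¬ H ≤ Subgroup.centralizer (V : Set G)) [hn : ((Subgroup.centralizer (V : Set G)).subgroupOf H).Normal] (hq : (∃ (F : Type) (_ : Field F) (_ : Fintype F) (n : ℕ), Fintype.card F = p ^ n ∧ Odd (Fintype.card F) ∧ Nonempty (↥H ⧸ (Subgroup.centralizer (V : Set G)).subgroupOf H ≃* Matrix.ProjectiveSpecialLinearGroup (Fin 2) F)) ∨ (p = 3 ∧ Cfsg.Lie.IsoRee (↥H ⧸ (Subgroup.centralizer (V : Set G)).subgroupOf H))) (A : Subgroup G) (hA : A ≤ H) (hquad : ⁅⁅V, A⁆, A⁆ = ⊥) : ⁅V, A⁆ = ⊥ := by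
  rcases hq with ⟨F, _, _, n, h1, h2, ⟨e⟩⟩ | ⟨rfl, K, _, _, m, h1, h2, ⟨e⟩⟩
  · refine CL.NoQuad.no_quadratic ?_ hV hHV hirr ((CL.NoQuad.dihLike_of_dihedral fun P =>
      let ⟨m, _, _, h⟩ := CL.Fus.sylow_psl2_dihedral h2 P; ⟨m, h⟩).of_equiv e) hA hquad
    rintro rfl
    have := Fintype.one_lt_card (α := F)
    rw [h1] at h2 this
    rcases n with _ | n
    · simp at this
    · exact absurd h2 (by simp [Nat.even_pow])
  · obtain ⟨h3, h4⟩ := Cfsg.Agent.S1073.result h1 h2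
    have h5 := Cfsg.Agent.S1069.result h2
    have : Finite (Cfsg.Lie.twistedG2 K (3 ^ m)) := Finite.of_equiv _ e.toEquiv
    refine CL.NoQuad.no_quadratic (by norm_num) hV hHV hirr
      ((CL.NoQuad.dihLike_of_card_eight h4 fun P => ?_).of_equiv e) hA hquad
    obtain ⟨k, hk⟩ : ∃ k, 3 ^ (2 * m + 1) = 8 * k + 3 := ⟨3 ^ (2 * m + 1) / 8, by
      have : 3 ^ (2 * m + 1) % 8 = 3 := by
        rw [pow_succ, pow_mul, Nat.mul_mod, Nat.pow_mod]; simp
      omega⟩
    have h6 : Nat.card (Cfsg.Lie.twistedG2 K (3 ^ m)) =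
        2 ^ 3 * ((8 * k + 3) ^ 3 * (4 * k + 1) * ((2 * k + 1) * (64 * k ^ 2 + 40 * k + 7))) := by
      rw [h5, hk, show 8 * k + 3 - 1 = 8 * k + 2 by omega]; ring
    rw [P.card_eq_multiplicity, h6, Nat.factorization_mul (by positivity) (by positivity),
      Nat.Prime.factorization_pow Nat.prime_two, Finsupp.add_apply, Finsupp.single_eq_same,
      Nat.factorization_eq_zero_of_not_dvd]
    · rfl
    rw [Nat.two_dvd_ne_zero, ← Nat.odd_iff]
    refine ((Odd.pow ⟨4 * k + 1, by ring⟩).mul ⟨2 * k, by ring⟩).mul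
      (Odd.mul ⟨k, rfl⟩ ⟨32 * k ^ 2 + 20 * k + 3, by ring⟩)

end Cfsg.Agent.S2787
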