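import Cfsg.Statements.S2788
import Cfsg.Agent.TECH.ModBound
import Cfsg.Agent.TECH.QdOver
import Cfsg.Agent.TECH.PushZ
import Cfsg.Agent.TECH.Amb

set_option autoImplicit false
open Cfsg

namespace Cfsg.Agent.S2788

/-- Let H act faithfully by conjugation on the elementary abelian p-subgroup V of a finite group with H ≅ SL₂(F), F a field with p^n elements, S a Sylow p-subgroup of H, and A ≤ S a subgroup of order at least 3 acting quadratically on V ([V, A, A] = 1). Then |V/C_V(a)| ≥ p^n for every nonidentity a ∈ A. -/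
theorem result {G : Type*} [Group G] [Finite G] {p : ℕ} [Fact p.Prime] (V H : Subgroup G) (hV : Cfsg.IsElementaryAbelian p V) (hHV : H ≤ Subgroup.normalizer (V : Set G)) (hf : H ⊓ Subgroup.centralizer (V : Set G) = ⊥) {F : Type*} [Field F] [Fintype F] (n : ℕ) (hF : Fintype.card F = p ^ n) (hiso : Nonempty (↥H ≃* Matrix.SpecialLinearGroup (Fin 2) F)) (S : Sylow p ↥H) (T : Subgroup G) (hT : T = ((S : Subgroup ↥H).map H.subtype)) (A : Subgroup G) (hA : A ≤ T) (hA3 : 3 ≤ Nat.card A) (hquad : ⁅⁅V, A⁆, A⁆ = ⊥) : ∀ a ∈ A, a ≠ 1 → p ^ n ≤ ((V ⊓ Subgroup.centralizer ({a} : Set G))).relIndex V := by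
  intro a ha h1
  subst hT
  obtain ⟨e⟩ := hiso
  obtain ⟨s, hs, rfl⟩ := hA ha
  obtain ⟨k, hk⟩ := CL.MSS.isPGroup_iff_forall_mem.1 S.isPGroup' s hs
  have := CL.Push.charP_of_card hF
  rcases le_or_gt 2 n with hn | hn
  · refine (CL.ModB.big_of_psl hF hn (f := (QuotientGroup.mk' _).comp e.toMonoidHom)
      ((QuotientGroup.mk'_surjective _).comp e.surjective) hk fun h => h1 ?_).le hV hHV hf
    have h2 : e s ∈ Subgroup.center _ := (QuotientGroup.eq_one_iff _).1 h
    have h3 : e s ∈ Cfsg.pCore p (Matrix.SpecialLinearGroup (Fin 2) F) :=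
      (CL.MSS.oP_le_pCore (hN := CL.Push.normal_of_le_center (Subgroup.zpowers_le.2 h2))
        (CL.MSS.isPGroup_zpowers (k := k) (by rw [← map_pow, hk, map_one]))) (Subgroup.mem_zpowers _)
    rw [CL.QdF.pCore_SL2, Subgroup.mem_bot, e.map_eq_one_iff] at h3
    rw [h3, map_one]
  · obtain ⟨j, hj⟩ := (show IsPGroup p V from CL.MSS.isPGroup_iff_forall_mem.2 fun v hv =>
      ⟨1, by rw [pow_one, hV.2 v hv]⟩).index
      ((V ⊓ Subgroup.centralizer ({H.subtype s} : Set G)).subgroupOf V)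
    have h2 := CL.ModB.one_lt_relIndex hf s.2 h1
    change Subgroup.relIndex _ _ = _ at hj
    rw [hj]
    refine Nat.pow_le_pow_right (Fact.out : p.Prime).pos ?_
    have : j ≠ 0 := by rintro rfl; exact h2 hj
    omega

end Cfsg.Agent.S2788
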