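import Cfsg.Statements.S2792
import Cfsg.Agent.PLOC.Yoshida

set_option autoImplicit false
open Cfsg

namespace Cfsg.Agent.S2792

/-- Let S be a Sylow p-subgroup of the finite group G and W a subgroup of S weakly closed in S with respect to G. If S ∩ G' ≠ S ∩ (N_G(W))', then there are x ∈ S, z ∈ W and a maximal subgroup W₀ of W such that the iterated commutator [x, z; p−1] (with [x, z] = x⁻¹z⁻¹xz and [x, z; i+1] = [[x, z; i], z]) lies in W₀ but not in the Frattini subgroup of W₀; in particular [x, z; p−1] ≠ 1. -/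
theorem result {G : Type*} [Group G] [Finite G] {p : ℕ} [Fact p.Prime] (S : Sylow p G) (W : Subgroup G) (hW : Cfsg.IsWeaklyClosed W (S : Subgroup G)) (h : (S : Subgroup G) ⊓ commutator G ≠ (S : Subgroup G) ⊓ ⁅Subgroup.normalizer (W : Set G), Subgroup.normalizer (W : Set G)⁆) : ∃ x ∈ (S : Subgroup G), ∃ z ∈ W, ∃ W₀ : Subgroup ↥W, IsCoatom W₀ ∧ (fun y : G => y⁻¹ * z⁻¹ * y * z)^[p - 1] x ∈ W₀.map W.subtype ∧ (fun y : G => y⁻¹ * z⁻¹ * y * z)^[p - 1] x ∉ ((frattini ↥W₀).map W₀.subtype).map W.subtype := by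
  have hSH := Subgroup.le_normalizer.trans (CL.Tr.weaklyClosed_le_normalizer hW)
  obtain ⟨u, hu, z, hz, R, M, huR, hzR, hR, hn, hi, hMR, hMi, hM⟩ :=
    CL.Tr.yoshida_core S hW (mt (CL.Tr.tate_commutator_iff S hSH).mpr h)
  have hWp := S.isPGroup'.to_le hW.1
  have h1 : (fun y : G => y⁻¹ * z⁻¹ * y * z)^[p - 1] u ∈ R :=
    CL.Tr.iterate_comm_mem (hn (Subgroup.mem_sup_left hz)) huR _
  have h2 : (fun y : G => y⁻¹ * z⁻¹ * y * z)^[p - 1] u ∈ W := by
    obtain ⟨k, hk⟩ : ∃ k, p - 1 = k + 1 := ⟨p - 2, by have := (Fact.out : p.Prime).two_le; omega⟩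
    rw [hk, Function.iterate_succ_apply]
    exact CL.Tr.iterate_comm_mem (Subgroup.le_normalizer hz)
      (mul_mem (CL.Tr.inv_conj_mem_of_mem_normalizer (hSH hu) (inv_mem hz)) hz) k
  refine ⟨u, hu, z, hz, R.subgroupOf W, CL.Tr.isCoatom_of_index_prime ?_, ⟨⟨_, h2⟩, h1, rfl⟩, ?_⟩
  · rw [show (R.subgroupOf W).index = p from
      CL.Tr.relIndex_eq_prime_of_le hWp le_sup_left hi fun h => hzR (h hz)]
    exact Fact.out
  · rintro ⟨_, ⟨y, hy, rfl⟩, hy'⟩
    have h3 : IsCoatom (M.comap (W.subtype.comp (R.subgroupOf W).subtype)) := by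
      apply CL.Tr.isCoatom_of_index_prime
      rw [Subgroup.index_comap, MonoidHom.range_comp, Subgroup.range_subtype,
        Subgroup.subgroupOf_map_subtype,
        CL.Tr.relIndex_eq_prime_of_le hWp.to_inf_right inf_le_left hMi fun h => hM (h ⟨h1, h2⟩)]
      exact Fact.out
    exact hM (hy' ▸ frattini_le_coatom h3 hy)

end Cfsg.Agent.S2792
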