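import Cfsg.Statements.S2793
import Cfsg.Agent.PLOC.ZJF.FSec

set_option autoImplicit false
open Cfsg

namespace Cfsg.Agent.S2793

open Subgroup CL CL.ZJF

/-- Let p be an odd prime, S a Sylow p-subgroup of the finite group G, J(S) the subgroup generated by the abelian subgroups of S of largest order, and suppose Z(J(S)) does not control strong fusion in G. Put H = N_G(Z(J(S))). Then the group F(p) of upper triangular 3 × 3 matrices (a b c; 0 a⁻¹ d; 0 0 1) over the field with p elements is involved in H, and Z(J(S)) contains a subgroup C of order p with |N_H(C) : C_H(C)| = p − 1. -/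
theorem result {G : Type*} [Group G] [Finite G] {p : ℕ} [Fact p.Prime] (hp : p ≠ 2) (S : Sylow p G) (h : ¬ Cfsg.ControlsStrongFusion p (Cfsg.centerThompsonAOf (S : Subgroup G))) (H : Subgroup G) (hH : H = Subgroup.normalizer ((Cfsg.centerThompsonAOf (S : Subgroup G)) : Set G)) : Cfsg.Involves ↥(Cfsg.fOver (ZMod p)) ↥H ∧ ∃ C : Subgroup G, C ≤ (Cfsg.centerThompsonAOf (S : Subgroup G)) ∧ Nat.card C = p ∧ (H ⊓ Subgroup.centralizer (C : Set G)).relIndex (H ⊓ Subgroup.normalizer (C : Set G)) = p - 1 := by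
  have hpp : p.Prime := Fact.out
  have hn : ¬ (groupFusionSystem (S : Subgroup G)).IsNormal (centerThompsonAOf (S : Subgroup G)) :=
    fun hn => h ⟨S, ThA.centerThompsonAOf_le _, fun A hA => ⟨hA, fun g hg => by
      have h1 : closure A ≤ (S : Subgroup G).comap (MulAut.conj g).toMonoidHom :=
        (closure_le _).2 fun a ha => hg ⟨a, ha, rfl⟩
      obtain ⟨k, hk, e⟩ := exists_of_normal S hn ((closure_le _).2 hA) (g := g) fun x hx => h1 hx
      exact ⟨k, hk, fun a ha => e a (subset_closure ha)⟩⟩⟩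
  refine ⟨hH ▸ involves_fOver_of_not_normal hp S hn, ?_⟩
  obtain ⟨u, hu⟩ := IsCyclic.exists_ofOrder_eq_natCard (α := (ZMod p)ˣ)
  rw [Nat.card_eq_fintype_card, ZMod.card_units] at hu
  obtain ⟨k, hk, y, hy, h1, e⟩ := (normal_or_eGrp hp S (c := ((u : ZMod p).val : ℤ))
    (by simp)).resolve_left hn
  rw [← hH] at hk
  rw [zpow_natCast] at e
  obtain ⟨n, -, hn⟩ := (Nat.dvd_prime_pow hpp).1 (orderOf_dvd_of_pow_eq_one
    (MSS.isPGroup_iff_forall_mem.1 S.isPGroup' y (ThA.centerThompsonAOf_le _ hy)).choose_spec)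
  have hz := orderOf_pow_orderOf_div (orderOf_pos y).ne' (hn ▸ dvd_pow_self p fun h0 =>
    h1 (orderOf_eq_one_iff.1 (by rw [hn, h0, pow_zero])) : p ∣ orderOf y)
  have e' : k * y ^ (orderOf y / p) * k⁻¹ = (y ^ (orderOf y / p)) ^ (u : ZMod p).val := by
    rw [← conj_pow, e, ← pow_mul, ← pow_mul, mul_comm]
  have hy' := pow_mem hy (orderOf y / p)
  generalize y ^ (orderOf y / p) = z at hz e' hy'
  have hc : Nat.card (zpowers z) = p := by rw [Nat.card_zpowers, hz]
  refine ⟨zpowers z, zpowers_le.2 hy', hc, ?_⟩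
  let φ := (zpowers z).normalizerMonoidHom.comp
    (inclusion (inf_le_right : H ⊓ normalizer (zpowers z : Set G) ≤ _))
  have hφ : (H ⊓ centralizer (zpowers z : Set G)).subgroupOf (H ⊓ normalizer (zpowers z : Set G)) =
      φ.ker := by
    rw [← MonoidHom.comap_ker, normalizerMonoidHom_ker]
    exact Subgroup.ext fun g => ⟨fun hg => hg.2, fun hg => ⟨g.2.1, hg⟩⟩
  rw [relIndex, hφ, index_ker]
  have hkN : k ∈ normalizer (zpowers z : Set G) := MSS.mem_normalizer_of_cj_le (by
    rw [MSS.cj_zpowers, e', zpowers_le]; exact pow_mem (mem_zpowers z) _)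
  refine Nat.dvd_antisymm ?_ ?_
  · rw [← Nat.totient_prime hpp, ← hc, ← IsCyclic.card_mulAut]
    exact card_subgroup_dvd_card _
  · refine Dvd.dvd.trans ?_ (orderOf_dvd_natCard φ.range ⟨⟨k, hk, hkN⟩, rfl⟩)
    have h2 : ∀ m : ℕ, k ^ m * z * (k ^ m)⁻¹ = z ^ (u : ZMod p).val ^ m := fun m => by
      induction m with
      | zero => simp
      | succ m ih =>
        rw [pow_succ', pow_succ', pow_mul, ← e', conj_pow, ← ih]; group
    have h3 := congrArg (fun α : MulAut (zpowers z) => (α ⟨z, mem_zpowers z⟩ : G))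
      (pow_orderOf_eq_one (φ ⟨k, hk, hkN⟩))
    generalize orderOf (φ ⟨k, hk, hkN⟩) = m at h3
    rw [← map_pow] at h3
    have h4 : z ^ (u : ZMod p).val ^ m = z ^ 1 := (h2 m).symm.trans (h3.trans (pow_one z).symm)
    rw [pow_eq_pow_iff_modEq, hz, ← ZMod.natCast_eq_natCast_iff] at h4
    rw [← hu, orderOf_dvd_iff_pow_eq_one]
    exact Units.ext (by simpa using h4)

end Cfsg.Agent.S2793
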