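import Cfsg.Statements.S2794
import Cfsg.Agent.PLOC.FusionControl
import Cfsg.Agent.PLOC.QdFree

set_option autoImplicit false
open Cfsg

namespace Cfsg.Agent.S2794

open Subgroup CL.MSS in
theorem aux {Y : Type*} [Group Y] [Finite Y] {p : ℕ} [hp : Fact p.Prime] (V : Subgroup Y)
    [V.Normal] (hc : centralizer (V : Set Y) ≤ V) (hcard : Nat.card V = p ^ 2)
    (htr : ∀ v ∈ V, ∀ w ∈ V, v ≠ 1 → w ≠ 1 → ∃ g, g * v * g⁻¹ = w) (T : Sylow p Y)
    (hT : ¬ (T : Subgroup Y) ≤ V) :
    ¬ Cfsg.ControlsStrongFusion p (Cfsg.centerThompsonAOf (T : Subgroup Y)) := by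
  rintro ⟨T', -, h⟩
  have hV : IsPGroup p V := IsPGroup.of_card hcard
  have hVT : V ≤ T := CL.le_sylow_of_normal hV T
  have hVT' : V ≤ T' := CL.le_sylow_of_normal hV T'
  set Z := (T : Subgroup Y) ⊓ centralizer ((T : Subgroup Y) : Set Y) with hZ
  have hZV : Z ≤ V := inf_le_right.trans ((centralizer_le hVT).trans hc)
  have hT1 : (T : Subgroup Y) ≠ ⊥ := fun h => hT (h ▸ bot_le)
  have hZ1 : Z ≠ ⊥ := inf_centralizer_ne_bot T.isPGroup' T.isPGroup' le_normalizer hT1
  obtain ⟨⟨z, hz⟩, hz1⟩ := ne_bot_iff_exists_ne_one.1 hZ1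
  have hz1' : z ≠ 1 := fun h => hz1 (Subtype.ext h)
  have hVW : V ≤ Cfsg.centerThompsonAOf (T : Subgroup Y) := fun w hw => by
    by_cases hw1 : w = 1
    · rw [hw1]; exact one_mem _
    obtain ⟨g, hg⟩ := htr z (hZV hz) w hw hz1' hw1
    obtain ⟨m, hm, h'⟩ := (CL.FC.ctrl_of_controlsStrongFusionOf h).elem (hVT' (hZV hz))
      (mem_top g) (hg ▸ hVT' hw)
    rw [← hg, ← h']
    exact conj_mem_of_mem_normalizer hm (CL.ThA.center_le_centerThompsonAOf _ hz)
  have hJ : Cfsg.thompsonSubgroupAOf (T : Subgroup Y) ≤ V := by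
    refine le_trans ?_ hc
    rw [CL.ThA.centerThompsonAOf_eq] at hVW
    exact le_centralizer_iff.1 (hVW.trans inf_le_right)
  obtain ⟨a, haT, haV⟩ := Set.not_subset.1 hT
  have hB : IsMulCommutative (Z ⊔ zpowers a : Subgroup Y) :=
    CL.ThA.comm_sup (CL.Th.comm_inf_centralizer _) inferInstance
      (inf_le_right.trans (centralizer_le (zpowers_le.2 haT)))
  have hBT : Z ⊔ zpowers a ≤ T := sup_le inf_le_left (zpowers_le.2 haT)
  have hlt : Z < Z ⊔ zpowers a := lt_of_le_of_ne le_sup_left fun h =>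
    haV (hZV (h.ge (le_sup_right (a := Z) (mem_zpowers a))))
  obtain ⟨i, hi⟩ := (T.isPGroup'.to_le (inf_le_left : Z ≤ _)).exists_card_eq
  obtain ⟨j, hj⟩ := (T.isPGroup'.to_le hBT).exists_card_eq
  have h1 : 1 < Nat.card Z := (one_lt_card_iff_ne_bot Z).2 hZ1
  have h2 := CL.PN.card_lt_of_lt hlt
  rw [hi] at h1
  rw [hi, hj, Nat.pow_lt_pow_iff_right hp.out.one_lt] at h2
  have hi0 : i ≠ 0 := by rintro rfl; simp at h1
  obtain ⟨A, hA⟩ := CL.ThA.maxAbIn_nonempty (T : Subgroup Y)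
  have h3 : Nat.card A ≤ Nat.card (Z ⊔ zpowers a : Subgroup Y) := by
    refine (card_le_of_le ((CL.ThA.le_thompsonSubgroupAOf hA).trans hJ)).trans ?_
    rw [hcard, hj]
    exact Nat.pow_le_pow_right hp.out.pos (by omega)
  exact haV (hJ (CL.ThA.le_thompsonSubgroupAOf (CL.ThA.mem_maxAbIn_of_card_le hA hBT hB h3)
    (le_sup_right (a := Z) (mem_zpowers a))))

open CL.Dickson CL.Quad in
open scoped MatrixGroups in
theorem sl2_trans {F : Type*} [Field F] (v : Fin 2 → F) (hv : v ≠ 0) :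
    ∃ A : SL(2, F), A • (![1, 0] : Fin 2 → F) = v := by
  by_cases h : v 0 = 0
  · have h1 : v 1 ≠ 0 := fun h1 => hv (by ext i; fin_cases i <;> simp [h, h1])
    refine ⟨mk2 0 (-(v 1)⁻¹) (v 1) 0 (by field_simp; ring), ?_⟩
    ext i; rw [smul_fin_two]; fin_cases i <;> simp [mk2, h]
  · refine ⟨mk2 (v 0) 0 (v 1) (v 0)⁻¹ (by field_simp; ring), ?_⟩
    ext i; rw [smul_fin_two]; fin_cases i <;> simp [mk2]

open CL.Qd in
theorem aux2 {Y : Type*} [Group Y] [Finite Y] {p : ℕ} [hp : Fact p.Prime]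
    (e : Y ≃* ↥(Cfsg.qd p)) (T : Sylow p Y) :
    ¬ Cfsg.ControlsStrongFusion p (Cfsg.centerThompsonAOf (T : Subgroup Y)) := by
  have hcard : Nat.card (proj (p := p)).ker = p ^ 2 := by
    rw [← range_trans, ← Nat.card_congr (MonoidHom.ofInjective trans_injective).toEquiv]
    simp
  have hcard' : Nat.card ((proj (p := p)).ker.comap e.toMonoidHom) = p ^ 2 := by
    rw [← hcard, Subgroup.comap_equiv_eq_map_symm']
    exact Subgroup.card_map_of_injective e.symm.injective
  refine aux ((proj (p := p)).ker.comap e.toMonoidHom) ?_ hcard' ?_ T ?_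
  · intro x hx
    show e x ∈ (proj (p := p)).ker
    rw [← centralizer_ker]
    intro y hy
    obtain ⟨y, rfl⟩ := e.surjective y
    rw [← map_mul, ← map_mul, hx y hy]
  · intro v hv w hw hv1 hw1
    obtain ⟨A, a, ha⟩ := exists_mk3 (e v)
    obtain ⟨B, b, hb⟩ := exists_mk3 (e w)
    obtain rfl : A = 1 := mk3_mem_ker.1 (ha ▸ (show e v ∈ (proj (p := p)).ker from hv))
    obtain rfl : B = 1 := mk3_mem_ker.1 (hb ▸ (show e w ∈ (proj (p := p)).ker from hw))
    have ha0 : a ≠ 0 := by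
      rintro rfl; rw [mk3_one] at ha; exact hv1 (e.injective (by rw [ha, map_one]))
    have hb0 : b ≠ 0 := by
      rintro rfl; rw [mk3_one] at hb; exact hw1 (e.injective (by rw [hb, map_one]))
    obtain ⟨C, hC⟩ := sl2_trans a ha0
    obtain ⟨D, hD⟩ := sl2_trans b hb0
    refine ⟨e.symm (mk3 (D * C⁻¹) 0), e.injective ?_⟩
    rw [map_mul, map_mul, map_inv, e.apply_symm_apply, ha, hb, mk3_conj, ← hC, ← hD, mul_smul,
      inv_smul_smul]
  · intro h
    apply T.not_dvd_index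
    refine dvd_trans ?_ (Subgroup.index_dvd_of_le h)
    rw [Subgroup.index_comap_of_surjective _ e.surjective, Subgroup.index_ker,
      MonoidHom.range_eq_top.2 proj_surjective, Subgroup.card_top]
    exact CL.Sec.dvd_card_sl2

/-- For an odd prime p and a finite group G, the group Qd(p) is not involved in G if and only if in every section K/R of G, for every Sylow p-subgroup S* of K/R, the centre of J(S*) (J generated by the abelian subgroups of largest order) controls strong fusion in K/R. -/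
theorem result {G : Type*} [Group G] [Finite G] {p : ℕ} [Fact p.Prime] (hp : p ≠ 2) : ¬ Cfsg.Involves ↥(Cfsg.qd p) G ↔ ∀ (K R : Subgroup G) [hR : (R.subgroupOf K).Normal], ∀ T : Sylow p (K ⧸ R.subgroupOf K), Cfsg.ControlsStrongFusion p (Cfsg.centerThompsonAOf (T : Subgroup (K ⧸ R.subgroupOf K))) := by
  constructor
  · intro hqd K R hR T
    exact ⟨T, CL.ThA.centerThompsonAOf_le _, ((CL.FC.zjA p).ctrl_of_sections False
      (fun Y _ _ hY hc T E hE _ => CL.ZJ.centerThompsonAOf_normal hp T hE hc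
        (CL.PSt.qstable_of_not_involves hp fun h => hqd (CL.Sec.involves_of_section
          (CL.Sec.involves_trans h hY)))) T (CL.ZJ.isStronglyClosed_self _)
          False.elim).controlsStrongFusionOf⟩
  · rintro h ⟨K, R, hR, ⟨e⟩⟩
    exact aux2 e default (h K R default)

end Cfsg.Agent.S2794
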