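import Cfsg.Statements.S2795
import Cfsg.Agent.PLOC.QdFree

set_option autoImplicit false
open Cfsg

namespace Cfsg.Agent.S2795

/-- For an odd prime p and a finite group G, the group Qd(p) is not involved in G if and only if every section of G is p-stable in the normalizer form (for every p-subgroup P of the section and every g in its normalizer acting quadratically on P, the image of g in N(P)/C(P) lies in O_p(N(P)/C(P))). -/
theorem result {G : Type*} [Group G] [Finite G] {p : ℕ} [Fact p.Prime] (hp : p ≠ 2) : ¬ Cfsg.Involves ↥(Cfsg.qd p) G ↔ ∀ (K R : Subgroup G) [hR : (R.subgroupOf K).Normal], Cfsg.IsNormalizerPStable p (K ⧸ R.subgroupOf K) := by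
  exact ⟨fun h K R _ => CL.PSt.isNormalizerPStable_of_not_involves hp
      fun h' => h (CL.Sec.involves_of_section h'),
    fun h ⟨K, R, _, ⟨e⟩⟩ => CL.PSt.not_isNormalizerPStable_of_equiv hp e (h K R)⟩

end Cfsg.Agent.S2795
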