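import Cfsg.Statements.S2799
import Cfsg.Agent.FUS.GlaubZ

set_option autoImplicit false
open Cfsg

namespace Cfsg.Agent.S2799

/-- Let S be a Sylow p-subgroup of the finite group G, J(S) the subgroup generated by the abelian subgroups of S of largest order, and x an element of S lying in the centre of N_G(J(S)). Assume that p is odd, or that x is a p-th power of an element of Z(S), or that the symmetric group of degree 4 is not involved in G. Then x is weakly closed in S with respect to G: every G-conjugate of x that lies in S equals x. -/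
theorem result {G : Type*} [Group G] [Finite G] {p : ℕ} [Fact p.Prime] (S : Sylow p G) (x : G) (hxS : x ∈ (S : Subgroup G)) (hxZ : x ∈ (Subgroup.center ↥(Subgroup.normalizer ((Cfsg.thompsonSubgroupAOf (S : Subgroup G)) : Set G))).map (Subgroup.normalizer ((Cfsg.thompsonSubgroupAOf (S : Subgroup G)) : Set G)).subtype) (h : p ≠ 2 ∨ (∃ z ∈ (S : Subgroup G) ⊓ Subgroup.centralizer ((S : Subgroup G) : Set G), z ^ p = x) ∨ ¬ Cfsg.Involves (Equiv.Perm (Fin 4)) G) : ∀ g : G, g * x * g⁻¹ ∈ (S : Subgroup G) → g * x * g⁻¹ = x := by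
  obtain ⟨y, hy, rfl⟩ := hxZ
  have hy' := Subgroup.mem_center_iff.1 hy
  have hfix : ∀ P f, CL.Fus.NMor (Cfsg.groupFusionSystem (S : Subgroup G))
      (Cfsg.thompsonSubgroupAOf (S : Subgroup G)) P f → (y : G) ∈ P → f y = y := fun P f hf hP => by
    obtain ⟨-, -, g, hg, e⟩ := CL.Fus.mor_ofSubgroup_iff.1
      ((CL.Fus.nMor_group_iff (CL.ThA.thompsonSubgroupAOf_le _)).1 hf)
    rw [e hP, CL.Fus.cj_eq_self_iff]
    exact congrArg Subtype.val (hy' ⟨g, hg⟩)
  have hz : (y : G) ∈ Cfsg.FusionSystem.centralizerIn (S : Subgroup G) S := ⟨hxS, fun s hs =>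
    congrArg Subtype.val (hy' ⟨s, CL.ThA.le_normalizer_thompsonSubgroupAOf _ hs⟩)⟩
  have hF := CL.Fus.Grp.isSaturated S
  have hc : (y : G) ∈ (Cfsg.groupFusionSystem (S : Subgroup G)).center := by
    rcases h with h | ⟨z, hz', e⟩ | h
    · exact CL.Fus.mem_center_of_fix_thompson S.isPGroup' hF (Or.inl h) hz hfix
    · refine CL.Fus.mem_center_of_agZ_thompson S.isPGroup' hF ?_ hfix
      have := CL.Fus.pow_mem_powerClosure (p := p) (n := 1) hz'
      rwa [pow_one, e] at this
    · refine CL.Fus.mem_center_of_fix_thompson S.isPGroup' hF ?_ hz hfix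
      by_cases hp : p = 2
      · subst hp
        exact Or.inr fun h' => h (CL.Qd.involves_qd_two_iff.1 (CL.Fus.involves_of_qdSec_group h'))
      · exact Or.inl hp
  intro g hg
  refine ((CL.Fus.mem_center_iff_fix S.isPGroup' hF).1 hc).2 (Subgroup.zpowers (y : G)) (CL.Fus.cj g)
    (CL.Fus.mor_cj_group (Subgroup.zpowers_le.2 hxS) fun x hx => ?_) (Subgroup.mem_zpowers _)
  obtain ⟨k, rfl⟩ := Subgroup.mem_zpowers_iff.1 hx
  rw [(CL.Fus.isHomOn_cj ⊤ g).map_zpow trivial]
  exact Subgroup.zpow_mem _ hg k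

end Cfsg.Agent.S2799
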