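import Cfsg.Statements.S2856
import Cfsg.Agent.TECH.AmalgamV

set_option autoImplicit false
open Cfsg

namespace Cfsg.Agent.S2856

open CL.Amalg


/-- Let (M₁, M₂) be an amalgam pair in X satisfying the rank-two standing hypothesis (characteristic p, the normalizers in M₁ and in M₂ of a Sylow p-subgroup of M₁ ∩ M₂ equal and contained in M₁ ∩ M₂, and strongly p-embedded residues), λ a vertex of the coset graph, L_λ the subgroup of its stabilizer generated by the p-elements, Q_λ = O_p of the stabilizer, O^p(L_λ) the subgroup of L_λ generated by its elements of order prime to p, and V_λ^{(k)} the subgroup generated by the Z_μ over the vertices μ at distance at most k from λ (Z_μ being generated by the Ω₁(Z(S)), S a Sylow p-subgroup of the stabilizer of μ). If n ≥ 1 and V_λ^{(n)} ≤ Q_λ, then O^p(L_λ) does not centralize V_λ^{(n)}/[V_λ^{(n)}, Q_λ], that is, [V_λ^{(n)}, O^p(L_λ)] is not contained in [V_λ^{(n)}, Q_λ]. -/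
theorem result {X : Type*} [Group X] {p : ℕ} [Fact p.Prime] (M₁ M₂ : Subgroup X) (h : Cfsg.IsSpeAmalgamPair p M₁ M₂) (lam : Cfsg.CosetVertex M₁ M₂) (n : ℕ) (hn : 1 ≤ n) (V : Subgroup X) (hV : V = Cfsg.vertexVIter p M₁ M₂ n lam) (hVQ : V ≤ Cfsg.vertexQ p lam) : ¬ ⁅V, ((Cfsg.pResidual p ↥(Cfsg.pElementClosure p (MulAction.stabilizer X lam))).map (Cfsg.pElementClosure p (MulAction.stabilizer X lam)).subtype)⁆ ≤ ⁅V, Cfsg.vertexQ p lam⁆ := by
  intro hc
  obtain ⟨m, rfl⟩ : ∃ m, n = m + 1 := ⟨n - 1, by omega⟩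
  obtain ⟨μ, hμ⟩ := exists_adj lam
  set U := Cfsg.vertexVIter p M₁ M₂ m μ with hU
  have hUV : U ≤ V := hV ▸ vertexVIter_le_succ_of_adj h.1.1.1 hμ m
  have hVn : MulAction.stabilizer X lam ≤ Subgroup.normalizer (V : Set X) :=
    hV ▸ stabilizer_le_normalizer_vertexVIter _ _
  have hC : MulAction.stabilizer X lam ≤
      Subgroup.normalizer ((⁅V, Cfsg.vertexQ p lam⁆ : Subgroup X) : Set X) :=
    le_normalizer_commutator hVn (le_normalizer_pCoreOf _)
  have hCV : ⁅V, Cfsg.vertexQ p lam⁆ ≤ V :=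
    commutator_le_left_of_le_normalizer ((pCoreOf_le' _).trans hVn)
  have hL : Cfsg.pElementClosure p (MulAction.stabilizer X lam) ≤
      Subgroup.normalizer ((U ⊔ ⁅V, Cfsg.vertexQ p lam⁆ : Subgroup X) : Set X) := by
    refine pElementClosure_le_normalizer h.1 hμ (le_normalizer_sup
      (inf_le_right.trans (stabilizer_le_normalizer_vertexVIter _ _)) (inf_le_left.trans hC)) ?_
    refine le_normalizer_of_commutator_le ?_
    exact (Subgroup.commutator_mono (sup_le hUV hCV) le_rfl).trans (hc.trans le_sup_right)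
  have hVU : V ≤ U ⊔ ⁅V, Cfsg.vertexQ p lam⁆ := by
    conv_lhs => rw [hV]
    refine vertexVIter_succ_le h.1 fun ν hν => ?_
    obtain ⟨g, hg, rfl⟩ := spe_pElementClosure_transitive h hμ hν
    rw [vertexVIter_smul, ← mem_normalizer_iff_map_conj.1 (hL hg)]
    exact Subgroup.map_mono le_sup_left
  have := charP_finite h.1 lam
  have : Finite (Cfsg.vertexQ p lam) := finite_of_le (pCoreOf_le' _)
  have hVU' : V ≤ U := le_of_le_sup_commutator (isPGroup_pCoreOf' _).isNilpotent hVQ
    ((vertexQ_le_of_adj h.1 hμ).trans (stabilizer_le_normalizer_vertexVIter _ _)) hVU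
  have hUV' : U = V := le_antisymm hUV hVU'
  apply vertexVIter_ne_bot h.1 m μ
  refine eq_bot_of_normalized h.1.1 hμ U
    (hUV.trans (hVQ.trans (le_inf (pCoreOf_le' _) (vertexQ_le_of_adj h.1 hμ)))) ?_
    (stabilizer_le_normalizer_vertexVIter _ _)
  rw [hUV']
  exact hVn

end Cfsg.Agent.S2856
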