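import Cfsg.Statements.S2857
import Cfsg.Agent.TECH.AmalgamV

set_option autoImplicit false
open Cfsg

namespace Cfsg.Agent.S2857

open CL.Amalg


/-- Let (M₁, M₂) be an amalgam pair in X satisfying the rank-two standing hypothesis (characteristic p, the normalizers in M₁ and in M₂ of a Sylow p-subgroup of M₁ ∩ M₂ equal and contained in M₁ ∩ M₂, and strongly p-embedded residues), λ a vertex of the coset graph, L_λ the subgroup of its stabilizer generated by the p-elements, Q_λ = O_p of the stabilizer, O^p(L_λ) the subgroup of L_λ generated by its elements of order prime to p, and V_λ^{(k)} the subgroup generated by the Z_μ over the vertices μ at distance at most k from λ (Z_μ being generated by the Ω₁(Z(S)), S a Sylow p-subgroup of the stabilizer of μ). If n ≥ 2 and V_λ^{(n)} ≤ Q_λ, then O^p(L_λ) does not centralize V_λ^{(n)}/V_λ^{(n-2)}, that is, [V_λ^{(n)}, O^p(L_λ)] is not contained in V_λ^{(n-2)}. -/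
theorem result {X : Type*} [Group X] {p : ℕ} [Fact p.Prime] (M₁ M₂ : Subgroup X) (h : Cfsg.IsSpeAmalgamPair p M₁ M₂) (lam : Cfsg.CosetVertex M₁ M₂) (n : ℕ) (hn : 2 ≤ n) (hVQ : Cfsg.vertexVIter p M₁ M₂ n lam ≤ Cfsg.vertexQ p lam) : ¬ ⁅Cfsg.vertexVIter p M₁ M₂ n lam, ((Cfsg.pResidual p ↥(Cfsg.pElementClosure p (MulAction.stabilizer X lam))).map (Cfsg.pElementClosure p (MulAction.stabilizer X lam)).subtype)⁆ ≤ Cfsg.vertexVIter p M₁ M₂ (n - 2) lam := by
  intro hc
  obtain ⟨m, rfl⟩ : ∃ m, n = m + 2 := ⟨n - 2, by omega⟩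
  obtain ⟨μ, hμ⟩ := exists_adj lam
  have hUV : Cfsg.vertexVIter p M₁ M₂ (m + 1) μ ≤ Cfsg.vertexVIter p M₁ M₂ (m + 2) lam :=
    vertexVIter_le_succ_of_adj h.1.1.1 hμ (m + 1)
  have hWU : Cfsg.vertexVIter p M₁ M₂ m lam ≤ Cfsg.vertexVIter p M₁ M₂ (m + 1) μ :=
    vertexVIter_le_succ_of_adj h.1.1.1 hμ.symm m
  apply vertexVIter_ne_bot h.1 (m + 1) μ
  refine spe_eq_bot h hμ _
    (hUV.trans (hVQ.trans (le_inf (pCoreOf_le' _) (vertexQ_le_of_adj h.1 hμ)))) ?_
    ((pElementClosure_le _).trans (stabilizer_le_normalizer_vertexVIter _ _))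
  refine pElementClosure_le_normalizer h.1 hμ
    (inf_le_right.trans (stabilizer_le_normalizer_vertexVIter _ _)) ?_
  refine le_normalizer_of_commutator_le ?_
  exact (Subgroup.commutator_mono hUV le_rfl).trans (hc.trans hWU)

end Cfsg.Agent.S2857
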