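import Cfsg.Statements.S3084
import Mathlib
import Cfsg.Agent.SPOR.ES2

set_option autoImplicit false
open Cfsg

namespace Cfsg.Agent.S3084

open Matrix

/-- The sign of an element of the field with two elements. -/
noncomputable def sg (x : ZMod 2) : ℝ := if x = 0 then 1 else -1

theorem sg_add (x y : ZMod 2) : sg (x + y) = sg x * sg y := by
  revert x y
  simp +decide [ZMod, Fin.forall_fin_two, sg]

theorem sg_zero : sg 0 = 1 := if_pos rfl

theorem sg_mul_self (x : ZMod 2) : sg x * sg x = 1 := by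
  rw [← sg_add, CharTwo.add_self_eq_zero, sg_zero]

theorem sg_ne (x : ZMod 2) : sg x ≠ 0 := left_ne_zero_of_mul_eq_one (sg_mul_self x)

theorem sg_inj {x y : ZMod 2} (h : sg x = sg y) : x = y := by
  revert x y
  simp +decide [ZMod, Fin.forall_fin_two, sg]
  norm_num

section
variable {U : Type*} [AddCommGroup U] [Module (ZMod 2) U] [Fintype U] [DecidableEq U]
  {β : U →ₗ[ZMod 2] U →ₗ[ZMod 2] ZMod 2}

omit [Fintype U] [DecidableEq U] in
theorem two (u : U) : u + u = 0 := by
  rw [← two_smul (ZMod 2), show (2 : ZMod 2) = 0 from rfl, zero_smul]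

/-- Left multiplication in the twisted group algebra. -/
noncomputable def E (β : U →ₗ[ZMod 2] U →ₗ[ZMod 2] ZMod 2) (u : U) : Matrix U U ℝ :=
  of fun a b => if a = u + b then sg (β u b) else 0

omit [Fintype U] in
theorem E_apply (u a b : U) : E β u a b = if a = u + b then sg (β u b) else 0 := rfl

theorem mul_E (M : Matrix U U ℝ) (u a b : U) : (M * E β u) a b = M a (u + b) * sg (β u b) := by
  simp [mul_apply, E]

theorem E_mul (M : Matrix U U ℝ) (u a b : U) :
    (E β u * M) (u + a) b = sg (β u a) * M a b := by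
  simp [mul_apply, E]

theorem E_mul_E (u v : U) : E β u * E β v = sg (β u v) • E β (u + v) := by
  ext a b
  simp [mul_E, E_apply, sg_add, add_assoc, mul_assoc]

omit [Fintype U] in
theorem E_zero : E β 0 = 1 := by
  ext a b
  simp [E, one_apply, sg_zero]

omit [Fintype U] in
theorem E_transpose (u : U) : (E β u)ᵀ = sg (β u u) • E β u := by
  ext a b
  simp only [E_apply, transpose_apply, Matrix.smul_apply, smul_eq_mul]
  by_cases h : a = u + b
  · rw [if_pos h, h, if_pos (by rw [← add_assoc, two, zero_add]), map_add, sg_add]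
  · rw [if_neg h, if_neg (fun h' => h (by rw [h', ← add_assoc, two, zero_add])), mul_zero]

theorem E_comm (u v : U) : E β u * E β.flip v = E β.flip v * E β u := by
  ext a b
  simp [mul_E, E_apply, sg_add, add_left_comm, mul_comm, mul_left_comm, mul_assoc]

theorem E_sq (u : U) : E β u * E β u = sg (β u u) • 1 := by rw [E_mul_E, two, E_zero]

theorem key (hB : ∀ w, (∀ u, β u w + β w u = 0) → w = 0) {M : Matrix U U ℝ} (h0 : M ≠ 0)
    (hF : ∀ v, M * E β.flip v = E β.flip v * M) {s : U → ZMod 2}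
    (hE : ∀ u, M * E β u = sg (s u) • (E β u * M)) :
    ∃ w, ∃ c : ℝ, M = c • E β w ∧ ∀ u, s u = β u w + β w u := by
  have h1 : ∀ v a, M (v + a) v = sg (β a v) * M a 0 := fun v a => by
    simpa [mul_E, E_mul, sg_zero] using congrFun₂ (hF v) (v + a) 0
  have h2 : ∀ a, M a 0 ≠ 0 → ∀ u, s u = β u a + β a u := fun a ha u => by
    have := congrFun₂ (hE u) (u + a) 0
    simp only [mul_E, E_mul, add_zero, map_zero, sg_zero, mul_one, Matrix.smul_apply, smul_eq_mul, h1,
      ← mul_assoc, ← sg_add] at this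
    rw [sg_inj (mul_right_cancel₀ ha this), add_left_comm, CharTwo.add_self_eq_zero, add_zero]
  have h3 : ∀ a b, M a b = sg (β (b + a) b) * M (b + a) 0 := fun a b => by
    rw [← h1, ← add_assoc, two, zero_add]
  obtain ⟨w, hw⟩ : ∃ w, M w 0 ≠ 0 := by
    by_contra! h
    exact h0 (by ext a b; rw [h3, h, mul_zero, Matrix.zero_apply])
  refine ⟨w, M w 0, ?_, h2 w hw⟩
  ext a b
  simp only [E_apply, Matrix.smul_apply, smul_eq_mul]
  split_ifs with h
  · rw [h, add_comm, h1, mul_comm]
  · rw [h3, mul_zero, mul_eq_zero]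
    refine Or.inr (by_contra fun h4 => h ?_)
    have := hB (b + a + w) fun u => by
      rw [map_add (β u) _ w, map_add β _ w, LinearMap.add_apply, add_add_add_comm, ← h2 _ h4,
        ← h2 w hw, CharTwo.add_self_eq_zero]
    linear_combination (norm := abel1) this - two b - two w

theorem lift (hB : ∀ w, (∀ u, β u w + β w u = 0) → w = 0) (k : U →ₗ[ZMod 2] U)
    (hk : ∀ u, β (k u) (k u) = β u u) : ∃ g : Matrix U U ℝ, gᵀ * g = 1 ∧
      (∀ v, g * E β.flip v = E β.flip v * g) ∧
        ∀ u, ∃ x, g * E β u = sg x • (E β (k u) * g) := by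
  have hp : ∀ u v, β (k u) (k v) + β (k v) (k u) = β u v + β v u := fun u v => by
    have := hk (u + v)
    simp only [map_add, LinearMap.add_apply, hk] at this
    linear_combination this
  obtain ⟨g, h0, hF, hE⟩ : ∃ g : Matrix U U ℝ, g ≠ 0 ∧ (∀ v, g * E β.flip v = E β.flip v * g) ∧
      ∀ u ∈ Finset.univ, ∃ x, g * E β u = sg x • (E β (k u) * g) := by
    induction (Finset.univ : Finset U) using Finset.induction with
    | empty => exact ⟨1, one_ne_zero, by simp, by simp⟩
    | insert u s _ ih =>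
      obtain ⟨g, h0, hF, hE⟩ := ih
      by_cases h : g + E β (k u) * g * E β u = 0
      · refine ⟨g, h0, hF, Finset.forall_mem_insert .. |>.2 ⟨⟨1 + β u u, ?_⟩, hE⟩⟩
        have h1 := congrArg (· * E β u) (eq_neg_of_add_eq_zero_left h)
        simp only [neg_mul, mul_assoc _ (E β u), E_sq] at h1
        simp [h1, sg_add, show sg 1 = -1 from if_neg one_ne_zero]
      · refine ⟨_, h, fun v => ?_, Finset.forall_mem_insert .. |>.2 ⟨⟨β u u, ?_⟩, fun v hv => ?_⟩⟩
        · rw [add_mul, mul_add, hF, mul_assoc, E_comm, ← mul_assoc, mul_assoc _ g, hF, ← mul_assoc,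
            E_comm, mul_assoc, mul_assoc, mul_assoc]
        · simp [add_mul, mul_add, ← mul_assoc, E_sq, hk, mul_assoc _ (E β u), smul_smul,
            sg_mul_self, add_comm]
        · obtain ⟨x, hx⟩ := hE v hv
          have h1 : ∀ a b, E β a * E β b = sg (β a b + β b a) • (E β b * E β a) := fun a b => by
            rw [E_mul_E, E_mul_E, smul_smul, ← sg_add, add_assoc, CharTwo.add_self_eq_zero, add_zero,
              add_comm]
          refine ⟨x, ?_⟩
          rw [add_mul, mul_add, smul_add, hx, mul_assoc, h1 u v, mul_smul_comm, ← mul_assoc,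
            mul_assoc _ g, hx, mul_smul_comm, ← mul_assoc, h1 (k u), hp]
          simp [smul_smul, mul_assoc, mul_left_comm, sg_mul_self]
  obtain ⟨w, c, hc, hw⟩ := key hB (M := gᵀ * g) (mt conjTranspose_mul_self_eq_zero.1 h0)
    (s := 0) (fun v => by
      have := congrArg transpose (hF v)
      simp only [transpose_mul, E_transpose, smul_mul_assoc, mul_smul_comm] at this
      rw [mul_assoc, hF, ← mul_assoc, ← smul_right_injective _ (sg_ne _) this, mul_assoc])
    fun u => by
      obtain ⟨x, hx⟩ := hE u (Finset.mem_univ u)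
      have := congrArg transpose hx
      simp only [transpose_mul, E_transpose, smul_mul_assoc, mul_smul_comm, transpose_smul, hk,
        smul_comm (sg x)] at this
      rw [mul_assoc, hx, ← mul_assoc (E β u), smul_right_injective _ (sg_ne _) this]
      simp [sg_zero, mul_assoc]
  rw [hB w fun u => (hw u).symm, E_zero] at hc
  have h1 : 0 ≤ c := by
    have := congrFun₂ hc 0 0
    simp only [mul_apply, transpose_apply, Matrix.smul_apply, one_apply_eq, smul_eq_mul, mul_one] at this
    exact this ▸ Finset.sum_nonneg fun _ _ => mul_self_nonneg _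
  have h2 : c ≠ 0 := fun h => h0 (conjTranspose_mul_self_eq_zero.1 (hc.trans (by simp [h])))
  refine ⟨(√c)⁻¹ • g, ?_, fun v => by simp [hF], fun u => (hE u (Finset.mem_univ u)).imp
    fun x hx => by simp [hx, smul_comm (sg x)]⟩
  rw [transpose_smul, smul_mul_smul_comm, hc, smul_smul, ← mul_inv, Real.mul_self_sqrt h1,
    inv_mul_cancel₀ h2, one_smul]

theorem core (hB : ∀ w, (∀ u, β u w + β w u = 0) → w = 0) {K : Type*} [Group K]
    (ρ : Representation (ZMod 2) K U) (hk : ∀ k u, β (ρ k u) (ρ k u) = β u u) :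
    ∃ (R : Subgroup (orthogonalGroup U ℝ × K)) (f : ZMod 2 → U → R),
      Function.Surjective ((MonoidHom.snd _ _).comp R.subtype) ∧
      (∀ x u y v, f x u * f y v = f (x + y + β u v) (u + v)) ∧
      (∀ x u y v, f x u = f y v → x = y ∧ u = v) ∧ (∀ a : R, a.1.2 = 1 ↔ ∃ x u, a = f x u) ∧
      ∀ r x u, ∃ y, r * f x u = f y (ρ r.1.2 u) * r := by
  let R : Subgroup (orthogonalGroup U ℝ × K) :=
    { carrier := {a | (∀ v, a.1.1 * E β.flip v = E β.flip v * a.1.1) ∧
        ∀ u, ∃ x, a.1.1 * E β u = sg x • (E β (ρ a.2 u) * a.1.1)}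
      one_mem' := ⟨by simp, fun u => ⟨0, by simp [sg_zero]⟩⟩
      mul_mem' := fun {a b} ha hb => ⟨fun v => by
          rw [Prod.fst_mul, Submonoid.coe_mul, mul_assoc, hb.1, ← mul_assoc, ha.1, mul_assoc],
        fun u => by
          obtain ⟨x, hx⟩ := hb.2 u
          obtain ⟨y, hy⟩ := ha.2 (ρ b.2 u)
          exact ⟨x + y, by simp [mul_assoc, hx, hy, ← mul_assoc a.1.1, smul_smul, sg_add]⟩⟩
      inv_mem' := fun {a} ha => by
        have h1 : ∀ {X Y : Matrix U U ℝ}, a.1.1 * X = Y * a.1.1 → a⁻¹.1.1 * Y = X * a⁻¹.1.1 :=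
          fun {X Y} h => by
            rw [← mul_one (_ * Y), ← Submonoid.coe_one (orthogonalGroup U ℝ), ← mul_inv_cancel a.1,
              Submonoid.coe_mul, ← mul_assoc, mul_assoc _ Y, ← h, ← mul_assoc, Prod.fst_inv,
              ← Submonoid.coe_mul, inv_mul_cancel, Submonoid.coe_one, one_mul]
        refine ⟨fun v => h1 (ha.1 v), fun u => (ha.2 (ρ a.2⁻¹ u)).imp fun x hx => ?_⟩
        rw [← smul_mul_assoc, ρ.self_inv_apply] at hx
        rw [Prod.snd_inv, ← h1 hx, mul_smul_comm, smul_smul, sg_mul_self, one_smul] }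
  have h1 : ∀ a b, E β a * E β b = sg (β a b + β b a) • (E β b * E β a) := fun a b => by
    rw [E_mul_E, E_mul_E, smul_smul, ← sg_add, add_assoc, CharTwo.add_self_eq_zero, add_zero,
      add_comm]
  refine ⟨R, fun x u => ⟨(⟨sg x • E β u, (mem_orthogonalGroup_iff' _ _).2 ?_⟩, 1),
    fun v => by simp [E_comm], fun v => ⟨β u v + β v u, by simp [h1 u v, smul_comm (sg x)]⟩⟩,
    fun k => ?_, fun x u y v => Subtype.ext (Prod.ext (Subtype.ext ?_) (mul_one 1)),
    fun x u y v h => ?_, fun a => ⟨fun h => ?_, ?_⟩, fun r x u => ?_⟩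
  · simp [E_transpose, E_sq, smul_smul, sg_mul_self, mul_assoc]
  · obtain ⟨g, h2, h3⟩ := lift hB (ρ k) (hk k)
    exact ⟨⟨(⟨g, (mem_orthogonalGroup_iff' _ _).2 h2⟩, k), h3⟩, rfl⟩
  · simp [E_mul_E, smul_smul, sg_add, mul_assoc, mul_left_comm]
  · have h2 := congrArg (fun a : R => a.1.1.1 u 0) h
    by_cases h3 : u = v <;> simp [E_apply, sg_zero, sg_ne, h3] at h2
    exact ⟨sg_inj h2, h3⟩
  · choose s hs using a.2.2
    have h2 := (mem_orthogonalGroup_iff' _ _).1 a.1.1.2
    obtain ⟨w, c, hc, -⟩ := key hB (fun h => by simp [h] at h2) a.2.1 (s := s)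
      (by simpa [h] using hs)
    have h3 := congrFun₂ h2 0 0
    simp only [hc, transpose_smul, E_transpose, smul_mul_assoc, mul_smul_comm, E_sq, smul_smul,
      sg_mul_self, mul_assoc, mul_one, Matrix.smul_apply, one_apply_eq, smul_eq_mul] at h3
    obtain rfl | rfl := mul_self_eq_one_iff.1 h3
    · exact ⟨0, w, Subtype.ext (Prod.ext (Subtype.ext (by simp [hc, sg])) h)⟩
    · exact ⟨1, w, Subtype.ext (Prod.ext (Subtype.ext (by simp [hc, sg])) h)⟩
  · rintro ⟨x, u, rfl⟩
    rfl
  · obtain ⟨y, hy⟩ := r.2.2 u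
    exact ⟨x + y, Subtype.ext (Prod.ext (Subtype.ext (by simp [hy, smul_smul, sg_add])) (by simp))⟩

end

/-- Let K be a group acting faithfully and linearly on a finite-dimensional vector space U of dimension 2n ≥ 2 over the field with two elements, preserving a quadratic form q whose polar bilinear form is non-degenerate and which vanishes on some n-dimensional subspace (a non-singular form of plus type). Then there is a finite group R with a normal extraspecial 2-subgroup Q of order 2^(2n+1), an isomorphism of R/Q with K, and a surjective homomorphism χ from Q onto (the additive group of) U with kernel the centre of Q, such that χ carries conjugation by any r in R to the action of the image of r in K, and an element a of Q squares to the identity exactly when q vanishes at χ(a). -/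
theorem result {K : Type*} [Group K] {U : Type*} [AddCommGroup U] [Module (ZMod 2) U] [Module.Finite (ZMod 2) U] (n : ℕ) (hn1 : 1 ≤ n) (hn : Module.finrank (ZMod 2) U = 2 * n) (ρ : Representation (ZMod 2) K U) (hρ : Function.Injective ρ) (q : QuadraticForm (ZMod 2) U) (hq : ∀ (k : K) (u : U), q (ρ k u) = q u) (hnd : (QuadraticMap.polarBilin q).Nondegenerate) (hplus : ∃ W : Submodule (ZMod 2) U, Module.finrank (ZMod 2) ↥W = n ∧ ∀ w ∈ W, q w = 0) : ∃ (R : Type) (_ : Group R) (_ : Finite R) (Q : Subgroup R) (hN : Q.Normal) (e : R ⧸ Q ≃* K) (χ : ↥Q →* Multiplicative U), Cfsg.IsExtraspecial 2 ↥Q ∧ Nat.card ↥Q = 2 ^ (2 * n + 1) ∧ Function.Surjective χ ∧ χ.ker = Subgroup.center ↥Q ∧ (∀ (r : R) (a : ↥Q), χ ⟨r * a * r⁻¹, hN.conj_mem (a : R) a.2 r⟩ = Multiplicative.ofAdd (ρ (e (r : R ⧸ Q)) (Multiplicative.toAdd (χ a)))) ∧ ∀ a : ↥Q, a * a = 1 ↔ q (Multiplicative.toAdd (χ a)) = 0 := by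
  classical
  have : Finite U := Module.finite_of_finite (ZMod 2)
  have := Fintype.ofFinite U
  have : Finite (U →ₗ[ZMod 2] U) := Finite.of_injective _ DFunLike.coe_injective
  have : Finite K := Finite.of_injective _ hρ
  obtain ⟨β, hβ⟩ : ∃ β : U →ₗ[ZMod 2] U →ₗ[ZMod 2] ZMod 2, ∀ u, β u u = q u :=
    ⟨_, fun u => congr($(q.toQuadraticMap_toBilin (Module.finBasis _ _)) u)⟩
  have hB : ∀ w, (∀ u, β u w + β w u = 0) → w = 0 := fun w h => hnd.1 w fun u => by
    simp only [QuadraticMap.polarBilin_apply_apply, QuadraticMap.polar, ← hβ, map_add,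
      LinearMap.add_apply]
    linear_combination h u
  obtain ⟨R, _, _, π, f, h1, h2, h3, h4, h5⟩ : ∃ (R : Type) (_ : Group R) (_ : Finite R)
      (π : R →* K) (f : ZMod 2 → U → R), Function.Surjective π ∧
      (∀ x u y v, f x u * f y v = f (x + y + β u v) (u + v)) ∧
      (∀ x u y v, f x u = f y v → x = y ∧ u = v) ∧ (∀ a : R, π a = 1 ↔ ∃ x u, a = f x u) ∧
      ∀ r x u, ∃ y, r * f x u = f y (ρ (π r) u) * r := by
    obtain ⟨R, f, h1, h2, h3, h4, h5⟩ := core hB ρ fun k u => by rw [hβ, hβ, hq]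
    have : Finite R := ((MonoidHom.snd _ _).comp R.subtype).finite_iff_finite_ker_range.2
      ⟨Finite.of_surjective (fun a : ZMod 2 × U => ⟨f a.1 a.2, (h4 _).2 ⟨_, _, rfl⟩⟩) fun a => by
        obtain ⟨x, u, h⟩ := (h4 _).1 a.2
        exact ⟨(x, u), Subtype.ext h.symm⟩, inferInstance⟩
    let e : Shrink.{0} R ≃* R := Shrink.mulEquiv
    exact ⟨Shrink R, inferInstance, inferInstance, ((MonoidHom.snd _ _).comp R.subtype).comp e,
      fun x u => e.symm (f x u), h1.comp e.surjective, fun x u y v => by rw [← map_mul, h2],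
      fun x u y v h => h3 _ _ _ _ (e.symm.injective h),
      fun a => (h4 (e a)).trans (by simp only [e.eq_symm_apply]),
      fun r x u => (h5 (e r) x u).imp fun y hy => e.injective (by simpa using hy)⟩
  choose s t hst using fun a : π.ker => (h4 a).1 a.2
  have hm : ∀ x u, f x u ∈ π.ker := fun x u => (h4 _).2 ⟨x, u, rfl⟩
  have ht : ∀ (a : π.ker) x u, a = f x u → t a = u := fun a x u h =>
    (h3 _ _ _ _ ((hst a).symm.trans h)).2
  have h0 : f 0 0 = 1 := mul_left_cancel (a := f 0 0) (by simp [h2])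
  have hc : ∀ a : π.ker, (∀ y ∈ π.ker, a * y = y * a) ↔ t a = 0 := fun a =>
    ⟨fun h => hB _ fun u => by
      have := h _ (hm 0 u)
      rw [hst, h2, h2] at this
      linear_combination (h3 _ _ _ _ this).1 + CharTwo.add_self_eq_zero (β u (t a)), fun h y hy => by
      obtain ⟨x, u, rfl⟩ := (h4 y).1 hy
      simp [hst, h2, h, add_comm]⟩
  have hz : ∀ x, f x 0 = 1 ∨ f x 0 = f 1 0 := fun x => by
    fin_cases x
    exacts [Or.inl h0, Or.inr rfl]
  have hE : CL.LX.ES π.ker (f 1 0) :=
    { z_mem := hm _ _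
      z_ne := fun h => one_ne_zero (h3 _ _ _ _ (h.trans h0.symm)).1
      z_sq := by simpa [h2, CharTwo.add_self_eq_zero] using h0
      z_comm := fun x hx => ((hc ⟨_, hm 1 0⟩).2 (ht _ _ _ rfl) x hx).symm
      cent := fun x hx h => by
        have h6 := hst ⟨x, hx⟩
        rw [(hc ⟨x, hx⟩).1 h] at h6
        exact (hz _).imp h6.trans h6.trans
      comm := fun a ha b hb => by
        obtain ⟨x, u, rfl⟩ := (h4 a).1 ha
        obtain ⟨y, v, rfl⟩ := (h4 b).1 hb
        simp only [h2, map_zero, add_zero, add_comm v, add_comm y]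
        generalize β u v = c
        generalize β v u = d
        generalize x + y = e
        exact (by decide : ∀ c d e : ZMod 2, e + c = e + d ∨ e + c = e + d + 1) c d e |>.imp
          (fun h => by rw [h]) fun h => by rw [h]
      sq := fun a ha => by
        obtain ⟨x, u, rfl⟩ := (h4 a).1 ha
        rw [h2, two u]
        exact hz _
      nonab := by
        have : Nontrivial U := Module.nontrivial_of_finrank_pos (R := ZMod 2) (by omega)
        obtain ⟨u, hu⟩ := exists_ne (0 : U)
        by_contra! h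
        exact hu ((ht ⟨_, hm 0 u⟩ _ _ rfl).symm.trans ((hc _).1 (h _ (hm 0 u)))) }
  refine ⟨R, inferInstance, inferInstance, π.ker, inferInstance,
    QuotientGroup.quotientKerEquivOfSurjective π h1, MonoidHom.mk' (fun a => .ofAdd (t a))
      fun a b => congrArg Multiplicative.ofAdd (ht _ _ (t a + t b)
        (by rw [Subgroup.coe_mul, hst a, hst b, h2])),
    hE.isExtraspecial, ?_, fun u => ⟨⟨_, hm 0 u.toAdd⟩, ht _ _ _ rfl⟩, ?_,
    fun r a => ?_, fun a => ?_⟩
  · rw [← Nat.card_eq_of_bijective (fun a : ZMod 2 × U => (⟨_, hm a.1 a.2⟩ : π.ker))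
      ⟨fun a b h => Prod.ext_iff.2 (h3 _ _ _ _ (congrArg Subtype.val h)),
        fun a => ⟨(s a, t a), Subtype.ext (hst a).symm⟩⟩, Nat.card_prod,
      Module.natCard_eq_pow_finrank (K := ZMod 2) (V := U), Nat.card_zmod, hn, pow_succ']
  · ext a
    exact ((hc a).symm.trans ⟨fun h => Subgroup.mem_center_iff.2 fun y =>
      Subtype.ext (h y y.2).symm, fun h y hy =>
        (congrArg Subtype.val (Subgroup.mem_center_iff.1 h ⟨y, hy⟩)).symm⟩)
  · obtain ⟨y, hy⟩ := h5 r (s a) (t a)
    exact congrArg Multiplicative.ofAdd (ht _ y _ (by rw [Subgroup.coe_mk, hst a, hy, mul_inv_cancel_right]; rfl))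
  · rw [Subtype.ext_iff, Subgroup.coe_mul, hst a, h2, two (t a), CharTwo.add_self_eq_zero, zero_add, hβ,
      Subgroup.coe_one, ← h0]
    exact ⟨fun h => (h3 _ _ _ _ h).1, fun h => congrArg (f · 0) h⟩

end Cfsg.Agent.S3084
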