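import Cfsg.Statements.S3085
import Cfsg.Agent.PLOC.ESAut

set_option autoImplicit false
open Cfsg

namespace Cfsg.Agent.S3085

open QuadraticMap CL.Orth

theorem aux {Q : Type*} [Group Q] [Finite Q] {z : Q} (h : CL.ES.ZData 2 Q z)
    (hc : Subgroup.center Q = Subgroup.zpowers z) (L : Subgroup (MulAut Q))
    (hL : (Cfsg.Inn Q).IsComplement' L) {x : Q} (hx : x ^ 2 = z) :
    ∃ l : MulAut Q, l x = x * z ∧ l z = z ∧
      (∀ a, polar h.Q (h.pr x) (h.pr a) = 0 → l a = a ∨ l a = a * z) ∧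
      ∀ y c, h.Q (h.pr y) = 0 → polar h.Q (h.pr x) (h.pr y) = 0 →
        polar h.Q (h.pr x) (h.pr c) = 0 → polar h.Q (h.pr y) (h.pr c) = 1 → l y ≠ y := by
  have hsurj : ∀ g, ∃ l ∈ L, h.autO hc l = g := fun g => by
    obtain ⟨φ, rfl⟩ := h.autO_surjective hc g
    obtain ⟨⟨i, l⟩, rfl⟩ := hL.2 φ
    refine ⟨l, l.2, ?_⟩
    have : h.autO hc i = 1 := by rw [← MonoidHom.mem_ker, h.ker_autO hc]; exact i.2
    simp [this]
  have hinj : ∀ l ∈ L, ∀ l' ∈ L, h.autO hc l = h.autO hc l' → l = l' := fun l hl l' hl' e => by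
    have h1 : l⁻¹ * l' ∈ Cfsg.Inn Q := by
      rw [Cfsg.Inn, ← h.ker_autO hc, MonoidHom.mem_ker, map_mul, map_inv, e, inv_mul_cancel]
    exact inv_mul_eq_one.mp (Subgroup.disjoint_def.mp hL.disjoint h1 (L.mul_mem (L.inv_mem hl) hl'))
  obtain ⟨l, hlL, hl⟩ := hsurj (refl h.Q (h.pr x))
  have hl2 : l * l = 1 := hinj _ (L.mul_mem hlL hlL) _ L.one_mem (by
    rw [map_mul, hl, refl_mul_self, map_one])
  have hlx := h.apply_eq_of_refl hc hx hl hl2
  have hlz := h.aut_apply_two hc l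
  have hzc := Subgroup.mem_center_iff.mp h.central
  have hzz := h.mul_self_two
  have hQx := h.Q_pr_eq_one_iff.mpr hx
  have hxx : polar h.Q (h.pr x) (h.pr x) = 0 := by rw [h.polar_Q]; exact h.B_isAlt _
  have hfix : ∀ a, polar h.Q (h.pr x) (h.pr a) = 0 → l a = a ∨ l a = a * z := fun a ha =>
    h.pr_eq_iff_two.mp (by rw [← h.autO_pr hc, hl, refl_of_polar_eq_zero ha])
  refine ⟨l, hlx, hlz, hfix, ?_⟩
  have main : ∀ y c, h.Q (h.pr y) = 0 → polar h.Q (h.pr x) (h.pr y) = 0 →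
      polar h.Q (h.pr x) (h.pr c) = 0 → polar h.Q (h.pr y) (h.pr c) = 1 → l c = c → l y ≠ y := by
    intro y c hy hxy hxc hyc hlc hly
    obtain ⟨m, hmL, hm⟩ := hsurj (refl h.Q (h.pr x + h.pr y))
    have hu : h.Q (h.pr x + h.pr y) = 1 := by rw [Q_add, hQx, hy, hxy, add_zero, add_zero]
    have hcomm : m * l * m⁻¹ = l := hinj _ (L.mul_mem (L.mul_mem hmL hlL) (L.inv_mem hmL)) _ hlL
      (by rw [map_mul, map_mul, map_inv, hm, hl, conj_refl, refl_of_polar_eq_zero]
          rw [polar_add_left, hxx, polar_comm, hxy, add_zero])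
    have h1 : l (m c) = m c := by
      rw [← MulAut.mul_apply, ← mul_inv_eq_iff_eq_mul.mp hcomm, MulAut.mul_apply, hlc]
    have h2 : h.pr (m c) = h.pr (c * (x * y)⁻¹) := by
      rw [← h.autO_pr hc, hm, refl_apply, hu, polar_add_left, hxc, hyc, h.pr_mul, h.pr_inv,
        h.pr_mul, inv_one, one_mul, zero_add, one_smul, sub_eq_add_neg]
    have h3 : l (c * (x * y)⁻¹) = c * (x * y)⁻¹ := by
      rcases h.pr_eq_iff_two.mp h2 with h4 | h4
      · rwa [h4] at h1
      · rwa [h4, map_mul, hlz, mul_left_inj] at h1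
    rw [map_mul, map_inv, map_mul, hlc, hlx, hly, mul_right_inj, inv_inj, mul_left_inj,
      mul_eq_left] at h3
    exact h.ne_one_two h3
  intro y c hy hxy hxc hyc
  rcases hfix c hxc with h1 | h1
  · exact main y c hy hxy hxc hyc h1
  · refine main y (c * x) hy hxy ?_ ?_ ?_
    · rw [h.pr_mul, polar_add_right, hxc, hxx, add_zero]
    · rw [h.pr_mul, polar_add_right, hyc, polar_comm, hxy, add_zero]
    · rw [map_mul, h1, hlx, mul_assoc c z, ← mul_assoc z, ← hzc, mul_assoc x, hzz, mul_one]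

/-- Let Q be an extraspecial 2-group of order 2^(2n+1) with n ≥ 3 that is of plus type (it contains an elementary abelian subgroup of order 2^(n+1)). Then the group of inner automorphisms of Q has no complement in the full automorphism group of Q: the extension of the inner automorphism group (elementary abelian of order 2^(2n)) by the outer automorphism group (the orthogonal group of plus type) does not split. -/
theorem result {Q : Type*} [Group Q] [Finite Q] (n : ℕ) (hn : 3 ≤ n) (hQ : Cfsg.IsExtraspecial 2 Q) (hcard : Nat.card Q = 2 ^ (2 * n + 1)) (hplus : ∃ E : Subgroup Q, Cfsg.IsElementaryAbelian 2 E ∧ Nat.card ↥E = 2 ^ (n + 1)) (L : Subgroup (MulAut Q)) : ¬ (Cfsg.Inn Q).IsComplement' L := by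
  intro hL
  obtain ⟨z, h, hc, -⟩ := CL.ES.exists_zdata hQ
  have hd := h.finrank_eq_of_card hcard
  have hpl : IsPlus h.Q := (h.isPlus_iff_not_pRankLE hc hd).mpr fun hr => by
    obtain ⟨A, hA, hc⟩ := hplus
    have := hr A hA.1 hA.2
    rw [hc, Nat.pow_le_pow_iff_right (by norm_num)] at this
    omega
  obtain ⟨φ, hφ⟩ := exists_isometry_QPlus (h.nondegenerate_Q hc) hd hpl
  have hyp := QPlus_hypFam (ZMod 2) n
  have hpol := polar_of_isom (Q := QPlus n (ZMod 2)) (Q' := h.Q) φ.toLinearMap hφ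
  simp only [LinearEquiv.coe_coe] at hpol
  choose e he using fun i : Fin n => h.pr_surjective (φ (Pi.single (Sum.inl i) 1))
  choose f hf using fun i : Fin n => h.pr_surjective (φ (Pi.single (Sum.inr i) 1))
  have Qe : ∀ i, h.Q (h.pr (e i)) = 0 := fun i => by rw [he, hφ, hyp.Qe]
  have Qf : ∀ i, h.Q (h.pr (f i)) = 0 := fun i => by rw [hf, hφ, hyp.Qf]
  have ee : ∀ i j, polar h.Q (h.pr (e i)) (h.pr (e j)) = 0 := fun i j => by
    rw [he, he, hpol, hyp.ee]
  have ff : ∀ i j, polar h.Q (h.pr (f i)) (h.pr (f j)) = 0 := fun i j => by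
    rw [hf, hf, hpol, hyp.ff]
  have ef : ∀ i j, polar h.Q (h.pr (e i)) (h.pr (f j)) = if i = j then 1 else 0 := fun i j => by
    rw [he, hf, hpol, hyp.ef]
  have fe : ∀ i j, polar h.Q (h.pr (f j)) (h.pr (e i)) = if i = j then 1 else 0 := fun i j => by
    rw [polar_comm, ef]
  let a : Fin n := ⟨0, by omega⟩
  let b : Fin n := ⟨1, by omega⟩
  let c : Fin n := ⟨2, by omega⟩
  have ab : a ≠ b := by simp [a, b]
  have ac : a ≠ c := by simp [a, c]
  have bc : b ≠ c := by simp [b, c]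
  have hx : (e a * f a) ^ 2 = z := h.Q_pr_eq_one_iff.mp (by
    rw [h.pr_mul, Q_add, Qe, Qf, ef, if_pos rfl, zero_add, zero_add])
  obtain ⟨l, -, hlz, hfix, hmain⟩ := aux h hc L hL hx
  have h1 := hmain (e b) (f b) (Qe b) (by simp [h.pr_mul, ee, fe, ab.symm])
    (by simp [h.pr_mul, ef, ff, ab]) (by simp [ef])
  have h2 := hmain (e c) (f c) (Qe c) (by simp [h.pr_mul, ee, fe, ac.symm])
    (by simp [h.pr_mul, ef, ff, ac]) (by simp [ef])
  have h3 := hmain (e b * e c) (f b) (by simp [h.pr_mul, Q_add, Qe, ee])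
    (by simp [h.pr_mul, ee, fe, ab.symm, ac.symm])
    (by simp [h.pr_mul, ef, ff, ab]) (by simp [h.pr_mul, ef, bc.symm])
  have h4 := (hfix (e b) (by simp [h.pr_mul, ee, fe, ab.symm])).resolve_left h1
  have h5 := (hfix (e c) (by simp [h.pr_mul, ee, fe, ac.symm])).resolve_left h2
  apply h3
  rw [map_mul, h4, h5, mul_assoc (e b) z, ← mul_assoc z,
    ← Subgroup.mem_center_iff.mp h.central, mul_assoc (e c), h.mul_self_two, mul_one]

end Cfsg.Agent.S3085
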