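import Cfsg.Statements.S3356
import Cfsg.Agent.PERM.ThreeHalf

set_option autoImplicit false
open Cfsg

namespace Cfsg.Agent.S3356

/-- Let G be a finite 3/2-transitive permutation group: G acts faithfully and transitively on a finite set, the point stabilizers are non-trivial, and for each point a all orbits of G_a on the remaining points have the same size. Suppose G has a regular normal subgroup N and G is not a Frobenius group (some two-point stabilizer is non-trivial). Then N is an elementary abelian p-group for some prime p, and every non-trivial normal subgroup of G contains N (so N is the unique minimal normal subgroup). -/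
theorem result {G Ω : Type*} [Group G] [Finite G]
    [MulAction G Ω] [FaithfulSMul G Ω] [Finite Ω] (htrans : MulAction.IsPretransitive G Ω)
    (hne : ∀ a : Ω, MulAction.stabilizer G a ≠ ⊥)
    (hhalf : ∀ a b c : Ω, b ≠ a → c ≠ a →
      Nat.card (MulAction.orbit (MulAction.stabilizer G a) b) = Nat.card (MulAction.orbit (MulAction.stabilizer G a) c))
    (N : Subgroup G) [hN : N.Normal] (hNt : MulAction.IsPretransitive N Ω) (hNr : ∀ a : Ω, MulAction.stabilizer N a = ⊥)
    (hnotF : ∃ a b : Ω, a ≠ b ∧ MulAction.stabilizer G a ⊓ MulAction.stabilizer G b ≠ ⊥) :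
    (∃ p : ℕ, p.Prime ∧ IsMulCommutative N ∧ ∀ x ∈ N, x ^ p = 1) ∧
    (∀ M : Subgroup G, M.Normal → M ≠ ⊥ → N ≤ M) := by
  obtain ⟨a, b, hab, h1⟩ := hnotF
  have h : ∀ a : Ω, CL.ThreeHalf.Half G a := fun a b c hb hc => by
    rw [← CL.SR.ncard_orbit_eq_relIndex, ← CL.SR.ncard_orbit_eq_relIndex]
    exact hhalf a b c hb hc
  have hP := CL.ThreeHalf.isPreprimitive h hab.symm h1
  have hc := fun x y hx hy =>
    CL.ThreeHalf.comm_of_regular (h a) hab.symm h1 N hNt (hNr a) (x := x) (y := y) hx hy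
  have inj : ∀ x ∈ N, x • a = a → x = 1 := fun x hx e => by
    have : (⟨x, hx⟩ : N) ∈ MulAction.stabilizer N a := e
    rw [hNr, Subgroup.mem_bot] at this
    exact congrArg Subtype.val this
  have h2 : ∀ M : Subgroup G, M.Normal → M ≠ ⊥ → N ≤ M := by
    intro M hM hM1
    have h3 : M ⊓ N ≠ ⊥ := fun e => hM1 (eq_bot_iff.2 fun m hm => by
      obtain ⟨n, hn⟩ := hNt.exists_smul_eq a (m • a)
      have h4 : (n : G)⁻¹ * m = 1 := eq_of_smul_eq_smul fun c : Ω => by
        obtain ⟨w, rfl⟩ := hNt.exists_smul_eq a c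
        have h5 := Subgroup.commute_of_normal_of_disjoint M N hM hN (disjoint_iff.2 e) m w hm w.2
        rw [one_smul, Subgroup.smul_def, ← mul_smul, ((hc _ _ n.2 w.2).inv_left.mul_left h5).eq,
          mul_smul, mul_smul, ← hn, Subgroup.smul_def, inv_smul_smul]
      rw [← e]
      exact ⟨hm, inv_mul_eq_one.1 h4 ▸ n.2⟩)
    have ht := hP.isQuasiPreprimitive.isPretransitive_of_normal (N := M ⊓ N) fun e =>
      h3 (CL.ThreeHalf.eq_bot_of_le (Ω := Ω) fun x g hg =>
        (show x ∈ MulAction.fixedPoints ↥(M ⊓ N) Ω from e ▸ Set.mem_univ x) ⟨g, hg⟩)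
    intro n hn
    obtain ⟨m, hm⟩ := ht.exists_smul_eq a (n • a)
    have := inj (n⁻¹ * m) (N.mul_mem (N.inv_mem hn) m.2.2) (by
      rw [mul_smul, inv_smul_eq_iff]; exact hm)
    exact inv_mul_eq_one.1 this ▸ m.2.1
  obtain ⟨n, hn⟩ := hNt.exists_smul_eq a b
  have h3 : Nat.card N ≠ 1 := fun e => hab (by
    rw [← hn, (Nat.card_eq_one_iff_unique.1 e).1.elim n 1, one_smul])
  obtain ⟨p, hp, hpN⟩ := Nat.exists_prime_and_dvd h3
  have := Fact.mk hp
  obtain ⟨x, hx⟩ := exists_prime_orderOf_dvd_card' p hpN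
  let M : Subgroup G :=
    { carrier := {y | y ∈ N ∧ y ^ p = 1}
      one_mem' := ⟨N.one_mem, one_pow p⟩
      mul_mem' := fun hy hz => ⟨N.mul_mem hy.1 hz.1, by
        rw [(hc _ _ hy.1 hz.1).mul_pow, hy.2, hz.2, one_mul]⟩
      inv_mem' := fun hy => ⟨N.inv_mem hy.1, by rw [inv_pow, hy.2, inv_one]⟩ }
  refine ⟨⟨p, hp, ⟨⟨fun y z => Subtype.ext (hc _ _ y.2 z.2).eq⟩⟩, fun y hy => (h2 M
    ⟨fun y hy g => ⟨hN.conj_mem y hy.1 g, by rw [conj_pow, hy.2]; simp⟩⟩ (fun e => ?_) hy).2⟩, h2⟩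
  have h4 : (x : G) ∈ M := ⟨x.2, by rw [← hx, ← Subgroup.coe_pow, pow_orderOf_eq_one]; rfl⟩
  rw [e, Subgroup.mem_bot, OneMemClass.coe_eq_one] at h4
  rw [h4, orderOf_one] at hx
  exact hp.one_lt.ne hx

end Cfsg.Agent.S3356
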