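import Cfsg.Statements.S3358
import Cfsg.Agent.PERM.ZGen
import Cfsg.Agent.PERM.FCStruct2

set_option autoImplicit false
open Cfsg

namespace Cfsg.Agent.S3358

/-- Structure of solvable Frobenius complements. Let G be a finite solvable group that occurs as a Frobenius complement. Then G has a normal subgroup G₀ such that G/G₀ is isomorphic to a subgroup of Sym(4) (G₀ is the kernel of a homomorphism to Sym(4)), all Sylow subgroups of G₀ are cyclic, and G₀ has a presentation ⟨x, y | x^n = 1, y^m = 1, x⁻¹ y x = y^r⟩ with n, m ≥ 1, gcd(r − 1, m) = gcd(n, m) = 1 and r^(n/n′) ≡ 1 (mod m), where n′ is the product of the distinct primes dividing n. -/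
theorem result {G : Type*} [Group G] [Finite G] (hsol : Group.IsSolvable G)
    (hFC : ∃ (L : Type) (_ : Group L) (_ : Finite L) (H : Subgroup L), Cfsg.IsFrobeniusComplement H ∧ Nonempty (G ≃* H)) :
    ∃ G₀ : Subgroup G, G₀.Normal ∧
      (∃ f : G →* Equiv.Perm (Fin 4), f.ker = G₀) ∧
      (∀ (p : ℕ) [Fact p.Prime] (P : Sylow p G₀), IsCyclic P) ∧
      ∃ n m r : ℕ, 0 < n ∧ 0 < m ∧ Nat.Coprime (r - 1) m ∧ Nat.Coprime n m ∧ 1 ≤ r ∧
        r ^ (n / ∏ p ∈ n.primeFactors, p) % m = 1 % m ∧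
        Nonempty (G₀ ≃* PresentedGroup
          ({FreeGroup.of (0 : Fin 2) ^ n, FreeGroup.of (1 : Fin 2) ^ m,
            (FreeGroup.of (0 : Fin 2))⁻¹ * FreeGroup.of 1 * FreeGroup.of 0 * (FreeGroup.of (1 : Fin 2) ^ r)⁻¹} :
            Set (FreeGroup (Fin 2)))) := by
  have hG := CL.FC.IsFC.isFPF hFC
  obtain ⟨N, hN, hZ, hc⟩ := hG.exists_normal_isZGroup
  refine ⟨N, hN, ?_, fun p _ P => inferInstance, ?_⟩
  · rcases hc with rfl | ⟨f, -, rfl⟩ | ⟨f, -, rfl⟩ | ⟨f, -, rfl⟩ | ⟨f, hf, rfl⟩ | ⟨f, hf, rfl⟩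
    · exact ⟨1, MonoidHom.ker_one⟩
    · let e := Equiv.permCongrHom (Fintype.equivFinOfCardEq (α := DihedralGroup 2) (n := 4)
          (by rw [DihedralGroup.card]))
      let ι : DihedralGroup 2 →* Equiv.Perm (Fin 4) :=
        e.toMonoidHom.comp (MulAction.toPermHom (DihedralGroup 2) (DihedralGroup 2))
      exact ⟨ι.comp f, MonoidHom.ker_comp_of_injective _ _
        (e.injective.comp (MulAction.toPerm_injective (α := DihedralGroup 2)))⟩
    · exact ⟨(Subgroup.subtype _).comp f,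
        MonoidHom.ker_comp_of_injective _ _ (Subgroup.subtype_injective _)⟩
    · exact ⟨f, rfl⟩
    · exact absurd (solvable_of_surjective hf) CL.FC.not_isSolvable_A5
    · haveI := solvable_of_surjective hf
      exact (CL.FC.not_isSolvable_A5 inferInstance).elim
  · obtain ⟨x, y, r, h1, h2, h3, h4, h5, h6⟩ := CL.FC.exists_gen_of_isZGroup (G := N)
    exact ⟨_, _, r, orderOf_pos x, orderOf_pos y, h3, h4, h5, (hG.subgroup N).pow_div_rad h2 h4,
      CL.FC.nonempty_equiv_presented h1 h2 h6⟩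

end Cfsg.Agent.S3358
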