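import Cfsg.Statements.S3362
import Cfsg.Agent.SPOR.SteinerSharp
import Cfsg.Agent.SPOR.SharpK
import Cfsg.Agent.SPOR.SrgLocal
import Cfsg.Agent.SPOR.PChain

set_option autoImplicit false
open Cfsg

namespace Cfsg.Agent.S3362

open CL CL.K CL.Steiner

def F : List ℕ := [63, 219, 237, 246, 350, 363, 373, 413, 430, 435, 455, 504, 591, 627, 636, 670,
  679, 697, 725, 746, 791, 813, 826, 857, 870, 907, 948, 972, 978, 993, 1117, 1127,
  1146, 1175, 1195, 1212, 1230, 1265, 1295, 1334, 1337, 1363, 1388, 1434, 1445, 1481, 1492, 1506,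
  1563, 1582, 1589, 1622, 1641, 1677, 1714, 1731, 1752, 1764, 1820, 1827, 1861, 1866, 1904, 1926,
  1937, 1960, 2135, 2158, 2169, 2191, 2229, 2234, 2268, 2275, 2331, 2343, 2364, 2381, 2418, 2454,
  2473, 2506, 2513, 2532, 2589, 2603, 2614, 2650, 2661, 2707, 2732, 2758, 2761, 2800, 2830, 2865,
  2883, 2900, 2920, 2949, 2968, 2978, 3102, 3117, 3123, 3147, 3188, 3225, 3238, 3269, 3282, 3304,
  3349, 3370, 3398, 3416, 3425, 3459, 3468, 3504, 3591, 3640, 3660, 3665, 3682, 3722, 3732, 3745,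
  3849, 3858, 3876, 4032]

def L12 : List ℕ := [337002795436738592, 184765586003396640, 368322382208796704, 154536542196566048, 330139579604633632, 333664609481263139, 296335229793175553, 225437588310295616]
def L11 : List ℕ := [337002795436738592, 184765586003396640, 368322382208796704, 154536542196566048, 330139579604633632, 333664609481263139, 296335229793175553]

def E : Enc (Fin 12) 12 := Enc.fin 11

theorem incr : incrL (2 ^ 12) F = true := by decide +kernel
theorem sizes : allL (fun a => Nat.beq (pc24 a) 6) F = true := by decide +kernel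
theorem inters : allL (fun a => allL (fun b => bor (Nat.beq a b) (Nat.blt (pc24 (Nat.land a b)) 5))
    F) F = true := by decide +kernel
theorem maps : allL (fun q => allL (fun m => force (PC.img 5 31 12 q m) fun m' => memL m' F) F)
    L12 = true := by decide +kernel
theorem chain12 : PC.chainOK 5 31 12 [(2, 12), (1, 11), (0, 10), (3, 9), (4, 8)] L12 = true := by
  decide +kernel
theorem chain11 : PC.chainOK 5 31 12 [(1, 11), (0, 10), (3, 9), (4, 8)] L11 = true := by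
  decide +kernel

def B : Set (Finset (Fin 12)) := ((F.toFinset.image E.setOf : Finset (Finset (Fin 12))) : Set _)

theorem mem_B {b : Finset (Fin 12)} : b ∈ B ↔ ∃ m ∈ F, E.setOf m = b := by
  simp [B]

theorem steiner : IsSteinerSystem 5 6 B := by
  obtain ⟨h1, h2⟩ := incrL_spec incr
  apply CL.Srg.steiner_of_card
  · intro b hb
    obtain ⟨m, hm, rfl⟩ := mem_B.1 hb
    rw [card_setOf_eq_pc24 E (by norm_num) (h1 m hm)]
    exact Nat.eq_of_beq_eq_true (allL_iff.1 sizes m hm)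
  · intro b hb c hc hne
    obtain ⟨m, hm, rfl⟩ := mem_B.1 hb
    obtain ⟨n, hn, rfl⟩ := mem_B.1 hc
    rw [← E.setOf_and, card_setOf_eq_pc24 E (by norm_num)
      (lt_of_le_of_lt Nat.and_le_left (h1 m hm))]
    rcases bor_iff.1 (allL_iff.1 (allL_iff.1 inters m hm) n hn) with h | h
    · exact absurd (by rw [Nat.eq_of_beq_eq_true h]) hne
    · exact Nat.blt_eq.mp h
  · rw [Finset.card_image_of_injOn (fun a ha b hb e =>
      (E.setOf_inj (h1 a (by simpa using ha)) (h1 b (by simpa using hb))).1 e),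
      List.toFinset_card_of_nodup h2]
    decide +kernel

theorem mem_aut {g : Equiv.Perm (Fin 12)} {q : ℕ} (h : E.Rep 5 31 g q) (hq : q ∈ L12) :
    g ∈ setSystemAut B := by
  apply mem_aut_of_forall
  intro b hb
  obtain ⟨m, hm, rfl⟩ := mem_B.1 hb
  have := allL_iff.1 (allL_iff.1 maps q hq) m hm
  rw [force_eq, memL_iff] at this
  exact mem_B.2 ⟨_, this, h.setOf_img m⟩

theorem r0 : E.Rep 5 31 (Equiv.swap (3 : Fin 12) 5 * Equiv.swap (3 : Fin 12) 4 * Equiv.swap (6 : Fin 12) 8 * Equiv.swap (6 : Fin 12) 7 * Equiv.swap (9 : Fin 12) 11 * Equiv.swap (9 : Fin 12) 10) 337002795436738592 := by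
  unfold Enc.Rep
  decide +kernel

theorem r1 : E.Rep 5 31 (Equiv.swap (3 : Fin 12) 9 * Equiv.swap (3 : Fin 12) 6 * Equiv.swap (4 : Fin 12) 10 * Equiv.swap (4 : Fin 12) 7 * Equiv.swap (5 : Fin 12) 11 * Equiv.swap (5 : Fin 12) 8) 184765586003396640 := by
  unfold Enc.Rep
  decide +kernel

theorem r2 : E.Rep 5 31 (Equiv.swap (4 : Fin 12) 9 * Equiv.swap (4 : Fin 12) 5 * Equiv.swap (4 : Fin 12) 6 * Equiv.swap (7 : Fin 12) 10 * Equiv.swap (7 : Fin 12) 11 * Equiv.swap (7 : Fin 12) 8) 368322382208796704 := by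
  unfold Enc.Rep
  decide +kernel

theorem r3 : E.Rep 5 31 (Equiv.swap (4 : Fin 12) 11 * Equiv.swap (4 : Fin 12) 5 * Equiv.swap (4 : Fin 12) 7 * Equiv.swap (6 : Fin 12) 8 * Equiv.swap (6 : Fin 12) 9 * Equiv.swap (6 : Fin 12) 10) 154536542196566048 := by
  unfold Enc.Rep
  decide +kernel

theorem r4 : E.Rep 5 31 (Equiv.swap (4 : Fin 12) 8 * Equiv.swap (4 : Fin 12) 5 * Equiv.swap (4 : Fin 12) 10 * Equiv.swap (6 : Fin 12) 7 * Equiv.swap (6 : Fin 12) 9 * Equiv.swap (6 : Fin 12) 11) 330139579604633632 := by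
  unfold Enc.Rep
  decide +kernel

theorem r5 : E.Rep 5 31 (Equiv.swap (0 : Fin 12) 3 * Equiv.swap (6 : Fin 12) 7 * Equiv.swap (8 : Fin 12) 10 * Equiv.swap (9 : Fin 12) 11) 333664609481263139 := by
  unfold Enc.Rep
  decide +kernel

theorem r6 : E.Rep 5 31 (Equiv.swap (0 : Fin 12) 1 * Equiv.swap (6 : Fin 12) 9 * Equiv.swap (7 : Fin 12) 10 * Equiv.swap (8 : Fin 12) 11) 296335229793175553 := by
  unfold Enc.Rep
  decide +kernel

theorem r7 : E.Rep 5 31 (Equiv.swap (1 : Fin 12) 2 * Equiv.swap (6 : Fin 12) 11 * Equiv.swap (7 : Fin 12) 9 * Equiv.swap (8 : Fin 12) 10) 225437588310295616 := by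
  unfold Enc.Rep
  decide +kernel

/-- An explicit construction of the Mathieu groups of degrees 11 and 12. On the points 0, …, 11 let s = (3 4 5)(6 7 8)(9 10 11), t = (3 6 9)(4 7 10)(5 8 11), u = (4 6 5 9)(7 8 11 10), v = (4 7 5 11)(6 10 9 8), w = (4 10 5 8)(6 11 9 7), x₁ = (0 3)(6 7)(8 10)(9 11), x₂ = (0 1)(6 9)(7 10)(8 11), x₃ = (1 2)(6 11)(7 9)(8 10) (each written as a product of transpositions). Then the group M₁₂ generated by all eight permutations is sharply 5-transitive on the 12 points and has order 95040, and the group M₁₁ generated by the first seven has order 7920 and is the stabilizer of the point 2 in M₁₂. -/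
theorem result
    (s t u v w x₁ x₂ x₃ : Equiv.Perm (Fin 12))
    (hs : s = Equiv.swap (3 : Fin 12) 5 * Equiv.swap (3 : Fin 12) 4 * Equiv.swap (6 : Fin 12) 8 * Equiv.swap (6 : Fin 12) 7 * Equiv.swap (9 : Fin 12) 11 * Equiv.swap (9 : Fin 12) 10) (ht : t = Equiv.swap (3 : Fin 12) 9 * Equiv.swap (3 : Fin 12) 6 * Equiv.swap (4 : Fin 12) 10 * Equiv.swap (4 : Fin 12) 7 * Equiv.swap (5 : Fin 12) 11 * Equiv.swap (5 : Fin 12) 8)
    (hu : u = Equiv.swap (4 : Fin 12) 9 * Equiv.swap (4 : Fin 12) 5 * Equiv.swap (4 : Fin 12) 6 * Equiv.swap (7 : Fin 12) 10 * Equiv.swap (7 : Fin 12) 11 * Equiv.swap (7 : Fin 12) 8) (hv : v = Equiv.swap (4 : Fin 12) 11 * Equiv.swap (4 : Fin 12) 5 * Equiv.swap (4 : Fin 12) 7 * Equiv.swap (6 : Fin 12) 8 * Equiv.swap (6 : Fin 12) 9 * Equiv.swap (6 : Fin 12) 10) (hw : w = Equiv.swap (4 : Fin 12) 8 * Equiv.swap (4 : Fin 12) 5 * Equiv.swap (4 : Fin 12) 10 * Equiv.swap (6 : Fin 12) 7 * Equiv.swap (6 : Fin 12) 9 * Equiv.swap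 (6 : Fin 12) 11)
    (hx₁ : x₁ = Equiv.swap (0 : Fin 12) 3 * Equiv.swap (6 : Fin 12) 7 * Equiv.swap (8 : Fin 12) 10 * Equiv.swap (9 : Fin 12) 11) (hx₂ : x₂ = Equiv.swap (0 : Fin 12) 1 * Equiv.swap (6 : Fin 12) 9 * Equiv.swap (7 : Fin 12) 10 * Equiv.swap (8 : Fin 12) 11)
    (hx₃ : x₃ = Equiv.swap (1 : Fin 12) 2 * Equiv.swap (6 : Fin 12) 11 * Equiv.swap (7 : Fin 12) 9 * Equiv.swap (8 : Fin 12) 10)
    (M₁₂ M₁₁ : Subgroup (Equiv.Perm (Fin 12))) (hM₁₂ : M₁₂ = Subgroup.closure {s, t, u, v, w, x₁, x₂, x₃})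
    (hM₁₁ : M₁₁ = Subgroup.closure {s, t, u, v, w, x₁, x₂}) :
    MulAction.IsMultiplyPretransitive M₁₂ (Fin 12) 5 ∧ (∀ y : Fin 5 ↪ Fin 12, MulAction.stabilizer M₁₂ y = ⊥) ∧
    Nat.card M₁₂ = 95040 ∧ Nat.card M₁₁ = 7920 ∧
    M₁₁ = M₁₂ ⊓ MulAction.stabilizer (Equiv.Perm (Fin 12)) (2 : Fin 12) := by
  have a0 := hs ▸ r0
  have a1 := ht ▸ r1
  have a2 := hu ▸ r2
  have a3 := hv ▸ r3
  have a4 := hw ▸ r4
  have a5 := hx₁ ▸ r5
  have a6 := hx₂ ▸ r6
  have a7 := hx₃ ▸ r7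
  have hS : CL.SharpK.Sharp (setSystemAut B) (Fin 12) 5 :=
    ⟨trans12 (by simp) steiner, sharp12 (by simp) steiner⟩
  have hc : Nat.card (setSystemAut B) = 95040 := by
    rw [hS.card_eq (by simp)]; simp [Nat.descFactorial]
  have hle : M₁₂ ≤ setSystemAut B := by
    rw [hM₁₂, Subgroup.closure_le]
    rintro g (rfl | rfl | rfl | rfl | rfl | rfl | rfl | rfl)
    exacts [mem_aut a0 (by decide), mem_aut a1 (by decide), mem_aut a2 (by decide),
      mem_aut a3 (by decide), mem_aut a4 (by decide), mem_aut a5 (by decide),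
      mem_aut a6 (by decide), mem_aut a7 (by decide)]
  have h12 : 95040 ≤ Nat.card M₁₂ := Enc.chain_le (E := E) (H := M₁₂) (by
    intro P hP
    simp only [L12, List.mem_cons, List.not_mem_nil, or_false] at hP
    rw [hM₁₂]
    rcases hP with rfl | rfl | rfl | rfl | rfl | rfl | rfl | rfl
    exacts [⟨_, Subgroup.subset_closure (by simp), a0⟩, ⟨_, Subgroup.subset_closure (by simp), a1⟩,
      ⟨_, Subgroup.subset_closure (by simp), a2⟩, ⟨_, Subgroup.subset_closure (by simp), a3⟩,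
      ⟨_, Subgroup.subset_closure (by simp), a4⟩, ⟨_, Subgroup.subset_closure (by simp), a5⟩,
      ⟨_, Subgroup.subset_closure (by simp), a6⟩, ⟨_, Subgroup.subset_closure (by simp), a7⟩])
    chain12
  have h11 : 7920 ≤ Nat.card M₁₁ := Enc.chain_le (E := E) (H := M₁₁) (by
    intro P hP
    simp only [L11, List.mem_cons, List.not_mem_nil, or_false] at hP
    rw [hM₁₁]
    rcases hP with rfl | rfl | rfl | rfl | rfl | rfl | rfl
    exacts [⟨_, Subgroup.subset_closure (by simp), a0⟩, ⟨_, Subgroup.subset_closure (by simp), a1⟩,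
      ⟨_, Subgroup.subset_closure (by simp), a2⟩, ⟨_, Subgroup.subset_closure (by simp), a3⟩,
      ⟨_, Subgroup.subset_closure (by simp), a4⟩, ⟨_, Subgroup.subset_closure (by simp), a5⟩,
      ⟨_, Subgroup.subset_closure (by simp), a6⟩])
    chain11
  have e : M₁₂ = setSystemAut B := Subgroup.eq_of_le_of_card_ge hle (hc ▸ h12)
  have hle2 : M₁₁ ≤ M₁₂ ⊓ MulAction.stabilizer (Equiv.Perm (Fin 12)) (2 : Fin 12) := by
    refine le_inf (by rw [hM₁₁, hM₁₂]; exact Subgroup.closure_mono (by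
      intro g hg
      simp only [Set.mem_insert_iff, Set.mem_singleton_iff] at hg ⊢
      tauto)) ?_
    rw [hM₁₁, Subgroup.closure_le]
    rintro g (rfl | rfl | rfl | rfl | rfl | rfl | rfl)
    exacts [Fin.ext (a0 2), Fin.ext (a1 2), Fin.ext (a2 2), Fin.ext (a3 2), Fin.ext (a4 2),
      Fin.ext (a5 2), Fin.ext (a6 2)]
  have hst : Nat.card ↥(M₁₂ ⊓ MulAction.stabilizer (Equiv.Perm (Fin 12)) (2 : Fin 12)) = 7920 := by
    have h1 := card_eq_orbit_mul M₁₂ (2 : Fin 12)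
    have := hS.trans
    have h2 : MulAction.IsMultiplyPretransitive (setSystemAut B) (Fin 12) 1 :=
      MulAction.isMultiplyPretransitive_of_le (n := 5) (by omega) (by simp)
    rw [MulAction.is_one_pretransitive_iff, ← e] at h2
    rw [MulAction.orbit_eq_univ, Set.ncard_univ, Nat.card_eq_fintype_card (α := Fin 12),
      Fintype.card_fin] at h1
    rw [← e] at hc
    omega
  have e2 := Subgroup.eq_of_le_of_card_ge hle2 (hst ▸ h11)
  refine ⟨e ▸ hS.trans, e ▸ hS.sharp, e ▸ hc, e2 ▸ hst, e2⟩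

end Cfsg.Agent.S3362
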