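import Cfsg.Statements.S3370
import Cfsg.Agent.PERM.HalfTrans2
import Cfsg.Agent.INV.GL2Sylow

set_option autoImplicit false
open Cfsg

namespace Cfsg.Agent.S3370

/-- Let q be a prime, V a non-trivial finite vector space over the field with q elements, and G a non-trivial finite p-group (p prime) acting faithfully and linearly on V and transitively on the non-zero vectors. Then either q = 2 and G has prime order p = |V| − 1; or p = 2, V has q elements with q = 2^m + 1 and G is cyclic of order 2^m; or p = 2, q = 3, V has 9 elements and G is cyclic of order 8, quaternion of order 8, or semidihedral of order 16. -/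
theorem result (q : ℕ) [Fact q.Prime] {V : Type*} [AddCommGroup V] [Module (ZMod q) V] [Finite V] [Nontrivial V]
    {G : Type*} [Group G] [Finite G] [Nontrivial G] (p : ℕ) [Fact p.Prime] (hG : IsPGroup p G)
    (ρ : G →* (V ≃ₗ[ZMod q] V)) (hρ : Function.Injective ρ)
    (htrans : ∀ v w : V, v ≠ 0 → w ≠ 0 → ∃ g : G, ρ g v = w) :
    (q = 2 ∧ p = Nat.card V - 1 ∧ Nat.card G = p) ∨
    (p = 2 ∧ Nat.card V = q ∧ (∃ m : ℕ, q = 2 ^ m + 1 ∧ Nat.card G = 2 ^ m) ∧ IsCyclic G) ∨
    (p = 2 ∧ q = 3 ∧ Nat.card V = 9 ∧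
      ((IsCyclic G ∧ Nat.card G = 8) ∨ Nonempty (G ≃* QuaternionGroup 2) ∨ (Cfsg.IsQuasiDihedral G ∧ Nat.card G = 16))) := by
  classical
  have hq : q.Prime := Fact.out
  have hp : p.Prime := Fact.out
  obtain ⟨v0, hv0⟩ := exists_ne (0 : V)
  have horb : ∀ v : V, v ≠ 0 → Nat.card {u : V | ∃ g, ρ g v = u} + 1 = Nat.card V := by
    intro v hv
    have : {u : V | ∃ g, ρ g v = u} = Set.univ \ {0} := by
      ext u
      exact ⟨fun ⟨g, hg⟩ => ⟨trivial, hg ▸ CL.HT.rho_ne_zero g hv⟩, fun h => htrans v u hv h.2⟩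
    rw [this, Nat.card_coe_set_eq,
      Set.ncard_diff_singleton_add_one (Set.mem_univ _) (Set.toFinite _), Set.ncard_univ]
  have hmul : ∀ v : V, v ≠ 0 → (Nat.card V - 1) * Nat.card (CL.HT.stab ρ v) = Nat.card G := by
    intro v hv
    rw [← CL.HT.card_orbit_mul_top (ρ := ρ) v, ← horb v hv, Nat.add_sub_cancel]
  obtain ⟨N, hN0, hN⟩ := hG.nontrivial_iff_card.mp inferInstance
  obtain ⟨k, -, hk⟩ := (Nat.dvd_prime_pow hp).mp (hN ▸ Dvd.intro _ (hmul v0 hv0))
  have hV := Module.natCard_eq_pow_finrank (K := ZMod q) (V := V)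
  rw [Nat.card_zmod] at hV
  have hr := Module.finrank_pos (R := ZMod q) (M := V)
  set r := Module.finrank (ZMod q) V with hrdef
  have hVpos : 0 < Nat.card V := Nat.card_pos
  have hqk : q ^ r = p ^ k + 1 := by omega
  have semi : Nat.card G = Nat.card V - 1 → CL.HT.Semi ρ := by
    intro h v hv g hg
    have h1 := hmul v hv
    have h2 : 0 < Nat.card G := Nat.card_pos
    rw [← h, mul_eq_left₀ h2.ne', Subgroup.card_eq_one] at h1
    exact (h1 ▸ CL.HT.mem_stab.mpr hg : g ∈ (⊥ : Subgroup G))
  have line : r = 1 → Nat.card G = Nat.card V - 1 := by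
    intro h1
    have : CL.HT.stab ρ v0 = ⊥ := eq_bot_iff.mpr fun g hg => hρ (LinearEquiv.ext fun v => by
      obtain ⟨c, rfl⟩ := (finrank_eq_one_iff_of_nonzero' v0 hv0).mp h1 v
      rw [map_smul, CL.HT.mem_stab.mp hg, CL.HT.rho_one])
    rw [← hmul v0 hv0, this, Subgroup.card_bot, mul_one]
  by_cases hq2 : q = 2
  · left
    subst hq2
    have hr2 : 2 ≤ r := by
      by_contra h
      have h1 : r = 1 := by omega
      have := line h1
      rw [hV, h1, hN] at this
      exact (Nat.one_lt_pow hN0.ne' hp.one_lt).ne' this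
    obtain rfl := CL.HT.pow_add_one_eq_two_pow hp.one_lt hr2 hqk.symm
    rw [pow_one] at hk
    refine ⟨rfl, hk.symm, ?_⟩
    let X := {v : V // v ≠ 0}
    have hX : Nat.card X = p := by
      have := Fintype.ofFinite V
      simp only [X, Nat.card_eq_fintype_card, Fintype.card_subtype_compl, Fintype.card_unique]
      rw [← hk, Nat.card_eq_fintype_card]
    letI : MulAction G X :=
      { smul := fun g v => ⟨ρ g v.1, CL.HT.rho_ne_zero g v.2⟩
        one_smul := fun v => Subtype.ext (CL.HT.rho_one v.1)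
        mul_smul := fun a b v => Subtype.ext (CL.HT.rho_mul a b v.1) }
    have hinj : Function.Injective (MulAction.toPermHom G X) := by
      rw [injective_iff_map_eq_one]
      intro g hg
      refine hρ (LinearEquiv.ext fun v => ?_)
      rw [CL.HT.rho_one]
      by_cases hv : v = 0
      · rw [hv, map_zero]
      · exact congrArg Subtype.val (congrArg (fun f : Equiv.Perm X => f ⟨v, hv⟩) hg)
    have h1 := Subgroup.card_dvd_of_injective _ hinj
    rw [Nat.card_perm, hX, hN] at h1
    have h2 : N ≤ 1 := by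
      have h3 := (padicValNat_dvd_iff_le (Nat.factorial_ne_zero p)).mp h1
      have h4 := padicValNat_factorial_mul (p := p) 1
      rw [mul_one] at h4
      simpa [h4] using h3
    rw [hN, show N = 1 by omega, pow_one]
  right
  have hp2 : p = 2 := by
    by_contra hp2
    have h1 : Odd (q ^ r) := (hq.odd_of_ne_two hq2).pow
    rcases k with _ | k
    · have h2 : q ≤ q ^ r := Nat.le_self_pow hr.ne' q
      have := hq.two_le
      rw [pow_zero] at hqk
      omega
    · rw [hqk] at h1
      exact (Nat.odd_add_one.mp h1) (hp.odd_of_ne_two hp2).pow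
  subst hp2
  rcases CL.HT.pow_eq_two_pow_add_one hq hq2 hr hqk with h1 | ⟨rfl, h1⟩
  · left
    rw [h1, pow_one] at hV hqk
    refine ⟨rfl, hV, ⟨k, hqk, by rw [line h1, hk]⟩, ?_⟩
    have hc : ∀ g : G, ∃ c : ZMod q, c • v0 = ρ g v0 := fun g =>
      (finrank_eq_one_iff_of_nonzero' v0 hv0).mp h1 _
    choose c hc using hc
    let φ : G →* ZMod q :=
      { toFun := c
        map_one' := smul_left_injective _ hv0 (by simp only [hc, CL.HT.rho_one, one_smul])
        map_mul' := fun a b => smul_left_injective _ hv0 (by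
          simp only [hc, CL.HT.rho_mul]
          rw [← hc b, map_smul, ← hc a, smul_smul, mul_comm]) }
    have hinj : Function.Injective φ.toHomUnits := (injective_iff_map_eq_one _).mpr fun g hg => by
      have h2 : c g = 1 := congrArg Units.val hg
      exact semi (line h1) v0 hv0 g (by rw [← hc, h2, one_smul])
    exact isCyclic_of_injective_ringHom φ fun a b hab => hinj (Units.ext hab)
  right
  rw [h1] at hV
  refine ⟨rfl, rfl, hV, ?_⟩
  let b := Module.finBasisOfFinrankEq (ZMod 3) V h1
  let f : G →* GL (Fin 2) (ZMod 3) := (((LinearMap.toMatrixAlgEquiv b).toMulEquiv.toMonoidHom).comp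
    (LinearEquiv.automorphismGroup.toLinearMapMonoidHom.comp ρ)).toHomUnits
  have hf : Function.Injective f := fun x y hxy => hρ (LinearEquiv.toLinearMap_injective
    ((LinearMap.toMatrixAlgEquiv b).injective (congrArg Units.val hxy)))
  obtain ⟨P, hP⟩ := (hG.of_equiv (MonoidHom.ofInjective hf)).exists_le_sylow
  have hQD := CL.GL2Syl.gl_quasiDihedral P (by simp)
  have hPc : Nat.card P = 16 := by
    rw [P.card_eq_multiplicity, Matrix.card_GL_field]
    simp [Fin.prod_univ_two]
    have : Nat.factorization 48 2 = 4 := by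
      rw [show 48 = 2 ^ 4 * 3 by norm_num, Nat.factorization_mul (by norm_num) (by norm_num)]
      rw [Nat.Prime.factorization_pow Nat.prime_two, Nat.Prime.factorization Nat.prime_three]
      simp
    rw [this]; norm_num
  have hGr : Nat.card f.range = Nat.card G := (Nat.card_congr (MonoidHom.ofInjective hf).toEquiv).symm
  have h16 : Nat.card G ∣ 16 := hGr ▸ hPc ▸ Subgroup.card_dvd_of_le hP
  have h8 := hmul v0 hv0
  rw [hV] at h8
  have h2 : Nat.card (CL.HT.stab ρ v0) ∣ 2 := by
    rw [← h8] at h16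
    exact Nat.dvd_of_mul_dvd_mul_left (by norm_num : 0 < 8) h16
  rcases (Nat.dvd_prime Nat.prime_two).mp h2 with h3 | h3
  · rw [h3] at h8
    have hs := semi (by rw [← h8, hV, mul_one])
    rcases ((CL.HT.isFPF_of_semi hs).isCyclic_or_quaternion (P := ⊤) (hG.to_subgroup _)) with
      h1 | ⟨-, n, ⟨e⟩⟩
    · exact Or.inl ⟨isCyclic_of_surjective _ Subgroup.topEquiv.surjective, h8.symm⟩
    · have e' := Subgroup.topEquiv.symm.trans e
      have h4 := Nat.card_congr e'.toEquiv
      haveI : NeZero (2 ^ (n + 1)) := ⟨by positivity⟩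
      rw [← h8, Nat.card_eq_fintype_card (α := QuaternionGroup _), QuaternionGroup.card] at h4
      have h5 : 2 ^ (n + 1) = 2 := by omega
      rw [h5] at e'
      exact Or.inr (Or.inl ⟨e'⟩)
  · rw [h3] at h8
    refine Or.inr (Or.inr ⟨?_, h8.symm⟩)
    have h4 : f.range = P := Subgroup.eq_of_le_of_card_ge hP (by rw [hGr, hPc, ← h8]; norm_num)
    have e : P ≃* G := ((MonoidHom.ofInjective hf).trans (MulEquiv.subgroupCongr h4)).symm
    obtain ⟨n, h1, h2, x, y, hx, hy, hxy⟩ := hQD
    exact ⟨n, h1, (Nat.card_congr e.toEquiv).symm.trans h2, e x, e y, by rwa [e.orderOf_eq],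
      by rwa [e.orderOf_eq], by rw [← map_inv, ← map_mul, ← map_mul, hxy, map_pow]⟩

end Cfsg.Agent.S3370
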