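import Cfsg.Statements.S3371
import Cfsg.Agent.PERM.HalfTrans2

set_option autoImplicit false
open Cfsg

namespace Cfsg.Agent.S3371

/-- Let q be a prime, V a non-trivial finite vector space over the field with q elements, and G a finite p-group (p prime) acting faithfully and linearly on V such that all G-orbits on the non-zero vectors have the same size. Then one of the following holds: G is cyclic or generalized quaternion and acts semiregularly on the non-zero vectors; or V has q² elements with q = 2^m − 1 and G is dihedral of order 2^(m+1) or semidihedral of order 2^(m+2); or V has q² elements with q = 2^m + 1 and, in suitable coordinates V = F_q², G is exactly the group of maps (x, y) ↦ (a x, ± a⁻¹ y) and (x, y) ↦ (± a⁻¹ y, a x) with a ≠ 0; or V has 81 elements (q = 3) and G is a 2-group. -/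
theorem result (q : ℕ) [Fact q.Prime] {V : Type*} [AddCommGroup V] [Module (ZMod q) V] [Finite V] [Nontrivial V]
    {G : Type*} [Group G] [Finite G] (p : ℕ) [Fact p.Prime] (hG : IsPGroup p G)
    (ρ : G →* (V ≃ₗ[ZMod q] V)) (hρ : Function.Injective ρ)
    (hhalf : ∀ v w : V, v ≠ 0 → w ≠ 0 → Nat.card {u : V | ∃ g : G, ρ g v = u} = Nat.card {u : V | ∃ g : G, ρ g w = u}) :
    ((IsCyclic G ∨ ∃ n : ℕ, Nonempty (G ≃* QuaternionGroup n)) ∧ ∀ v : V, v ≠ 0 → ∀ g : G, ρ g v = v → g = 1) ∨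
    (Nat.card V = q ^ 2 ∧ ∃ m : ℕ, q = 2 ^ m - 1 ∧
      (Nonempty (G ≃* DihedralGroup (2 ^ m)) ∨ (Cfsg.IsQuasiDihedral G ∧ Nat.card G = 2 ^ (m + 2)))) ∨
    (Nat.card V = q ^ 2 ∧ (∃ m : ℕ, q = 2 ^ m + 1) ∧
      ∃ e : V ≃ₗ[ZMod q] (Fin 2 → ZMod q), ∀ f : (Fin 2 → ZMod q) ≃ₗ[ZMod q] (Fin 2 → ZMod q),
        (∃ g : G, f = e.symm.trans ((ρ g).trans e)) ↔
        ∃ a s : ZMod q, a ≠ 0 ∧ (s = 1 ∨ s = -1) ∧
          ((∀ v, f v = ![a * v 0, s * a⁻¹ * v 1]) ∨ (∀ v, f v = ![s * a⁻¹ * v 1, a * v 0]))) ∨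
    (Nat.card V = 81 ∧ q = 3 ∧ p = 2) := by
  have h := CL.HT.half_of hhalf
  by_cases hs : CL.HT.Semi ρ
  · refine Or.inl ⟨?_, hs⟩
    rcases ((CL.HT.isFPF_of_semi hs).isCyclic_or_quaternion (P := ⊤) (hG.to_subgroup _)) with
      h1 | ⟨-, n, ⟨e⟩⟩
    · exact Or.inl (isCyclic_of_surjective _ Subgroup.topEquiv.surjective)
    · exact Or.inr ⟨_, ⟨Subgroup.topEquiv.symm.trans e⟩⟩
  right
  have hc : (Nat.card G : ZMod q) ≠ 0 := by
    intro h0
    obtain ⟨n, hn⟩ := IsPGroup.iff_card.mp hG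
    rw [ZMod.natCast_eq_zero_iff, hn] at h0
    obtain rfl := (Nat.prime_dvd_prime_iff_eq Fact.out Fact.out).mp
      ((Fact.out : q.Prime).dvd_of_dvd_pow h0)
    obtain ⟨v, hv, h1⟩ := CL.HT.exists_fixed (ρ := ρ) hG
    refine hs fun w hw g _ => hρ (LinearEquiv.ext fun u => ?_)
    rw [CL.HT.rho_one]
    by_cases hu : u = 0
    · rw [hu, map_zero]
    · have h2 : CL.HT.stab ρ v = ⊤ := eq_top_iff.mpr fun x _ => h1 x
      have h3 := h.eq_of_le hu hv (h2 ▸ le_top)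
      rw [← CL.HT.mem_stab, h3, h2]
      trivial
  have hirr := h.irr hρ hc hs
  rcases CL.PCyc.isCyclic_or_normal_elemAb_or_isDQS hG with h1 | ⟨E, _, hE, hEc⟩ | ⟨-, n, a, b, hd⟩
  · exact absurd (CL.HT.semi_of_isCyclic hρ hirr) hs
  · obtain ⟨a, z, haz⟩ := CL.HT.exists_az hG E hE hEc
    obtain rfl := h.eq_two hρ hirr haz
    rcases h.two_case hG hρ hirr haz with h1 | h1
    · exact Or.inr (Or.inl h1)
    · exact Or.inr (Or.inr ⟨h1.1, h1.2, rfl⟩)
  · exact Or.inl (h.dqs_case hρ hirr hs hd)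

end Cfsg.Agent.S3371
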