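import Cfsg.Statements.S3377
import Cfsg.Agent.PERM.SmallPres

set_option autoImplicit false
open Cfsg

namespace Cfsg.Agent.S3377

/-- The alternating group of degree 5 has the presentation ⟨x, y | x³ = 1, y⁵ = 1, (xy)² = 1⟩: the group so presented is isomorphic to Alt(5). -/
theorem result :
    Nonempty (PresentedGroup ({FreeGroup.of (0 : Fin 2) ^ 3, FreeGroup.of (1 : Fin 2) ^ 5,
        (FreeGroup.of (0 : Fin 2) * FreeGroup.of 1) ^ 2} : Set (FreeGroup (Fin 2))) ≃* alternatingGroup (Fin 5)) := by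
  set R : Set (FreeGroup (Fin 2)) := {FreeGroup.of (0 : Fin 2) ^ 3, FreeGroup.of (1 : Fin 2) ^ 5,
    (FreeGroup.of (0 : Fin 2) * FreeGroup.of 1) ^ 2} with hR
  have hrel : ∀ r ∈ R, PresentedGroup.mk R r = 1 := fun r hr => PresentedGroup.one_of_mem hr
  obtain ⟨f, h0, h1⟩ := CL.TC.exists_hom_A5 (G := PresentedGroup R) (x := PresentedGroup.of 0)
    (y := PresentedGroup.of 1) (hrel _ (Or.inl rfl)) (hrel _ (Or.inr (Or.inl rfl)))
    (hrel _ (Or.inr (Or.inr rfl)))
  let g : PresentedGroup R →* alternatingGroup (Fin 5) :=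
    PresentedGroup.toGroup (f := ![CL.TC.a5x, CL.TC.a5y]) (by
      rintro r (rfl | rfl | rfl)
      · simpa using CL.TC.a5x_pow
      · simpa using CL.TC.a5y_pow
      · simpa using CL.TC.a5xy_pow)
  refine ⟨MonoidHom.toMulEquiv g f ?_ ?_⟩
  · ext i
    fin_cases i
    · simpa [g] using h0
    · simpa [g] using h1
  · refine MonoidHom.eq_of_eqOn_dense CL.TC.a5_gen ?_
    rintro _ (rfl | rfl)
    · simp [g, h0]
    · simp [g, h1]

end Cfsg.Agent.S3377
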