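import Cfsg.Statements.S3380
import Cfsg.Agent.PERM.HalfTrans

set_option autoImplicit false
open Cfsg

namespace Cfsg.Agent.S3380

/-- Let a finite p-group G act faithfully and irreducibly on a non-trivial finite vector space V over the field with q elements (q prime), and suppose G is not cyclic, generalized quaternion, dihedral or semidihedral. Then G has a subgroup H of index p and V is the direct sum of p subspaces, each invariant under H, on none of which H acts faithfully, and which every element of G outside H permutes in a single p-cycle. -/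
theorem result
    (q : ℕ) [Fact q.Prime] {V : Type*} [AddCommGroup V] [Module (ZMod q) V] [Finite V] [Nontrivial V]
    {G : Type*} [Group G] [Finite G] (p : ℕ) [Fact p.Prime] (hG : IsPGroup p G)
    (ρ : G →* (V ≃ₗ[ZMod q] V)) (hρ : Function.Injective ρ)
    (hirr : ∀ W : Submodule (ZMod q) V, (∀ g : G, ∀ w ∈ W, ρ g w ∈ W) → W = ⊥ ∨ W = ⊤)
    (hnc : ¬ IsCyclic G) (hnq : ∀ n : ℕ, ¬ Nonempty (G ≃* QuaternionGroup n))
    (hnd : ∀ n : ℕ, ¬ Nonempty (G ≃* DihedralGroup n)) (hnsd : ¬ Cfsg.IsQuasiDihedral G) :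
    ∃ (H : Subgroup G) (W : Fin p → Submodule (ZMod q) V), H.index = p ∧
      iSup W = ⊤ ∧ iSupIndep W ∧
      (∀ h ∈ H, ∀ i, ∀ w ∈ W i, ρ h w ∈ W i) ∧
      (∀ i, ∃ h ∈ H, h ≠ 1 ∧ ∀ w ∈ W i, ρ h w = w) ∧
      ∀ g : G, g ∉ H → ∃ σ : Equiv.Perm (Fin p), orderOf σ = p ∧ ∀ i, (W i).map (ρ g : V →ₗ[ZMod q] V) = W (σ i) := by
  have hp : p.Prime := Fact.out
  haveI : NeZero p := ⟨hp.ne_zero⟩
  rcases CL.PCyc.isCyclic_or_normal_elemAb_or_isDQS hG with h | ⟨E, _, hE, hc⟩ | ⟨-, n, a, b, h⟩
  · exact absurd h hnc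
  swap
  · rcases h.trichotomy with h | h | h
    · exact absurd h.2 (hnd _)
    · exact absurd h (hnq _)
    · exact absurd h.2.2.2 hnsd
  obtain ⟨a, z, h⟩ := CL.HT.exists_az hG E hE hc
  have ha := h.not_mem_center hρ hirr
  refine ⟨Subgroup.centralizer {a}, fun i => CL.HT.fix ρ (a * z ^ (i : ℕ)), h.index_eq ha,
    h.iSup_eq_top hρ hirr, h.iSupIndep hρ hirr, fun g hg i w hw => ?_, fun i => ?_, fun g hg => ?_⟩
  · exact h.map_mem (c := 0) (by
      rw [Subgroup.mem_centralizer_singleton_iff.mp hg, pow_zero, mul_one, mul_inv_cancel_right]) hw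
  · refine ⟨a * z ^ (i : ℕ), Subgroup.mem_centralizer_singleton_iff.mpr ?_, h.ne_one i,
      fun w hw => CL.HT.mem_fix.mp hw⟩
    rw [mul_assoc, ← h.comm]
  · obtain ⟨c, hc⟩ := h.exists_conj g
    let d : Fin p := ⟨c % p, Nat.mod_lt _ hp.pos⟩
    have hz : ∀ i : Fin p, z ^ ((i + d : Fin p) : ℕ) = z ^ ((i : ℕ) + c) := fun i => by
      rw [Fin.val_add, pow_eq_pow_iff_modEq, h.zo]
      exact (Nat.mod_modEq _ _).trans (Nat.ModEq.add_left _ (Nat.mod_modEq _ _))
    have hd : d ≠ 0 := fun h0 => hg (by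
      have := hz 0
      rw [h0, add_zero, Fin.val_zero, zero_add, pow_zero] at this
      rw [← this, mul_one, mul_inv_eq_iff_eq_mul] at hc
      exact Subgroup.mem_centralizer_singleton_iff.mpr hc)
    refine ⟨Equiv.addRight d, orderOf_eq_prime ?_ ?_, fun i => ?_⟩
    · rw [Equiv.nsmul_addRight]
      have : p • d = 0 := by
        have := card_nsmul_eq_zero (G := Fin p) (x := d)
        rwa [Fintype.card_fin] at this
      rw [this]; ext; simp
    · intro h1
      have := congrArg (fun f : Equiv.Perm (Fin p) => f 0) h1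
      exact hd (by simpa using this)
    · simp only [Equiv.coe_addRight, hz]
      ext v
      constructor
      · rintro ⟨w, hw, rfl⟩
        exact h.map_mem hc hw
      · intro hv
        refine ⟨ρ g⁻¹ v, ?_, CL.HT.rho_inv' g v⟩
        rw [SetLike.mem_coe, CL.HT.mem_fix] at *
        apply (ρ g).injective
        rw [← CL.HT.rho_mul, h.conj_mul hc, CL.HT.rho_mul, CL.HT.rho_inv', hv]

end Cfsg.Agent.S3380
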