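import Cfsg.Statements.S3382
import Cfsg.Agent.INV.OddAut

set_option autoImplicit false
open Cfsg

namespace Cfsg.Agent.S3382

open Subgroup CL.OddAut

theorem normal_of_inv {X : Type*} [Group X] {M : Subgroup X}
    (h : ∀ α : MulAut X, ∀ g ∈ M, α g ∈ M) : M.Normal := ⟨fun n hn g => h (MulAut.conj g) n hn⟩

theorem triv_top {X : Type*} [Group X] (hX : IsPGroup 2 X) {M : Subgroup X}
    (h : ∀ α : MulAut X, ∀ g ∈ M, α g ∈ M) {w : X} (hw : ∀ g, g ∈ M ∨ w⁻¹ * g ∈ M)
    {α : MulAut X} (hα : Odd (orderOf α)) : Triv α M ⊤ := by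
  haveI := normal_of_inv h
  refine Triv.of_cyclic hα (h α) (by simp) (mem_top w) (fun g _ => ?_)
    ((hX w).imp fun k hk => by rw [hk]; exact one_mem _)
  rcases hw g with h1 | h1
  · exact ⟨0, by simpa using h1⟩
  · exact ⟨1, by simpa using h1⟩

theorem zp_inv {X : Type*} [Group X] {x : X} (h : ∀ α : MulAut X, α x ∈ zpowers x) (α : MulAut X) :
    ∀ g ∈ zpowers x, α g ∈ zpowers x := by
  rintro _ ⟨k, rfl⟩
  simp only [map_zpow]
  exact zpow_mem (h α) k

theorem triv_zp {X : Type*} [Group X] (hX : IsPGroup 2 X) {x : X}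
    (h : ∀ α : MulAut X, α x ∈ zpowers x) {α : MulAut X} (hα : Odd (orderOf α)) :
    Triv α ⊥ (zpowers x) :=
  Triv.of_cyclic hα (by simp) (zp_inv h α) (mem_zpowers x)
    (by rintro _ ⟨k, rfl⟩; exact ⟨k, by simp⟩) (by simpa using hX x)

theorem lemA {X : Type*} [Group X] [Finite X] (hX : IsPGroup 2 X) {x w : X}
    (h : ∀ α : MulAut X, α x ∈ zpowers x) (hw : ∀ g, g ∈ zpowers x ∨ w⁻¹ * g ∈ zpowers x) :
    IsPGroup 2 (MulAut X) := by
  refine isPGroup_two_of_forall fun α hα => Triv.eq_one ?_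
  exact Triv.trans (p := 2) (Nat.coprime_two_right.mpr hα) (by simp)
    (fun g _ => by simpa using hX g) (triv_top hX (zp_inv h) hw hα) (triv_zp hX h hα)

theorem lemB {X : Type*} [Group X] [Finite X] (hX : IsPGroup 2 X) (A : Subgroup X) {d s w : X}
    {m : ℕ} (hd : orderOf d = 2 ^ (m + 3)) (hdA : d ∈ A) (hsA : s ∈ A) (hs : s ^ 2 = 1)
    (hds : Commute s d) (hA : ∀ g ∈ A, ∃ i : ℕ, g = d ^ i ∨ g = s * d ^ i)
    (hw : ∀ g, g ∈ A ∨ w⁻¹ * g ∈ A) (h4 : ∀ g, g ∉ A → g ^ 4 = 1) : IsPGroup 2 (MulAut X) := by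
  have hd4 : d ^ 4 ≠ 1 := fun h => by
    rw [← orderOf_dvd_iff_pow_eq_one, hd, show 4 = 2 ^ 2 by norm_num,
      Nat.pow_dvd_pow_iff_le_right (by norm_num)] at h
    omega
  have hc : ∀ a ∈ A, ∀ b ∈ A, Commute a b := by
    intro a ha b hb
    obtain ⟨i, rfl | rfl⟩ := hA a ha <;> obtain ⟨j, rfl | rfl⟩ := hA b hb
    · exact (Commute.refl d).pow_pow i j
    · exact (hds.symm.pow_left i).mul_right ((Commute.refl d).pow_pow i j)
    · exact (hds.pow_right j).mul_left ((Commute.refl d).pow_pow i j)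
    · exact ((Commute.refl s).mul_right (hds.pow_right j)).mul_left
        ((hds.symm.pow_left i).mul_right ((Commute.refl d).pow_pow i j))
  have h1 : ∀ (α : MulAut X) g, g ^ 4 ≠ 1 → α g ∈ A := fun α g hg => by
    by_contra h
    exact hg (α.injective (by rw [map_pow, h4 _ h, map_one]))
  have hAi : ∀ α : MulAut X, ∀ g ∈ A, α g ∈ A := fun α g hg => by
    by_cases h : g ^ 4 = 1
    · have := h1 α (g * d) (by rw [(hc g hg d hdA).mul_pow, h, one_mul]; exact hd4)
      rw [map_mul] at this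
      exact (mul_mem_cancel_right (h1 α d hd4)).mp this
    · exact h1 α g h
  have hsq : ∀ i k : ℕ, (s * d ^ i) ^ (2 * k) = (d ^ i) ^ (2 * k) := fun i k => by
    rw [(hds.pow_right i).mul_pow, pow_mul s, hs, one_pow, one_mul]
  have hB : ∀ α : MulAut X, α (d ^ 2) ∈ zpowers (d ^ 2) := fun α => by
    rw [map_pow]
    obtain ⟨i, h | h⟩ := hA _ (hAi α d hdA)
    · rw [h, ← pow_mul, mul_comm, pow_mul]; exact pow_mem (mem_zpowers _) i
    · rw [h, ← mul_one 2, hsq, mul_one, ← pow_mul, mul_comm, pow_mul]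
      exact pow_mem (mem_zpowers _) i
  let C : Subgroup X :=
    { carrier := {g | g ∈ A ∧ g ^ (2 * 2 ^ (m + 1)) = 1}
      one_mem' := ⟨one_mem _, one_pow _⟩
      mul_mem' := fun {a b} ha hb => ⟨mul_mem ha.1 hb.1, by
        rw [(hc a ha.1 b hb.1).mul_pow, ha.2, hb.2, one_mul]⟩
      inv_mem' := fun {a} ha => ⟨inv_mem ha.1, by rw [inv_pow, ha.2, inv_one]⟩ }
  have hCi : ∀ α : MulAut X, ∀ g ∈ C, α g ∈ C := fun α g hg =>
    ⟨hAi α g hg.1, by rw [← map_pow, hg.2, map_one]⟩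
  have hsC : s ∈ C := ⟨hsA, by rw [pow_mul, hs, one_pow]⟩
  haveI := normal_of_inv hCi
  haveI := normal_of_inv (zp_inv hB)
  have hev : ∀ i : ℕ, (d ^ i) ^ (2 * 2 ^ (m + 1)) = 1 → d ^ i ∈ zpowers (d ^ 2) := fun i hi => by
    rw [← pow_mul, ← orderOf_dvd_iff_pow_eq_one, hd, ← pow_succ', pow_succ', ] at hi
    obtain ⟨k, rfl⟩ := Nat.dvd_of_mul_dvd_mul_right (by positivity) hi
    rw [pow_mul]
    exact pow_mem (mem_zpowers _) k
  refine isPGroup_two_of_forall fun α hα => Triv.eq_one ?_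
  have hp : ∀ (M N : Subgroup X), ∀ g ∈ N, ∃ k, g ^ 2 ^ k ∈ M := fun M N g _ =>
    (hX g).imp fun k hk => by rw [hk]; exact one_mem _
  have hco := Nat.coprime_two_right.mpr hα
  have t1 : Triv α C A := Triv.of_cyclic hα (hCi α) (hAi α) hdA (fun g hg => by
    obtain ⟨i, rfl | rfl⟩ := hA g hg
    · exact ⟨i, by simp⟩
    · exact ⟨i, by rw [zpow_natCast, (hds.pow_right i).eq, inv_mul_cancel_left]; exact hsC⟩)
    (hp C ⊤ d trivial)
  have t2 : Triv α (zpowers (d ^ 2)) C := Triv.of_cyclic hα (zp_inv hB α) (hCi α) hsC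
    (fun g hg => by
      obtain ⟨i, rfl | rfl⟩ := hA g hg.1
      · exact ⟨0, by simpa using hev i hg.2⟩
      · exact ⟨1, by simpa using hev i (by rw [← hsq]; exact hg.2)⟩) (hp _ ⊤ s trivial)
  exact Triv.trans hco (by simp) (hp _ _) (Triv.trans hco (zp_inv hB α) (hp _ _)
    (Triv.trans hco (hCi α) (hp _ _) (triv_top hX hAi hw hα) t1) t2) (triv_zp hX hB hα)

theorem units3 : ∀ a : (ZMod 3)ˣ, a = 1 ∨ a = -1 := by decide

theorem units3' : ((-1, -1) : (ZMod 3)ˣ × (ZMod 3)ˣ) ≠ (1, 1) := by decide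

def dg (F : Type*) [Field F] : Fˣ × Fˣ →* ((Fin 2 → F) ≃ₗ[F] (Fin 2 → F)) where
  toFun u :=
    { toFun := fun v => ![u.1 * v 0, u.2 * v 1]
      invFun := fun v => ![(u.1⁻¹ : Fˣ) * v 0, (u.2⁻¹ : Fˣ) * v 1]
      map_add' := fun v w => by ext i; fin_cases i <;> simp [mul_add]
      map_smul' := fun c v => by ext i; fin_cases i <;> simp [mul_left_comm]
      left_inv := fun v => by ext i; fin_cases i <;> simp
      right_inv := fun v => by ext i; fin_cases i <;> simp }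
  map_one' := by ext v i; fin_cases i <;> simp
  map_mul' := fun a b => by ext v i; fin_cases i <;> simp [mul_assoc]

def sw (F : Type*) [Field F] : (Fin 2 → F) ≃ₗ[F] (Fin 2 → F) where
  toFun v := ![v 1, v 0]
  invFun v := ![v 1, v 0]
  map_add' := fun v w => by ext i; fin_cases i <;> simp
  map_smul' := fun c v => by ext i; fin_cases i <;> simp
  left_inv := fun v => by ext i; fin_cases i <;> simp
  right_inv := fun v => by ext i; fin_cases i <;> simp

theorem dg_apply {F : Type*} [Field F] (u : Fˣ × Fˣ) (v : Fin 2 → F) :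
    dg F u v = ![u.1 * v 0, u.2 * v 1] := rfl

theorem sw_apply {F : Type*} [Field F] (v : Fin 2 → F) : sw F v = ![v 1, v 0] := rfl

theorem dg_inj {F : Type*} [Field F] : Function.Injective (dg F) := fun a b h => by
  have := congrArg (fun f : (Fin 2 → F) ≃ₗ[F] (Fin 2 → F) => f 1) h
  simp only [dg_apply] at this
  exact Prod.ext (Units.ext (by simpa using congrFun this 0))
    (Units.ext (by simpa using congrFun this 1))

theorem sw_sw {F : Type*} [Field F] : sw F * sw F = 1 := by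
  ext v i; fin_cases i <;> simp [sw_apply]

theorem sw_dg {F : Type*} [Field F] (a b : Fˣ) : sw F * dg F (a, b) = dg F (b, a) * sw F := by
  ext v i; fin_cases i <;> simp [sw_apply, dg_apply]

theorem dg_sw_sq {F : Type*} [Field F] (a b : Fˣ) :
    (dg F (a, b) * sw F) ^ 2 = dg F (a * b, a * b) := by
  rw [pow_two, mul_assoc, ← mul_assoc (sw F), sw_dg, mul_assoc, sw_sw, mul_one, ← map_mul,
    Prod.mk_mul_mk, mul_comm b]

/-- Let q = 2^m + 1 be a prime other than 5. Then the automorphism group of the group of linear maps of F_q² of the forms (x, y) ↦ (a x, ± a⁻¹ y) and (x, y) ↦ (± a⁻¹ y, a x) with a ≠ 0 is itself a 2-group. -/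
theorem result (q m : ℕ) [Fact q.Prime] (hq : q = 2 ^ m + 1) (hq5 : q ≠ 5)
    (T : Subgroup ((Fin 2 → ZMod q) ≃ₗ[ZMod q] (Fin 2 → ZMod q)))
    (hT : ∀ f, f ∈ T ↔ ∃ a s : ZMod q, a ≠ 0 ∧ (s = 1 ∨ s = -1) ∧
      ((∀ v, f v = ![a * v 0, s * a⁻¹ * v 1]) ∨ (∀ v, f v = ![s * a⁻¹ * v 1, a * v 0]))) :
    IsPGroup 2 (MulAut T) := by
  haveI : Finite ((Fin 2 → ZMod q) ≃ₗ[ZMod q] (Fin 2 → ZMod q)) :=
    Finite.of_injective _ DFunLike.coe_injective
  have hT' : ∀ f, f ∈ T ↔ ∃ a b : (ZMod q)ˣ, (a * b = 1 ∨ a * b = -1) ∧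
      (f = dg _ (a, b) ∨ f = dg _ (a, b) * sw _) := by
    intro f
    rw [hT]
    constructor
    · rintro ⟨a, s, ha, hs, hf⟩
      have hs0 : s * a⁻¹ ≠ 0 := mul_ne_zero (by rcases hs with rfl | rfl <;> simp) (inv_ne_zero ha)
      have h1 : Units.mk0 a ha * Units.mk0 _ hs0 = 1 ∨ Units.mk0 a ha * Units.mk0 _ hs0 = -1 := by
        rcases hs with rfl | rfl
        · left; ext; simp [ha]
        · right; ext; simp [ha]
      rcases hf with hf | hf
      · exact ⟨_, _, h1, Or.inl (LinearEquiv.ext fun v => by rw [hf, dg_apply]; rfl)⟩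
      · exact ⟨_, _, mul_comm (Units.mk0 a ha) _ ▸ h1, Or.inr (LinearEquiv.ext fun v => by
          rw [hf, LinearEquiv.mul_apply, dg_apply]; rfl)⟩
    · rintro ⟨a, b, hab, rfl | rfl⟩
      · refine ⟨a, a * b, a.ne_zero, hab.imp (fun h => by simpa using congrArg Units.val h) (fun h => by simpa using congrArg Units.val h), Or.inl fun v => ?_⟩
        rw [dg_apply, mul_comm (a : ZMod q) b, mul_inv_cancel_right₀ a.ne_zero]
      · refine ⟨b, a * b, b.ne_zero, hab.imp (fun h => by simpa using congrArg Units.val h) (fun h => by simpa using congrArg Units.val h), Or.inr fun v => ?_⟩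
        rw [LinearEquiv.mul_apply, dg_apply, mul_inv_cancel_right₀ b.ne_zero]; rfl
  have hcard : Nat.card (ZMod q)ˣ = 2 ^ m := by
    rw [Nat.card_eq_fintype_card, ZMod.card_units, hq]; rfl
  have hu : ∀ a : (ZMod q)ˣ, a ^ 2 ^ m = 1 := fun a => hcard ▸ pow_card_eq_one'
  have h4 : ∀ a b : (ZMod q)ˣ, (a * b = 1 ∨ a * b = -1) → (dg _ (a, b) * sw _) ^ 4 = 1 := by
    intro a b hab
    rw [show 4 = 2 * 2 by rfl, pow_mul, dg_sw_sq, ← map_pow]
    rcases hab with h | h <;> rw [h] <;> simp [← Prod.one_eq_mk]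
  have hX : IsPGroup 2 T := by
    rintro ⟨f, hf⟩
    obtain ⟨a, b, hab, rfl | rfl⟩ := (hT' f).mp hf
    · exact ⟨m, Subtype.ext (by
        simp only [SubmonoidClass.mk_pow, OneMemClass.coe_one]
        rw [← map_pow, Prod.pow_mk, hu, hu]; exact map_one _)⟩
    · exact ⟨2, Subtype.ext (h4 a b hab)⟩
  let w : T := ⟨sw _, (hT' _).mpr ⟨1, 1, by simp, Or.inr (by rw [← Prod.one_eq_mk, map_one, one_mul])⟩⟩
  have hwi : (sw (ZMod q))⁻¹ = sw _ := inv_eq_of_mul_eq_one_right sw_sw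
  rcases m with _ | _ | _ | m
  · subst hq
    have h1 : ∀ a : (ZMod (2 ^ 0 + 1))ˣ, a = 1 := fun a => by simpa using hu a
    refine lemA hX (x := 1) (w := w) (by simp) ?_
    rintro ⟨f, hf⟩
    obtain ⟨a, b, hab, rfl | rfl⟩ := (hT' f).mp hf
    · left
      obtain rfl := h1 a; obtain rfl := h1 b
      rw [(Subtype.ext (map_one _) : (⟨_, hf⟩ : T) = 1)]; exact one_mem _
    · right
      obtain rfl := h1 a; obtain rfl := h1 b
      have : w⁻¹ * ⟨_, hf⟩ = 1 := Subtype.ext (by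
        simp only [w, ← Prod.one_eq_mk, map_one, one_mul]; simp)
      rw [this]; exact one_mem _
  · have hq3 : q = 3 := hq
    have h1 : ∀ a : (ZMod q)ˣ, a = 1 ∨ a = -1 := by subst hq3; exact units3
    have h1' : ((-1, -1) : (ZMod q)ˣ × (ZMod q)ˣ) ≠ (1, 1) := by subst hq3; exact units3'
    let x : T := ⟨dg _ (1, -1) * sw _, (hT' _).mpr ⟨1, -1, by simp, Or.inr rfl⟩⟩
    have e2 : x.1 ^ 2 = dg _ (-1, -1) := by simp only [x, dg_sw_sq]; simp
    have e3 : x.1 ^ 3 = dg _ (-1, 1) * sw _ := by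
      rw [pow_succ, e2]; simp only [x]; rw [← mul_assoc, ← map_mul]; simp
    have hm : ∀ (g : T) (k : ℕ), g.1 = x.1 ^ k → g ∈ zpowers x := fun g k h =>
      (Subtype.ext h : g = x ^ k) ▸ pow_mem (mem_zpowers x) k
    have e0 : dg (ZMod q) (1, 1) = 1 := map_one _
    refine lemA hX (x := x) (w := w) (fun α => ?_) ?_
    · have h2 : (α x) ^ 2 ≠ 1 := fun h => by
        rw [← map_pow, EmbeddingLike.map_eq_one_iff] at h
        have h3 := congrArg Subtype.val h
        simp only [SubmonoidClass.coe_pow, e2, OneMemClass.coe_one] at h3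
        exact h1' (dg_inj (h3.trans e0.symm))
      generalize α x = g at h2
      obtain ⟨f, hf⟩ := g
      have h3 : f ^ 2 ≠ 1 := fun h => h2 (Subtype.ext h)
      obtain ⟨a, b, hab, rfl | rfl⟩ := (hT' f).mp hf
      · exact absurd (by rw [← map_pow, Prod.pow_mk, ← e0]; exact congrArg _ (Prod.ext (hu a) (hu b))) h3
      · rw [dg_sw_sq] at h3
        rcases h1 a with rfl | rfl <;> rcases h1 b with rfl | rfl
        · simp [e0] at h3
        · exact hm _ 1 (by simp [x])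
        · exact hm _ 3 e3.symm
        · simp [e0] at h3
    · rintro ⟨f, hf⟩
      obtain ⟨a, b, hab, rfl | rfl⟩ := (hT' f).mp hf <;>
        rcases h1 a with rfl | rfl <;> rcases h1 b with rfl | rfl
      · exact Or.inl (hm _ 0 (by simp [e0]))
      · exact Or.inr (hm _ 3 (by rw [e3, ← sw_dg, ← hwi]; simp [w, hwi]))
      · exact Or.inr (hm _ 1 (by simp only [x, pow_one]; rw [← sw_dg]; simp [w, hwi]))
      · exact Or.inl (hm _ 2 e2.symm)
      · exact Or.inr (hm _ 0 (by simp [w, e0]))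
      · exact Or.inl (hm _ 1 (by simp [x]))
      · exact Or.inl (hm _ 3 e3.symm)
      · exact Or.inr (hm _ 2 (by rw [e2]; simp [w, ← sw_dg]))
  · exact absurd hq hq5
  · obtain ⟨g, hg⟩ := IsCyclic.exists_generator (α := (ZMod q)ˣ)
    have hgo : orderOf g = 2 ^ (m + 3) := (orderOf_eq_card_of_forall_mem_zpowers hg).trans hcard
    let d : T := ⟨dg _ (g, g⁻¹), (hT' _).mpr ⟨g, g⁻¹, by simp, Or.inl rfl⟩⟩
    let s : T := ⟨dg _ (1, -1), (hT' _).mpr ⟨1, -1, by simp, Or.inl rfl⟩⟩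
    have hout : ∀ f : T, f ∉ (dg (ZMod q)).range.subgroupOf T → ∃ a b : (ZMod q)ˣ,
        (a * b = 1 ∨ a * b = -1) ∧ f.1 = dg _ (a, b) * sw _ := fun f hf => by
      obtain ⟨a, b, hab, h | h⟩ := (hT' f.1).mp f.2
      · exact absurd ⟨_, h.symm⟩ hf
      · exact ⟨a, b, hab, h⟩
    refine lemB hX ((dg (ZMod q)).range.subgroupOf T) (d := d) (s := s) (w := w) (m := m) ?_
      ⟨_, rfl⟩ ⟨_, rfl⟩ ?_ ?_ ?_ ?_ ?_
    · rw [← Subgroup.orderOf_coe]
      simp only [d]
      rw [orderOf_injective _ dg_inj, Prod.orderOf_mk, orderOf_inv, Nat.lcm_self, hgo]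
    · exact Subtype.ext (by
        simp only [s, SubmonoidClass.mk_pow, OneMemClass.coe_one]
        rw [← map_pow]; simp [← Prod.one_eq_mk])
    · exact Subtype.ext (by
        simp only [s, d, MulMemClass.mk_mul_mk]
        rw [← map_mul, ← map_mul, mul_comm])
    · rintro ⟨f, hf⟩ ⟨⟨a', b'⟩, hf'⟩
      have hab : a' * b' = 1 ∨ a' * b' = -1 := by
        obtain ⟨a, b, hab, h | h⟩ := (hT' f).mp hf
        · obtain ⟨rfl, rfl⟩ := Prod.mk.inj (dg_inj (hf'.trans h))
          exact hab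
        · exfalso
          have h1 := congrArg (fun f : (Fin 2 → ZMod q) ≃ₗ[ZMod q] (Fin 2 → ZMod q) => f ![1, 0] 0)
            (hf'.trans h)
          simp [dg_apply, sw_apply] at h1
      obtain ⟨i, rfl⟩ := mem_powers_iff_mem_zpowers.mpr (hg a')
      refine ⟨i, hab.imp (fun h => Subtype.ext ?_) (fun h => Subtype.ext ?_)⟩
      · simp only [d, SubmonoidClass.mk_pow]
        rw [← map_pow, Prod.pow_mk, inv_pow]
        exact hf'.symm.trans (by rw [eq_inv_of_mul_eq_one_right h])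
      · simp only [d, s, SubmonoidClass.mk_pow, MulMemClass.mk_mul_mk]
        rw [← map_pow, Prod.pow_mk, inv_pow, ← map_mul]
        refine hf'.symm.trans (congrArg _ (Prod.ext (one_mul _).symm ?_))
        simp only at h
        simp only [Prod.snd_mul]
        rw [← h, mul_comm, inv_mul_cancel_left]
    · intro f
      by_cases hf : f ∈ (dg (ZMod q)).range.subgroupOf T
      · exact Or.inl hf
      · obtain ⟨a, b, -, h⟩ := hout f hf
        exact Or.inr ⟨(b, a), by simp [w, h, ← sw_dg]⟩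
    · intro f hf
      obtain ⟨a, b, hab, h⟩ := hout f hf
      exact Subtype.ext (by simp only [SubmonoidClass.coe_pow, h]; exact h4 a b hab)

end Cfsg.Agent.S3382
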