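import Cfsg.Statements.S3383

set_option autoImplicit false
open Cfsg

namespace Cfsg.Agent.S3383

open scoped Pointwise

theorem mem_conj_smul {L : Type*} [Group L] (H : Subgroup L) (g x : L) :
    x ∈ MulAut.conj g • H ↔ g⁻¹ * x * g ∈ H := by
  rw [Subgroup.mem_pointwise_smul_iff_inv_smul_mem]
  simp

/-- Let H be a Frobenius complement in a finite group L and K the Frobenius kernel (as a subgroup). Then K is characteristic in L, and every normal subgroup of L either contains K or is contained in K. -/
theorem result {L : Type*} [Group L] [Finite L]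
    (H : Subgroup L) (hH : Cfsg.IsFrobeniusComplement H)
    (K : Subgroup L) (hK : (K : Set L) = Cfsg.frobeniusKernel H) :
    K.Characteristic ∧ ∀ N : Subgroup L, N.Normal → K ≤ N ∨ N ≤ K := by
  have hmem : ∀ x : L, x ∈ K ↔ x = 1 ∨ ∀ g : L, g⁻¹ * x * g ∉ H := by
    intro x
    rw [← SetLike.mem_coe, hK]
    simp only [frobeniusKernel, Set.mem_ofPred_eq, mem_conj_smul]
  have hKn : K.Normal := by
    constructor
    intro x hx g
    rw [hmem] at hx ⊢
    rcases hx with rfl | hx
    · left; simp
    · right
      intro h hh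
      apply hx (g⁻¹ * h)
      simpa [mul_assoc] using hh
  have key : ∀ N : Subgroup L, N.Normal → K ≤ N ∨ N ≤ K := by
    intro N hN
    by_cases hNK : N ≤ K
    · exact Or.inr hNK
    left
    obtain ⟨y, hyN, hyK⟩ := SetLike.not_le_iff_exists.mp hNK
    rw [hmem] at hyK
    push Not at hyK
    obtain ⟨hy1, g, hg⟩ := hyK
    set x := g⁻¹ * y * g with hx
    have hxN : x ∈ N := by
      have := hN.conj_mem y hyN g⁻¹
      simpa using this
    have hx1 : x ≠ 1 := by
      intro h
      apply hy1
      have : y = g * x * g⁻¹ := by simp [hx, mul_assoc]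
      rw [this, h]; simp
    -- the centraliser of x in K is trivial
    have hcent : ∀ k ∈ K, k * x = x * k → k = 1 := by
      intro k hk hkx
      by_cases hkH : k ∈ H
      · rcases (hmem k).mp hk with h | h
        · exact h
        · exact absurd (by simpa using hkH) (h 1)
      · have h2 := hH.2.2 k hkH
        have : x ∈ H ⊓ MulAut.conj k • H := by
          refine ⟨hg, ?_⟩
          change x ∈ MulAut.conj k • H
          rw [mem_conj_smul]
          have : k⁻¹ * x * k = x := by rw [mul_assoc, ← hkx]; simp
          rw [this]; exact hg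
        rw [h2, Subgroup.mem_bot] at this
        exact absurd this hx1
    let f : K → K := fun k => ⟨k * (x * (k : L)⁻¹ * x⁻¹), K.mul_mem k.2 (hKn.conj_mem _ (K.inv_mem k.2) x)⟩
    have hf : Function.Injective f := by
      intro a b hab
      have h1 : (a : L) * (x * (a : L)⁻¹ * x⁻¹) = b * (x * (b : L)⁻¹ * x⁻¹) := congrArg Subtype.val hab
      have h2 : ((b : L)⁻¹ * a) * x = x * ((b : L)⁻¹ * a) := by
        have h3 : (a : L) * x * (a : L)⁻¹ = b * x * (b : L)⁻¹ := by
          have := congrArg (· * x) h1
          simpa [mul_assoc] using this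
        calc ((b : L)⁻¹ * a) * x = (b : L)⁻¹ * ((a : L) * x * (a : L)⁻¹) * a := by group
          _ = (b : L)⁻¹ * (b * x * (b : L)⁻¹) * a := by rw [h3]
          _ = x * ((b : L)⁻¹ * a) := by group
      have h4 := hcent _ (K.mul_mem (K.inv_mem b.2) a.2) h2
      ext
      rw [inv_mul_eq_one] at h4
      exact h4.symm
    have hs : Function.Surjective f := Finite.surjective_of_injective hf
    intro k hk
    obtain ⟨a, ha⟩ := hs ⟨k, hk⟩
    have h1 : (a : L) * (x * (a : L)⁻¹ * x⁻¹) = k := congrArg Subtype.val ha
    rw [← h1]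
    have : (a : L) * (x * (a : L)⁻¹ * x⁻¹) = (a * x * (a : L)⁻¹) * x⁻¹ := by group
    rw [this]
    exact N.mul_mem (hN.conj_mem x hxN a) (N.inv_mem hxN)
  refine ⟨?_, key⟩
  rw [Subgroup.characteristic_iff_map_eq]
  intro φ
  have hcard : Nat.card (K.map φ.toMonoidHom) = Nat.card K :=
    Subgroup.card_map_of_injective φ.injective
  have hn : (K.map φ.toMonoidHom).Normal := hKn.map _ φ.surjective
  rcases key _ hn with h | h
  · exact (Subgroup.eq_of_le_of_card_ge h hcard.le).symm
  · exact Subgroup.eq_of_le_of_card_ge h hcard.ge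

end Cfsg.Agent.S3383
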