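import Cfsg.Statements.S3419
import Cfsg.Agent.PERM.Spec2

set_option autoImplicit false
open Cfsg

namespace Cfsg.Agent.S3419

open CL.Spec

/-- Let n ≥ 5 and let G be a finite group with the same order and the same set of element orders as the alternating group of degree n. Then G is not solvable. -/
theorem result {G : Type*} [Group G] [Finite G] (n : ℕ) (hn : 5 ≤ n)
    (hcard : Nat.card G = Nat.card ↥(alternatingGroup (Fin n)))
    (hspec : Set.range (orderOf : G → ℕ) = Set.range (orderOf : ↥(alternatingGroup (Fin n)) → ℕ)) :
    ¬ Group.IsSolvable G := by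
  by_cases h : 11 ≤ n
  · obtain ⟨p, q, hp, hq, h1, h2, h3⟩ := exists_two_large h
    exact not_isSolvable_of_pair hp hq h2.ne (dvd_card_alt hn hcard hp (by omega) (by omega))
      (dvd_card_alt hn hcard hq (by omega) h3) (no_elt hspec hp hq h2.ne (by omega))
      (good_of_large hn hcard hp hq h1 (by omega) (by omega))
      (good_of_large hn hcard hq hp (by omega) h3 h1)
  have h3 : Nat.Prime 3 := by norm_num
  have h5 : Nat.Prime 5 := by norm_num
  have h7 : Nat.Prime 7 := by norm_num
  by_cases h' : 8 ≤ n
  · refine not_isSolvable_of_pair h5 h7 (by norm_num) (dvd_card_alt hn hcard h5 (by omega) (by omega))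
      (dvd_card_alt hn hcard h7 (by omega) (by omega)) (no_elt hspec h5 h7 (by norm_num) (by omega))
      (fun k hk h1 => ?_) (fun k hk h1 => ?_)
    · have : k ≤ 2 := (le_div_of_pow_dvd hn hcard h5 (by omega) h1).trans (by omega)
      interval_cases k <;> norm_num
    · have : k ≤ 1 := (le_div_of_pow_dvd hn hcard h7 (by omega) h1).trans (by omega)
      interval_cases k <;> norm_num
  · refine not_isSolvable_of_pair h3 h5 (by norm_num) (dvd_card_alt hn hcard h3 (by omega) (by omega))
      (dvd_card_alt hn hcard h5 (by omega) (by omega)) (no_elt hspec h3 h5 (by norm_num) (by omega))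
      (fun k hk h1 => ?_) (fun k hk h1 => ?_)
    · have : k ≤ 2 := (le_div_of_pow_dvd hn hcard h3 (by omega) h1).trans (by omega)
      interval_cases k <;> norm_num
    · have : k ≤ 1 := (le_div_of_pow_dvd hn hcard h5 (by omega) h1).trans (by omega)
      interval_cases k <;> norm_num

end Cfsg.Agent.S3419
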