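import Cfsg.Statements.S3420
import Cfsg.Agent.PERM.Spec2

set_option autoImplicit false
open Cfsg

namespace Cfsg.Agent.S3420

open CL.Spec Subgroup
open scoped IsMulCommutative

/-- Let n ≥ 11 and let G be a finite group with the same order and the same set of element orders as the alternating group of degree n. Then G has normal subgroups N < H such that H/N is a non-abelian simple group whose order is divisible by every prime p with n/2 < p ≤ n. -/
theorem result {G : Type*} [Group G] [Finite G] (n : ℕ) (hn : 11 ≤ n)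
    (hcard : Nat.card G = Nat.card ↥(alternatingGroup (Fin n)))
    (hspec : Set.range (orderOf : G → ℕ) = Set.range (orderOf : ↥(alternatingGroup (Fin n)) → ℕ)) :
    ∃ (N H : Subgroup G) (_ : N.Normal), H.Normal ∧ N < H ∧
      IsSimpleGroup (↥H ⧸ N.subgroupOf H) ∧ ¬ IsMulCommutative (↥H ⧸ N.subgroupOf H) ∧
      ∀ p : ℕ, p.Prime → n < 2 * p → p ≤ n → p ∣ Nat.card (↥H ⧸ N.subgroupOf H) := by
  have hn5 : 5 ≤ n := by omega
  obtain ⟨p, q, hp, hq, h1, h2, h3⟩ := exists_two_large hn
  have hpG := dvd_card_alt hn5 hcard hp (by omega) (by omega : p ≤ n)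
  obtain ⟨N, H, hN, hH, hlt, hm, h4, h5⟩ := exists_chief_dvd hp hpG
  have key : ∀ r : ℕ, r.Prime → n < 2 * r → r ≤ n → r ∣ N.relIndex H := fun r hr h6 h7 => by
    by_cases hpr : p = r
    · exact hpr ▸ dvd_relIndex hlt.le hp h4 h5
    exact dvd_relIndex hlt.le hr (dvd_card_of_dvd H hp hr hpr h4
      (dvd_card_alt hn5 hcard hr (by omega) h7) (no_elt hspec hp hr hpr (by omega))
      (good_of_large hn5 hcard hp hr h1 (by omega) h6)) fun h => h5 (dvd_card_of_dvd N hr hp
        (Ne.symm hpr) h hpG (no_elt hspec hr hp (Ne.symm hpr) (by omega))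
        (good_of_large hn5 hcard hr hp h6 h7 h1))
  haveI := hm.normal
  obtain ⟨T, _, m, hT, hm0, ⟨e⟩⟩ := Cfsg.Agent.S0721.result _ hm.ne_bot hm.eq_bot_or_eq
  have hc : N.relIndex H = Nat.card T ^ m := by
    rw [← CL.card_map_mk'_eq_relIndex, Nat.card_congr e.toEquiv, Nat.card_fun]; simp
  have hm1 : m = 1 := by
    have h6 : p ^ m ∣ Nat.card G := (pow_dvd_pow_of_dvd
      (hp.dvd_of_dvd_pow (hc ▸ key p hp h1 (by omega))) m).trans
      (hc ▸ (relIndex_dvd_card N H).trans (card_subgroup_dvd_card H))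
    have h7 := le_div_of_pow_dvd hn5 hcard hp (by nlinarith [hp.two_le]) h6
    have h8 : n / p < 2 := (Nat.div_lt_iff_lt_mul hp.pos).mpr h1
    omega
  subst hm1
  have hk : ((QuotientGroup.mk' N).subgroupMap H).ker = N.subgroupOf H := by
    ext x
    simp [MonoidHom.mem_ker, Subtype.ext_iff, mem_subgroupOf]
  have e' : (H ⧸ N.subgroupOf H) ≃* T := (QuotientGroup.quotientMulEquivOfEq hk.symm).trans
    ((QuotientGroup.quotientKerEquivOfSurjective _
      ((QuotientGroup.mk' N).subgroupMap_surjective H)).trans (e.trans (MulEquiv.funUnique _ _)))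
  haveI : IsSimpleGroup (H ⧸ N.subgroupOf H) := e'.isSimpleGroup
  refine ⟨N, H, hN, hH, hlt, inferInstance, fun h => ?_, key⟩
  have h6 : (N.relIndex H).Prime := IsSimpleGroup.prime_card (α := H ⧸ N.subgroupOf H)
  exact h2.ne (((Nat.prime_dvd_prime_iff_eq hp h6).mp (key p hp h1 (by omega))).trans
    ((Nat.prime_dvd_prime_iff_eq hq h6).mp (key q hq (by omega) h3)).symm)

end Cfsg.Agent.S3420
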