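import Cfsg.Statements.S3431
import Cfsg.Agent.FGS.Nse
import Cfsg.Agent.S0228
import Cfsg.Agent.S0497
import Cfsg.Agent.CLAS.Polyhedral

set_option autoImplicit false
open Cfsg

namespace Cfsg.Agent.S3431

open Finset Subgroup CL.Nse Equiv

theorem s_alt {n m k : ℕ} (P : Perm (Fin n) → Prop) [DecidablePred P]
    (hP : ∀ g : Perm (Fin n), orderOf g = m ↔ P g)
    (h : #{g : Perm (Fin n) | Perm.sign g = 1 ∧ P g} = k) : s (alternatingGroup (Fin n)) m = k := by
  rw [← h, ← Fintype.card_subtype, ← Nat.card_eq_fintype_card]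
  exact Nat.card_congr ((Equiv.subtypeEquivRight fun g => by rw [← orderOf_coe, hP]).trans
    (Equiv.subtypeSubtypeEquivSubtypeInter (fun g => g ∈ alternatingGroup (Fin n)) P))

theorem ord_prime {H : Type*} [Group H] (p : ℕ) (hp : p.Prime) (g : H) :
    orderOf g = p ↔ g ^ p = 1 ∧ g ≠ 1 :=
  have := Fact.mk hp
  orderOf_eq_prime_iff

theorem ord_four {H : Type*} [Group H] (g : H) : orderOf g = 4 ↔ g ^ 4 = 1 ∧ g ^ 2 ≠ 1 :=
  ⟨fun h => ⟨h ▸ pow_orderOf_eq_one g, fun e => by
    have := orderOf_dvd_of_pow_eq_one e; rw [h] at this; omega⟩, fun h => orderOf_eq_prime_pow (p := 2) (n := 1) h.2 h.1⟩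

theorem img {H : Type*} [Group H] [Finite H] (T : Finset ℕ) (h1 : ∀ g : H, orderOf g ∈ T)
    (h2 : ∀ m ∈ T, s H m ≠ 0) : (fun m : ℕ => Nat.card {g : H // orderOf g = m}) ''
      Set.range (orderOf : H → ℕ) = s H '' T := by
  congr 1
  ext m
  exact ⟨by rintro ⟨g, rfl⟩; exact h1 g, fun h => exists_of_ne_zero (h2 m h)⟩

theorem ord_mem {H : Type*} [Group H] {g : H} (h : g ^ 4 = 1 ∨ g ^ 3 = 1 ∨ g ^ 5 = 1) :
    orderOf g ∈ ({1, 2, 3, 4, 5} : Finset ℕ) := by
  simp only [← orderOf_dvd_iff_pow_eq_one] at h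
  rcases h with h | h | h <;> have := Nat.le_of_dvd (by omega) h <;>
    interval_cases orderOf g <;> simp_all

set_option maxRecDepth 100000 in
theorem img4 : (fun m : ℕ => Nat.card {g : alternatingGroup (Fin 4) // orderOf g = m}) ''
    Set.range (orderOf : alternatingGroup (Fin 4) → ℕ) = {1, 3, 8} := by
  have h2 := s_alt (n := 4) (k := 3) _ (ord_prime 2 Nat.prime_two) (by decide +kernel)
  have h3 := s_alt (n := 4) (k := 8) _ (ord_prime 3 Nat.prime_three) (by decide +kernel)
  have h0 : ∀ g : Perm (Fin 4), Perm.sign g = 1 → g ^ 2 = 1 ∨ g ^ 3 = 1 := by decide +kernel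
  rw [img {1, 2, 3} (fun g => ?_) (by simp [s_one, h2, h3])]
  · simp [Set.image_insert_eq, s_one, h2, h3]
  · have := h0 g g.2
    simp only [← orderOf_dvd_iff_pow_eq_one, orderOf_coe] at this
    rcases this with h | h <;> have := Nat.le_of_dvd (by omega) h <;>
      interval_cases orderOf g <;> simp_all

set_option maxRecDepth 100000 in
theorem img5 : (fun m : ℕ => Nat.card {g : alternatingGroup (Fin 5) // orderOf g = m}) ''
    Set.range (orderOf : alternatingGroup (Fin 5) → ℕ) = {1, 15, 20, 24} := by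
  have h2 := s_alt (n := 5) (k := 15) _ (ord_prime 2 Nat.prime_two) (by decide +kernel)
  have h3 := s_alt (n := 5) (k := 20) _ (ord_prime 3 Nat.prime_three) (by decide +kernel)
  have h5 := s_alt (n := 5) (k := 24) _ (ord_prime 5 Nat.prime_five) (by decide +kernel)
  have h0 : ∀ g : Perm (Fin 5), Perm.sign g = 1 → g ^ 2 = 1 ∨ g ^ 3 = 1 ∨ g ^ 5 = 1 := by
    decide +kernel
  rw [img {1, 2, 3, 5} (fun g => ?_) (by simp [s_one, h2, h3, h5])]
  · simp [Set.image_insert_eq, s_one, h2, h3, h5]
  · have := h0 g g.2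
    simp only [← orderOf_dvd_iff_pow_eq_one, orderOf_coe] at this
    rcases this with h | h | h <;> have := Nat.le_of_dvd (by omega) h <;>
      interval_cases orderOf g <;> simp_all

set_option maxRecDepth 100000 in
theorem img6 : (fun m : ℕ => Nat.card {g : alternatingGroup (Fin 6) // orderOf g = m}) ''
    Set.range (orderOf : alternatingGroup (Fin 6) → ℕ) = {1, 45, 80, 90, 144} := by
  have h2 := s_alt (n := 6) (k := 45) _ (ord_prime 2 Nat.prime_two) (by decide +kernel)
  have h3 := s_alt (n := 6) (k := 80) _ (ord_prime 3 Nat.prime_three) (by decide +kernel)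
  have h4 := s_alt (n := 6) (k := 90) _ ord_four (by decide +kernel)
  have h5 := s_alt (n := 6) (k := 144) _ (ord_prime 5 Nat.prime_five) (by decide +kernel)
  have h0 : ∀ g : Perm (Fin 6), Perm.sign g = 1 → g ^ 4 = 1 ∨ g ^ 3 = 1 ∨ g ^ 5 = 1 := by
    decide +kernel
  rw [img {1, 2, 3, 4, 5} (fun g => ?_) (by simp [s_one, h2, h3, h4, h5])]
  · simp [Set.image_insert_eq, s_one, h2, h3, h4, h5]
  · rw [← orderOf_coe]; exact ord_mem (h0 g g.2)

section
variable {G : Type*} [Group G] [Finite G]

theorem vals {S : Set ℕ} (h : (fun m : ℕ => Nat.card {g : G // orderOf g = m}) ''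
    Set.range (orderOf : G → ℕ) = S) : (∀ m, s G m = 0 ∨ s G m ∈ S) ∧ ∀ v ∈ S, ∃ m, s G m = v :=
  ⟨fun m => or_iff_not_imp_left.2 fun h0 => h ▸ ⟨m, exists_of_ne_zero h0, rfl⟩,
    fun v hv => by obtain ⟨m, -, e⟩ := h ▸ hv; exact ⟨m, e⟩⟩

theorem s_two {k : ℕ} (h : ∃ m, s G m = k) (h1 : k ≠ 1) (h2 : k % 2 = 1) : s G 2 = k := by
  obtain ⟨m, rfl⟩ := h
  match m with
  | 0 =>
    have : s G 0 = 0 := s_eq_zero_iff.2 fun ⟨g, hg⟩ => (orderOf_pos g).ne' hg
    omega
  | 1 => exact absurd s_one h1
  | 2 => rfl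
  | m + 3 => have := two_dvd (G := G) (m := m + 3) (by omega); omega

omit [Group G] [Finite G] in
theorem dvd_of_primes {N : ℕ} (h : ∀ p k : ℕ, p.Prime → p ^ (k + 1) ∣ Nat.card G → p ^ (k + 1) ∣ N) :
    Nat.card G ∣ N :=
  (Nat.dvd_iff_prime_pow_dvd_dvd _ _).2 fun p k hp hk => by
    rcases k with - | k
    · simp
    · exact h p k hp hk

omit [Group G] [Finite G] in
theorem pow_dvd_of_not {p e k N : ℕ} (h : ¬ p ^ (e + 1) ∣ Nat.card G) (hk : p ^ k ∣ Nat.card G)
    (hN : p ^ e ∣ N) : p ^ k ∣ N := by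
  refine (pow_dvd_pow p (by_contra fun h' => h ((pow_dvd_pow p (by omega)).trans hk))).trans hN

theorem tot (m k : ℕ) (h : m.totient = k) : k ∣ s G m := h ▸ totient_dvd m

theorem fr2 {p N : ℕ} (m : ℕ) (hp : p.Prime) (hN : N = p ^ 2) (h : N ∣ Nat.card G) (hm : ¬ p ∣ m) :
    N ∣ s G m + s G (p * m) + s G (N * m) := by
  subst hN
  simpa [sum_range_succ] using frob_pow hp h hm

theorem fr3 {p N : ℕ} (m : ℕ) (hp : p.Prime) (hN : N = p ^ 3) (h : N ∣ Nat.card G) (hm : ¬ p ∣ m) :
    N ∣ s G m + s G (p * m) + s G (p ^ 2 * m) + s G (N * m) := by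
  subst hN
  simpa [sum_range_succ] using frob_pow hp h hm

theorem fr4 {p N : ℕ} (m : ℕ) (hp : p.Prime) (hN : N = p ^ 4) (h : N ∣ Nat.card G) (hm : ¬ p ∣ m) :
    N ∣ s G m + s G (p * m) + s G (p ^ 2 * m) + s G (p ^ 3 * m) + s G (N * m) := by
  subst hN
  simpa [sum_range_succ] using frob_pow hp h hm

theorem sum_vals {T : Finset ℕ} (h : ∀ v ∈ T, ∃ m, s G m = v) : ∑ v ∈ T, v ≤ Nat.card G := by
  classical
  choose! f hf using h
  have := sum_le_card (G := G) (T.image f)
  rwa [sum_image fun a ha b hb e => by rw [← hf a ha, ← hf b hb, e], sum_congr rfl hf] at this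

theorem four (h1 : ∀ m, s G m = 0 ∨ s G m ∈ ({1, 3, 8} : Set ℕ))
    (h2 : ∀ v ∈ ({1, 3, 8} : Set ℕ), ∃ m, s G m = v) : Nonempty (G ≃* alternatingGroup (Fin 4)) := by
  have s2 := s_two (h2 3 (by simp)) (by omega) rfl
  have hv : ∀ m, 3 ≤ m → s G m = 0 ∨ s G m = 8 := fun m hm => by
    have := two_dvd (G := G) hm
    have := h1 m
    simp only [Set.mem_insert_iff, Set.mem_singleton_iff] at this
    omega
  have hle : 12 ≤ Nat.card G := sum_vals (T := {1, 3, 8}) (by simpa using h2)
  have h8 : ¬ 2 ^ (2 + 1) ∣ Nat.card G := fun h => by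
    have := fr3 (G := G) 1 Nat.prime_two rfl h (by omega)
    have := hv 4 (by omega)
    have := hv 8 (by omega)
    simp only [s_one, Nat.reduceMul, Nat.reducePow] at *
    omega
  have h9 : ¬ 3 ^ (1 + 1) ∣ Nat.card G := fun h => by
    have := fr2 (G := G) 2 Nat.prime_three rfl h (by omega)
    have := hv 6 (by omega)
    have := hv 18 (by omega)
    have := tot (G := G) 18 6 (by decide)
    simp only [Nat.reduceMul, Nat.reducePow] at *
    omega
  have hd : Nat.card G ∣ 12 := dvd_of_primes fun p k hp hk => by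
    have hpG := (dvd_pow_self p (by omega)).trans hk
    by_cases p2 : p = 2
    · exact p2 ▸ pow_dvd_of_not h8 (p2 ▸ hk) (by decide)
    have f := frob_one hp hpG
    rw [(hv p (by have := hp.two_le; omega)).resolve_left (ne_zero_of_prime hp hpG)] at f
    obtain rfl := (Nat.prime_dvd_prime_iff_eq hp Nat.prime_three).1 (hp.dvd_of_dvd_pow (n := 2) f)
    exact pow_dvd_of_not h9 hk (by decide)
  have hc : Nat.card G = 12 := le_antisymm (Nat.le_of_dvd (by omega) hd) hle
  refine Cfsg.Agent.S0228.result hc fun z hz hzc => ?_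
  obtain ⟨x, hx⟩ := exists_of_ne_zero (ne_zero_of_prime (G := G) Nat.prime_three (by omega))
  have h6 : s G 6 ≠ 0 := by
    have := s_orderOf_ne_zero (x * z)
    rwa [(show Commute x z from mem_center_iff.1 hzc x).orderOf_mul_eq_mul_orderOf_of_coprime
      (by rw [hx, hz]; decide), hx, hz] at this
  have := frob_prime (G := G) Nat.prime_three (by omega) (m := 2) (by omega)
  have := hv 6 (by omega)
  simp only [Nat.reduceMul] at *
  omega

theorem five (h1 : ∀ m, s G m = 0 ∨ s G m ∈ ({1, 15, 20, 24} : Set ℕ))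
    (h2 : ∀ v ∈ ({1, 15, 20, 24} : Set ℕ), ∃ m, s G m = v) : Nonempty (G ≃* alternatingGroup (Fin 5)) := by
  have s2 := s_two (h2 15 (by simp)) (by omega) rfl
  have hv : ∀ m, 3 ≤ m → s G m = 0 ∨ s G m = 20 ∨ s G m = 24 := fun m hm => by
    have := two_dvd (G := G) hm
    have := h1 m
    simp only [Set.mem_insert_iff, Set.mem_singleton_iff] at this
    omega
  have hle : 60 ≤ Nat.card G := sum_vals (T := {1, 15, 20, 24}) (by simpa using h2)
  have := Fact.mk Nat.prime_three
  have := Fact.mk Nat.prime_five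
  obtain ⟨P3⟩ : Nonempty (Sylow 3 G) := inferInstance
  obtain ⟨P5⟩ : Nonempty (Sylow 5 G) := inferInstance
  have pr : ∀ p : ℕ, p.Prime → p ∣ Nat.card G → p = 2 ∨ p = 3 ∨ p = 5 := fun p hp hd => by
    have f := frob_one hp hd
    have t := tot (G := G) p _ (Nat.totient_prime hp)
    have n := ne_zero_of_prime hp hd
    by_cases p2 : p = 2
    · exact .inl p2
    have := hp.two_le
    rcases hv p (by omega) with e | e | e <;> rw [e] at f t n
    · omega
    all_goals
      have := Nat.le_of_dvd (by omega) f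
      interval_cases p <;> first | omega | exact absurd hp (by decide)
  have s3 : 3 ∣ Nat.card G → s G 3 = 20 := fun h => by
    have := frob_one Nat.prime_three h
    have := hv 3 (by omega)
    omega
  have s5 : 5 ∣ Nat.card G → s G 5 = 24 := fun h => by
    have := frob_one Nat.prime_five h
    have := hv 5 (by omega)
    omega
  have h25 : ¬ 5 ^ (1 + 1) ∣ Nat.card G := fun h => by
    have := fr2 (G := G) 2 Nat.prime_five rfl h (by omega)
    have := hv 10 (by omega)
    have := hv 50 (by omega)
    have := tot (G := G) 50 20 (by decide)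
    simp only [Nat.reduceMul, Nat.reducePow] at *
    omega
  have h9 : ¬ 3 ^ (1 + 1) ∣ Nat.card G := fun h => by
    have e3 := s3 (by omega)
    have e9 : s G (3 ^ 2) = 24 := by
      have := fr2 (G := G) 1 Nat.prime_three rfl h (by omega)
      have := hv 9 (by omega)
      simp only [s_one, Nat.reduceMul, Nat.reducePow] at *
      omega
    have h27 : ¬ 3 ^ (2 + 1) ∣ Nat.card G := fun h => by
      have := fr3 (G := G) 1 Nat.prime_three rfl h (by omega)
      have := hv 27 (by omega)
      have := tot (G := G) 27 18 (by decide)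
      simp only [s_one, Nat.reduceMul, Nat.reducePow] at *
      omega
    have := s_prime_dvd P3 (isCyclic_sylow P3 h27 (by omega)) (m := 3 ^ 2) (by omega)
    rw [e3, e9] at this
    omega
  have c3 : 3 ∣ Nat.card G → IsCyclic P3 := fun h => isCyclic_sylow P3 h9 (by rw [pow_one, s3 h]; omega)
  have c5 : 5 ∣ Nat.card G → IsCyclic P5 := fun h => isCyclic_sylow P5 h25 (by rw [pow_one, s5 h]; omega)
  have d3 : 3 ∣ Nat.card G := by
    by_contra n3
    have n5 : ¬ 5 ∣ Nat.card G := fun h => by
      have := s_prime_dvd_card P5 (c5 h) h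
      rw [s5 h] at this
      omega
    have hk := Nat.eq_prime_pow_of_unique_prime_dvd (p := 2) (Nat.card_pos (α := G)).ne'
      fun {p} hp hd => by rcases pr p hp hd with rfl | rfl | rfl <;> omega
    generalize (Nat.card G).primeFactorsList.length = k at hk
    have h64 : 2 ^ 6 ∣ Nat.card G := by
      rw [hk] at hle ⊢
      refine pow_dvd_pow 2 (by_contra fun h => ?_)
      have := Nat.pow_le_pow_right two_pos (by omega : k ≤ 5)
      omega
    have f := frob_pow_trunc (k := 4) Nat.prime_two h64 (m := 1) (by omega) (by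
      have := hv 32 (by omega)
      have := tot (G := G) 32 16 (by decide)
      simp only [Nat.reduceMul, Nat.reducePow, Nat.reduceAdd] at *
      omega)
    have := hv 4 (by omega)
    have := hv 8 (by omega)
    have := hv 16 (by omega)
    have := tot (G := G) 16 8 (by decide)
    simp only [sum_range_succ, range_zero, sum_empty, Nat.reduceMul, Nat.reducePow, s_one] at f
    obtain ⟨m, hm⟩ := h2 20 (by simp)
    obtain ⟨i, -, rfl⟩ := (Nat.dvd_prime_pow Nat.prime_two).1
      (hk ▸ dvd_card_of_ne_zero (G := G) (m := m) (by omega))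
    match i with
    | 0 => simp [s_one] at hm
    | 1 | 2 | 3 => simp only [Nat.reducePow] at hm; omega
    | i + 4 =>
      have := (Nat.totient_dvd_of_dvd (pow_dvd_pow 2 (by omega : 4 ≤ i + 4))).trans (totient_dvd (G := G) _)
      rw [hm] at this
      revert this; decide
  have e3 := s3 d3
  have d5 : 5 ∣ Nat.card G := by
    have := s_prime_dvd_card P3 (c3 d3) d3
    rw [e3] at this
    omega
  have e5 := s5 d5
  have e6 : s G 6 = 0 := by
    have := s_prime_dvd P3 (c3 d3) (m := 6) (by omega)
    have := frob_prime Nat.prime_three d3 (m := 2) (by omega)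
    have := hv 6 (by omega)
    simp only [e3, Nat.reduceMul] at *
    omega
  have h8 : ¬ 2 ^ (2 + 1) ∣ Nat.card G := fun h => by
    have := fr3 (G := G) 3 Nat.prime_two rfl h (by omega)
    have := s_eq_zero_of_dvd (m := 12) (by omega) e6
    have := s_eq_zero_of_dvd (m := 24) (by omega) e6
    simp only [Nat.reduceMul, Nat.reducePow] at *
    omega
  have hd : Nat.card G ∣ 60 := dvd_of_primes fun p k hp hk => by
    rcases pr p hp ((dvd_pow_self p (by omega)).trans hk) with rfl | rfl | rfl
    exacts [pow_dvd_of_not h8 hk (by decide), pow_dvd_of_not h9 hk (by decide),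
      pow_dvd_of_not h25 hk (by decide)]
  refine CL.Dk.NoCycNormal.alt_five (fun g hg => by_contra fun hg1 => ?_)
    (le_antisymm (Nat.le_of_dvd (by omega) hd) hle)
  obtain ⟨p, hp, hpg⟩ := Nat.exists_prime_and_dvd (mt orderOf_eq_one_iff.1 hg1)
  have hx := orderOf_pow_orderOf_div (orderOf_pos g).ne' hpg
  have hn : (zpowers (g ^ (orderOf g / p))).Normal := ⟨by
    rintro _ ⟨k, rfl⟩ c
    obtain ⟨j, hj⟩ := hg.conj_mem g (mem_zpowers g) c
    refine ⟨j * k, ?_⟩
    simp only at hj ⊢
    rw [← conj_zpow, ← conj_pow, ← hj, zpow_mul, ← zpow_natCast, ← zpow_natCast, zpow_comm g]⟩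
  generalize g ^ (orderOf g / p) = x at hx hn
  rcases pr p hp (hpg.trans (orderOf_dvd_natCard g)) with rfl | rfl | rfl
  · obtain ⟨y, hy⟩ := exists_of_ne_zero (G := G) (m := 3) (by omega)
    have hc : Commute y x := by
      classical
      have h3 := hn.conj_mem x (mem_zpowers x) y
      rw [mem_zpowers_iff_mem_range_orderOf, hx] at h3
      simp only [mem_image, mem_range] at h3
      obtain ⟨i, hi, e⟩ := h3
      interval_cases i
      · rw [pow_zero, eq_comm, conj_eq_one_iff] at e
        simp [e] at hx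
      · exact mul_inv_eq_iff_eq_mul.1 (by simpa using e.symm)
    have := s_orderOf_ne_zero (y * x)
    rw [hc.orderOf_mul_eq_mul_orderOf_of_coprime (by rw [hx, hy]; decide), hx, hy] at this
    exact this e6
  · have := s_prime_eq P3 (c3 d3) hx
    rw [normalizer_eq_top, index_top] at this
    omega
  · have := s_prime_eq P5 (c5 d5) hx
    rw [normalizer_eq_top, index_top] at this
    omega

theorem s_normal (N : Subgroup G) [N.Normal] {m : ℕ} (h : m.Coprime N.index) : s N m = s G m :=
  Nat.card_congr ((Equiv.subtypeEquivRight fun g => by rw [orderOf_coe]).trans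
    ((Equiv.subtypeSubtypeEquivSubtypeInter (fun g => g ∈ N) fun g => orderOf g = m).trans
      (Equiv.subtypeEquivRight fun g => and_iff_right_of_imp fun hg => by
        rw [← QuotientGroup.eq_one_iff, ← orderOf_eq_one_iff]
        exact Nat.eq_one_of_dvd_coprimes h (hg ▸ orderOf_map_dvd (QuotientGroup.mk' N) g)
          (orderOf_dvd_natCard _))))

theorem simple_six (hc : Nat.card G = 360) (e3 : s G 3 = 80) (e5 : s G 5 = 144) (e10 : s G 10 = 0)
    (e15 : s G 15 = 0) : IsSimpleGroup G := by
  have : Nontrivial G := Finite.one_lt_card_iff_nontrivial.1 (by omega)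
  refine ⟨fun N hN => ?_⟩
  have hi := N.card_mul_index
  rw [hc] at hi
  have hd : Nat.card N ∣ 360 := Dvd.intro _ hi
  by_cases d5 : 5 ∣ Nat.card N
  · right
    have n5 : ¬ 5 ∣ N.index := fun h => by
      have := hi ▸ Nat.mul_dvd_mul d5 h
      omega
    have f5 := s_normal N ((Nat.Prime.coprime_iff_not_dvd Nat.prime_five).2 n5)
    have h1 := sum_le_card (G := N) {1, 3, 5}
    rw [sum_insert (by simp), sum_pair (by simp), s_one, f5, e5] at h1
    have h2 : N.index < 3 := by
      by_contra h
      nlinarith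
    have h3 : N.index ≠ 0 := index_ne_zero_of_finite
    by_cases h4 : N.index = 2
    · rw [s_normal N (by rw [h4]; decide), e3] at h1
      rw [h4] at hi
      omega
    · exact index_eq_one.1 (by omega)
  left
  have key : ∀ x ∈ N, x ≠ 1 → 5 ∣ (centralizer ({x} : Set G)).relIndex ⊤ := fun x hx h1 => by
    rw [relIndex_top_right]
    have h2 := (centralizer ({x} : Set G)).card_mul_index
    refine ((Nat.Prime.dvd_mul Nat.prime_five).1 (by rw [h2, hc]; omega)).resolve_left fun h => ?_
    have := Fact.mk Nat.prime_five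
    obtain ⟨y, hy⟩ := exists_prime_orderOf_dvd_card' 5 h
    have h3 : orderOf x ∣ Nat.card N := orderOf_mk x hx ▸ orderOf_dvd_natCard _
    have h4 := s_orderOf_ne_zero (x * y)
    rw [(show Commute x y from y.2 x rfl).orderOf_mul_eq_mul_orderOf_of_coprime (by
      rw [orderOf_coe, hy]
      exact ((Nat.Prime.coprime_iff_not_dvd Nat.prime_five).2 fun h => d5 (h.trans h3)).symm),
      orderOf_coe, hy] at h4
    obtain ⟨p, hp, hpx⟩ := Nat.exists_prime_and_dvd (mt orderOf_eq_one_iff.1 h1)
    have h5 : p ∣ 2 ^ 3 * 3 ^ 2 * 5 := hpx.trans (h3.trans hd)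
    rcases (Nat.Prime.dvd_mul hp).1 h5 with h | h
    · rcases (Nat.Prime.dvd_mul hp).1 h with h | h
      · obtain rfl := (Nat.prime_dvd_prime_iff_eq hp Nat.prime_two).1 (hp.dvd_of_dvd_pow h)
        exact h4 (s_eq_zero_of_dvd (Nat.mul_dvd_mul_right hpx 5) e10)
      · obtain rfl := (Nat.prime_dvd_prime_iff_eq hp Nat.prime_three).1 (hp.dvd_of_dvd_pow h)
        exact h4 (s_eq_zero_of_dvd (Nat.mul_dvd_mul_right hpx 5) e15)
    · obtain rfl := (Nat.prime_dvd_prime_iff_eq hp Nat.prime_five).1 h
      exact d5 (hpx.trans h3)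
  have k1 : 5 ∣ Nat.card N - 1 := by
    have := CL.Cnt.dvd_ncard_of_conj_elem ⊤ (S := (N : Set G) \ {1})
      (fun g _ x hx => ⟨hN.conj_mem _ hx.1 g, fun e => hx.2 (conj_eq_one_iff.1 e)⟩)
      fun x hx => key x hx.1 hx.2
    rwa [Set.ncard_sdiff_singleton_of_mem N.one_mem, ← Nat.card_coe_set_eq] at this
  have k2 : ∀ m, m ≠ 1 → 5 ∣ s N m := fun m hm => by
    have := CL.Cnt.dvd_ncard_of_conj_elem ⊤ (S := {x | x ∈ N ∧ orderOf x = m})
      (fun g _ x hx => ⟨hN.conj_mem _ hx.1 g, ((MulAut.conj g).orderOf_eq x).trans hx.2⟩)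
      fun x hx => key x hx.1 fun e => hm (by rw [← hx.2, e, orderOf_one])
    rw [← Nat.card_coe_set_eq] at this
    exact this.trans (Nat.card_congr ((Equiv.subtypeEquivRight fun g : N => by rw [orderOf_coe]).trans
      (Equiv.subtypeSubtypeEquivSubtypeInter (fun g => g ∈ N) fun g => orderOf g = m))).symm.dvd
  have h1 := sum_le_card (G := N) {1, 2, 3, 9}
  rw [sum_insert (by simp), sum_insert (by simp), sum_pair (by simp), s_one] at h1
  have := k2 2 (by omega)
  have := k2 3 (by omega)
  have := k2 9 (by omega)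
  have := ne_zero_of_prime (G := N) Nat.prime_two
  have := ne_zero_of_prime (G := N) Nat.prime_three
  have f9 := fun h => fr2 (G := N) (N := 9) 1 Nat.prime_three rfl h (by omega)
  simp only [s_one, Nat.reduceMul] at f9
  have h2 : Nat.card N = 1 ∨ Nat.card N = 6 ∨ Nat.card N = 36 := by
    have h3 : ∀ d ∈ Nat.divisors 360, ¬ 5 ∣ d → 5 ∣ d - 1 → d = 1 ∨ d = 6 ∨ d = 36 := by decide
    exact h3 _ (Nat.mem_divisors.2 ⟨hd, by omega⟩) d5 k1
  exact card_eq_one.1 (by omega)

theorem six (h1 : ∀ m, s G m = 0 ∨ s G m ∈ ({1, 45, 80, 90, 144} : Set ℕ))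
    (h2 : ∀ v ∈ ({1, 45, 80, 90, 144} : Set ℕ), ∃ m, s G m = v) :
    Nonempty (G ≃* alternatingGroup (Fin 6)) := by
  have s2 := s_two (h2 45 (by simp)) (by omega) rfl
  have hv : ∀ m, 3 ≤ m → s G m = 0 ∨ s G m = 80 ∨ s G m = 90 ∨ s G m = 144 := fun m hm => by
    have := two_dvd (G := G) hm
    have := h1 m
    simp only [Set.mem_insert_iff, Set.mem_singleton_iff] at this
    omega
  have hle : 360 ≤ Nat.card G := sum_vals (T := {1, 45, 80, 90, 144}) (by simpa using h2)
  have := Fact.mk Nat.prime_five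
  have := Fact.mk Nat.prime_seven
  obtain ⟨P5⟩ : Nonempty (Sylow 5 G) := inferInstance
  obtain ⟨P7⟩ : Nonempty (Sylow 7 G) := inferInstance
  have n7 : ¬ 7 ∣ Nat.card G := fun h => by
    have e7 : s G 7 = 90 := by
      have := frob_one Nat.prime_seven h
      have := hv 7 (by omega)
      omega
    have h49 : ¬ 7 ^ (1 + 1) ∣ Nat.card G := fun h => by
      have := fr2 (G := G) 1 Nat.prime_seven rfl h (by omega)
      have := hv 49 (by omega)
      have := tot (G := G) 49 42 (by decide)
      simp only [s_one, Nat.reduceMul, Nat.reducePow] at *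
      omega
    have := s_prime_dvd P7 (isCyclic_sylow P7 h49 (by rw [pow_one]; omega)) (m := 14) (by omega)
    have := frob_prime Nat.prime_seven h (m := 2) (by omega)
    have := hv 14 (by omega)
    simp only [e7, Nat.reduceMul] at *
    omega
  have pr : ∀ p : ℕ, p.Prime → p ∣ Nat.card G → p = 2 ∨ p = 3 ∨ p = 5 := fun p hp hd => by
    have f := frob_one hp hd
    have t := tot (G := G) p _ (Nat.totient_prime hp)
    have n := ne_zero_of_prime hp hd
    by_cases p2 : p = 2
    · exact .inl p2
    have p7 : p ≠ 7 := by rintro rfl; exact n7 hd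
    have := hp.two_le
    have pp := fun {q : ℕ} (hq : q.Prime) => (Nat.prime_dvd_prime_iff_eq hp hq).1
    rcases hv p (by omega) with e | e | e | e <;> rw [e] at f t n
    · omega
    · exact .inr (.inl (pp Nat.prime_three (hp.dvd_of_dvd_pow (n := 4) f)))
    · rcases (Nat.Prime.dvd_mul hp (m := 7) (n := 13)).1 f with h | h
      · exact absurd (pp Nat.prime_seven h) p7
      · obtain rfl := pp (by decide) h
        omega
    · rcases (Nat.Prime.dvd_mul hp (m := 5) (n := 29)).1 f with h | h
      · exact .inr (.inr (pp Nat.prime_five h))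
      · obtain rfl := pp (by decide) h
        omega
  have s3 : 3 ∣ Nat.card G → s G 3 = 80 := fun h => by
    have := frob_one Nat.prime_three h
    have := hv 3 (by omega)
    omega
  have s5 : 5 ∣ Nat.card G → s G 5 = 144 := fun h => by
    have := frob_one Nat.prime_five h
    have := hv 5 (by omega)
    omega
  have h16 : ¬ 2 ^ (3 + 1) ∣ Nat.card G := fun h => by
    have := fr4 (G := G) 1 Nat.prime_two rfl h (by omega)
    have := hv 4 (by omega)
    have := hv 8 (by omega)
    have := hv 16 (by omega)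
    have := tot (G := G) 8 4 (by decide)
    have := tot (G := G) 16 8 (by decide)
    simp only [s_one, Nat.reduceMul, Nat.reducePow] at *
    omega
  have h25 : ¬ 5 ^ (1 + 1) ∣ Nat.card G := fun h => by
    have e5 := s5 (by omega)
    have e25 : s G (5 ^ 2) = 80 := by
      have := fr2 (G := G) 1 Nat.prime_five rfl h (by omega)
      have := hv 25 (by omega)
      simp only [s_one, Nat.reduceMul, Nat.reducePow] at *
      omega
    have h125 : ¬ 5 ^ (2 + 1) ∣ Nat.card G := fun h => by
      have := fr3 (G := G) 1 Nat.prime_five rfl h (by omega)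
      have := hv 125 (by omega)
      have := tot (G := G) 125 100 (by decide +kernel)
      simp only [s_one, Nat.reduceMul, Nat.reducePow] at *
      omega
    have := s_prime_dvd P5 (isCyclic_sylow P5 h125 (by omega)) (m := 5 ^ 2) (by omega)
    rw [e5, e25] at this
    omega
  have h81 : ¬ 3 ^ (3 + 1) ∣ Nat.card G := fun h => by
    have e3 := s3 (by omega)
    have e9 : s G 9 = 0 := by
      have := fr4 (G := G) 1 Nat.prime_three rfl h (by omega)
      have := hv 9 (by omega)
      have := hv 27 (by omega)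
      have := hv 81 (by omega)
      have := tot (G := G) 9 6 (by decide)
      have := tot (G := G) 27 18 (by decide)
      have := tot (G := G) 81 54 (by decide +kernel)
      simp only [s_one, Nat.reduceMul, Nat.reducePow] at *
      omega
    have := fr4 (G := G) 2 Nat.prime_three rfl h (by omega)
    have := hv 6 (by omega)
    have := s_eq_zero_of_dvd (m := 18) (by omega) e9
    have := s_eq_zero_of_dvd (m := 54) (by omega) e9
    have := s_eq_zero_of_dvd (m := 162) (by omega) e9
    simp only [Nat.reduceMul, Nat.reducePow] at *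
    omega
  have d5 : 5 ∣ Nat.card G := by
    by_contra n5
    have hd : Nat.card G ∣ 216 := dvd_of_primes fun p k hp hk => by
      rcases pr p hp ((dvd_pow_self p (by omega)).trans hk) with rfl | rfl | rfl
      exacts [pow_dvd_of_not h16 hk (by decide), pow_dvd_of_not h81 hk (by decide),
        absurd ((dvd_pow_self _ (by omega)).trans hk) n5]
    have := Nat.le_of_dvd (by omega) hd
    omega
  have e5 := s5 d5
  have c5 : IsCyclic P5 := isCyclic_sylow P5 h25 (by rw [pow_one]; omega)
  have e3 : s G 3 = 80 := s3 (by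
    have := s_prime_dvd_card P5 c5 d5
    rw [e5] at this
    omega)
  have e10 : s G 10 = 0 := by
    have := s_prime_dvd P5 c5 (m := 10) (by omega)
    have := frob_prime Nat.prime_five d5 (m := 2) (by omega)
    have := hv 10 (by omega)
    simp only [e5, Nat.reduceMul] at *
    omega
  have e15 : s G 15 = 0 := by
    have := s_prime_dvd P5 c5 (m := 15) (by omega)
    have := frob_prime Nat.prime_five d5 (m := 3) (by omega)
    have := hv 15 (by omega)
    simp only [e5, Nat.reduceMul] at *
    omega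
  have h27 : ¬ 3 ^ (2 + 1) ∣ Nat.card G := fun h => by
    have := fr3 (G := G) 5 Nat.prime_three rfl h (by omega)
    have := s_eq_zero_of_dvd (m := 45) (by omega) e15
    have := s_eq_zero_of_dvd (m := 135) (by omega) e15
    simp only [Nat.reduceMul, Nat.reducePow] at *
    omega
  have hd : Nat.card G ∣ 360 := dvd_of_primes fun p k hp hk => by
    rcases pr p hp ((dvd_pow_self p (by omega)).trans hk) with rfl | rfl | rfl
    exacts [pow_dvd_of_not h16 hk (by decide), pow_dvd_of_not h27 hk (by decide),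
      pow_dvd_of_not h25 hk (by decide)]
  have hc : Nat.card G = 360 := le_antisymm (Nat.le_of_dvd (by omega) hd) hle
  have := simple_six hc e3 e5 e10 e15
  exact Cfsg.Agent.S0497.result hc

end


/-- Let n be 4, 5 or 6 and let G be a finite group whose set of sizes of same-order classes (the set of numbers #{g : o(g) = m} over the element orders m of G) equals that of the alternating group of degree n. Then G is isomorphic to that alternating group. -/
theorem result {G : Type*} [Group G] [Finite G] (n : ℕ) (hn : n = 4 ∨ n = 5 ∨ n = 6)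
    (h : ((fun m : ℕ => Nat.card {g : G // orderOf g = m}) '' Set.range (orderOf : G → ℕ)) = ((fun m : ℕ => Nat.card {g : ↥(alternatingGroup (Fin n)) // orderOf g = m}) '' Set.range (orderOf : ↥(alternatingGroup (Fin n)) → ℕ))) :
    Nonempty (G ≃* ↥(alternatingGroup (Fin n))) := by
  rcases hn with rfl | rfl | rfl
  · exact four (vals (h.trans img4)).1 (vals (h.trans img4)).2
  · exact five (vals (h.trans img5)).1 (vals (h.trans img5)).2
  · exact six (vals (h.trans img6)).1 (vals (h.trans img6)).2

end Cfsg.Agent.S3431
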