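import Cfsg.Statements.S3733

set_option autoImplicit false
open Cfsg

namespace Cfsg.Agent.S3733


/-- Let A and V be subgroups of a finite group with V abelian and nontrivial and A normalizing V. Suppose a nonempty finite family of proper subgroups of A partitions A: every non-identity element of A lies in exactly one member. If the number of members minus one is coprime to the order of V, then some member B of the family has a non-identity fixed point on V, that is V ∩ C(B) ≠ 1. -/
theorem result {G : Type*} [Group G] [Finite G] (A V : Subgroup G) (hVab : IsMulCommutative V) (hV : V ≠ ⊥) (hAV : A ≤ Subgroup.normalizer (V : Set G)) (𝒜 : Finset (Subgroup G)) (hne : 𝒜.Nonempty) (hprop : ∀ B ∈ 𝒜, B < A) (hpart : ∀ a ∈ A, a ≠ 1 → ∃! B, B ∈ 𝒜 ∧ a ∈ B) (hk : (𝒜.card - 1).Coprime (Nat.card V)) : ∃ B ∈ 𝒜, V ⊓ Subgroup.centralizer (B : Set G) ≠ ⊥ := by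
  classical
  have := Fintype.ofFinite G
  by_contra hcon
  push Not at hcon
  obtain ⟨v, hv1⟩ := (Subgroup.ne_bot_iff_exists_ne_one).1 hV
  letI : CommGroup V := { mul_comm := fun a b => hVab.is_comm.comm a b }
  let f : G → V := fun a =>
    if h : a ∈ Subgroup.normalizer (V : Set G) then ⟨a * v * a⁻¹, (h v).1 v.2⟩ else 1
  let c : ∀ a : G, a ∈ Subgroup.normalizer (V : Set G) → (V →* V) := fun a h =>
    MonoidHom.mk' (fun w => ⟨a * w * a⁻¹, (h w).1 w.2⟩) (fun x y => Subtype.ext (by simp [mul_assoc]))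
  have hfix : ∀ B C : Subgroup G, B ≤ C → C ≤ A →
      ((∏ b ∈ Finset.univ.filter (· ∈ C), f b : V) : G) ∈ Subgroup.centralizer (B : Set G) := by
    intro B C hBC hC b hb
    have hbN := hAV (hC (hBC hb))
    have : c b hbN (∏ b ∈ Finset.univ.filter (· ∈ C), f b) =
        ∏ b ∈ Finset.univ.filter (· ∈ C), f b := by
      rw [map_prod]
      refine Finset.prod_bij (fun x _ => b * x) ?_ ?_ ?_ ?_
      · intro x hx
        simp only [Finset.mem_filter, Finset.mem_univ, true_and] at hx ⊢
        exact mul_mem (hBC hb) hx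
      · intro x _ y _ h
        exact mul_left_cancel h
      · intro y hy
        simp only [Finset.mem_filter, Finset.mem_univ, true_and] at hy ⊢
        exact ⟨b⁻¹ * y, mul_mem (inv_mem (hBC hb)) hy, by simp⟩
      · intro x hx
        simp only [Finset.mem_filter, Finset.mem_univ, true_and] at hx
        have h1 := hAV (hC hx)
        have h2 := mul_mem hbN h1
        apply Subtype.ext
        simp [f, c, h1, h2, mul_assoc]
    have h2 := congrArg Subtype.val this
    simp only [c, MonoidHom.mk'_apply] at h2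
    exact mul_inv_eq_iff_eq_mul.1 h2
  have hone : ∀ B ∈ 𝒜, ∀ C : Subgroup G, B ≤ C → C ≤ A →
      (∏ b ∈ Finset.univ.filter (· ∈ C), f b : V) = 1 := by
    intro B hB C hBC hC
    apply Subtype.ext
    have : ((∏ b ∈ Finset.univ.filter (· ∈ C), f b : V) : G) ∈
        V ⊓ Subgroup.centralizer (B : Set G) := ⟨Subtype.prop _, hfix B C hBC hC⟩
    rw [hcon B hB] at this
    exact this
  have hf1 : f 1 = v := by
    apply Subtype.ext
    simp [f]
  have hsplit : ∀ C : Subgroup G, (∏ b ∈ Finset.univ.filter (· ∈ C), f b : V) =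
      v * ∏ b ∈ (Finset.univ.filter (· ∈ C)).erase 1, f b := by
    intro C
    rw [← hf1]
    exact (Finset.mul_prod_erase _ _ (by simp)).symm
  have hU : (Finset.univ.filter (· ∈ A)).erase 1 =
      𝒜.biUnion (fun B => (Finset.univ.filter (· ∈ B)).erase 1) := by
    ext x
    simp only [Finset.mem_erase, Finset.mem_filter, Finset.mem_univ, true_and, Finset.mem_biUnion]
    constructor
    · rintro ⟨h1, h2⟩
      obtain ⟨B, hB, -⟩ := hpart x h2 h1
      exact ⟨B, hB.1, h1, hB.2⟩
    · rintro ⟨B, hB, h1, h2⟩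
      exact ⟨h1, (hprop B hB).le h2⟩
  have hdisj : (𝒜 : Set (Subgroup G)).PairwiseDisjoint
      (fun B => (Finset.univ.filter (· ∈ B)).erase (1 : G)) := by
    intro B hB C hC hBC
    rw [Function.onFun, Finset.disjoint_left]
    intro x hx hx'
    simp only [Finset.mem_erase, Finset.mem_filter, Finset.mem_univ, true_and] at hx hx'
    exact hBC ((hpart x ((hprop B hB).le hx.2) hx.1).unique ⟨hB, hx.2⟩ ⟨hC, hx'.2⟩)
  obtain ⟨B0, hB0⟩ := hne
  have hA := hone B0 hB0 A (hprop B0 hB0).le le_rfl
  rw [hsplit, hU, Finset.prod_biUnion hdisj] at hA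
  have hall : ∏ B ∈ 𝒜, (∏ b ∈ Finset.univ.filter (· ∈ B), f b : V) = 1 :=
    Finset.prod_eq_one (fun B hB => hone B hB B le_rfl (hprop B hB).le)
  simp only [hsplit, Finset.prod_mul_distrib, Finset.prod_const] at hall
  have hpos : 𝒜.card = (𝒜.card - 1) + 1 := by
    have := Finset.card_pos.2 ⟨B0, hB0⟩
    omega
  rw [hpos, pow_succ, mul_assoc, hA, mul_one] at hall
  apply hv1
  have h1 : orderOf v ∣ 𝒜.card - 1 := orderOf_dvd_of_pow_eq_one hall
  have h2 : orderOf v ∣ Nat.card V := orderOf_dvd_natCard v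
  exact orderOf_eq_one_iff.1 (Nat.eq_one_of_dvd_coprimes hk h1 h2)

end Cfsg.Agent.S3733
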