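import Cfsg.Statements.S3735
import Cfsg.Agent.SOLV.CoprimeGen

set_option autoImplicit false
open Cfsg

namespace Cfsg.Agent.S3735

open Subgroup CL Pointwise
open scoped commutatorElement

/-- Clifford's Theorem for actions on finite abelian groups, first part. Let H and V be subgroups of a finite group with V abelian and H normalizing V, and let A be a normal subgroup of H. If every H-invariant subgroup of V has an H-invariant complement in V, then every A-invariant subgroup of V has an A-invariant complement in V. -/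
theorem result {G : Type*} [Group G] [Finite G] (H A V : Subgroup G) (hVab : IsMulCommutative V) (hHV : H ≤ Subgroup.normalizer (V : Set G)) (hAH : A ≤ H) (hAn : H ≤ Subgroup.normalizer (A : Set G)) (hss : ∀ U : Subgroup G, U ≤ V → H ≤ Subgroup.normalizer (U : Set G) → ∃ W : Subgroup G, W ≤ V ∧ H ≤ Subgroup.normalizer (W : Set G) ∧ U ⊓ W = ⊥ ∧ U ⊔ W = V) (U : Subgroup G) (hUV : U ≤ V) (hAU : A ≤ Subgroup.normalizer (U : Set G)) : ∃ W : Subgroup G, W ≤ V ∧ A ≤ Subgroup.normalizer (W : Set G) ∧ U ⊓ W = ⊥ ∧ U ⊔ W = V := by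
  set T : Set (Subgroup G) := {M | M ≤ V ∧ M ≠ ⊥ ∧ A ≤ normalizer (M : Set G) ∧
    ∀ L : Subgroup G, L ≤ M → A ≤ normalizer (L : Set G) → L = ⊥ ∨ L = M}
  have hconj : ∀ h ∈ H, ∀ L : Subgroup G, A ≤ normalizer (L : Set G) →
      A ≤ normalizer ((MulAut.conj h • L : Subgroup G) : Set G) := fun h hh L hL => by
    rw [normalizer_conj_smul, ← conj_smul_eq_iff_mem_normalizer.2 (hAn hh)]
    exact conj_smul_mono h hL
  have hT : ∀ h ∈ H, ∀ M ∈ T, MulAut.conj h • M ∈ T := fun h hh M hM =>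
    ⟨conj_smul_le_of_mem_normalizer hM.1 (hHV hh), fun e => hM.2.1 (by
      rw [← card_eq_one, card_conj_smul, card_eq_one] at e; exact e), hconj h hh M hM.2.2.1,
      fun L hL hAL => by
        have h1 : MulAut.conj h⁻¹ • L ≤ M := by
          have := conj_smul_mono h⁻¹ hL
          rwa [conj_smul_conj_smul, inv_mul_cancel, conj_one_smul] at this
        rcases hM.2.2.2 _ h1 (hconj _ (inv_mem hh) L hAL) with e | e
        · left
          rw [← card_eq_one, card_conj_smul, card_eq_one] at e; exact e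
        · right
          rw [← e, conj_smul_conj_smul, mul_inv_cancel, conj_one_smul]⟩
  have hS : V ≤ sSup T := by
    have hle : sSup T ≤ V := sSup_le fun M hM => hM.1
    have hc : ∀ h ∈ H, MulAut.conj h • sSup T ≤ sSup T := fun h hh => by
      rw [conj_smul_eq_map, map_le_iff_le_comap]
      refine sSup_le fun M hM => ?_
      rw [← map_le_iff_le_comap, ← conj_smul_eq_map]
      exact le_sSup (hT h hh M hM)
    obtain ⟨W, hWV, hHW, h1, h2⟩ := hss (sSup T) hle fun h hh =>
      mem_normalizer_fintype fun x hx => hc h hh (conj_mem_conj_smul hx)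
    by_cases hW : W = ⊥
    · rw [← h2, hW, sup_bot_eq]
    · obtain ⟨M, hM1, hM2, hM3, hM4⟩ := exists_minimal_invariant A W hW (hAH.trans hHW)
      exact absurd (eq_bot_iff.2 ((le_inf (le_sSup (show M ∈ T from
        ⟨hM1.trans hWV, hM2, hM3, hM4⟩)) hM1).trans h1.le))
        hM2
  obtain ⟨W, ⟨hWV, hAW, hUW⟩, hmax⟩ := Set.Finite.exists_maximal
    (s := {W : Subgroup G | W ≤ V ∧ A ≤ normalizer (W : Set G) ∧ U ⊓ W = ⊥}) (Set.toFinite _)
    ⟨⊥, bot_le, le_normalizer_of_normal, inf_bot_eq _⟩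
  refine ⟨W, hWV, hAW, hUW, le_antisymm (sup_le hUV hWV) (hS.trans (sSup_le fun M hM => ?_))⟩
  rcases hM.2.2.2 (M ⊓ (U ⊔ W)) inf_le_left
    (le_normalizer_inf hM.2.2.1 (le_normalizer_sup hAU hAW)) with e | e
  · refine le_trans (le_sup_right.trans (hmax ⟨sup_le hWV hM.1, le_normalizer_sup hAW hM.2.2.1, ?_⟩
      (le_sup_left : W ≤ W ⊔ M))) le_sup_right
    rw [eq_bot_iff]
    rintro u ⟨hu, hu'⟩
    obtain ⟨w, hw, m, hm, rfl⟩ := (mem_sup_of_le_normalizer ((hWV.trans (le_centralizer V)).trans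
      ((centralizer_le (SetLike.coe_subset_coe.2 hM.1)).trans (centralizer_le_normalizer _)))).1 hu'
    have h1 : m ∈ M ⊓ (U ⊔ W) := ⟨hm, by
      have := mul_mem (mem_sup_right (inv_mem hw) : w⁻¹ ∈ U ⊔ W) (mem_sup_left hu)
      rwa [inv_mul_cancel_left] at this⟩
    rw [e, mem_bot] at h1
    rw [h1, mul_one] at hu ⊢
    exact hUW.le ⟨hu, hw⟩
  · exact e ▸ inf_le_right

end Cfsg.Agent.S3735
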