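import Cfsg.Statements.S3736
import Cfsg.Agent.FGS.HHSec
import Cfsg.Agent.ODD.BG6.Main
import Cfsg.Agent.PLOC.Critical
import Cfsg.Agent.S0096
import Cfsg.Agent.SOLV.Frattini

set_option autoImplicit false
open Cfsg

namespace Cfsg.Agent.S3736

open Subgroup CL Pointwise
open scoped commutatorElement

/-- The Hall–Higman reduction for a minimal non-trivial action. Let B, A and P be subgroups of a finite group with P a p-group, B normalizing P, and A a normal subgroup of B of order prime to p. Suppose A does not centralize P but centralizes every proper B-invariant subgroup of P. Then [P, A] = P; P is elementary abelian or special; B acts irreducibly on P/Φ(P), that is, the only B-invariant subgroups of P containing Φ(P) are Φ(P) and P; and if p is odd then every element of P has order dividing p. -/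
theorem result {X : Type*} [Group X] [Finite X] {p : ℕ} [Fact p.Prime] (B A P : Subgroup X) (hP : IsPGroup p P) (hBP : B ≤ Subgroup.normalizer (P : Set X)) (hAB : A ≤ B) (hAn : B ≤ Subgroup.normalizer (A : Set X)) (hAp : (Nat.card A).Coprime p) (hnt : ⁅P, A⁆ ≠ ⊥) (hmin : ∀ U : Subgroup X, U < P → B ≤ Subgroup.normalizer (U : Set X) → ⁅U, A⁆ = ⊥) : ⁅P, A⁆ = P ∧ (Cfsg.IsElementaryAbelian p P ∨ Cfsg.IsSpecial p ↥P) ∧ (∀ U : Subgroup X, (frattini ↥P).map P.subtype ≤ U → U ≤ P → B ≤ Subgroup.normalizer (U : Set X) → U = (frattini ↥P).map P.subtype ∨ U = P) ∧ (p ≠ 2 → ∀ x ∈ P, x ^ p = 1) := by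
  have hAP : A ≤ normalizer (P : Set X) := hAB.trans hBP
  have hc : (Nat.card A).Coprime (Nat.card P) := coprime_card_of_isPGroup hP hAp
  have hm : HH.MinAct P A B ⊥ := ⟨hBP, fun e => hnt (le_bot_iff.1 e), fun U h1 h2 => (hmin U h1 h2).le⟩
  obtain ⟨h1, -, h3, -⟩ := hm.structure hP hAP hAn hc
  have key : ∀ U < P, B ≤ normalizer (U : Set X) → U ≤ ⁅P, P⁆ := fun U hU hB =>
    le_trans (le_inf (le_inf hU.le (commutator_eq_bot_iff_le_centralizer.1 (hmin U hU hB)))
      (hU.le.trans h1.ge)) (BG.coprime_cent_inf_commutator_le hAP hc.symm)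
  have hsec := HH.isSec_frattini hP
  set Φ := (frattini P).map P.subtype with hΦ
  have hPne : P ≠ ⊥ := by rintro rfl; exact hnt (commutator_bot_left A)
  have hΦP : Φ < P := lt_of_le_of_ne (map_subtype_le _) fun e =>
    hPne (eq_of_sup_eq_of_le_map_frattini bot_le le_rfl (e.ge.trans le_sup_left)).symm
  have hΦe : Φ = ⁅P, P⁆ := le_antisymm
    (key Φ hΦP (hBP.trans (normalizer_le_normalizer_map_subtype P _))) hsec.comm
  have hcomm : (_root_.commutator P).map P.subtype = ⁅P, P⁆ := map_subtype_commutator P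
  have hZ : (center P).map P.subtype = P ⊓ centralizer (P : Set X) := by
    ext x
    constructor
    · rintro ⟨y, hy, rfl⟩
      exact ⟨y.2, fun w hw => congrArg Subtype.val (mem_center_iff.1 hy ⟨w, hw⟩)⟩
    · rintro ⟨hx, hx'⟩
      exact ⟨⟨x, hx⟩, mem_center_iff.2 fun w => Subtype.ext (hx' w w.2), rfl⟩
  have hPZ : ⁅P, P⁆ ≤ P ⊓ centralizer (P : Set X) :=
    le_inf (commutator_le_self P) (commutator_eq_bot_iff_le_centralizer.1 (le_bot_iff.1 h3))
  refine ⟨h1, ?_, fun U hU1 hU2 hU3 => ?_, fun hp2 x hx => ?_⟩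
  · rcases (inf_le_left : P ⊓ centralizer (P : Set X) ≤ P).eq_or_lt with e | e
    · have h4 : P ≤ centralizer (P : Set X) := inf_eq_left.1 e
      refine Or.inl ⟨le_centralizer_iff_isMulCommutative.1 h4, fun a ha => ?_⟩
      have := hsec.pow a ha
      rwa [hΦe, commutator_eq_bot_iff_le_centralizer.2 h4, mem_bot] at this
    · have h4 := le_antisymm hPZ (key _ e (le_normalizer_inf hBP (le_normalizer_centralizer hBP)))
      exact Or.inr ⟨hP, map_injective P.subtype_injective (by rw [hZ, ← hΦ, hΦe, h4]),
        map_injective P.subtype_injective (by rw [hZ, hcomm, h4])⟩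
  · rcases hU2.eq_or_lt with e | e
    · exact Or.inr e
    · exact Or.inl (le_antisymm ((key U e hU3).trans hΦe.ge) hU1)
  · set Ω := closure {x : P | x ^ p = 1}
    have hΩc : Ω.Characteristic := characteristic_iff_le_comap.2 fun φ => (closure_le _).2
      fun y hy => subset_closure (show (φ y) ^ p = 1 by rw [← map_pow, show y ^ p = 1 from hy, map_one])
    rcases (map_subtype_le Ω).eq_or_lt with e | e
    · obtain ⟨y, hy, rfl⟩ := e.ge hx
      exact congrArg Subtype.val (Cfsg.Agent.S0096.result hp2 hP (by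
        apply map_injective P.subtype_injective
        rw [map_commutator, hcomm, ← MonoidHom.range_eq_map, range_subtype, Subgroup.map_bot]
        exact le_bot_iff.1 h3) y hy)
    · have h4 := commutator_eq_bot_iff_le_centralizer.1
        (hmin _ e (hBP.trans (normalizer_le_normalizer_map_subtype P _)))
      refine absurd (commutator_eq_bot_iff_le_centralizer.2 (le_centralizer_iff.1
        (PG.le_centralizer_of_commute_omega hp2 hP hAP hAp fun a ha y hy hyp => ?_))) hnt
      exact h4 ⟨⟨y, hy⟩, subset_closure (Subtype.ext hyp), rfl⟩ a ha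

end Cfsg.Agent.S3736
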