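import Cfsg.Statements.S3738
import Cfsg.Agent.INV.Three3
import Cfsg.Agent.INV.Four
import Cfsg.Agent.SOLV.MinNormal

set_option autoImplicit false
open Cfsg

namespace Cfsg.Agent.S3738

open Subgroup

theorem exists_v3 {T : Type*} [Group T] [Finite T] [Nontrivial T] (hT : IsPGroup 2 T)
    (h2 : PRankLE 2 2 T) (φ : MulAut T) (hf : ∀ x, φ x = x → x = 1) :
    ∃ (a b : T) (h : CL.Three.V3 a b), ∀ x ∈ h.V, (φ ^ 3) x = x := by
  have : Nontrivial (center T) := hT.center_nontrivial
  have hc : IsPGroup 2 (center T) := hT.to_subgroup _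
  obtain ⟨n, hn0, hn⟩ := hc.nontrivial_iff_card.1 this
  obtain ⟨z, hz⟩ := exists_prime_orderOf_dvd_card' (G := center T) 2
    (by rw [hn]; exact dvd_pow_self 2 hn0.ne')
  have ha1 : (z : T) ≠ 1 := by
    intro h
    rw [OneMemClass.coe_eq_one.1 h, orderOf_one] at hz
    omega
  have haa : (z : T) * z = 1 := by
    have := pow_orderOf_eq_one z
    rw [hz, sq] at this
    exact congrArg Subtype.val this
  have hca : ∀ x : T, x * z = z * x := fun x => mem_center_iff.1 z.2 x
  generalize (z : T) = a at ha1 haa hca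
  have hb1 : φ a ≠ 1 := by simpa using ha1
  have hab : a ≠ φ a := fun h => ha1 (hf a h.symm)
  have hbb : φ a * φ a = 1 := by rw [← map_mul, haa, map_one]
  have hcb : ∀ x : T, x * φ a = φ a * x := fun x => by
    obtain ⟨y, rfl⟩ := φ.surjective x
    rw [← map_mul, hca, map_mul]
  have h : CL.Three.V3 a (φ a) := ⟨hT, ha1, hb1, hab, haa, hbb, hca, hcb, fun x hx =>
    CL.Three.mem_four_of_rank h2 ha1 hb1 hab haa hbb hx (hcb a) (hca x) (hcb x)⟩
  refine ⟨a, φ a, h, ?_⟩
  have e2 : φ (φ a) = a * φ a := by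
    rcases h.inv (φ (φ a)) (by rw [← map_mul, hbb, map_one]) with e | e | e | e
    · exact absurd (by simpa using e) ha1
    · exact absurd (hf _ (by rw [map_mul, e, hca])) h.ab1
    · exact absurd (hf _ e) hb1
    · exact e
  have e3 : φ (a * φ a) = a := by
    rw [map_mul, e2, ← mul_assoc, hca, mul_assoc, hbb, mul_one]
  have f1 : (φ ^ 3) a = a := by
    change φ (φ (φ a)) = a
    rw [e2, e3]
  have f2 : (φ ^ 3) (φ a) = φ a := by
    change φ (φ (φ (φ a))) = φ a
    rw [e2, e3]
  intro x hx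
  rcases h.mem_V'.1 hx with rfl | rfl | rfl | rfl
  · exact map_one _
  · exact f1
  · exact f2
  · rw [map_mul, f1, f2]

theorem main {X : Type*} [Group X] [Finite X] (d : X) (n : ℕ) (hn : 1 ≤ n) (hd : orderOf d = 3 ^ n)
    (P : Subgroup X) (hP : IsPGroup 2 P) (hdP : d ∈ Subgroup.normalizer (P : Set X))
    (hfaith : Subgroup.zpowers d ⊓ Subgroup.centralizer (P : Set X) = ⊥)
    (hfpf : P ⊓ Subgroup.centralizer {d} = ⊥) (h2 : Cfsg.PRankLE 2 2 P) : orderOf d = 3 := by
  by_contra hne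
  obtain ⟨m, rfl⟩ : ∃ m, n = m + 2 := by
    rcases Nat.lt_or_ge n 2 with h | h
    · obtain rfl : n = 1 := by omega
      exact absurd hd hne
    · exact ⟨n - 2, by omega⟩
  have key : ∀ k : ℕ, d ^ k ∈ centralizer (P : Set X) → d ^ k = 1 := fun k hk => by
    have : d ^ k ∈ zpowers d ⊓ centralizer (P : Set X) := mem_inf.2 ⟨npow_mem_zpowers d k, hk⟩
    rwa [hfaith, mem_bot] at this
  have key2 : d ^ 3 ^ (m + 1) ≠ 1 := fun h => by
    have := orderOf_dvd_of_pow_eq_one h
    rw [hd, Nat.pow_dvd_pow_iff_le_right (by norm_num)] at this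
    omega
  have hP1 : P ≠ ⊥ := by
    rintro rfl
    exact key2 (key _ (by simp [mem_centralizer_iff]))
  have : Nontrivial P := (nontrivial_iff_ne_bot P).2 hP1
  let D : normalizer (P : Set X) := ⟨d, hdP⟩
  let φ : MulAut P := P.normalizerMonoidHom D
  have hφ : ∀ (k : ℕ) (x : P), (((φ ^ k) x : P) : X) = d ^ k * x * (d ^ k)⁻¹ := fun k x => by
    rw [← map_pow]; rfl
  obtain ⟨a, b, h, hV⟩ := exists_v3 hP h2 φ fun x hx => by
    have h1 := hφ 1 x
    rw [pow_one, pow_one, hx] at h1
    have h2 : (x : X) ∈ P ⊓ centralizer {d} := mem_inf.2 ⟨x.2, by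
      rw [mem_centralizer_singleton_iff]
      conv_lhs => rw [h1]
      group⟩
    rw [hfpf, mem_bot] at h2
    exact Subtype.ext h2
  have h3 := h.pow_three_eq_one (φ ^ 3 ^ m) (by
      rw [← pow_mul, ← map_pow]
      have : D ^ (3 ^ m * 9) = 1 := Subtype.ext (by
        change d ^ (3 ^ m * 9) = 1
        rw [show 3 ^ m * 9 = 3 ^ (m + 2) by ring, ← hd, pow_orderOf_eq_one])
      rw [this, map_one]) (by
      intro x hx
      rw [← pow_mul, mul_comm, pow_mul]
      generalize 3 ^ m = k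
      induction k with
      | zero => rfl
      | succ k ih => rw [pow_succ, MulAut.mul_apply, hV x hx, ih])
  apply key2
  apply key
  rw [mem_centralizer_iff]
  intro x hx
  have h4 := hφ (3 ^ (m + 1)) ⟨x, hx⟩
  rw [← pow_mul, ← pow_succ] at h3
  rw [h3] at h4
  change x = _ * x * _ at h4
  conv_lhs => rw [h4]
  group

/-- Let d be a non-identity 3-element of a finite group and P a 2-subgroup normalized by d on which ⟨d⟩ acts faithfully (no non-identity power of d centralizes P) and without non-identity fixed points (C_P(d) = 1). If every abelian subgroup of P has 2-rank at most 2, then d has order 3. -/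
theorem result {X : Type*} [Group X] [Finite X] (d : X) (n : ℕ) (hn : 1 ≤ n) (hd : orderOf d = 3 ^ n) (P : Subgroup X) (hP : IsPGroup 2 P) (hdP : d ∈ Subgroup.normalizer (P : Set X)) (hfaith : Subgroup.zpowers d ⊓ Subgroup.centralizer (P : Set X) = ⊥) (hfpf : P ⊓ Subgroup.centralizer {d} = ⊥) (hrank : ∀ V : Subgroup X, V ≤ P → IsMulCommutative V → Cfsg.PRankLE 2 2 V) : orderOf d = 3 := by
  refine main d n hn hd P hP hdP hfaith hfpf ?_
  by_contra h
  obtain ⟨A, hA, hA2, hA3⟩ := CL.Four.not_prankLE_iff_exists_card.1 h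
  exact CL.Four.not_prankLE_iff_exists_card.2 ⟨A, le_rfl, hA2, hA3⟩ (hrank A hA hA2.1)

end Cfsg.Agent.S3738
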