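import Cfsg.Statements.S3739
import Cfsg.Agent.S3738
import Cfsg.Agent.TECH.FourAct
import Cfsg.Agent.SOLV.CoprimeGen
import Cfsg.Agent.SOLV.Core

set_option autoImplicit false
open Cfsg

namespace Cfsg.Agent.S3739

open Subgroup CL

/-- Let G be a finite group with C_G(O₂(G)) ≤ O₂(G) containing an element of order 6, and let d be a non-identity 3-element of G normalizing a nontrivial elementary abelian 2-subgroup W with C_W(d) = 1. Then G has an elementary abelian subgroup of order 8. -/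
theorem result {G : Type*} [Group G] [Finite G] (hchar : Subgroup.centralizer (Cfsg.pCore 2 G : Set G) ≤ Cfsg.pCore 2 G) (hsix : ∃ g : G, orderOf g = 6) (d : G) (hd1 : d ≠ 1) (hd : IsPGroup 3 ↥(Subgroup.zpowers d)) (W : Subgroup G) (hW : Cfsg.IsElementaryAbelian 2 W) (hW1 : W ≠ ⊥) (hdW : d ∈ Subgroup.normalizer (W : Set G)) (hfpf : W ⊓ Subgroup.centralizer {d} = ⊥) : ∃ E : Subgroup G, Cfsg.IsElementaryAbelian 2 E ∧ Nat.card E = 8 := by
  by_contra hE
  have hrk : ∀ X : Subgroup G, PRankLE 2 2 X := fun X => by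
    by_contra h
    obtain ⟨A, -, hA2, hA3⟩ := CL.Four.not_prankLE_iff_exists_card.1 h
    exact hE ⟨A, hA2, hA3⟩
  have hle : ∀ A : Subgroup G, IsElementaryAbelian 2 A → Nat.card A ≤ 4 := fun A hA => by
    have := hrk A ⊤ (by have := hA.1; infer_instance) (fun a _ => Subtype.ext (hA.2 a a.2))
    rwa [card_top] at this
  have hWc : ∀ x ∈ W, ∀ y ∈ W, x * y = y * x := fun x hx y hy =>
    congrArg Subtype.val (hW.1.is_comm.comm (⟨x, hx⟩ : W) ⟨y, hy⟩)
  have hf : ∀ w ∈ W, d * w = w * d → w = 1 := fun w hw h => by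
    have : w ∈ W ⊓ centralizer {d} := mem_inf.2 ⟨hw, mem_centralizer_singleton_iff.2 h.symm⟩
    rwa [hfpf, mem_bot] at this
  have hWp : IsPGroup 2 W := fun x => ⟨1, Subtype.ext (by simpa using hW.2 x x.2)⟩
  have h4 : CL.JC.Four W := by
    refine ⟨?_, fun w hw => by rw [← sq]; exact hW.2 w hw⟩
    obtain ⟨k, hk⟩ := hWp.exists_card_eq
    have h1 := hle W hW
    by_contra h2
    have h3 : Nat.card W ≤ 2 := by
      rw [hk] at h1 h2 ⊢
      rcases k with _ | _ | _ | k
      · norm_num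
      · norm_num
      · norm_num at h2
      · have : 2 ^ (k + 1 + 1 + 1) = 8 * 2 ^ k := by ring
        have := Nat.one_le_two_pow (n := k)
        omega
    obtain ⟨w, hw, hw1⟩ := CL.JC.exists_ne_one hW1
    exact hw1 (hf w hw
      (mem_centralizer_iff.1 (CL.JC.mem_centralizer_of_card_le_two h3 hdW) w hw).symm)
  -- an involution centralizing `W` lies in `W`
  have hin : ∀ t : G, t * t = 1 → t ∈ centralizer (W : Set G) → t ∈ W := fun t ht htc => by
    have hA : IsElementaryAbelian 2 (W ⊔ zpowers t) := by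
      have hc : ∀ x ∈ W ⊔ zpowers t, ∃ w ∈ W, ∃ i : ℤ, x = w * t ^ i := fun x hx => by
        have hn : zpowers t ≤ normalizer (W : Set G) :=
          (zpowers_le.2 htc).trans (centralizer_le_normalizer _)
        obtain ⟨w, hw, s, hs, rfl⟩ := (CL.mem_sup_of_le_normalizer' (H := W) (K := zpowers t) hn).1 hx
        obtain ⟨i, rfl⟩ := mem_zpowers_iff.1 hs
        exact ⟨w, hw, i, rfl⟩
      have hct : ∀ w ∈ W, ∀ i : ℤ, Commute w (t ^ i) := fun w hw i =>
        Commute.zpow_right (mem_centralizer_iff.1 htc w hw) i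
      refine ⟨⟨⟨?_⟩⟩, ?_⟩
      · rintro ⟨x, hx⟩ ⟨y, hy⟩
        obtain ⟨w, hw, i, rfl⟩ := hc x hx
        obtain ⟨v, hv, j, rfl⟩ := hc y hy
        apply Subtype.ext
        exact (Commute.mul_left (Commute.mul_right (hWc w hw v hv) (hct w hw j))
          (Commute.mul_right (hct v hv i).symm (Commute.zpow_zpow_self t i j))).eq
      · intro x hx
        obtain ⟨w, hw, i, rfl⟩ := hc x hx
        rw [(hct w hw i).mul_pow, hW.2 w hw, one_mul, ← zpow_natCast, ← zpow_mul, mul_comm,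
          zpow_mul, zpow_natCast, sq, ht, one_zpow]
    have := eq_of_le_of_card_ge (le_sup_left : W ≤ W ⊔ zpowers t) (by rw [h4.card]; exact hle _ hA)
    rw [this]; exact mem_sup_right (mem_zpowers t)
  set Q := pCore 2 G with hQdef
  have hQn : Q.Normal := by rw [hQdef]; infer_instance
  have hQp : IsPGroup 2 Q := isPGroup_pCore 2 G
  have hQN : ∀ X : Subgroup G, X ≤ normalizer (Q : Set G) := fun X => by
    rw [normalizer_eq_top]; exact le_top
  -- `W ≤ Z(Q)`
  have hWZ : W ≤ Q ⊓ centralizer (Q : Set G) := by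
    have hS : IsPGroup 2 (W ⊔ Q : Subgroup G) := hWp.to_sup_of_normal_right hQp
    have h1 : (W ⊔ Q) ⊓ centralizer ((W ⊔ Q : Subgroup G) : Set G) ≠ ⊥ :=
      inf_centralizer_ne_bot_of_isPGroup hS hS le_normalizer
        (fun h => hW1 (le_bot_iff.1 (h ▸ le_sup_left)))
    obtain ⟨z, hz, hz2⟩ : ∃ z ∈ (W ⊔ Q) ⊓ centralizer ((W ⊔ Q : Subgroup G) : Set G),
        orderOf z = 2 := by
      have h2 := (hS.to_le (inf_le_left : (W ⊔ Q) ⊓ centralizer ((W ⊔ Q : Subgroup G) : Set G) ≤ _))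
      obtain ⟨n, hn0, hn⟩ := h2.nontrivial_iff_card.1 ((nontrivial_iff_ne_bot _).2 h1)
      obtain ⟨z, hz⟩ := exists_prime_orderOf_dvd_card'
        (G := ((W ⊔ Q) ⊓ centralizer ((W ⊔ Q : Subgroup G) : Set G) : Subgroup G)) 2
        (by rw [hn]; exact dvd_pow_self 2 hn0.ne')
      exact ⟨z, z.2, by rw [Subgroup.orderOf_coe, hz]⟩
    have hzQ : z ∈ centralizer (Q : Set G) := centralizer_le (le_sup_right (a := W)) (mem_inf.1 hz).2
    have hzW : z ∈ W := hin z (by rw [← sq, ← hz2, pow_orderOf_eq_one])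
      (centralizer_le (le_sup_left (b := Q)) (mem_inf.1 hz).2)
    rcases h4.eq_bot_or_eq hdW hf (U := W ⊓ centralizer (Q : Set G)) inf_le_left
      (inf_normalizer_le_normalizer_inf (mem_inf.2 ⟨hdW, by rw [normalizer_eq_top]; trivial⟩))
      with h | h
    · have : z ∈ W ⊓ centralizer (Q : Set G) := mem_inf.2 ⟨hzW, hzQ⟩
      rw [h, mem_bot] at this
      rw [this, orderOf_one] at hz2
      omega
    · have h2 : W ≤ centralizer (Q : Set G) := h ▸ inf_le_right
      exact le_inf (h2.trans hchar) h2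
  have hQW : Q ≤ centralizer (W : Set G) := le_centralizer_iff.1 (hWZ.trans inf_le_right)
  have hWn : W.Normal := ⟨fun w hw g => hin _ (by
      have := h4.sq w hw
      calc g * w * g⁻¹ * (g * w * g⁻¹) = g * (w * w) * g⁻¹ := by group
        _ = 1 := by rw [this]; group) (hQW (hQn.conj_mem w (hWZ hw).1 g))⟩
  have hWN : ∀ g : G, g ∈ normalizer (W : Set G) := fun g => by rw [normalizer_eq_top]; trivial
  have hcop : ∀ g : G, ∀ k : ℕ, g ^ 3 ^ k = 1 → (orderOf g).Coprime 2 := fun g k hg =>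
    Nat.Coprime.coprime_dvd_left (orderOf_dvd_of_pow_eq_one hg) (Nat.Coprime.pow_left _ (by norm_num))
  have hnQ : ∀ g : G, ∀ k : ℕ, g ^ 3 ^ k = 1 → g ∈ centralizer (Q : Set G) → g = 1 := by
    intro g k hg hc
    obtain ⟨m, hm⟩ := hQp ⟨g, hchar hc⟩
    have hm' : g ^ 2 ^ m = 1 := congrArg Subtype.val hm
    rw [← orderOf_eq_one_iff]
    exact Nat.Coprime.eq_one_of_dvd ((hcop g k hg).pow_right m) (orderOf_dvd_of_pow_eq_one hm')
  -- elements not centralizing `W` are fixed point free on `Q` and have order three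
  have hfree : ∀ g : G, ∀ k : ℕ, g ^ 3 ^ k = 1 → g ∉ centralizer (W : Set G) →
      Q ⊓ centralizer {g} = ⊥ := by
    intro g k hg hc
    by_contra h1
    have h2 := hQp.to_le (inf_le_left : Q ⊓ centralizer {g} ≤ _)
    obtain ⟨n, hn0, hn⟩ := h2.nontrivial_iff_card.1 ((nontrivial_iff_ne_bot _).2 h1)
    obtain ⟨z, hz⟩ := exists_prime_orderOf_dvd_card' (G := (Q ⊓ centralizer {g} : Subgroup G)) 2
      (by rw [hn]; exact dvd_pow_self 2 hn0.ne')
    rw [← Subgroup.orderOf_coe] at hz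
    have hzW : (z : G) ∈ W := hin z (by rw [← sq, ← hz, pow_orderOf_eq_one]) (hQW z.2.1)
    have := h4.fpf_of_odd (hWN g) (hcop g k hg) hc z hzW
      (mem_centralizer_singleton_iff.1 z.2.2).symm
    rw [this, orderOf_one] at hz
    omega
  have hthree : ∀ g : G, ∀ k : ℕ, g ^ 3 ^ k = 1 → g ∉ centralizer (W : Set G) → orderOf g = 3 := by
    intro g k hg hc
    obtain ⟨n, -, hn⟩ := (Nat.dvd_prime_pow Nat.prime_three).1 (orderOf_dvd_of_pow_eq_one hg)
    refine Cfsg.Agent.S3738.main g n ?_ hn Q hQp (hQN _ (mem_zpowers g)) ?_ (hfree g k hg hc) (hrk Q)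
    · rcases n with _ | n
      · rw [pow_zero, orderOf_eq_one_iff] at hn
        exact absurd (hn ▸ one_mem _) hc
      · omega
    · rw [eq_bot_iff]
      rintro x ⟨hx, hxc⟩
      obtain ⟨i, rfl⟩ := mem_zpowers_iff.1 hx
      refine hnQ _ k ?_ hxc
      rw [← zpow_natCast, ← zpow_mul, mul_comm, zpow_mul, zpow_natCast, hg, one_zpow]
  -- an element of order three centralizing `W`
  obtain ⟨g, hg⟩ := hsix
  have hx3 : orderOf (g ^ 2) = 3 := by rw [orderOf_pow' g two_ne_zero, hg]; norm_num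
  have ht2 : orderOf (g ^ 3) = 2 := by rw [orderOf_pow' g three_ne_zero, hg]; norm_num
  have hxC : g ^ 2 ∈ centralizer (W : Set G) := by
    by_contra hc
    have hf' := h4.fpf_of_odd (hWN (g ^ 2)) (by rw [hx3]; norm_num) hc
    have htp : IsPGroup 2 (zpowers (g ^ 3)) := IsPGroup.of_card (n := 1) (by
      rw [Nat.card_zpowers, ht2]; rfl)
    have h1 := inf_centralizer_ne_bot_of_isPGroup hWp htp (fun x _ => hWN x) hW1
    rcases h4.eq_bot_or_eq (hWN (g ^ 2)) hf' (U := W ⊓ centralizer (zpowers (g ^ 3) : Set G))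
      inf_le_left (inf_normalizer_le_normalizer_inf (mem_inf.2 ⟨hWN _,
        CL.normalizer_le_normalizer_centralizer _ (centralizer_le_normalizer _ (by
          rw [mem_centralizer_iff]
          intro y hy
          obtain ⟨i, rfl⟩ := mem_zpowers_iff.1 hy
          exact (((Commute.refl g).pow_pow 3 2).zpow_left i).eq))⟩)) with h | h
    · exact h1 h
    · have h2 : W ≤ centralizer (zpowers (g ^ 3) : Set G) := h ▸ inf_le_right
      have h3 := hin (g ^ 3) (by rw [← sq, ← ht2, pow_orderOf_eq_one])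
        (le_centralizer_iff.1 h2 (mem_zpowers _))
      have := hf' _ h3 ((Commute.refl g).pow_pow 2 3).eq
      rw [this, orderOf_one] at ht2
      omega
  obtain ⟨D, hD⟩ := hd.exists_le_sylow
  have hxp : IsPGroup 3 (zpowers (g ^ 2)) := IsPGroup.of_card (n := 1) (by
    rw [Nat.card_zpowers, hx3]; rfl)
  obtain ⟨D', hD'⟩ := hxp.exists_le_sylow
  obtain ⟨c, hc⟩ := MulAction.exists_smul_eq G D' D
  have hCn : (centralizer (W : Set G)).Normal := inferInstance
  have hDC : (D : Subgroup G) ⊓ centralizer (W : Set G) ≠ ⊥ := by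
    intro h
    have h1 : c * g ^ 2 * c⁻¹ ∈ (D : Subgroup G) ⊓ centralizer (W : Set G) := by
      refine mem_inf.2 ⟨?_, hCn.conj_mem _ hxC c⟩
      rw [← hc]
      exact smul_mem_pointwise_smul _ (MulAut.conj c) _ (hD' (mem_zpowers _))
    rw [h, mem_bot, conj_eq_one_iff] at h1
    rw [h1, orderOf_one] at hx3
    omega
  have h1 := inf_centralizer_ne_bot_of_isPGroup (D.isPGroup'.to_le inf_le_left) hd
    (fun x hx => inf_normalizer_le_normalizer_inf (mem_inf.2 ⟨le_normalizer (hD hx), by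
      rw [normalizer_eq_top]; trivial⟩)) hDC
  obtain ⟨y, hy, hy3⟩ : ∃ y ∈ (D : Subgroup G) ⊓ centralizer (W : Set G) ⊓
      centralizer (zpowers d : Set G), orderOf y = 3 := by
    have h2 := D.isPGroup'.to_le (inf_le_left.trans inf_le_left : (D : Subgroup G) ⊓
      centralizer (W : Set G) ⊓ centralizer (zpowers d : Set G) ≤ _)
    obtain ⟨n, hn0, hn⟩ := h2.nontrivial_iff_card.1 ((nontrivial_iff_ne_bot _).2 h1)
    obtain ⟨z, hz⟩ := exists_prime_orderOf_dvd_card' (G := ((D : Subgroup G) ⊓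
      centralizer (W : Set G) ⊓ centralizer (zpowers d : Set G) : Subgroup G)) 3
      (by rw [hn]; exact dvd_pow_self 3 hn0.ne')
    exact ⟨z, z.2, by rw [Subgroup.orderOf_coe, hz]⟩
  have hyd : Commute d y := mem_centralizer_iff.1 hy.2 d (mem_zpowers d)
  have hdC : d ∉ centralizer (W : Set G) := h4.not_mem_centralizer_of_fpf hf
  have hpw : ∀ a ∈ (D : Subgroup G), ∃ k, a ^ 3 ^ k = 1 := fun a ha => by
    obtain ⟨k, hk⟩ := D.isPGroup' ⟨a, ha⟩
    exact ⟨k, congrArg Subtype.val hk⟩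
  obtain ⟨kd, hkd⟩ := hpw d (hD (mem_zpowers d))
  have hd3 := hthree d kd hkd hdC
  let A := zpowers d ⊔ zpowers y
  have hAD : A ≤ D := sup_le hD (zpowers_le.2 hy.1.1)
  have hA : ∀ a ∈ A, ∃ i j : ℤ, a = d ^ i * y ^ j := fun a ha => by
    have hn : zpowers y ≤ normalizer (zpowers d : Set G) :=
      (zpowers_le.2 hy.2).trans (centralizer_le_normalizer _)
    obtain ⟨w, hw, s, hs, rfl⟩ :=
      (CL.mem_sup_of_le_normalizer' (H := zpowers d) (K := zpowers y) hn).1 ha
    obtain ⟨i, rfl⟩ := mem_zpowers_iff.1 hw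
    obtain ⟨j, rfl⟩ := mem_zpowers_iff.1 hs
    exact ⟨i, j, rfl⟩
  have hAc : IsMulCommutative A := ⟨⟨by
    rintro ⟨a, ha⟩ ⟨b, hb⟩
    obtain ⟨i, j, rfl⟩ := hA a ha
    obtain ⟨k, l, rfl⟩ := hA b hb
    apply Subtype.ext
    exact (Commute.mul_left (Commute.mul_right (Commute.zpow_zpow_self d i k) (hyd.zpow_zpow i l))
      (Commute.mul_right (hyd.symm.zpow_zpow j k) (Commute.zpow_zpow_self y j l))).eq⟩⟩
  have hgen : ∀ a b : G, orderOf a = 3 → b ∈ zpowers a → b ≠ 1 → a ∈ zpowers b := fun a b ha hb hb1 => by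
    have h := mem_zpowers_of_prime_card (G := zpowers a) (p := 3) (by rw [Nat.card_zpowers, ha])
      (g := ⟨b, hb⟩) (g' := ⟨a, mem_zpowers a⟩) (fun h => hb1 (congrArg Subtype.val h))
    obtain ⟨i, hi⟩ := mem_zpowers_iff.1 h
    exact mem_zpowers_iff.2 ⟨i, congrArg Subtype.val hi⟩
  have hy1 : y ≠ 1 := fun h => by rw [h, orderOf_one] at hy3; omega
  have hAnc : ¬ IsCyclic A := by
    intro hcy
    obtain ⟨a, ha⟩ : ∃ a : G, zpowers a = A := (Subgroup.isCyclic_iff_exists_zpowers_eq_top A).1 hcy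
    have haC : a ∉ centralizer (W : Set G) := fun h =>
      hdC (zpowers_le.2 h (ha ▸ mem_sup_left (mem_zpowers d)))
    obtain ⟨k, hk⟩ := hpw a (hAD (ha ▸ mem_zpowers a))
    have := hgen a y (hthree a k hk haC) (ha ▸ mem_sup_right (mem_zpowers y)) hy1
    exact haC (zpowers_le.2 hy.1.2 this)
  have hfin := coprime_le_of_forall_centralizer_le A Q (centralizer {y}) hAnc (hQN A)
    (IsPGroup.coprime_card_of_ne 3 2 (by norm_num) _ _ (D.isPGroup'.to_le hAD) hQp) (by
      intro a ha ha1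
      by_cases haC : a ∈ centralizer (W : Set G)
      · obtain ⟨i, j, rfl⟩ := hA a ha
        have h2 : d ^ i ∈ centralizer (W : Set G) :=
          by
          have hyC : y ∈ centralizer (W : Set G) := (mem_inf.1 (mem_inf.1 hy).1).2
          exact (Subgroup.mul_mem_cancel_right _ (Subgroup.zpow_mem _ hyC j)).1 haC
        have h3 : d ^ i = 1 := by
          by_contra h3
          exact hdC (zpowers_le.2 h2 (hgen d _ hd3 (zpow_mem_zpowers d i) h3))
        rw [h3, one_mul] at ha1 ⊢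
        obtain ⟨m, hm⟩ := mem_zpowers_iff.1 (hgen y _ hy3 (zpow_mem_zpowers y j) ha1)
        intro x hx
        rw [mem_centralizer_singleton_iff]
        have h5 : Commute x (y ^ j) := mem_centralizer_singleton_iff.1 hx.2
        have := (h5.zpow_right m).eq
        rwa [hm] at this
      · obtain ⟨k, hk⟩ := hpw a (hAD ha)
        rw [hfree a k hk haC]; exact bot_le)
  refine hy1 (hnQ y 1 (by rw [pow_one, ← hy3, pow_orderOf_eq_one]) ?_)
  rw [mem_centralizer_iff]
  intro x hx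
  exact mem_centralizer_singleton_iff.1 (hfin hx)

end Cfsg.Agent.S3739
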