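import Cfsg.Statements.S3740
import Cfsg.Agent.KSG.SL2Solv
import Cfsg.Agent.SOLV.CoprimeSylow
import Cfsg.Agent.PLOC.SL23

set_option autoImplicit false
open Cfsg CL.GL2 CL.Char

namespace Cfsg.Agent.S3740

open scoped MatrixGroups in
theorem quat {F : Type*} [Field F] [Fintype F] [DecidableEq F] (h2 : (2 : F) ≠ 0) {A : Subgroup SL(2, F)}
    (hA : ∀ t ∈ A, ¬ IsScal (t : Matrix (Fin 2) (Fin 2) F) → (t : Matrix (Fin 2) (Fin 2) F).trace = 0)
    {a : SL(2, F)} (ha : a ∈ A) (hs : ¬ IsScal (a : Matrix (Fin 2) (Fin 2) F)) {w : SL(2, F)} (hw : w ∈ A)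
    (hw' : w ∉ centSL (a : Matrix (Fin 2) (Fin 2) F)) : QP a w ∧
      ∀ t ∈ A, (t = 1 ∨ t = -1 ∨ t = a ∨ t = -a) ∨ (t = w ∨ t = -w ∨ t = a * w ∨ t = -(a * w)) := by
  have haa := sq_eq_neg_one_of_trace (hA a ha hs)
  have hr := reg_of_mul_self h2 haa
  have hc : ∀ t, IsScal ((t : SL(2, F)) : Matrix (Fin 2) (Fin 2) F) →
      t ∈ centSL (a : Matrix (Fin 2) (Fin 2) F) := fun t ht => center_le_centSL _ (mem_center_SL_iff.2 ht)
  have anti : ∀ t ∈ A, t ∉ centSL (a : Matrix (Fin 2) (Fin 2) F) → t * t = -1 ∧ t * a = -(a * t) := by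
    intro t ht h
    have h1 := sq_eq_neg_one_of_trace (hA t ht fun e => h (hc t e))
    have h3 := sq_eq_neg_one_of_trace (hA _ (mul_mem ha ht) fun e => h
      ((Subgroup.mul_mem_cancel_left _ (self_mem_centSL a)).1 (hc _ e)))
    refine ⟨h1, ?_⟩
    rw [← inv_eq_neg_of_mul_self h3, _root_.mul_inv_rev, inv_eq_neg_of_mul_self h1,
      inv_eq_neg_of_mul_self haa, neg_mul_neg]
  have cent : ∀ t ∈ A, t ∈ centSL (a : Matrix (Fin 2) (Fin 2) F) → t = 1 ∨ t = -1 ∨ t = a ∨ t = -a := by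
    intro t ht h
    by_cases e : IsScal (t : Matrix (Fin 2) (Fin 2) F)
    · have := isScal_SL_iff.1 e
      tauto
    · have := hr.eq_or_eq_inv h ((hA t ht e).trans (hA a ha hs).symm)
      rw [inv_eq_neg_of_mul_self haa] at this
      tauto
  obtain ⟨w1, w2⟩ := anti w hw hw'
  refine ⟨⟨haa, w1, w2⟩, fun t ht => ?_⟩
  by_cases h : t ∈ centSL (a : Matrix (Fin 2) (Fin 2) F)
  · exact Or.inl (cent t ht h)
  · right
    have e : t = -(t * w * w) := by rw [mul_assoc, w1]; simp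
    have := cent _ (mul_mem ht hw) (mem_centSL_iff.2 (by
      rw [mul_assoc, w2, mul_neg, ← mul_assoc, (anti t ht h).2, neg_mul, neg_neg, mul_assoc]))
    rcases this with e' | e' | e' | e' <;> rw [e'] at e <;> simp [e]

open scoped MatrixGroups in
theorem equiv_sl23 {G : Type*} [Group G] [Finite G] {i j g : G} (h1 : i ^ 4 = 1) (h0 : i ^ 2 ≠ 1) (h2 : j ^ 2 = i ^ 2)
    (h3 : j * i * j⁻¹ = i⁻¹) (h4 : g * i * g⁻¹ = j) (h5 : g * j * g⁻¹ = i * j) (h6 : g ^ 3 = 1)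
    {H : Subgroup G} (hi : i ∈ H) (hg : g ∈ H) (hH : ∀ K : Subgroup G, i ∈ K → j ∈ K → g ∈ K → H ≤ K) :
    Nonempty (H ≃* SL(2, ZMod 3)) := by
  obtain ⟨φ, e1, e2, e3⟩ := CL.Tr.exists_sl23_hom h1 h2 h3 h4 h5 h6
  have hφ := CL.Tr.injective_of_sl23 (φ := φ) (by rwa [e1])
  have hj : j ∈ H := h4 ▸ mul_mem (mul_mem hg hi) (inv_mem hg)
  have : H = φ.range := by
    refine le_antisymm (hH _ ⟨_, e1⟩ ⟨_, e2⟩ ⟨_, e3⟩) ?_
    rintro _ ⟨m, rfl⟩
    obtain ⟨a, b, c, rfl⟩ := CL.Tr.sl23_normal_form m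
    rw [map_mul, map_mul, map_pow, map_pow, map_pow, e1, e2, e3]
    exact mul_mem (mul_mem (pow_mem hi _) (pow_mem hj _)) (pow_mem hg _)
  exact ⟨(MulEquiv.subgroupCongr this).trans (MonoidHom.ofInjective hφ).symm⟩

/-- Let F be a finite field of odd characteristic p and let a be a p-element of SL₂(F) normalizing a subgroup R of order prime to p with [R, a] ≠ 1. Then p = 3, R is a quaternion group of order 8, and R⟨a⟩ is isomorphic to SL₂(3). -/
theorem result (F : Type) [Field F] [Fintype F] {p : ℕ} [Fact p.Prime] [CharP F p] (hp : p ≠ 2) (a : Matrix.SpecialLinearGroup (Fin 2) F) (ha : IsPGroup p ↥(Subgroup.zpowers a)) (R : Subgroup (Matrix.SpecialLinearGroup (Fin 2) F)) (hR : (Nat.card R).Coprime p) (haR : a ∈ Subgroup.normalizer (R : Set (Matrix.SpecialLinearGroup (Fin 2) F))) (hnt : ⁅R, Subgroup.zpowers a⁆ ≠ ⊥) : p = 3 ∧ Nonempty (↥R ≃* QuaternionGroup 2) ∧ Nonempty (↥(R ⊔ Subgroup.zpowers a) ≃* Matrix.SpecialLinearGroup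 (Fin 2) (ZMod 3)) := by
  classical
  have hpp : p.Prime := Fact.out
  have h2 := two_ne_zero_of_char_ne (F := F) p hp
  have hodd := odd_of_two_ne_zero h2
  obtain ⟨n, hn⟩ := IsPGroup.iff_card.1 ha
  rw [Nat.card_zpowers] at hn
  have ha1 : a ≠ 1 := fun e => hnt (by rw [e, Subgroup.zpowers_one_eq_bot, Subgroup.commutator_bot_right])
  have hpa : p ∣ orderOf a := by
    rw [hn]
    refine dvd_pow_self _ fun e => ha1 ?_
    rwa [e, pow_zero, orderOf_eq_one_iff] at hn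
  have key : ∀ d : Matrix.SpecialLinearGroup (Fin 2) F, Reg d →
      a ∉ Subgroup.normalizer (centSL (d : Matrix (Fin 2) (Fin 2) F) : Set (Matrix.SpecialLinearGroup (Fin 2) F)) := by
    intro d hd h
    have h1 := hpa.trans (Subgroup.orderOf_dvd_natCard _ h)
    rw [hd.card_normalizer, hpp.dvd_mul] at h1
    rcases h1 with h1 | h1
    · exact hp ((Nat.prime_dvd_prime_iff_eq hpp Nat.prime_two).1 h1)
    · rcases hd.cases with ⟨-, e⟩ | ⟨-, e⟩ <;> rw [e] at h1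
      exacts [not_char_dvd_succ p h1, not_char_dvd_pred p h1]
  have hR2 : IsPGroup 2 R := by
    rw [IsPGroup.iff_card]
    refine ⟨_, Nat.eq_prime_pow_of_unique_prime_dvd Nat.card_pos.ne' fun {r} hr hd => ?_⟩
    by_contra hr2
    have := Fact.mk hr
    obtain ⟨P, hP⟩ := CL.coprime_exists_invariant_sylow (Subgroup.zpowers a) R (Subgroup.zpowers_le.2 haR)
      (by rw [Nat.card_zpowers, hn]; exact (hR.pow_right n).symm)
      (Or.inl (Group.isSolvable_of_comm fun x y => mul_comm' x y)) r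
    have hrq : ¬ r ∣ Fintype.card F := fun e => by
      obtain ⟨m, -, hm⟩ := FiniteField.card F p
      rw [hm] at e
      have := (Nat.prime_dvd_prime_iff_eq hr hpp).1 (hr.dvd_of_dvd_pow e)
      exact hr.one_lt.ne' (Nat.eq_one_of_dvd_coprimes hR hd this.dvd)
    obtain ⟨z, hz, hzr, -, hle⟩ := exists_reg_of_isPGroup hr2 hrq (P.2.map R.subtype) (fun e =>
      P.ne_bot_of_dvd_card hd ((Subgroup.map_eq_bot_iff_of_injective _ R.subtype_injective).1 e))
    exact key z hzr (hzr.normalizer_eq hz hle ▸ hP (Subgroup.mem_zpowers a))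
  have hcj : ∀ t ∈ R, a * t * a⁻¹ ∈ R := fun t ht => (Subgroup.mem_normalizer_iff.1 haR t).1 ht
  have hA : ∀ t ∈ R, ¬ IsScal (t : Matrix (Fin 2) (Fin 2) F) → (t : Matrix (Fin 2) (Fin 2) F).trace = 0 := by
    obtain ⟨S, hS⟩ := hR2.exists_le_sylow
    obtain ⟨x, w, hx⟩ := exists_syl2 hodd S
    have hr := hx.reg h2
    intro t ht hs
    by_contra h0
    have k : ∀ u ∈ R, (u : Matrix (Fin 2) (Fin 2) F).trace ≠ 0 → u ∈ centSL (x : Matrix (Fin 2) (Fin 2) F) :=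
      fun u hu h => by_contra fun e => h (hr.trace_eq_zero (hx.le (hS hu)) e)
    have h1 := k t ht h0
    have h3 := k _ (hcj t ht) (by rwa [trace_conj_SL])
    rw [← hr.centSL_eq h1 hs] at h3
    exact key t (hr.of_mem h1 hs) ((mem_normalizer_centSL hs).2 h3)
  obtain ⟨x, hx, hs⟩ : ∃ x ∈ R, ¬ IsScal (x : Matrix (Fin 2) (Fin 2) F) := by
    by_contra! h
    refine hnt (Subgroup.commutator_eq_bot_iff_le_centralizer.2 fun x hx => ?_)
    exact Subgroup.center_le_centralizer _ (mem_center_SL_iff.2 (h x hx))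
  have hxr := reg_of_trace_eq_zero h2 (hA x hx hs)
  have hj : a * x * a⁻¹ ∉ centSL (x : Matrix (Fin 2) (Fin 2) F) := fun e =>
    key x hxr ((mem_normalizer_centSL hs).2 e)
  obtain ⟨hq, hcases⟩ := quat h2 hA hx hs (hcj x hx) hj
  have hle : ∀ K : Subgroup (Matrix.SpecialLinearGroup (Fin 2) F), x ∈ K → a * x * a⁻¹ ∈ K → R ≤ K := by
    intro K h1 h3 t ht
    have mn : ∀ y ∈ K, -y ∈ K := fun y hy => by rw [← neg_one_mul, ← hq.sq]; exact mul_mem (mul_mem h1 h1) hy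
    rcases hcases t ht with (e | e | e | e) | (e | e | e | e) <;> rw [e]
    exacts [one_mem _, mn _ (one_mem _), h1, mn _ h1, h3, mn _ h3, mul_mem h1 h3, mn _ (mul_mem h1 h3)]
  have hRe : R = Subgroup.closure {x, a * x * a⁻¹} := le_antisymm
    (hle _ (Subgroup.subset_closure (by simp)) (Subgroup.subset_closure (by simp)))
    ((Subgroup.closure_le _).2 (Set.pair_subset hx (hcj x hx)))
  have h48 : orderOf a ∣ 48 := (Subgroup.orderOf_dvd_natCard _ (hRe ▸ haR)).trans (hq.card_normalizer_dvd h2)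
  have hp3 : p = 3 := by
    have := hpa.trans h48
    rw [show 48 = 2 ^ 4 * 3 by rfl, hpp.dvd_mul] at this
    rcases this with h | h
    · exact absurd ((Nat.prime_dvd_prime_iff_eq hpp Nat.prime_two).1 (hpp.dvd_of_dvd_pow h)) hp
    · exact (Nat.prime_dvd_prime_iff_eq hpp Nat.prime_three).1 h
  subst hp3
  have ha3 : a ^ 3 = 1 := by
    refine orderOf_dvd_iff_pow_eq_one.1 ?_
    rw [hn] at h48 ⊢
    exact Nat.Coprime.dvd_of_dvd_mul_left (Nat.Coprime.pow_left n (show Nat.Coprime 3 16 by decide)) h48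
  obtain ⟨e⟩ := hq.equiv h2
  refine ⟨rfl, ⟨(MulEquiv.subgroupCongr hRe).trans e⟩, ?_⟩
  have hx4 : x ^ 4 = 1 := by rw [← QP.orderOf_eq h2 hq.sq, pow_orderOf_eq_one]
  have hx2 : x ^ 2 ≠ 1 := by rw [pow_two, hq.sq]; exact neg_one_ne_one_SL h2
  have hjs := not_isScal_conj hs a
  have hk1 : a * (a * x * a⁻¹) * a⁻¹ ∉ centSL ((a * x * a⁻¹ : Matrix.SpecialLinearGroup (Fin 2) F) : Matrix (Fin 2) (Fin 2) F) :=
    fun e => key _ (hxr.conj a) ((mem_normalizer_centSL hjs).2 e)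
  have hinv : a⁻¹ = a * a := by rw [inv_eq_iff_mul_eq_one, ← pow_three, ha3]
  have hk0 : a * (a * x * a⁻¹) * a⁻¹ = a⁻¹ * x * a⁻¹⁻¹ := by
    conv_rhs => rw [hinv]
    group
  have hk2 : a * (a * x * a⁻¹) * a⁻¹ ∉ centSL (x : Matrix (Fin 2) (Fin 2) F) := fun e =>
    key x hxr ((Subgroup.inv_mem_iff _).1 ((mem_normalizer_centSL hs).2 (hk0 ▸ e)))
  have hxm : x ∈ R ⊔ Subgroup.zpowers a := Subgroup.mem_sup_left hx
  have ham : a ∈ R ⊔ Subgroup.zpowers a := Subgroup.mem_sup_right (Subgroup.mem_zpowers a)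
  rcases hcases _ (hcj _ (hcj x hx)) with (h | h | h | h) | (h | h | h | h)
  · exact (hk1 (by rw [h]; exact one_mem _)).elim
  · exact (hk1 (by rw [h]; exact Syl2.neg_mem_cent_iff.2 (one_mem _))).elim
  · exact (hk2 (by rw [h]; exact self_mem_centSL _)).elim
  · exact (hk2 (by rw [h]; exact Syl2.neg_mem_cent_iff.2 (self_mem_centSL _))).elim
  · exact (hk1 (by rw [h]; exact self_mem_centSL _)).elim
  · exact (hk1 (by rw [h]; exact Syl2.neg_mem_cent_iff.2 (self_mem_centSL _))).elim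
  · exact equiv_sl23 hx4 hx2 (by rw [pow_two, pow_two, hq.sq, hq.wsq]) hq.conj rfl h ha3 hxm ham
      fun K h1 h3 h4 => sup_le (hle K h1 h3) (Subgroup.zpowers_le.2 h4)
  · have hq' : QP x (-(x * (a * x * a⁻¹))) := ⟨hq.sq, by rw [neg_mul_neg, hq.mul_sq], by
      rw [neg_mul, mul_assoc, hq.anti, mul_neg]⟩
    refine equiv_sl23 (g := a⁻¹) hx4 hx2 (by rw [pow_two, pow_two, hq.sq, hq'.wsq]) hq'.conj (hk0.symm.trans h) ?_
      (by rw [inv_pow, ha3, inv_one]) hxm (inv_mem ham)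
      fun K h1 h3 h4 => sup_le (hle K h1 (mul_mem (mul_mem ((Subgroup.inv_mem_iff _).1 h4) h1) h4))
        (Subgroup.zpowers_le.2 ((Subgroup.inv_mem_iff _).1 h4))
    rw [mul_neg x, ← mul_assoc x x, hq.sq, neg_one_mul, neg_neg, ← h]
    group

end Cfsg.Agent.S3740
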