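import Cfsg.Statements.S3741
import Cfsg.Agent.FGS.Pairing

set_option autoImplicit false
open Cfsg

namespace Cfsg.Agent.S3741

open scoped commutatorElement


/-- Let A and B be subgroups of a finite p-group with [A, B] ≤ A ∩ B and [A, B] of order at most p. Then |A : C_A(B)| = |B : C_B(A)|. -/
theorem result {G : Type*} [Group G] [Finite G] {p : ℕ} [Fact p.Prime] (hG : IsPGroup p G) (A B : Subgroup G) (hAB : ⁅A, B⁆ ≤ A ⊓ B) (hcard : Nat.card ↥⁅A, B⁆ ≤ p) : (A ⊓ Subgroup.centralizer (B : Set G)).relIndex A = (B ⊓ Subgroup.centralizer (A : Set G)).relIndex B := by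
  have hp : p.Prime := Fact.out
  set D : Subgroup G := ⁅A, B⁆ with hD
  have hA : A ≤ Subgroup.centralizer (D : Set G) :=
    CL.le_centralizer_of_card_le_prime A D (hG.to_subgroup A)
      (Subgroup.normalizer_commutator_ge_left A B) hcard
  have hB : B ≤ Subgroup.centralizer (D : Set G) :=
    CL.le_centralizer_of_card_le_prime B D (hG.to_subgroup B)
      (Subgroup.normalizer_commutator_ge_right A B) hcard
  have hcyc : IsCyclic D := by
    obtain ⟨n, hn⟩ := IsPGroup.iff_card.1 (hG.to_subgroup D)
    rcases n with _ | _ | n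
    · have := (Nat.card_eq_one_iff_unique.1 hn).1
      infer_instance
    · exact isCyclic_of_prime_card (p := p) (by simpa using hn)
    · exfalso
      have : p ^ 1 < p ^ (n + 1 + 1) := Nat.pow_lt_pow_right hp.one_lt (by omega)
      rw [pow_one] at this
      omega
  refine CL.pairing_index_eq (D := D)
    (fun (a : A) (b : B) => ⟨⁅(a : G), (b : G)⁆, Subgroup.commutator_mem_commutator a.2 b.2⟩)
    ?_ ?_ _ _ ?_ ?_
  · intro a a' b
    apply Subtype.ext
    have := hA a.2 _ (Subgroup.commutator_mem_commutator a'.2 b.2)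
    have h2 := hB b.2 _ (Subgroup.commutator_mem_commutator a'.2 b.2)
    have h3 := hA (inv_mem a.2) _ (Subgroup.commutator_mem_commutator a'.2 b.2)
    have h4 := hB (inv_mem b.2) _ (Subgroup.commutator_mem_commutator a'.2 b.2)
    simp only [Subgroup.coe_mul]
    rw [commutatorElement_mul_left_eq_conj_mul, ← this, mul_inv_cancel_right]
    simp only [commutatorElement_def ((a : G))]
    simp only [← mul_assoc]
    rw [this, mul_assoc _ _ (b : G), h2, ← mul_assoc, mul_assoc _ _ ((a : G)⁻¹), h3, ← mul_assoc,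
      mul_assoc _ _ ((b : G)⁻¹), h4, ← mul_assoc]
  · intro a b b'
    apply Subtype.ext
    have h2 := hB b.2 _ (Subgroup.commutator_mem_commutator a.2 b'.2)
    simp only [Subgroup.coe_mul]
    rw [commutatorElement_mul_right_eq_mul_conj, mul_assoc _ (b : G), ← h2, ← mul_assoc,
      mul_inv_cancel_right]
  · intro a
    simp only [Subgroup.mem_subgroupOf, Subgroup.mem_inf, a.2, true_and, Subtype.ext_iff,
      Subgroup.mem_centralizer_iff, Subgroup.coe_one, commutatorElement_eq_one_iff_mul_comm]
    exact ⟨fun h b => (h b b.2).symm, fun h b hb => (h ⟨b, hb⟩).symm⟩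
  · intro b
    simp only [Subgroup.mem_subgroupOf, Subgroup.mem_inf, b.2, true_and, Subtype.ext_iff,
      Subgroup.mem_centralizer_iff, Subgroup.coe_one, commutatorElement_eq_one_iff_mul_comm]
    exact ⟨fun h a => h a a.2, fun h a ha => h ⟨a, ha⟩⟩

end Cfsg.Agent.S3741
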