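import Cfsg.Statements.S3743
import Cfsg.Agent.SOLV.Core
import Cfsg.Agent.FGS.NilpBasic

set_option autoImplicit false
open Cfsg

namespace Cfsg.Agent.S3743

theorem le_fitting {G : Type*} [Group G] [Finite G] (A : Subgroup G) (hA : A.IsSubnormal)
    (hn : Group.IsNilpotent A) : A ≤ Cfsg.fittingSubgroup G := by
  rw [← Subgroup.subgroupOf_eq_top]
  refine CL.FGS.eq_top_of_forall_prime_exists_sylow_le _ (fun q _ => ?_)
  obtain ⟨R⟩ : Nonempty (Sylow q A) := inferInstance
  refine ⟨R, ?_⟩
  have hRn : (R : Subgroup A).Normal := inferInstance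
  have h1 : ((R : Subgroup A).map A.subtype).IsSubnormal := hRn.isSubnormal.trans' hA
  have h2 := CL.le_pCore_of_isSubnormal h1 (R.isPGroup'.map _)
  have h3 : pCore q G ≤ fittingSubgroup G :=
    le_sSup ⟨inferInstance, (CL.isPGroup_pCore q G).isNilpotent⟩
  exact Subgroup.map_le_iff_le_comap.1 (h2.trans h3)


/-- In a finite group G, every subnormal nilpotent subgroup lies in the Fitting subgroup F(G), and, for a set of primes π, every subnormal subgroup all of whose prime divisors lie in π lies in O_π(G). -/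
theorem result {G : Type*} [Group G] [Finite G] (A : Subgroup G) (hA : A.IsSubnormal) : (Group.IsNilpotent A → A ≤ Cfsg.fittingSubgroup G) ∧ ∀ π : Set ℕ, (∀ p : ℕ, p.Prime → p ∣ Nat.card A → p ∈ π) → A ≤ Cfsg.piCore π G := by
  exact ⟨le_fitting A hA, fun π h => CL.le_piCore_of_isSubnormal hA h⟩

end Cfsg.Agent.S3743
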