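import Cfsg.Statements.S3744
import Cfsg.Agent.SOLV.PSolvable

set_option autoImplicit false
open Cfsg

namespace Cfsg.Agent.S3744

/-- A finite p-soluble group has a p-complement, all its p-complements are conjugate, and every subgroup of order prime to p lies in one of them. Here a p-complement is a subgroup of order prime to p whose index is a power of p. -/
theorem result {G : Type*} [Group G] [Finite G] {p : ℕ} [Fact p.Prime] (hG : Cfsg.IsPSolvable p G) : (∃ H : Subgroup G, (Nat.card H).Coprime p ∧ ∃ n : ℕ, H.index = p ^ n) ∧ (∀ H₁ H₂ : Subgroup G, (Nat.card H₁).Coprime p → (∃ n : ℕ, H₁.index = p ^ n) → (Nat.card H₂).Coprime p → (∃ n : ℕ, H₂.index = p ^ n) → ∃ g : G, H₂ = H₁.map (MulAut.conj g).toMonoidHom) ∧ (∀ U : Subgroup G, (Nat.card U).Coprime p → ∃ H : Subgroup G, (Nat.card H).Coprime p ∧ (∃ n : ℕ, H.index = p ^ n) ∧ ∃ g : G, U.map (MulAut.conj g).toMonoidHom ≤ H) := by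
  refine ⟨?_, fun H₁ H₂ h1 h2 h3 h4 => ?_, fun U hU => ?_⟩
  · obtain ⟨H, hH⟩ := CL.IsPSolvable.exists_isPiHall_compl hG
    exact ⟨H, CL.isPiHall_compl_singleton_iff.mp hH⟩
  · obtain ⟨g, hg⟩ := CL.IsPSolvable.exists_conj_eq hG
      (CL.isPiHall_compl_singleton_iff.mpr ⟨h1, h2⟩) (CL.isPiHall_compl_singleton_iff.mpr ⟨h3, h4⟩)
    exact ⟨g, hg.symm⟩
  · obtain ⟨H, hH, hle⟩ := CL.IsPSolvable.exists_isPiHall_ge hG hU
    rw [CL.isPiHall_compl_singleton_iff] at hH
    refine ⟨H, hH.1, hH.2, 1, ?_⟩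
    rwa [← CL.conj_smul_eq_map, CL.conj_one_smul]

end Cfsg.Agent.S3744
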