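import Cfsg.Statements.S3746
import Cfsg.Agent.SIG.Component

set_option autoImplicit false
open Cfsg

namespace Cfsg.Agent.S3746


/-- Let Z ≤ Z(G) be a central subgroup of a finite group G and E a subgroup of G containing Z whose image E/Z is a component of G/Z (subnormal and quasisimple). Then the derived subgroup [E, E] is a component of G. -/
theorem result {G : Type*} [Group G] [Finite G] (Z : Subgroup G) (hZ : Z ≤ Subgroup.center G) [Z.Normal] (E : Subgroup G) (hZE : Z ≤ E) (hE : Cfsg.IsComponent (E.map (QuotientGroup.mk' Z))) : Cfsg.IsComponent ⁅E, E⁆ := by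
  have hEs : E.IsSubnormal := by
    have := hE.1.comap (QuotientGroup.mk' Z)
    rwa [Subgroup.comap_map_eq, QuotientGroup.ker_mk', sup_eq_left.2 hZE] at this
  have h := CL.Comp.isQuasisimple_commutator_of_ker_le_center ((QuotientGroup.mk' Z).subgroupMap E)
    ((QuotientGroup.mk' Z).subgroupMap_surjective E) (by
      intro x hx
      have h1 : (x : G) ∈ Z := (QuotientGroup.eq_one_iff _).1 (congrArg Subtype.val hx)
      rw [Subgroup.mem_center_iff]
      intro y
      exact Subtype.ext (Subgroup.mem_center_iff.1 (hZ h1) y)) hE.2
  have := (CL.Comp.isComponent_of_normal h).map_subtype hEs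
  rwa [Subgroup.map_subtype_commutator] at this

end Cfsg.Agent.S3746
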