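import Cfsg.Statements.S3747
import Cfsg.Agent.SIG.Component
import Cfsg.Agent.SOLV.Basic
import Cfsg.Agent.S3743

set_option autoImplicit false
open Cfsg

namespace Cfsg.Agent.S3747

open scoped Pointwise IsMulCommutative

theorem center_sSup {G : Type*} [Group G] (S : Finset (Subgroup G))
    (hS : ∀ K ∈ S, IsComponent K ∧ K ⊓ Subgroup.centralizer (K : Set G) = ⊥) :
    sSup (S : Set (Subgroup G)) ⊓
      Subgroup.centralizer ((sSup (S : Set (Subgroup G)) : Subgroup G) : Set G) = ⊥ := by
  classical
  induction S using Finset.induction_on with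
  | empty => simp
  | insert K S hK ih =>
    have ih' := ih (fun L hL => hS L (Finset.mem_insert_of_mem hL))
    obtain ⟨hKc, hKz⟩ := hS K (Finset.mem_insert_self K S)
    rw [Finset.coe_insert, sSup_insert, eq_bot_iff]
    have hc : sSup (S : Set (Subgroup G)) ≤ Subgroup.centralizer (K : Set G) :=
      sSup_le fun L hL => (hS L (Finset.mem_insert_of_mem hL)).1.le_centralizer_of_ne hKc
        (fun e => hK (e ▸ hL))
    rintro z ⟨hz1, hz2⟩
    obtain ⟨k, hk, w, hw, rfl⟩ := (CL.mem_sup_of_le_normalizer'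
      (hc.trans (Subgroup.centralizer_le_normalizer _))).1 hz1
    have hk1 : k = 1 := by
      have : k ∈ K ⊓ Subgroup.centralizer (K : Set G) := by
        refine ⟨hk, ?_⟩
        have h1 : k * w ∈ Subgroup.centralizer (K : Set G) :=
          Subgroup.centralizer_le (le_sup_left : K ≤ K ⊔ _) hz2
        simpa using mul_mem h1 (inv_mem (hc hw))
      rwa [hKz] at this
    subst hk1
    rw [one_mul] at hz2 ⊢
    rw [← ih']
    exact ⟨hw, Subgroup.centralizer_le (le_sup_right : _ ≤ K ⊔ _) hz2⟩

theorem part_a {G : Type*} [Group G] [Finite G] (K : Subgroup G) (hK : IsComponent K)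
    (hz : K ⊓ Subgroup.centralizer (K : Set G) = ⊥) :
    (Subgroup.normalClosure (K : Set G) ≠ ⊥ ∧ ∀ N : Subgroup G, N.Normal →
      N ≤ Subgroup.normalClosure (K : Set G) → N = ⊥ ∨ N = Subgroup.normalClosure (K : Set G)) := by
  classical
  refine ⟨fun h => hK.ne_bot (eq_bot_iff.2 (Subgroup.le_normalClosure.trans h.le)), ?_⟩
  intro N hN hle
  rcases hK.le_or_commutator_eq_bot hN.isSubnormal with h | h
  · exact Or.inr (le_antisymm hle (Subgroup.normalClosure_le_normal h))
  left
  have := Fintype.ofFinite G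
  let S : Finset (Subgroup G) := Finset.univ.image (fun g : G => MulAut.conj g • K)
  have hS : ∀ L ∈ S, IsComponent L ∧ L ⊓ Subgroup.centralizer (L : Set G) = ⊥ := by
    intro L hL
    obtain ⟨g, -, rfl⟩ := Finset.mem_image.1 hL
    refine ⟨hK.smul _, ?_⟩
    rw [CL.centralizer_conj_smul, ← Subgroup.smul_inf, hz, Subgroup.smul_bot]
  have h1 := center_sSup S hS
  have h2 : Subgroup.normalClosure (K : Set G) ≤ sSup (S : Set (Subgroup G)) := by
    refine (Subgroup.closure_le _).2 ?_
    intro x hx
    obtain ⟨k, hk, hc⟩ := Group.mem_conjugatesOfSet_iff.1 hx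
    obtain ⟨g, rfl⟩ := isConj_iff.1 hc
    have : MulAut.conj g • K ≤ sSup (S : Set (Subgroup G)) :=
      le_sSup (Finset.mem_coe.2 (Finset.mem_image_of_mem _ (Finset.mem_univ g)))
    exact this (CL.conj_mem_conj_smul hk)
  have h3 : Subgroup.normalClosure (K : Set G) ≤ Subgroup.centralizer (N : Set G) :=
    Subgroup.normalClosure_le_normal (Subgroup.commutator_eq_bot_iff_le_centralizer.1 h)
  have h4 : sSup (S : Set (Subgroup G)) ≤ Subgroup.normalClosure (K : Set G) := by
    refine sSup_le ?_
    intro L hL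
    obtain ⟨g, -, rfl⟩ := Finset.mem_image.1 hL
    exact CL.conj_smul_le_of_mem_normalizer Subgroup.le_normalClosure
      (Subgroup.le_normalizer_of_normal (Subgroup.mem_top g))
  rw [eq_bot_iff, ← h1]
  exact le_inf (hle.trans h2) (Subgroup.le_centralizer_iff.1 (h4.trans h3))


/-- Let G be a finite group. (a) If K is a component of G with trivial centre, then the normal closure of K in G is a minimal normal subgroup of G. (b) If the Fitting subgroup of G is trivial, then the layer E(G) is generated by the minimal normal subgroups of G. -/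
theorem result {G : Type*} [Group G] [Finite G] : (∀ K : Subgroup G, Cfsg.IsComponent K → Subgroup.center ↥K = ⊥ → (Subgroup.normalClosure (K : Set G) ≠ ⊥ ∧ ∀ N : Subgroup G, N.Normal → N ≤ Subgroup.normalClosure (K : Set G) → N = ⊥ ∨ N = Subgroup.normalClosure (K : Set G))) ∧ (Cfsg.fittingSubgroup G = ⊥ → sSup {N : Subgroup G | N ≠ ⊥ ∧ N.Normal ∧ ∀ N' : Subgroup G, N'.Normal → N' ≤ N → N' = ⊥ ∨ N' = N} = Cfsg.layer G) := by
  refine ⟨fun K hK hz => part_a K hK ?_, fun hF => le_antisymm ?_ ?_⟩
  · rw [← CL.Comp.map_center_subtype, hz, Subgroup.map_bot]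
  · refine sSup_le ?_
    rintro N ⟨hN0, hNn, hmin⟩
    obtain ⟨L, ⟨hL0, hLN, hLs⟩, hLmin⟩ := exists_minimal_of_wellFoundedLT
      (fun L : Subgroup G => L ≠ ⊥ ∧ L ≤ N ∧ L.IsSubnormal) ⟨N, hN0, le_rfl, hNn.isSubnormal⟩
    have hnt : Nontrivial L := (Subgroup.nontrivial_iff_ne_bot L).2 hL0
    have hsimple : IsSimpleGroup L := ⟨fun M hM => by
      by_cases h0 : M = ⊥
      · exact Or.inl h0
      right
      have h1 : M.map L.subtype ≠ ⊥ := by
        rwa [Ne, Subgroup.map_eq_bot_iff_of_injective _ L.subtype_injective]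
      have h2 := hLmin ⟨h1, (Subgroup.map_subtype_le M).trans hLN, hM.isSubnormal.trans' hLs⟩
        (Subgroup.map_subtype_le M)
      rw [eq_top_iff]
      intro x _
      obtain ⟨y, hy, e⟩ := h2 x.2
      rwa [← Subtype.ext e]⟩
    have hna : ¬ IsMulCommutative L := by
      intro hc
      apply hL0
      rw [eq_bot_iff, ← hF]
      exact (S3743.result L hLs).1 inferInstance
    have hc : IsComponent L := ⟨hLs, CL.Comp.isQuasisimple_of_isSimpleGroup hna⟩
    rcases hmin (N ⊓ layer G) inferInstance inf_le_left with h | h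
    · exact absurd (eq_bot_iff.2 ((le_inf hLN hc.le_layer).trans h.le)) hL0
    · rw [← h]; exact inf_le_right
  · rw [CL.Comp.layer_le_iff]
    intro K hK
    have hz : K ⊓ Subgroup.centralizer (K : Set G) = ⊥ := by
      rw [← CL.Comp.map_center_subtype, eq_bot_iff, ← hF]
      refine (S3743.result _ ((inferInstance : (Subgroup.center K).Normal).isSubnormal.trans'
        hK.1)).1 ?_
      exact (Group.isNilpotent_congr ((Subgroup.center K).equivMapOfInjective _
        K.subtype_injective)).1 inferInstance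
    obtain ⟨h1, h2⟩ := part_a K hK hz
    exact Subgroup.le_normalClosure.trans (le_sSup ⟨h1, inferInstance, h2⟩)

end Cfsg.Agent.S3747
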