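import Cfsg.Statements.S3749
import Mathlib
import Cfsg.Agent.FGS.PrimSub
import Cfsg.Agent.SOLV.Core

set_option autoImplicit false
open Cfsg

namespace Cfsg.Agent.S3749

open Subgroup in
open scoped Pointwise in

/-- Call a proper subgroup M of G primitive when M = N_G(N) for every non-trivial normal subgroup N of M. Let M be a primitive subgroup of the finite group G, p a prime with O_p(M) ≠ 1, and N a normal subgroup of G with M ∩ N = 1. Then p does not divide the order of N; for every prime q there is exactly one Sylow q-subgroup of N normalized by M; and if the order of N has at least two prime divisors then M is not a maximal subgroup of G. -/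
theorem result {G : Type*} [Group G] [Finite G] (M : Subgroup G) (hM : M ≠ ⊤) (hprim : ∀ N : Subgroup G, N ≤ M → M ≤ Subgroup.normalizer (N : Set G) → N ≠ ⊥ → Subgroup.normalizer (N : Set G) = M) {p : ℕ} [Fact p.Prime] (hOp : Cfsg.pCore p ↥M ≠ ⊥) (N : Subgroup G) [N.Normal] (hMN : M ⊓ N = ⊥) : ¬ p ∣ Nat.card N ∧ (∀ q : ℕ, [Fact q.Prime] → ∃! Q : Sylow q ↥N, M ≤ Subgroup.normalizer ((Q : Subgroup ↥N).map N.subtype : Set G)) ∧ ((∃ q r : ℕ, q.Prime ∧ r.Prime ∧ q ≠ r ∧ q ∣ Nat.card N ∧ r ∣ Nat.card N) → ¬ IsCoatom M) := by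
  set P : Subgroup G := (Cfsg.pCore p ↥M).map M.subtype with hP
  have hPp : IsPGroup p P := (CL.isPGroup_pCore p M).map _
  have hPM : P ≤ M := map_subtype_le _
  have hMP : M ≤ normalizer (P : Set G) := CL.le_normalizer_map_subtype M _
  have hP1 : P ≠ ⊥ := fun e => hOp ((Subgroup.map_eq_bot_iff_of_injective _ M.subtype_injective).1 e)
  have hNP : normalizer (P : Set G) = M := hprim P hPM hMP hP1
  have hC : N ⊓ centralizer (P : Set G) = ⊥ := by
    rw [eq_bot_iff, ← hMN, ← hNP]
    exact le_inf (inf_le_right.trans (centralizer_le_normalizer _)) inf_le_left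
  have ha : ¬ p ∣ Nat.card N := by
    intro hd
    obtain ⟨S, hS⟩ := hPp.exists_le_sylow
    have h1 : (S : Subgroup G) ⊓ N ≠ ⊥ := by
      obtain ⟨Q, hQ⟩ := CL.exists_sylow_eq_subgroupOf_of_isSubnormal (p := p)
        (Subgroup.Normal.isSubnormal (inferInstance : N.Normal)) S
      intro e
      have h2 : (Q : Subgroup N) = ⊥ := by
        rw [hQ, Subgroup.subgroupOf_eq_bot, disjoint_iff, e]
      exact Q.ne_bot_of_dvd_card hd h2
    have h3 := CL.inf_centralizer_ne_bot_of_isPGroup (p := p) (V := (S : Subgroup G) ⊓ N) (P := P)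
      (S.isPGroup'.to_inf_left) hPp
      (CL.le_normalizer_inf (hS.trans le_normalizer) le_normalizer_of_normal) h1
    apply h3
    rw [eq_bot_iff, ← hC]
    exact inf_le_inf_right _ inf_le_right
  have hcop : (Nat.card P).Coprime (Nat.card N) :=
    (CL.coprime_card_of_isPGroup hPp
      ((Nat.Prime.coprime_iff_not_dvd Fact.out).2 ha).symm).symm
  have huniq : ∀ (q : ℕ) [Fact q.Prime] (Q R : Sylow q N),
      P ≤ normalizer (((Q : Subgroup N).map N.subtype : Subgroup G) : Set G) →
      P ≤ normalizer (((R : Subgroup N).map N.subtype : Subgroup G) : Set G) → Q = R := by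
    intro q _ Q R hQ hR
    obtain ⟨c, hc, e⟩ := CL.coprime_invariant_sylow_conj P N le_normalizer_of_normal hcop
      (Or.inl (CL.isSolvable_of_isPGroup hPp)) q Q R hQ hR
    rw [hC, mem_bot] at hc
    subst hc
    rw [CL.conj_one_smul] at e
    exact Sylow.ext (Subgroup.map_injective N.subtype_injective e)
  have hb : ∀ q : ℕ, [Fact q.Prime] → ∃! Q : Sylow q ↥N,
      M ≤ normalizer ((Q : Subgroup ↥N).map N.subtype : Set G) := by
    intro q _
    obtain ⟨Q, hQ⟩ := CL.coprime_exists_invariant_sylow P N le_normalizer_of_normal hcop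
      (Or.inl (CL.isSolvable_of_isPGroup hPp)) q
    refine ⟨Q, ?_, fun R hR => huniq q R Q (hPM.trans hR) hQ⟩
    intro m hm
    obtain ⟨R, hR⟩ := CL.exists_sylow_map_subtype_eq_conj N Q
      (le_normalizer_of_normal (mem_top m) : m ∈ normalizer (N : Set G))
    have : R = Q := by
      refine huniq q R Q ?_ hQ
      rw [hR, CL.normalizer_conj_smul, ← CL.conj_smul_eq_iff_mem_normalizer.2 (hMP hm)]
      exact CL.conj_smul_mono m hQ
    subst this
    exact CL.conj_smul_eq_iff_mem_normalizer.1 hR.symm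
  refine ⟨ha, hb, ?_⟩
  rintro ⟨q, r, hq, hr, hqr, hqN, hrN⟩ hco
  haveI := Fact.mk hq
  obtain ⟨Q, hQ, -⟩ := hb q
  set Q' : Subgroup G := (Q : Subgroup N).map N.subtype with hQ'
  have hQN : Q' ≤ N := map_subtype_le _
  have h1 : M < M ⊔ Q' := by
    refine left_lt_sup.2 fun h => Q.ne_bot_of_dvd_card hqN ?_
    rw [← Subgroup.map_eq_bot_iff_of_injective _ N.subtype_injective, eq_bot_iff, ← hMN]
    exact le_inf h hQN
  have h2 := hco.2 _ h1
  have h3 : Q' = N := by
    have := CL.sup_inf_assoc_of_le_of_le_normalizer (H := Q') (K := M) hQN (Or.inr hQ)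
    rw [sup_comm, h2, top_inf_eq, hMN, sup_bot_eq] at this
    exact this.symm
  have h4 : IsPGroup q N := h3 ▸ Q.isPGroup'.map _
  obtain ⟨k, hk⟩ := IsPGroup.iff_card.1 h4
  rw [hk] at hrN
  exact hqr ((Nat.prime_dvd_prime_iff_eq hr hq).1 (hr.dvd_of_dvd_pow hrN)).symm

end Cfsg.Agent.S3749
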