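import Cfsg.Statements.S3750
import Cfsg.Agent.SIG.FStar

set_option autoImplicit false
open Cfsg

namespace Cfsg.Agent.S3750

/-- Call a proper subgroup M of G primitive when M = N_G(N) for every non-trivial normal subgroup N of M. Let M be a primitive subgroup of the finite group G and N a normal subgroup of G with M ∩ F*(N) ≠ 1. Then F(G) = 1 and F*(N) = F*(G) = E(G); in particular every minimal normal subgroup of G is contained in N. -/
theorem result {G : Type*} [Group G] [Finite G] (M : Subgroup G) (hM : M ≠ ⊤) (hprim : ∀ N : Subgroup G, N ≤ M → M ≤ Subgroup.normalizer (N : Set G) → N ≠ ⊥ → Subgroup.normalizer (N : Set G) = M) (N : Subgroup G) [N.Normal] (hMF : M ⊓ (Cfsg.generalizedFittingSubgroup ↥N).map N.subtype ≠ ⊥) : Cfsg.fittingSubgroup G = ⊥ ∧ (Cfsg.generalizedFittingSubgroup ↥N).map N.subtype = Cfsg.generalizedFittingSubgroup G ∧ Cfsg.generalizedFittingSubgroup G = Cfsg.layer G ∧ ∀ K : Subgroup G, K.Normal → K ≠ ⊥ → (∀ K' : Subgroup G, K'.Normal → K' ≤ K → K' = ⊥ ∨ K' = K) → K ≤ N := by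
  open CL CL.Comp Subgroup in
  have key : ∀ A : Subgroup G, A.Normal → A ≤ M → A = ⊥ := fun A hA hle => by
    by_contra hne
    exact hM ((hprim A hle le_normalizer_of_normal hne).symm.trans (normalizer_eq_top A))
  change M ⊓ CL.Comp.fstarOf N ≠ ⊥ at hMF
  change _ ∧ CL.Comp.fstarOf N = _ ∧ _
  open CL CL.Comp Subgroup in
  have hC : centralizer (fstarOf N : Set G) = ⊥ := by
    refine key _ inferInstance ?_
    rw [← hprim _ inf_le_left (le_normalizer_inf le_normalizer le_normalizer_of_normal) hMF]
    exact (centralizer_anti inf_le_right).trans (centralizer_le_normalizer _)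
  open CL CL.Comp Subgroup in
  have hsn : N.IsSubnormal := Normal.isSubnormal inferInstance
  open CL CL.Comp Subgroup in
  have hFN : fittingOf N = ⊥ := by
    by_contra hne
    refine inf_centralizer_ne_bot_of_isNilpotent (isNilpotent_fittingOf N) le_rfl le_normalizer hne
      (eq_bot_iff.mpr (le_trans ?_ hC.le))
    rw [fstarOf_eq, centralizer_sup_eq]
    refine le_inf (inf_le_left.trans ?_) inf_le_right
    rw [le_centralizer_iff, ← commutator_eq_bot_iff_le_centralizer]
    exact layerOf_commutator_fittingOf N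
  open CL CL.Comp Subgroup in
  have hE : fstarOf N = layerOf N := by rw [fstarOf_eq, hFN, sup_bot_eq]
  open CL CL.Comp Subgroup in
  have hF : fittingSubgroup G = ⊥ := by
    rw [eq_bot_iff, ← hC, hE]
    exact fittingSubgroup_le_centralizer_layer.trans (centralizer_anti (layerOf_le_layer hsn))
  open CL CL.Comp Subgroup in
  have hE2 : layer G ≤ fstarOf N :=
    layer_le_of_centralizer_le (Normal.isSubnormal inferInstance) (hC.le.trans bot_le)
  open CL CL.Comp Subgroup in
  have hE3 : fstarOf N = generalizedFittingSubgroup G :=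
    le_antisymm (fstarOf_le_fstar hsn) ((fstar_eq_layer_of_fitting_eq_bot hF).le.trans hE2)
  refine ⟨hF, hE3, CL.Comp.fstar_eq_layer_of_fitting_eq_bot hF, fun K hK h1 h2 => ?_⟩
  exact (CL.IsMinNormal.le_fstar ⟨hK, h1, h2⟩).trans (hE3.ge.trans (CL.Comp.fstarOf_le N))

end Cfsg.Agent.S3750
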