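import Cfsg.Statements.S3751
import Cfsg.Agent.TECH.NClos
import Cfsg.Agent.TECH.PRed2

set_option autoImplicit false
open Cfsg

namespace Cfsg.Agent.S3751

open Subgroup CL.MSS

section
variable {G : Type*} [Group G] [Finite G] (p : ℕ) [Fact p.Prime]

def Loc (M : Subgroup G) : Prop :=
  ∃ T : Subgroup G, IsPGroup p T ∧ T ≠ ⊥ ∧ M = normalizer (T : Set G)

def MaxLoc (M : Subgroup G) : Prop := Loc p M ∧ ∀ L, Loc p L → M ≤ L → L = M

variable {p}

omit [Finite G] [Fact p.Prime] in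
theorem Loc.cj {M : Subgroup G} (h : Loc p M) (g : G) : Loc p (g •ᶜ M) := by
  obtain ⟨T, h1, h2, rfl⟩ := h
  exact ⟨g •ᶜ T, isPGroup_cj g h1, fun e => h2 (cj_eq_bot_iff.1 e), cj_normalizer g T⟩

omit [Finite G] [Fact p.Prime] in
theorem MaxLoc.cj {M : Subgroup G} (h : MaxLoc p M) (g : G) : MaxLoc p (g •ᶜ M) :=
  ⟨h.1.cj g, fun L hL hle => by
    rw [← h.2 _ (hL.cj g⁻¹) (cj_le_iff.1 hle), cj_inv_cj]⟩

omit [Fact p.Prime] in
theorem exists_maxLoc {T : Subgroup G} (hT : IsPGroup p T) (h1 : T ≠ ⊥) :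
    ∃ L, MaxLoc p L ∧ normalizer (T : Set G) ≤ L := by
  obtain ⟨L, h2, h3⟩ := exists_maximal_ge_of_wellFoundedGT (Loc p) _ ⟨T, hT, h1, rfl⟩
  exact ⟨L, ⟨h3.1, fun K hK hle => le_antisymm (h3.2 hK hle) hle⟩, h2⟩

omit [Finite G] [Fact p.Prime] in
theorem MaxLoc.normalizer_le {M A : Subgroup G} (h : MaxLoc p M) (hc : CharPIn p M) (hA : A ≠ ⊥)
    (hAM : A ≤ M) (hn : M ≤ normalizer (A : Set G)) : normalizer (A : Set G) ≤ M := by
  have h1 : pCoreOf p A ≠ ⊥ := by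
    intro e
    rw [oP_eq_inf_of_normal hAM hn] at e
    have h2 : A ≤ centralizer (pCoreOf p M : Set G) := by
      refine commutator_eq_bot_iff_le_centralizer.1 (eq_bot_iff.2 (e ▸ le_inf ?_ ?_))
      · exact commutator_le_right_of_normalizes (hAM.trans (oP_normal M))
      · exact commutator_le_left_of_normalizes ((oP_le M).trans hn)
    exact hA (eq_bot_iff.2 (e ▸ le_inf ((le_inf hAM h2).trans hc) le_rfl))
  exact (normalizer_le_normalizer_oP A).trans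
    (h.2 _ ⟨_, oP_isPGroup A, h1, rfl⟩ (le_normalizer_oP hn)).le

end

/-- Two distinct subgroups M₁, M₂ of G form a primitive pair when, for {i, j} = {1, 2}, every non-trivial normal subgroup A of M_i contained in M₁ ∩ M₂ satisfies N_{M_j}(A) = M₁ ∩ M₂; the pair has characteristic p when moreover C_{M_i}(O_p(M_i)) ≤ O_p(M_i) for both i and O_p(M₁)O_p(M₂) ≤ M₁ ∩ M₂. Let G be a finite group, p a prime dividing its order, with O_p(G) = 1 and every p-local subgroup of characteristic p. Then either G has a primitive pair of characteristic p, or every maximal p-local subgroup M of G is strongly p-embedded in G: M is a proper subgroup, p divides its order, and for every g ∉ M the order of M ∩ gMg⁻¹ is prime to p. -/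
theorem result {G : Type*} [Group G] [Finite G] {p : ℕ} [Fact p.Prime] (hloc : Cfsg.IsOfLocalCharacteristic p G) (hOp : Cfsg.pCore p G = ⊥) : (∃ M₁ M₂ : Subgroup G, M₁ ≠ M₂ ∧ (∀ A : Subgroup G, A ≠ ⊥ → A ≤ M₁ ⊓ M₂ → (M₁ ≤ Subgroup.normalizer (A : Set G) → M₂ ⊓ Subgroup.normalizer (A : Set G) = M₁ ⊓ M₂) ∧ (M₂ ≤ Subgroup.normalizer (A : Set G) → M₁ ⊓ Subgroup.normalizer (A : Set G) = M₁ ⊓ M₂)) ∧ Subgroup.centralizer (Cfsg.pCore p ↥M₁ : Set ↥M₁) ≤ Cfsg.pCore p ↥M₁ ∧ Subgroup.centralizer (Cfsg.pCore p ↥M₂ : Set ↥M₂) ≤ Cfsg.pCore p ↥M₂ ∧ (Cfsg.pCore p ↥M₁).map M₁.subtype ⊔ (Cfsg.pCore p ↥M₂).map M₂.subtype ≤ M₁ ⊓ M₂) ∨ (∀ M : Subgroup G, (∃ T : Subgroup G, IsPGroup p T ∧ T ≠ ⊥ ∧ M = Subgroup.normalizer (T : Set G)) → (∀ L : Subgroup G, (∃ T : Subgroup G, IsPGroup p T ∧ T ≠ ⊥ ∧ L = Subgroup.normalizer (T : Set G)) → M ≤ L → L = M) → M ≠ ⊤ ∧ p ∣ Nat.card M ∧ ∀ g : G, g ∉ M → ¬ p ∣ Nat.card ↥(M ⊓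 M.map (MulAut.conj g).toMonoidHom)) := by
  have hc : ∀ M : Subgroup G, MaxLoc p M → CharPIn p M := by
    rintro _ ⟨⟨T, h1, h2, rfl⟩, -⟩
    exact oP_charP_iff.1 (hloc.2 T h1 h2)
  have hne : ∀ M : Subgroup G, MaxLoc p M → M ≠ ⊥ := by
    rintro _ ⟨⟨T, h1, h2, rfl⟩, -⟩ e
    exact h2 (eq_bot_iff.2 (e ▸ le_normalizer))
  have hself : ∀ (M : Subgroup G) (g : G), MaxLoc p M → g •ᶜ M = M → g ∈ M := fun M g h e =>
    h.normalizer_le (hc M h) (hne M h) le_rfl le_normalizer (mem_normalizer_iff_cj.2 e)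
  refine or_iff_not_imp_left.2 fun hno => ?_
  have hpair : ∀ M₁ M₂ T : Subgroup G, MaxLoc p M₁ → MaxLoc p M₂ → SylIn p T M₁ → SylIn p T M₂ →
      M₁ = M₂ := by
    intro M₁ M₂ T h₁ h₂ t₁ t₂
    by_contra e
    refine hno ⟨M₁, M₂, e, fun A hA hle => ⟨fun hn => ?_, fun hn => ?_⟩,
      oP_charP_iff.2 (hc _ h₁), oP_charP_iff.2 (hc _ h₂),
      (sup_le (oP_le_sylIn t₁) (oP_le_sylIn t₂)).trans (le_inf t₁.le t₂.le)⟩
    · rw [le_antisymm (h₁.normalizer_le (hc _ h₁) hA (hle.trans inf_le_left) hn) hn, inf_comm]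
    · rw [le_antisymm (h₂.normalizer_le (hc _ h₂) hA (hle.trans inf_le_right) hn) hn]
  have key : ∀ T : Subgroup G, IsPGroup p T → T ≠ ⊥ → ∀ M₁ M₂ : Subgroup G, MaxLoc p M₁ →
      MaxLoc p M₂ → T ≤ M₁ → T ≤ M₂ → M₁ = M₂ := by
    intro T
    induction T using CL.subgroup_induction_top with
    | h T ih =>
    intro hT hT1 M₁ M₂ h₁ h₂ t₁ t₂
    obtain ⟨L, hL, hNL⟩ := exists_maxLoc hT hT1
    have step : ∀ M, MaxLoc p M → T ≤ M → SylIn p T M ∨
        (M = L ∧ ∃ x ∈ normalizer (T : Set G), ∃ R : Subgroup G, IsPGroup p R ∧ T < R ∧ R ≤ L ∧ x ∈ R ∧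
          x ∉ T ∧ R ≤ normalizer (T : Set G)) := by
      intro M hM t
      obtain ⟨S, hS, hTS⟩ := exists_sylIn_ge hT t
      rcases hTS.eq_or_lt with rfl | hlt
      · exact Or.inl hS
      · right
        have h3 := lt_inf_normalizer_of_lt hS.pgroup hlt
        obtain ⟨x, hx1, hx2⟩ := SetLike.exists_of_lt h3
        exact ⟨ih _ h3 hS.pgroup.to_inf_left (fun e => hT1 (eq_bot_iff.2 (e ▸ h3.le))) _ _ hM hL
          (inf_le_left.trans hS.le) (inf_le_right.trans hNL), x, hx1.2, _, hS.pgroup.to_inf_left,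
          h3, inf_le_right.trans hNL, hx1, hx2, inf_le_right⟩
    have mixed : ∀ M, MaxLoc p M → SylIn p T M → ∀ x ∈ normalizer (T : Set G), ∀ R : Subgroup G,
        IsPGroup p R → T < R → x ∈ R → x ∉ T → R ≤ normalizer (T : Set G) → False := by
      intro M hM t x hx R hR hlt hxR hxT hRn
      have h3 := hself M x hM (hpair _ _ T (hM.cj x) hM (by
        have := t.cj x
        rwa [cj_eq_of_mem_normalizer hx] at this) t)
      exact hxT (t.le_of_normalizes (R := R ⊓ M) hR.to_inf_left inf_le_right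
        (inf_le_left.trans hRn) ⟨hxR, h3⟩)
    rcases step M₁ h₁ t₁ with s₁ | ⟨e₁, x, hx, R, r1, r2, -, r3, r4, r5⟩ <;>
      rcases step M₂ h₂ t₂ with s₂ | ⟨e₂, y, hy, R', r1', r2', -, r3', r4', r5'⟩
    · exact hpair _ _ T h₁ h₂ s₁ s₂
    · exact (mixed _ h₁ s₁ y hy R' r1' r2' r3' r4' r5').elim
    · exact (mixed _ h₂ s₂ x hx R r1 r2 r3 r4 r5).elim
    · exact e₁.trans e₂.symm
  intro M hM hmax
  have hM' : MaxLoc p M := ⟨hM, hmax⟩
  obtain ⟨T, h1, h2, rfl⟩ := hM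
  refine ⟨fun e => h2 ?_, dvd_card_of_isPGroup_le h1 h2 le_normalizer, fun g hg hd => hg ?_⟩
  · have := normalizer_eq_top_iff.1 e
    exact eq_bot_iff.2 (hOp ▸ oP_le_pCore h1)
  · obtain ⟨S, hS⟩ := exists_sylIn p (normalizer (T : Set G) ⊓ g •ᶜ normalizer (T : Set G))
    exact hself _ g hM' (key S hS.pgroup (hS.ne_bot hd) _ _ (hM'.cj g) hM'
      (hS.le.trans inf_le_right) (hS.le.trans inf_le_left))

end Cfsg.Agent.S3751
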