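import Cfsg.Statements.S3753
import Cfsg.Agent.FGS.PrimPair

set_option autoImplicit false
open Cfsg

namespace Cfsg.Agent.S3753

open Subgroup CL.MSS

theorem two_case {G : Type*} [Group G] [Finite G] {M N : Subgroup G} (hc : CharPIn 2 M)
    (h : ∀ S : Sylow 2 M, IsMulCommutative (S : Subgroup M)) (hN : pCoreOf 2 N ≤ M) :
    pCoreOf 2 N ≤ pCoreOf 2 M := by
  obtain ⟨P, hP, hle⟩ := exists_sylIn_ge (oP_isPGroup N) hN
  obtain ⟨S, rfl⟩ := hP.exists_sylow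
  have hab := isMulCommutative_iff_mem.1 (CL.ThA.comm_map (h S) M.subtype)
  exact hle.trans fun x hx => hc ⟨hP.le hx, fun y hy => hab y (oP_le_sylIn hP hy) x hx⟩

/-- Two distinct subgroups M₁, M₂ of G form a primitive pair when, for {i, j} = {1, 2}, every non-trivial normal subgroup A of M_i contained in M₁ ∩ M₂ satisfies N_{M_j}(A) = M₁ ∩ M₂; the pair has characteristic p when moreover C_{M_i}(O_p(M_i)) ≤ O_p(M_i) for both i and O_p(M₁)O_p(M₂) ≤ M₁ ∩ M₂. If the finite group G has a primitive pair (M₁, M₂) of characteristic p for some prime p, then M₁ or M₂ has non-abelian Sylow 2-subgroups. In particular no group of odd order has a primitive pair of characteristic p. -/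
theorem result {G : Type*} [Group G] [Finite G] {p : ℕ} [Fact p.Prime] (M₁ M₂ : Subgroup G) (hne : M₁ ≠ M₂) (hP : ∀ A : Subgroup G, A ≠ ⊥ → A ≤ M₁ ⊓ M₂ → (M₁ ≤ Subgroup.normalizer (A : Set G) → M₂ ⊓ Subgroup.normalizer (A : Set G) = M₁ ⊓ M₂) ∧ (M₂ ≤ Subgroup.normalizer (A : Set G) → M₁ ⊓ Subgroup.normalizer (A : Set G) = M₁ ⊓ M₂)) (hc₁ : Subgroup.centralizer (Cfsg.pCore p ↥M₁ : Set ↥M₁) ≤ Cfsg.pCore p ↥M₁) (hc₂ : Subgroup.centralizer (Cfsg.pCore p ↥M₂ : Set ↥M₂) ≤ Cfsg.pCore p ↥M₂) (hO : (Cfsg.pCore p ↥M₁).map M₁.subtype ⊔ (Cfsg.pCore p ↥M₂).map M₂.subtype ≤ M₁ ⊓ M₂) : (∃ S : Sylow 2 ↥M₁, ¬ IsMulCommutative (S : Subgroup ↥M₁)) ∨ (∃ S : Sylow 2 ↥M₂, ¬ IsMulCommutative (S : Subgroup ↥M₂)) := by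
  by_contra hcon
  push Not at hcon
  obtain ⟨ha₁, ha₂⟩ := hcon
  have hc₁' : CharPIn p M₁ := oP_charP_iff.1 hc₁
  have hc₂' : CharPIn p M₂ := oP_charP_iff.1 hc₂
  have h₁ : pCoreOf p M₁ ≤ M₂ := le_sup_left.trans (hO.trans inf_le_right)
  have h₂ : pCoreOf p M₂ ≤ M₁ := le_sup_right.trans (hO.trans inf_le_left)
  by_cases hp2 : p = 2
  · subst hp2
    have he : pCoreOf 2 M₁ = pCoreOf 2 M₂ :=
      le_antisymm (two_case hc₂' ha₂ h₁) (two_case hc₁' ha₁ h₂)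
    by_cases hb : pCoreOf 2 M₁ = ⊥
    · have key : ∀ M : Subgroup G, CharPIn 2 M → pCoreOf 2 M = ⊥ → M = ⊥ := fun M hc hQ => by
        refine eq_bot_iff.2 fun x hx => ?_
        have := hc (show x ∈ M ⊓ centralizer (pCoreOf 2 M : Set G) from
          ⟨hx, by rw [hQ]; intro y hy; rw [mem_bot.1 hy]; simp⟩)
        rwa [hQ] at this
      exact hne ((key _ hc₁' hb).trans (key _ hc₂' (he ▸ hb)).symm)
    · obtain ⟨h3, h4⟩ := hP _ hb (le_inf (oP_le _) h₁)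
      have h5 := oP_normal (p := 2) M₁
      have h6 : M₂ ≤ normalizer (pCoreOf 2 M₁ : Set G) := he ▸ oP_normal M₂
      exact hne (le_antisymm ((le_inf le_rfl h5).trans ((h4 h6).le.trans inf_le_right))
        ((le_inf le_rfl h6).trans ((h3 h5).le.trans inf_le_left)))
  · have hs : ∀ M : Subgroup G, (∀ S : Sylow 2 M, IsMulCommutative (S : Subgroup M)) →
        StabIn p M := fun M h => stabIn_of_not_involves hp2
      (CL.PSt.not_involves_qd_of_not_involves_sl2 (CL.PSt.not_involves_sl2_of_abelian hp2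
        (h (default : Sylow 2 M))))
    exact primPair_false hne (fun A h1 h2 h3 => ((hP A h1 h2).1 h3).le.trans inf_le_left)
      (fun A h1 h2 h3 => ((hP A h1 (inf_comm M₂ M₁ ▸ h2)).2 h3).le.trans inf_le_right)
      hc₁' hc₂' h₁ h₂ (hs _ ha₁) (hs _ ha₂)

end Cfsg.Agent.S3753
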