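import Cfsg.Statements.S3755
import Cfsg.Agent.FGS.ThompDih
import Cfsg.Agent.SOLV.Primitive
import Cfsg.Agent.S0205
import Cfsg.Agent.TECH.InvolveLift

set_option autoImplicit false
open Cfsg

namespace Cfsg.Agent.S3755

open Subgroup CL CL.MSS
open scoped commutatorElement

variable {G : Type*} [Group G] [Finite G]

theorem comm_mul_mem {U : Subgroup G} {v a b : G} (ha : a ∈ normalizer (U : Set G))
    (h1 : ⁅v, a⁆ ∈ U) (h2 : ⁅v, b⁆ ∈ U) : ⁅v, a * b⁆ ∈ U := by
  have : ⁅v, a * b⁆ = ⁅v, a⁆ * (a * ⁅v, b⁆ * a⁻¹) := by simp only [commutatorElement_def]; group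
  rw [this]
  exact U.mul_mem h1 ((mem_normalizer_iff.1 ha _).1 h2)

theorem comm_zpowers_le {U V : Subgroup G} {z : G} (hz : z ∈ normalizer (U : Set G))
    (h : ∀ v ∈ V, ⁅v, z⁆ ∈ U) : ⁅V, zpowers z⁆ ≤ U := by
  rw [commutator_le]
  intro v hv g hg
  obtain ⟨n, rfl⟩ := (mem_powers_iff_mem_zpowers.2 hg : g ∈ Submonoid.powers z)
  simp only
  clear hg
  induction n with
  | zero => simp
  | succ n ih => rw [pow_succ']; exact comm_mul_mem hz (h v hv) ih

theorem step {V : Subgroup G} (hV : IsElementaryAbelian 2 V) {a x : G}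
    (ha : a ∈ normalizer (V : Set G)) (hx : x ∈ normalizer (V : Set G)) (haa : a * a = 1)
    (hax : a * x * a⁻¹ = x⁻¹) (hp : (orderOf x).Prime) (h2 : orderOf x ≠ 2) (h3 : orderOf x ≠ 3)
    (hxV : x ∉ centralizer (V : Set G)) :
    4 ≤ ((V ⊓ centralizer {a}) ⊔ (V ⊓ centralizer {x})).relIndex V ∧
      ∀ y ∈ normalizer (V : Set G), y * x = x * y →
        y ∈ centralizer (((V ⊓ centralizer {a}) ⊔ (V ⊓ centralizer {x}) : Subgroup G) : Set G) →
        y ∈ centralizer (V : Set G) := by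
  have : Fact (orderOf x).Prime := ⟨hp⟩
  have hVc : ∀ s ∈ V, ∀ t ∈ V, s * t = t * s := fun s hs t ht =>
    congrArg Subtype.val (hV.1.is_comm.comm (⟨s, hs⟩ : V) ⟨t, ht⟩)
  have hVp : IsPGroup 2 V := fun s => ⟨1, Subtype.ext (by simpa using hV.2 s s.2)⟩
  have hxp : IsPGroup (orderOf x) (zpowers x) := isPGroup_zpowers (k := 1) (by simp)
  have hcop : (Nat.card (zpowers x)).Coprime (Nat.card V) :=
    IsPGroup.coprime_card_of_ne _ 2 h2 _ _ hxp hVp
  have hxN : zpowers x ≤ normalizer (V : Set G) := zpowers_le.2 hx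
  have hCx : ∀ x : G, centralizer (zpowers x : Set G) = centralizer {x} := fun x => by
    rw [zpowers_eq_closure, centralizer_closure]
  have hai : a⁻¹ = a := inv_eq_of_mul_eq_one_right haa
  -- `a * (x a x⁻¹) = x⁻²` generates `⟨x⟩`
  have hz : a * (x * a * x⁻¹) = x⁻¹ * x⁻¹ := by
    calc a * (x * a * x⁻¹) = (a * x * a⁻¹) * (a * a) * x⁻¹ := by group
      _ = _ := by rw [hax, haa]; group
  have hzz : zpowers (x⁻¹ * x⁻¹) = zpowers x := by
    apply le_antisymm (zpowers_le.2 (mul_mem (inv_mem (mem_zpowers x)) (inv_mem (mem_zpowers x))))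
    obtain ⟨m, hm⟩ := hp.odd_of_ne_two h2
    rw [zpowers_le, mem_zpowers_iff]
    refine ⟨m, ?_⟩
    have := pow_orderOf_eq_one x
    rw [hm] at this
    calc (x⁻¹ * x⁻¹) ^ (m : ℤ) = x * (x ^ (2 * m + 1))⁻¹ := by group
      _ = x := by rw [this]; group
  have hcV : ∀ g ∈ normalizer (V : Set G), ∀ v ∈ V, ⁅v, g⁆ ∈ V := fun g hg v hv => by
    have := V.mul_mem hv ((mem_normalizer_iff.1 hg _).1 (V.inv_mem hv))
    simpa [commutatorElement_def, mul_assoc] using this
  have hinv : ∀ g ∈ normalizer (V : Set G), g * g = 1 → ∀ v ∈ V,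
      ⁅v, g⁆ ∈ V ⊓ centralizer {g} := fun g hg hgg v hv => by
    refine mem_inf.2 ⟨hcV g hg v hv, ?_⟩
    rw [mem_centralizer_singleton_iff]
    have hgi : g⁻¹ = g := inv_eq_of_mul_eq_one_right hgg
    have hvi : v⁻¹ = v := inv_eq_of_mul_eq_one_right (by rw [← sq]; exact hV.2 v hv)
    have h1 := hVc v hv _ ((mem_normalizer_iff.1 hg _).1 hv)
    rw [hgi] at h1
    rw [commutatorElement_def, hvi, hgi]
    calc v * g * v * g * g = v * g * v * (g * g) := by group
      _ = (g * g) * v * g * v := by rw [hgg]; group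
      _ = g * (g * v * g * v) := by group
      _ = _ := by rw [← h1]; group
  have ha' : x * a * x⁻¹ ∈ normalizer (V : Set G) := mul_mem (mul_mem hx ha) (inv_mem hx)
  have haa' : x * a * x⁻¹ * (x * a * x⁻¹) = 1 := by
    calc x * a * x⁻¹ * (x * a * x⁻¹) = x * (a * a) * x⁻¹ := by group
      _ = 1 := by rw [haa]; group
  have hcj : x •ᶜ ((V ⊓ centralizer {a}) ⊔ (V ⊓ centralizer {x})) =
      (V ⊓ centralizer {x * a * x⁻¹}) ⊔ (V ⊓ centralizer {x}) := by
    rw [cj_sup, cj_inf, cj_inf, cj_eq_of_mem_normalizer hx, cj_centralizer_singleton,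
      cj_centralizer_singleton, mul_inv_cancel_right]
  constructor
  · set U := V ⊓ centralizer ({x} : Set G) with hU
    have hUn : ∀ g ∈ normalizer (V : Set G), g * x * g⁻¹ = x⁻¹ → g ∈ normalizer (U : Set G) := by
      intro g hg hgx
      rw [mem_normalizer_iff_cj, hU, cj_inf, cj_eq_of_mem_normalizer hg, cj_centralizer_singleton,
        hgx, ← hCx, zpowers_inv, hCx]
    have hax' : x * a * x⁻¹ * x * (x * a * x⁻¹)⁻¹ = x⁻¹ := by
      calc x * a * x⁻¹ * x * (x * a * x⁻¹)⁻¹ = x * (a * x * a⁻¹) * x⁻¹ := by group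
        _ = _ := by rw [hax]; group
    have key : ∀ g ∈ normalizer (V : Set G), g * x * g⁻¹ = x⁻¹ →
        ∀ v ∈ (V ⊓ centralizer {g}) ⊔ U, ⁅v, g⁆ ∈ U := by
      intro g hg hgx v hv
      have hn : V ⊓ centralizer {g} ≤ normalizer (U : Set G) := fun s hs =>
        centralizer_le_normalizer _ (mem_centralizer_iff.2 fun t ht => hVc t ht.1 s hs.1)
      obtain ⟨c, hc, u, hu, rfl⟩ := (mem_sup_of_normalizes_right hn).1 hv
      have h1 : c * g = g * c := mem_centralizer_singleton_iff.1 hc.2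
      have : ⁅c * u, g⁆ = c * (u * (g * u⁻¹ * g⁻¹)) * c⁻¹ := by
        rw [commutatorElement_def]
        calc c * u * g * (c * u)⁻¹ * g⁻¹ = c * u * g * u⁻¹ * (g * c)⁻¹ := by group
          _ = _ := by rw [← h1]; group
      rw [this]
      exact conj_mem_of_normalizes hn hc
        (U.mul_mem hu ((mem_normalizer_iff.1 (hUn g hg hgx) _).1 (U.inv_mem hu)))
    have hUx : U ≤ centralizer (zpowers x : Set G) := by rw [hCx]; exact inf_le_right
    have hxU : zpowers x ≤ normalizer (U : Set G) :=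
      (le_centralizer_iff.1 hUx).trans (centralizer_le_normalizer _)
    have hle : ((V ⊓ centralizer {a}) ⊔ U) ⊓ ((V ⊓ centralizer {x * a * x⁻¹}) ⊔ U) ≤ U := by
      refine le_inf (inf_le_left.trans (sup_le inf_le_left inf_le_left)) ?_
      rw [← hCx x]
      refine coprime_le_centralizer_of_trivial_on_factors _ _ U hxU
        (Nat.Coprime.coprime_dvd_right (card_dvd_of_le inf_le_left) hcop) hUx ?_
      rw [← hzz]
      refine comm_zpowers_le (hxU (hzz ▸ mem_zpowers _)) fun v hv => ?_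
      rw [← hz]
      exact comm_mul_mem (hUn a ha hax) (key a ha hax v hv.1) (key _ ha' hax' v hv.2)
    by_contra hlt
    obtain ⟨m, hm⟩ := hVp.exists_card_eq
    have hpw : ∀ W : Subgroup G, ∃ j, W.relIndex V = 2 ^ j := fun W => by
      have : W.relIndex V ∣ 2 ^ m := hm ▸ relIndex_dvd_card W V
      obtain ⟨j, -, hj⟩ := (Nat.dvd_prime_pow Nat.prime_two).1 this
      exact ⟨j, hj⟩
    have h4 : ((V ⊓ centralizer {a}) ⊔ U).relIndex V ≤ 2 := by
      obtain ⟨j, hj⟩ := hpw ((V ⊓ centralizer {a}) ⊔ U)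
      rw [hj] at hlt ⊢
      rcases j with _ | _ | j
      · norm_num
      · norm_num
      · have : 2 ^ (j + 1 + 1) = 4 * 2 ^ j := by ring
        have := Nat.one_le_two_pow (n := j)
        omega
    have h5 : ((V ⊓ centralizer {x * a * x⁻¹}) ⊔ U).relIndex V ≤ 2 := by
      rw [← hcj]
      have := relIndex_cj x ((V ⊓ centralizer {a}) ⊔ U) V
      rw [cj_eq_of_mem_normalizer hx] at this
      rwa [this]
    have h6 : U.relIndex V ≤ 4 :=
      (relIndex_le_of_le_left hle index_ne_zero_of_finite).trans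
        (relIndex_inf_le.trans (Nat.mul_le_mul h4 h5))
    have h7 : U.relIndex V ≠ 1 := by
      rw [Ne, relIndex_eq_one]
      exact fun h => hxV (le_centralizer_iff.1 (h.trans hUx) (mem_zpowers x))
    have h8 := CL.Prim.card_modEq_card_inf_centralizer hxp hxN
    rw [hCx, ← hU, ← card_mul_relIndex_of_le (inf_le_left : U ≤ V)] at h8
    have h9 : U.relIndex V ≡ 1 [MOD orderOf x] := by
      refine Nat.ModEq.cancel_left_of_coprime (c := Nat.card U) ?_ (by rwa [mul_one])
      rw [← Nat.card_zpowers]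
      exact Nat.Coprime.coprime_dvd_right (card_dvd_of_le inf_le_left) hcop
    obtain ⟨j, hj⟩ := hpw U
    rw [hj] at h6 h7 h9
    rcases j with _ | _ | _ | j
    · exact h7 rfl
    · have := (Nat.modEq_iff_dvd' (by norm_num)).1 h9.symm
      exact hp.one_lt.ne' (by simpa using this)
    · have := (Nat.modEq_iff_dvd' (by norm_num)).1 h9.symm
      exact h3 ((Nat.prime_dvd_prime_iff_eq hp Nat.prime_three).1 (by simpa using this))
    · have : 2 ^ (j + 1 + 1 + 1) = 8 * 2 ^ j := by ring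
      have := Nat.one_le_two_pow (n := j)
      omega
  · intro y hy hyx hyc
    set U := V ⊓ centralizer ({y} : Set G) with hU
    have hxU : zpowers x ≤ normalizer (U : Set G) := by
      refine MSS.le_normalizer_inf hxN (le_trans ?_ le_normalizer)
      rw [zpowers_le, mem_centralizer_singleton_iff, hyx]
    have h1 : (V ⊓ centralizer {a}) ⊔ (V ⊓ centralizer {x}) ≤ U :=
      le_inf (sup_le inf_le_left inf_le_left) fun v hv =>
        mem_centralizer_singleton_iff.2 (mem_centralizer_iff.1 hyc v hv)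
    have h2 : (V ⊓ centralizer {x * a * x⁻¹}) ⊔ (V ⊓ centralizer {x}) ≤ U := by
      rw [← hcj]
      exact cj_le_of_mem_normalizer h1 (hxU (mem_zpowers x))
    have h4 : ⁅V, zpowers x⁆ ≤ U := by
      rw [← hzz]
      refine comm_zpowers_le (hxU (hzz ▸ mem_zpowers _)) fun v hv => ?_
      have e : ⁅v, x⁻¹ * x⁻¹⁆ = ⁅v, a⁆ * ⁅a * v * a⁻¹, a * (x * a * x⁻¹) * a⁻¹⁆ := by
        rw [← hz]; simp only [commutatorElement_def]; group
      have e2 : a * (x * a * x⁻¹) * a⁻¹ = x⁻¹ * a * x := by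
        calc a * (x * a * x⁻¹) * a⁻¹ = (a * x * a⁻¹) * a * (a * x * a⁻¹)⁻¹ := by group
          _ = _ := by rw [hax]; group
      rw [e, e2]
      refine U.mul_mem (h1 (mem_sup_left (hinv a ha haa v hv))) ?_
      have e3 : ⁅a * v * a⁻¹, x⁻¹ * a * x⁆ = x⁻¹ * ⁅x * (a * v * a⁻¹) * x⁻¹, a⁆ * x⁻¹⁻¹ := by
        simp only [commutatorElement_def]; group
      rw [e3]
      exact conj_mem_of_normalizes hxU (inv_mem (mem_zpowers x)) (h1 (mem_sup_left (hinv a ha haa _
        ((mem_normalizer_iff.1 hx _).1 ((mem_normalizer_iff.1 ha _).1 hv)))))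
    have h5 := coprime_eq_centralizer_sup_of_commutator_le (zpowers x) V U inf_le_left hxU
      (Nat.Coprime.coprime_dvd_right (card_dvd_of_le inf_le_left) hcop) (Or.inl inferInstance) h4
    have h6 : V ≤ U := by
      rw [← h5, hCx]
      exact sup_le (le_sup_right.trans h1) le_rfl
    rw [mem_centralizer_iff]
    exact fun v hv => mem_centralizer_singleton_iff.1 (h6 hv).2

theorem bound {k : ℕ} {x a : Fin k → G} (haa : ∀ i, a i * a i = 1)
    (hinv : ∀ i, a i * x i * (a i)⁻¹ = (x i)⁻¹) (hp : ∀ i, (orderOf (x i)).Prime)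
    (h2 : ∀ i, orderOf (x i) ≠ 2) (h3 : ∀ i, orderOf (x i) ≠ 3)
    (hax : ∀ i j, i ≠ j → a i * x j = x j * a i) (hxx : ∀ i j, x i * x j = x j * x i)
    (ha : ∀ i j, a i * a j = a j * a i) (S : Finset (Fin k)) :
    ∀ V : Subgroup G, IsElementaryAbelian 2 V →
      (∀ i ∈ S, a i ∈ normalizer (V : Set G) ∧ x i ∈ normalizer (V : Set G) ∧
        x i ∉ centralizer (V : Set G)) →
      ∀ U : Subgroup G, U ≤ V → (∀ i ∈ S, U ≤ centralizer {a i}) → 4 ^ S.card ≤ U.relIndex V := by
  induction S using Finset.induction_on with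
  | empty => intro V _ _ U _ _; exact Nat.pos_of_ne_zero index_ne_zero_of_finite
  | insert j S hj ih =>
    intro V hV h U hUV hU
    obtain ⟨h4, h5, h6⟩ := h j (Finset.mem_insert_self j S)
    obtain ⟨s1, s2⟩ := step hV h4 h5 (haa j) (hinv j) (hp j) (h2 j) (h3 j) h6
    set W := (V ⊓ centralizer {a j}) ⊔ (V ⊓ centralizer {x j}) with hW
    have hWV : W ≤ V := sup_le inf_le_left inf_le_left
    have hUW : U ≤ W := (le_inf hUV (hU j (Finset.mem_insert_self j S))).trans le_sup_left
    have hn : ∀ g ∈ normalizer (V : Set G), g * a j = a j * g → g * x j = x j * g →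
        g ∈ normalizer (W : Set G) := fun g hg e1 e2 => by
      rw [mem_normalizer_iff_cj, hW, cj_sup, cj_inf, cj_inf, cj_eq_of_mem_normalizer hg,
        cj_centralizer_singleton, cj_centralizer_singleton, e1, e2, mul_inv_cancel_right,
        mul_inv_cancel_right]
    have := ih W ⟨isMulCommutative_of_le hV.1 hWV, fun v hv => hV.2 v (hWV hv)⟩
      (fun i hi => by
        obtain ⟨h7, h8, h9⟩ := h i (Finset.mem_insert_of_mem hi)
        have hij : i ≠ j := fun e => hj (e ▸ hi)
        exact ⟨hn _ h7 (ha i j) (hax i j hij), hn _ h8 (hax j i hij.symm).symm (hxx i j),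
          fun hc => h9 (s2 _ h8 (hxx i j) hc)⟩) U hUW fun i hi => hU i (Finset.mem_insert_of_mem hi)
    rw [Finset.card_insert_of_notMem hj, pow_succ, ← relIndex_mul_relIndex U W V hUW hWV]
    exact Nat.mul_le_mul this s1

/-- Let M and V be subgroups of a finite group with V an elementary abelian 2-group, M normalizing V and acting faithfully on it (M ∩ C(V) = 1), and C_M(O_{2'}(M)) ≤ O_{2'}(M). If some elementary abelian 2-subgroup A of M satisfies |V : C_V(A)| < |A|², then M has a section isomorphic to the symmetric group of degree 3. -/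
theorem result {X : Type*} [Group X] [Finite X] (M V : Subgroup X) (hV : Cfsg.IsElementaryAbelian 2 V) (hMV : M ≤ Subgroup.normalizer (V : Set X)) (hfaith : M ⊓ Subgroup.centralizer (V : Set X) = ⊥) (hcon : Subgroup.centralizer (Cfsg.pPrimeCore 2 ↥M : Set ↥M) ≤ Cfsg.pPrimeCore 2 ↥M) (A : Subgroup X) (hAM : A ≤ M) (hA : Cfsg.IsElementaryAbelian 2 A) (hsmall : (V ⊓ Subgroup.centralizer (A : Set X)).relIndex V < Nat.card A ^ 2) : Cfsg.Involves (Equiv.Perm (Fin 3)) ↥M := by
  by_contra hS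
  set L := (pPrimeCore 2 M).map M.subtype with hL
  have hLM : L ≤ M := map_subtype_le _
  have hLo : Odd (Nat.card L) := by
    rw [hL, card_map_of_injective M.subtype_injective]
    exact Nat.coprime_two_right.1 (coprime_card_pPrimeCore 2 M)
  have hAp : IsPGroup 2 A := fun s => ⟨1, Subtype.ext (by simpa using hA.2 s s.2)⟩
  obtain ⟨k, hk⟩ := hAp.exists_card_eq
  have hf : A ⊓ centralizer (L : Set X) = ⊥ := by
    rw [eq_bot_iff]
    refine le_trans (le_inf inf_le_left ?_) (le_of_eq (inf_eq_bot_of_isPGroup_of_coprime hAp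
      (Nat.coprime_two_right.2 hLo)))
    rintro s ⟨hs, hsc⟩
    refine ⟨⟨s, hAM hs⟩, hcon ?_, rfl⟩
    rw [mem_centralizer_iff]
    intro t ht
    exact Subtype.ext (mem_centralizer_iff.1 hsc t ⟨t, ht, rfl⟩)
  obtain ⟨N, hN, hNc, x, a, F⟩ := CL.TDih.exists_fam_of_solvable hA hLo
    (Cfsg.Agent.S0205.result hLo)
    (hAM.trans (le_normalizer.trans (normalizer_le_normalizer_map_pPrimeCore M))) hf hk
  have hNL : N ≤ L := hN.trans (fittingOf_le L)
  have hNo : Odd (Nat.card N) := Odd.of_dvd_nat hLo (card_dvd_of_le hNL)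
  have haa : ∀ i, a i * a i = 1 := fun i => by rw [← sq]; exact hA.2 _ (F.amem i)
  have hxM : ∀ i, x i ∈ M := fun i => hLM (hNL (F.mem i))
  have := bound haa F.inv F.prime (fun i h => by
      have hodd : Odd (orderOf (x i)) := by
        rw [← Nat.card_zpowers]
        exact Odd.of_dvd_nat hNo (card_dvd_of_le (zpowers_le.2 (F.mem i)))
      rw [h] at hodd
      exact absurd hodd (by decide)) (fun i h => by
      apply hS
      obtain ⟨e⟩ := perm_three_equiv_dihedral
      refine CL.Sec.involves_trans (CL.Sec.involves_of_equiv e.symm) ?_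
      refine involves_dihedral_of_inverts (p := 3) (by norm_num) (k := 1)
        (x := ⟨a i, hAM (F.amem i)⟩) (y := ⟨x i, hxM i⟩) (Subtype.ext ?_)
        (fun e => F.ne_one i (congrArg Subtype.val e)) (Subtype.ext ?_) (Subtype.ext (F.inv i))
      · simpa using hA.2 _ (F.amem i)
      · change x i ^ 3 = 1
        rw [← h, pow_orderOf_eq_one]) F.comm (F.x_comm hNc)
    (fun i j => congrArg Subtype.val (hA.1.is_comm.comm (⟨a i, F.amem i⟩ : A) ⟨a j, F.amem j⟩))
    Finset.univ V hV (fun i _ => ⟨hMV (hAM (F.amem i)), hMV (hxM i), fun h => by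
      have : x i ∈ M ⊓ centralizer (V : Set X) := mem_inf.2 ⟨hxM i, h⟩
      rw [hfaith, mem_bot] at this
      exact F.ne_one i this⟩) (V ⊓ centralizer (A : Set X)) inf_le_left
    (fun i _ => inf_le_right.trans (centralizer_le (Set.singleton_subset_iff.2 (F.amem i))))
  rw [Finset.card_univ, Fintype.card_fin] at this
  rw [hk, ← pow_mul, mul_comm, pow_mul] at hsmall
  exact absurd this (not_le.2 hsmall)

end Cfsg.Agent.S3755
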