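import Cfsg.Statements.S3756
import Cfsg.Agent.TECH.SCChar2
import Cfsg.Agent.S2796
import Cfsg.Agent.TECH.InvolveLift

set_option autoImplicit false
open Cfsg

namespace Cfsg.Agent.S3756

theorem main {G : Type*} [Group G] [Finite G] (hO : Cfsg.pCore 2 G = ⊥)
    (hG : ∀ Q : Subgroup G, IsPGroup 2 Q → Q ≠ ⊥ → CL.MSS.ChP 2 (Subgroup.normalizer (Q : Set G)))
    {A : Subgroup G} (sc : CL.Gold.SC A) (hc : IsMulCommutative A) (h0 : A ≠ ⊥) {M : Subgroup G}
    (hM : Cfsg.IsMaximalTwoLocal M) : Cfsg.IsStronglyEmbedded M := by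
  obtain ⟨⟨Q, q1, q2, rfl⟩, hmax⟩ := hM
  obtain ⟨g, hg⟩ := CL.SC2.exists_le hG sc hc h0 q1 q2
  have g0 : A.map (MulAut.conj g).toMonoidHom ≠ ⊥ := by rwa [ne_eq, CL.MSS.cj_eq_bot_iff]
  rw [← hmax _ ⟨_, (sc.cj g).1, g0, rfl⟩ hg]
  refine CL.SC2.isStronglyEmbedded hG (sc.cj g) (CL.MSS.isMulCommutative_cj g hc) g0 fun e => g0 ?_
  have := Subgroup.normalizer_eq_top_iff.1 e
  exact le_bot_iff.1 (hO ▸ CL.le_pCore (sc.cj g).1)


/-- Let G be a finite group of even order with O₂(G) = 1 such that every 2-local subgroup of G is solvable, of characteristic 2, and has no section isomorphic to the symmetric group of degree 4. Then every maximal 2-local subgroup of G is strongly embedded in G. -/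
theorem result {G : Type*} [Group G] [Finite G] (heven : Even (Nat.card G)) (hO : Cfsg.pCore 2 G = ⊥) (hloc : ∀ M : Subgroup G, Cfsg.IsTwoLocal M → Group.IsSolvable M ∧ Cfsg.IsOfCharacteristicTwo ↥M ∧ ¬ Cfsg.Involves (Equiv.Perm (Fin 4)) ↥M) (M : Subgroup G) (hM : Cfsg.IsMaximalTwoLocal M) : Cfsg.IsStronglyEmbedded M := by
  classical
  have : Fact (Nat.Prime 2) := ⟨Nat.prime_two⟩
  have key : ∀ {Y : Type _} [Group Y], Involves Y G → ∀ P : Subgroup Y, P.Normal → IsPGroup 2 P → P ≠ ⊥ →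
      ∃ L : Subgroup G, IsTwoLocal L ∧ Involves Y L := fun {Y} _ hY P hn hP h0 => by
    obtain ⟨K, f, hf⟩ := CL.Sec.involves_iff.1 hY
    obtain ⟨T, h1, h2, h3⟩ := CL.PSt.exists_local_of_section K f hf hP h0
    rw [Subgroup.normalizer_eq_top] at h3
    exact ⟨_, ⟨T, h1, h2, rfl⟩, CL.Sec.involves_trans (CL.Sec.involves_of_equiv Subgroup.topEquiv) h3⟩
  have key' : ∀ {Y : Type} [Group Y], Involves Y G → ∀ P : Subgroup Y, P.Normal → IsPGroup 2 P → P ≠ ⊥ →
      ∃ L : Subgroup G, IsTwoLocal L ∧ Involves Y L := fun {Y} _ hY P hn hP h0 => by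
    obtain ⟨K, f, hf⟩ := CL.Sec.involves_iff.1 hY
    obtain ⟨T, h1, h2, h3⟩ := CL.PSt.exists_local_of_section K f hf hP h0
    rw [Subgroup.normalizer_eq_top] at h3
    exact ⟨_, ⟨T, h1, h2, rfl⟩, CL.Sec.involves_trans (CL.Sec.involves_of_equiv Subgroup.topEquiv) h3⟩
  have hfree : ¬ Involves (Equiv.Perm (Fin 4)) G := fun h => by
    obtain ⟨L, h1, h2⟩ := key' h CL.MSS.permFourV CL.MSS.permFourV_normal
      (fun x => ⟨1, Subtype.ext (by simpa [pow_two] using x.2.1)⟩) fun e => by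
        have := CL.MSS.four_permFourV.1
        rw [e] at this
        simp at this
    exact (hloc L h1).2.2 h2
  obtain ⟨S⟩ : Nonempty (Sylow 2 G) := inferInstance
  obtain ⟨h1, h2, h3, -⟩ := Cfsg.Agent.S2796.result hfree (fun K R _ hc H _ N _ hs hn => by
    have hsol : Group.IsSolvable (K ⧸ R.subgroupOf K) := by
      by_cases e : pCore 2 (K ⧸ R.subgroupOf K) = ⊥
      · rw [e] at hc
        have : Subsingleton (K ⧸ R.subgroupOf K) := ⟨fun a b => by
          rw [Subgroup.mem_bot.1 (hc (x := a) (by simp [Subgroup.mem_centralizer_iff])),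
            Subgroup.mem_bot.1 (hc (x := b) (by simp [Subgroup.mem_centralizer_iff]))]⟩
        infer_instance
      · obtain ⟨L, h1, h2⟩ := key (CL.Sec.involves_section K R) _ inferInstance (CL.isPGroup_pCore 2 _) e
        have := (hloc L h1).1
        exact CL.Sec.isSolvable_of_involves h2
    exact absurd ⟨⟨(IsSimpleGroup.comm_iff_isSolvable.2 inferInstance)⟩⟩ hn) S _ rfl _ rfl
  have hG : ∀ Q : Subgroup G, IsPGroup 2 Q → Q ≠ ⊥ → CL.MSS.ChP 2 (Subgroup.normalizer (Q : Set G)) :=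
    fun Q a b => CL.MSS.chP_iff.1 (hloc _ ⟨Q, a, b, rfl⟩).2.1
  have sc := CL.Gold.sc_of_sylow S h3
  have hc := CL.Gold.comm_of_elem fun a ha => by simpa [pow_two] using (CL.MSS.elemAb_iff.1 h2).2 a ha
  refine main hO hG sc hc (fun e => ?_) hM
  · have hS : (S : Subgroup G) ≠ ⊥ := S.ne_bot_of_dvd_card (even_iff_two_dvd.1 heven)
    refine CL.Th.omegaOne_ne_bot_of_isPGroup (S.2.to_le inf_le_left)
      (CL.MSS.inf_centralizer_ne_bot S.2 S.2 Subgroup.le_normalizer hS) (le_bot_iff.1 fun x hx => ?_)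
    have hx' := Subgroup.le_normalizer (CL.Th.omegaOne_center_le_thompsonSubgroupOf (S : Subgroup G) hx)
    exact e ▸ ⟨⟨x, hx'⟩, Subgroup.subset_normalClosure hx, rfl⟩

end Cfsg.Agent.S3756
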