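import Cfsg.Statements.S3760

set_option autoImplicit false
open Cfsg

namespace Cfsg.Agent.S3760

theorem mem_map_conj {G : Type*} [Group G] (K : Subgroup G) (g y : G) :
    y ∈ K.map (MulAut.conj g).toMonoidHom ↔ g⁻¹ * y * g ∈ K := by
  constructor
  · rintro ⟨k, hk, rfl⟩
    simpa [mul_assoc] using hk
  · intro h
    exact ⟨g⁻¹ * y * g, h, by simp [mul_assoc]⟩


/-- Let the group G act transitively on a set X, let x ∈ X with stabilizer H = G_x, and let K ≤ H. Then N_G(K) acts transitively on the set of fixed points of K if and only if every G-conjugate of K contained in H is already an H-conjugate of K. -/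
theorem result {G : Type*} [Group G] {X : Type*} [MulAction G X] (htrans : ∀ a b : X, ∃ g : G, g • a = b) (x : X) (K : Subgroup G) (hK : K ≤ MulAction.stabilizer G x) : (∀ a b : X, (∀ k ∈ K, k • a = a) → (∀ k ∈ K, k • b = b) → ∃ g ∈ Subgroup.normalizer (K : Set G), g • a = b) ↔ ∀ g : G, K.map (MulAut.conj g).toMonoidHom ≤ MulAction.stabilizer G x → ∃ h ∈ MulAction.stabilizer G x, K.map (MulAut.conj g).toMonoidHom = K.map (MulAut.conj h).toMonoidHom := by
  constructor
  · intro h g hg
    obtain ⟨n, hn, hnx⟩ := h x (g⁻¹ • x) (fun k hk => hK hk) (fun k hk => by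
      have : g * k * g⁻¹ ∈ MulAction.stabilizer G x :=
        hg ((mem_map_conj K g _).2 (by simpa [mul_assoc] using hk))
      rw [MulAction.mem_stabilizer_iff, mul_smul, mul_smul, smul_eq_iff_eq_inv_smul] at this
      exact this)
    refine ⟨g * n, ?_, ?_⟩
    · rw [MulAction.mem_stabilizer_iff, mul_smul, hnx, smul_inv_smul]
    · ext y
      rw [mem_map_conj, mem_map_conj]
      have := Subgroup.mem_normalizer_iff''.1 hn (g⁻¹ * y * g)
      rw [this]
      simp [mul_assoc]
  · intro h
    have key : ∀ a : X, (∀ k ∈ K, k • a = a) → ∃ n ∈ Subgroup.normalizer (K : Set G), n • x = a := by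
      intro a ha
      obtain ⟨g, rfl⟩ := htrans x a
      obtain ⟨u, hu, e⟩ := h g⁻¹ (fun y hy => by
        rw [mem_map_conj, inv_inv] at hy
        have := ha _ hy
        rw [MulAction.mem_stabilizer_iff]
        simpa [mul_smul] using this)
      refine ⟨g * u, ?_, ?_⟩
      · rw [Subgroup.mem_normalizer_iff'']
        intro y
        have := SetLike.ext_iff.1 e (g⁻¹ * y * g)
        rw [mem_map_conj, mem_map_conj] at this
        simpa [mul_assoc] using this
      · rw [mul_smul, MulAction.mem_stabilizer_iff.1 hu]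
    intro a b ha hb
    obtain ⟨n, hn, rfl⟩ := key a ha
    obtain ⟨m, hm, rfl⟩ := key b hb
    exact ⟨m * n⁻¹, mul_mem hm (inv_mem hn), by simp [mul_smul]⟩

end Cfsg.Agent.S3760
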