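import Cfsg.Statements.S3762
import Cfsg.Agent.PLOC.Symplectic

set_option autoImplicit false
open Cfsg

namespace Cfsg.Agent.S3762

/-- Let G be a finite p-group of symplectic type: every characteristic abelian subgroup of G is cyclic. Then G = E ∗ R is a central product of subgroups E and R (they commute elementwise and generate G) where E is extraspecial or trivial, and R is cyclic, or p = 2 and R is dihedral, semidihedral or generalized quaternion of order at least 16. -/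
theorem result {G : Type*} [Group G] [Finite G] {p : ℕ} [Fact p.Prime] (hG : IsPGroup p G) (hsymp : ∀ A : Subgroup G, A.Characteristic → IsMulCommutative A → IsCyclic A) : ∃ E R : Subgroup G, (∀ e ∈ E, ∀ r ∈ R, e * r = r * e) ∧ E ⊔ R = ⊤ ∧ (E = ⊥ ∨ Cfsg.IsExtraspecial p ↥E) ∧ (IsCyclic R ∨ (p = 2 ∧ 16 ≤ Nat.card R ∧ ((∃ m : ℕ, Nonempty (↥R ≃* DihedralGroup m)) ∨ (∃ m : ℕ, Nonempty (↥R ≃* QuaternionGroup m)) ∨ Cfsg.IsQuasiDihedral ↥R))) := by
  rcases subsingleton_or_nontrivial G with hG1 | hG1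
  · exact ⟨⊥, ⊤, fun _ _ _ _ => Subsingleton.elim _ _, bot_sup_eq _, Or.inl rfl,
      Or.inl isCyclic_of_subsingleton⟩
  obtain ⟨z, F, ho, hzc, hzF, h1, h2, h3, h4, h5⟩ := CL.ES.exists_symplectic_decomp hG hsymp
  have h6 : IsCyclic (Subgroup.centralizer (F : Set G)) ∨ (p = 2 ∧
      16 ≤ Nat.card (Subgroup.centralizer (F : Set G)) ∧
      ((∃ m : ℕ, Nonempty (↥(Subgroup.centralizer (F : Set G)) ≃* DihedralGroup m)) ∨
        (∃ m : ℕ, Nonempty (↥(Subgroup.centralizer (F : Set G)) ≃* QuaternionGroup m)) ∨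
        Cfsg.IsQuasiDihedral ↥(Subgroup.centralizer (F : Set G)))) := by
    rcases h5 with h5 | ⟨h5, n, a, b, hn, h6⟩
    · exact Or.inl h5
    · refine Or.inr ⟨h5, ?_, ?_⟩
      · rw [h6.card_eq]
        exact Nat.pow_le_pow_right (n := 2) (i := 4) (by norm_num) (by omega)
      · rcases h6.trichotomy with h7 | h7 | h7
        exacts [Or.inl ⟨_, h7.2⟩, Or.inr (Or.inl ⟨_, h7⟩), Or.inr (Or.inr h7.2.2.2)]
  by_cases hF : F = Subgroup.zpowers z
  · refine ⟨⊥, Subgroup.centralizer (F : Set G), fun e he r _ => ?_, ?_, Or.inl rfl, h6⟩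
    · rw [Subgroup.mem_bot.mp he, one_mul, mul_one]
    · rw [bot_sup_eq, Subgroup.centralizer_eq_top_iff_subset, hF]
      exact Subgroup.zpowers_le.mpr hzc
  · refine ⟨F, Subgroup.centralizer (F : Set G), fun e he r hr => hr e he, ?_,
      Or.inr (CL.ES.isExtraspecial_of_not_comm hzF ho (fun x _ => h1 x) h2 h3 hF), h6⟩
    rw [eq_top_iff]
    intro g _
    obtain ⟨f, hf, c, hc, rfl⟩ := h4 g
    exact Subgroup.mul_mem_sup hf hc

end Cfsg.Agent.S3762
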