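import Cfsg.Statements.S3763
import Cfsg.Agent.PLOC.ESClass

set_option autoImplicit false
open Cfsg

namespace Cfsg.Agent.S3763

/-- Let E be an extraspecial 2-group of order 2^(2n+1). Then the largest elementary abelian subgroups of E have order 2^n or 2^(n+1); and two extraspecial 2-groups of the same order whose largest elementary abelian subgroups have the same order are isomorphic. -/
theorem result {E : Type*} [Group E] [Finite E] (hE : Cfsg.IsExtraspecial 2 E) (n : ℕ) (hn : Nat.card E = 2 ^ (2 * n + 1)) : ((Cfsg.PRankLE 2 n E ∧ ¬ Cfsg.PRankLE 2 (n - 1) E) ∨ (Cfsg.PRankLE 2 (n + 1) E ∧ ¬ Cfsg.PRankLE 2 n E)) ∧ ∀ (E' : Type*) [Group E'] [Finite E'], Cfsg.IsExtraspecial 2 E' → Nat.card E' = Nat.card E → (∀ k : ℕ, Cfsg.PRankLE 2 k E ↔ Cfsg.PRankLE 2 k E') → Nonempty (E ≃* E') := by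
  obtain ⟨z, d, c, -⟩ := CL.ES.exists_zdata hE
  have hd := d.finrank_eq_of_card hn
  have hpos := d.finrank_pos (CL.ES.not_isMulCommutative_of_isExtraspecial hE)
  constructor
  · by_cases hpl : CL.Orth.IsPlus d.Q
    · right
      rw [d.pRankLE_iff_of_isPlus c hd hpl, d.pRankLE_iff_of_isPlus c hd hpl]
      omega
    · left
      rw [d.pRankLE_iff_of_not_isPlus c hd hpl, d.pRankLE_iff_of_not_isPlus c hd hpl]
      omega
  · intro E' _ _ hE' hc hr
    obtain ⟨z', d', c', -⟩ := CL.ES.exists_zdata hE'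
    refine d.nonempty_mulEquiv_of_isPlus_iff d' c c' hc.symm ?_
    rw [d.isPlus_iff_not_pRankLE c hd,
      d'.isPlus_iff_not_pRankLE c' (d'.finrank_eq_of_card (hc.trans hn)), hr]

end Cfsg.Agent.S3763
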