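import Cfsg.Statements.S3765
import Cfsg.Agent.ODD.BG345

set_option autoImplicit false
open Cfsg Subgroup CL.BG3

namespace Cfsg.Agent.S3765

/-- Let p, q, r be distinct primes and let X, Q, V be subgroups of a finite group with X of order r normalizing the q-group Q and acting faithfully on it (X ∩ C(Q) = 1), and V a nontrivial elementary abelian p-group normalized by X and Q on which XQ acts faithfully. If q = 2 and r has the form 2^n + 1, assume in addition that Q is abelian. Then C_V(X) ≠ 1. -/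
theorem result {G : Type*} [Group G] [Finite G] {p q r : ℕ} (hp : p.Prime) (hq : q.Prime) (hr : r.Prime) (hpq : p ≠ q) (hpr : p ≠ r) (hqr : q ≠ r) (X Q V : Subgroup G) (hX : Nat.card X = r) (hQ : IsPGroup q Q) (hXQ : X ≤ Subgroup.normalizer (Q : Set G)) (hXfaith : X ⊓ Subgroup.centralizer (Q : Set G) = ⊥) (hV : Cfsg.IsElementaryAbelian p V) (hV1 : V ≠ ⊥) (hXV : X ≤ Subgroup.normalizer (V : Set G)) (hQV : Q ≤ Subgroup.normalizer (V : Set G)) (hfaith : (X ⊔ Q) ⊓ Subgroup.centralizer (V : Set G) = ⊥) (hexc : q = 2 → (∃ n : ℕ, r = 2 ^ n + 1) → IsMulCommutative Q) : V ⊓ Subgroup.centralizer (X : Set G) ≠ ⊥ := by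
  intro hC
  have := Fact.mk hq
  have := Fact.mk hp
  obtain ⟨k, hk⟩ := IsPGroup.iff_card.1 hQ
  obtain ⟨χ, hχ, h1, h2⟩ := CL.BG.exists_character_sup hp hXQ hV hQV hXV
    (fun h => hpq ((Nat.prime_dvd_prime_iff_eq hp hq).1 (hp.dvd_of_dvd_pow (hk ▸ h))))
    (fun h => hpr ((Nat.prime_dvd_prime_iff_eq hp hr).1 (hX ▸ h)))
  have h3 := h1 X le_sup_right
  rw [hC, card_bot, eq_comm, Nat.pow_eq_one] at h3
  have hXc : Nat.card (X.subgroupOf (Q ⊔ X)) = r := by
    rwa [CL.card_subgroupOf_of_le le_sup_right]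
  obtain ⟨⟨n, hn, h4⟩, h5⟩ := char34_pgroup q _ (Q.subgroupOf (Q ⊔ X)) (X.subgroupOf (Q ⊔ X)) χ
    (isPGroup_subgroupOf _ hQ) (subgroupOf_le_normalizer _ hXQ) (hXc ▸ hr) (hXc ▸ hqr.symm) hχ
    (h3.resolve_left hp.one_lt.ne') (by
      rw [commutator_subgroupOf le_sup_left le_sup_right, h2 _ (commutator_le_sup _ _)]
      intro h
      have h6 : ⁅Q, X⁆ = ⊥ := eq_bot_iff.2 ((le_inf ((commutator_le_sup _ _).trans (sup_comm Q X).le)
        h).trans hfaith.le)
      rw [commutator_comm, commutator_eq_bot_iff_le_centralizer, ← inf_eq_left, hXfaith] at h6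
      exact ne_bot_of_prime_card (hX ▸ hr) h6.symm)
  rw [hXc] at h4
  have hq2 : q = 2 := by
    by_contra h
    have h6 : Even r := h4 ▸ ((hq.odd_of_ne_two h).pow.add_one)
    rw [hr.even_iff, h4] at h6
    have := Nat.one_lt_pow hn.ne' hq.one_lt
    omega
  have := hexc hq2 ⟨n, hq2 ▸ h4⟩
  exact h5 inferInstance

end Cfsg.Agent.S3765
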