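import Cfsg.Statements.S3766
import Mathlib
import Cfsg.Agent.SOLV.Fitting

set_option autoImplicit false
open Cfsg

namespace Cfsg.Agent.S3766

open Subgroup in
open scoped commutatorElement in

/-- Let G be a finite solvable group and N a normal subgroup of G. Call a pair V < U of normal subgroups of G a chief factor of G when no normal subgroup of G lies strictly between them; an element g centralizes the chief factor U/V when u g u⁻¹ g⁻¹ ∈ V for all u ∈ U. Then an element of G lies in the Fitting subgroup F(N) if and only if it lies in N and centralizes every chief factor of G; and also if and only if it lies in N and centralizes every chief factor U/V of G with U ≤ F(N). -/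
theorem result {G : Type*} [Group G] [Finite G] (hG : Group.IsSolvable G) (N : Subgroup G) [N.Normal] (g : G) : (g ∈ (Cfsg.fittingSubgroup ↥N).map N.subtype ↔ g ∈ N ∧ ∀ U V : Subgroup G, (U.Normal ∧ V.Normal ∧ V < U ∧ ∀ W : Subgroup G, W.Normal → V ≤ W → W ≤ U → W = V ∨ W = U) → ∀ u ∈ U, u * g * u⁻¹ * g⁻¹ ∈ V) ∧ (g ∈ (Cfsg.fittingSubgroup ↥N).map N.subtype ↔ g ∈ N ∧ ∀ U V : Subgroup G, (U.Normal ∧ V.Normal ∧ V < U ∧ ∀ W : Subgroup G, W.Normal → V ≤ W → W ≤ U → W = V ∨ W = U) → U ≤ (Cfsg.fittingSubgroup ↥N).map N.subtype → ∀ u ∈ U, u * g * u⁻¹ * g⁻¹ ∈ V) := by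
  set F : Subgroup G := (Cfsg.fittingSubgroup ↥N).map N.subtype with hF
  have hFeq : F = Cfsg.fittingSubgroup G ⊓ N := CL.fittingOf_of_normal N
  have hFG := CL.fittingSubgroup_normal G
  have hFn : F.Normal := hFeq ▸ inferInstance
  have hFnil : Group.IsNilpotent F := CL.isNilpotent_fittingOf N
  have fwd : ∀ g ∈ F, ∀ U V : Subgroup G, (U.Normal ∧ V.Normal ∧ V < U ∧
      ∀ W : Subgroup G, W.Normal → V ≤ W → W ≤ U → W = V ∨ W = U) →
      ∀ u ∈ U, u * g * u⁻¹ * g⁻¹ ∈ V := by
    rintro g hg U V ⟨hU, hV, hlt, hch⟩ u hu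
    have hmin := CL.isMinNormal_map_mk'_of_chief hlt hch
    have : (F.map (QuotientGroup.mk' V)).Normal := hFn.map _ (QuotientGroup.mk'_surjective V)
    have h1 := hmin.le_centralizer_of_isNilpotent (CL.isNilpotent_map F (QuotientGroup.mk' V))
      (mem_map_of_mem _ hg) _ (mem_map_of_mem _ hu)
    rw [← QuotientGroup.eq_one_iff]
    simp only [QuotientGroup.mk'_apply] at h1
    simp only [QuotientGroup.mk_mul, QuotientGroup.mk_inv, h1]
    group
  let C : Subgroup G :=
    { carrier := {g | g ∈ N ∧ ∀ U V : Subgroup G, (U.Normal ∧ V.Normal ∧ V < U ∧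
        ∀ W : Subgroup G, W.Normal → V ≤ W → W ≤ U → W = V ∨ W = U) → U ≤ F →
        ∀ u ∈ U, u * g * u⁻¹ * g⁻¹ ∈ V}
      one_mem' := ⟨N.one_mem, fun U V _ _ u _ => by simp⟩
      mul_mem' := by
        rintro a b ⟨ha, ha'⟩ ⟨hb, hb'⟩
        refine ⟨N.mul_mem ha hb, fun U V h hU u hu => ?_⟩
        have := V.mul_mem (ha' U V h hU u hu) (h.2.1.conj_mem _ (hb' U V h hU u hu) a)
        convert this using 1
        group
      inv_mem' := by
        rintro a ⟨ha, ha'⟩
        refine ⟨N.inv_mem ha, fun U V h hU u hu => ?_⟩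
        have := h.2.1.conj_mem _ (V.inv_mem (ha' U V h hU u hu)) a⁻¹
        convert this using 1
        group }
  have hCn : C.Normal := by
    refine ⟨?_⟩
    rintro c ⟨hc, hc'⟩ y
    refine ⟨Subgroup.Normal.conj_mem inferInstance c hc y, fun U V h hU u hu => ?_⟩
    have := h.2.1.conj_mem _ (hc' U V h hU _ (h.1.conj_mem u hu y⁻¹)) y
    convert this using 1
    group
  have hFC : F ≤ C := fun g hg => ⟨map_subtype_le _ hg, fun U V h _ => fwd g hg U V h⟩
  have hCF : C ≤ F := by
    by_contra hne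
    have hlt : F < C := lt_of_le_of_ne hFC fun e => hne e.ge
    obtain ⟨M, hMn, h1, h2, h3⟩ := CL.exists_chief_above hlt
    have hmin := CL.isMinNormal_map_mk'_of_chief h1 h3
    have hcomm := hmin.isMulCommutative_of_isSolvable inferInstance
    have key : ∀ U : Subgroup G, U.Normal → U ≤ F → (∃ n, M.lowerCentralSeries n ≤ U) →
        ∃ n, M.lowerCentralSeries n = ⊥ := by
      intro U
      induction U using CL.subgroup_induction with
      | h U ih =>
        rintro hU hUF ⟨n, hn⟩
        by_cases hb : U = ⊥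
        · exact ⟨n, le_bot_iff.1 (hb ▸ hn)⟩
        obtain ⟨V, hV, -, hVU, hch⟩ := CL.exists_chief_below (bot_lt_iff_ne_bot.2 hb)
        refine ih V hVU hV (hVU.le.trans hUF) ⟨n + 1, ?_⟩
        rw [Subgroup.lowerCentralSeries_succ, Subgroup.commutator_le]
        intro u hu m hm
        exact (h2 hm).2 U V ⟨hU, hV, hVU, hch⟩ hUF u (hn hu)
    have hMnil : Group.IsNilpotent M := by
      rw [Subgroup.isNilpotent_iff_lowerCentralSeries]
      refine key F hFn le_rfl ⟨1, ?_⟩
      rw [Subgroup.lowerCentralSeries_succ, Subgroup.lowerCentralSeries_zero,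
        Subgroup.commutator_le]
      intro a ha b hb
      rw [← QuotientGroup.eq_one_iff]
      have := setLike_mul_comm (s := M.map (QuotientGroup.mk' F)) (mem_map_of_mem _ ha)
        (mem_map_of_mem _ hb)
      simp only [QuotientGroup.mk'_apply] at this
      simp only [commutatorElement_def, QuotientGroup.mk_mul, QuotientGroup.mk_inv, this]
      group
    apply h1.not_ge
    rw [hFeq]
    exact le_inf (CL.le_fittingSubgroup hMnil) (fun x hx => (h2 hx).1)
  exact ⟨⟨fun h => ⟨map_subtype_le _ h, fwd g h⟩, fun h => hCF ⟨h.1, fun U V h' _ => h.2 U V h'⟩⟩,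
    ⟨fun h => hFC h, fun h => hCF h⟩⟩

end Cfsg.Agent.S3766
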