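import Cfsg.Statements.S3768
import Cfsg.Agent.SOLV.Frobenius

set_option autoImplicit false
open Cfsg

namespace Cfsg.Agent.S3768

/-- Let G be a finite Frobenius group with Frobenius complement R and Frobenius kernel K (the identity together with the elements in no conjugate of R), and let N be a normal subgroup of G not containing K. Then G/N is a Frobenius group with Frobenius complement RN/N whose Frobenius kernel is the image of K. -/
theorem result {G : Type*} [Group G] [Finite G] (R : Subgroup G) (hR : Cfsg.IsFrobeniusComplement R) (N : Subgroup G) [N.Normal] (hKN : ¬ Cfsg.frobeniusKernel R ⊆ N) : Cfsg.IsFrobeniusComplement (R.map (QuotientGroup.mk' N)) ∧ Cfsg.frobeniusKernel (R.map (QuotientGroup.mk' N)) = QuotientGroup.mk' N '' Cfsg.frobeniusKernel R := by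
  obtain ⟨K, hK, hKn, hc, hKb, hfpf⟩ := CL.Frob.exists_kernel hR
  rw [← hK] at hKN ⊢
  have hRK : R ≤ Subgroup.normalizer (K : Set G) := by
    rw [Subgroup.normalizer_eq_top]; exact le_top
  have hNK : N ≤ K := CL.BG.Frobenius_normal_le_ker hRK hfpf (by rw [hc.sup_eq_top]; exact le_top)
    (by rw [Subgroup.normalizer_eq_top]; exact le_top) hKN
  let f := QuotientGroup.mk' N
  have hKn' : (K.map f).Normal := hKn.map f (QuotientGroup.mk'_surjective N)
  have hfpf' := CL.BG.semiregular_map f hRK hfpf
  have hc' : Subgroup.IsComplement' (K.map f) (R.map f) := by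
    refine Subgroup.isComplement'_of_disjoint_and_mul_eq_univ ?_ ?_
    · rw [disjoint_iff, eq_bot_iff]
      rintro x hx
      obtain ⟨hx1, hx2⟩ := Subgroup.mem_inf.1 hx
      by_contra hx0
      have : x ∈ K.map f ⊓ Subgroup.centralizer {x} :=
        Subgroup.mem_inf.2 ⟨hx1, Subgroup.mem_centralizer_singleton_iff.2 rfl⟩
      rw [hfpf' x hx2 hx0] at this
      exact hx0 this
    · rw [← Subgroup.normal_mul, ← Subgroup.map_sup, hc.sup_eq_top,
        Subgroup.map_top_of_surjective _ (QuotientGroup.mk'_surjective N), Subgroup.coe_top]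
  have hF : Cfsg.IsFrobeniusComplement (R.map f) := by
    refine CL.Frob.isFrobeniusComplement_of_fpf hc' (fun h => hKN ?_) (fun h => hR.1 ?_) hfpf'
    · exact (CL.map_mk'_eq_bot_iff K N).1 h
    · have h1 := ((CL.map_mk'_eq_bot_iff R N).1 h).trans hNK
      exact hc.disjoint.symm.eq_bot_of_le h1
  refine ⟨hF, ?_⟩
  obtain ⟨K', hK', hKn'', hc'', -, hfpf''⟩ := CL.Frob.exists_kernel hF
  rw [← hK', ← Subgroup.coe_map]
  have hcop : (Nat.card (K.map f)).Coprime K'.index := by
    rw [hc''.symm.index_eq_card]
    exact CL.BG.regular_norm_coprime (by rw [Subgroup.normalizer_eq_top]; exact le_top) hfpf'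
  have hle := CL.le_of_coprime_index hcop
  have hcard : Nat.card K' = Nat.card (K.map f) := by
    rw [← hc''.index_eq_card, hc'.index_eq_card]
  exact congrArg _ (Subgroup.eq_of_le_of_card_ge hle hcard.le).symm

end Cfsg.Agent.S3768
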