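import Cfsg.Statements.S3770
import Cfsg.Agent.ODD.BG345
import Cfsg.Agent.ODD.BG3.FrobCompl

set_option autoImplicit false
open Cfsg

namespace Cfsg.Agent.S3770

/-- Let G and V be subgroups of a finite group with G a Frobenius group with complement R of prime order and kernel K, G normalizing V, and V an elementary abelian ℓ-group for a prime ℓ not dividing the order of G. If C_V(R) has order ℓ, then the derived subgroup of K centralizes V. -/
theorem result {X : Type*} [Group X] [Finite X] (G : Subgroup X) (V : Subgroup X) {ℓ : ℕ} (hℓ : ℓ.Prime) (hV : Cfsg.IsElementaryAbelian ℓ V) (hℓG : ¬ ℓ ∣ Nat.card G) (hGV : G ≤ Subgroup.normalizer (V : Set X)) (R : Subgroup ↥G) (hR : Cfsg.IsFrobeniusComplement R) (hRp : (Nat.card R).Prime) (hCV : Nat.card ↥(V ⊓ Subgroup.centralizer ((R.map G.subtype : Subgroup X) : Set X)) = ℓ) : ⁅Subgroup.closure (Subtype.val '' Cfsg.frobeniusKernel R), Subgroup.closure (Subtype.val '' Cfsg.frobeniusKernel R)⁆ ≤ Subgroup.centralizer (V : Set X) := by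
  obtain ⟨K, hK, -, hsup, hRK, hreg⟩ := CL.BG3.exists_kernel_map hR
  rw [← hK, Subgroup.closure_eq]
  have hKG : K ≤ G := le_sup_left.trans hsup.le
  have hRG : R.map G.subtype ≤ G := Subgroup.map_subtype_le _
  have hp : (Nat.card (R.map G.subtype)).Prime := by
    rwa [Subgroup.card_map_of_injective G.subtype_injective]
  obtain ⟨⟨x, hx⟩, hx1⟩ := Subgroup.ne_bot_iff_exists_ne_one.1 (CL.BG3.ne_bot_of_prime_card hp)
  have hx1' : x ≠ 1 := fun h => hx1 (Subtype.ext h)
  exact CL.BG.Frobenius_prime_cent_prime' hℓ hRK hp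
    (by rw [← CL.BG.semiprime_of_prime_card hp x hx hx1', hreg x hx hx1']) hV (hKG.trans hGV)
    (hRG.trans hGV) (fun h => hℓG (h.trans (Subgroup.card_dvd_of_le hKG)))
    (fun h => hℓG (h.trans (Subgroup.card_dvd_of_le hRG))) hCV.le

end Cfsg.Agent.S3770
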