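import Cfsg.Statements.S3772
import Cfsg.Agent.PLOC.ESClass

set_option autoImplicit false
open Cfsg

namespace Cfsg.Agent.S3772

open Module QuadraticMap

theorem count {V : Type*} [AddCommGroup V] [Module (ZMod 2) V] [Finite V]
    (Q : QuadraticForm (ZMod 2) V) :
    (2 * Nat.card {v // Q v = 0} = 2 ^ finrank (ZMod 2) V) ∨
    ((∀ v ∈ (polarBilin Q).ker, Q v = 0) ∧ ∃ r : ℕ,
      2 * r + finrank (ZMod 2) (polarBilin Q).ker = finrank (ZMod 2) V ∧
      (2 * Nat.card {v // Q v = 0} = 2 ^ finrank (ZMod 2) V + 2 ^ (finrank (ZMod 2) V - r) ∨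
        2 * Nat.card {v // Q v = 0} + 2 ^ (finrank (ZMod 2) V - r) = 2 ^ finrank (ZMod 2) V)) := by
  classical
  have hadd : ∀ v, ∀ u ∈ (polarBilin Q).ker, Q (v + u) = Q v + Q u := fun v u hu => by
    have : polar Q u v = 0 := congrArg (fun f => f v) (LinearMap.mem_ker.mp hu)
    rw [polar_comm, polar] at this
    linear_combination this
  have hcard : ∀ (U : Type _) [AddCommGroup U] [Module (ZMod 2) U] [Finite U],
      Nat.card U = 2 ^ finrank (ZMod 2) U := fun U _ _ _ => by
    rw [Module.natCard_eq_pow_finrank (K := ZMod 2), Nat.card_zmod]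
  by_cases hR : ∀ v ∈ (polarBilin Q).ker, Q v = 0
  · refine Or.inr ⟨hR, ?_⟩
    obtain ⟨W, hW⟩ := (polarBilin Q).ker.exists_isCompl
    have hsep : ∀ x : W, (∀ y : W, polar Q x y = 0) → x = 0 := by
      intro x hx
      have : (x : V) ∈ (polarBilin Q).ker := by
        rw [LinearMap.mem_ker]
        ext v
        obtain ⟨u, hu, w, hw, rfl⟩ := Submodule.mem_sup.mp (hW.sup_eq_top ▸ Submodule.mem_top :
          v ∈ (polarBilin Q).ker ⊔ W)
        have h1 : polar Q u x = 0 := congrArg (fun f => f x) (LinearMap.mem_ker.mp hu)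
        rw [polarBilin_apply_apply, polar_add_right, hx ⟨w, hw⟩, polar_comm, h1, add_zero,
          LinearMap.zero_apply]
      exact Subtype.ext (Submodule.disjoint_def.mp hW.disjoint _ this x.2)
    have hnd : (polarBilin (Q.restrict W)).Nondegenerate :=
      ⟨fun x hx => hsep x hx, fun x hx => hsep x fun y => (polar_comm _ _ _).trans (hx y)⟩
    obtain ⟨r, hr⟩ := CL.Orth.even_finrank_of_two_eq_zero hnd rfl
    rw [← two_mul] at hr
    have hd := Submodule.finrank_add_eq_of_isCompl hW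
    have hz : Nat.card {v // Q v = 0} =
        2 ^ finrank (ZMod 2) (polarBilin Q).ker * Nat.card {w : W // Q.restrict W w = 0} := by
      rw [← hcard, ← Nat.card_prod]
      refine Nat.card_congr (((Submodule.prodEquivOfIsCompl _ _ hW).toEquiv.subtypeEquiv
        (p := fun x => Q.restrict W x.2 = 0) fun x => ?_).symm.trans
        ⟨fun x => (x.1.1, ⟨x.1.2, x.2⟩), fun x => ⟨(x.1, x.2.1), x.2.2⟩, fun _ => rfl, fun _ => rfl⟩)
      change Q x.2 = 0 ↔ Q (x.1 + x.2) = 0
      rw [add_comm, hadd _ _ x.1.2, hR _ x.1.2, add_zero]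
    refine ⟨r, by omega, ?_⟩
    have e1 : 2 ^ finrank (ZMod 2) V = 2 ^ finrank (ZMod 2) (polarBilin Q).ker * 2 ^ (2 * r) := by
      rw [← pow_add]; congr 1; omega
    have e2 : 2 ^ (finrank (ZMod 2) V - r) = 2 ^ finrank (ZMod 2) (polarBilin Q).ker * 2 ^ r := by
      rw [← pow_add]; congr 1; omega
    rw [hz, e1, e2, mul_left_comm, ← mul_add, ← mul_add]
    by_cases hpl : CL.Orth.IsPlus (Q.restrict W)
    · exact Or.inl (congrArg _ (CL.ES.two_mul_card_zero_of_isPlus hnd hr hpl))
    · exact Or.inr (congrArg _ (CL.ES.two_mul_card_zero_of_not_isPlus hnd hr hpl))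
  · left
    simp only [not_forall] at hR
    obtain ⟨u, hu, hQu⟩ := hR
    have h1 : Nat.card {v // Q v = 0} = Nat.card {v // ¬ Q v = 0} :=
      Nat.card_congr ((Equiv.addRight u).subtypeEquiv fun v => by
        rw [Equiv.coe_addRight, hadd v u hu]
        generalize Q v = a at *
        generalize Q u = b at *
        revert a b
        decide)
    have h3 := Nat.card_congr (Equiv.sumCompl fun v => Q v = 0)
    rw [Nat.card_sum, hcard V] at h3
    omega

/-- Let G be a finite 2-group whose Frattini subgroup Φ(G) has order 2, with |G : Φ(G)| = 2^d, and let j be the number of elements x of G with x² = 1. Then j = 2^d, or j = 2^d + 2^(d−r) or j = 2^d − 2^(d−r) for some positive integer r with 2r ≤ d. Moreover if d = 2r and j is 2^d + 2^r or 2^d − 2^r, then G is extraspecial. -/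
theorem result {G : Type*} [Group G] [Finite G] (hG : IsPGroup 2 G) (hΦ : Nat.card (frattini G) = 2) (d : ℕ) (hd : (frattini G).index = 2 ^ d) : (Nat.card {x : G // x ^ 2 = 1} = 2 ^ d ∨ ∃ r : ℕ, 1 ≤ r ∧ 2 * r ≤ d ∧ (Nat.card {x : G // x ^ 2 = 1} = 2 ^ d + 2 ^ (d - r) ∨ Nat.card {x : G // x ^ 2 = 1} + 2 ^ (d - r) = 2 ^ d)) ∧ (∀ r : ℕ, d = 2 * r → (Nat.card {x : G // x ^ 2 = 1} = 2 ^ d + 2 ^ r ∨ Nat.card {x : G // x ^ 2 = 1} + 2 ^ r = 2 ^ d) → Cfsg.IsExtraspecial 2 G) := by
  obtain ⟨z, h, hz⟩ := CL.ES.exists_zdata_of_card_frattini hG hΦ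
  have hfr : finrank (ZMod 2) h.V = d := by
    apply h.finrank_eq_of_card
    rw [← (frattini G).card_mul_index, hΦ, hd, pow_succ']
  have hne : ∀ r, (∀ v ∈ (polarBilin h.Q).ker, h.Q v = 0) →
      2 * r + finrank (ZMod 2) (polarBilin h.Q).ker = d → 1 ≤ r := by
    intro r h1 h2
    by_contra h3
    have h4 : (polarBilin h.Q).ker = ⊤ := Submodule.eq_top_of_finrank_eq (by omega)
    have h5 : ∀ x : G, x ^ 2 = 1 := fun x => h.Q_pr_eq_zero_iff.mp (h1 _ (h4 ▸ Submodule.mem_top))
    have h6 : frattini G ≤ ⊥ := CL.PG.frattini_le_of_commutator_le_of_pow_mem (p := 2)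
      (Subgroup.commutator_le.mpr fun x _ y _ => by
        rw [Subgroup.mem_bot, commutatorElement_eq_one_iff_commute, ← h.B_eq_zero_iff,
          ← h.polarBilin_Q, LinearMap.mem_ker.mp (h4 ▸ Submodule.mem_top :
            h.pr x ∈ (polarBilin h.Q).ker), LinearMap.zero_apply])
      fun x => Subgroup.mem_bot.mpr (h5 x)
    rw [le_bot_iff.mp h6, Subgroup.card_bot] at hΦ
    omega
  have hc := count h.Q
  rw [← h.card_sq_eq_one, hfr] at hc
  constructor
  · rcases hc with h1 | ⟨h1, r, h2, h3⟩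
    · exact Or.inl h1
    · exact Or.inr ⟨r, hne r h1 h2, by omega, h3⟩
  · intro s hs hj
    have hp : 0 < 2 ^ s := by positivity
    rcases hc with h1 | ⟨h1, r, h2, h3⟩
    · omega
    have hp' : 0 < 2 ^ (d - r) := by positivity
    have h4 : d - r = s := Nat.pow_right_injective (le_refl 2) (show 2 ^ (d - r) = 2 ^ s by omega)
    have h5 := hne r h1 h2
    have h6 : (polarBilin h.Q).ker = ⊥ := Submodule.finrank_eq_zero.mp (by omega)
    have h7 : Subgroup.center G = Subgroup.zpowers z := h.separatingLeft_iff.mp fun v hv => by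
      rw [← Submodule.mem_bot (ZMod 2), ← h6, LinearMap.mem_ker, h.polarBilin_Q]
      exact LinearMap.ext hv
    refine h.isExtraspecial h7 fun hcomm => ?_
    have h8 : Nat.card (Subgroup.center G) = 2 := h7 ▸ h.card_zpowers
    rw [Subgroup.center_eq_top_iff.mpr hcomm, Subgroup.card_top, h.card_eq_pow] at h8
    have := Nat.pow_right_injective (le_refl 2) (h8.trans (pow_one 2).symm)
    omega

end Cfsg.Agent.S3772
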