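import Cfsg.Statements.S3773
import Cfsg.Agent.CHEV.PSElem
import Cfsg.Agent.FGS.Homocyclic
import Cfsg.Agent.PLOC.PFrattini
import Cfsg.Agent.SOLV.MaxClass
import Cfsg.Agent.SOLV.Frattini

set_option autoImplicit false
open Cfsg

namespace Cfsg.Agent.S3773

open Subgroup
open scoped commutatorElement

theorem mem_zpowers_two {G : Type*} [Group G] {a g : G} (h : a ^ 2 = 1) (hg : g ∈ zpowers a) :
    g = 1 ∨ g = a := by
  obtain ⟨k, rfl⟩ := hg
  have h2 : a ^ (2 : ℤ) = 1 := by rw [← h, zpow_ofNat]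
  rcases Int.even_or_odd' k with ⟨m, rfl | rfl⟩
  · left; simp only [zpow_mul, h2, one_zpow]
  · right; simp only [zpow_add, zpow_mul, h2, one_zpow, zpow_one, one_mul]

theorem index_le_sq {H W : Type*} [Group H] [Finite H] [AddCommGroup W] [Finite W]
    (Z : Subgroup H) [Z.Normal] (hZ : ∀ x : H, x * x ∈ Z) (hW : ∀ w : W, w + w = 0) (q : H → W)
    (b : H → H → W) (h1 : ∀ x y, q (x * y) = q x + q y + b x y)
    (h2 : ∀ x y z, b (x * y) z = b x z + b y z) (h3 : ∀ x y z, b x (y * z) = b x y + b x z)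
    (h4 : ∀ z ∈ Z, q z = 0 ∧ ∀ x, b x z = 0 ∧ b z x = 0) (h5 : ∀ x, q x = 0 → x ∈ Z) :
    Z.index ≤ Nat.card W ^ 2 := by
  have hE : ∀ x : H ⧸ Z, x * x = 1 := by
    intro x
    obtain ⟨x, rfl⟩ := QuotientGroup.mk_surjective x
    rw [← QuotientGroup.mk_mul, QuotientGroup.eq_one_iff]; exact hZ x
  let _ : CommGroup (H ⧸ Z) :=
    { (inferInstance : Group (H ⧸ Z)) with mul_comm := CL.PS.mul_comm_of_mul_self hE }
  have k1 : ∀ x y : H, b (x : H ⧸ Z).out (y : H ⧸ Z).out = b x y := by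
    intro x y
    obtain ⟨⟨z, hz⟩, e1⟩ := QuotientGroup.mk_out_eq_mul Z x
    obtain ⟨⟨w, hw⟩, e2⟩ := QuotientGroup.mk_out_eq_mul Z y
    rw [e1, e2, h2, h3, ((h4 z hz).2 _).2, ((h4 w hw).2 _).1, add_zero, add_zero]
  have k2 : ∀ x : H, q (x : H ⧸ Z).out = q x := by
    intro x
    obtain ⟨⟨z, hz⟩, e1⟩ := QuotientGroup.mk_out_eq_mul Z x
    rw [e1, h1, (h4 z hz).1, ((h4 z hz).2 _).1, add_zero, add_zero]
  let B : Additive (H ⧸ Z) →+ Additive (H ⧸ Z) →+ W := AddMonoidHom.mk'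
    (fun v => AddMonoidHom.mk' (fun w => b v.toMul.out w.toMul.out) (fun w w' => by
      obtain ⟨x, hx⟩ := QuotientGroup.mk_surjective v.toMul
      obtain ⟨y, hy⟩ := QuotientGroup.mk_surjective w.toMul
      obtain ⟨y', hy'⟩ := QuotientGroup.mk_surjective w'.toMul
      rw [toMul_add, ← hx, ← hy, ← hy', ← QuotientGroup.mk_mul, k1, k1, k1, h3])) (fun v v' => by
      refine AddMonoidHom.ext fun w => ?_
      obtain ⟨x, hx⟩ := QuotientGroup.mk_surjective v.toMul
      obtain ⟨x', hx'⟩ := QuotientGroup.mk_surjective v'.toMul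
      obtain ⟨y, hy⟩ := QuotientGroup.mk_surjective w.toMul
      simp only [AddMonoidHom.mk'_apply, AddMonoidHom.add_apply]
      rw [toMul_add, ← hx, ← hx', ← hy, ← QuotientGroup.mk_mul, k1, k1, k1, h2])
  exact CL.PS.card_le_sq_of_anisotropic (V := Additive (H ⧸ Z)) (W := W) hE hW
    (fun v => q v.toMul.out) B (fun v w => by
      obtain ⟨x, hx⟩ := QuotientGroup.mk_surjective v.toMul
      obtain ⟨y, hy⟩ := QuotientGroup.mk_surjective w.toMul
      simp only [B, AddMonoidHom.mk'_apply]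
      rw [toMul_add, ← hx, ← hy, ← QuotientGroup.mk_mul, k1, k2, k2, k2, h1]) (fun v hv => by
      obtain ⟨x, hx⟩ := QuotientGroup.mk_surjective v.toMul
      rw [← hx, k2] at hv
      have := (QuotientGroup.eq_one_iff x).mpr (h5 x hv)
      rw [hx] at this
      exact this)

theorem relIndex_le_sq {G : Type*} [Group G] [Finite G] {K Z W T : Subgroup G}
    (hZ : Z ≤ center G) (hWZ : W ≤ Z) (hTW : T ≤ W) (hT : ∀ z ∈ Z, z * z ∈ T)
    (h1 : ∀ x ∈ K, x * x ∈ W) (h2 : ∀ x ∈ K, ∀ y ∈ K, ⁅x, y⁆ ∈ W)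
    (h3 : ∀ x ∈ K, x * x ∈ T → x ∈ Z) : Z.relIndex K ≤ T.relIndex W ^ 2 := by
  have hn : ∀ U : Subgroup G, U ≤ Z → U.Normal := fun U hU =>
    ⟨fun n hn g => by rw [mem_center_iff.mp (hZ (hU hn)) g]; simpa using hn⟩
  have hc : ∀ w ∈ W, ∀ g : G, g * w = w * g := fun w hw g => mem_center_iff.mp (hZ (hWZ hw)) g
  have := hn Z le_rfl
  have := hn T (hTW.trans hWZ)
  let _ : CommGroup W := { (inferInstance : Group W) with
    mul_comm := fun a b => Subtype.ext (hc _ b.2 _) }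
  let π : W →* W ⧸ T.subgroupOf W := QuotientGroup.mk' _
  have hπ : ∀ w : W, π w = 1 ↔ (w : G) ∈ T := fun w => QuotientGroup.eq_one_iff w
  refine index_le_sq (W := Additive (W ⧸ T.subgroupOf W)) (Z.subgroupOf K)
    (fun x => hWZ (h1 x x.2)) (fun w => ?_)
    (fun x => Additive.ofMul (π ⟨x * x, h1 x x.2⟩))
    (fun x y => Additive.ofMul (π ⟨⁅(x : G)⁻¹, (y : G)⁆, h2 _ (inv_mem x.2) _ y.2⟩))
    (fun x y => ?_) (fun x y z => ?_) (fun x y z => ?_) (fun z hz => ⟨?_, fun x => ⟨?_, ?_⟩⟩)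
    (fun x hx => h3 x x.2 ((hπ _).mp hx))
  · obtain ⟨w, hw⟩ := QuotientGroup.mk'_surjective _ w.toMul
    apply Additive.toMul.injective
    rw [toMul_add, ← hw, ← map_mul]
    exact (hπ _).mpr (hT _ (hWZ w.2))
  · rw [← ofMul_mul, ← ofMul_mul, ← map_mul, ← map_mul]
    congr 2
    apply Subtype.ext
    simp only [coe_mul]
    rw [mul_assoc ((x : G) * x), hc _ (h2 _ (inv_mem x.2) _ y.2), commutatorElement_def]
    group
  · rw [← ofMul_mul, ← map_mul]
    congr 2
    apply Subtype.ext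
    simp only [coe_mul]
    have := hc _ (h2 _ (inv_mem x.2) _ z.2) (y : G)⁻¹
    calc _ = ((y : G)⁻¹ * ⁅(x : G)⁻¹, (z : G)⁆) * y * ⁅(y : G)⁻¹, (z : G)⁆ := by
          simp only [commutatorElement_def]; group
      _ = _ := by rw [this]; group
  · rw [← ofMul_mul, ← map_mul]
    congr 2
    apply Subtype.ext
    simp only [coe_mul]
    have := hc _ (h2 _ (inv_mem x.2) _ z.2) (y : G)
    calc _ = ⁅(x : G)⁻¹, (y : G)⁆ * (((y : G) * ⁅(x : G)⁻¹, (z : G)⁆) * (y : G)⁻¹) := by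
          simp only [commutatorElement_def]; group
      _ = _ := by rw [this]; group
  · exact (hπ _).mpr (hT _ hz)
  · apply (hπ _).mpr
    show ⁅(x : G)⁻¹, (z : G)⁆ ∈ T
    rw [commutatorElement_eq_one_iff_mul_comm.mpr (mem_center_iff.mp (hZ (mem_subgroupOf.mp hz)) _)]
    exact one_mem _
  · apply (hπ _).mpr
    show ⁅(z : G)⁻¹, (x : G)⁆ ∈ T
    rw [commutatorElement_eq_one_iff_mul_comm.mpr
      (mem_center_iff.mp (hZ (inv_mem (mem_subgroupOf.mp hz))) _).symm]
    exact one_mem _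

/-- Let G be a finite 2-group of nilpotency class at most 2 and exponent dividing 4 in which the elements x with x² = 1 form a subgroup N. Then |G| ≤ |N|³, and |G| < |N|³ unless G is special. -/
theorem result {G : Type*} [Group G] [Finite G] (hG : IsPGroup 2 G) (hcl : (⊤ : Subgroup G).lowerCentralSeries 2 = ⊥) (hexp : ∀ x : G, x ^ 4 = 1) (hN : ∀ x y : G, x ^ 2 = 1 → y ^ 2 = 1 → (x * y) ^ 2 = 1) : Nat.card G ≤ Nat.card {x : G // x ^ 2 = 1} ^ 3 ∧ (¬ Cfsg.IsSpecial 2 G → Nat.card G < Nat.card {x : G // x ^ 2 = 1} ^ 3) := by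
  let N : Subgroup G :=
    { carrier := {z | z ^ 2 = 1}
      one_mem' := one_pow _
      mul_mem' := fun {a b} ha hb => hN a b ha hb
      inv_mem' := fun {a} ha => by rw [Set.mem_ofPred_eq, inv_pow, ha, inv_one] }
  have hmem : ∀ x, x ∈ N ↔ x * x = 1 := fun x => by rw [← sq]; rfl
  have hNn : N.Normal := ⟨fun n hn g => by
    rw [hmem] at hn ⊢
    calc _ = g * (n * n) * g⁻¹ := by group
      _ = 1 := by rw [hn]; group⟩
  change Nat.card G ≤ Nat.card N ^ 3 ∧ (_ → Nat.card G < Nat.card N ^ 3)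
  have hsq : ∀ x : G, x * x ∈ N := fun x => by
    rw [hmem, ← hexp x]; simp only [pow_succ, pow_zero, one_mul, mul_assoc]
  have hcc : ∀ x y : G, ⁅x, y⁆ ∈ center G := by
    have h : ⁅commutator G, (⊤ : Subgroup G)⁆ = ⊥ := hcl
    rw [commutator_eq_bot_iff_le_centralizer, coe_top, centralizer_univ] at h
    exact fun x y => h (commutator_mem_commutator (mem_top x) (mem_top y))
  have hcN : ∀ x y : G, ⁅x, y⁆ ∈ N := fun x y => by
    have : ⁅x, y⁆ = (x * x) * ((x⁻¹ * y) * (x⁻¹ * y)) * (y⁻¹ * y⁻¹) := by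
      rw [commutatorElement_def]; group
    rw [this]
    exact mul_mem (mul_mem (hsq _) (hsq _)) (hsq _)
  have hsc : ∀ x : G, x * x ∈ center G := fun x => by
    rw [mem_center_iff]
    intro y
    have h1 := mem_center_iff.mp (hcc y x) x
    have h2 := (hmem _).mp (hcN y x)
    calc y * (x * x) = ⁅y, x⁆ * (x * ⁅y, x⁆) * x * y := by
          simp only [commutatorElement_def]; group
      _ = _ := by rw [h1, ← mul_assoc, h2]; group
  obtain ⟨K, -, h1, -, h2, h3⟩ := CL.Hcy.maschke (p := 2) (X := (⊥ : Subgroup (MulAut G)))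
    (by simp) (C := N ⊓ center G) (U := N) (V := ⊤) inf_le_left le_top
    (by rw [commutator_le]; exact fun x _ y _ => ⟨hcN x y, hcc x y⟩)
    (fun x _ => by rw [sq]; exact ⟨hsq x, hsc x⟩)
    (fun a ha x hx => by rw [mem_bot.mp ha]; exact hx)
    (fun a ha x hx => by rw [mem_bot.mp ha]; exact hx)
    (fun a ha x hx => by rw [mem_bot.mp ha]; exact hx)
  have h4 := relIndex_le_sq (K := K) (Z := N ⊓ center G) (W := N ⊓ center G) (T := ⊥)
    inf_le_right le_rfl bot_le (fun z hz => (hmem z).mp hz.1) (fun x _ => ⟨hsq x, hsc x⟩)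
    (fun x _ y _ => ⟨hcN x y, hcc x y⟩) (fun x hx h => h2 ▸ ⟨(hmem x).mpr h, hx⟩)
  rw [relIndex_bot_left] at h4
  have h5 : (N ⊓ center G).relIndex K = N.index := by
    rw [← h2, inf_relIndex_right, ← relIndex_top_right, ← h3, relIndex_sup_left]
  rw [h5] at h4
  have h6 := card_le_of_le (inf_le_left : N ⊓ center G ≤ N)
  have h7 := N.card_mul_index
  have hpos : 0 < Nat.card N := Nat.card_pos
  have h8 : ∀ m, N.index ≤ m ^ 2 → m < Nat.card N → Nat.card G < Nat.card N ^ 3 := by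
    intro m hm1 hm2
    rw [← h7, pow_succ' _ 2]
    exact Nat.mul_lt_mul_of_pos_left (hm1.trans_lt (Nat.pow_lt_pow_left hm2 two_ne_zero)) hpos
  refine ⟨by rw [← h7, pow_succ' _ 2]; exact Nat.mul_le_mul_left _ (h4.trans (by gcongr)),
    fun hns => ?_⟩
  by_cases hNZ : N ≤ center G
  swap
  · exact h8 _ h4 (CL.PN.card_lt_of_lt (lt_of_le_not_ge inf_le_left fun h => hNZ (h.trans inf_le_right)))
  have h9 : ∀ i m, N.index ≤ 2 * i → i ≤ m ^ 2 → 2 * m ≤ Nat.card N →
      Nat.card G < Nat.card N ^ 3 := by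
    intro i m hi hm1 hm2
    rw [← h7, pow_succ' _ 2]
    apply Nat.mul_lt_mul_of_pos_left _ hpos
    nlinarith
  have hFN : frattini G ≤ N := CL.PG.frattini_le_of_commutator_le_of_pow_mem (p := 2)
    (by rw [_root_.commutator_def, commutator_le]; exact fun x _ y _ => hcN x y)
    (fun x => by rw [sq]; exact hsq x)
  by_cases hZN : center G ≤ N
  swap
  · obtain ⟨z, hz, hzN⟩ := SetLike.not_le_iff_exists.mp hZN
    have hzz : ∀ w ∈ N ⊔ zpowers z, w * w ∈ zpowers (z * z) := by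
      intro w hw
      obtain ⟨a, ha, _, ⟨k, rfl⟩, rfl⟩ := mem_sup_of_normal_left.mp hw
      have := mem_center_iff.mp (hNZ ha) (z ^ k)
      refine ⟨k, ?_⟩
      calc (z * z) ^ k = (a * a) * z ^ k * z ^ k := by
            rw [(hmem a).mp ha, one_mul, (Commute.refl z).mul_zpow]
        _ = a * (z ^ k * a) * z ^ k := by rw [this]; group
        _ = _ := by group
    have ht : orderOf (z * z) = 2 := orderOf_eq_prime (hsq z) fun h => hzN ((hmem z).mpr h)
    have h10 := relIndex_le_sq (K := ⊤) (Z := N ⊔ zpowers z) (W := N) (T := zpowers (z * z))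
      (sup_le hNZ (zpowers_le.mpr hz)) le_sup_left (zpowers_le.mpr (hsq z)) hzz
      (fun x _ => hsq x) (fun x _ y _ => hcN x y) (fun x _ hx => by
        rcases mem_zpowers_two (hsq z) hx with h | h
        · exact mem_sup_left ((hmem x).mpr h)
        · have h11 : x * z⁻¹ ∈ N := by
            rw [hmem]
            have := mem_center_iff.mp (inv_mem hz) x
            calc _ = x * (z⁻¹ * x) * z⁻¹ := by group
              _ = (x * x) * (z * z)⁻¹ := by rw [← this]; group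
              _ = 1 := by rw [h]; group
          simpa using mul_mem (mem_sup_left h11) (mem_sup_right (mem_zpowers z)))
    refine h9 _ _ ?_ h10 ?_
    · rw [relIndex_top_right, ← relIndex_mul_index (le_sup_left : N ≤ N ⊔ zpowers z)]
      exact Nat.mul_le_mul_right _ (Nat.le_of_dvd two_pos (CL.relIndex_sup_zpowers_dvd hG hFN z))
    · rw [← CL.PN.card_mul_relIndex (zpowers_le.mpr (hsq z)), Nat.card_zpowers, ht]
  have hcom : commutator G ≤ N := (CL.PG.commutator_le_frattini hG).trans hFN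
  have hlt : commutator G < N := by
    refine lt_of_le_not_ge hcom fun h => hns ⟨hG, le_antisymm (hFN.trans hNZ)
      ((hZN.trans h).trans (CL.PG.commutator_le_frattini hG)),
      le_antisymm (hcom.trans hNZ) (hZN.trans h)⟩
  obtain ⟨M, hMn, hM1, hM2, hM3⟩ := CL.PN.exists_normal_index_prime_between hG _ _ hlt
  have hcM : ∀ x y : G, ⁅x, y⁆ ∈ M := fun x y =>
    hM1 (commutator_mem_commutator (mem_top x) (mem_top y))
  let f : G →* G ⧸ M := MonoidHom.mk' (fun x => ((x * x : G) : G ⧸ M)) fun x y => by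
    rw [← QuotientGroup.mk_mul, QuotientGroup.eq]
    have : (x * y * (x * y))⁻¹ * (x * x * (y * y)) = y⁻¹ * ⁅x⁻¹, y⁻¹⁆ * y⁻¹⁻¹ := by
      rw [commutatorElement_def]; group
    rw [this]
    exact hMn.conj_mem _ (hcM _ _) _
  have h10 := relIndex_le_sq (K := f.ker) (Z := N) (W := M) (T := ⊥) hNZ hM2 bot_le
    (fun z hz => (hmem z).mp hz) (fun x hx => (QuotientGroup.eq_one_iff _).mp hx)
    (fun x _ y _ => hcM x y) (fun x _ h => (hmem x).mpr h)
  rw [relIndex_bot_left] at h10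
  refine h9 _ _ ?_ h10 hM3.ge
  have h11 : N ≤ f.ker := fun x hx => by
    show ((x * x : G) : G ⧸ M) = 1
    rw [(hmem x).mp hx, QuotientGroup.mk_one]
  rw [← relIndex_mul_index h11, mul_comm, index_ker]
  apply Nat.mul_le_mul_right
  have h12 : f.range ≤ N.map (QuotientGroup.mk' M) := by
    rintro _ ⟨x, rfl⟩
    exact ⟨_, hsq x, rfl⟩
  refine (card_le_of_le h12).trans (le_of_eq ?_)
  have h13 := CL.PN.card_eq_mul_card_map_mk' M N hM2
  rw [hM3, mul_comm] at h13
  exact (Nat.eq_of_mul_eq_mul_left Nat.card_pos h13).symm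

end Cfsg.Agent.S3773
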