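import Cfsg.Statements.S3775
import Cfsg.Agent.FGS.Homocyclic

set_option autoImplicit false
open Cfsg

namespace Cfsg.Agent.S3775

/-- Let A be a finite abelian p-group and X a group of automorphisms of A of order prime to p. Call a subgroup of A invariant when every element of X maps it onto itself. Then the following are equivalent: (i) A is not the direct product of two nontrivial invariant subgroups; (ii) every invariant subgroup of A is one of the subgroups Ω_i(A) = {a : a^(p^i) = 1}; (iii) the subgroup Ω₁(A) of elements of order dividing p has no invariant subgroups other than 1 and itself. -/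
theorem result {A : Type*} [CommGroup A] [Finite A] {p : ℕ} [Fact p.Prime] (hA : IsPGroup p A) (X : Subgroup (MulAut A)) (hX : (Nat.card X).Coprime p) : ((¬ ∃ B C : Subgroup A, B ≠ ⊥ ∧ C ≠ ⊥ ∧ (∀ x ∈ X, B.map x.toMonoidHom = B) ∧ (∀ x ∈ X, C.map x.toMonoidHom = C) ∧ B ⊓ C = ⊥ ∧ B ⊔ C = ⊤) ↔ (∀ B : Subgroup A, (∀ x ∈ X, B.map x.toMonoidHom = B) → ∃ i : ℕ, ∀ a : A, a ∈ B ↔ a ^ p ^ i = 1)) ∧ ((∀ B : Subgroup A, (∀ x ∈ X, B.map x.toMonoidHom = B) → ∃ i : ℕ, ∀ a : A, a ∈ B ↔ a ^ p ^ i = 1) ↔ (∀ B : Subgroup A, (∀ x ∈ X, B.map x.toMonoidHom = B) → (∀ b ∈ B, b ^ p = 1) → B = ⊥ ∨ ∀ a : A, a ∈ B ↔ a ^ p = 1)) := by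
  have hp : p.Prime := Fact.out
  have hX' : ¬ p ∣ Nat.card X := (Nat.Prime.coprime_iff_not_dvd hp).mp hX.symm
  have h23 : (∀ B : Subgroup A, (∀ x ∈ X, B.map x.toMonoidHom = B) →
      ∃ i : ℕ, ∀ a : A, a ∈ B ↔ a ^ p ^ i = 1) ↔
      (∀ B : Subgroup A, (∀ x ∈ X, B.map x.toMonoidHom = B) → (∀ b ∈ B, b ^ p = 1) →
        B = ⊥ ∨ ∀ a : A, a ∈ B ↔ a ^ p = 1) := by
    constructor
    · intro h B hB hBp
      obtain ⟨i, hi⟩ := h B hB
      rcases i with _ | i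
      · left
        ext a
        simpa using hi a
      · refine Or.inr fun a => ⟨hBp a, fun ha => (hi a).mpr ?_⟩
        rw [pow_succ', pow_mul, ha, one_pow]
    · intro h B hB
      obtain ⟨i, hi⟩ := CL.Hcy.exists_eq_Om hA (CL.Hcy.autInv_bot X) (fun D hD _ hD2 => by
        rcases h D (CL.Hcy.autInv_iff.mp hD) (fun b hb => CL.Hcy.mem_Om_bot.mp (hD2 hb)) with e | e
        · exact Or.inl e
        · exact Or.inr fun a ha => (e a).mpr (CL.Hcy.mem_Om_bot.mp ha))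
        (CL.Hcy.autInv_iff.mpr hB) bot_le
      exact ⟨i, fun a => by rw [hi, CL.Hcy.mem_Om_bot]⟩
  refine ⟨?_, h23⟩
  rw [h23]
  constructor
  · intro h D hD hDp
    rcases subsingleton_or_nontrivial A with hs | hs
    · exact Or.inl (Subsingleton.elim _ _)
    obtain ⟨e, B, C, hB, hC, h1, h2, -, h3, h4, h5⟩ := CL.Hcy.exists_factor hA hX'
    have hB0 : B ≠ ⊥ := fun e => h3 (eq_bot_iff.mpr (e ▸ CL.Hcy.Pw_le _ _))
    have hC0 : C = ⊥ := by
      by_contra e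
      exact h ⟨B, C, hB0, e, CL.Hcy.autInv_iff.mp hB, CL.Hcy.autInv_iff.mp hC, h1, h2⟩
    rw [hC0, sup_bot_eq] at h2
    rw [← h4, h2, top_inf_eq] at h5
    rcases h5 D (CL.Hcy.autInv_iff.mpr hD) (fun b hb => CL.Hcy.mem_Om_bot.mpr (hDp b hb)) with e | e
    · exact Or.inl e
    · exact Or.inr fun a => by rw [e, CL.Hcy.mem_Om_bot]
  · rintro h ⟨B, C, hB0, hC0, hB, hC, h1, -⟩
    have key : ∀ B : Subgroup A, B ≠ ⊥ → (∀ x ∈ X, B.map x.toMonoidHom = B) →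
        ∀ a : A, a ^ p = 1 → a ∈ B := by
      intro B hB0 hB a ha
      rcases h (B ⊓ CL.Hcy.Om p ⊥) (CL.Hcy.autInv_iff.mp ((CL.Hcy.autInv_iff.mpr hB).inf
        (CL.Hcy.autInv_Om _ (CL.Hcy.autInv_bot X)))) (fun b hb => CL.Hcy.mem_Om_bot.mp hb.2)
        with e | e
      · obtain ⟨x, hx, hxp⟩ := CL.PN.exists_orderOf_eq_prime (hA.to_subgroup _) hB0
        have h2 : x ∈ B ⊓ CL.Hcy.Om p ⊥ :=
          ⟨hx, CL.Hcy.mem_Om_bot.mpr (by rw [← hxp, pow_orderOf_eq_one])⟩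
        rw [e, Subgroup.mem_bot] at h2
        rw [h2, orderOf_one] at hxp
        exact (hp.one_lt.ne hxp).elim
      · exact ((e a).mpr ha).1
    obtain ⟨x, hx, hxp⟩ := CL.PN.exists_orderOf_eq_prime (hA.to_subgroup _) hB0
    have h2 : x ∈ B ⊓ C := ⟨hx, key C hC0 hC x (by rw [← hxp, pow_orderOf_eq_one])⟩
    rw [h1, Subgroup.mem_bot] at h2
    rw [h2, orderOf_one] at hxp
    exact hp.one_lt.ne hxp

end Cfsg.Agent.S3775
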