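import Cfsg.Statements.S3777
import Mathlib
import Cfsg.Agent.BLK.STCover

set_option autoImplicit false
open Cfsg

namespace Cfsg.Agent.S3777

section

open Subgroup
open scoped commutatorElement

universe u

variable {p : ℕ} [hp : Fact p.Prime] {G : Type u} [Group G]

theorem exists_notMem {A B : Subgroup G} (hA : A ≠ ⊤) (hB : B ≤ A ∨ B ≠ ⊤) :
    ∃ x, x ∉ A ∧ x ∉ B := by
  obtain ⟨a, -, ha⟩ := SetLike.exists_of_lt hA.lt_top
  rcases hB with hB | hB
  · exact ⟨a, ha, fun h => ha (hB h)⟩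
  obtain ⟨b, -, hb⟩ := SetLike.exists_of_lt hB.lt_top
  by_contra! h
  have h1 : b ∈ A := by by_contra e; exact hb (h b e)
  exact hb ((mul_mem_cancel_left (h a ha)).1 (h _ fun e => ha ((mul_mem_cancel_right h1).1 e)))

theorem comm_of {H : Subgroup G} [H.Normal] (hH : H.index = p) {x : G} (hx : x ∉ H) {Q : Type*}
    [Group Q] (f : G →* Q) {q : Q} (h1 : ∀ h ∈ H, Commute q (f h)) (h2 : Commute q (f x)) (g : G) :
    Commute q (f g) := by
  obtain ⟨i, hi⟩ := mem_zpowers_of_prime_card (G := G ⧸ H) (p := p) hH (g := x)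
    (by rwa [Ne, QuotientGroup.eq_one_iff]) (g' := g)
  have : (x ^ i)⁻¹ * g ∈ H := QuotientGroup.eq.1 hi
  have := (h2.zpow_right i).mul_right (h1 _ this)
  rwa [← map_zpow, ← map_mul, mul_inv_cancel_left] at this

/-- The elements of `H` that are central modulo `H'`. -/
def Y (H : Subgroup G) [H.Normal] : Subgroup H :=
  ((center (G ⧸ ⁅H, H⁆)).comap (QuotientGroup.mk' _)).subgroupOf H

theorem comm_mk (H : Subgroup G) [H.Normal] {a b : G} (ha : a ∈ H) (hb : b ∈ H) :
    Commute (QuotientGroup.mk' ⁅H, H⁆ a) (QuotientGroup.mk' ⁅H, H⁆ b) := by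
  rw [← commutatorElement_eq_one_iff_commute, ← map_commutatorElement]
  exact (QuotientGroup.eq_one_iff _).2 (commutator_mem_commutator ha hb)

theorem mem_Y {H : Subgroup G} [H.Normal] (hH : H.index = p) {x : G} (hx : x ∉ H) {h : H}
    (hc : Commute (h : G) x) : h ∈ Y H := mem_center_iff.2 fun g => by
  obtain ⟨g, rfl⟩ := QuotientGroup.mk'_surjective _ g
  exact (comm_of hH hx _ (fun k hk => comm_mk H h.2 hk) (hc.map _) g).symm

variable [Finite G]

theorem card_le {H : Subgroup G} [H.Normal] (hH : H.index = p) :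
    Nat.card (commutator G) ≤ Nat.card (commutator H) * (Y H).index := by
  obtain ⟨x, -, hx⟩ := SetLike.exists_of_lt (show H < ⊤ from
    Ne.lt_top fun e => hp.out.ne_one (by rw [← hH, e, index_top]))
  set π := QuotientGroup.mk' ⁅H, H⁆
  have hm : ∀ h ∈ H, ⁅h, x⁆ ∈ H := fun h hh => by
    rw [commutatorElement_def, mul_assoc h, mul_assoc h]
    exact mul_mem hh (Normal.conj_mem inferInstance _ (inv_mem hh) x)
  let φ : H →* G ⧸ ⁅H, H⁆ := MonoidHom.mk' (fun h => π ⁅(h : G), x⁆) fun a b => by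
    have h1 := comm_mk H a.2 (hm _ b.2)
    have h2 := comm_mk H (hm _ a.2) (hm _ b.2)
    rw [h2.eq, ← mul_inv_cancel_right (π ⁅(b : G), x⁆) (π a), ← h1.eq, ← map_inv, ← map_mul,
      ← map_mul, ← map_mul]
    congr 1
    simp only [coe_mul, commutatorElement_def]
    group
  have hN : (φ.range.comap π).Normal := by
    refine normalizer_eq_top_iff.1 ((CL.PG.isCoatom_of_index_eq_prime hp.out hH).2 _
      (lt_of_le_of_ne (fun a ha => mem_normalizer_fintype ?_) fun e => hx (e ▸ mem_normalizer_fintype ?_)))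
    · rintro n ⟨h, hh⟩
      refine ⟨h, ?_⟩
      rw [map_mul, map_mul, map_inv, ← hh]
      exact eq_mul_inv_of_mul_eq (comm_mk H ha (hm _ h.2)).eq.symm
    · rintro n ⟨h, hh⟩
      refine ⟨⟨_, Normal.conj_mem inferInstance _ h.2 x⟩, ?_⟩
      rw [map_mul, map_mul, ← hh]
      change π _ = π x * π _ * π _
      rw [← map_mul, ← map_mul]
      congr 1
      simp only [commutatorElement_def]
      group
  have h1 : commutator G ≤ φ.range.comap π := by
    have key : ∀ a b, ⁅a, b⁆ ∈ φ.range.comap π ↔ Commute (QuotientGroup.mk' (φ.range.comap π) a)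
        (QuotientGroup.mk' (φ.range.comap π) b) := fun a b => by
      rw [← commutatorElement_eq_one_iff_commute, ← map_commutatorElement]
      exact (QuotientGroup.eq_one_iff _).symm
    have h2 : ∀ a ∈ H, ∀ b, Commute (QuotientGroup.mk' (φ.range.comap π) a)
        (QuotientGroup.mk' (φ.range.comap π) b) := fun a ha =>
      comm_of hH hx _ (fun b hb => (key a b).1 ⟨1, by
        rw [map_one, map_commutatorElement, (comm_mk H ha hb).commutator_eq]⟩)
        ((key a x).1 ⟨⟨a, ha⟩, rfl⟩)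
    refine commutator_le.2 fun a _ b _ => (key a b).2 (comm_of hH hx _ (fun c hc => (h2 c hc a).symm)
      (comm_of hH hx _ (fun c hc => (h2 c hc x).symm) rfl a).symm b)
  refine (card_le_of_le h1).trans ?_
  rw [← Nat.card_congr (equivMapOfInjective _ _ H.subtype_injective).toEquiv.symm,
    map_subtype_commutator]
  refine (QuotientGroup.card_preimage_mk _ (φ.range : Set (G ⧸ ⁅H, H⁆))).trans_le
    (Nat.mul_le_mul_left _ (((index_ker φ).symm.trans_le (index_antitone fun h hh => ?_))))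
  change π _ = 1
  rw [map_commutatorElement, commutatorElement_eq_one_iff_mul_comm]
  exact (mem_center_iff.1 hh _).symm

omit [Finite G] in
theorem index_eq (H : Subgroup G) (h : H) :
    (centralizer {h}).index = (centralizer {(h : G)}).relIndex H := by
  congr 1
  ext k
  simp [mem_subgroupOf, mem_centralizer_singleton_iff, Subtype.ext_iff]

omit hp in
theorem relIndex_le (K H : Subgroup G) : K.relIndex H ≤ K.index := by
  rw [← relIndex_top_right]
  exact relIndex_le_of_le_right le_top index_ne_zero_of_finite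

theorem index_Y_le {H : Subgroup G} [H.Normal] (hH : H.index = p) {x : G} (hx : x ∉ H) :
    (Y H).index ≤ (centralizer {x}).index :=
  (index_antitone (K := Y H) (H := (centralizer {x}).subgroupOf H) fun _ hh =>
    mem_Y hH hx (mem_centralizer_singleton_iff.1 hh)).trans (relIndex_le _ _)

omit [Finite G] in
theorem index_mul {H : Subgroup G} [H.Normal] (hH : H.index = p) {h : H} (hh : h ∉ Y H) :
    (centralizer {h}).index * p = (centralizer {(h : G)}).index := by
  rw [index_eq, ← hH, relIndex_mul_index fun x hx => ?_]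
  by_contra e
  exact hh (mem_Y hH e (mem_centralizer_singleton_iff.1 hx).symm)

theorem third (hG : IsPGroup p G) (hc : commutator G ≠ ⊥) {A B : Subgroup G} (hA : A ≠ ⊤)
    (hB : B ≤ A ∨ B ≠ ⊤) : ∃ H A' : Subgroup G, H.Normal ∧ H.index = p ∧ A ≤ A' ∧ ¬ H ≤ A' ∧
      (∀ h ∈ H, h ∈ B → h ∈ A') ∧ ∃ x, x ∉ H ∧ x ∉ A' ∧ (B ≤ A ∨ 3 ≤ B.index → x ∉ B) := by
  have hom : ∀ A : Subgroup G, A ≠ ⊤ → ∃ α : G →* Multiplicative (ZMod p), A ≤ α.ker ∧
      IsCoatom α.ker := fun A hA => by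
    obtain ⟨K, hK, h⟩ := (eq_top_or_exists_le_coatom A).resolve_left hA
    have := CL.PG.coatom_normal hG hK
    obtain ⟨α, rfl⟩ := CL.ST.exists_hom_ker hG hK
    exact ⟨α, h, hK⟩
  obtain ⟨α, h1, hα⟩ := hom A hA
  obtain ⟨μ, hμ, m, hm, hmα, h2⟩ : ∃ μ : G →* Multiplicative (ZMod p), IsCoatom μ.ker ∧
      ∃ m ∈ μ.ker, m ∉ α.ker ∧ (B ≤ α.ker ∨ B ≤ μ.ker ∧ ¬ B ≤ A) := by
    by_cases h : B ≤ α.ker
    · obtain ⟨m, -, hm⟩ := SetLike.exists_of_lt hα.1.lt_top
      obtain ⟨μ, h2, hμ⟩ := hom (zpowers m) fun e => hc (by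
        have := isCyclic_iff_exists_zpowers_eq_top.2 ⟨m, e⟩
        exact (commutator_eq_bot_iff_center_eq_top G).2 (center_eq_top_iff.2 inferInstance))
      exact ⟨μ, hμ, m, h2 (mem_zpowers m), hm, Or.inl h⟩
    · obtain ⟨μ, h2, hμ⟩ := hom B (hB.resolve_left fun e => h (e.trans h1))
      obtain ⟨m, hm, hm'⟩ := SetLike.not_le_iff_exists.1 h
      exact ⟨μ, hμ, m, h2 hm, hm', Or.inr ⟨h2, fun e => h (e.trans h1)⟩⟩
  obtain ⟨a, ha, haμ⟩ : ∃ a ∈ α.ker, a ∉ μ.ker := by
    by_contra! h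
    exact hmα ((hα.le_iff.1 h).resolve_left hμ.1 ▸ hm)
  have hs : ∀ β : G →* Multiplicative (ZMod p), ∀ g, β g ≠ 1 → Function.Surjective β :=
    fun β g hg => MonoidHom.range_eq_top.1 (((β.range.eq_bot_or_eq_top_of_prime_card (hp := by
      simpa using hp))).resolve_left fun e => hg (mem_bot.1 (e ▸ ⟨g, rfl⟩)))
  rw [MonoidHom.mem_ker] at hm hmα ha haμ
  have h3 : ∀ g, g ∈ (α / μ).ker ↔ α g = μ g := fun g => by simp [div_eq_one]
  refine ⟨(α / μ).ker, α.ker, inferInstance, ?_, h1, fun h => ?_, fun h hh hb => ?_, ?_⟩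
  · rw [index_ker, MonoidHom.range_eq_top.2 (hs _ m fun e => hmα (((h3 m).1 e).trans hm))]
    simp
  · obtain ⟨i, hi⟩ := mem_zpowers_of_prime_card (p := p) (by simp) haμ (g' := α m)
    have := h ((h3 (a ^ i * m)).2 (by simp [ha, hm, ← hi]))
    simp [ha, hmα] at this
  · rcases h2 with h2 | h2
    · exact h2 hb
    · exact ((h3 h).1 hh).trans (h2.1 hb)
  rcases h2 with h2 | ⟨h2, h4⟩
  · exact ⟨m, fun e => hmα (((h3 m).1 e).trans hm), hmα, fun _ e => hmα (h2 e)⟩
  by_cases h5 : μ.ker ≤ B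
  · have h6 : ∀ a, α a = 1 → μ a ≠ 1 → μ a ≠ α m → ∃ x, x ∉ (α / μ).ker ∧ x ∉ α.ker ∧
        (B ≤ A ∨ 3 ≤ B.index → x ∉ B) := fun a h h' h'' =>
      ⟨a * m, fun e => h'' (by simpa [h, hm] using ((h3 _).1 e).symm), by simpa [h] using hmα,
        fun _ e => h' (by simpa [hm] using h2 e)⟩
    by_cases h7 : μ a = α m
    · by_cases h8 : μ a⁻¹ = α m
      · refine ⟨m, fun e => hmα (((h3 m).1 e).trans hm), hmα, fun h _ => ?_⟩
        have h9 := orderOf_eq_prime (p := 2) (x := μ a)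
          (by rw [pow_two, ← eq_inv_iff_mul_eq_one, ← map_inv, h7, h8]) haμ
        have := orderOf_dvd_natCard (μ a)
        rw [h9, Nat.card_eq_fintype_card, Fintype.card_multiplicative, ZMod.card,
          Nat.prime_dvd_prime_iff_eq Nat.prime_two hp.out] at this
        have := h.resolve_left h4
        rw [le_antisymm h2 h5, CL.PG.coatom_index hG hμ] at this
        omega
      · exact h6 a⁻¹ (by simp [ha]) (by simpa using haμ) h8
    · exact h6 a ha haμ h7
  · obtain ⟨x, h6, h7⟩ := exists_notMem (A := α.ker.subgroupOf μ.ker) (B := B.subgroupOf μ.ker)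
      (fun e => hmα (subgroupOf_eq_top.1 e hm)) (Or.inr fun e => h5 (subgroupOf_eq_top.1 e))
    exact ⟨x, fun e => h6 (((h3 x).1 e).trans x.2), h6, fun _ => h7⟩

/-- The statement proved by induction. -/
def Q (p k : ℕ) (G : Type u) [Group G] : Prop :=
  ∀ A B : Subgroup G, A ≠ ⊤ → B ≤ A ∨ 3 ≤ B.index →
    (∀ x, x ∉ A → x ∉ B → (centralizer {x}).index ≤ p ^ k) →
    Nat.card (commutator G) ≤ p ^ (k * (k + 1) / 2)

theorem step {H : Subgroup G} [H.Normal] (hH : H.index = p) {k : ℕ} (ih : ∀ j < k, Q p j H)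
    {D : Subgroup H} (hD : D ≠ ⊤) (hY : Y H ≤ D ∨ 3 ≤ (Y H).index ∨ k = 0 ∧ Y H ≠ ⊤)
    (h : ∀ x : H, x ∉ D → (centralizer {(x : G)}).index ≤ p ^ k) :
    ∃ j, k = j + 1 ∧ Nat.card (commutator H) ≤ p ^ (j * (j + 1) / 2) := by
  rcases k with _ | j
  · obtain ⟨x, h1, h2⟩ := exists_notMem hD (hY.imp_right fun h e => by simp [e] at h)
    have h3 := (index_mul hH h2).trans_le (h x h1)
    have := hp.out.two_le
    have := (centralizer {x}).index_ne_zero_of_finite
    rw [pow_zero] at h3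
    nlinarith [Nat.pos_of_ne_zero this]
  · refine ⟨j, rfl, ih j (by omega) D (Y H) hD (by simpa using hY) fun x h1 h2 => ?_⟩
    exact Nat.le_of_mul_le_mul_right ((index_mul hH h2).trans_le (h x h1)) hp.out.pos

theorem tri (j : ℕ) : (j + 1) * (j + 1 + 1) / 2 = j * (j + 1) / 2 + (j + 1) := by
  rw [← Nat.add_mul_div_right _ _ two_pos]
  congr 1
  ring

theorem main (k : ℕ) : ∀ (G : Type u) [Group G] [Finite G], IsPGroup p G → Q p k G := by
  induction k using Nat.strong_induction_on with | _ k ih => ?_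
  intro G _ _
  induction hn : Nat.card G using Nat.strong_induction_on generalizing G with | _ n ihn => ?_
  intro hG A B hA hB h
  have hp1 := hp.out.one_le
  by_cases hc : commutator G = ⊥
  · simpa [hc] using Nat.one_le_pow _ _ hp1
  obtain ⟨H, A', _, hH, h1, h2, h3, x, h4, h5, h6⟩ := third hG hc hA
    (hB.imp_right fun h e => by simp [e] at h)
  have h7 := (index_Y_le hH h4).trans (h x (fun e => h5 (h1 e)) (h6 hB))
  have hD : A'.subgroupOf H ≠ ⊤ := fun e => h2 (subgroupOf_eq_top.1 e)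
  have h8 : ∀ x : H, x ∉ A'.subgroupOf H → (centralizer {(x : G)}).index ≤ p ^ k :=
    fun x hx => h x (fun e => hx (h1 e)) fun e => hx (h3 _ x.2 e)
  have h9 : ∀ x : H, x ∉ A'.subgroupOf H → (centralizer {x}).index ≤ p ^ k :=
    fun x hx => (index_eq H x).trans_le ((relIndex_le _ _).trans (h8 x hx))
  have hHp := hG.to_subgroup H
  refine (card_le hH).trans ?_
  by_cases hY : Y H = ⊤
  · rw [hY, index_top, mul_one]
    refine ihn _ ?_ H rfl hHp _ ⊥ hD (Or.inl bot_le) fun x hx _ => h9 x hx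
    rw [← hn, ← H.card_mul_index, hH]
    exact (Nat.lt_mul_iff_one_lt_right Nat.card_pos).2 hp.out.one_lt
  by_cases hY' : Y H ≤ A'.subgroupOf H ∨ 3 ≤ (Y H).index ∨ k = 0 ∧ Y H ≠ ⊤
  · obtain ⟨j, rfl, hj⟩ := step hH (fun j hj => ih j hj H hHp) hD hY' h8
    rw [tri, pow_add]
    exact Nat.mul_le_mul hj h7
  push Not at hY'
  obtain ⟨j, rfl⟩ := Nat.exists_eq_add_one.2 (Nat.pos_of_ne_zero fun e => hY (hY'.2.2 e))
  have hp2 := hp.out.two_le
  suffices Nat.card (commutator H) ≤ p ^ (j * (j + 1) / 2 + j) by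
    rw [tri, ← add_assoc, pow_succ]
    exact Nat.mul_le_mul this (by omega)
  by_cases hc' : commutator H = ⊥
  · simpa [hc'] using Nat.one_le_pow _ _ hp1
  obtain ⟨K, D, _, hK, k1, k2, k3, y, k4, k5, -⟩ := third hHp hc' hD (Or.inr hY)
  have k7 := (index_Y_le hK k4).trans (h9 y fun e => k5 (k1 e))
  have hE : D.subgroupOf K ≠ ⊤ := fun e => k2 (subgroupOf_eq_top.1 e)
  have k8 : ∀ x : K, x ∉ D.subgroupOf K → (centralizer {(x : H)}).index ≤ p ^ j := fun x hx =>
    Nat.le_of_mul_le_mul_right ((index_mul hH fun e => hx (k3 _ x.2 e)).trans_le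
      (h8 x fun e => hx (k1 e))) hp.out.pos
  have hKp := hHp.to_subgroup K
  refine (card_le hK).trans ?_
  by_cases hZ : Y K ≤ D.subgroupOf K ∨ 3 ≤ (Y K).index ∨ j = 0 ∧ Y K ≠ ⊤
  · obtain ⟨i, rfl, hi⟩ := step hK (fun i hi => ih i (by omega) K hKp) hE hZ k8
    refine (Nat.mul_le_mul hi k7).trans ?_
    rw [← pow_add, tri]
    exact Nat.pow_le_pow_right hp1 (by omega)
  push Not at hZ
  rw [pow_add]
  refine Nat.mul_le_mul (ih j (by omega) K hKp _ ⊥ hE (Or.inl bot_le) fun x hx _ =>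
    (index_eq K x).trans_le ((relIndex_le _ _).trans (k8 x hx))) ?_
  rcases j with _ | j
  · simp [hZ.2.2 rfl]
  · exact (show _ ≤ p by omega).trans (Nat.le_self_pow (by omega) p)

end

/-- Vaughan-Lee's Theorem: if G is a finite p-group in which every conjugacy class has at most p^b elements (every element has centralizer of index at most p^b), then the derived subgroup of G has order at most p^(b(b+1)/2). -/
theorem result {G : Type*} [Group G] [Finite G] {p : ℕ} [Fact p.Prime] (hG : IsPGroup p G) (b : ℕ) (hb : ∀ x : G, (Subgroup.centralizer ({x} : Set G)).index ≤ p ^ b) : Nat.card (commutator G) ≤ p ^ (b * (b + 1) / 2) := by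
  cases subsingleton_or_nontrivial G
  · rw [Subsingleton.elim (commutator G) ⊥, Subgroup.card_bot]
    exact Nat.one_le_pow _ _ (Fact.out : p.Prime).pos
  exact main b G hG ⊥ ⊥ bot_ne_top (Or.inl le_rfl) fun x _ _ => hb x

end Cfsg.Agent.S3777
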