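import Cfsg.Statements.S3778
import Cfsg.Agent.FGS.IterComm
import Cfsg.Agent.FGS.FiberCount

set_option autoImplicit false
open Cfsg

namespace Cfsg.Agent.S3778

/-- If G is a finite p-group in which every conjugacy class has at most p^b elements (every element has centralizer of index at most p^b), then G is abelian when b = 0, and when b ≥ 1 its nilpotency class c satisfies (c − 1)(p − 1) < bp, that is c < bp/(p − 1) + 1, and hence c ≤ 2b. -/
theorem result {G : Type*} [Group G] [Finite G] {p : ℕ} [Fact p.Prime] (hG : IsPGroup p G) (b : ℕ) (hb : ∀ x : G, (Subgroup.centralizer ({x} : Set G)).index ≤ p ^ b) : ∃ c : ℕ, (⊤ : Subgroup G).lowerCentralSeries c = ⊥ ∧ (b ≠ 0 → (c - 1) * (p - 1) < b * p ∧ c ≤ 2 * b) ∧ (b = 0 → c ≤ 1) := by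
  classical
  have hp : p.Prime := Fact.out
  have := hG.isNilpotent
  have := Fintype.ofFinite G
  let γ := (⊤ : Subgroup G).lowerCentralSeries
  let C : ℕ → Subgroup G := fun i => (Subgroup.centralizer
    ((γ i).map (QuotientGroup.mk' (γ (i + 2))) : Set (G ⧸ γ (i + 2)))).comap
      (QuotientGroup.mk' (γ (i + 2)))
  have hC : ∀ i x, x ∈ C i ↔ ∀ y ∈ γ i, y * x * y⁻¹ * x⁻¹ ∈ γ (i + 2) := by
    intro i x
    simp only [C, Subgroup.mem_comap, Subgroup.mem_centralizer_iff, Subgroup.coe_map,
      Set.forall_mem_image, SetLike.mem_coe]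
    refine forall₂_congr fun y _ => ?_
    rw [← QuotientGroup.eq_one_iff, ← mul_inv_eq_one]
    simp [mul_assoc]
  have key : ∀ x : G, ∀ t j, p ^ (∑ i ∈ Finset.range t, if x ∈ C (j + i) then 0 else 1) ≤
      (Subgroup.centralizer ({x} : Set G)).relIndex (γ j) := by
    intro x t
    induction t with
    | zero => intro j; exact Nat.pos_of_ne_zero Subgroup.index_ne_zero_of_finite
    | succ t ih =>
      intro j
      have h1 : γ (j + 1) ≤ γ j := Subgroup.lowerCentralSeries_antitone _ (Nat.le_succ j)
      rw [Finset.sum_range_succ', pow_add, ← Subgroup.inf_relIndex_right,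
        ← Subgroup.relIndex_mul_relIndex _ (Subgroup.centralizer {x} ⊓ γ j ⊔ γ (j + 1)) _
          le_sup_left (sup_le inf_le_right h1)]
      apply Nat.mul_le_mul
      · have h2 := ih (j + 1)
        simp only [add_assoc, add_comm 1] at h2
        refine h2.trans ((Subgroup.relIndex_le_of_le_left inf_le_left
          Subgroup.index_ne_zero_of_finite).trans (Subgroup.relIndex_le_of_le_right le_sup_right
            Subgroup.index_ne_zero_of_finite))
      · split_ifs with h
        · exact Nat.pos_of_ne_zero Subgroup.index_ne_zero_of_finite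
        · rw [pow_one]
          refine Nat.le_of_dvd (Nat.pos_of_ne_zero Subgroup.index_ne_zero_of_finite)
            (CL.Cnt.dvd_relIndex_of_not_le (hG.to_subgroup _) fun hh => h ((hC _ _).mpr ?_))
          intro y hy
          obtain ⟨u, hu, v, hv, rfl⟩ := Subgroup.mem_sup_of_normal_right.mp (hh hy)
          have h3 : u * x = x * u := Subgroup.mem_centralizer_singleton_iff.mp hu.1
          have h4 : u * v * x * (u * v)⁻¹ * x⁻¹ = u * (v * x * v⁻¹ * x⁻¹) * u⁻¹ := by
            have : x⁻¹ * u⁻¹ = u⁻¹ * x⁻¹ := by rw [← mul_inv_rev, ← mul_inv_rev, h3]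
            simp only [mul_assoc, mul_inv_rev, this]
          rw [h4]
          exact (inferInstance : (γ (j + 2)).Normal).conj_mem _
            (Subgroup.commutator_mem_commutator hv (Subgroup.mem_top x)) u
  have h1 : ∀ x : G, (∑ i ∈ Finset.range (Group.nilpotencyClass G - 1),
      if x ∈ C i then 0 else 1) ≤ b := by
    intro x
    have h := key x (Group.nilpotencyClass G - 1) 0
    simp only [zero_add] at h
    exact (Nat.pow_le_pow_iff_right hp.one_lt).mp
      (h.trans ((Subgroup.relIndex_top_right _).le.trans (hb x)))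
  have h2 : ∀ i ∈ Finset.range (Group.nilpotencyClass G - 1),
      (p - 1) * Nat.card G ≤ p * ∑ x : G, if x ∈ C i then 0 else 1 := by
    intro i hi
    have h3 : C i ≠ ⊤ := by
      intro h
      have h4 : γ (i + 1) ≠ ⊥ := fun h5 => by
        have := Subgroup.lowerCentralSeries_eq_bot_iff_nilpotencyClass_le.mp h5
        have := Finset.mem_range.mp hi
        omega
      exact (CL.PN.commutator_top_lt _ h4).not_ge (Subgroup.commutator_le.mpr fun y hy x _ =>
        (hC i x).mp (h ▸ Subgroup.mem_top x) y hy)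
    have h4 : p * Nat.card (C i) ≤ Nat.card G := by
      rw [← (C i).card_mul_index, mul_comm, ← Subgroup.relIndex_top_right]
      exact Nat.mul_le_mul_left _ (Nat.le_of_dvd (Nat.pos_of_ne_zero
        Subgroup.index_ne_zero_of_finite) (CL.Cnt.dvd_relIndex_of_not_le (hG.to_subgroup _)
          fun hh => h3 (top_le_iff.mp hh)))
    have h5 : (∑ x : G, if x ∈ C i then 0 else 1) + Nat.card (C i) = Nat.card G := by
      rw [Nat.card_eq_fintype_card, Fintype.card_subtype, Finset.card_filter,
        ← Finset.sum_add_distrib, Nat.card_eq_fintype_card, ← Finset.card_univ,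
        Finset.card_eq_sum_ones]
      refine Finset.sum_congr rfl fun x _ => ?_
      split_ifs <;> rfl
    obtain ⟨q, rfl⟩ : ∃ q, p = q + 1 := ⟨p - 1, by have := hp.pos; omega⟩
    rw [Nat.add_sub_cancel]
    nlinarith
  have h3 := Finset.sum_le_sum h2
  rw [Finset.sum_const, Finset.card_range, smul_eq_mul, ← Finset.mul_sum, Finset.sum_comm] at h3
  have hpos : 0 < Nat.card G := Nat.card_pos
  have h4 : b ≠ 0 → (Group.nilpotencyClass G - 1) * (p - 1) < b * p := by
    intro hb0
    have h5 : (∑ x : G, ∑ i ∈ Finset.range (Group.nilpotencyClass G - 1),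
        if x ∈ C i then 0 else 1) < ∑ x : G, b := by
      refine Finset.sum_lt_sum (fun x _ => h1 x) ⟨1, Finset.mem_univ _, ?_⟩
      simp only [Subgroup.one_mem, if_true, Finset.sum_const_zero]
      omega
    rw [Finset.sum_const, Finset.card_univ, ← Nat.card_eq_fintype_card, smul_eq_mul] at h5
    have h6 := h3.trans_lt (Nat.mul_lt_mul_of_pos_left h5 hp.pos)
    apply Nat.lt_of_mul_lt_mul_right (a := Nat.card G)
    calc _ = (Group.nilpotencyClass G - 1) * ((p - 1) * Nat.card G) := by ring
      _ < _ := h6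
      _ = _ := by ring
  refine ⟨Group.nilpotencyClass G, Subgroup.lowerCentralSeries_nilpotencyClass,
    fun hb0 => ⟨h4 hb0, ?_⟩, ?_⟩
  · have h5 := h4 hb0
    obtain ⟨q, rfl⟩ : ∃ q, p = q + 2 := ⟨p - 2, by have := hp.two_le; omega⟩
    by_contra h6
    have h7 : 2 * b ≤ Group.nilpotencyClass G - 1 := by omega
    have h8 := (Nat.mul_le_mul_right (q + 1) h7).trans_lt h5
    nlinarith
  · rintro rfl
    have h5 : (∑ x : G, ∑ i ∈ Finset.range (Group.nilpotencyClass G - 1),
        if x ∈ C i then 0 else 1) = 0 := Finset.sum_eq_zero fun x _ => Nat.le_zero.mp (h1 x)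
    rw [h5, mul_zero, Nat.le_zero, mul_eq_zero, mul_eq_zero] at h3
    have := hp.two_le
    omega

end Cfsg.Agent.S3778
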