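import Cfsg.Statements.S3791
import Mathlib
import Cfsg.Agent.SOLV.PLength
import Cfsg.Agent.SOLV.ProductsAbelian

set_option autoImplicit false
open Cfsg

namespace Cfsg.Agent.S3791

universe u

theorem derived_add {G : Type*} [Group G] (N : Subgroup G) [N.Normal] {a b : ℕ}
    (h1 : derivedSeries (G ⧸ N) a = ⊥) (h2 : derivedSeries N b = ⊥) :
    derivedSeries G (a + b) = ⊥ := by
  have h3 : derivedSeries G a ≤ N := by
    rw [← map_derivedSeries_eq (QuotientGroup.mk'_surjective N), CL.map_mk'_eq_bot_iff] at h1
    exact h1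
  have h4 : ∀ k, derivedSeries G (a + k) ≤ (derivedSeries N k).map N.subtype := by
    intro k
    induction k with
    | zero => simpa [← MonoidHom.range_eq_map] using h3
    | succ k ih =>
      rw [← add_assoc, derivedSeries_succ, derivedSeries_succ, Subgroup.map_commutator]
      exact Subgroup.commutator_mono ih ih
  have := h4 b
  rwa [h2, Subgroup.map_bot, le_bot_iff] at this

theorem aux {ι : Type} [Fintype ι] [DecidableEq ι] (q d : ι → ℕ) (hq : ∀ i, (q i).Prime)
    (hinj : Function.Injective q) (G : Type u) [Group G] [Finite G] :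
    Group.IsSolvable G → ∀ l : ι → ℕ,
      (∀ t : ℕ, t.Prime → t ∣ Nat.card G → ∃ i, q i = t) →
      (∀ i, ∀ S : Sylow (q i) G, derivedSeries (S : Subgroup G) (d i) = ⊥) →
      (∀ i, Cfsg.PLengthLE (q i) (l i) G) → derivedSeries G (∑ i, d i * l i) = ⊥ := by
  induction hn : Nat.card G using Nat.strong_induction_on generalizing G with
  | _ n ih =>
  subst hn
  intro hs l hc hd hl
  have quot : ∀ (N : Subgroup G) [N.Normal], N ≠ ⊥ → ∀ l' : ι → ℕ,
      (∀ i, Cfsg.PLengthLE (q i) (l' i) (G ⧸ N)) →
      derivedSeries (G ⧸ N) (∑ i, d i * l' i) = ⊥ := by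
    intro N _ hN l' hl'
    refine ih _ (CL.card_quotient_lt hN) (G ⧸ N) rfl inferInstance l'
      (fun t ht h => hc t ht (h.trans (CL.card_quotient_dvd _))) (fun i T => ?_) hl'
    have := Fact.mk (hq i)
    obtain ⟨S, rfl⟩ := Sylow.mapSurjective_surjective (QuotientGroup.mk'_surjective N) (q i) T
    have := map_derivedSeries_eq
      ((QuotientGroup.mk' N).subgroupMap_surjective (S : Subgroup G)) (d i)
    rw [hd i S, Subgroup.map_bot] at this
    exact this.symm
  rcases subsingleton_or_nontrivial G with hG | hG
  · exact Subsingleton.elim _ _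
  obtain ⟨p, hp, hOp⟩ := CL.exists_pCore_ne_bot G
  have := Fact.mk hp
  have hpd : p ∣ Nat.card G := by
    by_contra h
    exact hOp (CL.pCore_eq_bot_of_coprime ((Nat.Prime.coprime_iff_not_dvd hp).2 h).symm)
  obtain ⟨i, rfl⟩ := hc p hp hpd
  by_cases h0 : Cfsg.pPrimeCore (q i) G = ⊥
  · obtain ⟨k, hk⟩ : ∃ k, l i = k + 1 := by
      refine Nat.exists_eq_succ_of_ne_zero fun e => ?_
      have := hl i
      rw [e, CL.pLengthLE_zero_iff] at this
      exact (Nat.Prime.coprime_iff_not_dvd hp).1 this.symm hpd
    have h1 := quot (Cfsg.pPrimePCore (q i) G) (by rwa [CL.pPrimePCore_eq_pCore h0])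
      (Function.update l i k) (fun j => by
        by_cases hj : j = i
        · subst hj
          rw [Function.update_self, ← CL.pLengthLE_succ_iff, ← hk]
          exact hl j
        · rw [Function.update_of_ne hj]
          have := Fact.mk (hq j)
          exact CL.PLengthLE.quotient (hl j) _)
    have h2 : derivedSeries (Cfsg.pPrimePCore (q i) G) (d i) = ⊥ := by
      obtain ⟨S⟩ : Nonempty (Sylow (q i) G) := inferInstance
      have hle : Cfsg.pPrimePCore (q i) G ≤ S := by
        rw [CL.pPrimePCore_eq_pCore h0]; exact CL.pCore_le_sylow S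
      have := map_derivedSeries_le_derivedSeries (Subgroup.inclusion hle) (d i)
      rwa [hd i S, le_bot_iff,
        Subgroup.map_eq_bot_iff_of_injective _ (Subgroup.inclusion_injective hle)] at this
    have h3 := derived_add _ h1 h2
    convert h3 using 2
    rw [← Finset.add_sum_erase _ _ (Finset.mem_univ i),
      ← Finset.add_sum_erase _ _ (Finset.mem_univ i), Function.update_self, hk]
    have : ∑ x ∈ Finset.univ.erase i, d x * Function.update l i k x =
        ∑ x ∈ Finset.univ.erase i, d x * l x :=
      Finset.sum_congr rfl fun x hx => by rw [Function.update_of_ne (Finset.ne_of_mem_erase hx)]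
    rw [this]
    ring
  · have h1 := quot _ h0 l (fun j => have := Fact.mk (hq j); CL.PLengthLE.quotient (hl j) _)
    have h2 := quot _ hOp l (fun j => have := Fact.mk (hq j); CL.PLengthLE.quotient (hl j) _)
    rw [← map_derivedSeries_eq (QuotientGroup.mk'_surjective _), CL.map_mk'_eq_bot_iff] at h1 h2
    rw [eq_bot_iff, ← CL.pCore_inf_pPrimeCore (p := q i)]
    exact le_inf h2 h1

/-- The Hall–Higman bound on derived length: let G be a finite solvable group, let p₁, …, p_r be distinct primes that include every prime dividing the order of G, and suppose that for each i the Sylow p_i-subgroups of G have derived length at most d_i and G has p_i-length at most l_i. Then G has derived length at most Σ d_i l_i. -/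
theorem result {G : Type*} [Group G] [Finite G] (hG : Group.IsSolvable G) (r : ℕ) (q : Fin r → ℕ) (hq : ∀ i, (q i).Prime) (hinj : Function.Injective q) (hcover : ∀ s : ℕ, s.Prime → s ∣ Nat.card G → ∃ i, q i = s) (d l : Fin r → ℕ) (hd : ∀ i, ∀ P : Subgroup G, (haveI := Fact.mk (hq i); ∃ S : Sylow (q i) G, (S : Subgroup G) = P) → derivedSeries ↥P (d i) = ⊥) (hl : ∀ i, Cfsg.PLengthLE (q i) (l i) G) : derivedSeries G (Finset.univ.sum fun i => d i * l i) = ⊥ := by
  exact aux q d hq hinj G hG l hcover (fun i S => hd i _ ⟨S, rfl⟩) hl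

end Cfsg.Agent.S3791
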