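import Cfsg.Statements.S3782
import Cfsg.Agent.FGS.AlperinAut
import Cfsg.Agent.S0012
import Cfsg.Agent.SOLV.FrobeniusNil
import Cfsg.Agent.S3791
import Cfsg.Agent.SOLV.Frattini
import Cfsg.Agent.SOLV.Fitting

set_option autoImplicit false
open Cfsg

namespace Cfsg.Agent.S3782

theorem derived_card {X : Type*} [Group X] [Finite X] [Group.IsSolvable X] {N : ℕ}
    (h : Nat.card X ≤ N) : derivedSeries X N = ⊥ := by
  have key : ∀ k, derivedSeries X k = ⊥ ∨ Nat.card (derivedSeries X k) + k ≤ Nat.card X := by
    intro k
    induction k with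
    | zero => right; simp
    | succ k ih =>
      by_cases hk : derivedSeries X k = ⊥
      · left; rw [derivedSeries_succ, hk, Subgroup.commutator_bot_left]
      · right
        have := CL.card_lt_of_lt (Group.IsSolvable.commutator_lt_of_ne_bot hk)
        have := ih.resolve_left hk
        rw [derivedSeries_succ]
        omega
  refine (key N).resolve_right fun h' => ?_
  have : 0 < Nat.card (derivedSeries X N) := Nat.card_pos
  omega

theorem core_free {p : ℕ} (hp : p.Prime) (B : ℕ) : ∃ l : ℕ, ∀ (G : Type) [Group G] [Finite G],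
    Group.IsSolvable G → ∀ φ : G ≃* G, φ^[p] = id → Nat.card {g // φ g = g} ≤ B →
    (haveI : Fact p.Prime := ⟨hp⟩; Cfsg.pPrimeCore p G = ⊥) → derivedSeries G l = ⊥ := by
  haveI : Fact p.Prime := ⟨hp⟩
  obtain ⟨l, hl⟩ := CL.Krek.exists_derived_bound_pgroup.{0} hp B
  refine ⟨(B ^ (p * 1)).factorial + (l + (CL.Krek.hkk p + 1)), fun G _ _ hs φ hφ hB h0 => ?_⟩
  set P := Cfsg.pCore p G
  have hP : IsPGroup p P := CL.isPGroup_pCore p G
  have hPφ : ∀ x ∈ P, φ x ∈ P := fun x hx =>
    Subgroup.characteristic_iff_le_comap.1 (CL.pCore_characteristic p G) φ hx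
  set Φ := (frattini P).map P.subtype
  have hV : Φ.relIndex P ≤ B ^ (p * 1) := by
    refine (CL.Krek.relIndex_le_pow hp φ.toMonoidHom hφ P Φ hPφ
      (fun x hx => Subgroup.characteristic_iff_le_comap.1 inferInstance φ hx) ?_
      (c := 1) fun x hx => ?_).trans (Nat.pow_le_pow_left hB _)
    · rw [← Subgroup.map_subtype_commutator]
      exact Subgroup.map_mono (@CL.commutator_le_frattini_of_isNilpotent P _ _ hP.isNilpotent)
    · exact ⟨⟨x, hx⟩ ^ p ^ 1, by rw [pow_one]; exact (Cfsg.Agent.S0012.result p hP).2 _, rfl⟩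
  refine Cfsg.Agent.S3791.derived_add P ?_ ?_
  · let f : G →* MulAut (P.map (QuotientGroup.mk' Φ)) :=
      MulAut.conjNormal.comp (QuotientGroup.mk' Φ)
    have hk : f.ker ≤ P := by
      refine CL.le_pCore_of_commutator_le_frattini (CL.centralizer_pCore_le_of_isSolvable h0) ?_
      rw [Subgroup.commutator_le]
      intro x hx g hg
      have := congrArg Subtype.val (DFunLike.congr_fun (MonoidHom.mem_ker.1 hg) ⟨_, x⁻¹, inv_mem hx, rfl⟩)
      have h2 : ((x⁻¹ : G) : G ⧸ Φ) = ((g * x⁻¹ * g⁻¹ : G) : G ⧸ Φ) := this.symm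
      rw [QuotientGroup.eq] at h2
      rwa [inv_inv, ← mul_assoc, ← mul_assoc] at h2
    haveI : Finite (MulAut (P.map (QuotientGroup.mk' Φ))) :=
      Finite.of_injective (fun f : MulAut (P.map (QuotientGroup.mk' Φ)) => f.toEquiv)
        MulEquiv.toEquiv_injective
    refine derived_card ((Nat.le_of_dvd Nat.card_pos (Subgroup.index_dvd_of_le hk)).trans ?_)
    rw [← Subgroup.index_eq_card, Subgroup.index_ker]
    refine (Nat.le_of_dvd Nat.card_pos f.range.card_subgroup_dvd_card).trans ?_
    refine (Nat.card_le_card_of_injective (fun f : MulAut (P.map (QuotientGroup.mk' Φ)) => f.toEquiv)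
        MulEquiv.toEquiv_injective).trans ?_
    rw [Nat.card_perm, CL.card_map_mk'_eq_relIndex]
    exact Nat.factorial_le hV
  · let χ : P →* P := (φ.toMonoidHom.comp P.subtype).codRestrict P fun x => hPφ x x.2
    have h := hl P hP χ (by
      funext x
      apply Subtype.ext
      rw [Function.Semiconj.iterate_right (f := Subtype.val) (ga := χ) (gb := φ)
        (fun _ => rfl) p x, hφ]
      rfl) ((CL.Krek.card_fix_le_of_injective φ.toMonoidHom χ P.subtype P.subtype_injective
        fun _ => rfl).trans hB)
    have h4 : ∀ k, derivedSeries P (l + k) ≤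
        ((⊤ : Subgroup P).lowerCentralSeries l).lowerCentralSeries k := by
      intro k
      induction k with
      | zero => exact Subgroup.derived_le_lower_central l
      | succ k ih =>
        rw [← add_assoc, derivedSeries_succ]
        exact Subgroup.commutator_mono ih (ih.trans (Subgroup.lowerCentralSeries_le_self _ _))
    exact le_bot_iff.1 (h ▸ h4 _)

/-- Alperin's Theorem: for each prime p and each n ≥ 0 there is an integer l such that every finite solvable group admitting an automorphism of order p with exactly p^n fixed points has derived length at most l. -/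
theorem result (p : ℕ) (hp : p.Prime) (n : ℕ) : ∃ l : ℕ, ∀ (G : Type) [Group G] [Finite G], Group.IsSolvable G → ∀ α : MulAut G, orderOf α = p → Nat.card {g : G // α g = g} = p ^ n → derivedSeries G l = ⊥ := by
  haveI : Fact p.Prime := ⟨hp⟩
  obtain ⟨l, hl⟩ := core_free hp (p ^ n)
  refine ⟨l + CL.Krek.hkk p, fun G _ _ hs α hα hfix => ?_⟩
  have hit : (⇑α)^[p] = id := by
    have h1 : ∀ k, (⇑α)^[k] = ⇑(α ^ k) := by
      intro k
      induction k with
      | zero => rfl
      | succ k ih => rw [Function.iterate_succ, ih, pow_succ]; rfl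
    rw [h1, ← hα, pow_orderOf_eq_one]
    rfl
  set K := Cfsg.pPrimeCore p G
  have hK : K.map α.toMonoidHom = K :=
    Subgroup.characteristic_iff_map_eq.1 (CL.pPrimeCore_characteristic p G) α
  refine Cfsg.Agent.S3791.derived_add K ?_ ?_
  · refine hl _ inferInstance (QuotientGroup.congr K K α hK) ?_ ?_
      (CL.pPrimeCore_quotient_pPrimeCore p G)
    · funext q
      obtain ⟨g, rfl⟩ := QuotientGroup.mk_surjective q
      rw [← Function.Semiconj.iterate_right (f := QuotientGroup.mk) (ga := α)
        (gb := QuotientGroup.congr K K α hK) (fun _ => rfl) p g, hit]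
      rfl
    · exact hfix ▸ CL.Krek.card_fix_quotient_le α.toMonoidHom K
        (QuotientGroup.congr K K α hK).toMonoidHom fun _ => rfl
  · have hKα : ∀ x ∈ K, α x ∈ K := fun x hx => hK ▸ ⟨x, hx, rfl⟩
    let χ : K →* K := (α.toMonoidHom.comp K.subtype).codRestrict K fun x => hKα x x.2
    have hfpf : ∀ x : K, χ x = x → x = 1 := by
      intro x hx
      have h1 : orderOf (x : G) ∣ p ^ n := hfix ▸ Subgroup.orderOf_dvd_natCard
        (α.toMonoidHom.eqLocus (MonoidHom.id G)) (congrArg Subtype.val hx)
      rw [← orderOf_eq_one_iff]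
      rw [Subgroup.orderOf_coe] at h1
      exact Nat.eq_one_of_dvd_coprimes ((CL.coprime_card_pPrimeCore p G).pow_right n)
        (orderOf_dvd_natCard x) h1
    have hχ : χ^[p] = id := by
      funext x
      apply Subtype.ext
      rw [Function.Semiconj.iterate_right (f := Subtype.val) (ga := χ) (gb := α)
        (fun _ => rfl) p x, hit]
      rfl
    have hinj : Function.Injective χ := fun x y h => Subtype.ext (α.injective (congrArg Subtype.val h))
    let β : MulAut K := MulEquiv.ofBijective χ (Finite.injective_iff_bijective.1 hinj)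
    haveI : Group.IsNilpotent K := by
      by_cases hβ : β = 1
      · haveI : Subsingleton K := ⟨fun x y => by
          rw [hfpf x (DFunLike.congr_fun hβ x), hfpf y (DFunLike.congr_fun hβ y)]⟩
        infer_instance
      · refine CL.Frob.isNilpotent_of_aut β hfpf ?_
        rw [orderOf_eq_prime (p := p) ?_ hβ]
        · exact hp
        · have h1 : ∀ k, χ^[k] = ⇑(β ^ k) := by
            intro k
            induction k with
            | zero => rfl
            | succ k ih => rw [Function.iterate_succ, ih, pow_succ]; rfl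
          exact MulEquiv.ext fun x => by rw [← h1, hχ]; rfl
    exact le_bot_iff.1 ((CL.Krek.class_le_of_fpf hp χ hχ hfpf (CL.coprime_card_pPrimeCore p G)).2 ▸
      Subgroup.derived_le_lower_central _)

end Cfsg.Agent.S3782
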