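import Cfsg.Statements.S3785
import Mathlib
import Cfsg.Agent.SOLV.Fitting
import Cfsg.Agent.SOLV.Subnormal
import Cfsg.Agent.PLOC.Critical
import Cfsg.Agent.PLOC.NPC
import Cfsg.Agent.SOLV.CoprimeSylow

set_option autoImplicit false
open Cfsg

namespace Cfsg.Agent.S3785

open Subgroup in

/-- Let G be a finite solvable group whose Fitting subgroup F(G) has odd order. If an element g of G commutes with every element of prime order of F(G), then g ∈ F(G). -/
theorem result {G : Type*} [Group G] [Finite G] (hG : Group.IsSolvable G) (hodd : Odd (Nat.card (Cfsg.fittingSubgroup G))) (g : G) (hg : ∀ x ∈ Cfsg.fittingSubgroup G, (orderOf x).Prime → g * x = x * g) : g ∈ Cfsg.fittingSubgroup G := by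
  set F := Cfsg.fittingSubgroup G with hF
  have hFn : F.Normal := CL.fittingSubgroup_normal G
  set X : Set G := {x | x ∈ F ∧ (orderOf x).Prime} with hX
  set C := centralizer X with hC
  have hCn : C.Normal := by
    refine ⟨fun c hc y x hx => ?_⟩
    have hx' : y⁻¹ * x * y ∈ X := by
      refine ⟨by simpa using hFn.conj_mem x hx.1 y⁻¹, ?_⟩
      have : orderOf (y⁻¹ * x * y) = orderOf x := by
        simpa using (MulAut.conj y⁻¹).orderOf_eq x
      rw [this]; exact hx.2
    have := hc _ hx'
    calc x * (y * c * y⁻¹) = y * ((y⁻¹ * x * y) * c) * y⁻¹ := by group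
      _ = y * (c * (y⁻¹ * x * y)) * y⁻¹ := by rw [this]
      _ = _ := by group
  suffices h : C ≤ F from h (fun x hx => (hg x hx.1 hx.2).symm)
  by_contra hne
  have hlt : C ⊓ F < C := lt_of_le_of_ne inf_le_left fun e => hne (e ▸ inf_le_right)
  obtain ⟨M, hMn, h1, h2, h3⟩ := CL.exists_chief_above hlt
  have hmin := CL.isMinNormal_map_mk'_of_chief h1 h3
  obtain ⟨q, hq, hqg⟩ := hmin.exists_isPGroup_of_isSolvable inferInstance
  have := Fact.mk hq
  obtain ⟨Q⟩ : Nonempty (Sylow q M) := inferInstance
  set Q' : Subgroup G := (Q : Subgroup M).map M.subtype with hQ'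
  have hQp : IsPGroup q Q' := Q.isPGroup'.map _
  have hQM : Q' ≤ M := map_subtype_le _
  have hquot : IsPGroup q (M ⧸ (C ⊓ F).subgroupOf M) := by
    obtain ⟨k, hk⟩ := IsPGroup.iff_card.1 hqg
    rw [CL.card_map_mk'_eq_relIndex] at hk
    exact IsPGroup.of_card (n := k) hk
  have hsup : M ≤ (C ⊓ F) ⊔ Q' := by
    have := congrArg (Subgroup.map M.subtype)
      (CL.sup_sylow_eq_top_of_isPGroup_quotient ((C ⊓ F).subgroupOf M) hquot Q)
    rw [Subgroup.map_sup, map_subgroupOf_eq_of_le h1.le, ← MonoidHom.range_eq_map,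
      range_subtype] at this
    exact this.ge
  have hnorm : C ⊓ F ≤ normalizer (Q' : Set G) := by
    refine CL.le_of_forall_isPGroup_le fun r _ P => ?_
    have hPle : (P : Subgroup ↥(C ⊓ F)).map (C ⊓ F).subtype ≤ C ⊓ F := map_subtype_le _
    have hPr : (P : Subgroup ↥(C ⊓ F)).map (C ⊓ F).subtype ≤ Cfsg.pCore r G :=
      CL.le_pCore_of_le_fittingSubgroup (hPle.trans inf_le_right) (P.isPGroup'.map _)
    by_cases hrq : r = q
    · subst hrq
      refine le_trans ?_ le_normalizer
      refine le_trans (le_inf hPr (hPle.trans h1.le)) ?_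
      exact CL.le_map_sylow_of_le_normalizer inf_le_right
        ((CL.isPGroup_pCore r G).to_inf_left) le_normalizer_of_normal Q
    · by_cases hr2 : r = 2
      · subst hr2
        have hb : Cfsg.pCore 2 G = ⊥ := by
          by_contra hb
          obtain ⟨k, hk⟩ := IsPGroup.iff_card.1 (CL.isPGroup_pCore 2 G)
          have hd := Subgroup.card_dvd_of_le (CL.pCore_le_fittingSubgroup (G := G) 2)
          rw [hk] at hd
          rcases k with _ | k
          · exact hb (Subgroup.card_eq_one.1 hk)
          · exact (Nat.not_even_iff_odd.2 hodd)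
              (even_iff_two_dvd.2 ((dvd_pow_self 2 (Nat.succ_ne_zero k)).trans hd))
        rw [hb] at hPr
        exact hPr.trans bot_le
      · refine hPr.trans (le_trans ?_ (centralizer_le_normalizer _))
        rw [le_centralizer_iff]
        refine CL.PG.le_centralizer_of_commute_omega hr2 (CL.isPGroup_pCore r G)
          le_normalizer_of_normal ?_ ?_
        · exact (CL.coprime_card_of_isPGroup hQp
            ((Nat.coprime_primes Fact.out hq).2 hrq)).symm
        · intro a ha y hy hyp
          by_cases hy1 : y = 1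
          · subst hy1; exact Commute.one_right a
          · have hyX : y ∈ X := ⟨CL.pCore_le_fittingSubgroup r hy, by
              rw [orderOf_eq_prime hyp hy1]; exact Fact.out⟩
            exact (h2 (hQM ha) y hyX).symm
  have hQn : Q' ≤ F := by
    have hs : CL.SnIn M Q' := CL.SnIn.of_le_normalizer hQM
      (hsup.trans (sup_le hnorm le_normalizer))
    exact CL.le_fittingSubgroup_of_isSubnormal (hs.isSubnormal hMn.isSubnormal) hQp.isNilpotent
  exact h1.not_ge (le_inf h2 (hsup.trans (sup_le inf_le_right hQn)))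

end Cfsg.Agent.S3785
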