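import Cfsg.Statements.S3786
import Cfsg.Agent.FGS.HHLenD
import Cfsg.Agent.S3784

set_option autoImplicit false
open Cfsg

namespace Cfsg.Agent.S3786

/-- The Hall–Higman bound on p-length. Let p be an odd prime and G a finite p-soluble group whose Sylow p-subgroups have exponent dividing p^e. (a) If p is not of the form 2^k + 1, or if the Sylow 2-subgroups of G are abelian, then G has p-length at most e. (b) In every case G has p-length at most 2e. -/
theorem result {G : Type*} [Group G] [Finite G] {p : ℕ} [Fact p.Prime] (hp : p ≠ 2) (hG : Cfsg.IsPSolvable p G) (e : ℕ) (hexp : ∀ (P : Sylow p G), ∀ x ∈ (P : Subgroup G), x ^ p ^ e = 1) : (((¬ ∃ k : ℕ, p = 2 ^ k + 1) ∨ ∀ S : Sylow 2 G, IsMulCommutative (S : Subgroup G)) → Cfsg.PLengthLE p e G) ∧ Cfsg.PLengthLE p (2 * e) G := by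
  refine ⟨fun h => CL.HHL.pLengthLE_of_noExc e G hG (fun q hq Q l a h1 h2 h3 h4 => ?_)
    (CL.HHL.expLE_of_sylow hexp), CL.HHL.pLengthLE_two_mul hp e G hG (CL.HHL.expLE_of_sylow hexp)⟩
  have hpp : p.Prime := Fact.out
  have key : q = 2 ∧ ∃ k, p = 2 ^ k + 1 := by
    rcases Cfsg.Agent.S3784.result p q (l + 1) a hpp hq.out (by omega) h3 h4 with
      h5 | h5 | ⟨h5, h6⟩
    · exact absurd h5.1 hp
    · exact ⟨h5.1, a, h5.2.2.2⟩
    · have h7 : q ∣ 2 ^ 3 := (dvd_pow_self q h3.ne').trans h6.dvd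
      have h8 : p ∣ 3 ^ 2 := (dvd_pow_self p (Nat.succ_ne_zero l)).trans h5.dvd
      exact ⟨(Nat.prime_dvd_prime_iff_eq hq.out Nat.prime_two).1 (hq.out.dvd_of_dvd_pow h7), 1,
        (Nat.prime_dvd_prime_iff_eq hpp Nat.prime_three).1 (hpp.dvd_of_dvd_pow h8)⟩
  obtain ⟨rfl, hk⟩ := key
  exact CL.HHL.commutator_eq_bot_of_sylow (h.resolve_left (not_not.2 hk)) h2

end Cfsg.Agent.S3786
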