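import Cfsg.Statements.S3787
import Cfsg.Agent.FGS.HHLenD
import Cfsg.Agent.S3784
import Cfsg.Agent.FUS.GroupNormal

set_option autoImplicit false
open Cfsg

namespace Cfsg.Agent.S3787

open CL CL.HH CL.HHL Cfsg Subgroup Module

theorem indep {k V : Type*} [Field k] [AddCommGroup V] [Module k V] {N : Module.End k V} {v : V}
    {n : ℕ} (h0 : N ^ (n + 1) = 0) (hv : (N ^ n) v ≠ 0) (j m : ℕ) (hm : j + m = n + 1) :
    LinearIndependent k fun i : Fin m => (N ^ (j + i)) v := by
  rw [Fintype.linearIndependent_iff]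
  intro g hg i
  induction i using WellFoundedLT.induction with
  | ind i ih =>
  have h1 := congrArg (N ^ (n - (j + i))) hg
  rw [map_sum, map_zero, Finset.sum_eq_single i] at h1
  · rw [map_smul, ← Module.End.mul_apply, ← pow_add, Nat.sub_add_cancel (by omega)] at h1
    exact (smul_eq_zero.1 h1).resolve_right hv
  · intro b _ hb
    rcases lt_or_gt_of_ne hb with h | h
    · rw [ih b h, zero_smul, map_zero]
    · rw [map_smul, ← Module.End.mul_apply, ← pow_add, pow_eq_zero_of_le (by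
        have : (i : ℕ) < b := h
        omega) h0, LinearMap.zero_apply, smul_zero]
  · simp

theorem exists_sub {k V : Type*} [Field k] [AddCommGroup V] [Module k V] [FiniteDimensional k V]
    {N : Module.End k V} {v : V} {n : ℕ} (h0 : N ^ (n + 1) = 0) (hv : (N ^ n) v ≠ 0) :
    ∃ B : Submodule k V, (∀ w ∈ B, N w ∈ B) ∧ finrank k B = n + 1 ∧
      finrank k ↥(B ⊓ LinearMap.ker N) = 1 := by
  set B := Submodule.span k (Set.range fun i : Fin (n + 1) => (N ^ (0 + (i : ℕ))) v)
  have h1 : finrank k B = n + 1 := by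
    rw [finrank_span_eq_card (indep h0 hv 0 (n + 1) (by omega)), Fintype.card_fin]
  have h2 : B.map N = Submodule.span k (Set.range fun i : Fin n => (N ^ (1 + (i : ℕ))) v) := by
    rw [Submodule.map_span]
    refine le_antisymm (Submodule.span_le.2 ?_) (Submodule.span_mono ?_)
    · rintro _ ⟨_, ⟨i, rfl⟩, rfl⟩
      rw [← Module.End.mul_apply, ← pow_succ']
      by_cases hi : (i : ℕ) < n
      · exact Submodule.subset_span ⟨⟨i, hi⟩, by simp [add_comm]⟩
      · rw [pow_eq_zero_of_le (by omega) h0]; exact zero_mem _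
    · rintro _ ⟨i, rfl⟩
      exact ⟨_, ⟨i.castSucc, rfl⟩, by simp [← Module.End.mul_apply, ← pow_succ', add_comm]⟩
  have h3 : B.map N ≤ B := by
    rw [h2]
    refine Submodule.span_mono ?_
    rintro _ ⟨i, rfl⟩
    exact ⟨i.succ, by simp [add_comm]⟩
  refine ⟨B, fun w hw => h3 ⟨w, hw, rfl⟩, h1, ?_⟩
  have h4 := LinearMap.finrank_range_add_finrank_ker (N ∘ₗ B.subtype)
  rw [LinearMap.range_comp, Submodule.range_subtype, h2,
    finrank_span_eq_card (indep h0 hv 1 n (by omega)), Fintype.card_fin, h1, LinearMap.ker_comp,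
    ← Submodule.finrank_map_subtype_eq, Submodule.map_comap_subtype] at h4
  omega

theorem card_comap {A X : Type*} [Group A] [Group X] {f : A →* X} (hf : Function.Injective f)
    {K : Subgroup X} (h : K ≤ f.range) : Nat.card (K.comap f) = Nat.card K := by
  rw [← card_map_of_injective hf, map_comap_eq_self h]

/-- Let G be a finite p-soluble group, p an odd prime not of the form 2^k + 1, and suppose the wreath product C_p ≀ C_p (of order p^(p+1)) is not involved in a Sylow p-subgroup of G: no section of a Sylow p-subgroup is isomorphic to it. Then G has p-length at most 1. -/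
theorem result {G : Type*} [Group G] [Finite G] {p : ℕ} [Fact p.Prime] (hp2 : p ≠ 2) (hnf : (¬ ∃ k : ℕ, p = 2 ^ k + 1)) (hG : Cfsg.IsPSolvable p G) (P : Sylow p G) (hwr : ∀ (W : Type) [Group W] [Finite W], (∃ (B : Subgroup W) (t : W), B.Normal ∧ IsMulCommutative B ∧ (∀ b ∈ B, b ^ p = 1) ∧ Nat.card B = p ^ p ∧ orderOf t = p ∧ t ∉ B ∧ Nat.card W = p ^ (p + 1) ∧ Nat.card ↥(B ⊓ Subgroup.centralizer ({t} : Set W)) = p) → ¬ Cfsg.Involves W ↥(P : Subgroup G)) : Cfsg.PLengthLE p 1 G := by
  have hpp : p.Prime := Fact.out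
  by_contra hk
  obtain ⟨H, _, _, f, hf, h1, h2⟩ := exists_prim hG hk
  have hs := IsPSolvable.of_surjective hG hf
  obtain ⟨C, hC1, hC2⟩ := h2.compl
  have hd : p ∣ Nat.card C := by
    rw [← (isComplement'_of_sup_eq_top_of_inf_eq_bot hC2 hC1).symm.index_eq_card, index_eq_card]
    by_contra hd
    exact h1 (h2.succ (pLengthLE_zero_iff.2 (hpp.coprime_iff_not_dvd.2 hd).symm))
  obtain ⟨t, ht⟩ := exists_prime_orderOf_dvd_card' p hd
  rw [← orderOf_coe] at ht
  have htp : (t : H) ^ p = 1 := by rw [← ht, pow_orderOf_eq_one]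
  have htE : (t : H) ∉ pCore p H := fun h => by
    rw [(hC1.le ⟨h, t.2⟩ : (t : H) = 1), orderOf_one] at ht
    exact hpp.one_lt.ne ht
  have hna : ¬ Ann (h2.sec.rep t) ⊤ p := fun ha => by
    obtain ⟨q, _, Q, k, l, a, -, -, -, -, h3, h4, -⟩ := exists_of_ann (h2.ker_rep hs)
      (IsPSolvable.quotient hs _) (pCore_quotient_pCore p H) (x := ((t : H) : H ⧸ pCore p H))
      (n := 0) (by rw [zero_add, pow_one, ← QuotientGroup.mk_pow, htp, QuotientGroup.mk_one])
      (by rw [pow_zero, pow_one]; exact fun e => htE ((QuotientGroup.eq_one_iff _).1 e))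
      (by rwa [zero_add, pow_one])
    rcases Cfsg.Agent.S3784.result p q (l + 1) a hpp Fact.out (by omega) h3 h4 with
      h5 | h5 | ⟨h5, -⟩
    · exact hp2 h5.1
    · exact hnf ⟨a, h5.2.2.2⟩
    · have h8 : p ∣ 3 ^ 2 := (dvd_pow_self p (Nat.succ_ne_zero l)).trans h5.dvd
      exact hnf ⟨1, (Nat.prime_dvd_prime_iff_eq hpp Nat.prime_three).1 (hpp.dvd_of_dvd_pow h8)⟩
  obtain ⟨n, hn⟩ : ∃ n, p = n + 1 := ⟨p - 1, by have := hpp.pos; omega⟩
  obtain ⟨v, hv⟩ : ∃ v, ((h2.sec.rep0 t - 1) ^ n : Module.End _ _) v ≠ 0 := by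
    by_contra h
    push Not at h
    exact hna (Ann.baseChange _ ((ann_of_sub_one_pow fun v _ => h v).mono le_rfl hn.ge))
  have : Nontrivial (Abelem.V h2.sec.elemAb) := nontrivial_of_ne _ _ hv
  have h0 : (h2.sec.rep0 t - 1) ^ (n + 1) = 0 := by
    have : CharP (Module.End (ZMod p) (Abelem.V h2.sec.elemAb)) p :=
      charP_of_injective_algebraMap (FaithfulSMul.algebraMap_injective (ZMod p) _) p
    rw [← hn, sub_pow_char_of_commute _ (Commute.one_right _), ← map_pow, htp, map_one, one_pow,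
      sub_self]
  obtain ⟨B0, hB1, hB2, hB3⟩ := exists_sub h0 hv
  set B := Abelem.toSubgroup B0
  set u : H ⧸ (⊥ : Subgroup H) := ((t : H) : H ⧸ (⊥ : Subgroup H))
  have hinj : Function.Injective (QuotientGroup.mk' (⊥ : Subgroup H)) := by
    rw [← MonoidHom.ker_eq_bot_iff, QuotientGroup.ker_mk']
  have hu : orderOf u = p := (orderOf_injective _ hinj (t : H)).trans ht
  have hBE : B ≤ (pCore p H).map (QuotientGroup.mk' ⊥) := by rintro _ ⟨w, -, rfl⟩; exact w.mem
  have huB : u ∉ B := fun h => by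
    obtain ⟨e, he, h'⟩ := hBE h
    exact htE (hinj h' ▸ he)
  have hun : zpowers u ≤ normalizer (B : Set _) := by
    refine zpowers_le.2 (mem_normalizer_fintype ?_)
    rintro _ ⟨w, hw, rfl⟩
    exact ⟨h2.sec.rep0 t w, by simpa using add_mem (hB1 w hw) hw, rfl⟩
  have hBc : Nat.card B = p ^ p := by rw [Abelem.card_toSubgroup_eq_pow, hB2, ← hn]
  have hBu : B ⊓ centralizer {u} = Abelem.toSubgroup (B0 ⊓ LinearMap.ker (h2.sec.rep0 t - 1)) := by
    ext x
    constructor
    · rintro ⟨⟨w, hw, rfl⟩, h⟩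
      refine ⟨w, ⟨hw, sub_eq_zero.2 (Abelem.V.ext ?_)⟩, rfl⟩
      exact mul_inv_eq_iff_eq_mul.2 (mem_centralizer_singleton_iff.1 h).symm
    · rintro ⟨w, hw, rfl⟩
      exact ⟨⟨w, hw.1, rfl⟩, mem_centralizer_singleton_iff.2
        (mul_inv_eq_iff_eq_mul.1 (congrArg Abelem.V.val (sub_eq_zero.1 hw.2))).symm⟩
  set W := B ⊔ zpowers u
  have hW : Nat.card W = p ^ (p + 1) := by
    have h3 : B ⊓ zpowers u = ⊥ := by
      have : Fact (Nat.card (zpowers u)).Prime := ⟨by rwa [Nat.card_zpowers, hu]⟩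
      rcases (B.subgroupOf (zpowers u)).eq_bot_or_eq_top_of_prime_card with h | h
      · exact disjoint_iff.1 (subgroupOf_eq_bot.1 h)
      · exact absurd (subgroupOf_eq_top.1 h (mem_zpowers u)) huB
    have h4 := relIndex_sup_of_le_normalizer hun
    have h5 := card_inf_mul_relIndex B (zpowers u ⊔ B)
    rw [h4, ← inf_relIndex_right, h3, relIndex_bot_left, Nat.card_zpowers, hu,
      inf_eq_left.2 le_sup_right, hBc, sup_comm] at h5
    rw [← h5, pow_succ]
  let e : Shrink.{0} W ≃* W := (equivShrink.{0} W).symm.mulEquiv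
  let g := W.subtype.comp e.toMonoidHom
  have hg : Function.Injective g := W.subtype_injective.comp e.injective
  have hr : g.range = W := by
    rw [MonoidHom.range_comp, MonoidHom.range_eq_top.2 e.surjective, ← MonoidHom.range_eq_map,
      range_subtype]
  obtain ⟨u0, hu0⟩ : u ∈ g.range := hr.ge (mem_sup_right (mem_zpowers u))
  have : Finite (Shrink.{0} W) := Finite.of_injective _ hg
  have hel := h2.sec.elemAb
  refine hwr (Shrink.{0} W) ⟨B.comap g, u0, ⟨fun x hx y => ?_⟩, ⟨⟨fun a b => ?_⟩⟩,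
    fun b hb => hg ?_, ?_, ?_, fun h => huB (hu0 ▸ h), ?_, ?_⟩ ?_
  · rw [mem_comap, map_mul, map_mul, map_inv]
    exact (mem_normalizer_iff.1 (sup_le le_normalizer hun (e y).2) _).1 hx
  · have := hel.1
    exact Subtype.ext (hg (by
      rw [coe_mul, coe_mul, map_mul, map_mul]; exact setLike_mul_comm (hBE a.2) (hBE b.2)))
  · rw [map_pow, map_one]; exact hel.2 _ (hBE hb)
  · rw [card_comap hg (le_sup_left.trans hr.ge), hBc]
  · rw [← orderOf_injective g hg, hu0, hu]
  · rw [Nat.card_congr e.toEquiv, hW]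
  · have : B.comap g ⊓ centralizer {u0} = (B ⊓ centralizer {u}).comap g := by
      ext x
      simp only [mem_inf, mem_comap, mem_centralizer_singleton_iff, ← hu0, ← map_mul, hg.eq_iff]
    rw [this, card_comap hg (inf_le_left.trans (le_sup_left.trans hr.ge)), hBu,
      Abelem.card_toSubgroup_eq_pow, hB3, pow_one]
  · refine Fus.involves_sylIn (IsPGroup.of_card ((Nat.card_congr e.toEquiv).trans hW))
      (Sec.involves_mono_surjective (Sec.involves_of_injective g hg)
        ((QuotientGroup.mk' ⊥).comp f) ((QuotientGroup.mk'_surjective _).comp hf)) (Fus.sylIn_top P)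

end Cfsg.Agent.S3787
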