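import Cfsg.Statements.S3788
import Cfsg.Agent.S0055
import Cfsg.Agent.S0213
import Cfsg.Agent.SOLV.Frattini
import Cfsg.Agent.PLOC.S4Free
import Cfsg.Agent.PLOC.ClassTwo
import Cfsg.Agent.TECH.Amb

set_option autoImplicit false
open Cfsg

namespace Cfsg.Agent.S3788

open Subgroup CL CL.MSS
open scoped commutatorElement

variable {G : Type*} [Group G] [Finite G] {p : ℕ} [hp : Fact p.Prime]

theorem mem_of_pow_mem {V : Subgroup G} {a : G} {k : ℕ} (ha : a ^ p ^ k = 1) {x : G}
    (hx : x ∈ zpowers a) (hxV : x ∈ V) (haV : a ∉ V) : x ∈ zpowers (a ^ p) := by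
  obtain ⟨n, rfl⟩ := (mem_powers_iff_mem_zpowers.2 hx : x ∈ Submonoid.powers a)
  simp only at hxV ⊢
  by_cases hn : p ∣ n
  · obtain ⟨m, rfl⟩ := hn
    rw [pow_mul]; exact npow_mem_zpowers _ _
  · exfalso
    apply haV
    have hc : n.Coprime (orderOf a) :=
      Nat.Coprime.coprime_dvd_right (orderOf_dvd_of_pow_eq_one ha)
        (Nat.Coprime.pow_right _ ((Nat.Prime.coprime_iff_not_dvd hp.out).2 hn).symm)
    obtain ⟨m, hm⟩ := exists_pow_eq_self_of_coprime hc
    rw [← hm]; exact V.pow_mem hxV m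

theorem core_odd (hp2 : p ≠ 2) (hG : IsPSolvable p G) (hV : IsElementaryAbelian p (pCore p G))
    (hC : centralizer (pCore p G : Set G) ≤ pCore p G) {a : G} {k : ℕ} (ha : a ^ p ^ k = 1)
    (hVa : ∀ v ∈ pCore p G, v * a * v⁻¹ ∈ zpowers a) : a ∈ pCore p G := by
  by_contra haV
  set V := pCore p G with hVdef
  have hVn : V.Normal := by rw [hVdef]; infer_instance
  have hVp : IsPGroup p V := isPGroup_pCore p G
  have hVc : ∀ x ∈ V, ∀ y ∈ V, x * y = y * x := fun x hx y hy =>
    congrArg Subtype.val (hV.1.is_comm.comm (⟨x, hx⟩ : V) ⟨y, hy⟩)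
  obtain ⟨H, hH⟩ := CL.IsPSolvable.exists_isPiHall_compl hG
  let π := QuotientGroup.mk' V
  have hπ : Function.Surjective π := QuotientGroup.mk'_surjective V
  let O := pPrimeCore p (G ⧸ V)
  let K := H ⊓ O.comap π
  have hKc : (Nat.card K).Coprime p :=
    Nat.Coprime.coprime_dvd_left (card_dvd_of_le inf_le_left) (isPiHall_compl_singleton_iff.1 hH).1
  have hKm : K.map π = O := by
    apply le_antisymm
    · exact map_le_iff_le_comap.2 inf_le_right
    · have h1 : IsPiHall {p}ᶜ (H.map π) := by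
        have := CL.IsPiHallOf.map (isPiHallOf_top.2 hH) π
        rwa [map_top_of_surjective _ hπ, isPiHallOf_top] at this
      have h2 : O ≤ H.map π := by
        have := CL.IsPiHall.piCore_le h1
        rwa [← pPrimeCore_eq_piCore] at this
      intro x hx
      obtain ⟨y, hy, rfl⟩ := h2 hx
      exact ⟨y, mem_inf.2 ⟨hy, hx⟩, rfl⟩
  have hcop : (Nat.card K).Coprime (Nat.card V) :=
    (coprime_card_of_isPGroup_of_coprime hVp hKc).symm
  have hVs : Group.IsSolvable V := isSolvable_of_isPGroup hVp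
  have hN := normalizer_map_mk'_of_coprime V K hcop (Or.inr hVs)
  have hmem : π a ∈ (normalizer (K : Set G)).map π := by
    rw [← hN]
    change π a ∈ normalizer ((K.map π : Subgroup (G ⧸ V)) : Set (G ⧸ V))
    rw [hKm, normalizer_eq_top]; trivial
  obtain ⟨b, hb, hba⟩ := hmem
  have hw : b * a⁻¹ ∈ V := by
    rw [← QuotientGroup.ker_mk' V, MonoidHom.mem_ker, map_mul, map_inv]
    change π b * (π a)⁻¹ = 1
    rw [hba, mul_inv_cancel]
  obtain ⟨w, hwV, rfl⟩ : ∃ w ∈ V, b = w * a := ⟨b * a⁻¹, hw, by group⟩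
  -- commutators with `a`
  have hc : ∀ v ∈ V, ⁅a, v⁆ ∈ V ∧ ⁅a, v⁆ ∈ zpowers a := by
    intro v hv
    refine ⟨?_, ?_⟩
    · rw [commutatorElement_def]
      exact V.mul_mem (hVn.conj_mem v hv a) (V.inv_mem hv)
    · have h1 := (zpowers a).mul_mem (mem_zpowers a) ((zpowers a).inv_mem (hVa v hv))
      have : ⁅a, v⁆ = a * (v * a * v⁻¹)⁻¹ := by rw [commutatorElement_def]; group
      rwa [this]
  have hpow : (w * a) ^ p = a ^ p := by
    have h1 : Commute w ⁅a, w⁆ := hVc w hwV _ (hc w hwV).1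
    have h2 : Commute a ⁅a, w⁆ := by
      obtain ⟨n, hn⟩ := mem_zpowers_iff.1 (hc w hwV).2
      rw [← hn]; exact Commute.self_zpow a n
    rw [CL.PG.mul_pow_of_odd h1 h2 (hp.out.odd_of_ne_two hp2) (hV.2 _ (hc w hwV).1), hV.2 w hwV,
      one_mul]
  have hKV : K ⊓ V = ⊥ := by
    rw [inf_comm]; exact inf_eq_bot_of_isPGroup_of_coprime hVp hKc
  have hcK : ∀ v ∈ V, ⁅a, v⁆ ∈ centralizer (K : Set G) := by
    intro v hv
    have h1 : ⁅a, v⁆ ∈ normalizer (K : Set G) := by
      have := mem_of_pow_mem ha (hc v hv).2 (hc v hv).1 haV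
      rw [← hpow] at this
      exact (zpowers_le.2 ((normalizer (K : Set G)).pow_mem hb p)) this
    rw [mem_centralizer_iff]
    intro y hy
    have h2 : ⁅⁅a, v⁆, y⁆ ∈ K ⊓ V := by
      refine mem_inf.2 ⟨?_, ?_⟩
      · rw [commutatorElement_def ⁅a, v⁆ y]
        exact K.mul_mem ((mem_normalizer_iff.1 h1 y).1 hy) (K.inv_mem hy)
      · rw [commutatorElement_def ⁅a, v⁆ y, mul_assoc, mul_assoc]
        refine V.mul_mem (hc v hv).1 ?_
        have := hVn.conj_mem _ (V.inv_mem (hc v hv).1) y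
        simpa [mul_assoc] using this
    rw [hKV, mem_bot, commutatorElement_eq_one_iff_mul_comm] at h2
    exact h2.symm
  have hKN : K ≤ normalizer (V : Set G) := by rw [normalizer_eq_top]; exact le_top
  have := hV.1
  obtain ⟨h55a, h55b⟩ := Cfsg.Agent.S0055.result K V hKN hcop
  have hWV : (⁅V, K⁆ : Subgroup G) ≤ V := commutator_le_left V K
  have hbW : w * a ∈ normalizer ((⁅V, K⁆ : Subgroup G) : Set G) := by
    have h1 : zpowers (w * a) ≤ normalizer ((⁅V, K⁆ : Subgroup G) : Set G) :=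
      CL.le_normalizer_commutator (by rw [normalizer_eq_top]; exact le_top) (zpowers_le.2 hb)
    exact h1 (mem_zpowers _)
  have hKW : K ≤ normalizer ((⁅V, K⁆ : Subgroup G) : Set G) :=
    CL.le_normalizer_commutator hKN le_normalizer
  have hbC : w * a ∈ centralizer ((⁅V, K⁆ : Subgroup G) : Set G) := by
    rw [mem_centralizer_iff]
    intro x hx
    have hx' : x ∈ (⁅V, K⁆ : Subgroup G) := hx
    have h1 : ⁅w * a, x⁆ = ⁅a, x⁆ := by
      have h2 := hVc w hwV _ (hVn.conj_mem x (hWV hx') a)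
      rw [commutatorElement_def, commutatorElement_def]
      calc w * a * x * (w * a)⁻¹ * x⁻¹ = (w * (a * x * a⁻¹)) * w⁻¹ * x⁻¹ := by group
        _ = _ := by rw [h2]; group
    have h2 : ⁅w * a, x⁆ ∈ V ⊓ centralizer (K : Set G) ⊓ ⁅V, K⁆ := by
      refine mem_inf.2 ⟨mem_inf.2 ⟨?_, ?_⟩, ?_⟩
      · rw [h1]; exact (hc x (hWV hx')).1
      · rw [h1]; exact hcK x (hWV hx')
      · rw [commutatorElement_def]
        exact mul_mem ((mem_normalizer_iff.1 hbW x).1 hx') (inv_mem hx')
    rw [h55a, mem_bot, commutatorElement_eq_one_iff_mul_comm] at h2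
    exact h2.symm
  have hbK : ∀ y ∈ K, y * (w * a) = (w * a) * y := by
    intro y hy
    have h1 : ⁅y, w * a⁆ ∈ K := by
      rw [commutatorElement_def, mul_assoc, mul_assoc]
      refine K.mul_mem hy ?_
      have := (mem_normalizer_iff.1 hb y⁻¹).1 (K.inv_mem hy)
      simpa [mul_assoc] using this
    have h2 : ⁅y, w * a⁆ ∈ centralizer ((⁅V, K⁆ : Subgroup G) : Set G) := by
      rw [commutatorElement_def]
      refine mul_mem ?_ (inv_mem hbC)
      exact conj_mem_of_mem_normalizer (CL.normalizer_le_normalizer_centralizer _ (hKW hy)) hbC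
    have h3 : ⁅y, w * a⁆ ∈ centralizer (V : Set G) := by
      have h4 : V ≤ centralizer ({⁅y, w * a⁆} : Set G) := by
        rw [← h55b, sup_le_iff]
        refine ⟨fun z hz => ?_, fun z hz => ?_⟩
        · rw [mem_centralizer_singleton_iff]
          exact ((mem_centralizer_iff.1 (mem_inf.1 hz).2) _ h1).symm
        · rw [mem_centralizer_singleton_iff]
          exact (mem_centralizer_iff.1 h2) z hz
      rw [mem_centralizer_iff]
      intro z hz
      exact mem_centralizer_singleton_iff.1 (h4 hz)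
    have h5 : ⁅y, w * a⁆ ∈ K ⊓ V := mem_inf.2 ⟨h1, hC h3⟩
    rwa [hKV, mem_bot, commutatorElement_eq_one_iff_mul_comm] at h5
  have hO : π a ∈ O := by
    refine CL.IsPSolvable.centralizer_pPrimeCore_le (CL.IsPSolvable.quotient hG V) (pCore_quotient_pCore p G) ?_
    rw [mem_centralizer_iff]
    intro z hz
    have hz' : z ∈ K.map π := by rw [hKm]; exact hz
    obtain ⟨y, hy, rfl⟩ := hz'
    rw [← hba, ← map_mul, ← map_mul, hbK y hy]
  apply haV
  have h1 : zpowers (π a) ⊓ O = ⊥ := by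
    refine inf_eq_bot_of_isPGroup_of_coprime (p := p) ?_ (coprime_card_pPrimeCore p _)
    rintro ⟨x, hx⟩
    obtain ⟨n, rfl⟩ := mem_zpowers_iff.1 hx
    refine ⟨k, Subtype.ext ?_⟩
    simp only [SubmonoidClass.mk_pow, OneMemClass.coe_one]
    rw [← zpow_natCast, ← zpow_mul, mul_comm, zpow_mul, zpow_natCast, ← map_pow, ha, map_one,
      one_zpow]
  have h2 : π a ∈ zpowers (π a) ⊓ O := mem_inf.2 ⟨mem_zpowers _, hO⟩
  rw [h1, mem_bot] at h2
  rwa [← QuotientGroup.ker_mk' V]

theorem core_two (hG : IsPSolvable 2 G) (hS : ¬ Involves (Equiv.Perm (Fin 4)) G)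
    (hV : IsElementaryAbelian 2 (pCore 2 G))
    (hC : centralizer (pCore 2 G : Set G) ≤ pCore 2 G) {a : G}
    (hVa : pCore 2 G ≤ normalizer (zpowers a : Set G)) : a ∈ pCore 2 G := by
  by_contra haV
  have key : ∀ (N : Subgroup G) [N.Normal], N = pCore 2 G → pCore 2 (G ⧸ N) = ⊥ := by
    intro N _ h; subst h; exact pCore_quotient_pCore 2 G
  set V := pCore 2 G with hVdef
  have hVn : V.Normal := by rw [hVdef]; infer_instance
  have hVc : ∀ x ∈ V, ∀ y ∈ V, x * y = y * x := fun x hx y hy =>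
    congrArg Subtype.val (hV.1.is_comm.comm (⟨x, hx⟩ : V) ⟨y, hy⟩)
  have hCV : centralizer (V : Set G) = V :=
    le_antisymm hC fun x hx => mem_centralizer_iff.2 fun y hy => hVc y hy x hx
  have hAC : ¬ zpowers a ≤ centralizer (V : Set G) := fun h => haV (hC (h (mem_zpowers a)))
  have hc : ∀ v ∈ V, ⁅a, v⁆ ∈ V ∧ ⁅a, v⁆ ∈ zpowers a := by
    intro v hv
    refine ⟨?_, ?_⟩
    · rw [commutatorElement_def]
      exact V.mul_mem (hVn.conj_mem v hv a) (V.inv_mem hv)
    · have h1 := (zpowers a).mul_mem (mem_zpowers a) ((zpowers a).inv_mem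
        ((mem_normalizer_iff.1 (hVa hv) a).1 (mem_zpowers a)))
      have : ⁅a, v⁆ = a * (v * a * v⁻¹)⁻¹ := by rw [commutatorElement_def]; group
      rwa [this]
  have hCa : ∀ x, x ∈ centralizer (zpowers a : Set G) ↔ ⁅a, x⁆ = 1 := by
    intro x
    rw [commutatorElement_eq_one_iff_mul_comm]
    refine ⟨fun h => mem_centralizer_iff.1 h a (mem_zpowers a), fun h => ?_⟩
    rw [mem_centralizer_iff]
    intro y hy
    obtain ⟨n, rfl⟩ := mem_zpowers_iff.1 hy
    exact (Commute.zpow_left h n).eq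
  apply hS
  refine CL.FC.involves_perm_four_of_offender hG hV (key _ hCV) ?_ hAC ?_
  · rw [commutator_eq_bot_iff_le_centralizer]
    refine (le_normalizer_iff_commutator_le_right.1 hVa).trans ?_
    intro x hx
    obtain ⟨n, rfl⟩ := mem_zpowers_iff.1 hx
    rw [hCa, commutatorElement_eq_one_iff_mul_comm]
    exact (Commute.self_zpow a n).eq
  · rw [CL.Th.offMeas_def, ← card_inf_mul_relIndex (centralizer (zpowers a : Set G)) V,
      ← card_inf_mul_relIndex (centralizer (V : Set G)) (zpowers a), inf_comm (zpowers a),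
      inf_comm V]
    have h1 : (centralizer (zpowers a : Set G)).relIndex V ∣ 2 := by
      rw [relIndex_dvd_two_iff]
      by_cases h : ∃ v ∈ V, ⁅a, v⁆ ≠ 1
      · obtain ⟨v, hv, hv1⟩ := h
        refine ⟨v, hv, fun b hb => ?_⟩
        by_cases hb1 : ⁅a, b⁆ = 1
        · exact Or.inr ((hCa b).2 hb1)
        · left
          have e : ⁅a, b⁆ = ⁅a, v⁆ := Cfsg.Agent.S0213.inv_unique_zpowers
            (orderOf_eq_prime (hV.2 _ (hc b hb).1) hb1) (orderOf_eq_prime (hV.2 _ (hc v hv).1) hv1)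
            (hc b hb).2 (hc v hv).2
          rw [hCa, CL.PG.commutator_mul_right_of_commute (hVc b hb _ (hc v hv).1), e, ← sq]
          exact hV.2 _ (hc v hv).1
      · push Not at h
        exact ⟨1, V.one_mem, fun b hb => Or.inr ((hCa b).2 (h b hb))⟩
    have h2 : 2 ≤ (centralizer (V : Set G)).relIndex (zpowers a) := by
      have h3 : (centralizer (V : Set G)).relIndex (zpowers a) ≠ 1 := by
        rwa [Ne, relIndex_eq_one]
      have h4 : (centralizer (V : Set G)).relIndex (zpowers a) ≠ 0 := index_ne_zero_of_finite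
      omega
    have h3 := (Nat.le_of_dvd two_pos h1).trans h2
    calc _ ≤ Nat.card (centralizer (zpowers a : Set G) ⊓ V : Subgroup G) *
          (centralizer (V : Set G)).relIndex (zpowers a) *
          Nat.card (centralizer (V : Set G) ⊓ zpowers a : Subgroup G) := by gcongr
      _ = _ := by ring

theorem charP (hG : IsPSolvable p G) (h0 : pPrimeCore p G = ⊥)
    (h : p ≠ 2 ∨ ¬ Involves (Equiv.Perm (Fin 4)) G) {a : G} {k : ℕ} (ha : a ^ p ^ k = 1)
    (hVa : pCore p G ≤ normalizer (zpowers a : Set G)) : a ∈ pCore p G := by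
  let F := (frattini (pCore p G)).map (pCore p G).subtype
  have hFn : F.Normal := inferInstance
  have hVp : IsPGroup p (pCore p G) := isPGroup_pCore p G
  have hF : F ≤ pCore p G := map_subtype_le _
  let π := QuotientGroup.mk' F
  have hm : (pCore p G).map π = pCore p (G ⧸ F) := oP_pCore_map_mk F (hVp.to_le hF)
  have hG' := CL.IsPSolvable.quotient hG F
  have h0' : pPrimeCore p (G ⧸ F) = ⊥ := by
    rw [pPrimeCore_eq_piCore, piCore_quotient_eq_map_of_le_frattini _ F
      (map_frattini_le_of_normal _), ← pPrimeCore_eq_piCore, h0, Subgroup.map_bot]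
  have hC := CL.IsPSolvable.centralizer_pCore_le hG' h0'
  have hV : IsElementaryAbelian p (pCore p (G ⧸ F)) := by
    rw [← hm]
    refine ⟨⟨⟨?_⟩⟩, ?_⟩
    · rintro ⟨_, x, hx, rfl⟩ ⟨_, y, hy, rfl⟩
      apply Subtype.ext
      change π x * π y = π y * π x
      rw [← commutatorElement_eq_one_iff_mul_comm, ← map_commutatorElement, ← MonoidHom.mem_ker,
        QuotientGroup.ker_mk']
      exact CL.PG.commutator_le_frattini_map hVp (commutator_mem_commutator hx hy)
    · rintro _ ⟨x, hx, rfl⟩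
      rw [← map_pow, ← MonoidHom.mem_ker, QuotientGroup.ker_mk']
      exact CL.PG.pow_mem_frattini_map hVp hx
  have hVa' : pCore p (G ⧸ F) ≤ normalizer (zpowers (π a) : Set (G ⧸ F)) := by
    rw [← hm, ← MonoidHom.map_zpowers]
    exact (map_mono hVa).trans (le_normalizer_map π)
  have key : π a ∈ pCore p (G ⧸ F) := by
    by_cases hp2 : p = 2
    · subst hp2
      exact core_two hG' (fun hh => (h.resolve_left (by simp)) (CL.Sec.involves_of_quotient hh))
        hV hC hVa'
    · refine core_odd hp2 hG' hV hC (k := k) (by rw [← map_pow, ha, map_one]) fun v hv => ?_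
      exact (mem_normalizer_iff.1 (hVa' hv) _).1 (mem_zpowers _)
  rw [← hm] at key
  have : a ∈ ((pCore p G).map π).comap π := key
  rwa [comap_map_eq_self (by rw [QuotientGroup.ker_mk']; exact hF)] at this

/-- Let G be a finite p-soluble group, P a Sylow p-subgroup of G and A a cyclic normal subgroup of P. If p is odd, or if no section of G is isomorphic to the symmetric group of degree 4, then A ≤ O_{p',p}(G). -/
theorem result {G : Type*} [Group G] [Finite G] {p : ℕ} [Fact p.Prime] (hG : Cfsg.IsPSolvable p G) (P : Sylow p G) (A : Subgroup G) (hAP : A ≤ (P : Subgroup G)) (hAn : (P : Subgroup G) ≤ Subgroup.normalizer (A : Set G)) (hA : IsCyclic A) (h : p ≠ 2 ∨ ¬ Cfsg.Involves (Equiv.Perm (Fin 4)) G) : A ≤ Cfsg.pPrimePCore p G := by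
  obtain ⟨a, ha⟩ : ∃ a : G, zpowers a = A := (Subgroup.isCyclic_iff_exists_zpowers_eq_top A).1 hA
  subst ha
  let π := QuotientGroup.mk' (pPrimeCore p G)
  have hπ : Function.Surjective π := QuotientGroup.mk'_surjective _
  obtain ⟨k, hk⟩ := P.isPGroup' ⟨a, hAP (mem_zpowers a)⟩
  have hk' : a ^ p ^ k = 1 := congrArg Subtype.val hk
  rw [zpowers_le]
  change π a ∈ pCore p (G ⧸ pPrimeCore p G)
  refine charP (CL.IsPSolvable.quotient hG _) (pPrimeCore_quotient_pPrimeCore p G)
    (h.imp id fun h1 hh => h1 (CL.Sec.involves_of_quotient hh)) (k := k)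
    (by rw [← map_pow, hk', map_one]) ?_
  refine (pCore_le_sylow (P.mapSurjective hπ)).trans ?_
  rw [Sylow.coe_mapSurjective, ← MonoidHom.map_zpowers]
  exact (map_mono hAn).trans (le_normalizer_map π)

end Cfsg.Agent.S3788
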