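import Cfsg.Statements.S3790
import Mathlib
import Cfsg.Agent.SOLV.PLength

set_option autoImplicit false
open Cfsg

namespace Cfsg.Agent.S3790

universe u

theorem aux (p : ℕ) [hp : Fact p.Prime] {ι : Type} [DecidableEq ι] (q l : ι → ℕ)
    (hq : ∀ i, (q i).Prime ∧ q i ≠ p) (s : Finset ι) :
    ∀ (G : Type u) [Group G] [Finite G],
      (∀ t : ℕ, t.Prime → t ∣ Nat.card G → t ≠ p → ∃ i ∈ s, q i = t) →
      (∀ i ∈ s, Cfsg.PLengthLE (q i) (l i) G) → Cfsg.PLengthLE p (∏ i ∈ s, (1 + l i)) G := by
  induction s using Finset.induction_on with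
  | empty =>
    intro G _ _ hc _
    have hG : IsPGroup p G := by
      rw [CL.isPGroup_iff_isPiNum]
      intro t ht hd
      by_contra h
      obtain ⟨i, hi, -⟩ := hc t ht hd h
      simp at hi
    rw [Finset.prod_empty, CL.pLengthLE_one_iff]
    have : Cfsg.pPrimePCore p G = ⊤ :=
      top_le_iff.1 ((CL.pCore_eq_top_iff.2 hG).ge.trans CL.pCore_le_pPrimePCore)
    simp [this]
  | insert a s ha ih =>
    have := Fact.mk (hq a).1
    have base : ∀ (G : Type u) [Group G] [Finite G],
        (∀ t : ℕ, t.Prime → t ∣ Nat.card G → t ≠ p → ∃ i ∈ insert a s, q i = t) →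
        (∀ i ∈ s, Cfsg.PLengthLE (q i) (l i) G) → (Nat.card G).Coprime (q a) →
        Cfsg.PLengthLE p (∏ i ∈ s, (1 + l i)) G := by
      intro G _ _ hc hl h0
      refine ih G (fun t ht hd hne => ?_) hl
      obtain ⟨i, hi, e⟩ := hc t ht hd hne
      rcases Finset.mem_insert.1 hi with rfl | hi
      · exact absurd (e ▸ hd) ((Nat.Prime.coprime_iff_not_dvd (hq i).1).1 h0.symm)
      · exact ⟨i, hi, e⟩
    have key : ∀ k : ℕ, ∀ (G : Type u) [Group G] [Finite G],
        (∀ t : ℕ, t.Prime → t ∣ Nat.card G → t ≠ p → ∃ i ∈ insert a s, q i = t) →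
        (∀ i ∈ s, Cfsg.PLengthLE (q i) (l i) G) → Cfsg.PLengthLE (q a) k G →
        Cfsg.PLengthLE p ((1 + k) * ∏ i ∈ s, (1 + l i)) G := by
      intro k
      induction k with
      | zero =>
        intro G _ _ hc hl h0
        simpa using base G hc hl (CL.pLengthLE_zero_iff.1 h0)
      | succ k ihk =>
        intro G _ _ hc hl h0
        rw [CL.pLengthLE_succ_iff] at h0
        have h1 := ihk (G ⧸ Cfsg.pPrimePCore (q a) G)
          (fun t ht hd => hc t ht (hd.trans (CL.card_quotient_dvd _)))
          (fun i hi => have := Fact.mk (hq i).1; CL.PLengthLE.quotient (hl i hi) _) h0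
        have h2 := base (Cfsg.pPrimeCore (q a) G)
          (fun t ht hd => hc t ht (hd.trans (Subgroup.card_subgroup_dvd_card _)))
          (fun i hi => have := Fact.mk (hq i).1; CL.PLengthLE.subgroup (hl i hi) _)
          (CL.coprime_card_pPrimeCore _ _)
        have h3 : Cfsg.PLengthLE p (∏ i ∈ s, (1 + l i)) (Cfsg.pPrimePCore (q a) G) := by
          refine CL.PLengthLE.of_normal_of_coprime_index
            ((Cfsg.pPrimeCore (q a) G).subgroupOf (Cfsg.pPrimePCore (q a) G))
            (CL.PLengthLE.of_mulEquiv h2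
              (Subgroup.subgroupOfEquivOfLe CL.pPrimeCore_le_pPrimePCore).symm) ?_
          obtain ⟨m, hm⟩ := CL.exists_relIndex_pPrimePCore (p := q a) (G := G)
          change ((Cfsg.pPrimeCore (q a) G).relIndex _).Coprime p
          rw [hm]
          exact Nat.Coprime.pow_left _ ((Nat.coprime_primes (hq a).1 hp.out).2 (hq a).2)
        have h4 := CL.PLengthLE.of_normal_of_quotient _ h3 h1
        convert h4 using 1
        ring
    intro G _ _ hc hl
    rw [Finset.prod_insert ha]
    exact key _ G hc (fun i hi => hl i (Finset.mem_insert_of_mem hi))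
      (hl a (Finset.mem_insert_self a s))

/-- Let G be a finite solvable group and p a prime. Suppose p₁, …, p_r are distinct primes, all different from p, that include every prime dividing the order of G other than p, and that G has p_i-length at most l_i for each i. Then G has p-length at most the product of the numbers 1 + l_i. -/
theorem result {G : Type*} [Group G] [Finite G] (hG : Group.IsSolvable G) (p : ℕ) [Fact p.Prime] (r : ℕ) (q : Fin r → ℕ) (hq : ∀ i, (q i).Prime ∧ q i ≠ p) (hinj : Function.Injective q) (hcover : ∀ s : ℕ, s.Prime → s ∣ Nat.card G → s ≠ p → ∃ i, q i = s) (l : Fin r → ℕ) (hl : ∀ i, Cfsg.PLengthLE (q i) (l i) G) : Cfsg.PLengthLE p (Finset.univ.prod fun i => 1 + l i) G := by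
  exact aux p q l hq Finset.univ G
    (fun t ht hd hne => (hcover t ht hd hne).imp fun i hi => ⟨Finset.mem_univ i, hi⟩)
    (fun i _ => hl i)

end Cfsg.Agent.S3790
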