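import Cfsg.Statements.S3792
import Cfsg.Agent.FGS.LowSer

set_option autoImplicit false
open Cfsg

namespace Cfsg.Agent.S3792

open Subgroup CL


/-- Powell's Theorem: let G be a finite non-abelian simple group and p an odd prime dividing its order such that every proper subgroup of G is p-soluble. Then G can be generated by three elements. -/
theorem result {G : Type*} [Group G] [Finite G] [IsSimpleGroup G] (hna : ¬ IsMulCommutative G) {p : ℕ} [Fact p.Prime] (hp : p ≠ 2) (hdvd : p ∣ Nat.card G) (hprop : ∀ H : Subgroup G, H ≠ ⊤ → Cfsg.IsPSolvable p ↥H) : ∃ x y z : G, Subgroup.closure ({x, y, z} : Set G) = ⊤ := by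
  by_contra! hne
  have h := Low.piCore_ne_bot_of_triples (π := {p}) fun a b c =>
    IsPSolvable.isPiSeparable (hprop _ (hne a b c))
  rw [← pCore_eq_piCore, ← pPrimeCore_eq_piCore] at h
  rcases h with h | h
  · have h1 := (IsSimpleGroup.eq_bot_or_eq_top_of_normal _ inferInstance).resolve_left h
    have h2 : IsPGroup p G := (h1 ▸ isPGroup_pCore p G :).of_equiv topEquiv
    have := isSolvable_of_isPGroup h2
    exact hna ⟨⟨IsSimpleGroup.comm_iff_isSolvable.2 this⟩⟩
  · have h1 := (IsSimpleGroup.eq_bot_or_eq_top_of_normal _ inferInstance).resolve_left h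
    exact (Nat.Prime.coprime_iff_not_dvd Fact.out).1 (pPrimeCore_eq_top_iff.1 h1).symm hdvd

end Cfsg.Agent.S3792
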