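import Cfsg.Statements.S3794
import Cfsg.Agent.FGS.FpfTower

set_option autoImplicit false
open Cfsg

namespace Cfsg.Agent.S3794


/-- Let G be a finite solvable group with an automorphism σ satisfying σ⁴ = 1 and fixing only the identity. Then the derived subgroup G' is nilpotent. -/
theorem result {G : Type*} [Group G] [Finite G] (hG : Group.IsSolvable G) (σ : MulAut G) (hσ : σ ^ 4 = 1) (hfpf : ∀ g : G, σ g = g → g = 1) : Group.IsNilpotent (commutator G) := by
  obtain ⟨Γ, _, _, f, x, hf, hn', hs, hx, hfx⟩ := CL.FH.exists_ambient hG σ hfpf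
  have h1 := hx 4 hσ
  have h2 := CL.FH.commutator_le_fitting_of_fpf_four hs (m := 2) h1 (h1 ▸ Subgroup.one_mem _) hfx
  rw [← Subgroup.map_commutator] at h2
  have := CL.FH.isNilpotent_fitting_inf (Subgroup.map f ⊤)
  have h3 : Group.IsNilpotent (Subgroup.map f (commutator G)) :=
    Group.nilpotent_of_mulEquiv (Subgroup.subgroupOfEquivOfLe h2)
  exact Group.nilpotent_of_mulEquiv (Subgroup.equivMapOfInjective _ f hf).symm

end Cfsg.Agent.S3794
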