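import Cfsg.Statements.S3796
import Cfsg.Agent.FGS.FpfTwo

set_option autoImplicit false
open Cfsg

namespace Cfsg.Agent.S3796


/-- Ward's Theorem: let G be a finite solvable group and A an elementary abelian group of automorphisms of G of order p² (p a prime) with no non-identity common fixed point. Then G has Fitting height at most 2: G has Fitting height at most m when there is a chain of normal subgroups 1 = F₀ ≤ F₁ ≤ ⋯ ≤ F_m = G with each F_{i+1}/F_i nilpotent. -/
theorem result {G : Type*} [Group G] [Finite G] (hG : Group.IsSolvable G) {p : ℕ} (hp : p.Prime) (A : Subgroup (MulAut G)) (hA : Cfsg.IsElementaryAbelian p A) (hcard : Nat.card A = p ^ 2) (hfpf : ∀ g : G, (∀ a ∈ A, a g = g) → g = 1) : ∃ F : Fin (2 + 1) → Subgroup G, F 0 = ⊥ ∧ F (Fin.last 2) = ⊤ ∧ Monotone F ∧ (∀ i, (F i).Normal) ∧ ∀ i : Fin 2, ∃ k : ℕ, (F i.succ).lowerCentralSeries k ≤ F i.castSucc := by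
  rw [CL.FH.chain_iff]
  have := Fact.mk hp
  have hAp : IsPGroup p A := IsPGroup.iff_card.2 ⟨2, hcard⟩
  have hc : (Nat.card G).Coprime p := by
    rw [Nat.coprime_comm, hp.coprime_iff_not_dvd]
    intro hd
    obtain ⟨b, hb, hne⟩ := hAp.exists_fixed_point_of_prime_dvd_card_of_fixed_point G hd
      (a := 1) (fun a => smul_one a)
    exact hne (hfpf b fun a ha => hb ⟨a, ha⟩).symm
  exact CL.FH.res_two_eq_bot_of_card (A := A) hG hp hp (by rw [hcard, sq])
    (by rw [hcard]; exact hc.symm.pow_left 2) fun g hg => hfpf g fun a ha => hg ⟨a, ha⟩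

end Cfsg.Agent.S3796
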