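import Cfsg.Statements.S3798
import Cfsg.Agent.SOLV.PLength
import Cfsg.Agent.PLOC.Critical
import Cfsg.Agent.SOLV.Coprime

set_option autoImplicit false
open Cfsg

namespace Cfsg.Agent.S3798

open Cfsg CL Pointwise
open scoped commutatorElement

theorem exists_order_p {G : Type*} [Group G] [Finite G] {p : ℕ} [hp : Fact p.Prime]
    {C : Subgroup G} (hC : IsPGroup p C) (hne : C ≠ ⊥) : ∃ x ∈ C, orderOf x = p := by
  have : Nontrivial C := (Subgroup.nontrivial_iff_ne_bot C).2 hne
  obtain ⟨k, hk0, hk⟩ := hC.nontrivial_iff_card.1 this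
  obtain ⟨x, hx⟩ := exists_prime_orderOf_dvd_card' (G := C) p (hk ▸ dvd_pow_self p hk0.ne')
  exact ⟨x, x.2, by rw [Subgroup.orderOf_coe, hx]⟩

theorem core {G : Type*} [Group G] [Finite G] {p : ℕ} [hp : Fact p.Prime] (hp2 : p ≠ 2)
    (hG : IsPSolvable p G) (h0 : pPrimeCore p G = ⊥)
    (H : ∀ C : Subgroup G, C.Characteristic → ∀ x y : G, orderOf x = p → orderOf y = p →
      x ∈ C → y ∈ C) : PLengthLE p 1 G := by
  rw [pLengthLE_one_iff, pPrimePCore_eq_pCore h0]
  rcases subsingleton_or_nontrivial G with hs | hs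
  · rw [Subsingleton.elim (pCore p G) ⊤, Subgroup.index_top]; exact Nat.coprime_one_left _
  set P := pCore p G with hP
  have hPp : IsPGroup p P := isPGroup_pCore p G
  have hPne : P ≠ ⊥ := IsPSolvable.pCore_ne_bot hG h0
  have hall : ∀ C : Subgroup G, C.Characteristic → C ≤ P → C ≠ ⊥ → ∀ y : G, y ^ p = 1 → y ∈ C := by
    intro C hC hCP hne y hy
    obtain ⟨x, hx, hxo⟩ := exists_order_p (hPp.to_le hCP) hne
    by_cases h1 : y = 1
    · exact h1 ▸ C.one_mem
    · exact H C hC x y hxo (orderOf_eq_prime hy h1) hx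
  set M := coreOver {p}ᶜ P with hM
  have hMc : M.Characteristic := coreOver_characteristic _ _
  have hPM : P ≤ M := le_coreOver_self _ _
  obtain ⟨R0, hR0⟩ := IsPSolvable.exists_isPiHall_compl (IsPSolvable.subgroup hG M)
  set R := R0.map M.subtype with hR
  have hRM : R ≤ M := Subgroup.map_subtype_le _
  have hRc : (Nat.card R).Coprime p := by
    rw [hR, Subgroup.card_map_of_injective M.subtype_injective]
    exact (isPiHall_compl_singleton_iff.1 hR0).1
  have hsup : P ⊔ R = M := by
    have := IsPiHall.sup_eq_top hR0 (K := P.subgroupOf M) (isPiNum_relIndex_coreOver _ _)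
    have h2 := congrArg (Subgroup.map M.subtype) this
    rwa [Subgroup.map_sup, Subgroup.subgroupOf_map_subtype, inf_eq_left.2 hPM, ← MonoidHom.range_eq_map,
      Subgroup.range_subtype, sup_comm] at h2
  by_cases hC : P ⊓ Subgroup.centralizer (M : Set G) = ⊥
  · -- Frattini argument
    have hfr : P ⊔ Subgroup.normalizer (R : Set G) = ⊤ := by
      rw [eq_top_iff]
      intro g _
      have hc1 : (Nat.card R).Coprime (Nat.card P) := coprime_card_of_isPGroup hPp hRc
      obtain ⟨n, hn, hnR⟩ := coprime_conj_of_sup_eq P R (MulAut.conj g • R)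
        (Subgroup.le_normalizer_of_normal) hc1 (by rwa [card_conj_smul]) (by
          rw [hsup]
          have := congrArg (fun X : Subgroup G => MulAut.conj g • X) hsup
          simp only [Subgroup.smul_sup, Subgroup.Normal.conj_smul_eq_self] at this
          exact this.symm) (Or.inr (isSolvable_of_isPGroup hPp))
      have : n⁻¹ * g ∈ Subgroup.normalizer (R : Set G) := by
        rw [← conj_smul_eq_iff_mem_normalizer, ← conj_smul_conj_smul, ← hnR, conj_smul_conj_smul,
          inv_mul_cancel, conj_one_smul]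
      have e : g = n * (n⁻¹ * g) := by group
      rw [e]
      exact Subgroup.mul_mem_sup hn this
    have hdvd : P.index ∣ Nat.card (Subgroup.normalizer (R : Set G)) := by
      rw [← Subgroup.relIndex_top_right, ← hfr, Subgroup.relIndex_sup_left]
      exact Subgroup.relIndex_dvd_card _ _
    refine Nat.Coprime.coprime_dvd_left hdvd ?_
    rw [Nat.coprime_comm, hp.out.coprime_iff_not_dvd]
    intro hd
    obtain ⟨y, hy⟩ := exists_prime_orderOf_dvd_card' p hd
    have hyp : (y : G) ^ p = 1 := by rw [← hy, ← Subgroup.coe_pow, pow_orderOf_eq_one]; rfl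
    have hZ : P ⊓ Subgroup.centralizer (P : Set G) ≠ ⊥ := by
      have : Nontrivial P := (Subgroup.nontrivial_iff_ne_bot P).2 hPne
      have := hPp.center_nontrivial
      obtain ⟨z, hz⟩ := exists_ne (1 : Subgroup.center P)
      intro h
      have : ((z : P) : G) ∈ P ⊓ Subgroup.centralizer (P : Set G) :=
        ⟨(z : P).2, fun w hw => congrArg Subtype.val (Subgroup.mem_center_iff.1 z.2 ⟨w, hw⟩)⟩
      rw [h, Subgroup.mem_bot] at this
      exact hz (Subtype.ext (Subtype.ext this))
    have hyZ := hall _ inferInstance inf_le_left hZ y hyp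
    have hyR : (y : G) ∈ Subgroup.centralizer (R : Set G) := by
      intro r hr
      have h1 : ⁅(y : G), r⁆ ∈ P ⊓ R := by
        refine ⟨?_, ?_⟩
        · rw [commutatorElement_def, mul_assoc, mul_assoc, ← mul_assoc r]
          exact P.mul_mem hyZ.1 (Subgroup.Normal.conj_mem inferInstance _ (P.inv_mem hyZ.1) r)
        · exact R.mul_mem ((Subgroup.mem_normalizer_iff.1 y.2 r).1 hr) (R.inv_mem hr)
      rw [inf_eq_bot_of_isPGroup_of_coprime hPp hRc, Subgroup.mem_bot,
        commutatorElement_eq_one_iff_mul_comm] at h1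
      exact h1.symm
    have hyC : (y : G) ∈ P ⊓ Subgroup.centralizer (M : Set G) := by
      refine ⟨hyZ.1, ?_⟩
      have : M ≤ Subgroup.centralizer {(y : G)} := by
        rw [← hsup]
        refine sup_le (fun w hw => ?_) (fun w hw => ?_)
        · exact Subgroup.mem_centralizer_singleton_iff.2 (hyZ.2 w hw)
        · exact Subgroup.mem_centralizer_singleton_iff.2 (hyR w hw)
      intro w hw
      exact Subgroup.mem_centralizer_singleton_iff.1 (this hw)
    rw [hC, Subgroup.mem_bot] at hyC
    rw [← Subgroup.orderOf_coe, hyC, orderOf_one] at hy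
    exact hp.out.one_lt.ne hy
  · have hRP : R ≤ Subgroup.centralizer (P : Set G) :=
      PG.le_centralizer_of_commute_omega hp2 hPp Subgroup.le_normalizer_of_normal hRc
        fun a ha y _ hy => ((hall _ inferInstance inf_le_left hC y hy).2 a (hRM ha))
    have hMP : M = P := by
      rw [← hsup, sup_eq_left]
      exact hRP.trans (IsPSolvable.centralizer_pCore_le hG h0)
    by_cases htop : P = ⊤
    · rw [htop, Subgroup.index_top]; exact Nat.coprime_one_left _
    exfalso
    have := nontrivial_quotient_of_ne_top htop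
    refine IsPSolvable.pPrimeCore_ne_bot (IsPSolvable.quotient hG P) (pCore_quotient_pCore p G) ?_
    rw [pPrimeCore_eq_piCore, ← map_mk'_coreOver, ← hM, hMP, map_mk'_eq_bot_iff]


/-- The Gaschütz–Yen Theorem: let G be a finite p-soluble group, p an odd prime dividing its order, such that the automorphism group of G permutes the subgroups of G of order p transitively. Then G has p-length at most 1. -/
theorem result {G : Type*} [Group G] [Finite G] {p : ℕ} [Fact p.Prime] (hp : p ≠ 2) (hdvd : p ∣ Nat.card G) (hG : Cfsg.IsPSolvable p G) (htrans : ∀ U V : Subgroup G, Nat.card U = p → Nat.card V = p → ∃ a : MulAut G, U.map a.toMonoidHom = V) : Cfsg.PLengthLE p 1 G := by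
  rw [← CL.pLengthLE_quotient_pPrimeCore_iff]
  set N := Cfsg.pPrimeCore p G with hN
  have hc : (Nat.card N).Coprime p := CL.coprime_card_pPrimeCore p G
  have hpp : p.Prime := Fact.out
  have hlift : ∀ x : G ⧸ N, orderOf x = p → ∃ y : G, orderOf y = p ∧ (y : G ⧸ N) = x ^ Nat.card N := by
    intro x hx
    obtain ⟨x, rfl⟩ := QuotientGroup.mk_surjective x
    have h1 : x ^ p ∈ N := by
      rw [← QuotientGroup.eq_one_iff, QuotientGroup.mk_pow]
      exact orderOf_dvd_iff_pow_eq_one.1 hx.dvd
    refine ⟨x ^ Nat.card N, orderOf_eq_prime ?_ ?_, by rw [QuotientGroup.mk_pow]⟩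
    · rw [← pow_mul, mul_comm, pow_mul]
      exact congrArg Subtype.val (pow_card_eq_one' (x := (⟨_, h1⟩ : N)))
    · intro h
      have h2 : ((x : G ⧸ N)) ^ Nat.card N = 1 := by rw [← QuotientGroup.mk_pow, h]; rfl
      have h3 := orderOf_dvd_of_pow_eq_one h2
      rw [hx] at h3
      exact hpp.one_lt.ne' (Nat.Coprime.eq_one_of_dvd hc.symm h3)
  refine core hp (CL.IsPSolvable.quotient hG N) (CL.pPrimeCore_quotient_pPrimeCore p G) ?_
  intro C hC x y hx hy hxC
  obtain ⟨x', hx', hxx⟩ := hlift x hx
  obtain ⟨y', hy', hyy⟩ := hlift y hy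
  have hCc : (C.comap (QuotientGroup.mk' N)).Characteristic := Subgroup.Characteristic.comap_quotient_mk hC
  obtain ⟨a, ha⟩ := htrans (Subgroup.zpowers x') (Subgroup.zpowers y') (by rw [Nat.card_zpowers, hx'])
    (by rw [Nat.card_zpowers, hy'])
  have h1 : Subgroup.zpowers x' ≤ C.comap (QuotientGroup.mk' N) := by
    rw [Subgroup.zpowers_le, Subgroup.mem_comap, QuotientGroup.mk'_apply, hxx]
    exact C.pow_mem hxC _
  have h2 : y' ∈ C.comap (QuotientGroup.mk' N) := by
    have := Subgroup.map_mono (f := a.toMonoidHom) h1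
    rw [ha] at this
    exact Subgroup.characteristic_iff_map_le.1 hCc a (this (Subgroup.mem_zpowers y'))
  rw [Subgroup.mem_comap, QuotientGroup.mk'_apply, hyy] at h2
  obtain ⟨m, hm⟩ := exists_pow_eq_self_of_coprime (x := y) (n := Nat.card N) (by rwa [hy])
  rw [← hm]
  exact C.pow_mem h2 _

end Cfsg.Agent.S3798
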