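import Cfsg.Statements.S3801
import Cfsg.Agent.FGS.HHLenM

set_option autoImplicit false
open Cfsg

namespace Cfsg.Agent.S3801

open CL CL.HH CL.HHL Subgroup in
theorem aux.{u} (n : ℕ) : ∀ (G : Type u) [Group G] [Finite G] [Group.IsSolvable G],
    ExpLE 2 (n + 1) G → PLengthLE 2 (2 * n + 1) G := by
  induction n with
  | zero =>
    refine fun G _ _ _ he => ?_
    by_contra hk
    obtain ⟨H, _, _, f, hf, h1, h2⟩ := exists_prim (isPSolvable_of_isSolvable 2 G) hk
    have hsH := IsPSolvable.of_surjective (isPSolvable_of_isSolvable 2 G) hf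
    refine h1 (h2.succ (ExpLE.pLengthLE_zero fun y hy => ?_))
    by_contra hne
    obtain ⟨q, _, Q, k, l, a, -, -, -, h3, h4, h5, -⟩ := exists_of_ann (h2.ker_rep hsH)
      (IsPSolvable.quotient hsH _) (pCore_quotient_pCore 2 H)
      ((he.of_surjective hf).of_surjective (QuotientGroup.mk'_surjective _) y hy) hne
      (h2.ann_of_expLE hsH (he.of_surjective hf) hy)
    obtain rfl : l = 0 := by omega
    have := Nat.one_lt_pow h4.ne' (Fact.out : q.Prime).one_lt
    omega
  | succ n ih =>
    intro G _ _ _ he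
    by_contra hk
    obtain ⟨H, _, _, f, hf, h1, h2⟩ := exists_prim (isPSolvable_of_isSolvable 2 G) hk
    have hsH := IsPSolvable.of_surjective (isPSolvable_of_isSolvable 2 G) hf
    have := Group.isSolvable_of_surjective hf
    have he1 := (he.of_surjective hf).of_surjective (QuotientGroup.mk'_surjective (pCore 2 H))
    let Y : Set (H ⧸ pCore 2 H) := {y | ∃ x, PEl 2 x ∧ y = x ^ 2 ^ (n + 1)}
    have : (closure Y).Normal := normalizer_eq_top_iff.1 (eq_top_iff.2 fun g _ =>
      mem_normalizer_fintype fun a ha => by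
        refine (map_le_iff_le_comap (f := (MulAut.conj g).toMonoidHom)).2 ((closure_le _).2 ?_)
          ⟨a, ha, rfl⟩
        rintro _ ⟨x, hx, rfl⟩
        exact subset_closure ⟨_, hx.conj g, conj_pow.symm⟩)
    have h3 : closure Y ≤ _ := closure_le_pPrimePCore (h2.ker_rep hsH) (pCore_quotient_pCore 2 H)
      (by rintro _ ⟨x, hx, rfl⟩
          exact good_of_ann (he1 x hx) (h2.ann_of_expLE hsH (he.of_surjective hf) hx))
    refine h1 (h2.succ (pLengthLE_succ_iff.2 (ih _ fun y hy => ?_)))
    obtain ⟨x, hx, rfl⟩ := hy.exists_lift (QuotientGroup.mk'_surjective _)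
    exact (QuotientGroup.eq_one_iff _).2 (h3 (subset_closure ⟨x, hx, rfl⟩))

/-- Gross's bound on 2-length: if G is a finite solvable group whose Sylow 2-subgroups have exponent dividing 2^e with e ≥ 1, then G has 2-length at most 2e − 1. -/
theorem result {G : Type*} [Group G] [Finite G] (hG : Group.IsSolvable G) (e : ℕ) (he : 1 ≤ e) (hexp : ∀ (P : Sylow 2 G), ∀ x ∈ (P : Subgroup G), x ^ 2 ^ e = 1) : Cfsg.PLengthLE 2 (2 * e - 1) G := by
  obtain ⟨n, rfl⟩ : ∃ n, e = n + 1 := ⟨e - 1, by omega⟩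
  exact aux n G (CL.HHL.expLE_of_sylow hexp)

end Cfsg.Agent.S3801
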