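import Cfsg.Statements.S3950
import Cfsg.Agent.FGS.SchurProd
import Cfsg.Agent.FGS.SchurTransfer

set_option autoImplicit false
open Cfsg

namespace Cfsg.Agent.S3950

/-- A finite abelian group has trivial Schur multiplier if and only if it is cyclic. -/
theorem result {G : Type*} [CommGroup G] [Finite G] : Cfsg.HasCyclicSchurMultiplier G 1 ↔ IsCyclic G := by
  refine ⟨fun h => ?_, fun h => CL.Schur.trivial_of_isCyclic⟩
  classical
  obtain ⟨ι, _, n, hn, ⟨e⟩⟩ := CommGroup.equiv_prod_multiplicative_zmod_of_finite G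
  by_cases hc : Pairwise fun i j => Nat.Coprime (n i) (n j)
  · let e2 := (ZMod.prodEquivPi n hc).toAddEquiv.toMultiplicative.trans (MulEquiv.piMultiplicative _)
    exact isCyclic_of_surjective (e2.trans e.symm) (e2.trans e.symm).surjective
  · exfalso
    simp only [Pairwise, not_forall] at hc
    obtain ⟨i, j, hij, hc⟩ := hc
    obtain ⟨p, hp, hpi, hpj⟩ := Nat.Prime.not_coprime_iff_dvd.mp hc
    have := Fact.mk hp
    let f : ∀ k, p ∣ n k → G → ZMod p := fun k hk g => ZMod.castHom hk (ZMod p) (e g k).toAdd
    have f1 : ∀ k hk, f k hk 1 = 0 := fun k hk => by simp [f]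
    have fm : ∀ k hk g g', f k hk (g * g') = f k hk g + f k hk g' := fun k hk g g' => by
      simp only [f, map_mul, Pi.mul_apply, toAdd_mul, map_add]
    let c : G →* G →* Multiplicative (ZMod p) :=
      { toFun := fun a =>
          { toFun := fun b => Multiplicative.ofAdd (f i hpi a * f j hpj b)
            map_one' := by simp [f1]
            map_mul' := fun b b' => by rw [fm, mul_add, ofAdd_add] }
        map_one' := by ext; simp [f1]
        map_mul' := fun a a' => by
          refine MonoidHom.ext fun b => ?_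
          simp only [MonoidHom.coe_mk, OneHom.coe_mk, MonoidHom.mul_apply]
          rw [fm, add_mul, ofAdd_add] }
    have hc' : ∀ a b, c a b = Multiplicative.ofAdd (f i hpi a * f j hpj b) := fun _ _ => rfl
    have h1 := CL.Schur.stemKer_eq_bot_of_trivial h (CL.Schur.Twist.isCentralExt_proj (c := c))
    let x : CL.Schur.Twist c := ⟨e.symm (Pi.mulSingle i (Multiplicative.ofAdd 1)), 1⟩
    let y : CL.Schur.Twist c := ⟨e.symm (Pi.mulSingle j (Multiplicative.ofAdd 1)), 1⟩
    have h2 := CL.Schur.Twist.commutator_of_commute x y (mul_comm _ _)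
    have h3 : CL.Schur.Twist.incl c (c x.g y.g * (c y.g x.g)⁻¹) ∈
        CL.Schur.stemKer (CL.Schur.Twist.proj c) := by
      refine ⟨rfl, ?_⟩
      rw [← h2]
      exact Subgroup.commutator_mem_commutator (Subgroup.mem_top _) (Subgroup.mem_top _)
    rw [h1, Subgroup.mem_bot, ← map_one (CL.Schur.Twist.incl c),
      CL.Schur.Twist.incl_injective.eq_iff, hc', hc'] at h3
    have h4 : f i hpi x.g = 1 := by simp [f, x, ZMod.cast_one hpi]
    have h5 : f j hpj y.g = 1 := by simp [f, y, ZMod.cast_one hpj]
    have h6 : f i hpi y.g = 0 := by simp [f, y, Pi.mulSingle_eq_of_ne hij]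
    rw [h4, h5, h6] at h3
    simp at h3

end Cfsg.Agent.S3950
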