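import Cfsg.Statements.S3951
import Cfsg.Agent.FGS.SchurProd
import Cfsg.Agent.FGS.SchurTransfer

set_option autoImplicit false
open Cfsg

namespace Cfsg.Agent.S3951

/-- For positive integers `m` and `n` with `n` dividing `m`, the Schur multiplier of the abelian group `ZMod m × ZMod n` (written multiplicatively) is cyclic of order `n`. In particular the elementary abelian group of order `p ^ 2` has multiplier of order `p`. -/
theorem result (m n : ℕ) [NeZero m] [NeZero n] (hnm : n ∣ m) : Cfsg.HasCyclicSchurMultiplier (Multiplicative (ZMod m × ZMod n)) n := by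
  have h := CL.Schur.hasSchurMultiplier_prod
    (CL.Schur.trivial_of_isCyclic (G := Multiplicative (ZMod m)))
    (CL.Schur.trivial_of_isCyclic (G := Multiplicative (ZMod n)))
  let c : Multiplicative (ZMod m) →* Multiplicative (ZMod n) →* Multiplicative (ZMod n) :=
    { toFun := fun a =>
        { toFun := fun b => Multiplicative.ofAdd (ZMod.castHom hnm (ZMod n) a.toAdd * b.toAdd)
          map_one' := by simp
          map_mul' := fun b b' => by rw [toAdd_mul, mul_add, ofAdd_add] }
      map_one' := by ext; simp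
      map_mul' := fun a a' => by
        refine MonoidHom.ext fun b => ?_
        simp only [MonoidHom.coe_mk, OneHom.coe_mk, MonoidHom.mul_apply]
        rw [toAdd_mul, map_add, add_mul, ofAdd_add] }
  have hc : ∀ a b, c a b = Multiplicative.ofAdd (ZMod.castHom hnm (ZMod n) a.toAdd * b.toAdd) :=
    fun _ _ => rfl
  obtain ⟨ψ, hψ⟩ := CL.Schur.exists_abTensor_lift c
  set t := CL.Schur.abTmul (Multiplicative (ZMod m)) (Multiplicative (ZMod n))
    (Multiplicative.ofAdd 1) (Multiplicative.ofAdd 1) with ht
  have hgen : ∀ s, s ∈ Subgroup.zpowers t := CL.Schur.abTensor_induction _ (fun a b => by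
    have ha : a = (Multiplicative.ofAdd 1) ^ a.toAdd.val := by
      rw [← ofAdd_nsmul]; simp
    have hb : b = (Multiplicative.ofAdd 1) ^ b.toAdd.val := by
      rw [← ofAdd_nsmul]; simp
    rw [ha, hb, map_pow, map_pow, MonoidHom.pow_apply]
    exact pow_mem (pow_mem (Subgroup.mem_zpowers _) _) _)
  have htn : t ^ n = 1 := by
    rw [ht, ← map_pow, ← ofAdd_nsmul]
    simp
  have hψt : ψ t = Multiplicative.ofAdd 1 := by
    rw [ht, hψ, hc]; simp [ZMod.cast_one hnm]
  have hbij : Function.Bijective ψ := by
    constructor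
    · rw [injective_iff_map_eq_one]
      intro s hs
      obtain ⟨k, rfl⟩ := Subgroup.mem_zpowers_iff.mp (hgen s)
      rw [map_zpow, hψt, ← ofAdd_zsmul, ofAdd_eq_one, zsmul_one, ZMod.intCast_zmod_eq_zero_iff_dvd] at hs
      obtain ⟨l, rfl⟩ := hs
      rw [zpow_mul, zpow_natCast, htn, one_zpow]
    · intro b
      refine ⟨_, (hψ (Multiplicative.ofAdd 1) b).trans ?_⟩
      rw [hc]; simp [ZMod.cast_one hnm]
  exact CL.Schur.hasSchurMultiplier_congr_left (CL.Schur.hasSchurMultiplier_congr_right h
    (MulEquiv.uniqueProd.trans (MulEquiv.uniqueProd.trans (MulEquiv.ofBijective ψ hbij))))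
    (MulEquiv.prodMultiplicative (ZMod m) (ZMod n)).symm

end Cfsg.Agent.S3951
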