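import Cfsg.Statements.S3953
import Cfsg.Agent.FGS.SchurTransfer

set_option autoImplicit false
open Cfsg

namespace Cfsg.Agent.S3953

/-- Let `P` be a Sylow `p`-subgroup of the finite group `G`, let `A` be the Schur multiplier of `G` and `B` that of `P`. Then the `p`-primary component of `A` is isomorphic to a direct factor of `B`: there are subgroups `C` and `D` of `B` meeting trivially and generating `B`, with `C` isomorphic to the `p`-primary component of `A`. -/
theorem result {G : Type*} [Group G] [Finite G] (p : ℕ) [Fact p.Prime] (P : Sylow p G) {A B : Type*} [CommGroup A] [CommGroup B] (hA : Cfsg.HasSchurMultiplier G A) (hB : Cfsg.HasSchurMultiplier P B) : ∃ C D : Subgroup B, C ⊓ D = ⊥ ∧ C ⊔ D = ⊤ ∧ Nonempty (CommGroup.primaryComponent A p ≃* C) := by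
  obtain ⟨res, cores, h⟩ := CL.Schur.exists_res_cores (P : Subgroup G) hA hB
  obtain ⟨k, hk⟩ := IsPGroup.iff_card.mp P.2
  have hcop : p.Coprime (P : Subgroup G).index :=
    (Fact.out : p.Prime).coprime_iff_not_dvd.mpr P.not_dvd_index
  let e : CommGroup.primaryComponent A p ≃* CommGroup.primaryComponent A p :=
    { (CommGroup.primaryComponent.isPGroup (G := A) (p := p)).powEquiv hcop with
      map_mul' := fun a b => mul_pow a b _ }
  let c : B →* CommGroup.primaryComponent A p := cores.codRestrict _ (fun b => ⟨k, by
    rw [← map_pow, ← hk, CL.Schur.multiplier_pow_card hB, map_one]⟩)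
  let r : B →* CommGroup.primaryComponent A p := e.symm.toMonoidHom.comp c
  let j : CommGroup.primaryComponent A p →* B := res.comp (Subgroup.subtype _)
  have hr : ∀ a, r (j a) = a := fun a => by
    change e.symm (c (j a)) = a
    rw [MulEquiv.symm_apply_eq]
    exact Subtype.ext (h a)
  have hj : Function.Injective j := Function.LeftInverse.injective hr
  refine ⟨j.range, r.ker, ?_, ?_, ⟨MonoidHom.ofInjective hj⟩⟩
  · rw [eq_bot_iff]
    rintro _ ⟨⟨a, rfl⟩, ha⟩
    have : a = 1 := (hr a).symm.trans ha
    simp [this]
  · rw [eq_top_iff]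
    intro b _
    have : b = j (r b) * ((j (r b))⁻¹ * b) := by group
    rw [this]
    refine Subgroup.mul_mem_sup ⟨_, rfl⟩ ?_
    rw [MonoidHom.mem_ker, map_mul, map_inv, hr, inv_mul_cancel]

end Cfsg.Agent.S3953
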