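import Cfsg.Statements.S3960
import Cfsg.Agent.FGS.SchurCover

set_option autoImplicit false
universe u
open Cfsg

namespace Cfsg.Agent.S3960

/-- A finite perfect group `Q` has a universal central extension: a finite perfect group `G` in the universe of `Q` and a surjective homomorphism `π : G →* Q` with central kernel such that for every group `X` in that universe and every surjective homomorphism `ξ : X →* Q` with central kernel there is exactly one homomorphism `η : G →* X` with `ξ ∘ η = π`. -/
theorem result {Q : Type u} [Group Q] [Finite Q] (hQ : Group.IsPerfect Q) : ∃ (G : Type u) (_ : Group G) (_ : Finite G) (π : G →* Q), Group.IsPerfect G ∧ Function.Surjective π ∧ π.ker ≤ Subgroup.center G ∧ ∀ (X : Type u) [Group X] (ξ : X →* Q), Function.Surjective ξ → ξ.ker ≤ Subgroup.center X → ∃! η : G →* X, ξ.comp η = π := by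
  obtain ⟨Γ, _, _, σ, h⟩ := CL.Schur.exists_cover Q
  have hΓ := CL.Schur.perfect_of_stem h.stem hQ
  refine ⟨Γ, inferInstance, inferInstance, σ, hΓ, h.stem.1, h.stem.2.1, ?_⟩
  intro X _ ξ h1 h2
  obtain ⟨η, hη⟩ := h.exists_lift_of_perfect hQ (MonoidHom.id Q) (ξ := ξ) ⟨h1, h2⟩
  exact ⟨η, hη, fun η' hη' => CL.Schur.lift_unique_of_perfect hΓ h2 (hη'.trans hη.symm)⟩

end Cfsg.Agent.S3960
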