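import Cfsg.Statements.S3962
import Mathlib.GroupTheory.IsPerfect

set_option autoImplicit false
open Cfsg

namespace Cfsg.Agent.S3962

/-- Let `G` be a perfect group and `π : G →* Q` a surjective homomorphism whose kernel is central. Then `π` maps the centre of `G` onto the centre of `Q`. Taking `π` to be the map to `G ⧸ Z(G)` shows that the central quotient of a perfect group has trivial centre. -/
theorem result {G Q : Type*} [Group G] [Group Q] (hG : Group.IsPerfect G) (π : G →* Q) (hπ : Function.Surjective π) (hker : π.ker ≤ Subgroup.center G) : (Subgroup.center G).map π = Subgroup.center Q := by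
  apply le_antisymm
  · rintro _ ⟨z, hz, rfl⟩
    rw [Subgroup.mem_center_iff]
    intro q
    obtain ⟨g, rfl⟩ := hπ q
    rw [← map_mul, ← map_mul, Subgroup.mem_center_iff.mp hz g]
  · intro q hq
    obtain ⟨g, rfl⟩ := hπ q
    refine ⟨g, ?_, rfl⟩
    have h1 : (QuotientGroup.mk g : G ⧸ Subgroup.center G) ∈ Subgroup.center (G ⧸ Subgroup.center G) := by
      rw [Subgroup.mem_center_iff]
      intro x
      obtain ⟨x, rfl⟩ := QuotientGroup.mk_surjective x
      rw [← QuotientGroup.mk_mul, ← QuotientGroup.mk_mul, QuotientGroup.eq]
      apply hker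
      rw [MonoidHom.mem_ker, map_mul, map_inv, map_mul, map_mul, Subgroup.mem_center_iff.mp hq (π x)]
      simp
    rw [Group.IsPerfect.center_quotient_center_eq_bot, Subgroup.mem_bot, QuotientGroup.eq_one_iff] at h1
    exact h1

end Cfsg.Agent.S3962
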