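import Cfsg.Statements.S3966
import Mathlib

set_option autoImplicit false
open Cfsg

namespace Cfsg.Agent.S3966

open QuaternionGroup DihedralGroup
open scoped commutatorElement

/-- The natural projection of the dicyclic group onto the dihedral group. -/
def proj (n : ℕ) : QuaternionGroup n →* DihedralGroup n :=
  MonoidHom.mk' (fun x => match x with
    | a i => r (ZMod.castHom (Dvd.intro_left 2 rfl) (ZMod n) i)
    | xa i => sr (ZMod.castHom (Dvd.intro_left 2 rfl) (ZMod n) i)) (by
    rintro (i | i) (j | j)
    · simp only [a_mul_a, r_mul_r, map_add]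
    · simp only [a_mul_xa, r_mul_sr, map_sub]
    · simp only [xa_mul_a, sr_mul_r, map_add]
    · simp only [xa_mul_xa, sr_mul_sr, map_sub, map_add, map_natCast, ZMod.natCast_self, zero_add])

theorem proj_a (n : ℕ) (i : ZMod (2 * n)) :
    proj n (a i) = r (ZMod.castHom (Dvd.intro_left 2 rfl) (ZMod n) i) := rfl

theorem proj_xa (n : ℕ) (i : ZMod (2 * n)) :
    proj n (xa i) = sr (ZMod.castHom (Dvd.intro_left 2 rfl) (ZMod n) i) := rfl

theorem proj_surj (n : ℕ) : Function.Surjective (proj n) := by
  have h := ZMod.castHom_surjective (Dvd.intro_left 2 rfl : n ∣ 2 * n)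
  rintro (i | i)
  · obtain ⟨j, rfl⟩ := h i
    exact ⟨a j, rfl⟩
  · obtain ⟨j, rfl⟩ := h i
    exact ⟨xa j, rfl⟩

theorem mem_ker (n : ℕ) [NeZero n] (x : QuaternionGroup n) (hx : x ∈ (proj n).ker) :
    x = 1 ∨ x = a n := by
  rcases x with i | i
  · rw [MonoidHom.mem_ker, proj_a, DihedralGroup.one_def] at hx
    have h1 : ZMod.castHom (Dvd.intro_left 2 rfl : n ∣ 2 * n) (ZMod n) i = 0 := by
      injection hx
    have hn : 0 < n := Nat.pos_of_ne_zero (NeZero.ne n)
    have : NeZero (2 * n) := ⟨by omega⟩
    rw [← ZMod.natCast_zmod_val i, map_natCast, ZMod.natCast_eq_zero_iff] at h1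
    obtain ⟨k, hk⟩ := h1
    have h2 := ZMod.val_lt i
    rw [hk] at h2
    have h3 : k < 2 := by nlinarith
    rw [← ZMod.natCast_zmod_val i, hk]
    interval_cases k
    · left; simp
    · right; simp
  · rw [MonoidHom.mem_ker, proj_xa, DihedralGroup.one_def] at hx
    cases hx

/-- For even `n ≥ 2` the dicyclic group of order `4 n` is a stem extension of the dihedral group of order `2 n` with kernel of order `2`: there is a surjective homomorphism `QuaternionGroup n →* DihedralGroup n` whose kernel is central, lies in the commutator subgroup and has two elements. Together with the order of the multiplier this exhibits the dicyclic group as a Schur covering group of the dihedral group. -/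
theorem result (n : ℕ) [NeZero n] (hn : Even n) : ∃ σ : QuaternionGroup n →* DihedralGroup n, Cfsg.IsStemExtension σ ∧ Nat.card σ.ker = 2 := by
  have h2n : (n : ZMod (2 * n)) + n = 0 := by
    have : ((2 * n : ℕ) : ZMod (2 * n)) = 0 := ZMod.natCast_self _
    push_cast at this
    linear_combination this
  refine ⟨proj n, ⟨proj_surj n, ?_, ?_⟩, ?_⟩
  · intro x hx
    rcases mem_ker n x hx with rfl | rfl
    · exact one_mem _
    · rw [Subgroup.mem_center_iff]
      rintro (j | j)
      · simp only [a_mul_a, add_comm]
      · simp only [a_mul_xa, xa_mul_a]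
        congr 1
        linear_combination h2n
  · intro x hx
    rcases mem_ker n x hx with rfl | rfl
    · exact one_mem _
    · obtain ⟨k, hk⟩ := hn
      have hk' : (n : ZMod (2 * n)) = k + k := by exact_mod_cast congrArg (Nat.cast : ℕ → ZMod (2 * n)) hk
      have : (a n : QuaternionGroup n) = ⁅(a k : QuaternionGroup n), xa 0⁆ := by
        rw [commutatorElement_def, eq_mul_inv_iff_mul_eq, eq_mul_inv_iff_mul_eq]
        simp only [a_mul_xa, xa_mul_a]
        congr 1
        linear_combination (-1 : ZMod (2 * n)) * hk'
      rw [this]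
      exact Subgroup.commutator_mem_commutator (Subgroup.mem_top _) (Subgroup.mem_top _)
  · have h1 := (proj n).ker.card_mul_index
    rw [Subgroup.index_ker, MonoidHom.range_eq_top.mpr (proj_surj n), Subgroup.card_top,
      DihedralGroup.nat_card, Nat.card_eq_fintype_card (α := QuaternionGroup n), QuaternionGroup.card] at h1
    have hn : 0 < n := Nat.pos_of_ne_zero (NeZero.ne n)
    nlinarith

end Cfsg.Agent.S3966
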