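import Cfsg.Statements.S3965
import Cfsg.Agent.FGS.SchurDihedral
import Cfsg.Agent.S3966

set_option autoImplicit false
open Cfsg

namespace Cfsg.Agent.S3965

/-- For even `n ≥ 2` the dihedral group of order `2 n` has Schur multiplier cyclic of order `2`. -/
theorem result (n : ℕ) [NeZero n] (hn : Even n) : Cfsg.HasCyclicSchurMultiplier (DihedralGroup n) 2 := by
  obtain ⟨σ, hσ, hc⟩ := Cfsg.Agent.S3966.result n hn
  exact CL.Schur.hasSchurMultiplier_of_trivial_cover hσ (CL.Schur.trivial_quaternion n)
    (mulEquivOfPrimeCardEq hc (by simp))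

end Cfsg.Agent.S3965
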