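import Cfsg.Statements.S3967
import Cfsg.Agent.FGS.SchurPres
import Cfsg.Agent.FGS.SchurMeta

set_option autoImplicit false
open Cfsg

namespace Cfsg.Agent.S3967

open CL.Schur
open scoped commutatorElement

theorem finite_of_rel {G : Type*} [Group G] (α β : G) (hgen : Subgroup.closure {α, β} = ⊤)
    {m n r t : ℕ} (hm : 0 < m) (hn : 0 < n) (h1 : α ^ m = 1) (h2 : β ^ n = α ^ t)
    (h3 : β * α * β⁻¹ = α ^ r) : Finite G := by
  have hfin : Finite (Subgroup.zpowers α) :=
    (finite_zpowers.mpr (isOfFinOrder_iff_pow_eq_one.mpr ⟨m, hm, h1⟩)).to_subtype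
  have hN : (Subgroup.zpowers α).Normal := by
    rw [← Subgroup.normalizer_eq_top_iff, eq_top_iff, ← hgen, Subgroup.closure_le]
    rintro x (rfl | rfl)
    · exact Subgroup.le_normalizer (Subgroup.mem_zpowers _)
    · apply Subgroup.mem_normalizer_fintype
      rintro _ ⟨j, rfl⟩
      refine ⟨r * j, ?_⟩
      simp only
      rw [← conj_zpow, h3, zpow_mul, zpow_natCast]
  have h4 : Subgroup.zpowers (β : G ⧸ Subgroup.zpowers α) = ⊤ := by
    have := congrArg (Subgroup.map (QuotientGroup.mk' (Subgroup.zpowers α))) hgen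
    rw [MonoidHom.map_closure, Set.image_pair,
      Subgroup.map_top_of_surjective _ (QuotientGroup.mk'_surjective _)] at this
    rw [eq_top_iff, ← this, Subgroup.closure_le]
    rintro x (rfl | rfl)
    · rw [QuotientGroup.mk'_apply, (QuotientGroup.eq_one_iff _).mpr (Subgroup.mem_zpowers _)]
      exact one_mem _
    · exact Subgroup.mem_zpowers _
  have h5 : Finite (G ⧸ Subgroup.zpowers α) := by
    have : (Subgroup.zpowers (β : G ⧸ Subgroup.zpowers α) :
        Set (G ⧸ Subgroup.zpowers α)).Finite :=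
      finite_zpowers.mpr (isOfFinOrder_iff_pow_eq_one.mpr ⟨n, hn, by
        rw [← QuotientGroup.mk_pow (Subgroup.zpowers α),
          QuotientGroup.eq_one_iff (N := Subgroup.zpowers α), h2]
        exact pow_mem (Subgroup.mem_zpowers _) _⟩)
    rw [h4] at this
    exact Set.finite_univ_iff.mp this
  exact Finite.of_subgroup_quotient (Subgroup.zpowers α)

theorem conj_pow_geom {E : Type*} [Group E] {A B : E} {r : ℕ}
    (h2 : B * ⁅B, A⁆ * B⁻¹ = ⁅B, A⁆ ^ (r : ℤ)) (k : ℕ) :
    B ^ k * A * (B ^ k)⁻¹ = ⁅B, A⁆ ^ (∑ i ∈ Finset.range k, r ^ i) * A := by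
  induction k with
  | zero => simp
  | succ k ih =>
    have h3 : B * A * B⁻¹ = ⁅B, A⁆ * A := by simp [commutatorElement_def]
    calc B ^ (k + 1) * A * (B ^ (k + 1))⁻¹ = B * (B ^ k * A * (B ^ k)⁻¹) * B⁻¹ := by
          rw [pow_succ']; group
      _ = (B * ⁅B, A⁆ * B⁻¹) ^ (∑ i ∈ Finset.range k, r ^ i) * (B * A * B⁻¹) := by
          rw [ih, conj_pow]; group
      _ = _ := by
          rw [h2, h3, zpow_natCast, ← pow_mul, ← mul_assoc, ← pow_succ, Finset.sum_range_succ',
            Finset.mul_sum]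
          simp only [pow_succ', pow_zero]

/-- Translations of `C × C`. -/
def tr {C : Type*} [CommRing C] : Multiplicative (C × C) →* Equiv.Perm (C × C) where
  toFun v := Equiv.addRight v.toAdd
  map_one' := by ext x <;> simp
  map_mul' v w := by ext x <;> simp [add_comm, add_left_comm]

/-- The linear map `(x, y) ↦ (x, x + ρ y)`. -/
def lin {C : Type*} [CommRing C] (ρ : Cˣ) : Equiv.Perm (C × C) where
  toFun p := (p.1, p.1 + ρ * p.2)
  invFun p := (p.1, ρ⁻¹ * (p.2 - p.1))
  left_inv p := by simp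
  right_inv p := by simp

theorem lin_tr {C : Type*} [CommRing C] (ρ : Cˣ) (x y : C) :
    lin ρ * tr (Multiplicative.ofAdd (x, y)) = tr (Multiplicative.ofAdd (x, x + ρ * y)) * lin ρ := by
  ext p
  · simp [lin, tr]
  · simp [lin, tr]; ring

theorem lin_pow {C : Type*} [CommRing C] (ρ : Cˣ) (k : ℕ) (p : C × C) :
    (lin ρ ^ k) p = (p.1, (∑ i ∈ Finset.range k, (ρ : C) ^ i) * p.1 + ρ ^ k * p.2) := by
  induction k with
  | zero => simp
  | succ k ih =>
    rw [pow_succ', Equiv.Perm.mul_apply, ih, Finset.sum_range_succ']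
    simp only [lin, Equiv.coe_fn_mk, pow_succ', ← Finset.mul_sum]
    congr 1
    ring

theorem tr_injective {C : Type*} [CommRing C] : Function.Injective (tr (C := C)) := by
  intro v w h
  simpa [tr] using DFunLike.congr_fun h 0

/-- A model in which the commutator has order `N`. -/
theorem exists_model {N m n r t : ℕ} (hn : 0 < n) (h1 : N ∣ m) (h2 : N ∣ t)
    (h3 : N ∣ ∑ i ∈ Finset.range n, r ^ i) (hrn : r ^ n ≡ 1 [MOD m]) :
    ∃ (a b : Equiv.Perm (ZMod N × ZMod N)), a ^ m = 1 ∧ b ^ n * (a ^ t)⁻¹ = 1 ∧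
      Commute a (b * a * b⁻¹ * (a ^ r)⁻¹) ∧ Commute b (b * a * b⁻¹ * (a ^ r)⁻¹) ∧
      ∀ j : ℕ, ⁅b, a⁆ ^ j = 1 → N ∣ j := by
  have hr : (r : ZMod N) ^ n = 1 := by
    have := (ZMod.natCast_eq_natCast_iff _ _ _).mpr (hrn.of_dvd h1)
    simpa using this
  let ρ : (ZMod N)ˣ := Units.ofPowEqOne (r : ZMod N) n hr hn.ne'
  have hρ : (ρ : ZMod N) = r := rfl
  have hpow : ∀ k : ℕ, tr (Multiplicative.ofAdd ((1 : ZMod N), (0 : ZMod N))) ^ k =
      tr (Multiplicative.ofAdd ((k : ZMod N), (0 : ZMod N))) := fun k => by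
    rw [← map_pow, ← ofAdd_nsmul]; simp
  have hconj : lin ρ * tr (Multiplicative.ofAdd ((1 : ZMod N), (0 : ZMod N))) * (lin ρ)⁻¹ =
      tr (Multiplicative.ofAdd ((1 : ZMod N), (1 : ZMod N))) := by
    rw [lin_tr]; simp
  have hw : lin ρ * tr (Multiplicative.ofAdd ((1 : ZMod N), (0 : ZMod N))) * (lin ρ)⁻¹ *
      (tr (Multiplicative.ofAdd ((1 : ZMod N), (0 : ZMod N))) ^ r)⁻¹ =
      tr (Multiplicative.ofAdd ((1 - r : ZMod N), (1 : ZMod N))) := by
    rw [hconj, hpow, ← map_inv, ← map_mul, ← ofAdd_neg, ← ofAdd_add]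
    simp [sub_eq_add_neg]
  refine ⟨tr (Multiplicative.ofAdd (1, 0)), lin ρ, ?_, ?_, ?_, ?_, ?_⟩
  · rw [hpow, (ZMod.natCast_eq_zero_iff _ _).mpr h1]
    exact map_one tr
  · rw [hpow, (ZMod.natCast_eq_zero_iff _ _).mpr h2, mul_inv_eq_one]
    refine Eq.trans ?_ (map_one tr).symm
    have h4 : (∑ i ∈ Finset.range n, (r : ZMod N) ^ i) = 0 := by
      have := (ZMod.natCast_eq_zero_iff _ _).mpr h3
      simpa using this
    refine Equiv.ext fun p => ?_
    rw [lin_pow, hρ, h4, hr]
    simp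
  · rw [hw]
    exact (Commute.all _ _).map tr
  · rw [hw, Commute, SemiconjBy, lin_tr, hρ]
    simp
  · intro j hj
    rw [commutatorElement_def, hconj, ← map_inv, ← map_mul, ← map_pow, ← map_one tr,
      tr_injective.eq_iff, ← ofAdd_neg, ← ofAdd_add, ← ofAdd_nsmul, ofAdd_eq_one] at hj
    have := congrArg Prod.snd hj
    simpa [ZMod.natCast_eq_zero_iff] using this

theorem main (m n r t q e : ℕ) (hm : 0 < m) (hn : 0 < n) (hr : 0 < r) (hrn : r ^ n ≡ 1 [MOD m])
    (hq : q * Nat.gcd m (r - 1) = m)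
    (he : q * e = Nat.gcd t (Nat.gcd m (∑ i ∈ Finset.range n, r ^ i))) :
    Cfsg.HasCyclicSchurMultiplier (PresentedGroup ({FreeGroup.of true ^ m,
      (FreeGroup.of false) ^ n * (FreeGroup.of true ^ t)⁻¹,
      FreeGroup.of false * FreeGroup.of true * (FreeGroup.of false)⁻¹ * (FreeGroup.of true ^ r)⁻¹} :
      Set (FreeGroup Bool))) e := by
  set rels : Set (FreeGroup Bool) := {FreeGroup.of true ^ m,
      (FreeGroup.of false) ^ n * (FreeGroup.of true ^ t)⁻¹,
      FreeGroup.of false * FreeGroup.of true * (FreeGroup.of false)⁻¹ * (FreeGroup.of true ^ r)⁻¹}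
    with hrels
  set π := PresentedGroup.mk rels with hπ
  have r1 : π (FreeGroup.of true ^ m) = 1 := PresentedGroup.one_of_mem (by simp [hrels])
  have r2 : π ((FreeGroup.of false) ^ n * (FreeGroup.of true ^ t)⁻¹) = 1 :=
    PresentedGroup.one_of_mem (by simp [hrels])
  have r3 : π (FreeGroup.of false * FreeGroup.of true * (FreeGroup.of false)⁻¹ *
      (FreeGroup.of true ^ r)⁻¹) = 1 := PresentedGroup.one_of_mem (by simp [hrels])
  have hfin : Finite (PresentedGroup rels) := by
    refine finite_of_rel (π (.of true)) (π (.of false)) ?_ hm hn (t := t) (r := r) ?_ ?_ ?_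
    · rw [← PresentedGroup.closure_range_of rels]
      congr 1
      ext x
      simp only [Set.mem_insert_iff, Set.mem_singleton_iff, Set.mem_range, Bool.exists_bool]
      exact ⟨fun h => h.elim (fun h => Or.inr h.symm) (fun h => Or.inl h.symm),
        fun h => h.elim (fun h => Or.inr h.symm) (fun h => Or.inl h.symm)⟩
    · simpa using r1
    · simpa [mul_inv_eq_one] using r2
    · simpa [mul_inv_eq_one] using r3
  have hε := hopfExt_central (PresentedGroup.mk_surjective rels)
  refine (hasSchurMultiplier_iff_hopf (PresentedGroup.mk_surjective rels)).mpr ?_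
  let A : FreeGroup Bool ⧸ relComm π := QuotientGroup.mk (.of true)
  let B : FreeGroup Bool ⧸ relComm π := QuotientGroup.mk (.of false)
  have k1 : hopfExt π (A ^ m) = 1 := r1
  have k2 : hopfExt π (B ^ n * (A ^ t)⁻¹) = 1 := r2
  have k3 : hopfExt π (B * A * B⁻¹ * (A ^ r)⁻¹) = 1 := r3
  obtain ⟨c1, c2⟩ := meta_commutator hε.central (a := A) (b := B) (r := r)
    (by simpa [mul_inv_eq_one] using k3)
  have hc : ∀ j : ℕ, Commute B (A ^ j) → ⁅B, A⁆ ^ j = 1 := fun j hj => by
    have := conj_zpow_of_commute c1 j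
    rw [zpow_natCast, hj.eq, mul_inv_cancel_right] at this
    simpa using this.symm
  have p1 : ⁅B, A⁆ ^ m = 1 := hc m (hε.comm k1 B)
  have p2 : ⁅B, A⁆ ^ t = 1 := hc t (by
    have : A ^ t = (B ^ n * (A ^ t)⁻¹)⁻¹ * B ^ n := by group
    rw [this]
    exact (Commute.inv_right (hε.comm k2 B)).mul_right ((Commute.refl B).pow_right n))
  have p3 : ⁅B, A⁆ ^ (∑ i ∈ Finset.range n, r ^ i) = 1 := by
    have h1 := conj_pow_geom c2 n
    have h2 : Commute A (B ^ n) := by
      have : B ^ n = (B ^ n * (A ^ t)⁻¹) * A ^ t := by group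
      rw [this]
      exact Commute.mul_right (hε.comm k2 A) ((Commute.refl A).pow_right t)
    rw [← h2.eq, mul_inv_cancel_right] at h1
    simpa using h1.symm
  have hq0 : 0 < q := Nat.pos_of_ne_zero (by rintro rfl; omega)
  have hcw : ⁅B, A⁆ = A ^ ((r : ℤ) - 1) * (B * A * B⁻¹ * (A ^ r)⁻¹) := by
    rw [hε.comm k3, commutatorElement_def, ← zpow_natCast]; group
  have hord : orderOf (⁅B, A⁆ ^ q) = e := by
    apply Nat.dvd_antisymm
    · rw [orderOf_dvd_iff_pow_eq_one, ← pow_mul, he]
      exact pow_gcd_eq_one.mpr ⟨p2, pow_gcd_eq_one.mpr ⟨p1, p3⟩⟩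
    · obtain ⟨a, b, m1, m2, m3, m4, m5⟩ := exists_model (N := q * e) (m := m) (t := t) hn
        (he ▸ (Nat.gcd_dvd_right _ _).trans (Nat.gcd_dvd_left _ _)) (he ▸ Nat.gcd_dvd_left _ _)
        (he ▸ (Nat.gcd_dvd_right _ _).trans (Nat.gcd_dvd_right _ _)) hrn
      let f : FreeGroup Bool →* Equiv.Perm _ := FreeGroup.lift (fun x => bif x then a else b)
      have hf : relComm π ≤ f.ker := by
        apply relComm_le_ker
        intro x hx
        rw [ker_presentedGroup_mk] at hx
        have : Subgroup.normalClosure rels ≤ (Subgroup.center f.range).comap f.rangeRestrict := by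
          apply Subgroup.normalClosure_le_normal
          have key : ∀ z : FreeGroup Bool, Commute a (f z) → Commute b (f z) →
              z ∈ (Subgroup.center f.range).comap f.rangeRestrict := fun z h1 h2 => by
            rw [Subgroup.mem_comap, Subgroup.mem_center_iff]
            rintro ⟨_, y, rfl⟩
            apply Subtype.ext
            change Commute (f y) (f z)
            induction y using FreeGroup.induction_on with
            | C1 => simp
            | of x => cases x <;> simpa [f]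
            | inv_of x ih => simpa using ih
            | mul x y hx hy => rw [map_mul]; exact hx.mul_left hy
          rintro z (rfl | rfl | rfl)
          · apply key <;> simp [f, m1]
          · apply key <;> simp [f, m2]
          · apply key
            · simpa [f] using m3
            · simpa [f] using m4
        intro y
        exact congrArg Subtype.val (Subgroup.mem_center_iff.mp (this hx) (f.rangeRestrict y))
      have h1 := congrArg (QuotientGroup.lift _ f hf) (pow_orderOf_eq_one (⁅B, A⁆ ^ q))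
      rw [← pow_mul, map_pow, map_commutatorElement, map_one] at h1
      exact Nat.dvd_of_mul_dvd_mul_left hq0 (m5 _ (by simpa [A, B, f] using h1))
  have heq : stemKer (hopfExt π) = Subgroup.zpowers (⁅B, A⁆ ^ q) := by
    obtain ⟨d', hd'⟩ := Nat.gcd_dvd_right m (r - 1)
    have hd2 : (r : ℤ) - 1 = Nat.gcd m (r - 1) * d' := by
      have : ((r - 1 : ℕ) : ℤ) = r - 1 := by omega
      rw [← this]; exact_mod_cast hd'
    have hq' : (m : ℤ) = q * Nat.gcd m (r - 1) := by exact_mod_cast hq.symm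
    have cw : Commute (A ^ ((r : ℤ) - 1)) (B * A * B⁻¹ * (A ^ r)⁻¹) := hε.comm k3 _
    apply le_antisymm
    · intro k hk
      have h1 := hk.1
      rw [hopf_ker_le_closure π rels (ker_presentedGroup_mk rels)] at h1
      have h2 : ∃ x y z : ℤ, k = (A ^ m) ^ x * (B ^ n * (A ^ t)⁻¹) ^ y *
          (B * A * B⁻¹ * (A ^ r)⁻¹) ^ z := by
        have cu : ∀ (x : ℤ) g, g * (A ^ m) ^ x = (A ^ m) ^ x * g := fun x g =>
          hε.comm (by rw [map_zpow, k1, one_zpow]) g
        have cv : ∀ (x : ℤ) g, g * (B ^ n * (A ^ t)⁻¹) ^ x = (B ^ n * (A ^ t)⁻¹) ^ x * g := fun x g =>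
          hε.comm (by rw [map_zpow, k2, one_zpow]) g
        clear hk
        induction h1 using Subgroup.closure_induction with
        | mem x hx =>
          obtain ⟨y, (rfl | rfl | rfl), rfl⟩ := hx
          · exact ⟨1, 0, 0, by simp [A]⟩
          · exact ⟨0, 1, 0, by simp [A, B]⟩
          · exact ⟨0, 0, 1, by simp [A, B]⟩
        | one => exact ⟨0, 0, 0, by simp⟩
        | mul x y _ _ hx hy =>
          obtain ⟨x1, x2, x3, rfl⟩ := hx
          obtain ⟨y1, y2, y3, rfl⟩ := hy
          refine ⟨x1 + y1, x2 + y2, x3 + y3, ?_⟩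
          rw [zpow_add, zpow_add, zpow_add]
          simp only [mul_assoc]
          congr 1
          rw [← mul_assoc _ _ ((A ^ m) ^ y1 * _), ← mul_assoc _ ((A ^ m) ^ y1), cu y1]
          simp only [mul_assoc]
          congr 2
          rw [← mul_assoc _ _ (_ ^ y3), ← mul_assoc _ _ (_ ^ y3)]
          congr 1
          simpa only [mul_assoc] using cv y2 _
        | inv x _ hx =>
          obtain ⟨x1, x2, x3, rfl⟩ := hx
          refine ⟨-x1, -x2, -x3, ?_⟩
          rw [mul_inv_rev, mul_inv_rev, ← zpow_neg, ← zpow_neg, ← zpow_neg, ← mul_assoc, cu, cv]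
          simp only [mul_assoc]
      obtain ⟨x, y, z, rfl⟩ := h2
      let θ : FreeGroup Bool →* Multiplicative (ℤ × ℤ) :=
        FreeGroup.lift (fun x => bif x then .ofAdd (1, 0) else .ofAdd (0, 1))
      have h3 := Abelianization.commutator_subset_ker (hopfAbLift π θ) hk.2
      have hA : hopfAbLift π θ A = .ofAdd (1, 0) := by simp [A, θ]
      have hB : hopfAbLift π θ B = .ofAdd (0, 1) := by simp [B, θ]
      simp only [MonoidHom.mem_ker, map_mul, map_zpow, map_pow, map_inv, hA, hB] at h3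
      have h4 := congrArg (fun v => (Multiplicative.toAdd v).1) h3
      have h5 := congrArg (fun v => (Multiplicative.toAdd v).2) h3
      simp at h4 h5
      have hy : y = 0 := h5.resolve_right hn.ne'
      subst hy
      have h6 : (m : ℤ) * x = (r - 1) * z := by linear_combination h4
      have hg0 : (Nat.gcd m (r - 1) : ℤ) ≠ 0 := by
        exact_mod_cast (Nat.gcd_pos_of_pos_left _ hm).ne'
      have h7 : (q : ℤ) * x = d' * z := by
        apply mul_left_cancel₀ hg0
        rw [hd2] at h6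
        linear_combination h6 - x * hq'
      have h8 : Nat.Coprime q d' := by
        have h9 : Nat.gcd m (r - 1) = Nat.gcd (Nat.gcd m (r - 1) * q) (Nat.gcd m (r - 1) * d') := by
          rw [← hd', mul_comm, hq]
        rw [Nat.gcd_mul_left] at h9
        exact (Nat.mul_eq_left (Nat.gcd_pos_of_pos_left _ hm).ne').mp h9.symm
      obtain ⟨j, rfl⟩ : (q : ℤ) ∣ z :=
        (Nat.isCoprime_iff_coprime.mpr h8).dvd_of_dvd_mul_left ⟨x, h7.symm⟩
      refine ⟨j, ?_⟩
      simp only [zpow_zero, mul_one]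
      rw [← zpow_natCast, ← zpow_mul, hcw, cw.mul_zpow, ← zpow_mul, ← h6, zpow_mul, zpow_natCast]
    · rw [Subgroup.zpowers_le]
      refine mem_stemKer.mpr ⟨?_, pow_mem
        (Subgroup.commutator_mem_commutator (Subgroup.mem_top _) (Subgroup.mem_top _)) _⟩
      rw [map_pow, hcw, map_mul, k3, mul_one, ← map_pow, ← zpow_natCast, ← zpow_mul, hd2,
        show (Nat.gcd m (r - 1) : ℤ) * d' * q = m * d' by rw [hq']; ring, zpow_mul, map_zpow,
        zpow_natCast A, k1, one_zpow]
  rw [heq]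
  exact ⟨mulEquivOfCyclicCardEq (by
    rw [Nat.card_zpowers, hord]
    first
      | exact (Nat.card_congr Multiplicative.toAdd).trans (Nat.card_zmod e)
      | exact ((Nat.card_congr Multiplicative.toAdd).trans (Nat.card_zmod e)).symm)⟩

/-- Let `m, n ≥ 1`, `r ≥ 1` with `r ^ n ≡ 1 (mod m)`, and `l` a natural number; put `d = gcd(m, r - 1)`, `t = m l / d` and `h = d · gcd(m, 1 + r + ⋯ + r^(n-1)) / m`. The group presented by generators `a, b` and relations `a ^ m = 1`, `b ^ n = a ^ t`, `b a b⁻¹ = a ^ r` (a metacyclic group of order `m n`) has Schur multiplier cyclic of order `gcd(l, h)`. -/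
theorem result (m n r l : ℕ) (hm : 0 < m) (hn : 0 < n) (hr : 0 < r) (hrn : r ^ n ≡ 1 [MOD m]) : Cfsg.HasCyclicSchurMultiplier (PresentedGroup ({FreeGroup.of true ^ m, (FreeGroup.of false) ^ n * (FreeGroup.of true ^ (m * l / Nat.gcd m (r - 1)))⁻¹, FreeGroup.of false * FreeGroup.of true * (FreeGroup.of false)⁻¹ * (FreeGroup.of true ^ r)⁻¹} : Set (FreeGroup Bool))) (Nat.gcd l (Nat.gcd m (r - 1) * Nat.gcd m (∑ i ∈ Finset.range n, r ^ i) / m)) := by
  obtain ⟨q, hq⟩ := Nat.gcd_dvd_left m (r - 1)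
  have hd := Nat.gcd_pos_of_pos_left (r - 1) hm
  have hq0 : 0 < q := Nat.pos_of_ne_zero (by rintro rfl; omega)
  have h1 : m * l / Nat.gcd m (r - 1) = q * l := by
    apply Nat.div_eq_of_eq_mul_right hd
    rw [← mul_assoc, ← hq]
  have h2 : m ∣ (r - 1) * ∑ i ∈ Finset.range n, r ^ i := by
    have h0 : ((r - 1 : ℕ) : ℤ) * ∑ i ∈ Finset.range n, (r : ℤ) ^ i = (r : ℤ) ^ n - 1 := by
      rw [Nat.cast_sub hr, Nat.cast_one, mul_geom_sum]
    have h1 : (m : ℤ) ∣ (r : ℤ) ^ n - 1 := by
      have := hrn.symm.dvd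
      push_cast at this
      exact this
    rw [← h0] at h1
    exact_mod_cast h1
  have h3 : m ∣ Nat.gcd m (r - 1) * Nat.gcd m (∑ i ∈ Finset.range n, r ^ i) := by
    rw [← Nat.gcd_mul_left]
    refine Nat.dvd_gcd (Dvd.intro_left _ rfl) ?_
    rw [← Nat.gcd_mul_right]
    exact Nat.dvd_gcd (Dvd.intro _ rfl) h2
  obtain ⟨h, hh⟩ := h3
  refine main m n r _ q _ hm hn hr hrn (by rw [mul_comm, ← hq]) ?_
  rw [h1, hh, Nat.mul_div_cancel_left _ hm, ← Nat.gcd_mul_left]
  congr 1
  apply Nat.eq_of_mul_eq_mul_left hd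
  rw [hh, ← mul_assoc, ← hq]

end Cfsg.Agent.S3967
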