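import Cfsg.Statements.S3970
import Mathlib
import Cfsg.Agent.FGS.RankAct
import Cfsg.Agent.SOLV.HallConverse

set_option autoImplicit false
open Cfsg

namespace Cfsg.Agent.S3970

universe u

open Subgroup CL in
theorem aux (G : Type u) [Group G] [Finite G] :
    (∀ p : ℕ, p.Prime → p ∣ Nat.card G → (∃ q : ℕ, q.Prime ∧ q ∣ Nat.card G ∧ p < q) →
      ∀ P : Sylow p G, IsMulCommutative (P : Subgroup G) ∧ Group.rank (P : Subgroup G) ≤ 2) →
    ¬ 12 ∣ Nat.card G → Group.IsSolvable G := by
  induction hn : Nat.card G using Nat.strong_induction_on generalizing G with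
  | _ n ih =>
  subst hn
  intro h h12
  rcases subsingleton_or_nontrivial G with hG | hG
  · infer_instance
  set p := (Nat.card G).minFac with hp
  have hpp : p.Prime := Nat.minFac_prime Finite.one_lt_card.ne'
  have := Fact.mk hpp
  have hpd : p ∣ Nat.card G := Nat.minFac_dvd _
  by_cases hq : ∃ q : ℕ, q.Prime ∧ q ∣ Nat.card G ∧ p < q
  swap
  · refine isSolvable_of_isPGroup (p := p) (isPGroup_iff_isPiNum.2 fun q hq1 hq2 => ?_)
    have h1 := Nat.minFac_le_of_dvd hq1.two_le hq2
    exact le_antisymm (not_lt.1 fun h' => hq ⟨q, hq1, hq2, h'⟩) h1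
  obtain ⟨P⟩ : Nonempty (Sylow p G) := inferInstance
  obtain ⟨hab, hr⟩ := h p hpp hpd hq P
  have hN : Cfsg.HasNormalPComplement p G := by
    refine RankAct.hasNPC_of_abelian_rank P hab fun q i h1 h2 h3 h4 h5 h6 => ?_
    have hlt : p < q := lt_of_le_of_ne (Nat.minFac_le_of_dvd h1.two_le h3) h2.symm
    have h2p := hpp.two_le
    have hnd : ¬ q ∣ p - 1 := fun hd => by
      have := Nat.le_of_dvd (by omega) hd
      omega
    have : i = 1 ∨ i = 2 := by omega
    rcases this with rfl | rfl
    · exact hnd (by simpa using h6)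
    · have e : p ^ 2 - 1 = (p + 1) * (p - 1) := by
        rw [← Nat.sq_sub_sq, one_pow]
      rw [e, h1.dvd_mul] at h6
      have h7 := h6.resolve_right hnd
      have h8 : q = p + 1 := le_antisymm (Nat.le_of_dvd (by omega) h7) hlt
      have h9 : p = 2 := by
        by_contra hne
        have := h1.eq_two_or_odd'
        have := hpp.odd_of_ne_two hne
        grind
      apply h12
      have h3' : 3 ∣ Nat.card G := by rwa [h8, h9] at h3
      have h4' : 4 ∣ Nat.card G := by
        refine dvd_trans ?_ (Subgroup.card_subgroup_dvd_card (P : Subgroup G))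
        obtain ⟨k, hk⟩ := IsPGroup.iff_card.1 P.isPGroup'
        by_contra hd
        have hcyc : IsCyclic (P : Subgroup G) := by
          rw [hk, h9] at hd
          have hk1 : k ≤ 1 := by
            by_contra hk1
            exact hd (pow_dvd_pow 2 (by omega : 2 ≤ k))
          exact isCyclic_of_card_dvd_prime (p := p) (by
            rw [hk]; exact (pow_dvd_pow p hk1).trans (by simp))
        obtain ⟨c, hc⟩ := hcyc.exists_generator
        have : Group.rank (P : Subgroup G) ≤ 1 :=
          (Group.rank_le (S := {c}) (by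
            rw [eq_top_iff]; intro y _
            simpa [← zpowers_eq_closure] using hc y)).trans (by simp)
        omega
      exact Nat.Coprime.mul_dvd_of_dvd_of_dvd (by norm_num : Nat.Coprime 4 3) h4' h3'
  set K := Cfsg.pResidual p G with hK
  have hKc : ¬ p ∣ Nat.card K := hasNPC_iff_not_dvd_card_pResidual.1 hN
  have hKt : K ≠ ⊤ := fun e => hKc (by rw [e, Subgroup.card_top]; exact hpd)
  have hKs : Group.IsSolvable K := by
    refine ih _ (card_lt_of_ne_top hKt) K rfl ?_
      (fun hd => h12 (hd.trans (Subgroup.card_subgroup_dvd_card K)))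
    rintro r hr hrd ⟨q, hq1, hq2, hq3⟩ R
    have := Fact.mk hr
    obtain ⟨S, hS⟩ := R.exists_comap_subtype_eq
    have hSK : (S : Subgroup G) ≤ K := le_pResidual_of_coprime
      (coprime_card_of_isPGroup S.isPGroup' ((Nat.coprime_primes hpp hr).2
        (fun e => hKc (e ▸ hrd)))).symm
    obtain ⟨a1, a2⟩ := h r hr (hrd.trans (Subgroup.card_subgroup_dvd_card K))
      ⟨q, hq1, hq2.trans (Subgroup.card_subgroup_dvd_card K), hq3⟩ S
    have e : (R : Subgroup K) ≃* (S : Subgroup G) :=
      (MulEquiv.subgroupCongr hS.symm).trans (subgroupOfEquivOfLe hSK)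
    refine ⟨⟨⟨fun x y => e.injective ?_⟩⟩, (Group.rank_congr e).le.trans a2⟩
    rw [map_mul, map_mul]
    exact a1.is_comm.comm _ _
  exact isSolvable_of_normal_of_quotient K hKs
    (isSolvable_of_isPGroup isPGroup_quotient_pResidual)

/-- Let `G` be a finite group such that for every prime `p` dividing its order, other than the largest such prime, the Sylow `p`-subgroups are abelian and generated by at most two elements, and suppose `12` does not divide the order of `G`. Then `G` is solvable. In particular a group of cube-free order not divisible by `12` is solvable. -/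
theorem result {G : Type*} [Group G] [Finite G] (h : ∀ p : ℕ, p.Prime → p ∣ Nat.card G → (∃ q : ℕ, q.Prime ∧ q ∣ Nat.card G ∧ p < q) → ∀ P : Sylow p G, IsMulCommutative (P : Subgroup G) ∧ Group.rank (P : Subgroup G) ≤ 2) (h12 : ¬ 12 ∣ Nat.card G) : Group.IsSolvable G := by
  exact aux G h h12

end Cfsg.Agent.S3970
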