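import Cfsg.Statements.S3971
import Mathlib
import Cfsg.Agent.FGS.RankAct

set_option autoImplicit false
open Cfsg

namespace Cfsg.Agent.S3971

open Subgroup CL in

/-- Let `G` be a finite group of order `2 ^ a * n` with `n` odd and not divisible by `3`, and suppose `G` has an element of order `2 ^ (a - 1)` (so a Sylow `2`-subgroup has a cyclic subgroup of index at most `2`). Then `G` has a normal subgroup of order `n`. -/
theorem result {G : Type*} [Group G] [Finite G] (a n : ℕ) (hG : Nat.card G = 2 ^ a * n) (hn : Odd n) (h3 : ¬ 3 ∣ n) (hx : ∃ x : G, orderOf x = 2 ^ (a - 1)) : ∃ N : Subgroup G, N.Normal ∧ Nat.card N = n := by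
  obtain ⟨x, hx⟩ := hx
  have hxp : IsPGroup 2 (zpowers x) := IsPGroup.of_card (by rw [Nat.card_zpowers, hx])
  obtain ⟨P, hP⟩ := hxp.exists_le_sylow
  have hPc : Nat.card P = 2 ^ a := by
    rw [P.card_eq_multiplicity, hG, Nat.factorization_mul (by positivity) hn.pos.ne',
      Nat.factorization_pow]
    simp [Nat.prime_two.factorization, Nat.factorization_eq_zero_of_not_dvd
      (Odd.not_two_dvd_nat hn)]
  have hidx : (zpowers x).relIndex P ≤ 2 := by
    have := card_mul_relIndex_of_le hP
    rw [Nat.card_zpowers, hx, hPc] at this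
    rcases a with _ | a
    · rw [Nat.zero_sub, pow_zero, one_mul] at this
      exact this.le.trans one_le_two
    · rw [Nat.add_sub_cancel, pow_succ] at this
      exact (Nat.eq_of_mul_eq_mul_left (by positivity) this).le
  have hN : Cfsg.HasNormalPComplement 2 G := by
    rw [Tr.hasNPC_iff_forall_le_sylow P]
    intro Q hQ g hg hco
    by_contra hc
    obtain ⟨q, i, h1, h2, h3', h4, h5, h6⟩ :=
      RankAct.exists_prime_dvd_pow_sub_one (P.isPGroup'.to_le hQ) hg hco hc
    have hr : Group.rank Q ≤ 2 := by
      classical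
      set C := (zpowers x).subgroupOf Q with hC
      have hc : IsCyclic C := by
        rw [hC, ← Subgroup.inf_subgroupOf_right]
        have : IsCyclic ↥(zpowers x ⊓ Q) := Subgroup.isCyclic_of_le inf_le_left
        exact isCyclic_of_surjective _ (subgroupOfEquivOfLe inf_le_right).symm.surjective
      obtain ⟨c, hc⟩ := (Subgroup.isCyclic_iff_exists_zpowers_eq_top C).1 hc
      have hi : C.index ≤ 2 :=
        (relIndex_le_of_le_right hQ FiniteIndex.index_ne_zero).trans hidx
      obtain ⟨y, hy⟩ : ∃ y : Q, C ⊔ zpowers y = ⊤ := by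
        by_cases ht : C = ⊤
        · exact ⟨1, by simp [ht]⟩
        · have h2 : C.index = 2 := by
            have := C.index_eq_one.not.2 ht
            have := C.index_ne_zero_of_finite
            omega
          obtain ⟨y, hy⟩ : ∃ y, y ∉ C := by
            by_contra h; push Not at h; exact ht (eq_top_iff.2 fun y _ => h y)
          refine ⟨y, (Tr.isCoatom_of_index_prime (h2 ▸ Nat.prime_two)).2 _ ?_⟩
          exact left_lt_sup.2 fun h => hy (h (mem_zpowers y))
      refine (Group.rank_le (S := {c, y}) ?_).trans Finset.card_le_two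
      rw [eq_top_iff, ← hy, ← hc]
      refine sup_le (zpowers_le.2 (subset_closure (by simp))) (zpowers_le.2 (subset_closure (by simp)))
    have h7 : q ∣ 3 := by
      have : i = 1 ∨ i = 2 := by omega
      rcases this with rfl | rfl
      · exact absurd (Nat.dvd_one.1 h6) h1.one_lt.ne'
      · exact h6
    obtain rfl := (Nat.prime_dvd_prime_iff_eq h1 Nat.prime_three).1 h7
    have h8 := h3'.trans (orderOf_dvd_natCard g)
    rw [hG] at h8
    exact h3 ((Nat.Coprime.pow_right a (by norm_num)).dvd_of_dvd_mul_left h8)
  have hc := isComplement'_pResidual_of_hasNPC hN P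
  refine ⟨Cfsg.pResidual 2 G, inferInstance, ?_⟩
  have := hc.card_mul_card
  rw [hPc, hG, mul_comm] at this
  exact Nat.eq_of_mul_eq_mul_left (by positivity) this

end Cfsg.Agent.S3971
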