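import Cfsg.Statements.S3974
import Cfsg.Agent.FGS.SchurCover

set_option autoImplicit false
universe u v
open Cfsg

namespace Cfsg.Agent.S3974

open CL.Schur in
theorem not_unique {Q : Type u} [Group Q] [Finite Q] {p : ℕ} (hp : p.Prime)
    (h1 : p ∣ Nat.card (Abelianization Q)) (h2 : p ∣ Nat.card (Mult Q)) :
    ∃ (Γ₁ Γ₂ : Type u) (_ : Group Γ₁) (_ : Group Γ₂) (σ₁ : Γ₁ →* Q) (σ₂ : Γ₂ →* Q),
      IsCover σ₁ ∧ IsCover σ₂ ∧ ∀ e : Γ₁ →* Γ₂, σ₂.comp e ≠ σ₁ := by
  have := Fact.mk hp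
  set ε := hopfExt (canPres Q) with hεdef
  have hε : IsCentralExt ε := hopfExt_central (canPres_surjective Q)
  have := hopf_torsionFree (canPres Q)
  obtain ⟨S, hS1, hS2, hS3⟩ := exists_complement ε.ker hε.central
  have hSc : S ≤ Subgroup.center _ := hS1.trans hε.central
  let _ : CommGroup S := { (inferInstance : Group S) with
    mul_comm := fun a b => Subtype.ext (Subgroup.mem_center_iff.mp (hSc b.2) a) }
  let g : S →* Abelianization _ := Abelianization.of.comp S.subtype
  have hg : Function.Injective g := by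
    rw [injective_iff_map_eq_one]
    intro s hs
    have : (s : _ ⧸ relComm (canPres Q)) ∈ S ⊓ commutator _ :=
      ⟨s.2, by rw [← Abelianization.ker_of]; exact hs⟩
    rw [hS2] at this
    exact Subtype.ext this
  have : IsMulTorsionFree S := ⟨fun n hn a b hab => hg (pow_left_injective hn (by
    simpa only [map_pow] using congrArg g hab))⟩
  have : Group.FG (Abelianization (FreeGroup Q ⧸ relComm (canPres Q))) :=
    Group.fg_of_surjective (f := Abelianization.of) QuotientGroup.mk_surjective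
  have : Group.FG g.range := fg_subgroup_of_comm _
  have : Group.FG S := Group.fg_of_surjective (f := (MonoidHom.ofInjective hg).symm.toMonoidHom)
    (MonoidHom.ofInjective hg).symm.surjective
  -- an element `x` of order `p` modulo `S E'`
  obtain ⟨xq, hxq⟩ := exists_prime_orderOf_dvd_card' p h1
  obtain ⟨q, rfl⟩ : ∃ q : Q, Abelianization.of q = xq := QuotientGroup.mk_surjective _
  obtain ⟨x, rfl⟩ := hε.surj q
  have hcm : commutator Q = (commutator _).map ε := by
    rw [map_commutator_eq, MonoidHom.range_eq_top.mpr hε.surj]; rfl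
  have hx1 : ε (x ^ p) ∈ commutator Q := by
    rw [← Abelianization.ker_of, MonoidHom.mem_ker, map_pow, map_pow, ← hxq, pow_orderOf_eq_one]
  rw [hcm] at hx1
  obtain ⟨c, hc, hcx⟩ := hx1
  obtain ⟨y, hy, hy2⟩ := hS3 (x ^ p * c⁻¹) (by simp [MonoidHom.mem_ker, hcx])
  have hxy : Abelianization.of y = Abelianization.of x ^ p := by
    rw [← Abelianization.ker_of] at hy2 hc
    rw [MonoidHom.mem_ker, map_mul, map_mul, map_inv, map_inv, MonoidHom.mem_ker.mp hc, map_pow,
      inv_one, mul_one, inv_mul_eq_one] at hy2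
    exact hy2
  have hy3 : ∀ z : S, z ^ p ≠ ⟨y, hy⟩ := by
    intro z hz
    have h3 : Abelianization.of (z : _ ⧸ relComm (canPres Q)) = Abelianization.of x := by
      apply pow_left_injective hp.ne_zero
      simp only
      rw [← hxy, ← map_pow]
      exact congrArg g hz
    have h4 := congrArg (Abelianization.map ε) h3
    rw [Abelianization.map_of, Abelianization.map_of, MonoidHom.mem_ker.mp (hS1 z.2), map_one] at h4
    rw [← h4, orderOf_one] at hxq
    exact hp.ne_one hxq.symm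
  obtain ⟨f, hf⟩ := exists_coord_not_dvd p _ hy3
  -- an element of the multiplier that is not a `p`-th power
  obtain ⟨m₀, hm₀⟩ : ∃ m₀ : Mult Q, ∀ m, m ^ p ≠ m₀ := by
    by_contra hc
    push Not at hc
    obtain ⟨a, ha⟩ := exists_prime_orderOf_dvd_card' p h2
    have hinj : Function.Injective (fun m : Mult Q => m ^ p) := Finite.injective_iff_surjective.mpr hc
    have : a = 1 := hinj (by simp only [one_pow]; rw [← ha, pow_orderOf_eq_one])
    rw [this, orderOf_one] at ha
    exact hp.ne_one ha.symm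
  let ι : Mult Q →* FreeGroup Q ⧸ relComm (canPres Q) := (stemKer ε).subtype
  let ψ : S →* Mult Q := (zpowersHom _ m₀).comp f
  let t : S →* FreeGroup Q ⧸ relComm (canPres Q) :=
    { toFun := fun s => s * ι (ψ s)
      map_one' := by simp
      map_mul' := fun a b => by
        have h0 := Subgroup.mem_center_iff.mp (hSc b.2) (ι (ψ a))
        rw [map_mul, map_mul, Subgroup.coe_mul, mul_assoc, mul_assoc, ← mul_assoc (ι (ψ a)), h0,
          mul_assoc] }
  have ht : ∀ s, t s = s * ι (ψ s) := fun _ => rfl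
  have hT1 : t.range ≤ ε.ker := by
    rintro _ ⟨s, rfl⟩
    exact mul_mem (hS1 s.2) (ψ s).2.1
  have hT2 : t.range ⊓ commutator _ = ⊥ := by
    rw [eq_bot_iff]
    rintro _ ⟨⟨s, rfl⟩, hs⟩
    have h3 : (s : _ ⧸ relComm (canPres Q)) ∈ S ⊓ commutator _ :=
      ⟨s.2, by
        have hs' : t s ∈ commutator _ := hs
        simpa [ht] using mul_mem hs' (inv_mem (show ι (ψ s) ∈ commutator _ from (ψ s).2.2))⟩
    rw [hS2] at h3
    have : s = 1 := Subtype.ext h3
    simp [this]
  have hT3 : ∀ k ∈ ε.ker, ∃ s ∈ t.range, s⁻¹ * k ∈ commutator _ := by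
    intro k hk
    obtain ⟨s, hs, h3⟩ := hS3 k hk
    refine ⟨_, ⟨⟨s, hs⟩, rfl⟩, ?_⟩
    rw [ht, mul_inv_rev, mul_assoc]
    exact mul_mem (inv_mem (show ι (ψ _) ∈ commutator _ from (ψ _).2.2)) h3
  have := normal_of_le_center hSc
  have := normal_of_le_center (hT1.trans hε.central)
  have cov : ∀ (T : Subgroup _) [T.Normal] (h1 : T ≤ ε.ker), T ⊓ commutator _ = ⊥ →
      (∀ k ∈ ε.ker, ∃ s ∈ T, s⁻¹ * k ∈ commutator _) → IsCover (quotExt ε T h1) :=
    fun T _ h1 h2 h3 => ⟨quotExt_stem hε T h1 h3,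
      (Nat.card_congr (quotExt_ker_equiv hε T h1 h3 h2).some.toEquiv).symm⟩
  have c2 := cov t.range hT1 hT2 hT3
  refine ⟨_, _, inferInstance, inferInstance, _, _, cov S hS1 hS2 hS3, c2, fun e he => ?_⟩
  -- compare the two lifts of `ε` to the second cover
  let _ : CommGroup (quotExt ε t.range hT1).ker :=
    { (inferInstance : Group (quotExt ε t.range hT1).ker) with
      mul_comm := c2.central.ker_comm.is_comm.comm }
  have hμ0 : ∀ z, e (QuotientGroup.mk z) * (QuotientGroup.mk z : _ ⧸ t.range)⁻¹ ∈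
      (quotExt ε t.range hT1).ker := fun z => by
    rw [MonoidHom.mem_ker, map_mul, map_inv, mul_inv_eq_one]
    exact DFunLike.congr_fun he (QuotientGroup.mk z)
  let μ : FreeGroup Q ⧸ relComm (canPres Q) →* (quotExt ε t.range hT1).ker :=
    { toFun := fun z => ⟨_, hμ0 z⟩
      map_one' := Subtype.ext (by simp)
      map_mul' := fun a b => Subtype.ext (by
        change e (QuotientGroup.mk (a * b)) * (QuotientGroup.mk (a * b) : _ ⧸ t.range)⁻¹ =
          (e (QuotientGroup.mk a) * (QuotientGroup.mk a : _ ⧸ t.range)⁻¹) *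
            (e (QuotientGroup.mk b) * (QuotientGroup.mk b : _ ⧸ t.range)⁻¹)
        rw [mul_assoc (e _), c2.central.comm (hμ0 b), QuotientGroup.mk_mul, QuotientGroup.mk_mul,
          map_mul]
        group) }
  have hμ1 : μ y = μ x ^ p := by
    have := congrArg (Abelianization.lift μ) hxy
    rwa [map_pow] at this
  obtain ⟨m, hm⟩ := stemMap_surjective hε.surj c2.central.central _ (quotExt_comp ε t.range hT1)
    ⟨(μ x).1, (μ x).2, c2.stem.2.2 (μ x).2⟩
  have hm' : (QuotientGroup.mk (ι m) : _ ⧸ t.range) = (μ x).1 := congrArg Subtype.val hm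
  have hμ2 : (μ y).1 = QuotientGroup.mk (ι (ψ ⟨y, hy⟩)) := by
    change e (QuotientGroup.mk y) * _ = _
    rw [(QuotientGroup.eq_one_iff y).mpr hy, map_one, one_mul, inv_eq_iff_mul_eq_one,
      ← QuotientGroup.mk_mul, QuotientGroup.eq_one_iff]
    exact ⟨⟨y, hy⟩, rfl⟩
  let m' : Mult Q := m
  have h5 : ι (ψ ⟨y, hy⟩ * (m' ^ p)⁻¹) = 1 := by
    refine c2.eq_one_of_over hε _ (quotExt_comp ε t.range hT1) (ψ ⟨y, hy⟩ * (m' ^ p)⁻¹).2.2 ?_
    rw [map_mul, map_mul, map_inv, map_inv, map_pow, map_pow, mul_inv_eq_one]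
    change QuotientGroup.mk _ = QuotientGroup.mk (ι m) ^ p
    rw [← hμ2, hμ1, hm']
    rfl
  have h6 : m₀ ^ (f ⟨y, hy⟩).toAdd = m' ^ p := mul_inv_eq_one.mp (Subtype.ext h5)
  obtain ⟨u, v, huv⟩ := (Nat.prime_iff_prime_int.mp hp).coprime_iff_not_dvd.mpr hf
  apply hm₀ (m₀ ^ u * m' ^ v)
  rw [mul_pow, ← zpow_natCast, ← zpow_natCast, ← zpow_mul, ← zpow_mul, mul_comm v, zpow_mul m',
    zpow_natCast, ← h6, ← zpow_mul, ← zpow_add, mul_comm _ v, huv, zpow_one]

/-- Let `Q` be a finite group with Schur multiplier `A`. Any two Schur covering groups of `Q` (finite stem extensions `σ₁ : Γ₁ →* Q`, `σ₂ : Γ₂ →* Q` with kernels isomorphic to `A`, `Γ₁, Γ₂` in the universe of `Q`) are isomorphic over `Q` — there is a group isomorphism `e : Γ₁ ≃* Γ₂` with `σ₂ ∘ e = σ₁` — if and only if the order of the commutator quotient of `Q` is coprime to the order of `A`. In particular a finite perfect group has a unique Schur covering group up to isomorphism over it. -/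
theorem result {Q : Type u} [Group Q] [Finite Q] {A : Type v} [CommGroup A] (hA : Cfsg.HasSchurMultiplier Q A) : (∀ (Γ₁ Γ₂ : Type u) [Group Γ₁] [Finite Γ₁] [Group Γ₂] [Finite Γ₂] (σ₁ : Γ₁ →* Q) (σ₂ : Γ₂ →* Q), Cfsg.IsStemExtension σ₁ → Cfsg.IsStemExtension σ₂ → Nonempty (σ₁.ker ≃* A) → Nonempty (σ₂.ker ≃* A) → ∃ e : Γ₁ ≃* Γ₂, σ₂.comp e.toMonoidHom = σ₁) ↔ Nat.Coprime (Nat.card (Abelianization Q)) (Nat.card A) := by
  constructor
  · intro h
    by_contra hc
    obtain ⟨p, hp, h1, h2⟩ := Nat.Prime.not_coprime_iff_dvd.mp hc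
    rw [CL.Schur.card_multiplier_eq hA] at h2
    obtain ⟨Γ₁, Γ₂, _, _, σ₁, σ₂, c1, c2, hne⟩ := not_unique hp h1 h2
    have := c1.finite
    have := c2.finite
    obtain ⟨e, he⟩ := h Γ₁ Γ₂ σ₁ σ₂ c1.stem c2.stem (c1.nonempty_equiv hA) (c2.nonempty_equiv hA)
    exact hne _ he
  · intro h Γ₁ Γ₂ _ _ _ _ σ₁ σ₂ h1 h2 e1 e2
    have c1 := CL.Schur.isCover_of_equiv hA h1 e1
    have c2 := CL.Schur.isCover_of_equiv hA h2 e2
    obtain ⟨η, hη⟩ := c1.exists_lift_of_coprime (MonoidHom.id Q) c2.central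
      (by rw [Nat.card_congr e2.some.toEquiv]; exact h.symm)
    exact ⟨MulEquiv.ofBijective η (c1.bijective_of_over c2 η hη), hη⟩

end Cfsg.Agent.S3974
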