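import Cfsg.Statements.S3976
import Cfsg.Agent.FGS.SubgroupCount

set_option autoImplicit false
open Cfsg

namespace Cfsg.Agent.S3976

/-- Let `p` be a prime and `G` a group of order `p ^ m`. For every `s ≤ m` the number of normal subgroups of `G` of order `p ^ s` is congruent to `1` modulo `p`. -/
theorem result {G : Type*} [Group G] [Finite G] (p m s : ℕ) (hp : p.Prime) (hG : Nat.card G = p ^ m) (hs : s ≤ m) : Nat.card {H : Subgroup G // H.Normal ∧ Nat.card H = p ^ s} ≡ 1 [MOD p] := by
  haveI : Fact p.Prime := ⟨hp⟩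
  have hP : IsPGroup p (⊤ : Subgroup G) := (IsPGroup.of_card hG).to_subgroup ⊤
  have h := CL.Cnt.ncard_normalized_modEq_one hP hP Subgroup.le_normalizer (k := s)
    (by rw [Subgroup.card_top, hG]; exact pow_dvd_pow p hs)
  have e : {H : Subgroup G | (H ≤ ⊤ ∧ Nat.card H = p ^ s) ∧ ⊤ ≤ Subgroup.normalizer (H : Set G)} =
      {H : Subgroup G | H.Normal ∧ Nat.card H = p ^ s} := by
    ext H
    simp [Subgroup.normalizer_eq_top_iff, and_comm]
  rw [e, ← Nat.card_coe_set_eq] at h
  exact h

end Cfsg.Agent.S3976
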