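import Cfsg.Statements.S3977
import Cfsg.Agent.FGS.SubgroupCount
import Cfsg.Agent.SOLV.PGroupCyclicSCN

set_option autoImplicit false
open Cfsg

namespace Cfsg.Agent.S3977

/-- Let `p` be a prime and `G` a group of order `p ^ m` which has exactly one subgroup of order `p ^ s`, where `1 ≤ s < m`, and where `s ≥ 2` if `p = 2`. Then `G` is cyclic. (For `p = 2` and `s = 1` the generalized quaternion groups also occur; that case is the classical criterion for a unique involution.) -/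
theorem result {G : Type*} [Group G] [Finite G] (p m s : ℕ) (hp : p.Prime) (hG : Nat.card G = p ^ m) (hs : 1 ≤ s) (hsm : s < m) (h2 : p ≠ 2 ∨ 2 ≤ s) (huniq : ∀ H K : Subgroup G, Nat.card H = p ^ s → Nat.card K = p ^ s → H = K) : IsCyclic G := by
  haveI : Fact p.Prime := ⟨hp⟩
  have hP : IsPGroup p G := IsPGroup.of_card hG
  have hd : p ^ s ∣ Nat.card G := hG ▸ pow_dvd_pow p hsm.le
  obtain ⟨U, hU⟩ := Sylow.exists_subgroup_card_pow_prime p hd
  have hmem : ∀ x : G, x ^ p ^ s = 1 → x ∈ U := by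
    intro x hx
    obtain ⟨i, hi, h⟩ := (Nat.dvd_prime_pow hp).mp (orderOf_dvd_of_pow_eq_one hx)
    obtain ⟨K, hK, hle⟩ := Sylow.exists_subgroup_card_pow_prime_le p hd (Subgroup.zpowers x)
      (by rw [Nat.card_zpowers, h]) hi
    exact huniq K U hK hU ▸ hle (Subgroup.mem_zpowers x)
  have hcyc : IsCyclic U := by
    have h1 := CL.Cnt.nSub_add_nCyc hP (k := s) (hG ▸ pow_dvd_pow p hsm)
    have h3 : {H : Subgroup G | Nat.card H = p ^ s} = {U} := by
      ext H; exact ⟨fun h => huniq H U h hU, fun h => h ▸ hU⟩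
    rw [CL.Cnt.nSub_def, h3, Set.ncard_singleton] at h1
    have h4 : CL.Cnt.nCyc G (p ^ (s + 1)) ≠ 0 := by
      intro h
      rw [h, mul_zero] at h1
      have h5 := (Nat.modEq_iff_dvd' (Nat.zero_le p)).mp (Nat.ModEq.add_left_cancel' 1 h1)
      have h6 := Nat.le_of_dvd hp.pos h5
      have h7 := hp.one_lt
      nlinarith
    obtain ⟨C, hC, hCc⟩ := Set.nonempty_of_ncard_ne_zero h4
    obtain ⟨K, hK⟩ := Sylow.exists_subgroup_card_pow_prime (G := C) p (n := s)
      (hCc ▸ pow_dvd_pow p (by omega))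
    rw [← huniq (K.map C.subtype) U (by rw [Subgroup.card_map_of_injective C.subtype_injective, hK])
      hU]
    exact Subgroup.isCyclic_of_le (Subgroup.map_subtype_le K)
  rcases CL.PCyc.isCyclic_or_normal_elemAb_or_isDQS hP with h | ⟨E, _, h1, h3⟩ | ⟨rfl, n, a, b, h⟩
  · exact h
  · refine (CL.PCyc.not_isCyclic_of_elemAb hp h1 (by rw [h3]; nlinarith [hp.one_lt]) ?_).elim
    refine Subgroup.isCyclic_of_le (H' := U) fun x hx => hmem x ?_
    obtain ⟨t, rfl⟩ : ∃ t, s = t + 1 := ⟨s - 1, by omega⟩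
    rw [pow_succ', pow_mul, h1.2 x hx, one_pow]
  · exfalso
    obtain ⟨t, rfl⟩ : ∃ t, s = t + 2 := ⟨s - 2, by omega⟩
    have h4 : ∀ x : G, (x ^ 2) ^ 2 = 1 → x ∈ U := fun x hx => hmem x (by
      rw [pow_add, mul_comm, pow_mul, show 2 ^ 2 = 2 * 2 by rfl, pow_mul, hx, one_pow])
    have hz : (a ^ 2 ^ (n - 1)) ^ 2 = 1 := by
      have := pow_orderOf_eq_one (a ^ 2 ^ (n - 1))
      rwa [h.orderOf_central] at this
    have hab : (a * b) ^ 2 = a * (b * a * b⁻¹) * b ^ 2 := by simp only [sq]; group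
    have hb : b ∈ U ∧ a * b ∈ U := by
      rcases h.rel with ⟨h1, h3⟩ | ⟨h1, h3⟩ | ⟨h0, h1, h3⟩
      · exact ⟨h4 b (by simp [h1]), h4 _ (by simp [hab, h1, h3])⟩
      · exact ⟨h4 b (by rw [h1, hz]), h4 _ (by rw [hab, h3, h1, mul_inv_cancel, one_mul, hz])⟩
      · refine ⟨h4 b (by simp [h1]), h4 _ ?_⟩
        rw [hab, h3, h1, mul_one, ← pow_succ', Nat.sub_add_cancel Nat.one_le_two_pow, hz]
    have ha : a ∈ U := (U.mul_mem_cancel_right hb.1).mp hb.2
    have : U = ⊤ := top_le_iff.mp (h.sup_eq_top ▸ sup_le (Subgroup.zpowers_le.mpr ha)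
      (Subgroup.zpowers_le.mpr hb.1))
    rw [this, Subgroup.card_top, hG] at hU
    have := Nat.pow_right_injective le_rfl hU
    omega

end Cfsg.Agent.S3977
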