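import Cfsg.Statements.S3979
import Mathlib.GroupTheory.SpecificGroups.Cyclic
import Mathlib.GroupTheory.Abelianization.Defs

set_option autoImplicit false
open Cfsg

namespace Cfsg.Agent.S3979

/-- A finite cyclic group has trivial Schur multiplier: every finite stem extension of it is an isomorphism, said through `HasCyclicSchurMultiplier G 1`. -/
theorem result {G : Type*} [Group G] [Finite G] [IsCyclic G] : Cfsg.HasCyclicSchurMultiplier G 1 := by
  refine ⟨⟨G, inferInstance, inferInstance, MonoidHom.id G, ⟨Function.surjective_id, ?_, ?_⟩, ?_⟩, ?_⟩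
  · simp
  · simp
  · haveI : Unique (MonoidHom.id G).ker := by
      rw [MonoidHom.ker_id]; infer_instance
    exact ⟨MulEquiv.ofUnique⟩
  · intro Γ _ _ σ hσ
    have hcomm : IsMulCommutative Γ := MonoidHom.isMulCommutative_of_isCyclic_of_ker_le_center σ hσ.2.1
    have h2 : commutator Γ = ⊥ := (commutator_eq_bot_iff Γ).2 hcomm
    have h3 : σ.ker = ⊥ := le_bot_iff.mp (h2 ▸ hσ.2.2)
    refine ⟨1, fun x => ⟨1, ?_⟩⟩
    apply Subtype.ext
    have := x.2
    simp only [h3, Subgroup.mem_bot] at this
    simp [this]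

end Cfsg.Agent.S3979
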