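import Cfsg.Statements.S3980
import Cfsg.Agent.FGS.SchurProd

set_option autoImplicit false
universe u v w
open Cfsg

namespace Cfsg.Agent.S3980

/-- Let `Q₁` and `Q₂` be finite groups whose commutator quotients have coprime orders, with Schur multipliers `A` and `B`. Then the Schur multiplier of `Q₁ × Q₂` is isomorphic to `A × B`. -/
theorem result {Q₁ : Type u} {Q₂ : Type v} [Group Q₁] [Group Q₂] [Finite Q₁] [Finite Q₂] {A B : Type w} [CommGroup A] [CommGroup B] (hA : Cfsg.HasSchurMultiplier Q₁ A) (hB : Cfsg.HasSchurMultiplier Q₂ B) (hcop : Nat.Coprime (Nat.card (Abelianization Q₁)) (Nat.card (Abelianization Q₂))) : Cfsg.HasSchurMultiplier (Q₁ × Q₂) (A × B) := by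
  have h1 : ∀ t : CL.Schur.AbTensor Q₁ Q₂, t ∈ (⊥ : Subgroup _) :=
    CL.Schur.abTensor_induction ⊥ (fun a b => by
      rw [Subgroup.mem_bot, ← orderOf_eq_one_iff]
      apply Nat.eq_one_of_dvd_coprimes hcop
      · rw [orderOf_dvd_iff_pow_eq_one, ← MonoidHom.pow_apply, ← map_pow, CL.Schur.abTmul_apply,
          map_pow, pow_card_eq_one']
        simp
      · rw [orderOf_dvd_iff_pow_eq_one, ← map_pow, CL.Schur.abTmul_apply, map_pow, pow_card_eq_one']
        simp)
  let _ : Unique (CL.Schur.AbTensor Q₁ Q₂) := ⟨⟨1⟩, fun t => h1 t⟩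
  exact CL.Schur.hasSchurMultiplier_congr_right (CL.Schur.hasSchurMultiplier_prod hA hB)
    ((MulEquiv.refl A).prodCongr MulEquiv.prodUnique)

end Cfsg.Agent.S3980
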