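import Cfsg.Statements.S3992
import Cfsg.Agent.S1475
import Cfsg.Agent.FGS.NilpMax
import Cfsg.Agent.SOLV.Frobenius
import Cfsg.Agent.PERM.MinNormal
import Cfsg.Agent.SOLV.HallConverse

set_option autoImplicit false
open Cfsg

namespace Cfsg.Agent.S3992

theorem eq_of_commute {G : Type*} [Group G] [Finite G]
    (hpp : ∀ g : G, g ≠ 1 → IsPrimePow (orderOf g)) {x y : G} {r s : ℕ} (hr : r.Prime)
    (hs : s.Prime) (hx : x ≠ 1) (hy : y ≠ 1) {a b : ℕ} (hxa : x ^ r ^ a = 1) (hyb : y ^ s ^ b = 1)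
    (hc : Commute x y) : r = s := by
  by_contra hne
  obtain ⟨i, -, hi⟩ := (Nat.dvd_prime_pow hr).1 (orderOf_dvd_of_pow_eq_one hxa)
  obtain ⟨j, -, hj⟩ := (Nat.dvd_prime_pow hs).1 (orderOf_dvd_of_pow_eq_one hyb)
  have hi0 : i ≠ 0 := by rintro rfl; exact hx (orderOf_eq_one_iff.1 hi)
  have hj0 : j ≠ 0 := by rintro rfl; exact hy (orderOf_eq_one_iff.1 hj)
  have h1 := hc.orderOf_mul_eq_mul_orderOf_of_coprime (by
    rw [hi, hj]; exact Nat.Coprime.pow _ _ ((Nat.coprime_primes hr hs).2 hne))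
  have hri : r ∣ orderOf (x * y) := by rw [h1, hi]; exact (dvd_pow_self r hi0).mul_right _
  have hsj : s ∣ orderOf (x * y) := by rw [h1, hj]; exact (dvd_pow_self s hj0).mul_left _
  have h2 := hpp (x * y) (fun e => by
    rw [e, orderOf_one] at hri; exact hr.ne_one (Nat.dvd_one.1 hri))
  exact hne ((isPrimePow_iff_unique_prime_dvd.1 h2).unique ⟨hr, hri⟩ ⟨hs, hsj⟩)

theorem isPGroup_of_commute {G : Type*} [Group G] [Finite G]
    (hpp : ∀ g : G, g ≠ 1 → IsPrimePow (orderOf g)) {x : G} (hx : x ≠ 1) {C : Subgroup G}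
    (hC : ∀ c ∈ C, Commute x c) : ∃ r : ℕ, r.Prime ∧ IsPGroup r C := by
  obtain ⟨r, a, hr, -, ha⟩ := (isPrimePow_nat_iff _).1 (hpp x hx)
  refine ⟨r, hr, fun c => ?_⟩
  by_cases hc : (c : G) = 1
  · exact ⟨0, Subtype.ext (by simpa using hc)⟩
  obtain ⟨s, b, hs, -, hb⟩ := (isPrimePow_nat_iff _).1 (hpp c hc)
  have := eq_of_commute hpp hr hs hx hc (ha ▸ pow_orderOf_eq_one x) (hb ▸ pow_orderOf_eq_one (c : G))
    (hC c c.2)
  subst this
  exact ⟨b, Subtype.ext (by push_cast; rw [hb, pow_orderOf_eq_one])⟩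

theorem solv {G : Type*} [Group G] [Finite G] {r : ℕ} (hr : r.Prime) (h : IsPGroup r G) :
    Group.IsSolvable G := by
  have := Fact.mk hr
  have := h.isNilpotent
  infer_instance


/-- Let G be a finite non-solvable group in which every element has prime-power order, and let R be its largest solvable normal subgroup. Then R is a p-group for some prime p; G/R has a non-abelian simple normal subgroup contained in every nontrivial normal subgroup of G/R (its unique minimal normal subgroup); and the order of every solvable subgroup of G has at most two prime divisors. -/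
theorem result {G : Type*} [Group G] [Finite G] (hns : ¬ Group.IsSolvable G) (hpp : ∀ g : G, g ≠ 1 → IsPrimePow (orderOf g))
    (R : Subgroup G) [R.Normal] (hRs : Group.IsSolvable ↥R) (hRmax : ∀ N : Subgroup G, N.Normal → Group.IsSolvable ↥N → N ≤ R) :
    (∃ p : ℕ, p.Prime ∧ IsPGroup p ↥R) ∧
      (∃ M : Subgroup (G ⧸ R), M.Normal ∧ IsSimpleGroup ↥M ∧ ¬ IsMulCommutative ↥M ∧
        ∀ N : Subgroup (G ⧸ R), N.Normal → N ≠ ⊥ → M ≤ N) ∧
      ∀ H : Subgroup G, Group.IsSolvable ↥H → (Nat.card ↥H).primeFactors.card ≤ 2 := by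
  refine ⟨?_, ?_, fun H hH => Cfsg.Agent.S1475.result (G := H) fun g => ?_⟩
  · by_cases hR : R = ⊥
    · exact ⟨2, Nat.prime_two, hR ▸ IsPGroup.of_bot⟩
    obtain ⟨V, hV, hVR⟩ := CL.exists_isMinNormal_le R hR
    have := hV.normal
    obtain ⟨p, hp, hVp⟩ := hV.exists_isPGroup_of_isSolvable
      (Group.isSolvable_of_isSolvable_injective (Subgroup.inclusion_injective hVR))
    have := Fact.mk hp
    refine ⟨p, hp, IsPGroup.iff_card.2 ⟨_, Nat.eq_prime_pow_of_unique_prime_dvd Nat.card_pos.ne'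
      fun {q} hq hqd => ?_⟩⟩
    by_contra hne
    have := Fact.mk hq
    obtain ⟨Q0⟩ : Nonempty (Sylow q R) := inferInstance
    have hF := Q0.normalizer_sup_eq_top
    set Q := (Q0 : Subgroup R).map R.subtype with hQ
    have hQq : IsPGroup q Q := Q0.isPGroup'.map _
    have hQ1 : Q ≠ ⊥ := fun h => Q0.ne_bot_of_dvd_card hqd
      ((Subgroup.map_eq_bot_iff_of_injective _ R.subtype_injective).1 h)
    set Z := Q ⊓ Subgroup.centralizer (Q : Set G) with hZ
    have hZ1 : Z ≠ ⊥ := CL.Frob.center_ne_bot_of_isPGroup hQq hQ1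
    have : IsMulCommutative Z := ⟨⟨fun a b => Subtype.ext (b.2.2 a a.2.1)⟩⟩
    have hZc : IsCyclic Z := CL.Frob.isCyclic_of_comm hV.ne_bot Subgroup.le_normalizer_of_normal
      (fun a ha ha1 => eq_bot_iff.2 fun v hv => by
        by_contra hv1
        obtain ⟨i, hi⟩ := hQq ⟨a, ha.1⟩
        obtain ⟨j, hj⟩ := hVp ⟨v, hv.1⟩
        exact hne (eq_of_commute hpp hq hp ha1 hv1 (congrArg Subtype.val hi) (congrArg Subtype.val hj)
          (hv.2 a rfl)))
    have hNZ : Subgroup.normalizer (Q : Set G) ≤ Subgroup.normalizer (Z : Set G) := by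
      intro g hg
      refine Subgroup.mem_normalizer_fintype fun z hz => ⟨(Subgroup.mem_normalizer_iff.1 hg z).1 hz.1,
        fun w hw => ?_⟩
      have := hz.2 _ ((Subgroup.mem_normalizer_iff''.1 hg w).1 hw)
      calc w * (g * z * g⁻¹) = g * (g⁻¹ * w * g * z) * g⁻¹ := by group
        _ = _ := by rw [this]; group
    obtain ⟨⟨z, hzZ⟩, hz1⟩ := Subgroup.ne_bot_iff_exists_ne_one.1 hZ1
    obtain ⟨r, hr, hCr⟩ := isPGroup_of_commute hpp (x := z) (fun e => hz1 (Subtype.ext e))
      (C := Subgroup.centralizer (Z : Set G)) (fun c hc => hc z hzZ)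
    have h1 : Group.IsSolvable (MulAut Z) := by
      let _ := (hZc.mulAutMulEquiv _).toMonoidHom.commGroupOfInjective
        (hZc.mulAutMulEquiv _).injective
      infer_instance
    have h2 : Group.IsSolvable Z.normalizerMonoidHom.ker := by
      rw [Subgroup.normalizerMonoidHom_ker]
      exact solv hr (hCr.comap_subtype)
    have h3 : Group.IsSolvable (Subgroup.normalizer (Z : Set G)) :=
      Group.isSolvable_of_ker_le_range Z.normalizerMonoidHom.ker.subtype Z.normalizerMonoidHom (by simp)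
    exact hns (CL.NilpMax.isSolvable_of_sup h3 hRs (top_le_iff.1 (hF ▸ sup_le_sup_right hNZ R)))
  · have hpp' : ∀ g : G ⧸ R, g ≠ 1 → IsPrimePow (orderOf g) := by
      intro g hg
      obtain ⟨x, rfl⟩ := QuotientGroup.mk'_surjective R g
      have hx : x ≠ 1 := by rintro rfl; exact hg (map_one _)
      obtain ⟨r, a, hr, -, ha⟩ := (isPrimePow_nat_iff _).1 (hpp x hx)
      obtain ⟨i, -, hi⟩ := (Nat.dvd_prime_pow hr).1 (ha ▸ orderOf_map_dvd (QuotientGroup.mk' R) x)
      refine (isPrimePow_nat_iff _).2 ⟨r, i, hr, Nat.pos_of_ne_zero ?_, hi.symm⟩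
      rintro rfl
      exact hg (orderOf_eq_one_iff.1 hi)
    have : Nontrivial (G ⧸ R) := by
      by_contra h
      rw [not_nontrivial_iff_subsingleton] at h
      exact hns (CL.isSolvable_of_normal_of_quotient R hRs inferInstance)
    obtain ⟨M, hM⟩ := CL.exists_isMinNormal (G ⧸ R)
    have := hM.normal
    have hMs : ¬ Group.IsSolvable M := fun hMs => by
      have h1 : Group.IsSolvable (M.comap (QuotientGroup.mk' R)) := by
        refine Group.isSolvable_of_ker_le_range (Subgroup.inclusion (QuotientGroup.le_comap_mk' R M))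
          ((QuotientGroup.mk' R).subgroupComap M) fun x hx => ?_
        exact ⟨⟨x, (QuotientGroup.eq_one_iff _).1 (congrArg Subtype.val hx)⟩, rfl⟩
      have h2 := hRmax _ inferInstance h1
      refine hM.ne_bot (eq_bot_iff.2 fun m hm => ?_)
      obtain ⟨x, rfl⟩ := QuotientGroup.mk'_surjective R m
      exact (QuotientGroup.eq_one_iff _).2 (h2 hm)
    refine ⟨M, this, ?_, fun h => hMs (Group.isSolvable_of_comm fun a b => mul_comm' a b), fun N hN hN1 => ?_⟩
    · obtain ⟨T, m, -, hT, hm, ⟨e⟩⟩ := CL.Perm.exists_mulEquiv_pi_of_minimal_normal M hM.ne_bot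
        hM.eq_bot_or_eq
      rcases m with _ | _ | m
      · omega
      · exact (e.trans (MulEquiv.piUnique fun _ : Fin 1 => T)).isSimpleGroup
      exfalso
      obtain ⟨t, ht⟩ := exists_ne (1 : T)
      classical
      let f : T →* G ⧸ R :=
        (M.subtype.comp e.symm.toMonoidHom).comp (MonoidHom.mulSingle (fun _ => T) 1)
      have hf : Function.Injective f :=
        (M.subtype_injective.comp e.symm.injective).comp (Pi.mulSingle_injective (M := fun _ => T) 1)
      obtain ⟨r, hr, hTr⟩ := isPGroup_of_commute hpp' (x := (e.symm (Pi.mulSingle 0 t) : M))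
        (fun h => ht (by
          have h1 : e.symm (Pi.mulSingle 0 t) = 1 := Subtype.ext h
          simpa using h1)) (C := f.range) (by
        rintro _ ⟨u, rfl⟩
        exact ((Pi.mulSingle_commute (f := fun _ : Fin (m + 1 + 1) => T) (show (0 : Fin (m + 1 + 1)) ≠ 1 by simp)
          t u).map e.symm).map M.subtype)
      have := Fact.mk hr
      obtain ⟨k, hk⟩ := IsPGroup.iff_card.1 (hTr.of_equiv (MonoidHom.ofInjective hf).symm)
      refine hMs (solv hr (IsPGroup.of_card (n := k * (m + 1 + 1)) ?_))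
      rw [Nat.card_congr e.toEquiv, Nat.card_fun, hk, Nat.card_fin, pow_mul]
    · refine (hM.inf_eq_bot_or_le N).resolve_left fun h => ?_
      obtain ⟨⟨x, hxN⟩, hx1⟩ := Subgroup.ne_bot_iff_exists_ne_one.1 hN1
      obtain ⟨r, hr, hMr⟩ := isPGroup_of_commute hpp' (x := x) (fun e => hx1 (Subtype.ext e)) (C := M)
        (fun c hc => (Subgroup.commute_of_normal_of_disjoint M N inferInstance hN
          (disjoint_iff.2 h) c x hc hxN).symm)
      exact hMs (solv hr hMr)
  · by_cases hg : g = 1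
    · exact Or.inr hg
    · exact Or.inl (Subgroup.orderOf_coe g ▸ hpp g fun e => hg (Subtype.ext e))
end Cfsg.Agent.S3992
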