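import Mathlib
import Cfsg.Statements.S3994
import Cfsg.Agent.FGS.FrobSol

set_option autoImplicit false
open Cfsg

namespace Cfsg.Agent.S3994

/-- Let G be a finite group and n a positive integer. The number of elements of G whose order is divisible by n is either 0 or divisible by the largest divisor of the order of G that is coprime to n. -/
theorem result {G : Type*} [Group G] [Finite G] (n : ℕ) (hn : 0 < n) :
    Nat.card {g : G // n ∣ orderOf g} = 0 ∨
      (Nat.card G / Nat.gcd (Nat.card G) (n ^ Nat.card G)) ∣ Nat.card {g : G // n ∣ orderOf g} := by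
  right
  set m := Nat.card G / Nat.gcd (Nat.card G) (n ^ Nat.card G) with hm
  have hg : Nat.card G ≠ 0 := Nat.card_pos.ne'
  have hmd : m ∣ Nat.card G := Nat.div_dvd_of_dvd (Nat.gcd_dvd_left _ _)
  have hcop : n.Coprime m := by
    refine Nat.coprime_of_dvd fun p hp hpn hpm => ?_
    have h1 : p ^ (Nat.card G).factorization p ∣ Nat.gcd (Nat.card G) (n ^ Nat.card G) :=
      Nat.dvd_gcd (Nat.ordProj_dvd _ _)
        ((pow_dvd_pow p (Nat.factorization_lt p hg).le).trans (pow_dvd_pow_of_dvd hpn _))
    have h2 : p ^ ((Nat.card G).factorization p + 1) ∣ Nat.card G := by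
      rw [pow_succ]
      conv_rhs => rw [← Nat.mul_div_cancel' (Nat.gcd_dvd_left (Nat.card G) (n ^ Nat.card G))]
      exact mul_dvd_mul h1 hpm
    exact Nat.pow_succ_factorization_not_dvd hg hp h2
  have := CL.FrobSol.dvd_card_pow_mem {y : G | n ∣ orderOf y} (fun g x hx => by
    show n ∣ orderOf (MulAut.conj g x)
    rw [MulEquiv.orderOf_eq]
    exact hx) (dvd_refl m) hmd
  refine this.trans (dvd_of_eq (Nat.card_congr (Equiv.subtypeEquivRight fun g => Iff.symm ?_)))
  show _ ↔ n ∣ orderOf (g ^ m)
  constructor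
  · intro h
    refine hcop.dvd_of_dvd_mul_right (h.trans (orderOf_dvd_of_pow_eq_one ?_))
    rw [mul_comm, pow_mul, pow_orderOf_eq_one]
  · exact fun h => h.trans (orderOf_pow_dvd m)

end Cfsg.Agent.S3994
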