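import Cfsg.Statements.S3995
import Cfsg.Agent.S3993
import Cfsg.Agent.SOLV.PGroupCyclicSCN

set_option autoImplicit false
open Cfsg

namespace Cfsg.Agent.S3995

open Finset

theorem card_le_one (S : Finset ℕ) (n : ℕ) (hS : ∀ p ∈ S, p.Prime ∧ p ∣ 1 + n ∧ p ∣ 1 + S.card * n) :
    S.card ≤ 1 := by
  by_contra hcon
  push Not at hcon
  obtain ⟨k, hk⟩ : ∃ k, S.card = k + 1 := ⟨S.card - 1, by omega⟩
  have h1 : ∀ p ∈ S, p ∣ k := by
    intro p hp
    obtain ⟨h1, h2, h3⟩ := hS p hp
    rw [hk, show 1 + (k + 1) * n = (1 + n) + k * n by ring] at h3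
    rcases (Nat.Prime.dvd_mul h1).mp ((Nat.dvd_add_right h2).mp h3) with h | h
    · exact h
    · exact absurd ((Nat.dvd_add_left h).mp h2) h1.not_dvd_one
  have h2 : ∏ p ∈ S, p ∣ k := Finset.prod_primes_dvd k (fun p hp => (hS p hp).1.prime) h1
  have h3 : 2 ^ S.card ≤ ∏ p ∈ S, p := Finset.pow_card_le_prod S _ 2 fun p hp => (hS p hp).1.two_le
  have h4 := Nat.le_of_dvd (by omega) h2
  have h5 : S.card < 2 ^ S.card := Nat.lt_two_pow_self
  omega

theorem divisors_mul_primes {p q : ℕ} (hp : p.Prime) (hq : q.Prime) :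
    (p * q).divisors = {1, p, q, p * q} := by
  ext d
  simp only [Nat.mem_divisors, mem_insert, mem_singleton]
  constructor
  · rintro ⟨h, -⟩
    obtain ⟨a, b, ha, hb, rfl⟩ := (Nat.dvd_mul).mp h
    rcases (Nat.dvd_prime hp).mp ha with rfl | rfl <;> rcases (Nat.dvd_prime hq).mp hb with rfl | rfl <;>
      simp
  · have := Nat.mul_ne_zero hp.ne_zero hq.ne_zero
    rintro (rfl | rfl | rfl | rfl) <;> simp [this]

theorem divisors_four_mul {p : ℕ} (hp : p.Prime) :
    (4 * p).divisors = {1, 2, 4, p, 2 * p, 4 * p} := by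
  ext d
  simp only [Nat.mem_divisors, mem_insert, mem_singleton]
  constructor
  · rintro ⟨h, -⟩
    obtain ⟨a, b, ha, hb, rfl⟩ := (Nat.dvd_mul).mp h
    have : a = 1 ∨ a = 2 ∨ a = 4 := by
      have := Nat.le_of_dvd (by norm_num) ha
      interval_cases a <;> simp_all
    rcases this with rfl | rfl | rfl <;> rcases (Nat.dvd_prime hp).mp hb with rfl | rfl <;> simp
  · have := Nat.mul_ne_zero four_ne_zero hp.ne_zero
    rintro (rfl | rfl | rfl | rfl | rfl | rfl) <;> refine ⟨?_, this⟩
    · exact one_dvd _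
    · exact Dvd.intro (2 * p) (by ring)
    · exact Dvd.intro _ rfl
    · exact Dvd.intro_left _ rfl
    · exact Dvd.intro 2 (by ring)
    · exact dvd_rfl

theorem exists_orderOf_eq {G : Type*} [Group G] [Finite G] (g : G) {d : ℕ} (hd : d ∣ orderOf g) :
    ∃ x : G, orderOf x = d :=
  ⟨g ^ (orderOf g / d), orderOf_pow_orderOf_div (orderOf_pos g).ne' hd⟩

theorem exists_two_primes {m : ℕ} (h0 : m ≠ 0) (h1 : m ≠ 1) (h2 : ¬ m.Prime) :
    ∃ p q : ℕ, p.Prime ∧ q.Prime ∧ p * q ∣ m := by
  obtain ⟨p, hp, r, rfl⟩ := Nat.exists_prime_and_dvd h1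
  have : r ≠ 1 := by rintro rfl; exact h2 (by simpa using hp)
  obtain ⟨q, hq, hqr⟩ := Nat.exists_prime_and_dvd this
  exact ⟨p, q, hp, hq, Nat.mul_dvd_mul_left p hqr⟩

/-- Let G be a finite group such that the numbers of elements of each order that occurs in G (the numbers #{g : o(g) = m}, m ranging over the element orders of G) take exactly two values, 1 and some n ≠ 1. Then either G is a p-group of exponent p and order at least 3 for some prime p, or G is the quaternion group of order 8, or G is cyclic of order 4, or G ≅ Z₂ × P for a p-group P of exponent p with p an odd prime. -/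
theorem result {G : Type*} [Group G] [Finite G] (n : ℕ) (hn : n ≠ 1) (h : ((fun m : ℕ => Nat.card {g : G // orderOf g = m}) '' Set.range (orderOf : G → ℕ)) = {1, n}) :
    (∃ p : ℕ, p.Prime ∧ IsPGroup p G ∧ 3 ≤ Nat.card G ∧ Monoid.exponent G = p) ∨
      Nonempty (G ≃* QuaternionGroup 2) ∨ (IsCyclic G ∧ Nat.card G = 4) ∨
      (∃ (p : ℕ) (P : Type) (_ : Group P) (_ : Finite P), p.Prime ∧ p ≠ 2 ∧ IsPGroup p P ∧ Monoid.exponent P = p ∧
        Nonempty (G ≃* Multiplicative (ZMod 2) × P)) := by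
  classical
  have := Fintype.ofFinite G
  let s : ℕ → ℕ := fun m => #{x : G | orderOf x = m}
  have hs : ∀ m, Nat.card {g : G // orderOf g = m} = s m := fun m => by
    rw [Nat.card_eq_fintype_card, Fintype.card_subtype]
  simp only [hs] at h
  have F0 : ∀ g : G, s (orderOf g) = 1 ∨ s (orderOf g) = n := fun g => by
    have : s (orderOf g) ∈ ({1, n} : Set ℕ) := h ▸ ⟨_, ⟨g, rfl⟩, rfl⟩
    simpa using this
  have Fz : ∀ m, (¬ ∃ g : G, orderOf g = m) → s m = 0 := fun m hm => by
    simp only [s, card_eq_zero, filter_eq_empty_iff]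
    exact fun x _ hx => hm ⟨x, hx⟩
  have s1 : s 1 = 1 := by
    simp only [s, orderOf_eq_one_iff]
    rw [card_eq_one]; exact ⟨1, by ext; simp⟩
  have F1 : ∀ m, 3 ≤ m → (∃ g : G, orderOf g = m) → s m = n := by
    rintro _ hm ⟨g, rfl⟩
    refine (F0 g).resolve_left fun h1 => ?_
    obtain ⟨a, ha⟩ := card_eq_one.mp h1
    have h2 : g ∈ ({a} : Finset G) := ha ▸ by simp
    have h3 : g⁻¹ ∈ ({a} : Finset G) := ha ▸ by simp
    rw [mem_singleton] at h2 h3
    have h4 : g ^ 2 = 1 := by rw [sq]; nth_rewrite 1 [h2, ← h3]; exact inv_mul_cancel g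
    have := Nat.le_of_dvd two_pos (orderOf_dvd_of_pow_eq_one h4)
    omega
  obtain ⟨_, ⟨g₀, rfl⟩, F2⟩ : n ∈ s '' Set.range (orderOf : G → ℕ) := h ▸ by simp
  have hn0 : n ≠ 0 := by
    rw [← F2]; exact card_ne_zero.mpr ⟨g₀, by simp⟩
  have Frob : ∀ m, m ∣ Nat.card G → m ∣ ∑ d ∈ m.divisors, s d := by
    intro m hm
    have hm0 : m ≠ 0 := by rintro rfl; exact Nat.card_pos.ne' (zero_dvd_iff.mp hm)
    have := Cfsg.Agent.S3993.result m hm
    rw [Nat.card_eq_fintype_card, Fintype.card_subtype] at this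
    rw [sum_card_orderOf_eq_card_pow_eq_one hm0]
    convert this
  have hdvd : ∀ m, (∃ g : G, orderOf g = m) → m ∣ Nat.card G := by
    rintro _ ⟨g, rfl⟩; exact orderOf_dvd_natCard g
  have cauchy : ∀ p : ℕ, p.Prime → p ∣ Nat.card G → ∃ g : G, orderOf g = p := fun p hp hd =>
    haveI := Fact.mk hp; exists_prime_orderOf_dvd_card' p hd
  have A : ∀ p : ℕ, p.Prime → p ∣ Nat.card G → s p = n → p ∣ 1 + n := by
    intro p hp hd hsp
    have := Frob p hd
    rwa [hp.divisors, sum_pair hp.one_lt.ne, s1, hsp] at this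
  have BC : ∀ p q : ℕ, p.Prime → q.Prime → s p = n → s q = n → ¬ ∃ g : G, orderOf g = p * q := by
    intro p q hp hq hsp hsq hg
    have h1 := Frob _ (hdvd _ hg)
    have h4 : 4 ≤ p * q := Nat.mul_le_mul hp.two_le hq.two_le
    have h2 := F1 _ (by omega) hg
    have hp1 := hp.one_lt
    have hq1 := hq.one_lt
    have hpA := A p hp ((Dvd.intro q rfl).trans (hdvd _ hg)) hsp
    have hqA := A q hq ((Dvd.intro_left p rfl).trans (hdvd _ hg)) hsq
    have hpn : ¬ p ∣ n := fun h => hp.not_dvd_one ((Nat.dvd_add_left h).mp hpA)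
    have hqn : ¬ q ∣ n := fun h => hq.not_dvd_one ((Nat.dvd_add_left h).mp hqA)
    have a1 : p < p * q := by nlinarith
    have a2 : q < p * q := by nlinarith
    rw [divisors_mul_primes hp hq] at h1
    by_cases hpq : p = q
    · subst hpq
      rw [insert_idem, sum_insert (by simp; omega), sum_pair a1.ne, s1, hsp, h2, ← add_assoc] at h1
      exact hpn ((Nat.dvd_add_right hpA).mp ((Dvd.intro p rfl).trans h1))
    · rw [sum_insert (by simp; omega), sum_insert (by simp; omega), sum_pair a2.ne, s1, hsp, hsq,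
        h2, ← add_assoc, ← two_mul] at h1
      have b1 := ((Nat.Prime.dvd_mul hp).mp
        ((Nat.dvd_add_right hpA).mp ((Dvd.intro q rfl).trans h1))).resolve_right hpn
      have b2 := ((Nat.Prime.dvd_mul hq).mp
        ((Nat.dvd_add_right hqA).mp ((Dvd.intro_left p rfl).trans h1))).resolve_right hqn
      exact hpq (((Nat.prime_dvd_prime_iff_eq hp Nat.prime_two).mp b1).trans
        ((Nat.prime_dvd_prime_iff_eq hq Nat.prime_two).mp b2).symm)
  have odd_s : ∀ p : ℕ, p.Prime → p ≠ 2 → p ∣ Nat.card G → s p = n := fun p hp h2 hd =>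
    F1 p (by have := hp.two_le; omega) (cauchy p hp hd)
  have fib : ∀ T : Finset ℕ, (∀ g : G, orderOf g ∈ T) → Nat.card G = ∑ m ∈ T, s m := by
    intro T hT
    rw [Nat.card_eq_fintype_card, ← card_univ]
    exact card_eq_sum_card_fiberwise fun g _ => hT g
  have hg₀ : orderOf g₀ ≠ 1 := by
    intro h1; rw [h1, s1] at F2; exact hn F2.symm
  by_cases hI : ∀ p : ℕ, p.Prime → p ∣ Nat.card G → s p = n
  · left
    have h1 : ∀ g : G, orderOf g = 1 ∨ (orderOf g).Prime := by
      intro g
      by_contra hcon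
      push Not at hcon
      obtain ⟨p, q, hp, hq, hpq⟩ := exists_two_primes (orderOf_pos g).ne' hcon.1 hcon.2
      have hd := hpq.trans (orderOf_dvd_natCard g)
      exact BC p q hp hq (hI p hp ((Dvd.intro q rfl).trans hd))
        (hI q hq ((Dvd.intro_left p rfl).trans hd)) (exists_orderOf_eq g hpq)
    set S := (Nat.card G).primeFactors with hS
    have hmem : ∀ p, p ∈ S ↔ p.Prime ∧ p ∣ Nat.card G := fun p => by
      simp [hS, Nat.card_pos.ne']
    have h2 : Nat.card G = 1 + S.card * n := by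
      rw [fib (insert 1 S) fun g => by
        rcases h1 g with h | h
        · simp [h]
        · exact mem_insert_of_mem ((hmem _).mpr ⟨h, orderOf_dvd_natCard g⟩),
        sum_insert (fun h => Nat.not_prime_one ((hmem _).mp h).1), s1,
        sum_congr rfl fun p hp => hI p ((hmem p).mp hp).1 ((hmem p).mp hp).2]
      simp
    have h3 := card_le_one S n fun p hp => by
      obtain ⟨a, b⟩ := (hmem p).mp hp
      exact ⟨a, A p a b (hI p a b), h2 ▸ b⟩
    have hp := (h1 g₀).resolve_left hg₀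
    have h4 : ∀ g : G, g ≠ 1 → orderOf g = orderOf g₀ := fun g hg =>
      Finset.card_le_one.mp h3 _ ((hmem _).mpr ⟨(h1 g).resolve_left (by simpa using hg),
        orderOf_dvd_natCard g⟩) _ ((hmem _).mpr ⟨hp, orderOf_dvd_natCard g₀⟩)
    have : Nontrivial G := ⟨g₀, 1, by simpa using hg₀⟩
    refine ⟨_, hp, fun g => ⟨1, ?_⟩, ?_, (Monoid.exponent_eq_prime_iff hp).mpr h4⟩
    · by_cases hg : g = 1
      · simp [hg]
      · rw [pow_one, ← h4 g hg, pow_orderOf_eq_one]
    · have h5 : 1 ≤ S.card := card_pos.mpr ⟨_, (hmem _).mpr ⟨hp, orderOf_dvd_natCard g₀⟩⟩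
      have h6 : S.card = 1 := by omega
      rw [h2, h6]; omega
  right
  push Not at hI
  obtain ⟨p₂, hp₂, hd2, hs2⟩ := hI
  obtain rfl : p₂ = 2 := by_contra fun h => hs2 (odd_s _ hp₂ h hd2)
  obtain ⟨z, hz⟩ := cauchy 2 hp₂ hd2
  have s2 : s 2 = 1 := by
    have := F0 z
    rw [hz] at this
    exact this.resolve_right hs2
  have huniq : ∀ y : G, orderOf y = 2 → y = z := fun y hy =>
    Finset.card_le_one.mp s2.le y (by simpa using hy) z (by simpa using hz)
  have hzc : ∀ g : G, Commute z g := fun g => by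
    have := huniq (g * z * g⁻¹) (by rw [← hz]; exact (MulAut.conj g).orderOf_eq z)
    exact (mul_inv_eq_iff_eq_mul.mp this).symm
  have two_mul_s : ∀ p : ℕ, p.Prime → p ≠ 2 → p ∣ Nat.card G → s (2 * p) = n := by
    intro p hp h2 hd
    obtain ⟨x, hx⟩ := cauchy p hp hd
    refine F1 _ (by have := hp.two_le; omega) ⟨z * x, ?_⟩
    rw [(hzc x).orderOf_mul_eq_mul_orderOf_of_coprime, hz, hx]
    rw [hz, hx]; exact (Nat.coprime_primes Nat.prime_two hp).mpr h2.symm
  by_cases h4 : ∃ g : G, orderOf g = 4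
  · have s4 := F1 4 (by norm_num) h4
    have h5 : 4 ∣ 2 + n := by
      have := Frob 4 (hdvd _ h4)
      rwa [show Nat.divisors 4 = {1, 2, 4} by decide, sum_insert (by simp), sum_pair (by simp), s1, s2,
        s4, ← add_assoc] at this
    have h8 : ¬ ∃ g : G, orderOf g = 8 := fun h8 => by
      have := Frob 8 (hdvd _ h8)
      rw [show Nat.divisors 8 = {1, 2, 4, 8} by decide, sum_insert (by simp), sum_insert (by simp),
        sum_pair (by simp), s1, s2, s4, F1 8 (by norm_num) h8] at this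
      omega
    have hG : IsPGroup 2 G := by
      rw [IsPGroup.iff_card]
      refine ⟨_, Nat.eq_prime_pow_of_unique_prime_dvd Nat.card_pos.ne' fun {p} hp hd => ?_⟩
      by_contra h2
      have h3 : 3 ≤ p := by have := hp.two_le; omega
      have hp4 : p ≠ 4 := by rintro rfl; exact absurd hp (by norm_num)
      have hco : Nat.Coprime 4 p :=
        ((Nat.coprime_primes Nat.prime_two hp).mpr (Ne.symm h2)).pow_left 2
      have h6 := (Dvd.intro_left 4 rfl).trans (Frob _ (hco.mul_dvd_of_dvd_of_dvd (hdvd _ h4) hd))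
      rw [divisors_four_mul hp, sum_insert (by simp; omega), sum_insert (by simp; omega),
        sum_insert (by simp; omega), sum_insert (by simp; omega), sum_pair (by omega), s1, s2, s4,
        odd_s p hp h2 hd, two_mul_s p hp h2 hd] at h6
      have h7 := A p hp hd (odd_s p hp h2 hd)
      by_cases h9 : ∃ g : G, orderOf g = 4 * p
      · rw [F1 _ (by omega) h9] at h6
        have : p ∣ 2 := by
          have e : 4 * (1 + n) = (1 + (1 + (n + (n + (n + n))))) + 2 := by ring
          exact (Nat.dvd_add_right h6).mp (e ▸ h7.mul_left 4)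
        have := Nat.le_of_dvd two_pos this
        omega
      · rw [Fz _ h9] at h6
        have : p ∣ 1 := by
          have e : 3 * (1 + n) = (1 + (1 + (n + (n + (n + 0))))) + 1 := by ring
          exact (Nat.dvd_add_right h6).mp (e ▸ h7.mul_left 3)
        exact hp.not_dvd_one this
    rcases CL.PCyc.isCyclic_or_quaternion hG (fun x y hx hy _ => by
      rw [huniq x hx, huniq y hy]; exact Subgroup.mem_zpowers z) with hc | ⟨-, j, ⟨e⟩⟩
    · right; left
      refine ⟨hc, ?_⟩
      obtain ⟨g, hg⟩ := IsCyclic.exists_ofOrder_eq_natCard (α := G)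
      obtain ⟨k, hk⟩ := hG.exists_card_eq
      have a1 := hdvd _ h4
      have a2 : ¬ 8 ∣ Nat.card G := fun h => h8 (exists_orderOf_eq g (hg ▸ h))
      rw [hk] at a1 a2 ⊢
      have b1 : 2 ≤ k := (Nat.pow_dvd_pow_iff_le_right one_lt_two).mp (show 2 ^ 2 ∣ 2 ^ k from a1)
      have b2 : ¬ 3 ≤ k := fun h => a2 (show 2 ^ 3 ∣ 2 ^ k from pow_dvd_pow 2 h)
      rw [show k = 2 by omega]; rfl
    · left
      obtain rfl : j = 0 := by
        by_contra hj
        apply h8
        refine exists_orderOf_eq (e.symm (QuaternionGroup.a 1)) ?_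
        rw [MulEquiv.orderOf_eq, QuaternionGroup.orderOf_a_one, ← pow_succ']
        exact show 2 ^ 3 ∣ _ from pow_dvd_pow 2 (by omega)
      exact ⟨e⟩
  right; right
  set S := (Nat.card G).primeFactors.erase 2 with hS
  have hmem : ∀ p, p ∈ S ↔ p ≠ 2 ∧ p.Prime ∧ p ∣ Nat.card G := fun p => by
    simp [hS, Nat.card_pos.ne']
  have hodd : ∀ g : G, ¬ 2 ∣ orderOf g → orderOf g = 1 ∨ orderOf g ∈ S := by
    intro g hg
    by_contra hcon
    push Not at hcon
    obtain ⟨p, q, hp, hq, hpq⟩ := exists_two_primes (orderOf_pos g).ne' hcon.1 fun h =>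
      hcon.2 ((hmem _).mpr ⟨fun e => hg (e ▸ dvd_rfl), h, orderOf_dvd_natCard g⟩)
    have hd := hpq.trans (orderOf_dvd_natCard g)
    exact BC p q hp hq
      (odd_s p hp (by rintro rfl; exact hg ((Dvd.intro q rfl).trans hpq)) ((Dvd.intro q rfl).trans hd))
      (odd_s q hq (by rintro rfl; exact hg ((Dvd.intro_left p rfl).trans hpq))
        ((Dvd.intro_left p rfl).trans hd)) (exists_orderOf_eq g hpq)
  have hall : ∀ g : G, orderOf g ∈ insert 1 (insert 2 (S ∪ S.image (2 * ·))) := by
    intro g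
    simp only [mem_insert, mem_union, mem_image]
    by_cases hg : 2 ∣ orderOf g
    · obtain ⟨r, hr⟩ := hg
      obtain ⟨x, hx⟩ := exists_orderOf_eq g (Dvd.intro_left 2 hr.symm)
      have : ¬ 2 ∣ orderOf x := by
        rw [hx]
        rintro ⟨t, rfl⟩
        exact h4 (exists_orderOf_eq g ⟨t, by rw [hr]; ring⟩)
      rcases hodd x this with h | h <;> rw [hx] at h
      · right; left; rw [hr, h]
      · right; right; right; exact ⟨r, h, hr.symm⟩
    · rcases hodd g hg with h | h
      · exact Or.inl h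
      · exact Or.inr (Or.inr (Or.inl h))
  have hS3 : ∀ p ∈ S, 3 ≤ p ∧ ¬ 2 ∣ p := fun p hp => by
    obtain ⟨a, b, -⟩ := (hmem p).mp hp
    exact ⟨by have := b.two_le; omega,
      fun h => a ((Nat.prime_dvd_prime_iff_eq Nat.prime_two b).mp h).symm⟩
  have hcard : Nat.card G = 2 * (1 + S.card * n) := by
    rw [fib _ hall, sum_insert, sum_insert, sum_union, sum_image (fun a _ b _ h => by omega), s1, s2,
      sum_congr rfl fun p hp => odd_s p ((hmem p).mp hp).2.1 ((hmem p).mp hp).1 ((hmem p).mp hp).2.2,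
      sum_congr rfl fun p hp =>
        two_mul_s p ((hmem p).mp hp).2.1 ((hmem p).mp hp).1 ((hmem p).mp hp).2.2]
    · simp; ring
    · rw [Finset.disjoint_left]
      intro a ha hb
      obtain ⟨b, -, rfl⟩ := mem_image.mp hb
      exact (hS3 _ ha).2 (Dvd.intro b rfl)
    · simp only [mem_union, mem_image, not_or, not_exists, not_and]
      exact ⟨fun h => by have := (hS3 _ h).1; omega, fun a ha => by have := (hS3 _ ha).1; omega⟩
    · simp only [mem_insert, mem_union, mem_image, not_or, not_exists, not_and]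
      exact ⟨by omega, fun h => by have := (hS3 _ h).1; omega, fun a ha => by omega⟩
  have h3 := card_le_one S n fun p hp => by
    obtain ⟨a, b, c⟩ := (hmem p).mp hp
    refine ⟨b, A p b c (odd_s p b a c), ?_⟩
    rw [hcard] at c
    exact ((Nat.Prime.dvd_mul b).mp c).resolve_left fun h =>
      a ((Nat.prime_dvd_prime_iff_eq b Nat.prime_two).mp h)
  obtain ⟨p, hpS⟩ : ∃ p, p ∈ S := by
    have := hall g₀
    simp only [mem_insert, mem_union, mem_image] at this
    rcases this with h | h | h | ⟨a, h, -⟩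
    · exact absurd h hg₀
    · rw [h, s2] at F2; exact absurd F2.symm hn
    · exact ⟨_, h⟩
    · exact ⟨_, h⟩
  obtain ⟨hp2, hp, hpd⟩ := (hmem p).mp hpS
  have := Fact.mk hp
  have hnot4 : ¬ 4 ∣ Nat.card G := fun h => by
    have := Frob 4 h
    rw [show Nat.divisors 4 = {1, 2, 4} by decide, sum_insert (by simp), sum_pair (by simp), s1, s2,
      Fz 4 h4] at this
    omega
  obtain ⟨b, hb⟩ : ∃ b, 1 + S.card * n = p ^ b :=
    ⟨_, Nat.eq_prime_pow_of_unique_prime_dvd (by omega) fun {q} hq hd =>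
      Finset.card_le_one.mp h3 _ ((hmem q).mpr ⟨by
        rintro rfl
        exact hnot4 (hcard ▸ Nat.mul_dvd_mul_left 2 hd), hq, hcard ▸ hd.mul_left 2⟩) _ hpS⟩
  rw [hb] at hcard
  obtain ⟨P, hP⟩ := Sylow.exists_subgroup_card_pow_prime p (G := G) (n := b)
    (hcard ▸ Dvd.intro_left 2 rfl)
  have hPp : IsPGroup p P := IsPGroup.of_card hP
  have hco : Nat.Coprime 2 (p ^ b) := ((Nat.coprime_primes Nat.prime_two hp).mpr hp2.symm).pow_right b
  let f : Subgroup.zpowers z × P →* G := MonoidHom.noncommCoprod (Subgroup.subtype _)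
    (Subgroup.subtype _) (by
      rintro ⟨_, k, rfl⟩ y
      exact (hzc y).zpow_left k)
  have hZ : Nat.card (Subgroup.zpowers z) = 2 := by rw [Nat.card_zpowers, hz]
  have hf : Function.Injective f := by
    rw [injective_iff_map_eq_one]
    rintro ⟨a, c⟩ hac
    have e : (a : G) * c = 1 := hac
    have e1 : (a : G) = (c : G)⁻¹ := eq_inv_of_mul_eq_one_left e
    have d1 : orderOf (a : G) ∣ 2 := by rw [Subgroup.orderOf_coe, ← hZ]; exact orderOf_dvd_natCard a
    have d2 : orderOf (a : G) ∣ p ^ b := by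
      rw [e1, orderOf_inv, Subgroup.orderOf_coe, ← hP]; exact orderOf_dvd_natCard c
    have e2 : (a : G) = 1 := orderOf_eq_one_iff.mp (Nat.eq_one_of_dvd_coprimes hco d1 d2)
    rw [e2, one_mul] at e
    exact Prod.ext (Subtype.ext e2) (Subtype.ext e)
  have hbij : Function.Bijective f := hf.bijective_of_nat_card_le (by
    rw [Nat.card_prod, hZ, hP, hcard])
  obtain ⟨P', _, _, ⟨e⟩⟩ := Finite.exists_type_univ_nonempty_mulEquiv.{_, 0} P
  have hb0 : b ≠ 0 := by
    rintro rfl
    rw [hcard, pow_zero, mul_one] at hpd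
    exact hp2 ((Nat.prime_dvd_prime_iff_eq hp Nat.prime_two).mp hpd)
  have : Nontrivial P := Finite.one_lt_card_iff_nontrivial.mp (hP ▸ Nat.one_lt_pow hb0 hp.one_lt)
  refine ⟨p, P', inferInstance, inferInstance, hp, hp2, hPp.of_equiv e, ?_,
    ⟨(MulEquiv.ofBijective f hbij).symm.trans (MulEquiv.prodCongr
      (mulEquivOfPrimeCardEq hZ (by simp)) e)⟩⟩
  rw [← Monoid.exponent_eq_of_mulEquiv e, Monoid.exponent_eq_prime_iff hp]
  intro g hg
  have d2 : orderOf (g : G) ∣ p ^ b := by
    rw [Subgroup.orderOf_coe, ← hP]; exact orderOf_dvd_natCard g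
  rw [← Subgroup.orderOf_coe]
  rcases hodd g (fun h => by
    have := Nat.eq_one_of_dvd_coprimes hco dvd_rfl (h.trans d2)
    omega) with h | h
  · exact absurd (Subtype.ext (orderOf_eq_one_iff.mp h)) hg
  · exact Finset.card_le_one.mp h3 _ h _ hpS

end Cfsg.Agent.S3995
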