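import Mathlib
import Cfsg.Statements.S3997
import Cfsg.Agent.FGS.OrderType

set_option autoImplicit false
open Cfsg

namespace Cfsg.Agent.S3997

open CL.OrdType

/-- Let G and H be finite groups with the same order type: for every m they have the same number of elements of order m. If G is nilpotent then so is H. -/
theorem result {G H : Type*} [Group G] [Finite G] [Group H] [Finite H] (hT : (∀ m : ℕ, Nat.card {g : G // orderOf g = m} = Nat.card {h : H // orderOf h = m})) (hG : Group.IsNilpotent G) :
    Group.IsNilpotent H := by
  refine (Group.isNilpotent_of_finite_tfae.out 3 0).mp ?_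
  intro p hp Q
  obtain ⟨P⟩ : Nonempty (Sylow p G) := inferInstance
  have h0 : ∀ (p : ℕ) (_hp : Fact p.Prime) (P : Sylow p G), (P : Subgroup G).Normal :=
    (Group.isNilpotent_of_finite_tfae.out 0 3).mp hG
  have hP : (P : Subgroup G).Normal := h0 p hp P
  refine normal_of_piCount_le (piNum_card_sylow Q) (le_of_eq ?_)
  rw [← piCount_eq_of_orderType hT, ← piPartNat_card_eq_sylow, ← card_eq_of_orderType hT,
    piPartNat_card_eq_sylow P]
  refine piCount_eq_card_of_normal_hall _ (piNum_card_sylow P) ?_
  rintro q - hd rfl
  exact P.not_dvd_index hd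

end Cfsg.Agent.S3997
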