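import Mathlib
import Cfsg.Statements.S3998
import Cfsg.Agent.FGS.OrderType
import Cfsg.Agent.SOLV.Supersolvable

set_option autoImplicit false
open Cfsg

namespace Cfsg.Agent.S3998

open CL.OrdType

universe u

/-- the count condition -/
def TT (G : Type*) [Group G] : Prop :=
  ∀ m : ℕ, piCount (m ≤ ·) G = piPartNat (m ≤ ·) (Nat.card G)

theorem tt_iff {G : Type*} [Group G] [Finite G] {p : ℕ} [Fact p.Prime]
    (hmax : ∀ q : ℕ, q.Prime → q ∣ Nat.card G → q ≤ p) (P : Sylow p G) [(P : Subgroup G).Normal] :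
    TT G ↔ TT (G ⧸ (P : Subgroup G)) := by
  refine forall_congr' fun m => ?_
  by_cases hm : m ≤ p
  · have h1 : PiNum (m ≤ ·) (Nat.card P) := fun q hq hd => piNum_card_sylow P q hq hd ▸ hm
    rw [piCount_eq_mul_quotient (P : Subgroup G) h1, ← (P : Subgroup G).card_mul_index,
      piPartNat_mul _ Nat.card_pos.ne' Subgroup.index_ne_zero_of_finite,
      piPartNat_of_piNum Nat.card_pos.ne' h1]
    exact Nat.mul_right_inj Nat.card_pos.ne'
  · have h1 : PiNum (fun q => ¬ m ≤ q) (Nat.card G) := fun q hq hd h => hm (h.trans (hmax q hq hd))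
    have h2 : PiNum (fun q => ¬ m ≤ q) (Nat.card (G ⧸ (P : Subgroup G))) :=
      h1.of_dvd (Subgroup.card_quotient_dvd_card _)
    rw [piCount_eq_one h1, piCount_eq_one h2, piPartNat_of_piNum_not h1, piPartNat_of_piNum_not h2]

theorem exists_max {G : Type*} [Group G] [Finite G] [Nontrivial G] :
    ∃ p : ℕ, p.Prime ∧ p ∣ Nat.card G ∧ ∀ q : ℕ, q.Prime → q ∣ Nat.card G → q ≤ p := by
  have hne : (Nat.card G).primeFactors.Nonempty :=
    Nat.nonempty_primeFactors.mpr Finite.one_lt_card
  have := Nat.mem_primeFactors.mp (Finset.max'_mem _ hne)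
  exact ⟨_, this.1, this.2.1, fun q hq hd =>
    Finset.le_max' _ q (Nat.mem_primeFactors.mpr ⟨hq, hd, Nat.card_pos.ne'⟩)⟩

theorem card_quot_lt {G : Type*} [Group G] [Finite G] {p : ℕ} [Fact p.Prime]
    (hd : p ∣ Nat.card G) (P : Sylow p G) : Nat.card (G ⧸ (P : Subgroup G)) < Nat.card G := by
  have h1 := Subgroup.card_eq_card_quotient_mul_card_subgroup (P : Subgroup G)
  have h3 : 1 < Nat.card P := (Subgroup.one_lt_card_iff_ne_bot _).mpr (P.ne_bot_of_dvd_card hd)
  have h5 : 0 < Nat.card (G ⧸ (P : Subgroup G)) := Nat.card_pos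
  nlinarith

theorem tt_of_ss (n : ℕ) : ∀ (G : Type u) [Group G] [Finite G], Nat.card G = n →
    Cfsg.IsSupersolvable G → TT G := by
  induction n using Nat.strong_induction_on with
  | _ n ih =>
  intro G _ _ hn hG
  rcases subsingleton_or_nontrivial G with h | h
  · intro m
    have h1 : PiNum (fun q => ¬ m ≤ q) (Nat.card G) := by
      rw [Nat.card_of_subsingleton (1 : G)]; exact piNum_one _
    rw [piCount_eq_one h1, piPartNat_of_piNum_not h1]
  obtain ⟨p, hp, hd, hmax⟩ := exists_max (G := G)
  have : Fact p.Prime := ⟨hp⟩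
  obtain ⟨P⟩ : Nonempty (Sylow p G) := inferInstance
  have := CL.IsSupersolvable.sylow_normal_of_max_prime hG hmax P
  exact (tt_iff hmax P).mpr (ih _ (hn ▸ card_quot_lt hd P) _ rfl (CL.IsSupersolvable.quotient hG _))

theorem solv_of_tt (n : ℕ) : ∀ (G : Type u) [Group G] [Finite G], Nat.card G = n →
    TT G → Group.IsSolvable G := by
  induction n using Nat.strong_induction_on with
  | _ n ih =>
  intro G _ _ hn hG
  rcases subsingleton_or_nontrivial G with h | h
  · infer_instance
  obtain ⟨p, hp, hd, hmax⟩ := exists_max (G := G)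
  have : Fact p.Prime := ⟨hp⟩
  obtain ⟨P⟩ : Nonempty (Sylow p G) := inferInstance
  have hiff : ∀ q : ℕ, q.Prime → q ∣ Nat.card G → (q = p ↔ p ≤ q) := fun q hq hd =>
    ⟨fun e => e.ge, fun e => le_antisymm (hmax q hq hd) e⟩
  have : (P : Subgroup G).Normal := by
    refine normal_of_piCount_le (piNum_card_sylow P) (le_of_eq ?_)
    rw [piCount_congr hiff, hG p, ← piPartNat_congr hiff, piPartNat_card_eq_sylow P]
  have h1 := ih _ (hn ▸ card_quot_lt hd P) _ rfl ((tt_iff hmax P).mp hG)
  have h2 : Group.IsNilpotent P := P.isPGroup'.isNilpotent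
  exact Group.isSolvable_of_ker_le_range (P : Subgroup G).subtype (QuotientGroup.mk' (P : Subgroup G))
    (by rw [QuotientGroup.ker_mk', Subgroup.range_subtype])

/-- Let G and H be finite groups with the same order type (for every m the same number of elements of order m). If G is supersolvable then H is solvable. -/
theorem result {G H : Type*} [Group G] [Finite G] [Group H] [Finite H] (hT : (∀ m : ℕ, Nat.card {g : G // orderOf g = m} = Nat.card {h : H // orderOf h = m})) (hG : Cfsg.IsSupersolvable G) :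
    Group.IsSolvable H := by
  refine solv_of_tt _ H rfl fun m => ?_
  rw [← piCount_eq_of_orderType hT, ← card_eq_of_orderType hT]
  exact tt_of_ss _ G rfl hG m

end Cfsg.Agent.S3998
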