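import Cfsg.Statements.S3999
import Mathlib
import Cfsg.Agent.SOLV.FrobeniusNil
import Cfsg.Agent.SOLV.Hall
import Cfsg.Agent.FGS.NilpBasic
import Cfsg.Agent.KSG.SL2Torus
import Cfsg.Agent.S3359

set_option autoImplicit false
open Cfsg

namespace Cfsg.Agent.S3999

theorem coprime_kernel {F : Type*} [Group F] [Finite F] {C K : Subgroup F}
    (hC : Cfsg.IsFrobeniusComplement C) (hK : K.IsComplement' C) :
    (Nat.card C).Coprime (Nat.card K) := by
  have := CL.Frob.coprime_index_of_centralizer_le C fun x hx h1 => CL.Frob.centralizer_le hC hx h1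
  rwa [hK.index_eq_card] at this

theorem no_mixed {F : Type*} [Group F] [Finite F] {C K : Subgroup F} [K.Normal]
    (hC : Cfsg.IsFrobeniusComplement C) (hK : K.IsComplement' C) {p q : ℕ} (hp : p.Prime)
    (hq : q.Prime) (hpK : p ∣ Nat.card K) (hqC : q ∣ Nat.card C) (x : F) :
    orderOf x ≠ p * q := by
  intro hx
  have hcop := coprime_kernel hC hK
  have h1 : orderOf (x ^ p) = q := by
    rw [orderOf_pow_of_dvd hp.ne_zero (hx ▸ dvd_mul_right p q), hx, Nat.mul_div_cancel_left _ hp.pos]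
  obtain ⟨g, hg⟩ := CL.Frob.exists_le_conj_of_card_dvd hC (Subgroup.zpowers (x ^ p))
    (by rwa [Nat.card_zpowers, h1])
  have h2 := CL.Frob.centralizer_le (CL.Frob.conj_smul hC g) (hg (Subgroup.mem_zpowers _))
    (by intro e; rw [e, orderOf_one] at h1; exact hq.one_lt.ne h1)
    (show x ∈ Subgroup.centralizer {x ^ p} from
      Subgroup.mem_centralizer_singleton_iff.2 (Commute.self_pow x p).eq)
  have h3 := Subgroup.orderOf_dvd_natCard _ h2
  rw [hx, ← Nat.card_congr (Subgroup.equivSMul (MulAut.conj g) C).toEquiv] at h3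
  exact hp.one_lt.ne' (Nat.Coprime.eq_one_of_dvd
    (Nat.Coprime.coprime_dvd_right ((dvd_mul_right p q).trans h3) (hcop.symm.coprime_dvd_left hpK))
    dvd_rfl)

theorem sl25 (g : Matrix.SpecialLinearGroup (Fin 2) (ZMod 5)) : orderOf g ≠ 15 := by
  intro hg
  haveI : Fact (Nat.Prime 5) := ⟨by norm_num⟩
  by_cases hr : CL.GL2.Reg g
  · have h1 := Subgroup.orderOf_dvd_natCard _ (CL.GL2.self_mem_centSL g)
    rcases hr.cases with h | h
    · rw [h.2, hg, ZMod.card] at h1; norm_num at h1
    · rw [h.2, hg, ZMod.card] at h1; norm_num at h1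
  · have h1 : g ^ 10 = 1 := by
      rcases CL.GL2.pow_char_of_not_reg 5 hr with h | h
      · rw [show 10 = 5 * 2 by rfl, pow_mul, h, one_pow]
      · rw [show 10 = 5 * 2 by rfl, pow_mul, h, neg_one_sq]
    have := orderOf_dvd_of_pow_eq_one h1
    rw [hg] at this
    norm_num at this

theorem frob_map {F L : Type*} [Group F] [Group L] (e : F ≃* L) {C : Subgroup F}
    (hC : Cfsg.IsFrobeniusComplement C) : Cfsg.IsFrobeniusComplement (C.map e.toMonoidHom) := by
  refine ⟨fun h => hC.1 ((Subgroup.map_eq_bot_iff_of_injective _ e.injective).1 h), fun h => hC.2.1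
    (eq_top_iff.2 fun x _ => ?_), CL.Frob.malnormal_iff.2 fun g hg x hx h => ?_⟩
  · have : e x ∈ C.map e.toMonoidHom := h ▸ Subgroup.mem_top _
    simpa using this
  · rw [Subgroup.mem_map_equiv] at hg hx h
    have := CL.Frob.IsFrobeniusComplement.malnormal hC _ hg _ hx (by simpa using h)
    simpa using this

theorem nonsolvable {F : Type*} [Group F] [Finite F] {C : Subgroup F}
    (hC : Cfsg.IsFrobeniusComplement C) (hns : ¬ Group.IsSolvable F) :
    (∃ n, Nat.card F = 15 * n ∧ Nat.Coprime 15 n) ∧ 15 ∣ Nat.card C ∧ ∀ x : F, orderOf x ≠ 15 := by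
  obtain ⟨K, -, hKn, hK, -, -, hnil⟩ := CL.Frob.exists_nilpotent_kernel hC
  have hcop := coprime_kernel hC hK
  have hCs : ¬ Group.IsSolvable C := fun h => hns (by
    haveI : Group.IsSolvable (F ⧸ K) :=
      Group.isSolvable_of_surjective (f := hK.symm.QuotientMulEquiv.symm.toMonoidHom)
        (MulEquiv.surjective _)
    exact (Group.isSolvable_iff_subgroup_quotient K).2 ⟨inferInstance, inferInstance⟩)
  let e : F ≃* Shrink.{0} F := (equivShrink.{0} F).symm.mulEquiv.symm
  obtain ⟨G₀, hn, hi, S, M, hSM, hd, hc, ⟨f⟩, -, hM⟩ := Cfsg.Agent.S3359.result hCs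
    ⟨Shrink.{0} F, inferInstance, inferInstance, C.map e.toMonoidHom, frob_map e hC,
      ⟨C.equivMapOfInjective _ e.injective⟩⟩
  have hS : Nat.card S = 120 := by
    rw [Nat.card_congr f.toEquiv, Nat.card_eq_fintype_card]
    rfl
  have hMS : S ≤ Subgroup.normalizer (M : Set C) := le_trans
    (show S ≤ Subgroup.centralizer (M : Set C) from fun s hs x hx => (hc s hs x hx).symm)
    (Subgroup.centralizer_le_normalizer _)
  have h0 : Nat.card G₀ = 120 * Nat.card M := by
    rw [← hSM, ← hS]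
    exact CL.card_sup_of_disjoint hMS hd
  have hCc : Nat.card C = 15 * (8 * Nat.card M * G₀.index) := by
    rw [← G₀.card_mul_index, h0]; ring
  have hM15 : Nat.Coprime 15 (Nat.card M) := (Nat.Coprime.coprime_dvd_right (by norm_num) hM).symm
  have hi15 : Nat.Coprime 15 G₀.index := by rcases hi with h | h <;> rw [h] <;> norm_num
  have h15 : 15 ∣ Nat.card C := hCc ▸ dvd_mul_right _ _
  refine ⟨⟨8 * Nat.card M * G₀.index * Nat.card K, ?_, ?_⟩, h15, fun x hx => ?_⟩
  · rw [← hK.card_mul_card, hCc]; ring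
  · exact Nat.Coprime.mul_right (Nat.Coprime.mul_right (Nat.Coprime.mul_right (by norm_num) hM15)
      hi15) (hcop.coprime_dvd_left h15)
  · obtain ⟨g, hg⟩ := CL.Frob.exists_le_conj_of_card_dvd hC (Subgroup.zpowers x)
      (by rwa [Nat.card_zpowers, hx])
    obtain ⟨y, hy, rfl⟩ := hg (Subgroup.mem_zpowers x)
    have hy15 : orderOf (⟨y, hy⟩ : C) = 15 := by
      rw [Subgroup.orderOf_mk, ← hx]
      exact ((MulAut.conj g).orderOf_eq y).symm
    generalize (⟨y, hy⟩ : C) = z at hy15
    have hz : z ∈ S ⊔ M := hSM ▸ CL.mem_of_coprime_index (hy15 ▸ hi15)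
    obtain ⟨s, hs, m, hm, rfl⟩ := (CL.mem_sup_of_le_normalizer hMS).1 hz
    have hsm : Commute s m := hc s hs m hm
    have h1 : (s * m) ^ 15 = 1 := by rw [← hy15, pow_orderOf_eq_one]
    rw [hsm.mul_pow] at h1
    have h2 : m ^ 15 = 1 := by
      have : m ^ 15 ∈ S ⊓ M := Subgroup.mem_inf.2 ⟨by
        rw [eq_inv_of_mul_eq_one_right h1]; exact S.inv_mem (S.pow_mem hs _), M.pow_mem hm _⟩
      rwa [hd] at this
    have h3 : m = 1 := by
      rw [← orderOf_eq_one_iff]
      exact Nat.Coprime.eq_one_of_dvd (Nat.Coprime.coprime_dvd_left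
        (orderOf_dvd_of_pow_eq_one h2) hM15) (Subgroup.orderOf_dvd_natCard _ hm)
    rw [h3, mul_one] at hy15
    exact sl25 (f ⟨s, hs⟩) (by rw [f.orderOf_eq, Subgroup.orderOf_mk, hy15])

theorem solv_imp {F G : Type*} [Group F] [Finite F] [Group G] [Finite G] (e : F ≃ G)
    (he : ∀ x, orderOf (e x) = orderOf x) {C : Subgroup F} (hC : Cfsg.IsFrobeniusComplement C)
    {D : Subgroup G} (hD : Cfsg.IsFrobeniusComplement D) (hCD : Nat.card C = Nat.card D)
    (hG : Group.IsSolvable G) : Group.IsSolvable F := by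
  by_contra hns
  obtain ⟨⟨n, hn, hcop⟩, h15, h⟩ := nonsolvable hC hns
  obtain ⟨H, hH⟩ := CL.hall_exists (G := G) (by rw [← Nat.card_congr e, hn]) hcop
  obtain ⟨g, hg⟩ := CL.Frob.exists_le_conj_of_card_dvd hD H (by rwa [hH, ← hCD])
  obtain ⟨K, -, hKn, -, hK1, hfpf⟩ := CL.Frob.exists_kernel (CL.Frob.conj_smul hD g)
  have := CL.Frob.isCyclic_of_card_eq_mul (A := H) hK1 (by rw [Subgroup.normalizer_eq_top]; exact le_top)
    (CL.Frob.fpf_mono hfpf hg le_rfl) Nat.prime_three Nat.prime_five hH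
  obtain ⟨y, hy⟩ := IsCyclic.exists_ofOrder_eq_natCard (α := H)
  refine h (e.symm y) ?_
  rw [← he, e.apply_symm_apply, Subgroup.orderOf_coe, hy, hH]

/-- Let F be a finite Frobenius group (it has a Frobenius complement) and G a finite group with the same order type as F (for every m the same number of elements of order m). Then G is a Frobenius group; moreover G is solvable if and only if F is. -/
theorem result {F G : Type*} [Group F] [Finite F] [Group G] [Finite G] (hF : (∃ C : Subgroup F, Cfsg.IsFrobeniusComplement C)) (hT : (∀ m : ℕ, Nat.card {g : F // orderOf g = m} = Nat.card {h : G // orderOf h = m})) :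
    (∃ C : Subgroup G, Cfsg.IsFrobeniusComplement C) ∧ (Group.IsSolvable G ↔ Group.IsSolvable F) := by
  classical
  obtain ⟨C, hC⟩ := hF
  obtain ⟨e, he⟩ : ∃ e : F ≃ G, ∀ x, orderOf (e x) = orderOf x := by
    have h1 : ∀ m : ℕ, Nonempty ({g : F // orderOf g = m} ≃ {h : G // orderOf h = m}) :=
      fun m => Finite.card_eq.1 (hT m)
    exact ⟨Equiv.ofFiberEquiv fun m => (h1 m).some, fun x =>
      Equiv.ofFiberEquiv_map (fun m => (h1 m).some) x⟩
  have hcard : Nat.card F = Nat.card G := Nat.card_congr e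
  obtain ⟨K, -, hKn, hK, hK1, -, hnil⟩ := CL.Frob.exists_nilpotent_kernel hC
  have hcop := coprime_kernel hC hK
  have hsyl : ∀ p : ℕ, p.Prime → p ∣ Nat.card K → ∀ P : Sylow p G, (P : Subgroup G).Normal := by
    intro p hp hpK P
    haveI : Fact p.Prime := ⟨hp⟩
    obtain ⟨R⟩ : Nonempty (Sylow p K) := inferInstance
    have hRn : (R : Subgroup K).Normal :=
      R.normal_of_normalizerCondition Group.normalizerCondition_of_isNilpotent
    have h1 : {x : F | ∃ k, orderOf x = p ^ k} ⊆ (R : Subgroup K).map K.subtype := by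
      rintro x ⟨k, hk⟩
      have hx : x ∈ K := CL.mem_of_coprime_index (by
        rw [hk, hK.symm.index_eq_card]
        exact Nat.Coprime.pow_left _ (hcop.symm.coprime_dvd_left hpK))
      exact ⟨⟨x, hx⟩, CL.FGS.mem_sylow_of_normal_of_pow_eq_one R hRn (k := k)
        (Subtype.ext (by rw [← hk]; exact pow_orderOf_eq_one x)), rfl⟩
    have h2 : {y : G | ∃ k, orderOf y = p ^ k} = e '' {x : F | ∃ k, orderOf x = p ^ k} := by
      ext y
      rw [Set.mem_image_equiv, Set.mem_ofPred_eq, Set.mem_ofPred_eq, ← he, e.apply_symm_apply]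
    have h3 : (P : Set G) ⊆ {y : G | ∃ k, orderOf y = p ^ k} := fun y hy => by
      obtain ⟨k, hk⟩ := IsPGroup.iff_orderOf.1 P.isPGroup' ⟨y, hy⟩
      exact ⟨k, by rw [← hk, Subgroup.orderOf_mk]⟩
    have h4 : (P : Set G) = {y : G | ∃ k, orderOf y = p ^ k} := by
      refine Set.eq_of_subset_of_ncard_le h3 ?_
      rw [h2, Set.ncard_image_of_injective _ e.injective]
      refine (Set.ncard_le_ncard h1).trans ?_
      have h5 : Nat.card ((R : Subgroup K).map K.subtype) ∣ Nat.card (P : Subgroup G) := by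
        obtain ⟨k, hk⟩ := IsPGroup.iff_card.1 (R.isPGroup'.map K.subtype)
        rw [hk, P.card_eq_multiplicity, ← hcard]
        refine pow_dvd_pow _ ((hp.pow_dvd_iff_le_factorization Nat.card_pos.ne').1 ?_)
        rw [← hk]
        exact Subgroup.card_subgroup_dvd_card _
      exact Nat.le_of_dvd Nat.card_pos h5
    refine ⟨fun y hy g => ?_⟩
    change g * y * g⁻¹ ∈ (P : Set G)
    rw [h4]
    obtain ⟨k, hk⟩ := h3 hy
    exact ⟨k, by rw [← hk]; exact (MulAut.conj g).orderOf_eq y⟩
  let N := Cfsg.piCore {p | p ∣ Nat.card K} G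
  have hN : Cfsg.IsPiHall {p | p ∣ Nat.card K} N := by
    refine ⟨CL.isPiNum_card_piCore _ G, fun p hp hpK hd => ?_⟩
    haveI : Fact p.Prime := ⟨hp⟩
    obtain ⟨P⟩ : Nonempty (Sylow p G) := inferInstance
    haveI := hsyl p hp hpK P
    exact P.not_dvd_index (hd.trans (Subgroup.index_dvd_of_le
      (CL.le_piCore (CL.IsPiNum.of_isPGroup P.isPGroup' hpK))))
  have hNc : Nat.card N = Nat.card K :=
    (CL.isPiHall_iff_card_eq (by rw [← hcard, hK.card_mul_card]) (CL.isPiNum_setOf_dvd _)
      (CL.isPiNum_compl_setOf_dvd hcop.symm)).1 hN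
  have hNi : N.index = Nat.card C := by
    have := N.card_mul_index
    rw [hNc, ← hcard, ← hK.card_mul_card] at this
    exact Nat.eq_of_mul_eq_mul_left Nat.card_pos this
  obtain ⟨D, hD⟩ := Subgroup.exists_right_complement'_of_coprime (N := N)
    (by rw [hNc, hNi]; exact hcop.symm)
  have hDc : Nat.card D = Nat.card C := by rw [← hD.symm.index_eq_card, hNi]
  have hDF : Cfsg.IsFrobeniusComplement D := by
    refine CL.Frob.isFrobeniusComplement_of_fpf hD (fun h => hK1 ?_) (fun h => hC.1 ?_) ?_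
    · rw [← Subgroup.card_eq_one, ← hNc, h, Subgroup.card_bot]
    · rw [← Subgroup.card_eq_one, ← hDc, h, Subgroup.card_bot]
    · intro d hd hd1
      rw [eq_bot_iff]
      intro k hk
      by_contra hk1
      obtain ⟨p, hp, hpk⟩ := Nat.exists_prime_and_dvd (n := orderOf k) (by simpa using hk1)
      obtain ⟨q, hq, hqd⟩ := Nat.exists_prime_and_dvd (n := orderOf d) (by simpa using hd1)
      have hpK : p ∣ Nat.card K := hNc ▸ hpk.trans (Subgroup.orderOf_dvd_natCard _ hk.1)
      have hqC : q ∣ Nat.card C := hDc ▸ hqd.trans (Subgroup.orderOf_dvd_natCard _ hd)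
      have hc : Commute k d := Subgroup.mem_centralizer_singleton_iff.1 hk.2
      have h1 := orderOf_pow_orderOf_div (orderOf_pos k).ne' hpk
      have h2 := orderOf_pow_orderOf_div (orderOf_pos d).ne' hqd
      refine no_mixed hC hK hp hq hpK hqC (e.symm (k ^ (orderOf k / p) * d ^ (orderOf d / q))) ?_
      rw [← he, e.apply_symm_apply, (hc.pow_pow _ _).orderOf_mul_eq_mul_orderOf_of_coprime, h1, h2]
      rw [h1, h2]
      exact (hcop.symm.coprime_dvd_left hpK).coprime_dvd_right hqC
  exact ⟨⟨D, hDF⟩, solv_imp e he hC hDF hDc.symm,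
    solv_imp e.symm (fun y => by rw [← he, e.apply_symm_apply]) hDF hC hDc⟩

end Cfsg.Agent.S3999
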