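import Cfsg.Statements.S4002
import Cfsg.Agent.FGS.TwoPrimes
import Cfsg.Agent.S1475
import Cfsg.Agent.SOLV.Hall

set_option autoImplicit false
open Cfsg

namespace Cfsg.Agent.S4002

/-- If the set of element orders of a finite group G is {1, 2, …, n} with n ≥ 7, then G is not solvable. -/
theorem result {G : Type*} [Group G] [Finite G] (n : ℕ) (hn : 7 ≤ n) (h : Set.range (orderOf : G → ℕ) = {k : ℕ | 1 ≤ k ∧ k ≤ n}) : ¬ Group.IsSolvable G := by
  intro hs
  obtain ⟨p, q, r, hp, hq, hr, hpq, hpr, hqr, hpn, hqn, hrn, h1, h2, h3⟩ : ∃ p q r : ℕ, p.Prime ∧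
      q.Prime ∧ r.Prime ∧ p ≠ q ∧ p ≠ r ∧ q ≠ r ∧ p ≤ n ∧ q ≤ n ∧ r ≤ n ∧
      n < p * q ∧ n < p * r ∧ n < q * r := by
    by_cases h17 : 17 ≤ n
    · obtain ⟨p, q, hp, hq, h1, h2, h3⟩ := CL.FGS.TwoPrimes.exists_two_primes n h17
      refine ⟨2, p, q, Nat.prime_two, hp, hq, by omega, by omega, by omega, by omega, by omega, h3,
        h1, by omega, by nlinarith⟩
    by_cases h11 : 11 ≤ n
    · exact ⟨5, 7, 11, by norm_num, by norm_num, by norm_num, by omega⟩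
    · exact ⟨3, 5, 7, by norm_num, by norm_num, by norm_num, by omega⟩
  obtain ⟨H, hH1, hH2⟩ := CL.exists_isPiHall {p, q, r} G
  have hle : ∀ g : G, orderOf g ≤ n := fun g => (show orderOf g ∈ {k : ℕ | 1 ≤ k ∧ k ≤ n} from
    h ▸ Set.mem_range_self g).2
  have h4 := Cfsg.Agent.S1475.result (G := H) fun g => by
    by_cases hg : g = 1
    · exact Or.inr hg
    left
    obtain ⟨s, hs, hsd⟩ := Nat.exists_prime_and_dvd (mt orderOf_eq_one_iff.1 hg)
    refine isPrimePow_iff_unique_prime_dvd.2 ⟨s, ⟨hs, hsd⟩, fun t ⟨ht, htd⟩ => ?_⟩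
    by_contra hne
    have h5 := Nat.le_of_dvd (orderOf_pos g)
      (Nat.Coprime.mul_dvd_of_dvd_of_dvd ((Nat.coprime_primes ht hs).2 hne) htd hsd)
    have h6 := hle g
    rw [Subgroup.orderOf_coe] at h6
    have h7 := hH1 s hs (hsd.trans (orderOf_dvd_natCard g))
    have h8 := hH1 t ht (htd.trans (orderOf_dvd_natCard g))
    simp only [Set.mem_insert_iff, Set.mem_singleton_iff] at h7 h8
    rcases h7 with rfl | rfl | rfl <;> rcases h8 with rfl | rfl | rfl <;>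
      first | exact hne rfl | nlinarith
  have h5 : ∀ s : ℕ, s.Prime → s ≤ n → s ∈ ({p, q, r} : Set ℕ) → s ∈ (Nat.card H).primeFactors := by
    intro s hs hsn hsπ
    obtain ⟨g, hg⟩ : s ∈ Set.range (orderOf : G → ℕ) := h ▸ ⟨hs.one_le, hsn⟩
    have h6 := hg ▸ orderOf_dvd_natCard g
    rw [← H.card_mul_index] at h6
    exact Nat.mem_primeFactors.2
      ⟨hs, ((Nat.Prime.dvd_mul hs).1 h6).resolve_right (hH2 s hs hsπ), Nat.card_pos.ne'⟩
  have := Finset.two_lt_card_iff.2 ⟨p, q, r, h5 p hp hpn (by simp), h5 q hq hqn (by simp),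
    h5 r hr hrn (by simp), hpq, hpr, hqr⟩
  omega
end Cfsg.Agent.S4002
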