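import Cfsg.Statements.S4003
import Cfsg.Agent.FGS.Kulakoff

set_option autoImplicit false
open Cfsg

namespace Cfsg.Agent.S4003

open Subgroup

theorem dvd_ncard_of_equivariant {A X Y : Type*} [Group A] [MulAction A X] [MulAction A Y]
    {S : Set X} (hS : S.Finite) (f : X → Y) {d : ℕ} (h1 : ∀ a : A, ∀ x ∈ S, a • x ∈ S)
    (h2 : ∀ a : A, ∀ x ∈ S, f (a • x) = a • f x)
    (h3 : ∀ x ∈ S, d ∣ {y | y ∈ S ∧ f y = f x}.ncard * (MulAction.stabilizer A (f x)).index) :
    d ∣ S.ncard := by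
  apply CL.Cnt.dvd_ncard_of_fiber hS (fun x => MulAction.orbit A (f x))
  intro x hx
  have hfin : (MulAction.orbit A (f x)).Finite := by
    apply (hS.image f).subset
    rintro _ ⟨a, rfl⟩
    exact ⟨a • x, h1 a x hx, h2 a x hx⟩
  rw [CL.Cnt.ncard_eq_mul_of_fiber (hS.subset fun y hy => hy.1) f hfin
    (q := {y | y ∈ S ∧ f y = f x}.ncard), ← MulAction.index_stabilizer]
  · exact h3 x hx
  · intro y hy
    exact MulAction.orbit_eq_iff.mp hy.2
  · rintro _ ⟨a, rfl⟩
    rw [← Set.ncard_image_of_injective {y | y ∈ S ∧ f y = f x} (MulAction.injective a)]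
    congr 1
    ext y
    constructor
    · rintro ⟨⟨hy, -⟩, hy2⟩
      refine ⟨a⁻¹ • y, ⟨h1 _ _ hy, ?_⟩, by simp⟩
      rw [h2 _ _ hy, hy2]; simp
    · rintro ⟨z, ⟨hz, hz2⟩, rfl⟩
      have e : f (a • z) = a • f x := by rw [h2 _ _ hz, hz2]
      exact ⟨⟨h1 _ _ hz, by rw [e, MulAction.orbit_smul]⟩, e⟩

open scoped Pointwise in
theorem dvd_nCyc {G : Type*} [Group G] [Finite G] {p : ℕ} [hp : Fact p.Prime] (hodd : p ≠ 2)
    (P : Sylow p G) (hP : ¬ IsCyclic ↥(P : Subgroup G)) (i : ℕ) :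
    p ∣ CL.Cnt.nCyc G (p ^ (i + 2)) := by
  have hc : ∀ (g : G) (H : Subgroup G), IsCyclic H ∧ Nat.card H = p ^ (i + 2) →
      IsCyclic ↥(MulAut.conj g • H) ∧ Nat.card ↥(MulAut.conj g • H) = p ^ (i + 2) := by
    intro g H hH
    have := hH.1
    exact ⟨isCyclic_of_surjective _ (Subgroup.equivSMul (MulAut.conj g) H).surjective,
      by rw [CL.card_conj_smul]; exact hH.2⟩
  have h1 := CL.Cnt.ncard_modEq_normalized P.isPGroup'
    (S := {H : Subgroup G | IsCyclic H ∧ Nat.card H = p ^ (i + 2)}) fun g _ H hH => hc g H hH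
  have h2 := CL.Cnt.ncard_modEq_normalized P.isPGroup'
    (S := {H : Subgroup G | H ≤ P ∧ (IsCyclic H ∧ Nat.card H = p ^ (i + 2))}) fun g hg H hH => by
      refine ⟨?_, hc g H hH.2⟩
      rintro _ ⟨x, hx, rfl⟩
      exact (P : Subgroup G).mul_mem ((P : Subgroup G).mul_mem hg (hH.1 hx)) (inv_mem hg)
  have h3 : {H | H ∈ {H : Subgroup G | IsCyclic H ∧ Nat.card H = p ^ (i + 2)} ∧
      (P : Subgroup G) ≤ normalizer (H : Set G)} =
      {H | H ∈ {H : Subgroup G | H ≤ P ∧ (IsCyclic H ∧ Nat.card H = p ^ (i + 2))} ∧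
      (P : Subgroup G) ≤ normalizer (H : Set G)} := by
    ext H
    exact ⟨fun h => ⟨⟨CL.Cnt.le_sylow_of_le_normalizer P (IsPGroup.of_card h.1.2) h.2, h.1⟩, h.2⟩,
      fun h => ⟨h.1.2, h.2⟩⟩
  rw [h3] at h1
  obtain ⟨m, hm⟩ := IsPGroup.iff_card.mp P.isPGroup'
  have h4 := CL.Cnt.dvd_nCyc_of_not_isCyclic hm hP (fun h => (hodd h).elim) i
  have h5 : CL.Cnt.nCyc P (p ^ (i + 2)) =
      {H : Subgroup G | H ≤ P ∧ (IsCyclic H ∧ Nat.card H = p ^ (i + 2))}.ncard := by
    rw [CL.Cnt.ncard_subgroups_le, CL.Cnt.nCyc_def]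
    congr 1
    ext H
    simp only [Set.mem_ofPred_eq, card_map_of_injective (P : Subgroup G).subtype_injective]
    rw [(H.equivMapOfInjective _ (P : Subgroup G).subtype_injective).isCyclic]
  rw [h5] at h4
  rw [CL.Cnt.nCyc_def]
  exact (Nat.modEq_zero_iff_dvd.mp ((h1.trans h2.symm).trans (Nat.modEq_zero_iff_dvd.mpr h4)))

theorem dvd_mul_index {G : Type*} [Group G] [Finite G] {p : ℕ} [hp : Fact p.Prime] (hodd : p ≠ 2)
    (P : Sylow p G) (hP : ¬ IsCyclic ↥(P : Subgroup G)) (i : ℕ) (C : Subgroup G) :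
    p ^ (i + 2) ∣ {u : C | orderOf u = p ^ (i + 2)}.ncard * C.index := by
  rw [CL.Cnt.ncard_orderOf_eq, Nat.totient_prime_pow_succ hp.out, pow_succ, mul_assoc, mul_assoc]
  apply mul_dvd_mul_left
  apply Dvd.dvd.mul_left
  by_cases h : p ∣ C.index
  · exact h.mul_left _
  apply Dvd.dvd.mul_right
  obtain ⟨Q⟩ : Nonempty (Sylow p C) := inferInstance
  apply dvd_nCyc hodd Q
  intro hQ
  apply hP
  have h1 : Nat.card ((Q : Subgroup C).map C.subtype) = p ^ (Nat.card G).factorization p := by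
    rw [card_map_of_injective C.subtype_injective, Q.card_eq_multiplicity, ← C.card_mul_index,
      Nat.factorization_mul Nat.card_pos.ne' index_ne_zero_of_finite, Finsupp.add_apply,
      Nat.factorization_eq_zero_of_not_dvd h, add_zero]
  let Q' := Sylow.ofCard _ h1
  have h2 : IsCyclic (Q' : Subgroup G) :=
    ((Q : Subgroup C).equivMapOfInjective _ C.subtype_injective).isCyclic.mp hQ
  exact (Sylow.equiv P Q').isCyclic.mpr h2

/-- Let G be a finite group, p an odd prime dividing the order of G whose Sylow p-subgroups are not cyclic, and n = p^s·m with s > 1 and m coprime to p. Then the number of elements of G of order n is a multiple of p^s. -/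
theorem result {G : Type*} [Group G] [Finite G] (p : ℕ) [Fact p.Prime] (hodd : p ≠ 2) (hpG : p ∣ Nat.card G)
    (P : Sylow p G) (hP : ¬ IsCyclic ↥(P : Subgroup G)) (s m : ℕ) (hs : 1 < s) (hm : Nat.Coprime p m) :
    p ^ s ∣ Nat.card {g : G // orderOf g = p ^ s * m} := by
  obtain ⟨i, rfl⟩ : ∃ i, s = i + 2 := ⟨s - 2, by omega⟩
  have hp : p.Prime := Fact.out
  have hm0 : 0 < m := Nat.pos_of_ne_zero fun h => by
    rw [h, Nat.coprime_zero_right] at hm; exact hp.one_lt.ne' hm
  set q := p ^ (i + 2) with hq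
  have hqm : Nat.Coprime q m := Nat.Coprime.pow_left _ hm
  set e := q ^ m.totient with he
  have he1 : e ≡ 1 [MOD m] := Nat.ModEq.pow_totient hqm
  have he2 : q ∣ e := dvd_pow_self _ (Nat.totient_pos.mpr hm0).ne'
  have hsm : ∀ (a : ConjAct G) (x : G), a • x = ConjAct.ofConjAct a * x * (ConjAct.ofConjAct a)⁻¹ :=
    fun a x => rfl
  rw [show Nat.card {g : G // orderOf g = q * m} = {g : G | orderOf g = q * m}.ncard from
    Nat.card_coe_set_eq _]
  apply dvd_ncard_of_equivariant (A := ConjAct G) (Set.toFinite _) (fun g : G => g ^ e)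
  · intro a x hx
    rw [Set.mem_ofPred_eq, hsm, ← hx]
    exact (MulAut.conj (ConjAct.ofConjAct a)).orderOf_eq x
  · intro a x _
    rw [hsm, hsm, conj_pow]
  intro x hx
  set y := x ^ e with hy
  have hst : (MulAction.stabilizer (ConjAct G) y).index = (centralizer ({y} : Set G)).index := by
    rw [← index_comap_of_surjective _ (f := (ConjAct.toConjAct (G := G)).toMonoidHom)
      (ConjAct.toConjAct (G := G)).surjective]
    congr 1
    ext a
    rw [mem_comap, MulAction.mem_stabilizer_iff, hsm, CL.mem_centralizer_singleton_iff_conj]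
    rfl
  have hpw : ∀ g : G, orderOf g = q * m → (g ^ e) ^ m = 1 ∧ (g * (g ^ e)⁻¹) ^ q = 1 := by
    intro g hg
    refine ⟨by rw [← pow_mul, ← orderOf_dvd_iff_pow_eq_one, hg]; exact mul_dvd_mul_right he2 m, ?_⟩
    rw [((Commute.refl g).pow_right e).inv_right.mul_pow, inv_pow, ← pow_mul, mul_inv_eq_one,
      pow_eq_pow_iff_modEq, hg, mul_comm e q]
    simpa using (he1.symm.mul_left' q)
  have hord : ∀ g : G, orderOf g = q * m → orderOf (g ^ e) = m ∧ orderOf (g * (g ^ e)⁻¹) = q := by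
    intro g hg
    obtain ⟨h1, h2⟩ := hpw g hg
    have h3 := orderOf_dvd_of_pow_eq_one h1
    have h4 := orderOf_dvd_of_pow_eq_one h2
    have hc : Commute (g * (g ^ e)⁻¹) (g ^ e) :=
      (((Commute.refl g).pow_right e).mul_left (Commute.refl _).inv_left)
    have h5 := hc.orderOf_mul_eq_mul_orderOf_of_coprime
      (Nat.Coprime.coprime_dvd_left h4 (Nat.Coprime.coprime_dvd_right h3 hqm))
    rw [inv_mul_cancel_right, hg] at h5
    have h6 := Nat.le_of_dvd hm0 h3
    have h7 := Nat.le_of_dvd (pow_pos hp.pos _) h4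
    have h8 : 0 < q := pow_pos hp.pos _
    constructor <;> nlinarith
  have hfib : {g | g ∈ {g : G | orderOf g = q * m} ∧ g ^ e = y}.ncard =
      {u : centralizer ({y} : Set G) | orderOf u = q}.ncard := by
    rw [← Set.ncard_image_of_injective {u : centralizer ({y} : Set G) | orderOf u = q}
      (f := fun u : centralizer ({y} : Set G) => (u : G) * y) (fun a b h => Subtype.ext (mul_right_cancel h))]
    congr 1
    ext g
    constructor
    · rintro ⟨hg, hg2⟩
      refine ⟨⟨g * y⁻¹, ?_⟩, ?_, by simp⟩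
      · rw [mem_centralizer_singleton_iff, ← hg2]
        exact (((Commute.refl g).pow_right e).mul_left (Commute.refl _).inv_left)
      · rw [Set.mem_ofPred_eq, ← orderOf_coe]
        have := (hord g hg).2
        rwa [hg2] at this
    · rintro ⟨⟨u, hu⟩, hu2, rfl⟩
      have hc : Commute u y := mem_centralizer_singleton_iff.mp hu
      have hu3 : orderOf u = q := by rw [← hu2, ← orderOf_coe]
      have hy2 : orderOf y = m := (hord x hx).1
      refine ⟨?_, ?_⟩
      · rw [Set.mem_ofPred_eq, hc.orderOf_mul_eq_mul_orderOf_of_coprime (by rwa [hu3, hy2]), hu3, hy2]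
      · rw [hc.mul_pow, orderOf_dvd_iff_pow_eq_one.mp (hu3 ▸ he2), one_mul]
        conv_rhs => rw [← pow_one y]
        rw [pow_eq_pow_iff_modEq, hy2]
        exact he1
  rw [hst, hfib]
  exact dvd_mul_index hodd P hP i _

end Cfsg.Agent.S4003
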