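import Cfsg.Statements.S4004
import Cfsg.Agent.FGS.Nse
import Cfsg.Agent.PLOC.HallTransfer
import Cfsg.Agent.PERM.InvTools
import Cfsg.Agent.SOLV.OddOrderCor
import Cfsg.Agent.SOLV.PGroupCyclicSCN

set_option autoImplicit false
open Cfsg

namespace Cfsg.Agent.S4004

open Finset Subgroup CL.Nse
open scoped Pointwise

section
variable {G : Type*} [Group G] [Finite G] (hodd : Odd (Nat.card G)) {a b : ℕ}
  (hv : ∀ m, s G m = 0 ∨ s G m = 1 ∨ s G m = a ∨ s G m = b)

include hodd in
theorem ge3 {p : ℕ} (hp : p.Prime) (h : p ∣ Nat.card G) : 3 ≤ p ∧ ¬ p ∣ 2 := by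
  have h2 : p ≠ 2 := by rintro rfl; exact (Nat.not_even_iff_odd.2 hodd) (even_iff_two_dvd.2 h)
  exact ⟨by have := hp.two_le; omega, fun h => h2 ((Nat.prime_dvd_prime_iff_eq hp Nat.prime_two).1 h)⟩

include hv in
theorem vals {m : ℕ} (hm : 3 ≤ m) : s G m = 0 ∨ s G m = a ∨ s G m = b := by
  have := two_dvd (G := G) hm
  rcases hv m with h | h | h <;> omega

theorem nd {p q : ℕ} (hp : p.Prime) (hq : q.Prime) (h : p ≠ q) : ¬ p ∣ q := fun h' =>
  h ((Nat.prime_dvd_prime_iff_eq hp hq).1 h')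

include hodd hv in
/-- Not all primes have the same count. -/
theorem not_same {p q : ℕ} (hp : p.Prime) (hq : q.Prime) (hpq : p ≠ q) (hpG : p ∣ Nat.card G)
    (hqG : q ∣ Nat.card G) (h : ∀ r : ℕ, r.Prime → r ∣ Nat.card G → s G r = a) : False := by
  have key : ∀ r : ℕ, r.Prime → r ∣ Nat.card G → s G (r ^ 2) = 0 := fun r hr hrG => by
    obtain ⟨t, ht, htG, hrt⟩ : ∃ t : ℕ, t.Prime ∧ t ∣ Nat.card G ∧ r ≠ t := by
      by_cases e : r = p
      · exact ⟨q, hq, hqG, e ▸ hpq⟩
      · exact ⟨p, hp, hpG, e⟩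
    have f1 := frob_one hr hrG
    have f2 := frob_prime hr hrG (nd hr ht hrt)
    rw [h r hr hrG] at f1
    rw [h t ht htG] at f2
    obtain ⟨r3, r2⟩ := ge3 hodd hr hrG
    obtain ⟨t3, -⟩ := ge3 hodd ht htG
    have na : ¬ r ∣ a := fun h => hr.not_dvd_one ((Nat.dvd_add_left h).1 f1)
    have nb : ¬ r ∣ b := fun hb => by
      rcases vals hv (m := r * t) (by nlinarith) with e | e | e <;> rw [e] at f2
      · exact na f2
      · exact na (((Nat.Prime.dvd_mul hr).1 (two_mul a ▸ f2)).resolve_left r2)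
      · exact na ((Nat.dvd_add_left hb).1 f2)
    have f3 := prime_dvd_of_sq_dvd (G := G) hr (m := r ^ 2) (sq r ▸ dvd_rfl)
    rcases vals hv (m := r ^ 2) (by nlinarith) with e | e | e
    · exact e
    · exact absurd (e ▸ f3) na
    · exact absurd (e ▸ f3) nb
  have h1 : Nat.card G ∣ 1 + a := by
    refine (Nat.dvd_iff_prime_pow_dvd_dvd _ _).2 fun r k hr hk => ?_
    rcases k with - | k
    · simp
    have := frob_pow_trunc (k := 1) hr hk hr.not_dvd_one (by
      simpa using key r hr ((dvd_pow_self r (by omega)).trans hk))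
    simpa [sum_range_succ, s_one, h r hr ((dvd_pow_self r (by omega)).trans hk)] using this
  have h2 := sum_le_card (G := G) {1, p, q}
  rw [sum_insert (by simp [hp.one_lt.ne, hq.one_lt.ne]), sum_pair hpq, s_one, h p hp hpG,
    h q hq hqG] at h2
  have h3 := Nat.le_of_dvd (by omega) h1
  have h4 := ne_zero_of_prime hp hpG
  rw [h p hp hpG] at h4
  omega

include hodd hv in
theorem not_mixed {p q r : ℕ} (hp : p.Prime) (hq : q.Prime) (hr : r.Prime) (hpq : p ≠ q) (hpr : p ≠ r)
    (hqr : q ≠ r) (hpG : p ∣ Nat.card G) (hqG : q ∣ Nat.card G) (hrG : r ∣ Nat.card G)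
    (h1 : s G p = a) (h2 : s G q = a) (h3 : s G r = b) : False := by
  obtain ⟨p3, p2⟩ := ge3 hodd hp hpG
  obtain ⟨q3, q2⟩ := ge3 hodd hq hqG
  obtain ⟨r3, r2⟩ := ge3 hodd hr hrG
  -- for `t ∈ {p, q}`: adding `t` to an order swaps the two values
  have swap : ∀ t u : ℕ, t.Prime → u.Prime → t ≠ u → t ∣ Nat.card G → u ∣ Nat.card G → s G t = a →
      s G u = a → ∀ m, 1 ≤ m → ¬ t ∣ m → (s G m = a → s G (t * m) = b) ∧ (s G m = b → s G (t * m) = a) := by
    intro t u ht hu htu htG huG e1 e2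
    obtain ⟨t3, t2⟩ := ge3 hodd ht htG
    have f1 := frob_one ht htG
    rw [e1] at f1
    have na : ¬ t ∣ a := fun h => ht.not_dvd_one ((Nat.dvd_add_left h).1 f1)
    have A : ∀ m, 1 ≤ m → ¬ t ∣ m → s G m = a → s G (t * m) = b ∧ ¬ t ∣ b := fun m hm htm e => by
      have f2 := frob_prime ht htG htm
      rcases vals hv (m := t * m) (by nlinarith) with e' | e' | e' <;> rw [e, e'] at f2
      · exact absurd f2 na
      · exact absurd (((Nat.Prime.dvd_mul ht).1 (two_mul a ▸ f2)).resolve_left t2) na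
      · exact ⟨e', fun h => na ((Nat.dvd_add_left h).1 f2)⟩
    have nb := (A u hu.one_le (nd ht hu htu) e2).2
    refine fun m hm htm => ⟨fun e => (A m hm htm e).1, fun e => ?_⟩
    have f2 := frob_prime ht htG htm
    rcases vals hv (m := t * m) (by nlinarith) with e' | e' | e' <;> rw [e, e'] at f2
    · exact absurd f2 nb
    · exact e'
    · exact absurd (((Nat.Prime.dvd_mul ht).1 (two_mul b ▸ f2)).resolve_left t2) nb
  have s1 := (swap p q hp hq hpq hpG hqG h1 h2 q hq.one_le (nd hp hq hpq)).1 h2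
  have s2 := (swap q p hq hp hpq.symm hqG hpG h2 h1 r hr.one_le (nd hq hr hqr)).2 h3
  have s3 := (swap p q hp hq hpq hpG hqG h1 h2 (q * r) (by nlinarith) fun h =>
    ((Nat.Prime.dvd_mul hp).1 h).elim (nd hp hq hpq) (nd hp hr hpr)).1 s2
  have f1 := frob_one hr hrG
  have f2 := frob_prime hr hrG (m := p * q) fun h =>
    ((Nat.Prime.dvd_mul hr).1 h).elim (nd hr hp hpr.symm) (nd hr hq hqr.symm)
  rw [s1, show r * (p * q) = p * (q * r) by ring, s3, ← two_mul] at f2
  rw [h3] at f1
  exact hr.not_dvd_one ((Nat.dvd_add_left (((Nat.Prime.dvd_mul hr).1 f2).resolve_left r2)).1 f1)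

include hodd in
theorem ne_left {p q : ℕ} (hp : p.Prime) (hq : q.Prime) (hpq : p ≠ q) (hpG : p ∣ Nat.card G)
    (hqG : q ∣ Nat.card G) : s G (p * q) ≠ s G p := fun e => by
  have := Fact.mk hp
  have f1 := frob_one hp hpG
  have f2 := frob_prime hp hpG (nd hp hq hpq)
  rw [e] at f2
  have h1 : ¬ p ∣ s G q := fun h => hp.not_dvd_one ((Nat.dvd_add_left ((Nat.dvd_add_right h).1 f2)).1 f1)
  obtain ⟨y, hy, hyp⟩ : ∃ y : G, orderOf y = q ∧ ¬ p ∣ (centralizer ({y} : Set G)).index := by
    by_contra! h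
    exact h1 (dvd_of_index h)
  have h2 := two_mul_le (G := G) ((Nat.coprime_primes hp hq).2 hpq) (ge3 hodd hq hqG).1 fun x hx => by
    obtain ⟨P, hP⟩ := CL.Tr.exists_sylow_le_of_not_dvd_index hyp
    obtain ⟨Q, hQ⟩ := (IsPGroup.of_card (n := 1) (by rw [Nat.card_zpowers, hx, pow_one]) :
      IsPGroup p (zpowers x)).exists_le_sylow
    obtain ⟨g, rfl⟩ := MulAction.exists_smul_eq G Q P
    have h3 : g * x * g⁻¹ ∈ ((g • Q : Sylow p G) : Subgroup G) :=
      smul_mem_pointwise_smul _ (MulAut.conj g) _ (hQ (mem_zpowers x))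
    refine ⟨g⁻¹ * y * g, by simpa using ((MulAut.conj g⁻¹).orderOf_eq y).trans hy, ?_⟩
    have h4 := hP h3 y rfl
    calc x * (g⁻¹ * y * g) = g⁻¹ * (g * x * g⁻¹ * y) * g := by group
      _ = _ := by rw [← h4]; group
  have := ne_zero_of_prime hp hpG
  omega

end

/-- All nonidentity elements have order `p` or `q`, and there is a normal abelian `p`-subgroup. -/
theorem frobenius {G : Type*} [Group G] [Finite G] {p q : ℕ} (hp : p.Prime) (hq : q.Prime) (hq2 : q ≠ 2)
    (hpq : p ≠ q) (hqG : q ∣ Nat.card G) (ho : ∀ g : G, g ≠ 1 → orderOf g = p ∨ orderOf g = q)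
    (V : Subgroup G) [V.Normal] (hV : ∀ x ∈ V, ∀ y ∈ V, x * y = y * x) {v : G} (hv : v ∈ V)
    (hvp : orderOf v = p) : ∃ C : Subgroup G, Cfsg.IsFrobeniusComplement C ∧ (Nat.card C).Prime := by
  have := Fact.mk hq
  have : IsMulCommutative V := ⟨⟨fun x y => Subtype.ext (hV _ x.2 _ y.2)⟩⟩
  have hc : p.Coprime q := (Nat.coprime_primes hp hq).2 hpq
  have nc : ∀ x y : G, orderOf x = p → orderOf y = q → ¬ Commute x y := fun x y hx hy h => by
    have h1 := h.orderOf_mul_eq_mul_orderOf_of_coprime (by rw [hx, hy]; exact hc)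
    rw [hx, hy] at h1
    have := hp.two_le
    have := hq.two_le
    rcases ho (x * y) (fun e => by rw [e, orderOf_one] at h1; nlinarith) with e | e <;>
      rw [e] at h1 <;> nlinarith
  have hVp : ∀ u ∈ V, u ≠ 1 → orderOf u = p := fun u hu h1 =>
    (ho u h1).resolve_right fun e => nc v u hvp e (hV _ hv _ hu)
  have fix : ∀ y : G, orderOf y = q → ∀ u ∈ V, y * u * y⁻¹ = u → u = 1 := fun y hy u hu e =>
    by_contra fun h1 => nc u y (hVp u hu h1) hy (mul_inv_eq_iff_eq_mul.1 e).symm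
  -- modulo `V` the order of an element outside `V` is unchanged
  have modV : ∀ u ∈ V, ∀ w ∉ V, (u * w) ^ orderOf w = 1 := fun u hu w hw => by
    have h1 : u * w ≠ 1 := fun e => hw (eq_inv_of_mul_eq_one_right e ▸ inv_mem hu)
    have h2 : w ≠ 1 := fun e => hw (e ▸ one_mem V)
    have h3 : ((u * w : G) : G ⧸ V) = w := by
      rw [QuotientGroup.mk_mul, (QuotientGroup.eq_one_iff u).2 hu, one_mul]
    have d1 : orderOf (w : G ⧸ V) ∣ orderOf w := orderOf_map_dvd (QuotientGroup.mk' V) w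
    have d2 : orderOf (w : G ⧸ V) ∣ orderOf (u * w) := h3 ▸ orderOf_map_dvd (QuotientGroup.mk' V) (u * w)
    have d3 : orderOf (w : G ⧸ V) ≠ 1 := fun e =>
      hw ((QuotientGroup.eq_one_iff w).1 (orderOf_eq_one_iff.1 e))
    rw [← orderOf_dvd_iff_pow_eq_one]
    rcases ho _ h1 with e1 | e1 <;> rcases ho _ h2 with e2 | e2 <;> rw [e1] at d2 ⊢ <;> rw [e2] at d1 ⊢
    · exact absurd (Nat.eq_one_of_dvd_coprimes hc d2 d1) d3
    · exact absurd (Nat.eq_one_of_dvd_coprimes hc d1 d2) d3
  obtain ⟨Q⟩ : Nonempty (Sylow q G) := inferInstance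
  have hQ : ∀ y ∈ (Q : Subgroup G), y ≠ 1 → orderOf y = q := fun y hy h1 =>
    (ho y h1).resolve_left fun e => by
      obtain ⟨k, hk⟩ := (IsPGroup.iff_orderOf.1 Q.isPGroup') ⟨y, hy⟩
      rw [orderOf_mk, e] at hk
      exact nd hp hq hpq (hp.dvd_of_dvd_pow hk.dvd)
  have hQV : ∀ y : G, orderOf y = q → y ∉ V := fun y hy h => nc v y hvp hy (hV _ hv _ h)
  have hcyc : IsCyclic Q := by
    refine (CL.PCyc.isCyclic_or_quaternion Q.isPGroup' fun x y hx hy hxy => ?_).resolve_right
      fun h => hq2 h.1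
    by_contra hn
    have hx' : orderOf (x : G) = q := by rw [orderOf_coe, hx]
    have h1 := pow_card_eq_one_of_coset V (zpowers (x : G))
      (fun u hu h => fix x hx' u hu (h _ (mem_zpowers _))) (g := y)
      (centralizer_le_normalizer _ (by
        rintro _ ⟨k, rfl⟩
        exact ((show Commute (x : G) y from congrArg Subtype.val hxy).zpow_left k).eq)) hq
      (fun u hu z hz => by
        have h2 : orderOf (z * y) = q := hQ _ (mul_mem (zpowers_le.2 x.2 hz) y.2) fun e => hn (by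
          obtain ⟨k, rfl⟩ := hz
          exact ⟨-k, Subtype.ext (by simpa using inv_eq_of_mul_eq_one_right e)⟩)
        simpa only [h2] using modV u hu _ (hQV _ h2)) hv
    rw [Nat.card_zpowers, hx', ← orderOf_dvd_iff_pow_eq_one, hvp] at h1
    exact nd hp hq hpq h1
  obtain ⟨y, hy⟩ := hcyc.exists_ofOrder_eq_natCard
  have hy1 : (y : G) ≠ 1 := fun e => by
    rw [← orderOf_coe, e, orderOf_one] at hy
    exact hq.not_dvd_one (hy ▸ Q.dvd_card_of_dvd_card hqG)
  have hyq := hQ _ y.2 hy1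
  have hcard : Nat.card Q = q := by rw [← hy, ← orderOf_coe, hyq]
  have hN : ∀ g ∈ normalizer ((Q : Subgroup G) : Set G), g ∈ (Q : Subgroup G) := fun g hg => by
    by_contra hn
    have h1 := pow_card_eq_one_of_coset V Q (fun u hu h => fix y hyq u hu (h _ y.2)) hg hp
      (fun u hu z hz => by
        have h3 : z * g ∈ normalizer ((Q : Subgroup G) : Set G) := mul_mem (le_normalizer hz) hg
        have h4 : z * g ∉ (Q : Subgroup G) := fun h => hn ((mul_mem_cancel_left hz).1 h)
        have h2 : orderOf (z * g) = p := (ho _ fun e => h4 (by rw [e]; exact one_mem _)).resolve_right fun e => by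
          have h5 : IsPGroup q (zpowers (z * g)) :=
            IsPGroup.of_card (n := 1) (by rw [Nat.card_zpowers, e, pow_one])
          have h6 := h5.inf_normalizer_sylow Q
          exact h4 (show z * g ∈ zpowers (z * g) ⊓ (Q : Subgroup G) from
            h6 ▸ ⟨mem_zpowers _, h3⟩).2
        have h5 : z * g ∉ V := fun h => nc _ _ h2 hyq (by
          have h6 : z * g * y * (z * g)⁻¹ * (y : G)⁻¹ ∈ (Q : Subgroup G) :=
            mul_mem ((mem_normalizer_iff.1 h3 _).1 y.2) (inv_mem y.2)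
          have h7 : z * g * y * (z * g)⁻¹ * (y : G)⁻¹ ∈ V := by
            have := mul_mem h (‹V.Normal›.conj_mem _ (inv_mem h) y)
            simpa only [mul_assoc] using this
          have h8 : z * g * y * (z * g)⁻¹ * (y : G)⁻¹ = 1 := by_contra fun h => hQV _ (hQ _ h6 h) h7
          exact commutatorElement_eq_one_iff_commute.1 h8)
        simpa only [h2] using modV u hu _ h5) hv
    rw [hcard, ← orderOf_dvd_iff_pow_eq_one, hvp] at h1
    exact nd hp hq hpq h1
  refine ⟨Q, ⟨fun e => hy1 (mem_bot.1 (e.le y.2)), fun e => ?_, fun g hg => ?_⟩, by rw [hcard]; exact hq⟩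
  · have := hQ v (e ▸ mem_top v) fun e => hp.one_lt.ne' (by rw [← hvp, e, orderOf_one])
    exact hpq (hvp.symm.trans this)
  · by_contra hne
    have h1 : (Q : Subgroup G) ⊓ MulAut.conj g • (Q : Subgroup G) = Q := by
      refine eq_of_le_of_card_ge inf_le_left ?_
      have h2 := card_dvd_of_le (inf_le_left : (Q : Subgroup G) ⊓ MulAut.conj g • (Q : Subgroup G) ≤ Q)
      rw [hcard] at h2 ⊢
      rcases (Nat.dvd_prime hq).1 h2 with e | e
      · exact absurd (card_eq_one.1 e) hne
      · exact e.ge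
    have h2 : (Q : Subgroup G) = MulAut.conj g • (Q : Subgroup G) :=
      eq_of_le_of_card_ge (inf_eq_left.1 h1)
        (Nat.card_congr ((Q : Subgroup G).equivSMul (MulAut.conj g)).toEquiv).ge
    exact hg (hN g (conjAct_pointwise_smul_iff.1 h2.symm))


/-- Let G be a finite group of odd order in which the numbers of elements of each order that occurs (the numbers #{g : o(g) = m}, m ranging over the element orders of G) take exactly three different values. Then the order of G has at most two prime divisors; and if it has exactly two, then every Sylow subgroup of G for a prime dividing its order has prime exponent, G is a Frobenius group, and some Frobenius complement of G has prime order. -/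
theorem result {G : Type*} [Group G] [Finite G] (hodd : Odd (Nat.card G)) (h : (((fun m : ℕ => Nat.card {g : G // orderOf g = m}) '' Set.range (orderOf : G → ℕ))).ncard = 3) :
    (Nat.card G).primeFactors.card ≤ 2 ∧
      ((Nat.card G).primeFactors.card = 2 →
        (∀ (p : ℕ) [Fact p.Prime] (P : Sylow p G), p ∣ Nat.card G → Monoid.exponent ↥(P : Subgroup G) = p) ∧
        ∃ C : Subgroup G, Cfsg.IsFrobeniusComplement C ∧ (Nat.card ↥C).Prime) := by
  obtain ⟨a, b, hv⟩ := CL.Nse.exists_values h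
  have hv' : ∀ m, s G m = 0 ∨ s G m = 1 ∨ s G m = b ∨ s G m = a := fun m => by have := hv m; omega
  have mem : ∀ {r : ℕ}, r ∈ (Nat.card G).primeFactors → r.Prime ∧ r ∣ Nat.card G := fun h =>
    ⟨Nat.prime_of_mem_primeFactors h, Nat.dvd_of_mem_primeFactors h⟩
  have val : ∀ r : ℕ, r.Prime → r ∣ Nat.card G → s G r = a ∨ s G r = b := fun r hr hd =>
    (vals hv (ge3 hodd hr hd).1).resolve_left (ne_zero_of_prime hr hd)
  have diff : ∀ p q : ℕ, p.Prime → q.Prime → p ≠ q → p ∣ Nat.card G → q ∣ Nat.card G →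
      s G p ≠ s G q := fun p q hp hq hpq hpG hqG e => by
    rcases val p hp hpG with e1 | e1
    · refine not_same hodd hv hp hq hpq hpG hqG fun r hr hd => by_contra fun hn => ?_
      exact not_mixed hodd hv hp hq hr hpq (by rintro rfl; exact hn e1) (by rintro rfl; exact hn (e ▸ e1))
        hpG hqG hd e1 (e ▸ e1) ((val r hr hd).resolve_left hn)
    · refine not_same hodd hv' hp hq hpq hpG hqG fun r hr hd => by_contra fun hn => ?_
      exact not_mixed hodd hv' hp hq hr hpq (by rintro rfl; exact hn e1) (by rintro rfl; exact hn (e ▸ e1))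
        hpG hqG hd e1 (e ▸ e1) ((val r hr hd).resolve_right hn)
  refine ⟨by_contra fun hc => ?_, fun hc => ?_⟩
  · obtain ⟨p, q, r, hp, hq, hr, hpq, hpr, hqr⟩ := two_lt_card_iff.1 (not_le.1 hc)
    have := diff p q (mem hp).1 (mem hq).1 hpq (mem hp).2 (mem hq).2
    have := diff p r (mem hp).1 (mem hr).1 hpr (mem hp).2 (mem hr).2
    have := diff q r (mem hq).1 (mem hr).1 hqr (mem hq).2 (mem hr).2
    have := val p (mem hp).1 (mem hp).2
    have := val q (mem hq).1 (mem hq).2
    have := val r (mem hr).1 (mem hr).2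
    omega
  obtain ⟨p, q, hpq, e⟩ := card_eq_two.1 hc
  obtain ⟨hp, hpG⟩ := mem (r := p) (by simp [e])
  obtain ⟨hq, hqG⟩ := mem (r := q) (by simp [e])
  obtain ⟨p3, -⟩ := ge3 hodd hp hpG
  obtain ⟨q3, -⟩ := ge3 hodd hq hqG
  have val2 : ∀ m, 3 ≤ m → s G m = 0 ∨ s G m = s G p ∨ s G m = s G q := fun m hm => by
    have := vals hv hm
    have := diff p q hp hq hpq hpG hqG
    have := val p hp hpG
    have := val q hq hqG
    omega
  have h0 : s G (p * q) = 0 := by
    have := ne_left hodd hp hq hpq hpG hqG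
    have := ne_left hodd hq hp hpq.symm hqG hpG
    rw [mul_comm] at this
    have := val2 (p * q) (by nlinarith)
    omega
  have hsq : ∀ t u : ℕ, t.Prime → u.Prime → t ≠ u → t ∣ Nat.card G → u ∣ Nat.card G → s G (t * u) = 0 →
      (s G (t * t) = 0 ∨ s G (t * t) = s G t ∨ s G (t * t) = s G u) → s G (t * t) = 0 :=
    fun t u ht hu htu htG huG e0 hh => by
      have f1 := prime_dvd_of_sq_dvd (G := G) ht (m := t * t) dvd_rfl
      have f2 := frob_prime hu huG (m := t * t) fun h => nd hu ht htu.symm (by simpa [hu.dvd_mul] using h)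
      rw [s_eq_zero_of_dvd (d := t * u) (m := u * (t * t)) ⟨t, by ring⟩ e0, add_zero] at f2
      rcases hh with e | e | e
      · exact e
      · exact absurd ((Nat.dvd_add_left (e ▸ f1)).1 (frob_one ht htG)) ht.not_dvd_one
      · exact absurd ((Nat.dvd_add_left (e ▸ f2)).1 (frob_one hu huG)) hu.not_dvd_one
  have hpp := hsq p q hp hq hpq hpG hqG h0 (val2 _ (by nlinarith))
  have hqq := hsq q p hq hp hpq.symm hqG hpG (mul_comm p q ▸ h0) (by have := val2 (q * q) (by nlinarith); omega)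
  have pq : ∀ r : ℕ, r.Prime → r ∣ Nat.card G → r = p ∨ r = q := fun r hr hd => by
    have : r ∈ (Nat.card G).primeFactors := Nat.mem_primeFactors.2 ⟨hr, hd, Nat.card_pos.ne'⟩
    simpa [e] using this
  have ho : ∀ g : G, g ≠ 1 → orderOf g = p ∨ orderOf g = q := fun g hg => by
    obtain ⟨r, hr, t, ht⟩ := Nat.exists_prime_and_dvd (mt orderOf_eq_one_iff.1 hg)
    have hd := orderOf_dvd_natCard g
    by_cases h1 : t = 1
    · rw [ht, h1, mul_one] at hd ⊢
      exact pq r hr hd
    obtain ⟨r', hr', t', rfl⟩ := Nat.exists_prime_and_dvd h1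
    refine absurd (s_eq_zero_of_dvd (d := r * r') ⟨t', by rw [ht]; ring⟩ ?_) (s_orderOf_ne_zero g)
    rcases pq r hr (dvd_trans ⟨_, ht⟩ hd) with rfl | rfl <;>
      rcases pq r' hr' (dvd_trans ⟨_, by rw [ht, mul_left_comm]⟩ hd) with rfl | rfl
    exacts [hpp, h0, mul_comm r r' ▸ h0, hqq]
  refine ⟨fun r hr P hd => ?_, ?_⟩
  · have : Nontrivial (P : Subgroup G) := (nontrivial_iff_ne_bot _).2 (P.ne_bot_of_dvd_card hd)
    refine (Monoid.exponent_eq_prime_iff hr.out).2 fun g hg => ?_
    obtain ⟨k, hk⟩ := (IsPGroup.iff_orderOf.1 P.isPGroup') g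
    have h1 : (orderOf g).Prime := by
      rw [← orderOf_coe]
      rcases ho g (fun e => hg (Subtype.ext e)) with e | e <;> rwa [e]
    exact (Nat.prime_dvd_prime_iff_eq h1 hr.out).1 (h1.dvd_of_dvd_pow hk.dvd)
  · have := CL.isSolvable_of_odd G hodd
    have : Nontrivial G := Finite.one_lt_card_iff_nontrivial.1 (by
      have := Nat.le_of_dvd Nat.card_pos hpG; omega)
    obtain ⟨V, -, hV1, hV2, hV3⟩ := CL.InvT.exists_abelian_normal_le (⊤ : Subgroup G) top_ne_bot
      inferInstance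
    obtain ⟨⟨v, hv1⟩, hv2⟩ := ne_bot_iff_exists_ne_one.1 hV2
    rcases ho v (fun e => hv2 (Subtype.ext e)) with e | e
    · exact frobenius hp hq (by omega) hpq hqG ho V hV3 hv1 e
    · exact frobenius hq hp (by omega) hpq.symm hpG (fun g hg => (ho g hg).symm) V hV3 hv1 e

end Cfsg.Agent.S4004
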