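import Cfsg.Statements.S4005
import Mathlib
import Cfsg.Agent.FGS.RankAct
import Cfsg.Agent.CHAR.Burnside
import Cfsg.Agent.SOLV.Frobenius
import Cfsg.Agent.SOLV.Fitting

set_option autoImplicit false
open Cfsg

namespace Cfsg.Agent.S4005

open Subgroup CL in

/-- A finite group whose set of element orders is exactly {1, 2, 3} has either a normal elementary abelian 3-subgroup of index 2 or a normal elementary abelian 2-subgroup of index 3. -/
theorem result {G : Type*} [Group G] [Finite G] (h : Set.range (orderOf : G → ℕ) = {k : ℕ | 1 ≤ k ∧ k ≤ 3}) :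
    (∃ N : Subgroup G, N.Normal ∧ Cfsg.IsElementaryAbelian 3 N ∧ N.index = 2) ∨
      (∃ N : Subgroup G, N.Normal ∧ Cfsg.IsElementaryAbelian 2 N ∧ N.index = 3) := by
  have ho : ∀ g : G, orderOf g = 1 ∨ orderOf g = 2 ∨ orderOf g = 3 := fun g => by
    have : orderOf g ∈ {k : ℕ | 1 ≤ k ∧ k ≤ 3} := h ▸ Set.mem_range_self g
    simp only [Set.mem_setOf_eq] at this
    omega
  have hex : ∀ k, 1 ≤ k → k ≤ 3 → k ∣ Nat.card G := fun k h1 h2 => by
    obtain ⟨g, rfl⟩ : k ∈ Set.range (orderOf : G → ℕ) := h ▸ ⟨h1, h2⟩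
    exact orderOf_dvd_natCard g
  have hpr : ∀ q : ℕ, q.Prime → q ∣ Nat.card G → q = 2 ∨ q = 3 := fun q hq hd => by
    have := Fact.mk hq
    obtain ⟨g, hg⟩ := exists_prime_orderOf_dvd_card' q hd
    have := ho g
    have := hq.one_lt
    omega
  have h3 : Fact (Nat.Prime 3) := ⟨Nat.prime_three⟩
  have hsol : Group.IsSolvable G :=
    Char.isSolvable_of_primes_subset_pair Nat.prime_two Nat.prime_three hpr
  have hel : ∀ (p : ℕ) [Fact p.Prime] (A : Subgroup G), IsPGroup p A → ∀ a ∈ A, a ≠ 1 →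
      orderOf a = p := by
    intro p hp A hA a ha ha1
    obtain ⟨k, hk⟩ := IsPGroup.iff_orderOf.1 hA ⟨a, ha⟩
    rw [Subgroup.orderOf_mk] at hk
    have h1 : orderOf a ≠ 1 := mt orderOf_eq_one_iff.1 ha1
    have h2 : (orderOf a).Prime := by
      rcases ho a with h | h | h
      · exact absurd h h1
      · rw [h]; exact Nat.prime_two
      · rw [h]; exact Nat.prime_three
    exact (Nat.prime_dvd_prime_iff_eq h2 hp.out).1 (h2.dvd_of_dvd_pow (dvd_of_eq hk))
  have hpow : ∀ (p : ℕ) [Fact p.Prime] (A : Subgroup G), IsPGroup p A → ∀ a ∈ A, a ^ p = 1 := by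
    intro p _ A hA a ha
    by_cases h1 : a = 1
    · simp [h1]
    · rw [← hel p A hA a ha h1, pow_orderOf_eq_one]
  have hnc : ∀ a b : G, orderOf a = 2 → orderOf b = 3 → a * b ≠ b * a := fun a b ha hb hc => by
    have := (show Commute a b from hc).orderOf_mul_eq_mul_orderOf_of_coprime (by rw [ha, hb]; norm_num)
    rw [ha, hb] at this
    have := ho (a * b)
    omega
  have hcard : ∀ (p : ℕ) [Fact p.Prime] (S : Sylow p G), p ∣ Nat.card G →
      IsCyclic (S : Subgroup G) → Nat.card S = p := by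
    intro p _ S hd hc
    obtain ⟨c, hc⟩ := hc.exists_ofOrder_eq_natCard
    rw [← hc, ← Subgroup.orderOf_coe]
    refine hel p S S.isPGroup' _ c.2 fun e => S.ne_bot_of_dvd_card hd ?_
    rw [← Subgroup.card_eq_one, ← hc, orderOf_eq_one_iff]
    exact Subtype.ext e
  obtain ⟨P⟩ : Nonempty (Sylow 2 G) := inferInstance
  obtain ⟨R⟩ : Nonempty (Sylow 3 G) := inferInstance
  have hPc : IsMulCommutative (P : Subgroup G) := ⟨⟨fun a b => Subtype.ext (by
    have e : ∀ x ∈ (P : Subgroup G), x⁻¹ = x := fun x hx =>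
      inv_eq_of_mul_eq_one_right (by rw [← sq]; exact hpow 2 _ P.isPGroup' x hx)
    have := e _ ((P : Subgroup G).mul_mem b.2 a.2)
    rwa [mul_inv_rev, e _ a.2, e _ b.2] at this)⟩⟩
  have fpf23 : ∀ A H : Subgroup G, IsPGroup 2 A → IsPGroup 3 H →
      ∀ a ∈ A, a ≠ 1 → H ⊓ centralizer {a} = ⊥ := fun A H hA hH a ha ha1 => by
    rw [eq_bot_iff]
    intro b hb
    by_contra hb1
    exact hnc a b (hel 2 A hA a ha ha1) (hel 3 H hH b hb.1 hb1)
      (mem_centralizer_singleton_iff.1 hb.2).symm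
  have fpf32 : ∀ A H : Subgroup G, IsPGroup 3 A → IsPGroup 2 H →
      ∀ a ∈ A, a ≠ 1 → H ⊓ centralizer {a} = ⊥ := fun A H hA hH a ha ha1 => by
    rw [eq_bot_iff]
    intro b hb
    by_contra hb1
    exact hnc b a (hel 2 H hH b hb.1 hb1) (hel 3 A hA a ha ha1)
      (mem_centralizer_singleton_iff.1 hb.2)
  by_cases hO3 : Cfsg.pCore 3 G = ⊥
  · right
    have : Nontrivial G := Finite.one_lt_card_iff_nontrivial.1
      (lt_of_lt_of_le one_lt_two (Nat.le_of_dvd Nat.card_pos (hex 2 (by omega) (by omega))))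
    have hF : Cfsg.fittingSubgroup G ≤ P := by
      refine le_of_forall_isPGroup_le fun q hq T => ?_
      have h1 := le_pCore_of_le_fittingSubgroup (map_subtype_le T.toSubgroup)
        (T.isPGroup'.map _)
      by_cases hqd : q ∣ Nat.card G
      · rcases hpr q hq.out hqd with rfl | rfl
        · exact h1.trans (pCore_le_sylow P)
        · exact h1.trans (hO3 ▸ bot_le)
      · rw [pCore_eq_bot_of_coprime ((Nat.Prime.coprime_iff_not_dvd hq.out).2 hqd).symm] at h1
        exact h1.trans bot_le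
    have hPF : (P : Subgroup G) = Cfsg.fittingSubgroup G := le_antisymm
      ((le_centralizer_of_le_of_isMulCommutative hF).trans (centralizer_fittingSubgroup_le G)) hF
    have hPn : (P : Subgroup G).Normal := hPF ▸ fittingSubgroup_normal G
    have hRc := (Frob.isCyclic_or_quaternion R.isPGroup'
      (P.ne_bot_of_dvd_card (hex 2 (by omega) (by omega))) le_normalizer_of_normal
      (fpf32 _ _ R.isPGroup' P.isPGroup')).resolve_right (by simp)
    have hR3 := hcard 3 R (hex 3 (by omega) (by omega)) hRc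
    refine ⟨P, hPn, ⟨hPc, hpow 2 _ P.isPGroup'⟩, ?_⟩
    have hq : IsPGroup 3 (G ⧸ (P : Subgroup G)) := isPGroup_iff_isPiNum.2 fun q hq hd => by
      rcases hpr q hq (hd.trans (card_quotient_dvd _)) with rfl | rfl
      · exact absurd hd P.not_dvd_index
      · rfl
    have h1 := card_sup_of_disjoint (H := (R : Subgroup G)) (K := P) le_normalizer_of_normal
      (inf_eq_bot_of_isPGroup_of_coprime R.isPGroup'
        (coprime_card_of_isPGroup P.isPGroup' (by norm_num)).symm)
    rw [sup_comm, sup_sylow_eq_top_of_isPGroup_quotient _ hq R, card_top, hR3,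
      ← (P : Subgroup G).index_mul_card] at h1
    exact Nat.eq_of_mul_eq_mul_right Nat.card_pos h1
  · left
    have hcyc := Frob.isCyclic_of_comm hO3 le_normalizer_of_normal
      (fpf23 _ _ P.isPGroup' (isPGroup_pCore 3 G))
    have hP2 := hcard 2 P (hex 2 (by omega) (by omega)) hcyc
    have hN : Cfsg.HasNormalPComplement 2 G := by
      by_contra hN
      obtain ⟨q, i, h1, -, -, h4, h5, h6⟩ :=
        Tr.exists_prime_dvd_pow_sub_one_of_not_hasNPC P (n := 1) (by simpa using hP2) hN
      obtain rfl : i = 1 := le_antisymm h5 h4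
      exact h1.one_lt.ne' (Nat.dvd_one.1 h6)
    have hc := isComplement'_pResidual_of_hasNPC hN P
    have hK3 : IsPGroup 3 (Cfsg.pResidual 2 G) := isPGroup_iff_isPiNum.2 fun q hq hd => by
      rcases hpr q hq (hd.trans (card_subgroup_dvd_card _)) with rfl | rfl
      · exact absurd hd (hasNPC_iff_not_dvd_card_pResidual.1 hN)
      · rfl
    obtain ⟨s, hs, -, hs1, hs2⟩ := Frob.exists_involution (A := (P : Subgroup G)) (dvd_of_eq hP2.symm)
    refine ⟨Cfsg.pResidual 2 G, inferInstance, ⟨Frob.isMulCommutative_of_involution hs2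
      (le_normalizer_of_normal (mem_top s)) (fpf23 _ _ P.isPGroup' hK3 s hs hs1),
      hpow 3 _ hK3⟩, ?_⟩
    rw [hc.symm.index_eq_card, hP2]

end Cfsg.Agent.S4005
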