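import Cfsg.Statements.S4006
import Mathlib
import Cfsg.Agent.S0058
import Cfsg.Agent.S3779
import Cfsg.Agent.SOLV.MinNormal
import Cfsg.Agent.SOLV.PGroupCyclicSCN
import Cfsg.Agent.CHAR.Burnside

set_option autoImplicit false
open Cfsg

namespace Cfsg.Agent.S4006

open Subgroup
open scoped commutatorElement IsMulCommutative

theorem exp2 {Q : Type*} [Group Q] (σ τ : MulAut Q) (h4 : ∀ q : Q, q ^ 4 = 1)
    (hσ3 : ∀ q, σ (σ (σ q)) = q) (hτσ : ∀ q, τ (σ q) = σ (σ (τ q))) (hf : ∀ q, σ q = q → q = 1)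
    (H3 : ∀ q, q * σ q * σ (σ q) = 1) (H2 : ∀ q, (q * τ q) ^ 2 = 1)
    (hc : ∀ a b : Q, ⁅a, b⁆ ∈ center Q) (q : Q) : q ^ 2 = 1 := by
  have hch : ∀ (φ : MulAut Q) z, z ∈ center Q → φ z ∈ center Q := fun φ z hz =>
    characteristic_iff_le_comap.mp inferInstance φ hz
  have hZ : ∀ z ∈ center Q, z ^ 2 = 1 := by
    have h1 : ∀ z ∈ center Q, τ (z ^ 2) = z ^ 2 := fun z hz => by
      have h2 := H2 z
      rw [(show Commute z (τ z) from (mem_center_iff.mp hz _).symm).mul_pow, ← map_pow] at h2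
      rw [← mul_left_cancel_iff (a := z ^ 2), h2, ← pow_add, h4]
    intro z hz
    have h2 := h1 _ (hch σ z hz)
    rw [← map_pow, hτσ, h1 z hz] at h2
    exact hf _ (σ.injective h2)
  haveI : IsMulCommutative (Q ⧸ center Q) :=
    Normal.quotient_commutative_iff_commutator_le.mpr (commutator_le.mpr fun a _ b _ => hc a b)
  let π := QuotientGroup.mk' (center Q)
  let P : Q → Prop := fun u => ∃ r, π u = π (r * τ r)
  have P1 : ∀ u, P u → u * u = 1 := by
    rintro u ⟨r, hr⟩
    obtain ⟨z, hz, h⟩ := (QuotientGroup.mk'_eq_mk' _).mp hr.symm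
    rw [← h, ← sq, (show Commute _ z from mem_center_iff.mp hz _).mul_pow, H2, hZ z hz, one_mul]
  have P2 : ∀ u v, P u → P v → P (u * v) := by
    rintro u v ⟨r, hr⟩ ⟨s, hs⟩
    refine ⟨r * s, ?_⟩
    rw [map_mul, hr, hs]
    simp only [map_mul, mul_assoc, mul_comm, mul_left_comm]
  have Pi : ∀ u, P u → u⁻¹ = u := fun u h => inv_eq_of_mul_eq_one_right (P1 u h)
  have P3 : ∀ u v, P u → P v → Commute u v := fun u v hu hv => by
    have := Pi _ (P2 u v hu hv)
    rw [mul_inv_rev, Pi u hu, Pi v hv] at this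
    exact this.symm
  have b1 : ∀ a b d : Q, ⁅a * b, d⁆ = ⁅a, d⁆ * ⁅b, d⁆ := fun a b d => by
    calc _ = a * ⁅b, d⁆ * (d * a⁻¹ * d⁻¹) := by simp only [commutatorElement_def]; group
      _ = ⁅b, d⁆ * ⁅a, d⁆ := by
        rw [mem_center_iff.mp (hc b d) a, commutatorElement_def a]; group
      _ = _ := mem_center_iff.mp (hc a d) _
  have b2 : ∀ a b d : Q, ⁅d, a * b⁆ = ⁅d, a⁆ * ⁅d, b⁆ := fun a b d => by
    rw [← commutatorElement_inv, b1, mul_inv_rev, commutatorElement_inv, commutatorElement_inv,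
      mem_center_iff.mp (hc d a)]
  have h5 : ∀ u, σ (σ u) = (u * σ u)⁻¹ := fun u => eq_inv_of_mul_eq_one_right (H3 u)
  have P4 : ∀ u v, P u → P v → Commute u (σ v) := fun u v hu hv => by
    have e1 : ⁅u, v⁆ = 1 := (P3 u v hu hv).commutator_eq
    have e2 : ⁅σ u, σ v⁆ = 1 := ((P3 u v hu hv).map σ).commutator_eq
    have e3 : ⁅u * σ u, v * σ v⁆ = 1 := by
      have := (((P3 u v hu hv).map σ).map σ).inv_inv
      rw [h5, h5, inv_inv, inv_inv] at this
      exact this.commutator_eq
    rw [b1, b2, b2, e1, e2, one_mul, mul_one] at e3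
    have e4 : ⁅σ u, σ (σ v)⁆ * ⁅σ u, v⁆ = 1 := by
      have := b2 (σ (σ v)) (v * σ v) (σ u)
      rw [b2 v, e2, mul_one, h5 v, inv_mul_cancel, commutatorElement_one_right] at this
      rw [h5 v, this]
    refine commutatorElement_eq_one_iff_commute.mp (hf _ ?_)
    rw [map_commutatorElement, eq_inv_of_mul_eq_one_left e4, eq_inv_of_mul_eq_one_left e3]
  set r := q ^ 3 with hr
  have hq : q = r ^ 3 := by
    rw [hr, ← pow_mul, show 3 * 3 = 4 * 2 + 1 from rfl, pow_succ, pow_mul, h4, one_pow, one_mul]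
  have w1 : P (r * τ r) := ⟨r, rfl⟩
  have w2 : P (σ (σ r) * τ (σ (σ r))) := ⟨_, rfl⟩
  have w3 : P (σ r * τ (σ r)) := ⟨_, rfl⟩
  have k1 : π q = π (r * τ r) * π (σ (σ (σ r) * τ (σ (σ r)))) * π (σ (σ (σ r * τ (σ r)))) := by
    have := congrArg π (H3 (τ r))
    simp only [map_mul, map_one] at this
    simp only [map_mul, hτσ, hσ3]
    rw [hq, map_pow, ← mul_one (_ ^ 3), ← this, pow_three]
    simp only [mul_assoc, mul_comm, mul_left_comm]
  set a := r * τ r
  set b := σ (σ r) * τ (σ (σ r))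
  set c := σ r * τ (σ r)
  have k2 : P (q * (σ (b * c))⁻¹) := by
    obtain ⟨s, hs⟩ := P2 a c w1 w3
    refine ⟨s, ?_⟩
    rw [← hs, map_mul, k1, h5 c, mul_inv_rev, ← map_inv σ c, Pi c w3]
    simp only [map_mul, map_inv]
    rw [mul_inv_eq_iff_eq_mul]
    simp only [mul_assoc, mul_comm, mul_left_comm]
  have k3 := (P4 _ _ k2 (P2 b c w2 w3)).mul_pow 2
  rwa [inv_mul_cancel_right, sq (_ * _), P1 _ k2, ← map_pow, sq (b * c), P1 _ (P2 b c w2 w3), map_one,
    mul_one] at k3

/-- A finite group whose set of element orders is exactly {1, 2, 3, 4} has a normal subgroup N such that either N is a 2-group of exponent 4 and nilpotency class at most 2 with G/N of order 3, or N is an elementary abelian 2-group with G/N isomorphic to the symmetric group of degree 3, or N is an elementary abelian 3-group with G/N cyclic of order 4 or quaternion of order 8. -/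
theorem result {G : Type*} [Group G] [Finite G] (h : Set.range (orderOf : G → ℕ) = {k : ℕ | 1 ≤ k ∧ k ≤ 4}) :
    ∃ (N : Subgroup G) (_ : N.Normal),
      (IsPGroup 2 ↥N ∧ Monoid.exponent ↥N = 4 ∧ Group.nilpotencyClass ↥N ≤ 2 ∧ N.index = 3) ∨
      (Cfsg.IsElementaryAbelian 2 N ∧ Nonempty (G ⧸ N ≃* Equiv.Perm (Fin 3))) ∨
      (Cfsg.IsElementaryAbelian 3 N ∧ ((IsCyclic (G ⧸ N) ∧ N.index = 4) ∨ Nonempty (G ⧸ N ≃* QuaternionGroup 2))) := by
  classical
  have hord : ∀ g : G, g ^ 4 = 1 ∨ g ^ 3 = 1 := fun g => by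
    obtain ⟨h1, h2⟩ : orderOf g ∈ {k : ℕ | 1 ≤ k ∧ k ≤ 4} := h ▸ Set.mem_range_self g
    rw [← orderOf_dvd_iff_pow_eq_one, ← orderOf_dvd_iff_pow_eq_one]
    interval_cases orderOf g <;> simp
  obtain ⟨x, hx⟩ : 3 ∈ Set.range (orderOf : G → ℕ) := by rw [h]; simp
  obtain ⟨u, hu⟩ : 4 ∈ Set.range (orderOf : G → ℕ) := by rw [h]; simp
  have c34 : ∀ {H : Type _} [Group H] (a : H), a ^ 4 = 1 → a ^ 3 = 1 → a = 1 := fun a h1 h2 => by
    rwa [pow_succ, h2, one_mul] at h1
  have no6 : ∀ a b : G, Commute a b → a ^ 4 = 1 → b ^ 3 = 1 → a = 1 ∨ b = 1 := fun a b hc ha hb => by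
    rcases hord (a * b) with h1 | h1 <;> rw [hc.mul_pow] at h1
    · exact Or.inr (c34 b (by rwa [ha, one_mul] at h1) hb)
    · exact Or.inl (c34 a ha (by rwa [hb, mul_one] at h1))
  have hpr : ∀ p : ℕ, p.Prime → p ∣ Nat.card G → p = 2 ∨ p = 3 := fun p hp hd => by
    haveI := Fact.mk hp
    obtain ⟨g, hg⟩ := exists_prime_orderOf_dvd_card' p hd
    obtain ⟨h1, h2⟩ : orderOf g ∈ {k : ℕ | 1 ≤ k ∧ k ≤ 4} := h ▸ Set.mem_range_self g
    rw [hg] at h1 h2
    interval_cases p <;> first | exact absurd hp (by decide) | simp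
  haveI : Fact (Nat.Prime 3) := ⟨Nat.prime_three⟩
  have hx1 : x ≠ 1 := fun h => by simp [h] at hx
  have hu2 : u ^ 2 ≠ 1 := fun h => absurd (hu ▸ orderOf_dvd_of_pow_eq_one h) (by decide)
  have hu4 : u ^ 4 = 1 := hu ▸ pow_orderOf_eq_one u
  haveI : Nontrivial G := ⟨x, 1, hx1⟩
  haveI : Group.IsSolvable G := CL.Char.isSolvable_of_primes_subset_pair Nat.prime_two Nat.prime_three hpr
  have e2 : ∀ g ∈ pCore 2 G, g ^ 4 = 1 := fun g hg => (hord g).elim id fun h3 => by
    obtain ⟨k, hk⟩ := IsPGroup.iff_orderOf.mp (CL.isPGroup_pCore 2 G) ⟨g, hg⟩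
    rw [show g = 1 from orderOf_eq_one_iff.mp (Nat.eq_one_of_dvd_coprimes (Nat.Coprime.pow_left k (by norm_num))
      ((orderOf_coe ⟨g, hg⟩).trans hk).dvd (orderOf_dvd_of_pow_eq_one h3)), one_pow]
  have e3 : ∀ {A : Subgroup G}, IsPGroup 3 A → ∀ g ∈ A, g ^ 3 = 1 := fun hA g hg => (hord g).elim
    (fun h3 => by
      obtain ⟨k, hk⟩ := IsPGroup.iff_orderOf.mp hA ⟨g, hg⟩
      rw [show g = 1 from orderOf_eq_one_iff.mp (Nat.eq_one_of_dvd_coprimes (Nat.Coprime.pow_left k (by norm_num))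
        ((orderOf_coe ⟨g, hg⟩).trans hk).dvd (orderOf_dvd_of_pow_eq_one h3)), one_pow]) id
  obtain ⟨p, hp, hp0⟩ := CL.exists_pCore_ne_bot G
  haveI := Fact.mk hp
  have hpd : p ∣ Nat.card G := (((CL.isPGroup_pCore p G).card_eq_or_dvd.resolve_left
    (mt card_eq_one.mp hp0))).trans (card_subgroup_dvd_card _)
  rcases hpr p hp hpd with rfl | rfl
  · set Q := pCore 2 G with hQ
    obtain ⟨P⟩ := (inferInstance : Nonempty (Sylow 2 G))
    obtain ⟨S, hS⟩ := (IsPGroup.of_card (G := zpowers x) (p := 3) (n := 1)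
      (by rw [Nat.card_zpowers, hx, pow_one])).exists_le_sylow
    have hfp : ∀ y : G, y ^ 3 = 1 → y ≠ 1 → ∀ q ∈ Q, y * q = q * y → q = 1 := fun y hy hy1 q hq hc =>
      (no6 q y hc.symm (e2 q hq) hy).resolve_right hy1
    have hSx : (S : Subgroup G) = zpowers x := by
      rcases CL.PCyc.isCyclic_or_elemAb_or_quaternion S.isPGroup' with h1 | ⟨E, hE, hEc⟩ | ⟨h1, -⟩
      · obtain ⟨g, hg⟩ := IsCyclic.exists_ofOrder_eq_natCard (α := (S : Subgroup G))
        refine (eq_of_le_of_card_ge hS ?_).symm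
        rw [Nat.card_zpowers, hx, ← hg]
        exact Nat.le_of_dvd (by norm_num) (orderOf_dvd_of_pow_eq_one (Subtype.ext (e3 S.isPGroup' _ g.2)))
      · haveI := hE.1
        have e := E.equivMapOfInjective _ (S : Subgroup G).subtype_injective
        have := Cfsg.Agent.S0058.result (E.map (S : Subgroup G).subtype) Q
          (fun h1 => CL.PCyc.not_isCyclic_of_elemAb Nat.prime_three hE (by omega)
            (isCyclic_of_surjective e.symm e.symm.surjective)) le_normalizer_of_normal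
          (IsPGroup.coprime_card_of_ne 3 2 (by norm_num) _ _
            (S.isPGroup'.to_le (map_subtype_le _)) (CL.isPGroup_pCore 2 G))
        refine absurd (this.symm.trans ?_) hp0
        simp only [iSup_eq_bot]
        exact fun a ha => eq_bot_iff.mpr fun q hq => hfp a (e3 S.isPGroup' a (map_subtype_le _ ha.1))
          ha.2 q hq.1 (mem_centralizer_singleton_iff.mp hq.2).symm
      · exact absurd h1 (by norm_num)
    have hS3 : Nat.card S = 3 := by rw [hSx, Nat.card_zpowers, hx]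
    have hx3 : x ^ 3 = 1 := hx ▸ pow_orderOf_eq_one x
    have hxQ : x ∉ Q := fun h => hx1 (c34 x (e2 x h) hx3)
    have hPi : (P : Subgroup G).index = 3 := by
      have h1 : (P : Subgroup G).index ∣ 3 := by
        refine Nat.Coprime.dvd_of_dvd_mul_right (n := (S : Subgroup G).index)
          (Nat.coprime_of_dvd fun r hr h1 h2 => ?_) ?_
        · rcases hpr r hr (h1.trans (index_dvd_card _)) with rfl | rfl
          exacts [P.not_dvd_index h1, S.not_dvd_index h2]
        · exact (index_dvd_card _).trans (by rw [← card_mul_index (S : Subgroup G), hS3])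
      refine ((Nat.dvd_prime Nat.prime_three).mp h1).resolve_left fun h2 => hxQ ?_
      rw [index_eq_one] at h2
      exact CL.le_pCore (N := ⊤) (h2 ▸ P.isPGroup') (mem_top x)
    let e : Equiv.Perm (G ⧸ (P : Subgroup G)) ≃* Equiv.Perm (Fin 3) :=
      (Finite.equivFinOfCardEq hPi).permCongrHom
    let f := e.toMonoidHom.comp (MulAction.toPermHom G (G ⧸ (P : Subgroup G)))
    have hker : f.ker = Q := by
      rw [MonoidHom.ker_comp_of_injective _ _ e.injective, ← normalCore_eq_ker]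
      exact le_antisymm (CL.le_pCore (P.isPGroup'.to_le (normalCore_le _)))
        (normal_le_normalCore.mpr (CL.pCore_le_sylow P))
    have hinj : Function.Injective (QuotientGroup.lift Q f hker.ge) :=
      (QuotientGroup.injective_lift_iff Q f hker.ge).mpr hker.symm
    have h6 : Q.index ∣ 6 := card_dvd_of_injective _ hinj |>.trans (by simp [Fintype.card_perm, Nat.factorial])
    have h3 : 3 ∣ Q.index := hPi ▸ index_dvd_of_le (CL.pCore_le_sylow P)
    let σ : MulAut Q := MulAut.conjNormal x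
    have hσ : ∀ q : Q, (σ q : G) = x * q * x⁻¹ := fun _ => rfl
    have hσf : ∀ q, σ q = q → q = 1 := fun q hq => Subtype.ext
      (hfp x hx3 hx1 q q.2 (mul_inv_eq_iff_eq_mul.mp (congrArg Subtype.val hq)))
    have hσo : orderOf σ = 3 := orderOf_eq_prime (by rw [← map_pow, hx3, map_one]) fun h =>
      hp0 (eq_bot_iff.mpr fun q hq => congrArg Subtype.val (hσf ⟨q, hq⟩ (by rw [h]; rfl)))
    have hcl := (Cfsg.Agent.S3779.result Nat.prime_three σ hσo hσf).2.1 rfl
    haveI := (CL.isPGroup_pCore 2 G).isNilpotent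
    refine ⟨Q, inferInstance, ?_⟩
    by_cases hi : Q.index = 3
    · have huQ : u ∈ Q := by
        have h1 := Q.pow_index_mem u
        rw [hi] at h1
        rw [← mul_mem_cancel_left h1, ← pow_succ, hu4]; exact one_mem _
      refine Or.inl ⟨CL.isPGroup_pCore 2 G, Nat.dvd_antisymm
        (Monoid.exponent_dvd_of_forall_pow_eq_one fun g => Subtype.ext (e2 _ g.2)) ?_,
        Subgroup.lowerCentralSeries_eq_bot_iff_nilpotencyClass_le.mp hcl, hi⟩
      exact ((orderOf_coe ⟨u, huQ⟩).symm.trans hu) ▸ Monoid.order_dvd_exponent _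
    have hi6 : Q.index = 6 := by
      have := Nat.le_of_dvd (by norm_num) h6
      generalize Q.index = m at h3 h6 hi this
      interval_cases m <;> first | rfl | exact absurd h3 (by decide) | exact absurd h6 (by decide) | exact absurd rfl hi
    obtain ⟨t, htN, htC⟩ : ∃ t ∈ normalizer ((S : Subgroup G) : Set G),
        t ∉ centralizer ((S : Subgroup G) : Set G) := by
      by_contra h1
      push Not at h1
      have h2 := MonoidHom.ker_transferSylow_isComplement' S h1
      have h4 : (MonoidHom.transferSylow S h1).ker ≤ Q := CL.le_pCore fun k => ⟨2, (hord k).elim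
        (fun h5 => Subtype.ext h5) fun h5 => by
          have h7 := orderOf_dvd_natCard _ k.2
          rw [← h2.index_eq_card] at h7
          rw [show k = 1 from Subtype.ext (orderOf_eq_one_iff.mp (Nat.eq_one_of_dvd_coprimes
            ((Nat.Prime.coprime_iff_not_dvd Nat.prime_three).mpr S.not_dvd_index)
            (orderOf_dvd_of_pow_eq_one h5) h7)), one_pow]⟩
      have h5 := index_dvd_of_le h4
      rw [hi6, h2.symm.index_eq_card, hS3] at h5
      exact absurd h5 (by decide)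
    have htx : t * x * t⁻¹ = x⁻¹ := by
      rw [hSx] at htN htC
      obtain ⟨i, hi, h1⟩ := Finset.mem_image.mp (mem_zpowers_iff_mem_range_orderOf.mp
        ((mem_normalizer_iff.mp htN x).mp (mem_zpowers x)))
      rw [hx, Finset.mem_range] at hi
      interval_cases i
      · exact absurd (by simpa using h1.symm) hx1
      · refine absurd ?_ htC
        rw [CL.PCyc.centralizer_zpowers, mem_centralizer_singleton_iff]
        exact mul_inv_eq_iff_eq_mul.mp (by simpa using h1.symm)
      · rw [← h1, eq_inv_iff_mul_eq_one, ← pow_succ, hx3]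
    have hxi : x⁻¹ = x * x := inv_eq_of_mul_eq_one_right (by rw [← pow_three, hx3])
    have htt : Commute (t ^ 2) x := by
      have : t * (t * x * t⁻¹) * t⁻¹ = x := by
        rw [htx, ← conj_inv, htx, inv_inv]
      refine mul_inv_eq_iff_eq_mul.mp (Eq.trans ?_ this)
      rw [sq]; group
    let π := QuotientGroup.mk' Q
    have hπx : π x ^ 3 = 1 := by rw [← map_pow, hx3, map_one]
    have hnQ : ∀ g : G, g * x * g⁻¹ * x ∈ Q → g ^ 4 = 1 := fun g hg => (hord g).elim id fun h1 => by
      have h2 : π (g * x * g⁻¹ * x) = 1 := (QuotientGroup.eq_one_iff _).mpr hg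
      simp only [map_mul, map_inv, mul_eq_one_iff_eq_inv] at h2
      have h4 : π g ^ 3 = 1 := by rw [← map_pow, h1, map_one]
      have h5 : π g * (π g * (π g * π x * (π g)⁻¹) * (π g)⁻¹) * (π g)⁻¹ = π x := by
        calc _ = π g ^ 3 * π x * (π g ^ 3)⁻¹ := by rw [pow_three]; group
          _ = _ := by rw [h4]; simp
      rw [h2, ← conj_inv, h2, inv_inv, h2, inv_eq_iff_mul_eq_one] at h5
      rw [pow_three, h5, mul_one] at hπx
      exact absurd ((QuotientGroup.eq_one_iff _).mp hπx) hxQ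
    have ht2 : t ^ 2 = 1 := (no6 _ _ htt (by rw [pow_right_comm, hnQ t (by simp [htx]), one_pow])
      hx3).resolve_right hx1
    let τ : MulAut Q := MulAut.conjNormal t
    have hτ : ∀ q : Q, (τ q : G) = t * q * t⁻¹ := fun _ => rfl
    have key := exp2 σ τ (fun q => Subtype.ext (e2 _ q.2)) (fun q => by
      rw [← MulAut.mul_apply, ← MulAut.mul_apply, ← pow_three', ← hσo, pow_orderOf_eq_one]; rfl)
      (fun q => Subtype.ext (by
        rw [hτ, hσ, hσ, hσ, hτ]
        calc _ = (t * x * t⁻¹) * (t * q * t⁻¹) * (t * x * t⁻¹)⁻¹ := by group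
          _ = _ := by rw [htx.trans hxi]; group)) hσf (fun q => Subtype.ext (by
        change _ = (1 : G)
        have h1 : ((q : G) * x) ^ 3 = 1 := (hord _).resolve_left fun h1 => hxQ (by
          have h2 := congrArg π h1
          rw [map_pow, map_mul, map_one, show π q = 1 from (QuotientGroup.eq_one_iff (q : G)).mpr q.2,
            one_mul] at h2
          exact (QuotientGroup.eq_one_iff _).mp (c34 _ h2 hπx))
        rw [← h1]
        simp only [coe_mul, hσ]
        calc _ = q * x * (q * x * (q * x)) * (x * (x * x))⁻¹ := by group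
          _ = _ := by rw [← pow_three x, hx3, pow_three]; simp)) (fun q => Subtype.ext (by
        have h1 := hnQ (q * t) (by
          rw [show q * t * x * (q * t)⁻¹ * x = q * (t * x * t⁻¹) * (q : G)⁻¹ * x by group, htx]
          simpa [mul_assoc] using mul_mem q.2 (Normal.conj_mem inferInstance _ (inv_mem q.2) x⁻¹))
        rw [coe_pow, coe_mul, hτ, coe_one, ← h1, show 4 = 2 * 2 from rfl, pow_mul, sq (_ * t),
          inv_eq_of_mul_eq_one_right (show t * t = 1 by rw [← sq, ht2])]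
        simp only [mul_assoc]))
      (fun a b => mem_center_iff.mpr fun c => (commutatorElement_eq_one_iff_mul_comm.mp
        (mem_bot.mp (hcl.le (commutator_mem_commutator
          (commutator_mem_commutator (mem_top a) (mem_top b)) (mem_top c))))).symm)
    refine Or.inr (Or.inl ⟨⟨⟨⟨fun a b => ?_⟩⟩, fun a ha => congrArg Subtype.val (key ⟨a, ha⟩)⟩,
      ⟨MulEquiv.ofBijective _ (hinj.bijective_of_nat_card_le ?_)⟩⟩)
    · exact (Commute.of_orderOf_dvd_two (fun g => orderOf_dvd_of_pow_eq_one (key g)) a b).eq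
    · rw [← index_eq_card, hi6]; simp [Fintype.card_perm, Nat.factorial]
  · set R := pCore 3 G with hR
    have hR3 := e3 (CL.isPGroup_pCore 3 G)
    have hinv : ∀ s : G, s ^ 2 = 1 → s ≠ 1 → ∀ r ∈ R, s * r * s⁻¹ = r⁻¹ := fun s hs hs1 r hr => by
      have hss : s * s = 1 := by rw [← sq, hs]
      have := MonoidHom.FixedPointFree.coe_eq_inv_of_involutive (φ := (MulAut.conjNormal s : MulAut R))
        (fun q hq => Subtype.ext ((no6 s q (mul_inv_eq_iff_eq_mul.mp (congrArg Subtype.val hq))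
          (by rw [show 4 = 2 * 2 from rfl, pow_mul, hs, one_pow]) (hR3 _ q.2)).resolve_left hs1))
        (fun q => by rw [← MulAut.mul_apply, ← map_mul, hss, map_one]; rfl)
      exact congrArg Subtype.val (congrFun this ⟨r, hr⟩)
    have ht2 : (u ^ 2) ^ 2 = 1 := by rw [← pow_mul, hu4]
    set t := u ^ 2
    have htR : t ∉ R := fun h => hu2 (by
      have := hR3 t h
      rwa [pow_succ, ht2, one_mul] at this)
    obtain ⟨⟨r₀, hr₀⟩, hr1⟩ := ne_bot_iff_exists_ne_one.mp hp0
    have hC : centralizer (R : Set G) ≤ R := CL.le_pCore fun c => ⟨1, Subtype.ext ((hord c).elim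
      (fun h1 => by
        have := (no6 c r₀ (c.2 r₀ hr₀).symm h1 (hR3 _ hr₀)).resolve_right fun h => hr1 (Subtype.ext h)
        simp [this]) (by simpa using ·))⟩
    let π := QuotientGroup.mk' R
    have hπ : ∀ s : G, s ^ 2 = 1 → s ≠ 1 → π s = π t := fun s hs hs1 => by
      refine QuotientGroup.eq.mpr (hC fun r hr => ?_)
      have h1 := hinv s hs hs1 r hr
      have h2 := hinv t ht2 hu2 r hr
      rw [← h2, mul_inv_eq_iff_eq_mul] at h1
      calc r * (s⁻¹ * t) = s⁻¹ * (s * r) * s⁻¹ * t := by group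
        _ = s⁻¹ * t * r * (t⁻¹ * t) := by rw [h1]; group
        _ = _ := by group
    have hπt : π t ≠ 1 := fun h => htR ((QuotientGroup.eq_one_iff t).mp h)
    have h4 : ∀ g : G ⧸ R, g ^ 4 = 1 := fun g => by
      obtain ⟨g, rfl⟩ := QuotientGroup.mk'_surjective R g
      refine (hord g).elim (fun h1 => by rw [← map_pow, h1, map_one]) fun h1 => ?_
      have h2 : Commute (π g) (π t) := by
        have := hπ (g * t * g⁻¹) (by rw [conj_pow, ht2]; simp) (by simpa using hu2)
        rw [map_mul, map_mul, map_inv, mul_inv_eq_iff_eq_mul] at this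
        exact this
      have h3 : π t ^ 2 = 1 := by rw [← map_pow, ht2, map_one]
      rcases hord (g * t) with h5 | h5 <;> have h6 := congrArg π h5 <;>
        rw [map_pow, map_mul, h2.mul_pow, map_one] at h6
      · rwa [show 4 = 2 * 2 from rfl, pow_mul (π t), h3, one_pow, mul_one] at h6
      · rw [← map_pow, h1, map_one, one_mul, pow_succ, h3, one_mul] at h6
        exact absurd h6 hπt
    have huniq : ∀ g : G ⧸ R, g ^ 2 = 1 → g = 1 ∨ g = π t := fun g hg => by
      obtain ⟨g, rfl⟩ := QuotientGroup.mk'_surjective R g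
      rcases hord g with h1 | h1
      · have h2 : g ^ 2 = 1 := c34 _ (by rw [pow_right_comm, h1, one_pow])
          (hR3 _ ((QuotientGroup.eq_one_iff _).mp hg))
        by_cases h3 : g = 1
        · exact Or.inl (by rw [h3, map_one])
        · exact Or.inr (hπ g h2 h3)
      · exact Or.inl (c34 _ (h4 _) (by rw [← map_pow, h1, map_one]))
    have hπu : orderOf (π u) = 4 := orderOf_eq_prime_pow (p := 2) (n := 1)
      (by rw [pow_one, ← map_pow]; exact hπt) (h4 _)
    refine ⟨R, inferInstance, Or.inr (Or.inr ⟨⟨⟨⟨fun a b => Subtype.ext ?_⟩⟩, hR3⟩, ?_⟩)⟩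
    · have h1 := hinv t ht2 hu2 _ (mul_mem a.2 b.2)
      rw [← conj_mul, hinv t ht2 hu2 _ a.2, hinv t ht2 hu2 _ b.2, ← mul_inv_rev, inv_inj] at h1
      exact h1.symm
    rcases CL.PCyc.isCyclic_or_elemAb_or_quaternion (G := G ⧸ R) (p := 2) (fun g => ⟨2, h4 g⟩) with
      h1 | ⟨E, hE, hEc⟩ | ⟨-, n, ⟨e⟩⟩
    · refine Or.inl ⟨h1, Nat.dvd_antisymm ?_ (hπu ▸ orderOf_dvd_natCard _)⟩
      obtain ⟨g, hg⟩ := IsCyclic.exists_ofOrder_eq_natCard (α := G ⧸ R)
      rw [index_eq_card, ← hg]
      exact orderOf_dvd_of_pow_eq_one (h4 g)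
    · have h1 : (E : Set (G ⧸ R)).ncard ≤ ({1, π t} : Set (G ⧸ R)).ncard :=
        Set.ncard_le_ncard fun g hg => huniq g (hE.2 g hg)
      have h2 := Set.ncard_insert_le (1 : G ⧸ R) {π t}
      rw [← Nat.card_coe_set_eq] at h1
      have h3 : Nat.card (E : Set (G ⧸ R)) = 2 ^ 2 := hEc
      rw [Set.ncard_singleton] at h2
      omega
    · have h1 : orderOf (QuaternionGroup.a 1 : QuaternionGroup (2 ^ (n + 1))) ∣ 4 :=
        orderOf_dvd_of_pow_eq_one (by rw [← e.apply_symm_apply (.a 1), ← map_pow, h4, map_one])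
      rw [QuaternionGroup.orderOf_a_one, ← pow_succ', show 4 = 2 ^ 2 from rfl,
        Nat.pow_dvd_pow_iff_le_right (by norm_num)] at h1
      obtain rfl : n = 0 := by omega
      exact Or.inr ⟨e⟩

end Cfsg.Agent.S4006
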