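import Cfsg.Statements.S4197
import Cfsg.Agent.PERM.ClsPath

set_option autoImplicit false
open Cfsg

namespace Cfsg.Agent.S4197

/-- A permutation group of degree n, that is a subgroup S of the symmetric group on a finite set with n elements, has at most 2^(n−1) conjugacy classes. (For n = 0 both sides equal 1 with truncated subtraction.) -/
theorem result {α : Type*} [Fintype α] [DecidableEq α] (S : Subgroup (Equiv.Perm α)) : Nat.card (ConjClasses S) ≤ 2 ^ (Fintype.card α - 1) := by
  rcases isEmpty_or_nonempty α with he | ⟨⟨a⟩⟩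
  · have h1 : Nat.card (ConjClasses S) ≤ Nat.card S :=
      Nat.card_le_card_of_surjective _ ConjClasses.mk_surjective
    have h2 : Nat.card S = 1 := Nat.card_unique
    exact (h1.trans h2.le).trans Nat.one_le_two_pow
  · have h := CL.ClsPath.card_conjClasses (G := S) a
    have ho : 1 ≤ CL.ClsPath.o α (⊤ : Subgroup S) := by
      have : Nonempty (MulAction.orbitRel.Quotient (⊤ : Subgroup S) α) := ⟨Quotient.mk _ a⟩
      exact Nat.card_pos
    have hn : 1 ≤ Fintype.card α := Fintype.card_pos_iff.2 ⟨a⟩
    rw [Nat.card_eq_fintype_card (α := α)] at h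
    obtain ⟨m, hm⟩ : ∃ m, Fintype.card α = m + 1 := ⟨_, (Nat.sub_add_cancel hn).symm⟩
    rw [hm] at h ⊢
    have h2 : 2 ^ 1 ≤ 2 ^ CL.ClsPath.o α (⊤ : Subgroup S) := Nat.pow_le_pow_right (by norm_num) ho
    have h3 := (Nat.mul_le_mul_left (Nat.card (ConjClasses S)) h2).trans h
    rw [pow_succ 2 m, pow_one] at h3
    simpa using Nat.le_of_mul_le_mul_right h3 (by norm_num)

end Cfsg.Agent.S4197
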