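import Cfsg.Statements.S4203
import Cfsg.Agent.FGS.SylowIdx
import Cfsg.Agent.SOLV.MinNormal
import Cfsg.Agent.CHAR.Burnside

set_option autoImplicit false
open Cfsg

namespace Cfsg.Agent.S4203

/-- A finite group in which every maximal subgroup has index a prime or the square of a prime is solvable. -/
theorem result {G : Type*} [Group G] [Finite G] (h : ∀ M : Subgroup G, IsCoatom M → ∃ p : ℕ, p.Prime ∧ (M.index = p ∨ M.index = p ^ 2)) : Group.IsSolvable G := by
  revert h
  refine CL.card_induction (P := fun G _ _ => (∀ M : Subgroup G, IsCoatom M →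
    ∃ p : ℕ, p.Prime ∧ (M.index = p ∨ M.index = p ^ 2)) → Group.IsSolvable G) ?_ G
  intro G _ _ ih h
  rcases subsingleton_or_nontrivial G with hG | hG
  · infer_instance
  obtain ⟨N, hN⟩ := CL.exists_isMinNormal G
  have := hN.normal
  have hq : Group.IsSolvable (G ⧸ N) := by
    refine ih _ (CL.card_quotient_lt hN.ne_bot) ?_
    intro M hM
    have := h _ (CL.FGS.isCoatom_comap_mk' N hM)
    rwa [CL.index_comap_mk'] at this
  suffices hs : Group.IsSolvable N from
    solvable_of_ker_le_range N.subtype (QuotientGroup.mk' N) (by simp)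
  by_contra hns
  have hN1 : Nat.card N ≠ 1 := by
    have := hN.nontrivial
    exact Finite.one_lt_card.ne'
  have hne : (Nat.card N).primeFactors.Nonempty := by
    rw [Nat.nonempty_primeFactors]
    have := hN.nontrivial
    exact Finite.one_lt_card
  set p := (Nat.card N).primeFactors.max' hne with hpdef
  have hpmem : p ∈ (Nat.card N).primeFactors := Finset.max'_mem _ _
  have hp : p.Prime := Nat.prime_of_mem_primeFactors hpmem
  have hpd : p ∣ Nat.card N := Nat.dvd_of_mem_primeFactors hpmem
  have hmax : ∀ r : ℕ, r.Prime → r ∣ Nat.card N → r ≤ p := fun r hr hd =>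
    Finset.le_max' _ _ (Nat.mem_primeFactors.2 ⟨hr, hd, Nat.card_pos.ne'⟩)
  have : Fact p.Prime := ⟨hp⟩
  obtain ⟨P⟩ : Nonempty (Sylow p N) := inferInstance
  have hfr := P.normalizer_sup_eq_top
  have hne_top : Subgroup.normalizer (((P : Subgroup N).map N.subtype : Subgroup G) : Set G) ≠ ⊤ := by
    intro htop
    have hn : ((P : Subgroup N).map N.subtype).Normal := Subgroup.normalizer_eq_top_iff.1 htop
    rcases hN.eq_bot_or_eq _ hn (Subgroup.map_subtype_le _) with hb | hb
    · rw [Subgroup.map_eq_bot_iff_of_injective _ N.subtype_injective] at hb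
      exact P.ne_bot_of_dvd_card hpd hb
    · apply hns
      have hP : IsPGroup p N := by
        have := P.isPGroup'.map N.subtype
        rwa [hb] at this
      have := hP.isNilpotent
      infer_instance
  obtain ⟨M, hM, hle⟩ := CL.FGS.exists_isCoatom_ge hne_top
  have hsup : M ⊔ N = ⊤ := by
    rw [eq_top_iff, ← hfr]
    exact sup_le_sup_right hle _
  have hidx := CL.FGS.relIndex_eq_index_of_sup_normal_eq_top hsup
  have hmod : M.index ≡ 1 [MOD p] := by
    rw [← hidx]
    apply CL.FGS.index_modEq_one_of_normalizer_sylow_le P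
    intro x hx
    apply hle
    exact Subgroup.le_normalizer_map N.subtype (Subgroup.mem_map_of_mem _ hx)
  have hdvd : M.index ∣ Nat.card N := by
    rw [← hidx]; exact Subgroup.relIndex_dvd_card _ _
  obtain ⟨q, hq, hqi⟩ := h M hM
  have hq2 := hq.two_le
  have hqp : q ≤ p := by
    apply hmax q hq
    rcases hqi with e | e
    · rwa [← e]
    · exact (dvd_pow_self q two_ne_zero).trans (e ▸ hdvd)
  have hnot : ¬ p ∣ q - 1 := fun hd => by
    have := Nat.le_of_dvd (by omega) hd
    omega
  rcases hqi with e | e
  · rw [e] at hmod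
    exact hnot ((Nat.modEq_iff_dvd' (by omega)).1 hmod.symm)
  · rw [e] at hmod
    have h1 : p ∣ q ^ 2 - 1 := (Nat.modEq_iff_dvd' (Nat.one_le_pow _ _ (by omega))).1 hmod.symm
    have h2 : q ^ 2 - 1 = (q + 1) * (q - 1) := by
      simpa using Nat.sq_sub_sq q 1
    rw [h2] at h1
    rcases (Nat.Prime.dvd_mul hp).1 h1 with h3 | h3
    · have h4 : p = q + 1 := by
        have hle' := Nat.le_of_dvd (by omega) h3
        rcases Nat.lt_or_ge q p with hlt | hge
        · omega
        · have : p = q := by omega
          rw [this] at h3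
          have := (Nat.dvd_add_right (dvd_refl q)).1 h3
          have := Nat.le_of_dvd one_pos this
          omega
      have hp3 : p = 3 := by
        rcases hq.eq_two_or_odd' with h5 | h5
        · omega
        · have : Even p := by rw [h4]; exact h5.add_one
          have := (hp.even_iff).1 this
          omega
      apply hns
      refine CL.Char.isSolvable_of_primes_subset_pair Nat.prime_two Nat.prime_three ?_
      intro r hr hd
      have := hmax r hr hd
      have := hr.two_le
      omega
    · exact hnot h3
end Cfsg.Agent.S4203
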