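import Cfsg.Statements.S4204
import Mathlib
import Cfsg.Agent.SIG.Quasisimple

set_option autoImplicit false
open Cfsg

namespace Cfsg.Agent.S4204

theorem lcs_normal {G : Type*} [Group G] (H : Subgroup G) [H.Normal] :
    ∀ n, (H.lowerCentralSeries n).Normal
  | 0 => inferInstanceAs H.Normal
  | n + 1 => by
    have := lcs_normal H n
    rw [Subgroup.lowerCentralSeries_succ]; infer_instance

theorem base {G : Type*} [Group G] (H K N : Subgroup G) [N.Normal] (hH : H ≤ N) (d : ℕ)
    (hK : K.lowerCentralSeries d ≤ N) : (H ⊔ K).lowerCentralSeries d ≤ N := by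
  rw [← QuotientGroup.ker_mk' N, ← Subgroup.map_eq_bot_iff] at hH hK ⊢
  rwa [Subgroup.map_lowerCentralSeries, Subgroup.map_sup, hH, bot_sup_eq,
    ← Subgroup.map_lowerCentralSeries]

theorem aux {G : Type*} [Group G] (H K : Subgroup G) [H.Normal] [K.Normal] (n : ℕ) :
    ∀ (c d : ℕ) (N : Subgroup G) [N.Normal], c + d = n → H.lowerCentralSeries c ≤ N →
      K.lowerCentralSeries d ≤ N → (H ⊔ K).lowerCentralSeries n ≤ N := by
  induction n with
  | zero =>
    intro c d N _ h hH hK
    obtain ⟨rfl, rfl⟩ : c = 0 ∧ d = 0 := by omega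
    exact sup_le hH hK
  | succ n ih =>
    intro c d N _ h hH hK
    rcases c with _ | c
    · rw [zero_add] at h; subst h; exact base H K N hH _ hK
    rcases d with _ | d
    · rw [add_zero] at h; rw [← h, sup_comm]; exact base K H N hK _ hH
    have := lcs_normal H c
    have := lcs_normal K d
    have h1 := ih c (d + 1) (N ⊔ H.lowerCentralSeries c) (by omega) le_sup_right
      (hK.trans le_sup_left)
    have h2 := ih (c + 1) d (N ⊔ K.lowerCentralSeries d) (by omega) (hH.trans le_sup_left)
      le_sup_right
    have hn : ∀ X : Subgroup G, X ≤ Subgroup.normalizer (N : Set G) :=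
      fun _ => Subgroup.le_normalizer_of_normal
    rw [Subgroup.lowerCentralSeries_succ]
    exact CL.Comp.commutator_sup_le (hn _) (hn _)
      ((Subgroup.commutator_mono h1 le_rfl).trans (CL.Comp.sup_commutator_le (hn _) (hn _)
        (Subgroup.commutator_le_left _ _) hH))
      ((Subgroup.commutator_mono h2 le_rfl).trans (CL.Comp.sup_commutator_le (hn _) (hn _)
        (Subgroup.commutator_le_left _ _) hK))

/-- If `H` and `K` are normal subgroups of a finite group with `H` nilpotent of class at most `c` and `K` nilpotent of class at most `d` (the terms with index `c`, respectively `d`, of their lower central series are trivial, indices starting at `0`), then `HK` is nilpotent of class at most `c + d`. -/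
theorem result {G : Type*} [Group G] [Finite G] (H K : Subgroup G) [H.Normal] [K.Normal] (c d : ℕ) (hH : H.lowerCentralSeries c = ⊥) (hK : K.lowerCentralSeries d = ⊥) : (H ⊔ K).lowerCentralSeries (c + d) = ⊥ := by
  exact eq_bot_iff.2 (aux H K _ c d ⊥ rfl hH.le hK.le)

end Cfsg.Agent.S4204
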