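import Mathlib
import Cfsg.Statements.S4212
import Cfsg.Agent.FGS.FrobSol
import Cfsg.Agent.FGS.ClassCount

set_option autoImplicit false
open Cfsg

namespace Cfsg.Agent.S4212

/-- Let `G` be a finite group of order `g`, `c` an element whose conjugacy class has `h` elements, and `n` a natural number. Then the number of elements `x` of `G` with `x^n` conjugate to `c` is a multiple of `gcd(hn, g)`. -/
theorem result {G : Type*} [Group G] [Finite G] (c : G) (n : ℕ) : Nat.gcd (Nat.card {y : G // IsConj c y} * n) (Nat.card G) ∣ Nat.card {x : G // IsConj c (x ^ n)} := by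
  classical
  let Z := Subgroup.centralizer ({c} : Set G)
  have hc : c ∈ Z := Subgroup.mem_centralizer_singleton_iff.mpr rfl
  have h1 := CL.FrobSol.dvd_card_pow_mem (G := Z) {⟨c, hc⟩} (fun g x hx => by
    rw [show x = ⟨c, hc⟩ from hx]
    refine Subtype.ext ?_
    show (g : G) * c * (g : G)⁻¹ = c
    rw [Subgroup.mem_centralizer_singleton_iff.mp g.2]; simp)
    (Nat.gcd_dvd_left n (Nat.card Z)) (Nat.gcd_dvd_right _ _)
  have h2 : Nat.card {x : Z // x ^ n ∈ ({⟨c, hc⟩} : Set Z)} = Nat.card {x : G // x ^ n = c} :=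
    Nat.card_congr
      { toFun := fun x => ⟨x.1.1, congrArg Subtype.val x.2⟩
        invFun := fun x => ⟨⟨x.1, Subgroup.mem_centralizer_singleton_iff.mpr 
          (x.2 ▸ (Commute.self_pow x.1 n).eq :)⟩, Subtype.ext x.2⟩
        left_inv := fun _ => rfl
        right_inv := fun _ => rfl }
  have h3 : Nat.card {y : G // IsConj c y} = Z.index := CL.card_isConj_eq_index c
  have h4 : Nat.card {x : G // IsConj c (x ^ n)} =
      Nat.card {y : G // IsConj c y} * Nat.card {x : G // x ^ n = c} := by
    have := Fintype.ofFinite {y : G // IsConj c y}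
    rw [Nat.card_congr (Equiv.sigmaFiberEquiv (fun x : {x : G // IsConj c (x ^ n)} =>
      (⟨x.1 ^ n, x.2⟩ : {y : G // IsConj c y}))).symm, Nat.card_sigma,
      Finset.sum_congr rfl (g := fun _ => Nat.card {x : G // x ^ n = c}), Finset.sum_const,
      Finset.card_univ, smul_eq_mul, Nat.card_eq_fintype_card (α := {y : G // IsConj c y})]
    rintro ⟨y, hy⟩ -
    obtain ⟨g, rfl⟩ := isConj_iff.mp hy
    exact Nat.card_congr
      { toFun := fun x => ⟨g⁻¹ * x.1.1 * g⁻¹⁻¹, by
          rw [conj_pow, show x.1.1 ^ n = g * c * g⁻¹ from congrArg Subtype.val x.2]; group⟩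
        invFun := fun x => ⟨⟨g * x.1 * g⁻¹, by rw [conj_pow, x.2]; exact hy⟩,
          Subtype.ext (by show (g * x.1 * g⁻¹) ^ n = _; rw [conj_pow, x.2])⟩
        left_inv := fun x => Subtype.ext (Subtype.ext (by simp [mul_assoc]))
        right_inv := fun x => Subtype.ext (by simp [mul_assoc]) }
  rw [h4, h3, ← Z.index_mul_card, Nat.gcd_mul_left]
  exact Nat.mul_dvd_mul_left _ (h2 ▸ h1)

end Cfsg.Agent.S4212
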