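import Mathlib
import Cfsg.Statements.S4213
import Cfsg.Agent.FGS.FrobSol
import Cfsg.Agent.SOLV.MinNormal
import Cfsg.Agent.FGS.OrderType

set_option autoImplicit false
open Cfsg

namespace Cfsg.Agent.S4213

open Subgroup

universe u

theorem aux (m : ℕ) : ∀ (G : Type u) [Group G] [Finite G] [Group.IsSolvable G], Nat.card G = m →
    ∀ n : ℕ, n ∣ Nat.card G → Nat.card {x : G // x ^ n = 1} = n →
    ∃ H : Subgroup G, (H : Set G) = {x : G | x ^ n = 1} := by
  induction m using Nat.strong_induction_on with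
  | _ m ih =>
  intro G _ _ _ hm n hn hc
  rcases subsingleton_or_nontrivial G with h | h
  · exact ⟨⊤, by ext x; simp [Subsingleton.elim x 1]⟩
  have hn0 : n ≠ 0 := by
    rintro rfl
    exact Nat.card_pos.ne' (zero_dvd_iff.mp hn)
  obtain ⟨K, hK⟩ := CL.exists_isMinNormal G
  have := hK.normal
  obtain ⟨p, hp, hKp⟩ := hK.exists_pow_eq_one_of_isMulCommutative
    (hK.isMulCommutative_of_isSolvable inferInstance)
  have := Fact.mk hp
  obtain ⟨i, hi⟩ := IsPGroup.iff_card.mp (show IsPGroup p K from fun x =>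
    ⟨1, Subtype.ext (by rw [pow_one]; exact hKp x x.2)⟩)
  have hcard := card_eq_card_quotient_mul_card_subgroup K
  have hK1 : 1 < Nat.card K := (one_lt_card_iff_ne_bot _).mpr hK.ne_bot
  have hlt : Nat.card (G ⧸ K) < m := by
    have h5 : 0 < Nat.card (G ⧸ K) := Nat.card_pos
    nlinarith
  -- a subgroup of order `n` consists of all solutions
  have fin : ∀ H : Subgroup G, Nat.card H = n → (H : Set G) = {x : G | x ^ n = 1} := by
    intro H hH
    refine Set.eq_of_subset_of_ncard_le (fun x hx => ?_) (le_of_eq (hc.trans hH.symm))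
      (Set.toFinite _)
    exact orderOf_dvd_iff_pow_eq_one.mp (hH ▸ H.orderOf_dvd_natCard hx)
  by_cases hpn : p ∣ n
  · set u := n / Nat.gcd n (Nat.card K) with hu
    have hi0 : i ≠ 0 := by
      rintro rfl
      rw [pow_zero] at hi
      omega
    have hpg : p ∣ Nat.gcd n (Nat.card K) := Nat.dvd_gcd hpn (hi ▸ dvd_pow_self p hi0)
    have hun : u * Nat.gcd n (Nat.card K) = n := Nat.div_mul_cancel (Nat.gcd_dvd_left _ _)
    have hud : u ∣ Nat.card (G ⧸ K) := by
      have hg : 0 < Nat.gcd n (Nat.card K) := Nat.gcd_pos_of_pos_right _ Nat.card_pos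
      have h1 := Nat.coprime_div_gcd_div_gcd hg
      refine h1.dvd_of_dvd_mul_right ?_
      refine Nat.dvd_of_mul_dvd_mul_right hg ?_
      rw [hun, mul_assoc, Nat.div_mul_cancel (Nat.gcd_dvd_right _ _), ← hcard]
      exact hn
    have h1 := CL.FrobSol.dvd_card_pow_eq_one (G := G ⧸ K) dvd_rfl hud
    have h2 := CL.OrdType.card_subtype_quotient K fun x => x ^ u = 1
    have h3 : Nat.card {g : G // (g : G ⧸ K) ^ u = 1} ≤ n := by
      refine le_of_le_of_eq ?_ hc
      refine Nat.card_le_card_of_injective (fun g => ⟨g.1, ?_⟩)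
        (fun a b e => Subtype.ext (congrArg (fun z : {x : G // x ^ n = 1} => z.1) e))
      have h4 : g.1 ^ u ∈ K := by
        rw [← QuotientGroup.eq_one_iff, QuotientGroup.mk_pow]; exact g.2
      obtain ⟨t, ht⟩ := hpg
      rw [← hun, ht, ← mul_assoc, pow_mul, pow_mul, hKp _ h4, one_pow]
    have hpos : 0 < Nat.card {x : G ⧸ K // x ^ u = 1} :=
      @Nat.card_pos _ ⟨⟨1, one_pow _⟩⟩ inferInstance
    have h5 := Nat.le_of_dvd hpos h1
    have h6 : Nat.gcd n (Nat.card K) ≤ Nat.card K := Nat.gcd_le_right _ Nat.card_pos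
    have h7 : Nat.card {x : G ⧸ K // x ^ u = 1} = u := by
      refine le_antisymm ?_ h5
      refine Nat.le_of_mul_le_mul_left (c := Nat.card K) ?_ Nat.card_pos
      nlinarith
    obtain ⟨H, hH⟩ := ih _ hlt (G ⧸ K) rfl u hud h7
    refine ⟨H.comap (QuotientGroup.mk' K), fin _ ?_⟩
    have h8 : Nat.card (H.comap (QuotientGroup.mk' K)) = Nat.card {g : G // (g : G ⧸ K) ^ u = 1} :=
      Nat.card_congr (Equiv.subtypeEquivRight fun g => by
        rw [mem_comap, ← SetLike.mem_coe, hH]; rfl)
    rw [h8]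
    refine le_antisymm h3 ?_
    rw [h2, h7]
    nlinarith
  · have hcop : n.Coprime (Nat.card K) := by
      rw [hi]
      exact Nat.Coprime.pow_right _ ((Nat.Prime.coprime_iff_not_dvd hp).mpr hpn).symm
    have hud : n ∣ Nat.card (G ⧸ K) := hcop.dvd_of_dvd_mul_right (hcard ▸ hn)
    have h1 := CL.FrobSol.dvd_card_pow_eq_one (G := G ⧸ K) dvd_rfl hud
    have hpos : 0 < Nat.card {x : G ⧸ K // x ^ n = 1} :=
      @Nat.card_pos _ ⟨⟨1, one_pow _⟩⟩ inferInstance
    have h3 : Nat.card {x : G ⧸ K // x ^ n = 1} ≤ n := by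
      refine le_of_le_of_eq ?_ hc
      refine Nat.card_le_card_of_surjective (fun x => ⟨(x.1 : G ⧸ K), by
        rw [← QuotientGroup.mk_pow, x.2, QuotientGroup.mk_one]⟩) ?_
      rintro ⟨y, hy⟩
      obtain ⟨g, rfl⟩ := QuotientGroup.mk_surjective y
      obtain ⟨t, ht⟩ := exists_pow_eq_self_of_coprime (x := (g : G ⧸ K))
        (hcop.symm.coprime_dvd_right (orderOf_dvd_of_pow_eq_one hy))
      have h4 : g ^ n ∈ K := by
        rw [← QuotientGroup.eq_one_iff, QuotientGroup.mk_pow]; exact hy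
      have h5 : (g ^ n) ^ Nat.card K = 1 :=
        congrArg Subtype.val (pow_card_eq_one' (x := (⟨_, h4⟩ : K)))
      refine ⟨⟨(g ^ Nat.card K) ^ t, ?_⟩, Subtype.ext ht⟩
      rw [← pow_mul, ← pow_mul, show Nat.card K * (t * n) = n * Nat.card K * t by ring, pow_mul,
        pow_mul, h5, one_pow]
    have h7 : Nat.card {x : G ⧸ K // x ^ n = 1} = n := le_antisymm h3 (Nat.le_of_dvd hpos h1)
    obtain ⟨H, hH⟩ := ih _ hlt (G ⧸ K) rfl n hud h7
    have hHc : Nat.card H = n := by
      rw [← h7]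
      exact Nat.card_congr (Equiv.subtypeEquivRight fun g => by rw [← SetLike.mem_coe, hH]; rfl)
    let M := H.comap (QuotientGroup.mk' K)
    have hKM : K ≤ M := fun k hk => by
      rw [mem_comap, QuotientGroup.mk'_apply, (QuotientGroup.eq_one_iff k).mpr hk]
      exact one_mem _
    have hM : Nat.card M = Nat.card K * n := by
      rw [← hHc]
      exact CL.OrdType.card_subtype_quotient K fun x => x ∈ H
    have hKc : Nat.card (K.subgroupOf M) = Nat.card K :=
      Nat.card_congr (subgroupOfEquivOfLe hKM).toEquiv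
    have hidx : (K.subgroupOf M).index = n := by
      have := (K.subgroupOf M).card_mul_index
      rw [hKc, hM] at this
      exact Nat.eq_of_mul_eq_mul_left Nat.card_pos this
    obtain ⟨L, hL⟩ := exists_right_complement'_of_coprime (N := K.subgroupOf M)
      (by rw [hKc, hidx]; exact hcop.symm)
    refine ⟨L.map M.subtype, fin _ ?_⟩
    rw [card_map_of_injective M.subtype_injective, ← hL.symm.index_eq_card, hidx]

/-- If `G` is a finite solvable group and `n` divides the order of `G` and exactly `n` elements `x` of `G` satisfy `x^n = 1`, then these elements form a normal subgroup. -/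
theorem result {G : Type*} [Group G] [Finite G] [Group.IsSolvable G] (n : ℕ) (hn : n ∣ Nat.card G) (hcount : Nat.card {x : G // x ^ n = 1} = n) : ∃ H : Subgroup G, H.Normal ∧ (H : Set G) = {x : G | x ^ n = 1} := by
  obtain ⟨H, hH⟩ := aux _ G rfl n hn hcount
  refine ⟨H, ⟨fun x hx g => ?_⟩, hH⟩
  rw [← SetLike.mem_coe, hH] at hx ⊢
  show (g * x * g⁻¹) ^ n = 1
  rw [conj_pow, show x ^ n = 1 from hx]
  simp

end Cfsg.Agent.S4213
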