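import Cfsg.Statements.S4214
import Cfsg.Agent.FGS.SylowNum
import Cfsg.Agent.FGS.ConjCount
import Cfsg.Agent.SOLV.Hall

set_option autoImplicit false
open Cfsg

namespace Cfsg.Agent.S4214

open CL CL.SN CL.MSS

universe u

theorem relIndex_centralizer_list {G : Type*} [Group G] [Finite G] (K A : Subgroup G) :
    Group.IsSolvable A → A ≤ Subgroup.normalizer (K : Set G) →
    (Nat.card A).Coprime (Nat.card K) →
    ∃ l : List ℕ, l.prod = (Subgroup.centralizer (A : Set G)).relIndex K ∧
      ∀ f ∈ l, f ∣ Nat.card K ∧ ∃ q : ℕ, q.Prime ∧ q ∣ Nat.card A ∧ f ≡ 1 [MOD q] := by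
  induction A using subgroup_induction with
  | h A ih =>
    intro hA hn hcop
    rcases eq_or_ne A ⊥ with rfl | hne
    · refine ⟨[], ?_, by simp⟩
      symm
      rw [List.prod_nil, Subgroup.relIndex_eq_one]
      intro x _ y hy
      rw [SetLike.mem_coe, Subgroup.mem_bot] at hy
      simp [hy]
    · have := (Subgroup.nontrivial_iff_ne_bot A).2 hne
      obtain ⟨M, hMn, hM⟩ := exists_normal_index_prime A
      set q := M.index with hq
      have := Fact.mk hM
      set B := M.map A.subtype with hB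
      have hBA : B ≤ A := Subgroup.map_subtype_le M
      have hidx : B.relIndex A = q := by
        rw [Subgroup.relIndex, hB, Subgroup.subgroupOf,
          Subgroup.comap_map_eq_self_of_injective A.subtype_injective]
      have hlt : B < A := lt_of_le_of_ne hBA fun h => by
        rw [h, Subgroup.relIndex_self] at hidx
        exact hM.one_lt.ne hidx
      have hAB : A ≤ Subgroup.normalizer (B : Set G) := le_normalizer_map_subtype A M
      obtain ⟨l, hl, hl'⟩ := ih B hlt (isSolvable_of_le hBA hA) (hBA.trans hn)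
        (hcop.coprime_dvd_left (Subgroup.card_dvd_of_le hBA))
      obtain ⟨S, hS⟩ := exists_sylIn q A
      have hqA : q ∣ Nat.card A := Subgroup.index_dvd_card M
      have hsup : S ⊔ B = A := by
        refine le_antisymm (sup_le hS.le hBA) ?_
        rw [← Subgroup.relIndex_eq_one]
        have h1 : (S ⊔ B).relIndex A ∣ q :=
          hidx ▸ Subgroup.relIndex_dvd_of_le_left A le_sup_right
        refine ((Nat.dvd_prime hM).1 h1).resolve_right fun h => hS.not_dvd_relIndex ?_
        exact h ▸ Subgroup.relIndex_dvd_of_le_left A le_sup_left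
      set L := Subgroup.centralizer (B : Set G) ⊓ K with hL
      have hLK : Nat.card L ∣ Nat.card K := Subgroup.card_dvd_of_le inf_le_right
      have h2 := relIndex_centralizer_modEq_one (K := L) hS.pgroup
        (MSS.le_normalizer_inf (MSS.le_normalizer_centralizer (hS.le.trans hAB)) (hS.le.trans hn))
        (fun h => hM.one_lt.ne' (Nat.eq_one_of_dvd_coprimes hcop hqA (h.trans hLK)))
      refine ⟨(Subgroup.centralizer (S : Set G)).relIndex L :: l, ?_, ?_⟩
      · rw [List.prod_cons, hl, hL, Subgroup.relIndex_inf_mul_relIndex, ← SN.centralizer_sup, hsup]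
      · intro f hf
        rcases List.mem_cons.1 hf with rfl | hf
        · exact ⟨(Subgroup.relIndex_dvd_card _ _).trans hLK, q, hM, hqA, h2⟩
        · obtain ⟨h3, r, hr, hrB, h4⟩ := hl' f hf
          exact ⟨h3, r, hr, hrB.trans (Subgroup.card_dvd_of_le hBA), h4⟩

theorem card_hall_eq {G : Type*} [Group G] [Finite G] [Group.IsSolvable G] {π : Set ℕ}
    {H : Subgroup G} (hH : IsPiHall π H) :
    Nat.card {K : Subgroup G // IsPiHall π K} = (Subgroup.normalizer (H : Set G)).index :=
  card_eq_index_of_conj fun K =>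
    ⟨fun hK => IsPiHall.exists_conj_eq hH hK, fun ⟨g, hg⟩ => hg ▸ IsPiHall.conj_smul hH g⟩

theorem isPronormal_hall {G : Type*} [Group G] [Finite G] [Group.IsSolvable G] {π : Set ℕ}
    {H : Subgroup G} (hH : IsPiHall π H) : IsPronormal H := by
  intro g
  obtain ⟨x, hx, he⟩ := IsPiHallOf.exists_conj_eq (M := H ⊔ g •ᶜ H) inferInstance
    (IsPiHall.isPiHallOf hH le_sup_left)
    (IsPiHall.isPiHallOf (IsPiHall.conj_smul hH g) le_sup_right)
  exact ⟨x, hx, he.symm⟩

theorem aux (π : Set ℕ) (G : Type u) [Group G] [Finite G] : Group.IsSolvable G →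
    ∃ l : List ℕ, l.prod = Nat.card {K : Subgroup G // IsPiHall π K} ∧ ∀ f ∈ l,
      (∃ q e : ℕ, q.Prime ∧ f = q ^ e) ∧
      (∃ K L : Subgroup G, K.Normal ∧ L.Normal ∧ K < L ∧
        (∀ M : Subgroup G, M.Normal → K ≤ M → M ≤ L → M = K ∨ M = L) ∧ f ∣ K.relIndex L) ∧
      (∃ q : ℕ, q.Prime ∧ q ∈ π ∧ f ≡ 1 [MOD q]) := by
  refine card_induction (P := fun G _ _ => Group.IsSolvable G →
    ∃ l : List ℕ, l.prod = Nat.card {K : Subgroup G // IsPiHall π K} ∧ ∀ f ∈ l,
      (∃ q e : ℕ, q.Prime ∧ f = q ^ e) ∧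
      (∃ K L : Subgroup G, K.Normal ∧ L.Normal ∧ K < L ∧
        (∀ M : Subgroup G, M.Normal → K ≤ M → M ≤ L → M = K ∨ M = L) ∧ f ∣ K.relIndex L) ∧
      (∃ q : ℕ, q.Prime ∧ q ∈ π ∧ f ≡ 1 [MOD q])) ?_ G
  intro G _ _ ih hG
  obtain ⟨H, hH⟩ := exists_isPiHall π G
  rcases subsingleton_or_nontrivial G with h0 | h0
  · refine ⟨[], ?_, by simp⟩
    rw [card_hall_eq hH, Subsingleton.elim (Subgroup.normalizer _) ⊤, Subgroup.index_top]
    rfl
  obtain ⟨N, r, hN, hr, -, hNr⟩ := exists_isMinNormal_isElementaryAbelian G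
  have := hN.normal
  have := Fact.mk hr
  obtain ⟨l₁, hl₁, hl₁'⟩ := ih (G ⧸ N) (card_quotient_lt hN.ne_bot) inferInstance
  rw [card_hall_eq (IsPiHall.map hH (QuotientGroup.mk'_surjective N))] at hl₁
  have hlift : ∀ f ∈ l₁, (∃ q e : ℕ, q.Prime ∧ f = q ^ e) ∧
      (∃ K L : Subgroup G, K.Normal ∧ L.Normal ∧ K < L ∧
        (∀ M : Subgroup G, M.Normal → K ≤ M → M ≤ L → M = K ∨ M = L) ∧ f ∣ K.relIndex L) ∧
      (∃ q : ℕ, q.Prime ∧ q ∈ π ∧ f ≡ 1 [MOD q]) := by
    intro f hf
    obtain ⟨h1, ⟨K, L, hK, hL, hKL, hch, hd⟩, h3⟩ := hl₁' f hf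
    have hs := QuotientGroup.mk'_surjective N
    refine ⟨h1, ⟨K.comap (QuotientGroup.mk' N), L.comap (QuotientGroup.mk' N), inferInstance,
      inferInstance, (Subgroup.comap_lt_comap_of_surjective hs).2 hKL, fun M hM h4 h5 => ?_, ?_⟩,
      h3⟩
    · have h6 : N ≤ M := (le_comap_mk' N K).trans h4
      have h7 : (M.map (QuotientGroup.mk' N)).comap (QuotientGroup.mk' N) = M := by
        rw [comap_map_mk', sup_of_le_left h6]
      rcases hch (M.map (QuotientGroup.mk' N)) (hM.map _ hs)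
        (by rw [← map_comap_mk' N K]; exact Subgroup.map_mono h4)
        (Subgroup.map_le_iff_le_comap.2 h5) with h | h
      · left; rw [← h, h7]
      · right; rw [← h, h7]
    · rwa [Subgroup.relIndex_comap, map_comap_mk']
  rw [card_hall_eq hH, index_normalizer_of_isPronormal (isPronormal_hall hH) N, ← hl₁]
  by_cases hπ : r ∈ π
  · have hNH : N ≤ H := IsPiHallOf.le_of_le_normalizer (isPiHallOf_top.2 hH) le_top
      Subgroup.le_normalizer_of_normal (IsPiNum.of_isPGroup hNr hπ)
    rw [Subgroup.relIndex_eq_one.2 (hNH.trans Subgroup.le_normalizer), mul_one]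
    exact ⟨l₁, rfl, hlift⟩
  · have hcop : (Nat.card H).Coprime (Nat.card N) :=
      IsPiNum.coprime (π := π) hH.1 (IsPiNum.of_isPGroup hNr hπ)
    have hn : H ≤ Subgroup.normalizer (N : Set G) := Subgroup.le_normalizer_of_normal
    obtain ⟨l₂, hl₂, hl₂'⟩ := relIndex_centralizer_list N H inferInstance hn hcop
    refine ⟨l₁ ++ l₂, ?_, fun f hf => ?_⟩
    · rw [List.prod_append, hl₂, ← Subgroup.inf_relIndex_right (Subgroup.normalizer _),
        normalizer_inf_eq_centralizer_inf hn
          (disjoint_iff.1 (Subgroup.disjoint_of_coprime_natCard hcop)),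
        Subgroup.inf_relIndex_right]
    · rcases List.mem_append.1 hf with hf | hf
      · exact hlift f hf
      · obtain ⟨h1, q, hq, hqH, h2⟩ := hl₂' f hf
        obtain ⟨k, hk⟩ := IsPGroup.iff_card.1 hNr
        obtain ⟨e, -, he⟩ := (Nat.dvd_prime_pow hr).1 (hk ▸ h1)
        refine ⟨⟨r, e, hr, he⟩, ⟨⊥, N, inferInstance, inferInstance, bot_lt_iff_ne_bot.2 hN.ne_bot,
          fun M hM _ h => hN.eq_bot_or_eq M hM h, by rwa [Subgroup.relIndex_bot_left]⟩,
          q, hq, hH.1 q hq hqH, h2⟩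


/-- Let `G` be a finite solvable group of order `mn` with `gcd(m, n) = 1`. Then the number of subgroups of order `m` is a product of natural numbers each of which is a power of a prime, divides the order of some chief factor of `G` (a quotient `L/K` of normal subgroups `K < L` of `G` with no normal subgroup of `G` strictly between them), and is congruent to `1` modulo some prime divisor of `m`. -/
theorem result {G : Type*} [Group G] [Finite G] [Group.IsSolvable G] (m n : ℕ) (hG : Nat.card G = m * n) (hmn : Nat.Coprime m n) : ∃ (k : ℕ) (f : Fin k → ℕ), Nat.card {H : Subgroup G // Nat.card H = m} = ∏ i, f i ∧ ∀ i, (∃ q e : ℕ, q.Prime ∧ f i = q ^ e) ∧ (∃ K L : Subgroup G, K.Normal ∧ L.Normal ∧ K < L ∧ (∀ M : Subgroup G, M.Normal → K ≤ M → M ≤ L → M = K ∨ M = L) ∧ f i ∣ K.relIndex L) ∧ (∃ q : ℕ, q.Prime ∧ q ∣ m ∧ f i ≡ 1 [MOD q]) := by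
  obtain ⟨l, hl, hl'⟩ := aux {p | p ∣ m} G inferInstance
  refine ⟨l.length, l.get, ?_, fun i => hl' _ (List.get_mem l i)⟩
  rw [← List.prod_ofFn, List.ofFn_get, hl]
  exact Nat.card_congr (Equiv.subtypeEquivRight fun H =>
    (isPiHall_iff_card_eq hG (isPiNum_setOf_dvd m) (isPiNum_compl_setOf_dvd hmn)).symm)

end Cfsg.Agent.S4214
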