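import Cfsg.Statements.S4217
import Cfsg.Agent.SOLV.Gaschutz2

set_option autoImplicit false
open Cfsg

namespace Cfsg.Agent.S4217

/-- Let `A` be an abelian normal subgroup of the finite group `G`. Then `A` has a complement in `G` if and only if, for every prime `p` dividing the index of `A`, there are a Sylow `p`-subgroup `S` of `G/A` and a subgroup `K` of `G` with `K ∩ A = 1` and `KA` equal to the preimage of `S` (that is, `A` has a complement in the preimage of a Sylow `p`-subgroup of `G/A`). -/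
theorem result {G : Type*} [Group G] [Finite G] (A : Subgroup G) [A.Normal] (hA : IsMulCommutative A) : (∃ K : Subgroup G, K.IsComplement' A) ↔ ∀ p : ℕ, p.Prime → p ∣ A.index → ∃ (S : Sylow p (G ⧸ A)) (K : Subgroup G), K ⊓ A = ⊥ ∧ K ⊔ A = (S : Subgroup (G ⧸ A)).comap (QuotientGroup.mk' A) := by
  constructor
  · rintro ⟨K, hK⟩ p hp -
    obtain ⟨S⟩ : Nonempty (Sylow p (G ⧸ A)) := inferInstance
    refine ⟨S, K ⊓ (S : Subgroup (G ⧸ A)).comap (QuotientGroup.mk' A), ?_, ?_⟩
    · rw [inf_right_comm, hK.disjoint.eq_bot, bot_inf_eq]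
    · rw [sup_comm, ← CL.sup_inf_assoc_of_le_of_le_normalizer (CL.le_comap_mk' A _)
        (Or.inr Subgroup.le_normalizer_of_normal), hK.symm.sup_eq_top, top_inf_eq]
  · intro h
    obtain ⟨H, hH⟩ := CL.gaschutz_exists_of_forall_prime A (fun p hp hd => by
      obtain ⟨S, K, h1, h2⟩ := h p hp hd
      have : Fact p.Prime := ⟨hp⟩
      refine ⟨_, K, ?_, h1, (sup_comm _ _).trans h2⟩
      rw [CL.index_comap_mk']
      exact S.not_dvd_index)
    exact ⟨H, hH.symm⟩

end Cfsg.Agent.S4217
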