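import Cfsg.Statements.S4218
import Cfsg.Agent.SOLV.Frattini

set_option autoImplicit false
open Cfsg

namespace Cfsg.Agent.S4218

/-- Let `G` be a finite `p`-solvable group, `N₀ = O_{p'}(G)`, `P₁ = O_{p',p}(G)`, and let `F ≤ P₁` be the preimage of the Frattini subgroup of `P₁/N₀`. Then an element `g` of `G` induces the identity on `P₁/F` by conjugation (that is, `g x g⁻¹ x⁻¹ ∈ F` for all `x ∈ P₁`) if and only if `g ∈ P₁`: the group `G/P₁` acts faithfully on `P₁/F`. -/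
theorem result {G : Type*} [Group G] [Finite G] {p : ℕ} [Fact p.Prime] (hG : Cfsg.IsPSolvable p G) (g : G) : (∀ x ∈ Cfsg.pPrimePCore p G, g * x * g⁻¹ * x⁻¹ ∈ ((frattini (↥(Cfsg.pPrimePCore p G) ⧸ (Cfsg.pPrimeCore p G).subgroupOf (Cfsg.pPrimePCore p G))).comap (QuotientGroup.mk' ((Cfsg.pPrimeCore p G).subgroupOf (Cfsg.pPrimePCore p G)))).map (Cfsg.pPrimePCore p G).subtype) ↔ g ∈ Cfsg.pPrimePCore p G := by
  set N := Cfsg.pPrimeCore p G with hN
  set P := Cfsg.pPrimePCore p G with hP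
  have hm : P.map (QuotientGroup.mk' N) = Cfsg.pCore p (G ⧸ N) := CL.map_mk'_pPrimePCore
  let e : P ⧸ N.subgroupOf P ≃* Cfsg.pCore p (G ⧸ N) :=
    (CL.quotientSubgroupOfEquivMap P N).trans (MulEquiv.subgroupCongr hm)
  have hq : IsPGroup p (P ⧸ N.subgroupOf P) := (CL.isPGroup_pCore p (G ⧸ N)).of_equiv e.symm
  constructor
  · intro h
    have h1 : Subgroup.zpowers (g : G ⧸ N) ≤ Cfsg.pCore p (G ⧸ N) := by
      refine CL.le_pCore_of_commutator_le_frattini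
        (CL.IsPSolvable.centralizer_pCore_le (CL.IsPSolvable.quotient hG N) (CL.pPrimeCore_quotient_pPrimeCore p G)) ?_
      set F := (frattini (Cfsg.pCore p (G ⧸ N))).map (Cfsg.pCore p (G ⧸ N)).subtype
      rw [← CL.map_mk'_eq_bot_iff, Subgroup.map_commutator, Subgroup.commutator_comm,
        Subgroup.commutator_eq_bot_iff_le_centralizer, MonoidHom.map_zpowers, Subgroup.zpowers_le,
        Subgroup.mem_centralizer_iff]
      rintro _ ⟨y, hy, rfl⟩
      rw [← hm] at hy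
      obtain ⟨x, hx, rfl⟩ := hy
      obtain ⟨z, hz, hz'⟩ := h x hx
      have h2 : e (z : P ⧸ N.subgroupOf P) ∈ frattini (Cfsg.pCore p (G ⧸ N)) :=
        CL.map_frattini_le e.surjective (f := (e : _ →* _)) ⟨_, hz, rfl⟩
      have h3 : ((g * x * g⁻¹ * x⁻¹ : G) : G ⧸ N) ∈ F := ⟨_, h2, by rw [← hz']; rfl⟩
      symm
      rw [← commutatorElement_eq_one_iff_mul_comm, ← map_commutatorElement, QuotientGroup.mk'_apply,
        QuotientGroup.eq_one_iff]
      exact h3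
    have h2 : g ∈ (Cfsg.pCore p (G ⧸ N)).comap (QuotientGroup.mk' N) :=
      h1 (Subgroup.mem_zpowers _)
    exact h2
  · intro hg x hx
    refine ⟨⟨g, hg⟩ * ⟨x, hx⟩ * ⟨g, hg⟩⁻¹ * ⟨x, hx⟩⁻¹, ?_, rfl⟩
    exact CL.PG.commutatorElement_mem_frattini hq ((⟨g, hg⟩ : P) : P ⧸ N.subgroupOf P)
      ((⟨x, hx⟩ : P) : P ⧸ N.subgroupOf P)

end Cfsg.Agent.S4218
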