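import Cfsg.Statements.S4219
import Mathlib
import Cfsg.Agent.SOLV.ProductsHall

set_option autoImplicit false
open Cfsg

namespace Cfsg.Agent.S4219

open Subgroup CL Pointwise MulAction in

/-- Let a finite group `G` act `t`-fold transitively on a finite set, let `H` be the stabilizer of `t` distinct points and `P` a Sylow `p`-subgroup of `H`. Then the normalizer of `P` in `G` is `t`-fold transitive on the fixed points of `P`: any `t` distinct fixed points of `P` can be carried to any other `t` distinct fixed points of `P` by an element normalizing `P`. -/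
theorem result {G : Type*} [Group G] [Finite G] {α : Type*} [Fintype α] [MulAction G α] {t : ℕ} (hG : MulAction.IsMultiplyPretransitive G α t) (x : Fin t ↪ α) {p : ℕ} [Fact p.Prime] (P : Sylow p (MulAction.stabilizer G x)) (a b : Fin t ↪ α) (ha : ∀ i, a i ∈ MulAction.fixedPoints ((P : Subgroup (MulAction.stabilizer G x)).map (MulAction.stabilizer G x).subtype) α) (hb : ∀ i, b i ∈ MulAction.fixedPoints ((P : Subgroup (MulAction.stabilizer G x)).map (MulAction.stabilizer G x).subtype) α) : ∃ g ∈ Subgroup.normalizer ((((P : Subgroup (MulAction.stabilizer G x)).map (MulAction.stabilizer G x).subtype) : Subgroup G) : Set G), g • a = b := by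
  set P' := (P : Subgroup (stabilizer G x)).map (stabilizer G x).subtype with hP'
  have hP'p : IsPGroup p P' := P.isPGroup'.map _
  have hle : ∀ c : Fin t ↪ α, (∀ i, c i ∈ fixedPoints P' α) → P' ≤ stabilizer G c :=
    fun c hc g hg => DFunLike.ext _ _ fun i => hc i ⟨g, hg⟩
  obtain ⟨g, hg⟩ := hG.exists_smul_eq a b
  obtain ⟨k, hk⟩ := hG.exists_smul_eq x b
  have h1 : MulAut.conj g • P' ≤ stabilizer G b := by
    rw [← hg, stabilizer_smul_eq_stabilizer_map_conj]
    exact conj_smul_mono g (hle a ha)
  have h2 : ¬ p ∣ P'.relIndex (stabilizer G b) := fun h => P.not_dvd_index (by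
    have e1 := card_mul_relIndex_of_le (hle b hb)
    have e2 := (P : Subgroup (stabilizer G x)).card_mul_index
    have e3 : Nat.card (stabilizer G b) = Nat.card (stabilizer G x) := by
      rw [← hk, stabilizer_smul_eq_stabilizer_map_conj]
      exact card_conj_smul k _
    rw [hP', card_subtype, e3, ← e2, Nat.mul_right_inj Nat.card_pos.ne'] at e1
    exact e1 ▸ h)
  obtain ⟨m, hm⟩ := exists_conj_le_of_not_dvd_index
    ((hP'p.map (MulAut.conj g).toMonoidHom).comap_subtype (K := stabilizer G b))
    (H := P'.subgroupOf (stabilizer G b)) h2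
  have h3 := map_mono (f := (stabilizer G b).subtype) hm
  rw [map_conj_smul, map_subgroupOf_eq_of_le (hle b hb)] at h3
  erw [map_subgroupOf_eq_of_le h1] at h3
  refine ⟨m * g, conj_smul_eq_iff_mem_normalizer.1 (conj_smul_eq_of_le ?_), ?_⟩
  · rw [← conj_smul_conj_smul]
    exact h3
  · rw [mul_smul, hg]
    exact m.2

end Cfsg.Agent.S4219
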