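import Cfsg.Statements.S4227
import Cfsg.Agent.PLOC.QdFree
import Cfsg.Agent.CHAR.Burnside
import Cfsg.Agent.SOLV.PLength
import Cfsg.Agent.SOLV.Fitting
import Cfsg.Agent.PLOC.PConstrained

set_option autoImplicit false
open Cfsg

namespace Cfsg.Agent.S4227

theorem engel {G : Type*} [Group G] {a v : G} (h1 : v ^ 3 = 1) (h2 : (a * v) ^ 3 = 1)
    (h3 : (a * v⁻¹) ^ 3 = 1) : Commute a (v * a * v⁻¹) := by
  have e1 : v * v = v⁻¹ := by
    rw [eq_inv_iff_mul_eq_one, ← h1, pow_succ, pow_two]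
  have e2 : a * v * a = v⁻¹ * a⁻¹ * v⁻¹ := by
    calc a * v * a = (a * v) ^ 3 * v⁻¹ * a⁻¹ * v⁻¹ := by rw [pow_succ, pow_two]; group
      _ = _ := by rw [h2, one_mul]
  have e3 : a * v⁻¹ * a = v * a⁻¹ * v := by
    calc a * v⁻¹ * a = (a * v⁻¹) ^ 3 * v * a⁻¹ * v := by rw [pow_succ, pow_two]; group
      _ = _ := by rw [h3, one_mul]
  have e4 : v⁻¹ * v⁻¹ = v := by rw [← mul_inv_rev, e1, inv_inv]
  calc a * (v * a * v⁻¹) = (a * v * a) * v⁻¹ := by group
    _ = v⁻¹ * a⁻¹ * (v⁻¹ * v⁻¹) := by rw [e2]; group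
    _ = (v * v) * a⁻¹ * v := by rw [e4, e1]
    _ = v * (a * v⁻¹ * a) := by rw [e3]; group
    _ = _ := by group

theorem pow_eq_one {G : Type*} [Group G] {p q : ℕ} (hpq : p.Coprime q) {x : G} (h : x ^ (p * q) = 1)
    {k : ℕ} (hk : x ^ p ^ k = 1) : x ^ p = 1 :=
  orderOf_dvd_iff_pow_eq_one.1 (Nat.Coprime.dvd_of_dvd_mul_right
    (Nat.Coprime.coprime_dvd_left (orderOf_dvd_of_pow_eq_one hk) (hpq.pow_left k))
    (orderOf_dvd_of_pow_eq_one h))

theorem comm_two {G : Type*} [Group G] (h : ∀ x : G, x ^ 6 = 1) (T : Sylow 2 G) :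
    IsMulCommutative T :=
  ⟨⟨fun a b => Commute.of_orderOf_dvd_two (fun g => orderOf_dvd_of_pow_eq_one (by
    obtain ⟨k, hk⟩ := T.isPGroup' g
    exact pow_eq_one (q := 3) (by norm_num) (Subtype.ext (h g)) hk)) a b⟩⟩

theorem solv {G : Type*} [Group G] [Finite G] (h : ∀ x : G, x ^ 6 = 1) : Group.IsSolvable G := by
  refine CL.Char.isSolvable_of_primes_subset_pair Nat.prime_two Nat.prime_three fun r hr hd => ?_
  have := Fact.mk hr
  obtain ⟨x, hx⟩ := exists_prime_orderOf_dvd_card' r hd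
  have h1 : r ∣ 2 * 3 := hx ▸ orderOf_dvd_of_pow_eq_one (h x)
  exact ((Nat.Prime.dvd_mul hr).1 h1).imp (Nat.prime_dvd_prime_iff_eq hr Nat.prime_two).1
    (Nat.prime_dvd_prime_iff_eq hr Nat.prime_three).1

theorem three {G : Type*} [Group G] [Finite G] (h : ∀ x : G, x ^ 6 = 1)
    (h0 : Cfsg.pPrimeCore 3 G = ⊥) : Cfsg.PLengthLE 3 1 G := by
  have := Fact.mk Nat.prime_three
  have := solv h
  have hC := CL.centralizer_pCore_le_of_isSolvable h0
  obtain ⟨S⟩ : Nonempty (Sylow 3 G) := inferInstance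
  have h3 : ∀ x ∈ (S : Subgroup G), x ^ 3 = 1 := fun x hx => by
    obtain ⟨k, hk⟩ := S.isPGroup' ⟨x, hx⟩
    exact pow_eq_one (q := 2) (by norm_num) (h x) (congrArg Subtype.val hk)
  have hP : Cfsg.pCore 3 G ≤ S := CL.le_sylow_of_normal (CL.isPGroup_pCore 3 G) S
  have hst := CL.PSt.isPStableOn_of_not_involves (p := 3) (by norm_num)
    (CL.PSt.not_involves_qd_of_not_involves_sl2
      (CL.PSt.not_involves_sl2_of_abelian (by norm_num) (comm_two h default)))
    (Cfsg.pCore 3 G) (CL.isPGroup_pCore 3 G)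
  have hS : (S : Subgroup G) ≤ Cfsg.pCore 3 G := by
    intro a ha
    rw [← CL.comap_mk'_pCore (Subgroup.centralizer (Cfsg.pCore 3 G : Set G))
      (CL.isPGroup_of_le_pCore hC)]
    refine hst a ?_
    rw [Subgroup.commutator_eq_bot_iff_le_centralizer, Subgroup.commutator_le]
    rintro v hv _ ⟨i, rfl⟩ _ ⟨j, rfl⟩
    have hv' := hP hv
    have hc := engel (h3 v hv') (h3 _ (mul_mem ha hv')) (h3 _ (mul_mem ha (inv_mem hv')))
    rw [commutatorElement_def, ← conj_zpow]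
    exact (hc.zpow_zpow j i).mul_right (Commute.zpow_zpow_self a j i).inv_right
  rw [CL.pLengthLE_one_iff]
  exact ((Nat.Prime.coprime_iff_not_dvd Nat.prime_three).2 fun hd => S.not_dvd_index
    (hd.trans (Subgroup.index_dvd_of_le (hS.trans CL.PC.pCore_le_pPrimePCore)))).symm


/-- A finite group in which every element has order dividing `6` has `2`-length at most `1` and `3`-length at most `1`. -/
theorem result {G : Type*} [Group G] [Finite G] (h : ∀ x : G, x ^ 6 = 1) : Cfsg.PLengthLE 2 1 G ∧ Cfsg.PLengthLE 3 1 G := by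
  have := Fact.mk Nat.prime_three
  have := solv h
  refine ⟨?_, CL.pLengthLE_quotient_pPrimeCore_iff.1 (three (fun x => ?_)
    (CL.pPrimeCore_quotient_pPrimeCore 3 G))⟩
  · refine CL.IsPSolvable.pLengthLE_of_lowerCentralSeries (CL.isPSolvable_of_isSolvable 2 G) default ?_
    have := comm_two h default
    simpa [Subgroup.commutator_eq_bot_iff_le_centralizer] using
      ((default : Sylow 2 G) : Subgroup G).le_centralizer
  · obtain ⟨x, rfl⟩ := QuotientGroup.mk'_surjective _ x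
    rw [← map_pow, h, map_one]
end Cfsg.Agent.S4227
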