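import Cfsg.Statements.S4275
import Mathlib

set_option autoImplicit false
open Cfsg

namespace Cfsg.Agent.S4275

/-- Let G be a transitive group of permutations of a finite set Ω, let o ∈ Ω, and let α be an automorphism of G. Then α is induced by conjugation by a permutation of Ω normalizing G if and only if the image under α of the stabilizer of o fixes some point of Ω. -/
theorem result {Ω : Type*} [Fintype Ω] (G : Subgroup (Equiv.Perm Ω)) (htr : MulAction.IsPretransitive G Ω) (o : Ω) (α : G ≃* G) : (∃ σ : Equiv.Perm Ω, σ ∈ Subgroup.normalizer (G : Set (Equiv.Perm Ω)) ∧ ∀ g : G, ((α g : G) : Equiv.Perm Ω) = σ * (g : Equiv.Perm Ω) * σ⁻¹) ↔ ∃ ω : Ω, ∀ g ∈ (MulAction.stabilizer G o).map α.toMonoidHom, g • ω = ω := by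
  constructor
  · rintro ⟨σ, -, hσ⟩
    refine ⟨σ o, ?_⟩
    rintro _ ⟨g, hg, rfl⟩
    change ((α g : G) : Equiv.Perm Ω) (σ o) = σ o
    rw [hσ g]
    simpa using (show (g : Equiv.Perm Ω) o = o from hg)
  · rintro ⟨ω, hω⟩
    have h1 : (MulAction.stabilizer G o).map α.toMonoidHom = MulAction.stabilizer G ω := by
      refine Subgroup.eq_of_le_of_card_ge hω (le_of_eq ?_)
      rw [Subgroup.card_map_of_injective α.injective]
      have e1 := (MulAction.stabilizer G o).card_mul_index
      have e2 := (MulAction.stabilizer G ω).card_mul_index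
      rw [MulAction.index_stabilizer_of_transitive] at e1 e2
      have : Nonempty Ω := ⟨o⟩
      exact Nat.eq_of_mul_eq_mul_right Nat.card_pos (e2.trans e1.symm)
    have h2 : ∀ g h : G, g • o = h • o ↔ α g • ω = α h • ω := fun g h => by
      rw [← inv_smul_eq_iff, ← inv_smul_eq_iff (g := α h), ← mul_smul, ← mul_smul, ← map_inv,
        ← map_mul, ← MulAction.mem_stabilizer_iff, ← MulAction.mem_stabilizer_iff, ← h1]
      exact (Subgroup.mem_map_iff_mem (f := α.toMonoidHom) α.injective).symm
    choose s hs using htr.exists_smul_eq o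
    have hinj : Function.Injective fun y => α (s y) • ω := fun y z h => by
      rw [← hs y, ← hs z]; exact (h2 _ _).2 h
    let σ : Equiv.Perm Ω := Equiv.ofBijective _ (Finite.injective_iff_bijective.1 hinj)
    have h3 : ∀ g : G, ((α g : G) : Equiv.Perm Ω) = σ * (g : Equiv.Perm Ω) * σ⁻¹ := fun g => by
      rw [eq_mul_inv_iff_mul_eq]
      ext y
      change α g • α (s y) • ω = α (s (g • y)) • ω
      rw [← mul_smul, ← map_mul, ← h2, mul_smul, hs, hs]
    refine ⟨σ, Subgroup.mem_normalizer_fintype fun g hg => ?_, h3⟩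
    rw [← h3 ⟨g, hg⟩]
    exact (α _).2

end Cfsg.Agent.S4275
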