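import Cfsg.Statements.S4276
import Cfsg.Agent.FGS.OddAut2T

set_option autoImplicit false
open Cfsg

namespace Cfsg.Agent.S4276

/-- Let G be a doubly transitive group of permutations of a finite set Ω of size n, let o ∈ Ω, and let α be an automorphism of G of odd order. Suppose that the image under α of the stabilizer of o has an orbit on Ω whose length k is coprime to n. Then α is induced by conjugation by a permutation of Ω normalizing G, and k = 1 or k = n − 1. -/
theorem result {Ω : Type*} [Fintype Ω] (G : Subgroup (Equiv.Perm Ω)) (h2 : MulAction.IsMultiplyPretransitive G Ω 2) (o : Ω) (α : MulAut G) (hα : Odd (orderOf α)) (ω : Ω) (hk : (Nat.card (MulAction.orbit ((MulAction.stabilizer G o).map α.toMonoidHom) ω)).Coprime (Fintype.card Ω)) : (∃ σ : Equiv.Perm Ω, σ ∈ Subgroup.normalizer (G : Set (Equiv.Perm Ω)) ∧ ∀ g : G, ((α g : G) : Equiv.Perm Ω) = σ * (g : Equiv.Perm Ω) * σ⁻¹) ∧ (Nat.card (MulAction.orbit ((MulAction.stabilizer G o).map α.toMonoidHom) ω) = 1 ∨ Nat.card (MulAction.orbit ((MulAction.stabilizer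 G o).map α.toMonoidHom) ω) = Fintype.card Ω - 1) := by
  classical
  have := MulAction.isPretransitive_of_is_two_pretransitive (G := G) (α := Ω)
  have hO : ∀ s : G, s • o = o →
      ∀ y ∈ MulAction.orbit ((MulAction.stabilizer G o).map α.toMonoidHom) ω,
      α s • y ∈ MulAction.orbit ((MulAction.stabilizer G o).map α.toMonoidHom) ω := by
    rintro s hs _ ⟨k, rfl⟩
    exact ⟨⟨α s, Subgroup.mem_map_of_mem _ hs⟩ * k, mul_smul _ _ _⟩
  have h := CL.FGS.OddAut.ncard_eq h2 o α hα _ hO hk
  obtain ⟨w, hw⟩ := CL.FGS.OddAut.exists_fixed o α _ hO h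
  exact ⟨CL.FGS.OddAut.exists_perm G o α hw, h⟩
end Cfsg.Agent.S4276
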