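import Cfsg.Statements.S4277
import Cfsg.Agent.S4290
import Cfsg.Agent.FGS.PrimeCyc

set_option autoImplicit false
open Cfsg

namespace Cfsg.Agent.S4277

theorem solv_of {G : Type*} [Group G] [Finite G] (hZ : Subgroup.center G = ⊥) {p : ℕ}
    (hp : p.Prime) {x : G} (hx : orderOf x = p) (h2 : ¬ p ^ 2 ∣ Nat.card G)
    (h : ∀ α : MulAut G, Odd (orderOf α) → α x = x → α ∈ Subgroup.zpowers (MulAut.conj x)) :
    Group.IsSolvable (Cfsg.Out G) := by
  have := Fact.mk hp
  have hinj : Function.Injective (MulAut.conj : G →* MulAut G) := by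
    rw [injective_iff_map_eq_one]
    intro g hg
    rw [← Subgroup.mem_bot, ← hZ, Subgroup.mem_center_iff]
    intro y
    have := DFunLike.congr_fun hg y
    rw [MulAut.conj_apply, MulAut.one_apply, mul_inv_eq_iff_eq_mul] at this
    exact this.symm
  have hS := (CL.FGS.PCycle.sylIn_zpowers hx h2 (Subgroup.mem_top x)).map
    (MulAut.conj : G →* MulAut G)
  rw [MonoidHom.map_zpowers, ← MonoidHom.range_eq_map] at hS
  have hF := hS.frattini_sup le_top Subgroup.le_normalizer_of_normal
  rw [top_inf_eq] at hF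
  set Z := Subgroup.zpowers (MulAut.conj x) with hZ
  have h1 : Group.IsSolvable (MulAut Z) := by
    let _ := (IsCyclic.mulAutMulEquiv Z).toMonoidHom.commGroupOfInjective
      (IsCyclic.mulAutMulEquiv Z).injective
    infer_instance
  set C := Subgroup.centralizer (Z : Set (MulAut G)) with hC
  have hZC : Z ≤ C := Subgroup.le_centralizer Z
  have : (Z.subgroupOf C).Normal := (Subgroup.normal_subgroupOf_iff_le_normalizer hZC).2
    (Subgroup.centralizer_le_normalizer _)
  have h3 : IsPGroup 2 (C ⧸ Z.subgroupOf C) := by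
    intro c
    obtain ⟨c, rfl⟩ := QuotientGroup.mk'_surjective _ c
    obtain ⟨k, m, hm, hk⟩ := Nat.exists_eq_two_pow_mul_odd (orderOf_pos (c : MulAut G)).ne'
    refine ⟨k, ?_⟩
    rw [← map_pow, QuotientGroup.mk'_apply, QuotientGroup.eq_one_iff, Subgroup.mem_subgroupOf]
    refine h _ ?_ (hinj ?_)
    · refine Odd.of_dvd_nat hm (orderOf_dvd_of_pow_eq_one ?_)
      rw [Subgroup.coe_pow, ← pow_mul, ← hk, pow_orderOf_eq_one]
    · have := (c ^ 2 ^ k).2 _ (Subgroup.mem_zpowers (MulAut.conj x))
      rw [← mul_inv_eq_iff_eq_mul.2 this.symm]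
      ext y
      simp
  have h4 : Group.IsSolvable C := by
    have := h3.isNilpotent
    exact CL.isSolvable_of_normal_of_quotient (Z.subgroupOf C)
      (Group.isSolvable_of_comm fun a b => mul_comm' a b) inferInstance
  have h5 : Group.IsSolvable Z.normalizerMonoidHom.ker := by
    rw [Subgroup.normalizerMonoidHom_ker]
    exact Group.isSolvable_of_isSolvable_injective
      (f := (Subgroup.subgroupOfEquivOfLe (Subgroup.centralizer_le_normalizer _)).toMonoidHom)
      (MulEquiv.injective _)
  have h6 : Group.IsSolvable (Subgroup.normalizer (Z : Set (MulAut G))) :=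
    Group.isSolvable_of_ker_le_range Z.normalizerMonoidHom.ker.subtype Z.normalizerMonoidHom (by simp)
  refine Group.isSolvable_of_surjective
    (f := (QuotientGroup.mk' (Cfsg.Inn G)).comp (Subgroup.normalizer (Z : Set (MulAut G))).subtype) ?_
  intro y
  obtain ⟨y, rfl⟩ := QuotientGroup.mk'_surjective _ y
  obtain ⟨a, ha, b, hb, rfl⟩ := Subgroup.mem_sup_of_normal_left.1 (hF ▸ Subgroup.mem_top y)
  refine ⟨⟨b, hb⟩, ?_⟩
  rw [map_mul, (QuotientGroup.eq_one_iff (N := Cfsg.Inn G) a).2 ha |> fun h =>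
    (show QuotientGroup.mk' (Cfsg.Inn G) a = 1 from h), one_mul]
  rfl


/-- A case of the Schreier conjecture: if a finite simple group G has a subgroup of prime index, then the outer automorphism group of G is solvable. -/
theorem result {G : Type*} [Group G] [Finite G] [IsSimpleGroup G] (H : Subgroup G) (hH : H.index.Prime) : Group.IsSolvable (Cfsg.Out G) := by
  classical
  by_cases hc : IsMulCommutative G
  · have : IsCyclic G := by
      let _ : CommGroup G := { mul_comm := mul_comm' }
      exact IsSimpleGroup.isCyclic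
    let _ := (IsCyclic.mulAutMulEquiv G).toMonoidHom.commGroupOfInjective
      (IsCyclic.mulAutMulEquiv G).injective
    infer_instance
  have hns : ¬ Group.IsSolvable G := fun h =>
    hc ⟨⟨IsSimpleGroup.comm_iff_isSolvable.2 h⟩⟩
  have hZ : Subgroup.center G = ⊥ :=
    (IsSimpleGroup.eq_bot_or_eq_top_of_normal (Subgroup.center G) inferInstance).resolve_right
      fun e => hc ⟨⟨fun a b => Subgroup.mem_center_iff.1 (e ▸ Subgroup.mem_top b) a⟩⟩
  have : Fintype (G ⧸ H) := Fintype.ofFinite _
  have := Fact.mk hH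
  have hΩ : Fintype.card (G ⧸ H) = H.index := by rw [← Nat.card_eq_fintype_card]; rfl
  let f := MulAction.toPermHom G (G ⧸ H)
  have hf : Function.Injective f := by
    rw [← MonoidHom.ker_eq_bot_iff, ← Subgroup.normalCore_eq_ker]
    refine (IsSimpleGroup.eq_bot_or_eq_top_of_normal _ inferInstance).resolve_right fun e => ?_
    have : H = ⊤ := top_le_iff.1 (e ▸ H.normalCore_le)
    rw [this, Subgroup.index_top] at hH
    exact Nat.not_prime_one hH
  let e := MonoidHom.ofInjective hf
  have : MulAction.IsPretransitive f.range (G ⧸ H) := ⟨fun a b => by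
    obtain ⟨g, hg⟩ := MulAction.exists_smul_eq G a b
    exact ⟨e g, hg⟩⟩
  have h2t := CL.PermMod.burnside_prime_degree (G := f.range) hΩ fun h =>
    hns (Group.isSolvable_of_isSolvable_injective (f := e.toMonoidHom) e.injective)
  have h2 : ¬ H.index ^ 2 ∣ Nat.card G := by
    intro h
    have h3 := h.trans (Subgroup.card_dvd_of_injective f hf)
    rw [Nat.card_perm, Nat.card_eq_fintype_card, hΩ] at h3
    obtain ⟨q, hq⟩ : ∃ q, H.index = q + 1 := ⟨H.index - 1, by have := hH.pos; omega⟩
    rw [hq] at h3 hH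
    rw [Nat.factorial_succ, sq, Nat.mul_dvd_mul_iff_left (by omega), hH.dvd_factorial] at h3
    omega
  obtain ⟨x, hx⟩ := exists_prime_orderOf_dvd_card' H.index H.index_dvd_card
  refine solv_of hZ hH hx h2 fun α hα hαx => ?_
  obtain ⟨σ, -, hσ⟩ := Cfsg.Agent.S4290.result f.range h2t ((1 : G) : G ⧸ H) (by
    have h3 := (MulAction.stabilizer f.range ((1 : G) : G ⧸ H)).card_mul_index
    rw [MulAction.index_stabilizer_of_transitive, Nat.card_eq_fintype_card (α := G ⧸ H), hΩ] at h3 ⊢
    refine ((Nat.Prime.coprime_iff_not_dvd hH).2 fun h => h2 ?_).symm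
    rw [Nat.card_congr e.toEquiv, ← h3, sq]
    exact Nat.mul_dvd_mul_right h _) (MulAut.congr e α) (by rwa [MulEquiv.orderOf_eq])
  have hσ' : ∀ g : G, f (α g) = σ * f g * σ⁻¹ := fun g => by
    have := hσ (e g)
    simp only [MulAut.congr_apply, MulEquiv.trans_apply, MulEquiv.symm_apply_apply] at this
    exact this
  have hxc := Equiv.Perm.isCycle_of_prime_order'' (σ := f x) (hΩ ▸ hH)
    (by rw [orderOf_injective f hf, hx, hΩ])
  have hxs : ∀ z, f x z ≠ z := fun z => Equiv.Perm.mem_support.1 (by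
    rw [Finset.eq_univ_of_card (f x).support (by
      rw [← hxc.orderOf, orderOf_injective f hf, hx, hΩ])]; exact Finset.mem_univ z)
  have hcomm : Commute σ (f x) := by
    have := hσ' x
    rw [hαx, eq_mul_inv_iff_mul_eq] at this
    exact this.symm
  obtain ⟨i, hi⟩ := hxc.exists_zpow_eq (hxs ((1 : G) : G ⧸ H)) (hxs (σ ((1 : G) : G ⧸ H)))
  have h3 : (f x ^ i)⁻¹ * σ = 1 := CL.Perm.eq_one_of_commute_of_transitive (Subgroup.zpowers (f x))
    ⟨fun a b => by
      obtain ⟨j, hj⟩ := hxc.exists_zpow_eq (hxs a) (hxs b)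
      exact ⟨⟨_, j, rfl⟩, hj⟩⟩
    (by
      rintro _ ⟨j, rfl⟩
      exact ((Commute.zpow_zpow_self _ i j).inv_left).mul_left (hcomm.zpow_right j))
    (a := ((1 : G) : G ⧸ H)) (by
      rw [mul_smul, inv_smul_eq_iff]; exact hi.symm)
  refine ⟨i, ?_⟩
  ext g
  apply hf
  rw [hσ', ← inv_mul_eq_one.1 h3]
  simp [← map_zpow]
end Cfsg.Agent.S4277
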