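import Cfsg.Statements.S4281
import Cfsg.Agent.CHEV.SsInv2

set_option autoImplicit false
open scoped BigOperators
open Cfsg

namespace Cfsg.Agent.S4281

set_option backward.isDefEq.respectTransparency false

/-- In the Chevalley group of type E₈ over a finite field of odd order q there are exactly two conjugacy classes of involutions; the centralizer of an involution in one class has order q⁵⁶(q⁸ − 1)·∏_{i=1}^{7}(q^{2i} − 1), and in the other class q⁶⁴(q² − 1)²(q⁶ − 1)(q⁸ − 1)(q¹⁰ − 1)(q¹² − 1)(q¹⁴ − 1)(q¹⁸ − 1). -/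
theorem result {F : Type*} [Field F] [Fintype F] (hF : Odd (Fintype.card F)) : ∃ s t : ↥(Cfsg.Lie.chevE8.group F), orderOf s = 2 ∧ orderOf t = 2 ∧ ¬ IsConj s t ∧ (∀ u : ↥(Cfsg.Lie.chevE8.group F), orderOf u = 2 → IsConj u s ∨ IsConj u t) ∧ Nat.card (Subgroup.centralizer ({s} : Set ↥(Cfsg.Lie.chevE8.group F))) = Fintype.card F ^ 56 * (Fintype.card F ^ 8 - 1) * ∏ i ∈ Finset.Icc 1 7, (Fintype.card F ^ (2 * i) - 1) ∧ Nat.card (Subgroup.centralizer ({t} : Set ↥(Cfsg.Lie.chevE8.group F))) = Fintype.card F ^ 64 * (Fintype.card F ^ 2 - 1) ^ 2 * (Fintype.card F ^ 6 - 1) * (Fintype.card F ^ 8 - 1) * (Fintype.card F ^ 10 - 1) * (Fintype.card F ^ 12 - 1) * (Fintype.card F ^ 14 - 1) * (Fintype.card F ^ 18 - 1) := by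
  obtain ⟨φ, σ, ψ, A, h1, h2, -⟩ := CL.Chev.exists_alg (F := F) (D := Cfsg.Lie.chevE8) (by simp) CL.Chev.card_ker_E8
  have h3 := CL.Chev.two_ne_zero_of_odd hF
  obtain ⟨g, t, h4, h5⟩ := A.exists_involutions h1 h2 h3 CL.Chev.matHom_bijective_E8 (θ := (239 : Fin 240))
    (by decide +kernel)
  have h6 : ∀ k : Fin 8, (CL.Chev.rootSys Cfsg.Lie.chevE8).rt (239 : Fin 240) k = 2 → k = 0 ∨ k = 7 := by decide +kernel
  obtain ⟨a1, a2⟩ := CL.Chev.card_centralizer_E8a A (CL.Chev.orderOf_neg_one_units h3) (h4 (0 : Fin 8)).2.2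
  obtain ⟨b1, b2⟩ := CL.Chev.card_centralizer_E8b A (CL.Chev.orderOf_neg_one_units h3) (h4 (7 : Fin 8)).2.2
  refine ⟨g (0 : Fin 8), g (7 : Fin 8), (h4 _).2.1, (h4 _).2.1, fun e => ?_, fun u hu => ?_, ?_, ?_⟩
  · have := ψ.map_isConj e
    rw [(h4 _).1, (h4 _).1] at this
    exact absurd (a1.symm.trans ((A.ncard_eq_of_isConj this).trans b1)) (by decide)
  · obtain ⟨k, c1, c2⟩ := h5 u hu
    rcases h6 k c1 with rfl | rfl
    exacts [Or.inl c2, Or.inr c2]
  · rw [CL.Chev.card_centralizer_eq h1 h2, (h4 _).1, a2]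
    simp only [show Finset.Icc 1 7 = {1, 2, 3, 4, 5, 6, 7} from rfl]
    simp only [Finset.mem_insert, Finset.mem_singleton, Finset.prod_insert, Finset.prod_singleton, Nat.reduceEqDiff, or_self,
      not_false_eq_true, Nat.reduceMul]
    ring
  · rw [CL.Chev.card_centralizer_eq h1 h2, (h4 _).1, b2]
    ring

end Cfsg.Agent.S4281
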