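import Cfsg.Statements.S4282
import Cfsg.Agent.FGS.HHCrit

set_option autoImplicit false
open Cfsg

namespace Cfsg.Agent.S4282

open CL.HH Module Polynomial

/-- A critical case behind the Hall–Higman theorem. Let p ≠ q be primes and G a finite group generated by a normal q-subgroup Q and a cyclic p-subgroup generated by x, such that the centralizer of every non-identity element of that cyclic subgroup is its product with the centre of G. Let K be an algebraically closed field of characteristic p and ρ a faithful representation of G on a nonzero finite-dimensional K-space whose restriction to Q is irreducible. If s is the least exponent with (ρ(x) − 1)^s = 0, then |⟨x⟩| − 1 ≤ s ≤ |⟨x⟩|; and if s = |⟨x⟩| − 1 then |⟨x⟩| − 1 is a power of q and Q is non-abelian. -/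
theorem result {G : Type*} [Group G] [Finite G] (p q : ℕ) [Fact p.Prime] [Fact q.Prime] (hpq : p ≠ q) (Q : Subgroup G) [Q.Normal] (hQ : IsPGroup q Q) (x : G) (hx : IsPGroup p (Subgroup.zpowers x)) (hgen : Q ⊔ Subgroup.zpowers x = ⊤) (hC : ∀ y ∈ Subgroup.zpowers x, y ≠ 1 → Subgroup.centralizer ({y} : Set G) = Subgroup.zpowers x ⊔ Subgroup.center G) {K : Type*} [Field K] [IsAlgClosed K] [CharP K p] {V : Type*} [AddCommGroup V] [Module K V] [FiniteDimensional K V] [Nontrivial V] (ρ : Representation K G V) (hfaith : Function.Injective ρ) (hirr : ∀ W : Submodule K V, (∀ g ∈ Q, Submodule.map (ρ g) W ≤ W) → W = ⊥ ∨ W = ⊤) (s : ℕ) (hs : (ρ x - 1) ^ s = 0) (hmin : ∀ k < s, (ρ x - 1) ^ k ≠ 0) : Nat.card (Subgroup.zpowers x) - 1 ≤ s ∧ s ≤ Nat.card (Subgroup.zpowers x) ∧ (s = Nat.card (Subgroup.zpowers x) - 1 → (∃ b : ℕ, Nat.card (Subgroup.zpowers x) - 1 = q ^ b) ∧ ¬ IsMulCommutative Q) := by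
  have hp : p.Prime := Fact.out
  have hq : q.Prime := Fact.out
  obtain ⟨n, hn⟩ := hx.exists_card_eq
  obtain ⟨k, hk⟩ := hQ.exists_card_eq
  have hQK : (Nat.card Q : K) ≠ 0 := fun e =>
    hpq ((Nat.prime_dvd_prime_iff_eq hp hq).1 (hp.dvd_of_dvd_pow (hk ▸ (CharP.cast_eq_zero_iff K p _).1 e)))
  have ho : orderOf x = p ^ n := by rw [← Nat.card_zpowers, hn]
  have hle : s ≤ p ^ n := by
    by_contra! h
    obtain ⟨m, hm⟩ : ∃ m, p ^ n = m + 1 := Nat.exists_eq_succ_of_ne_zero (pow_ne_zero n hp.ne_zero)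
    refine hmin _ h ?_
    rw [hm, (geom_eq_pow (F := K) (ρ x) hm).2, ← hm, ← map_pow, ← ho, pow_orderOf_eq_one, map_one,
      sub_self]
  have hs0 : s ≠ 0 := by rintro rfl; simp at hs
  rw [hn]
  by_cases hlt : s = p ^ n
  · exact ⟨by omega, hle, fun e => by omega⟩
  obtain ⟨m, hm⟩ : ∃ m, p ^ n = m + 1 := Nat.exists_eq_succ_of_ne_zero (pow_ne_zero n hp.ne_zero)
  have hI : Irr ρ Q ⊤ := ⟨top_ne_bot, inv_top, fun W _ hW => hirr W fun g hg => by
    rintro _ ⟨v, hv, rfl⟩; exact hW g hg v hv⟩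
  let σ : Representation K Q V := ρ.comp Q.subtype
  have : σ.IsIrreducible := isIrreducible_of_forall σ fun W hW => hirr W fun g hg => by
    rintro _ ⟨v, hv, rfl⟩; exact hW ⟨g, hg⟩ v hv
  have hx1 : ∀ c : K, ρ x ≠ c • 1 := fun c hc => by
    have h1 : (c - 1) ^ s = 0 := by
      rw [hc, show c • (1 : End K V) - 1 = (c - 1) • 1 by rw [sub_smul, one_smul], _root_.smul_pow,
        one_pow, smul_eq_zero] at hs
      exact hs.resolve_right one_ne_zero
    rw [sub_eq_zero.1 (pow_eq_zero_iff hs0 |>.1 h1), one_smul, ← map_one ρ] at hc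
    rw [hfaith hc, orderOf_one] at ho
    omega
  have hd : finrank K V ≠ 1 := fun e => by
    obtain ⟨c, hc, -⟩ := LinearMap.existsUnique_eq_smul_id_of_finrank_eq_one e (ρ x)
    exact hx1 c hc
  have hmp : (minpoly K (ρ x)).natDegree ≤ s := by
    have := natDegree_le_of_dvd (minpoly.dvd K (ρ x) (p := (X - C 1) ^ s) (by simpa using hs))
      (pow_ne_zero _ (X_sub_C_ne_zero 1))
    rwa [natDegree_pow, natDegree_X_sub_C, mul_one] at this
  have hconj : ∀ (j : ℕ) (u : Q), (((MulAut.conjNormal x : MulAut Q) ^ j) u : G) =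
      x ^ j * u * (x ^ j)⁻¹ := fun j u => by rw [← map_pow]; rfl
  have h1 := mul_finrank_commutant_le_char σ hQK (MulAut.conjNormal x) (ρ.toHomUnits x)
    (fun u => by
      change ρ x * ρ u = ρ (x * u * x⁻¹) * ρ x
      rw [← map_mul, ← map_mul, inv_mul_cancel_right]) hm (by omega)
    (by rw [← map_pow, ← hm, ← ho, pow_orderOf_eq_one, map_one])
    (by rw [← map_pow, ← hm, ← ho, pow_orderOf_eq_one, map_one]) fun u hu j j0 j1 e => hu (by
      have e1 : (u : G) ∈ Subgroup.centralizer {x ^ j} :=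
        Subgroup.mem_centralizer_singleton_iff.2
          (mul_inv_eq_iff_eq_mul.1 ((hconj j u).symm.trans (congrArg Subtype.val e))).symm
      rw [hC _ (Subgroup.npow_mem_zpowers x j) (pow_ne_one_of_lt_orderOf j0.ne' (by omega))] at e1
      obtain ⟨y, hy, z, hz, e2⟩ := Subgroup.mem_sup_of_normal_right.1 e1
      have e3 : (y * z) ^ q ^ k = 1 := by
        rw [e2, ← hk]; exact congrArg Subtype.val (pow_card_eq_one' (x := u))
      have e4 : y ∈ Subgroup.center G := by
        obtain ⟨i, hi⟩ := exists_pow_eq_self_of_coprime (x := y) (n := q ^ k)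
          ((Nat.Coprime.pow k n ((Nat.coprime_primes hq hp).2 hpq.symm)).coprime_dvd_right
            (hn ▸ Subgroup.orderOf_dvd_natCard _ hy))
        rw [(show Commute y z from Subgroup.mem_center_iff.1 hz y).mul_pow, mul_eq_one_iff_eq_inv] at e3
        rw [← hi, e3]
        exact pow_mem (inv_mem (pow_mem hz _)) _
      refine mem_scalars_of_commute σ fun v => ?_
      rw [← map_mul, ← map_mul]
      exact congrArg σ (Subtype.ext (Subgroup.mem_center_iff.1 (e2 ▸ mul_mem e4 hz : (u : G) ∈ Subgroup.center G) v).symm))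
  obtain ⟨h2, h3⟩ := arith_aux (sq_finrank_le_minpoly (ρ x)) h1 (natDegree_minpoly_le_finrank _)
    (by omega) (by have : 0 < finrank K V := finrank_pos; omega)
  refine ⟨by omega, hle, fun _ => ⟨?_, fun hc => hd ?_⟩⟩
  · have := hQ.isNilpotent
    have h4 := Irr.finrank_dvd ρ Q inferInstance hQK _ hI
    rw [finrank_top, hk] at h4
    obtain ⟨b, -, hb⟩ := (Nat.dvd_prime_pow hq).1 h4
    exact ⟨b, by omega⟩
  · have h4 := sq_finrank_eq_index σ fun u v => by
      rw [commutatorElement_eq_one_iff_mul_comm.2 (hc.is_comm.comm u v)]; exact one_mem _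
    rw [Subgroup.index_eq_one.2 (eq_top_iff.2 fun u _ => mem_scalars_of_commute σ fun v => by
      rw [← map_mul, ← map_mul, hc.is_comm.comm u v])] at h4
    exact (Nat.pow_eq_one.1 h4).resolve_right two_ne_zero

end Cfsg.Agent.S4282
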