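import Mathlib
import Cfsg.Statements.S4283
import Cfsg.Agent.FGS.FrobCS

set_option autoImplicit false
open Cfsg

namespace Cfsg.Agent.S4283

open Subgroup CL.CS in
theorem main {G : Type*} [Group G] [Finite G] (K H : Subgroup G) (hZK : Subgroup.center G ≤ K) (hZH : Subgroup.center G ≤ H) (hK : IsMulCommutative K) (hH : IsMulCommutative H) (hFrob : Cfsg.IsFrobeniusComplement (H.map (QuotientGroup.mk' (Subgroup.center G)))) (hker : Cfsg.frobeniusKernel (H.map (QuotientGroup.mk' (Subgroup.center G))) = (K.map (QuotientGroup.mk' (Subgroup.center G)) : Set (G ⧸ Subgroup.center G))) : Set.range (fun x : G => (Subgroup.centralizer ({x} : Set G)).index) = ({1, K.index, H.index} : Set ℕ) ∧ K.index.Coprime H.index := by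
  have hmem : ∀ {A : Subgroup G}, center G ≤ A → ∀ {x : G},
      (x : G ⧸ center G) ∈ A.map (QuotientGroup.mk' (center G)) → x ∈ A := by
    intro A hA x h1
    have h2 : x ∈ (A.map (QuotientGroup.mk' (center G))).comap (QuotientGroup.mk' (center G)) := h1
    rwa [comap_map_eq, QuotientGroup.ker_mk', sup_of_le_left hA] at h2
  have hK1 : ∀ x ∈ K, x ∉ center G → centralizer {x} = K := by
    intro x hx hz
    exact cen_eq_of_map_le hZK hx (cen_le_kernel hFrob hker ⟨x, hx, rfl⟩
      (fun e => hz ((QuotientGroup.eq_one_iff x).1 e)))
  have hH1 : ∀ x ∈ H, x ∉ center G → centralizer {x} = H := by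
    intro x hx hz
    exact cen_eq_of_map_le hZH hx (CL.Frob.centralizer_le hFrob ⟨x, hx, rfl⟩
      (fun e => hz ((QuotientGroup.eq_one_iff x).1 e)))
  have hex : ∀ {A : Subgroup G}, A.map (QuotientGroup.mk' (center G)) ≠ ⊥ →
      ∃ x ∈ A, x ∉ center G := by
    intro A hA
    by_contra hne
    push Not at hne
    apply hA
    rw [Subgroup.map_eq_bot_iff, QuotientGroup.ker_mk']
    exact hne
  refine ⟨?_, ?_⟩
  · ext k
    simp only [Set.mem_range, Set.mem_insert_iff, Set.mem_singleton_iff]
    constructor
    · rintro ⟨x, rfl⟩
      by_cases hz : x ∈ center G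
      · exact Or.inl (index_cen_eq_one_iff.2 hz)
      by_cases hxK : x ∈ K
      · exact Or.inr (Or.inl (by rw [hK1 x hxK hz]))
      · obtain ⟨g, hg⟩ := exists_conj_mem_of_not_mem_kernel hker
          (x := (x : G ⧸ center G)) (fun h => hxK (hmem hZK h))
        obtain ⟨g, rfl⟩ := QuotientGroup.mk_surjective g
        have h1 : g⁻¹ * x * g ∈ H := hmem hZH hg
        have h2 : g⁻¹ * x * g ∉ center G := by
          intro h
          apply hz
          have := (inferInstance : (center G).Normal).conj_mem _ h g
          simpa [mul_assoc] using this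
        refine Or.inr (Or.inr ?_)
        rw [← hH1 _ h1 h2]
        have := index_cen_conj g⁻¹ x
        rw [inv_inv] at this
        exact this.symm
    · rintro (rfl | rfl | rfl)
      · exact ⟨1, index_cen_one⟩
      · obtain ⟨x, hx, hz⟩ := hex (kernel_spec hFrob hker).2.2.1
        exact ⟨x, by rw [hK1 x hx hz]⟩
      · obtain ⟨x, hx, hz⟩ := hex hFrob.1
        exact ⟨x, by rw [hH1 x hx hz]⟩
  · have := coprime_index_of_frobenius hFrob hker
    rwa [index_map_mk' hZK, index_map_mk' hZH] at this


/-- Let G be a finite group with centre Z and let K, H be abelian subgroups of G containing Z such that G/Z is a Frobenius group with complement H/Z and kernel K/Z. Then the conjugacy class sizes of G are exactly 1, [G : K] and [G : H], and these two indices are coprime. (This is the converse half of the characterization of finite groups whose conjugacy class sizes are exactly 1, m and n with m and n coprime.) -/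
theorem result {G : Type*} [Group G] [Finite G] (K H : Subgroup G) (hZK : Subgroup.center G ≤ K) (hZH : Subgroup.center G ≤ H) (hK : IsMulCommutative K) (hH : IsMulCommutative H) (hFrob : Cfsg.IsFrobeniusComplement (H.map (QuotientGroup.mk' (Subgroup.center G)))) (hker : Cfsg.frobeniusKernel (H.map (QuotientGroup.mk' (Subgroup.center G))) = (K.map (QuotientGroup.mk' (Subgroup.center G)) : Set (G ⧸ Subgroup.center G))) : Set.range (fun x : G => (Subgroup.centralizer ({x} : Set G)).index) = ({1, K.index, H.index} : Set ℕ) ∧ K.index.Coprime H.index := by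
  exact main K H hZK hZH hK hH hFrob hker

end Cfsg.Agent.S4283
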