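import Cfsg.Statements.S4295
import Cfsg.Agent.PERM.QuatSq

set_option autoImplicit false
open Cfsg

namespace Cfsg.Agent.S4295

/-- For a natural number m the following are equivalent: (a) some finite group has a Frobenius complement isomorphic to the quaternion group of order 8 whose Frobenius kernel (the identity together with the elements lying in no conjugate of the complement) has exactly m elements; (b) m is an odd perfect square greater than 1. -/
theorem result (m : ℕ) :
    (∃ (L : Type) (_ : Group L) (_ : Finite L) (H : Subgroup L), Cfsg.IsFrobeniusComplement H ∧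
        Nonempty (H ≃* QuaternionGroup 2) ∧ Nat.card (Cfsg.frobeniusKernel H) = m) ↔
    (Odd m ∧ IsSquare m ∧ 1 < m) := by
  constructor
  · rintro ⟨L, _, _, H, hF, ⟨e⟩, rfl⟩
    obtain ⟨a, b, z, hz, hz2, hab⟩ := CL.FC.quaternion_triple 0
    let f : QuaternionGroup (2 ^ (0 + 1)) →* H := e.symm.toMonoidHom
    have hf : Function.Injective f := e.symm.injective
    obtain ⟨h1, h2⟩ := CL.FC.odd_isSquare_kernel hF (a := f a) (b := f b) (z := f z)
      (fun h => hz (hf (h.trans (map_one f).symm))) (by rw [← map_mul, hz2, map_one])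
      (by rw [← map_mul, hab, map_mul, map_mul])
    refine ⟨h1, h2, ?_⟩
    obtain ⟨K, hK, -, hK1, -⟩ := CL.FC.exists_kernel hF
    rw [← hK]
    haveI := (Subgroup.nontrivial_iff_ne_bot _).mpr hK1
    exact Finite.one_lt_card (α := K)
  · rintro ⟨h1, ⟨n, rfl⟩, h3⟩
    obtain ⟨R, _, _, hR, ⟨a, b, hab⟩, h2⟩ := CL.FC.exists_ring_of_odd n (Nat.odd_mul.mp h1).1
    obtain ⟨φ, hφ⟩ := CL.FC.exists_q8_action hab h2
    have hc : Nat.card (Multiplicative (R × R)) = n * n := by
      rw [Nat.card_congr Multiplicative.toAdd, Nat.card_prod, hR]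
    haveI : Nontrivial (Multiplicative (R × R)) := Finite.one_lt_card_iff_nontrivial.mp (hc ▸ h3)
    rw [← hc]
    exact CL.FC.exists_frobenius_of_fpf φ hφ

end Cfsg.Agent.S4295
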