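import Cfsg.Statements.S4296
import Cfsg.Agent.PERM.QuatSq

set_option autoImplicit false
open Cfsg

namespace Cfsg.Agent.S4296

/-- Let H be a Frobenius complement in a finite group, and suppose some Sylow subgroup of H is not cyclic. Then the number of elements of the Frobenius kernel (the identity together with the elements lying in no conjugate of H) is an odd perfect square. -/
theorem result {L : Type*} [Group L] [Finite L] (H : Subgroup L) (hF : Cfsg.IsFrobeniusComplement H)
    (hZ : ∃ (p : ℕ) (_ : Fact p.Prime) (P : Sylow p H), ¬ IsCyclic P) :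
    Odd (Nat.card (Cfsg.frobeniusKernel H)) ∧ IsSquare (Nat.card (Cfsg.frobeniusKernel H)) := by
  obtain ⟨p, hp, P, hP⟩ := hZ
  obtain ⟨-, n, ⟨e⟩⟩ := ((CL.FC.isFPF_of_isFrobeniusComplement hF).isCyclic_or_quaternion
    P.isPGroup').resolve_left hP
  obtain ⟨a, b, z, hz, hz2, hab⟩ := CL.FC.quaternion_triple n
  let f : QuaternionGroup (2 ^ (n + 1)) →* H := (P : Subgroup H).subtype.comp e.symm.toMonoidHom
  have hf : Function.Injective f := Subtype.val_injective.comp e.symm.injective
  exact CL.FC.odd_isSquare_kernel hF (a := f a) (b := f b) (z := f z)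
    (fun h => hz (hf (h.trans (map_one f).symm))) (by rw [← map_mul, hz2, map_one])
    (by rw [← map_mul, hab, map_mul, map_mul])

end Cfsg.Agent.S4296
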