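import Cfsg.Statements.S4297
import Cfsg.Agent.PERM.FCEx

set_option autoImplicit false
open Cfsg

namespace Cfsg.Agent.S4297

/-- For every n ≥ 2 the dicyclic group of order 4n (generated by an element a of order 2n and an element x with x² = aⁿ and x a x⁻¹ = a⁻¹) occurs as a Frobenius complement of some finite Frobenius group. -/
theorem result (n : ℕ) (hn : 2 ≤ n) :
    ∃ (L : Type) (_ : Group L) (_ : Finite L) (H : Subgroup L), Cfsg.IsFrobeniusComplement H ∧ Nonempty (H ≃* QuaternionGroup n) := by
  haveI : NeZero n := ⟨by omega⟩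
  haveI : NeZero (2 * n) := ⟨by omega⟩
  let e := ZMod.stdAddChar (N := 2 * n)
  have hinj : Function.Injective e := ZMod.injective_stdAddChar
  have hn0 : (n : ZMod (2 * n)) ≠ 0 := by
    rw [Ne, ZMod.natCast_eq_zero_iff]
    intro h
    have := Nat.le_of_dvd (by omega) h
    omega
  have hnn : (n : ZMod (2 * n)) + n = 0 := by
    rw [← Nat.cast_add, ← two_mul, ZMod.natCast_self]
  have hen : e n = -1 := by
    have h1 : e n * e n = 1 := by rw [← AddChar.map_add_eq_mul, hnn, AddChar.map_zero_eq_one]
    rcases mul_self_eq_one_iff.mp h1 with h | h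
    · exact absurd (hinj (h.trans e.map_zero_eq_one.symm)) hn0
    · exact h
  have hneg : ∀ i, e i * e (-i) = 1 := fun i => by
    rw [← AddChar.map_add_eq_mul, add_neg_cancel, AddChar.map_zero_eq_one]
  have henn : e (-n) = -1 := by
    have := hneg n
    rw [hen] at this
    linear_combination -this
  let ρ : QuaternionGroup n →* Matrix (Fin 2) (Fin 2) ℂ := MonoidHom.mk
    ⟨fun g => match g with
      | .a i => !![e i, 0; 0, e (-i)]
      | .xa i => !![0, -e (-i); e i, 0], by
        change !![e 0, 0; 0, e (-0)] = 1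
        simp [Matrix.one_fin_two]⟩ (by
      rintro (i | i) (j | j)
      · simp [AddChar.map_add_eq_mul, mul_comm]
      · simp [sub_eq_add_neg, AddChar.map_add_eq_mul, mul_comm]
      · simp [AddChar.map_add_eq_mul, mul_comm]
      · simp [sub_eq_add_neg, AddChar.map_add_eq_mul, mul_comm, hen, henn])
  have h : CL.FC.IsFPF (QuaternionGroup n) := by
    refine ⟨2, ρ, by norm_num, ?_⟩
    rintro (i | i) hi
    · have hi0 : i ≠ 0 := fun h => hi (by rw [h]; rfl)
      have h1 : e i - 1 ≠ 0 := sub_ne_zero.mpr fun h => hi0 (hinj (h.trans e.map_zero_eq_one.symm))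
      have h2 : e (-i) - 1 ≠ 0 :=
        sub_ne_zero.mpr fun h => hi0 (neg_eq_zero.mp (hinj (h.trans e.map_zero_eq_one.symm)))
      rw [Matrix.isUnit_iff_isUnit_det, isUnit_iff_ne_zero, Matrix.det_fin_two]
      simpa [ρ] using ⟨h1, h2⟩
    · rw [Matrix.isUnit_iff_isUnit_det, isUnit_iff_ne_zero, Matrix.det_fin_two]
      have := hneg i
      simp [ρ]
      intro h
      have h2 : (2 : ℂ) = 0 := by linear_combination h - this
      exact two_ne_zero h2
  obtain ⟨L, _, _, H, hH, ⟨e⟩⟩ := h.isFC
  exact ⟨L, inferInstance, inferInstance, H, hH, ⟨e.symm⟩⟩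

end Cfsg.Agent.S4297
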