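import Cfsg.Statements.S4298
import Cfsg.Agent.PERM.FCEx

set_option autoImplicit false
open Cfsg

namespace Cfsg.Agent.S4298

/-- The group SL(2,3) of order 24 (the binary tetrahedral group) occurs as a Frobenius complement of some finite Frobenius group. -/
theorem result :
    ∃ (L : Type) (_ : Group L) (_ : Finite L) (H : Subgroup L), Cfsg.IsFrobeniusComplement H ∧ Nonempty (H ≃* Matrix.SpecialLinearGroup (Fin 2) (ZMod 3)) := by
  have h : CL.FC.IsFPF (Matrix.SpecialLinearGroup (Fin 2) (ZMod 3)) := by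
    refine CL.FC.isFPF_iff_hasT.mpr (CL.FC.hasT_int_of_exponent (N := 12) (by norm_num)
      (by decide +kernel) (fun a => if a = 1 then 2 else if a = -1 then -2 else
        if a.1 0 0 + a.1 1 1 = 0 then 0 else if a.1 0 0 + a.1 1 1 = 1 then 1 else -1)
      (fun h => by simpa using congrFun h 1) (by decide +kernel))
  haveI : Nontrivial (Matrix.SpecialLinearGroup (Fin 2) (ZMod 3)) := ⟨⟨1, -1, by decide⟩⟩
  obtain ⟨L, _, _, H, hH, ⟨e⟩⟩ := h.isFC
  exact ⟨L, inferInstance, inferInstance, H, hH, ⟨e.symm⟩⟩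

end Cfsg.Agent.S4298
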