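import Cfsg.Statements.S4300
import Mathlib

set_option autoImplicit false
open Cfsg

namespace Cfsg.Agent.S4300

/-- Let G act faithfully and primitively on a set X, and suppose the stabilizer of some point is a simple group. Then either G is simple, or G has a normal subgroup, neither trivial nor the whole group, that acts regularly on X (transitively with trivial point stabilizers). -/
theorem result {G : Type*} [Group G] {X : Type*} [MulAction G X] [FaithfulSMul G X]
    (hprim : MulAction.IsPreprimitive G X) (x : X) (hsimple : IsSimpleGroup (MulAction.stabilizer G x)) :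
    IsSimpleGroup G ∨ ∃ N : Subgroup G, N.Normal ∧ N ≠ ⊥ ∧ N ≠ ⊤ ∧
      MulAction.IsPretransitive N X ∧ ∀ y : X, MulAction.stabilizer N y = ⊥ := by
  rw [or_iff_not_imp_left]
  intro hG
  have : Nontrivial G := (MulAction.stabilizer G x).subtype_injective.nontrivial
  obtain ⟨N, hN, h1, h2⟩ : ∃ N : Subgroup G, N.Normal ∧ N ≠ ⊥ ∧ N ≠ ⊤ := by
    by_contra hc
    exact hG ⟨fun N hN => by
      by_contra h
      rw [not_or] at h
      exact hc ⟨N, hN, h⟩⟩
  have htr : MulAction.IsPretransitive N X := by
    refine MulAction.IsQuasiPreprimitive.isPretransitive_of_normal fun h => h1 ?_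
    refine eq_bot_iff.2 fun g hg => Subgroup.mem_bot.2 (eq_of_smul_eq_smul (α := X) fun y => ?_)
    rw [one_smul]
    exact h.ge (Set.mem_univ y) ⟨g, hg⟩
  have h3 : N ⊓ MulAction.stabilizer G x = ⊥ := by
    rcases hsimple.eq_bot_or_eq_top_of_normal (N.subgroupOf _) inferInstance with e | e
    · exact disjoint_iff.1 (Subgroup.subgroupOf_eq_bot.1 e)
    · refine absurd (eq_top_iff.2 fun g _ => ?_) h2
      obtain ⟨n, hn⟩ := htr.exists_smul_eq x (g • x)
      have : (n : G)⁻¹ * g ∈ MulAction.stabilizer G x := by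
        rw [MulAction.mem_stabilizer_iff, mul_smul, ← hn]
        exact inv_smul_smul (n : G) x
      exact (mul_mem_cancel_left (inv_mem n.2)).1 (Subgroup.subgroupOf_eq_top.1 e this)
  refine ⟨N, hN, h1, h2, htr, fun y => eq_bot_iff.2 fun n hn => ?_⟩
  obtain ⟨g, rfl⟩ := MulAction.exists_smul_eq G x y
  have h4 : g⁻¹ * n * g ∈ N ⊓ MulAction.stabilizer G x := by
    refine Subgroup.mem_inf.2 ⟨hN.conj_mem' _ n.2 g, ?_⟩
    rw [MulAction.mem_stabilizer_iff, mul_smul, mul_smul, inv_smul_eq_iff]
    exact hn
  rw [h3, Subgroup.mem_bot, mul_assoc, inv_mul_eq_one, eq_comm, mul_eq_right] at h4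
  exact Subgroup.mem_bot.2 (Subtype.ext h4)

end Cfsg.Agent.S4300
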