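import Cfsg.Statements.S4301

set_option autoImplicit false
open Cfsg

namespace Cfsg.Agent.S4301


theorem exists_emb {X : Type*} {k : ℕ} (hk : 2 ≤ k) (e : Fin k ↪ X) {x y : X} (hxy : x ≠ y) :
    ∃ a : Fin k ↪ X, a ⟨0, by omega⟩ = x ∧ a ⟨1, by omega⟩ = y := by
  classical
  refine ⟨(e.setValue ⟨0, by omega⟩ x).setValue ⟨1, by omega⟩ y, ?_, Function.Embedding.setValue_eq _ _ _⟩
  have h0 : (e.setValue ⟨0, by omega⟩ x) ⟨0, by omega⟩ = x := Function.Embedding.setValue_eq _ _ _
  rw [Function.Embedding.setValue_eq_of_ne (by simp) (by rw [h0]; exact hxy), h0]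

/-- One-point extension of a multiply transitive group. Let X be a set and G a group of permutations of Option X (the set X with one extra point ∗ = none) all of whose elements fix ∗, such that G is k-transitive on the points of X for some k ≥ 2, X having at least k points. Suppose a permutation h of Option X and an element g of G satisfy: h interchanges ∗ with a point x of X and fixes a point y of X; g interchanges x and y; (g h)³ and h² lie in G; and for every f in G fixing x, the product h f h lies in G and fixes x. Then an element of the group generated by G and h fixes ∗ exactly when it lies in G, and that group acts (k+1)-transitively on Option X. -/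
theorem result {X : Type*} (G : Subgroup (Equiv.Perm (Option X))) (hfix : ∀ f ∈ G, f none = none)
    (k : ℕ) (hk : 2 ≤ k) (hkX : Nonempty (Fin k ↪ X))
    (htrans : ∀ a b : Fin k ↪ X, ∃ f ∈ G, ∀ i, f (some (a i)) = some (b i))
    (h g : Equiv.Perm (Option X)) (hg : g ∈ G) (x y : X)
    (h1 : h none = some x) (h2 : h (some x) = none) (h3 : h (some y) = some y)
    (h4 : g (some x) = some y) (h5 : g (some y) = some x)
    (h6 : (g * h) ^ 3 ∈ G) (h7 : h ^ 2 ∈ G)
    (h8 : ∀ f ∈ G, f (some x) = some x → h * f * h ∈ G ∧ (h * f * h) (some x) = some x) :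
    (∀ f ∈ Subgroup.closure ((G : Set (Equiv.Perm (Option X))) ∪ {h}), f none = none ↔ f ∈ G) ∧
      MulAction.IsMultiplyPretransitive (Subgroup.closure ((G : Set (Equiv.Perm (Option X))) ∪ {h})) (Option X) (k + 1) := by
  classical
  obtain ⟨e⟩ := hkX
  have hxy : x ≠ y := by
    rintro rfl
    rw [h2] at h3; cases h3
  have two : ∀ a b c d : X, a ≠ b → c ≠ d → ∃ f ∈ G, f (some a) = some c ∧ f (some b) = some d := by
    intro a b c d hab hcd
    obtain ⟨u, hu0, hu1⟩ := exists_emb hk e hab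
    obtain ⟨v, hv0, hv1⟩ := exists_emb hk e hcd
    obtain ⟨f, hf, hf'⟩ := htrans u v
    refine ⟨f, hf, ?_, ?_⟩
    · have := hf' ⟨0, by omega⟩; rwa [hu0, hv0] at this
    · have := hf' ⟨1, by omega⟩; rwa [hu1, hv1] at this
  have hsome : ∀ f ∈ G, ∀ a : X, ∃ b : X, f (some a) = some b := by
    intro f hf a
    cases hfa : f (some a) with
    | none => exact absurd (f.injective (hfa.trans (hfix f hf).symm)) (by simp)
    | some b => exact ⟨b, rfl⟩
  have hgh : ∃ a ∈ G, ∃ b ∈ G, h * g * h = a * h * b := by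
    refine ⟨g⁻¹ * (g * h) ^ 3 * (h ^ 2)⁻¹, G.mul_mem (G.mul_mem (G.inv_mem hg) h6) (G.inv_mem h7), g⁻¹,
      G.inv_mem hg, ?_⟩
    simp only [pow_succ, pow_zero, one_mul]
    group
  have key : ∀ f ∈ G, h * f * h ∈ G ∨ ∃ a ∈ G, ∃ b ∈ G, h * f * h = a * h * b := by
    intro f hf
    by_cases hfx : f (some x) = some x
    · exact Or.inl (h8 f hf hfx).1
    right
    obtain ⟨z, hz⟩ := hsome f hf x
    have hzx : x ≠ z := by rintro rfl; exact hfx hz
    obtain ⟨f1, hf1, hf1x, hf1y⟩ := two x y x z hxy hzx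
    have hf2 : g⁻¹ * f1⁻¹ * f ∈ G := G.mul_mem (G.mul_mem (G.inv_mem hg) (G.inv_mem hf1)) hf
    have hf2x : (g⁻¹ * f1⁻¹ * f) (some x) = some x := by
      simp only [Equiv.Perm.mul_apply, hz]
      rw [Equiv.Perm.inv_eq_iff_eq, h4, Equiv.Perm.inv_eq_iff_eq, hf1y]
    obtain ⟨a, ha, b, hb, hab⟩ := hgh
    refine ⟨(h * f1 * h) * (h ^ 2)⁻¹ * a, G.mul_mem (G.mul_mem (h8 f1 hf1 hf1x).1 (G.inv_mem h7)) ha,
      b * (h ^ 2)⁻¹ * (h * (g⁻¹ * f1⁻¹ * f) * h),
      G.mul_mem (G.mul_mem hb (G.inv_mem h7)) (h8 _ hf2 hf2x).1, ?_⟩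
    have : h * f1 * h * (h ^ 2)⁻¹ * a * h * (b * (h ^ 2)⁻¹ * (h * (g⁻¹ * f1⁻¹ * f) * h))
        = h * f1 * h * (h ^ 2)⁻¹ * (a * h * b) * ((h ^ 2)⁻¹ * (h * (g⁻¹ * f1⁻¹ * f) * h)) := by group
    rw [this, ← hab]
    simp only [pow_succ, pow_zero, one_mul]
    group
  let K : Subgroup (Equiv.Perm (Option X)) :=
    { carrier := {f | f ∈ G ∨ ∃ a ∈ G, ∃ b ∈ G, f = a * h * b}
      one_mem' := Or.inl G.one_mem
      mul_mem' := by
        rintro u v (hu | ⟨a, ha, b, hb, rfl⟩) (hv | ⟨c, hc, d, hd, rfl⟩)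
        · exact Or.inl (G.mul_mem hu hv)
        · exact Or.inr ⟨u * c, G.mul_mem hu hc, d, hd, by group⟩
        · exact Or.inr ⟨a, ha, b * v, G.mul_mem hb hv, by group⟩
        · rcases key (b * c) (G.mul_mem hb hc) with h0 | ⟨s, hs, t, ht, h0⟩
          · left
            have : a * h * b * (c * h * d) = a * (h * (b * c) * h) * d := by group
            rw [this]; exact G.mul_mem (G.mul_mem ha h0) hd
          · right
            refine ⟨a * s, G.mul_mem ha hs, t * d, G.mul_mem ht hd, ?_⟩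
            have : a * h * b * (c * h * d) = a * (h * (b * c) * h) * d := by group
            rw [this, h0]; group
      inv_mem' := by
        rintro u (hu | ⟨a, ha, b, hb, rfl⟩)
        · exact Or.inl (G.inv_mem hu)
        · refine Or.inr ⟨b⁻¹, G.inv_mem hb, (h ^ 2)⁻¹ * a⁻¹, G.mul_mem (G.inv_mem h7) (G.inv_mem ha), ?_⟩
          simp only [pow_succ, pow_zero, one_mul]
          group }
  have hK : Subgroup.closure ((G : Set (Equiv.Perm (Option X))) ∪ {h}) ≤ K := by
    rw [Subgroup.closure_le]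
    rintro f (hf | hf)
    · exact Or.inl hf
    · rw [Set.mem_singleton_iff] at hf
      subst hf
      exact Or.inr ⟨1, G.one_mem, 1, G.one_mem, by group⟩
  set L := Subgroup.closure ((G : Set (Equiv.Perm (Option X))) ∪ {h}) with hL
  have hGL : ∀ f ∈ G, f ∈ L := fun f hf => Subgroup.subset_closure (Or.inl hf)
  have hhL : h ∈ L := Subgroup.subset_closure (Or.inr rfl)
  have hfirst : ∀ f ∈ L, f none = none ↔ f ∈ G := by
    intro f hf
    refine ⟨fun hn => ?_, hfix f⟩
    rcases hK hf with hf | ⟨a, ha, b, hb, rfl⟩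
    · exact hf
    · exfalso
      simp only [Equiv.Perm.mul_apply, hfix b hb, h1] at hn
      obtain ⟨c, hc⟩ := hsome a ha x
      rw [hc] at hn; cases hn
  refine ⟨hfirst, ?_⟩
  have tonone : ∀ o : Option X, ∃ u ∈ L, u o = none := by
    intro o
    cases o with
    | none => exact ⟨1, L.one_mem, rfl⟩
    | some z =>
      by_cases hzx : z = x
      · exact ⟨h, hhL, hzx ▸ h2⟩
      · obtain ⟨f, hf, hf1, -⟩ := two z x x y hzx hxy
        exact ⟨h * f, L.mul_mem hhL (hGL f hf), by rw [Equiv.Perm.mul_apply, hf1, h2]⟩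
  have emb : ∀ (a : Fin (k + 1) ↪ Option X) (u : Equiv.Perm (Option X)), u (a 0) = none →
      ∃ a' : Fin k ↪ X, ∀ i, u (a i.succ) = some (a' i) := by
    intro a u hu
    have : ∀ i : Fin k, ∃ z : X, u (a i.succ) = some z := by
      intro i
      cases hi : u (a i.succ) with
      | none => exact absurd (a.injective (u.injective (hi.trans hu.symm))) (Fin.succ_ne_zero i)
      | some z => exact ⟨z, rfl⟩
    choose z hz using this
    refine ⟨⟨z, fun i j hij => ?_⟩, hz⟩
    have : u (a i.succ) = u (a j.succ) := by rw [hz, hz, hij]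
    exact Fin.succ_injective _ (a.injective (u.injective this))
  rw [MulAction.isMultiplyPretransitive_iff]
  intro a b
  obtain ⟨u, huL, hu⟩ := tonone (a 0)
  obtain ⟨v, hvL, hv⟩ := tonone (b 0)
  obtain ⟨a', ha'⟩ := emb a u hu
  obtain ⟨b', hb'⟩ := emb b v hv
  obtain ⟨f, hf, hf'⟩ := htrans a' b'
  refine ⟨⟨v⁻¹ * f * u, L.mul_mem (L.mul_mem (L.inv_mem hvL) (hGL f hf)) huL⟩, ?_⟩
  ext1 i
  change (v⁻¹ * f * u) (a i) = b i
  simp only [Equiv.Perm.mul_apply]
  rw [Equiv.Perm.inv_eq_iff_eq]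
  refine Fin.cases ?_ (fun j => ?_) i
  · rw [hu, hv, hfix f hf]
  · rw [ha', hb', hf']

end Cfsg.Agent.S4301
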