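import Cfsg.Statements.S4302
import Cfsg.Agent.S0617
import Cfsg.Agent.S0250
import Cfsg.Agent.S0055
import Cfsg.Agent.PLOC.FF4
import Cfsg.Agent.PLOC.ThompsonA
import Cfsg.Agent.TECH.CharP
import Cfsg.Agent.PLOC.NPC

set_option autoImplicit false
open Cfsg

namespace Cfsg.Agent.S4302

open Subgroup CL CL.Th Pointwise

theorem sq_eq_one_of_max {G : Type*} [Group G] [Finite G] {V H : Subgroup G} (h : FFHyp 2 V H)
    (A : Subgroup G) : A ≤ H → IsMulCommutative A → IsPGroup 2 A →
      (∀ B : Subgroup G, B ≤ A → offMeas V B ≤ offMeas V A) → ∀ a ∈ A, a ^ 2 = 1 := by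
  have : Fact (Nat.Prime 2) := ⟨Nat.prime_two⟩
  induction A using subgroup_induction with
  | h A ih =>
  intro hAH hAc hA2 hmax
  by_cases hA0 : A = ⊥
  · intro a ha
    rw [hA0, mem_bot] at ha
    rw [ha, one_pow]
  have hAA : A ≤ centralizer (A : Set G) := le_centralizer A
  have hAV : A ≤ normalizer (V : Set G) := hAH.trans h.norm
  obtain ⟨h1, h2⟩ := replacement_of_max h.elem.1 hAV
    (by rw [commutator_eq_bot_iff_le_centralizer.2 hAA]; exact bot_le) hmax (U := V) le_rfl
  set A' := A ⊓ centralizer ((⁅V, A⁆ : Subgroup G) : Set G) with hA'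
  have hA'e : IsElementaryAbelian 2 A' := elemAb_of_quadratic h.elem h.norm h.faith
    (inf_le_left.trans hAH) (eq_bot_iff.2 ((commutator_mono (commutator_mono le_rfl inf_le_left)
      le_rfl).trans (commutator_eq_bot_iff_le_centralizer.2 (le_centralizer_iff.1 inf_le_right)).le))
  have hA'b : IsBestOffenderOn 2 V A' := isBestOffenderOn_iff.2 ⟨fun B hB =>
    (hmax B (hB.trans inf_le_left)).trans h2.ge, by
      rw [commutator_eq_bot_iff_le_centralizer.2 (elemAb_le_centralizer hA'e)]; exact bot_le,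
    fun a ha => by rw [hA'e.2 a ha]; exact one_mem _⟩
  have hA'0 : A' ≠ ⊥ := by
    intro hb
    refine hA0 (h.eq_bot_of_comm hAH ?_)
    rw [hb, centralizer_bot, inf_top_eq] at h1
    refine eq_bot_of_le_comm (elemAb_isPGroup h.elem) hAV (fun a ha => ?_) (comm_le hAV le_rfl) ?_
    · obtain ⟨k, hk⟩ := hA2 ⟨a, ha⟩
      exact ⟨k, by rw [show a ^ 2 ^ k = 1 from congrArg Subtype.val hk]; exact one_mem _⟩
    · calc ⁅V, A⁆ = ⁅⁅V, A⁆ ⊔ (V ⊓ centralizer (A : Set G)), A⁆ := by rw [← h1]
        _ = ⁅⁅V, A⁆, A⁆ := comm_sup_centralizer h.elem.1 hAV (comm_le hAV le_rfl)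
        _ ≤ _ := le_rfl
  obtain ⟨T, hTA, hT⟩ : ∃ T, T ≤ A' ∧ Transv 2 V H T := by
    by_contra hc
    push Not at hc
    refine hA'0 ((h.bestOff_eq_sSup (inf_le_left.trans hAH) hA'b).trans
      (sSup_eq_bot.2 fun T hT => absurd hT.2 (hc T hT.1)))
  have hTA' : T ≤ A := hTA.trans inf_le_left
  have hE := h.sl2On_ffE hT
  have hAT : A ≤ normalizer (T : Set G) :=
    (hAA.trans (centralizer_le hTA')).trans (centralizer_le_normalizer _)
  have hAE : A ≤ normalizer (ffE 2 H T : Set G) := CL.le_normalizer_sup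
    (CL.le_normalizer_commutator (hAH.trans (le_normalizer_ffD H)) hAT) hAT
  set U := ⁅V, ffE 2 H T⁆ with hU
  have hUV : U ≤ V := comm_le (hE.le.trans h.norm) le_rfl
  have hAU : A ≤ normalizer (U : Set G) := CL.le_normalizer_commutator hAV hAE
  have hTU : ¬ T ≤ centralizer (U : Set G) := fun hc =>
    hT.ne_bot (eq_bot_iff.2 ((le_inf le_sup_right hc).trans hE.faith.le))
  have hr : (centralizer (U : Set G)).relIndex A = 2 := by
    have a1 := relIndex_centralizer_dvd_of_card_sq (elemAb_mono h.elem hUV) hE.card_comm hAU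
    obtain ⟨n, hn⟩ := hA2.exists_card_eq
    obtain ⟨k, -, hk⟩ := (Nat.dvd_prime_pow Nat.prime_two).1
      (hn ▸ relIndex_dvd_card (centralizer (U : Set G)) A)
    have a2 : (centralizer (U : Set G)).relIndex A ≠ 1 := fun e =>
      hTU (hTA'.trans (relIndex_eq_one.1 e))
    rw [hk] at a1 a2 ⊢
    rcases k with _ | _ | k
    · exact absurd rfl a2
    · rfl
    · exact absurd ((pow_dvd_pow 2 (show 2 ≤ k + 1 + 1 by omega)).trans a1) (by norm_num)
  have hlt : A ⊓ centralizer (U : Set G) < A :=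
    lt_of_le_of_ne inf_le_left fun e => hTU (hTA'.trans (inf_eq_left.1 e))
  have hcard : Nat.card ↥(A ⊓ centralizer (U : Set G)) * 2 = Nat.card A := by
    rw [← hr, inf_comm, card_inf_mul_relIndex]
  have hm : offMeas V A ≤ offMeas V (A ⊓ centralizer (U : Set G)) := by
    set W := V ⊓ centralizer (A : Set G) with hW
    have a1 : U ⊔ W ≤ V ⊓ centralizer ((A ⊓ centralizer (U : Set G) : Subgroup G) : Set G) :=
      sup_le (le_inf hUV (le_centralizer_iff.1 inf_le_right))
        (inf_le_inf_left _ (centralizer_le (SetLike.coe_subset_coe.2 inf_le_left)))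
    have a2 := card_sup_mul_card_inf_of_le_normalizer (H := U) (K := W)
      (((hUV.trans (elemAb_le_centralizer h.elem)).trans
        (centralizer_le (SetLike.coe_subset_coe.2 inf_le_left))).trans (centralizer_le_normalizer _))
    have a3 : U ⊓ W < U := lt_of_le_of_ne inf_le_left fun e =>
      hTU (hTA'.trans (le_centralizer_iff.1 ((inf_eq_left.1 e).trans inf_le_right)))
    have a4 := mul_card_le_of_lt (elemAb_isPGroup (elemAb_mono h.elem hUV)) a3
    have a5 := card_le_of_le a1
    have a6 : Nat.card U = 4 := hE.card_comm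
    rw [offMeas_def, offMeas_def, ← hcard, mul_assoc]
    refine Nat.mul_le_mul_left _ (le_trans ?_ a5)
    rw [a6] at a2 a4
    have : Nat.card ↥(U ⊔ W) * Nat.card ↥(U ⊓ W) ≤ Nat.card ↥(U ⊔ W) * 2 :=
      Nat.mul_le_mul_left _ (by omega)
    rw [← hW]
    omega
  have hi := ih _ hlt (inf_le_left.trans hAH) (isMulCommutative_of_le hAc inf_le_left)
    (hA2.to_le inf_le_left) fun B hB => (hmax B (hB.trans inf_le_left)).trans hm
  intro a ha
  by_cases haU : a ∈ centralizer (U : Set G)
  · exact hi a ⟨ha, haU⟩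
  obtain ⟨t, ht, htU⟩ := SetLike.not_le_iff_exists.1 hTU
  have h3 : a * t ∈ centralizer (U : Set G) :=
    (mul_mem_iff_of_index_two (H := (centralizer (U : Set G)).subgroupOf A) hr
      (a := ⟨a, ha⟩) (b := ⟨t, hTA' ht⟩)).2 (iff_of_false haU htU)
  have h4 := hi _ ⟨mul_mem ha (hTA' ht), h3⟩
  rwa [(show Commute a t from hAA (hTA' ht) a ha).mul_pow, hT.elemAb.2 t ht, mul_one] at h4

theorem pCore_congr {X : Type*} [Group X] {A B : Subgroup X} [A.Normal] [B.Normal] (h : A = B)
    (hO : pCore 2 (X ⧸ A) = ⊥) : pCore 2 (X ⧸ B) = ⊥ := by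
  subst h; exact hO

theorem max_map {K Γ : Type*} [Group K] [Group Γ] [Finite K] {V : Subgroup K} [V.Normal]
    (M : FModel V Γ) {A : Subgroup K} (hA : ∀ B : Subgroup K, B ≤ A → offMeas V B ≤ offMeas V A)
    (B : Subgroup Γ) (hB : B ≤ A.map M.σ) :
    offMeas M.ι.range B ≤ offMeas M.ι.range (A.map M.σ) := by
  have h1 : (A ⊓ B.comap M.σ).map M.σ = B := by
    refine le_antisymm (map_le_iff_le_comap.2 inf_le_right) fun y hy => ?_
    obtain ⟨a, ha, rfl⟩ := hB hy
    exact ⟨a, ⟨ha, hy⟩, rfl⟩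
  have h2 : (A ⊓ B.comap M.σ) ⊓ centralizer (V : Set K) = A ⊓ centralizer (V : Set K) := by
    rw [inf_assoc, ← M.ker, inf_eq_right.2 (ker_le_comap _ _)]
  have h3 := M.offMeas_mul (A ⊓ B.comap M.σ)
  rw [h1, h2] at h3
  refine Nat.le_of_mul_le_mul_right ?_
    (Nat.card_pos (α := (A ⊓ centralizer (V : Set K) : Subgroup K)))
  rw [h3, M.offMeas_mul]
  exact hA _ inf_le_left

theorem max_of_mem {G : Type*} [Group G] [Finite G] {P V A : Subgroup G} (hV : IsMulCommutative V)
    (hVP : V ≤ P) (hA : A ∈ ThA.maxAbIn P) (B : Subgroup G) (hB : B ≤ A) :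
    offMeas V B ≤ offMeas V A := by
  set W := V ⊓ centralizer (B : Set G) with hW
  have hBW : B ≤ centralizer (W : Set G) := le_centralizer_iff.1 inf_le_right
  have h1 := hA.2.2 (B ⊔ W) (sup_le (hB.trans hA.1) (inf_le_left.trans hVP))
    (ThA.comm_sup (isMulCommutative_of_le hA.2.1 hB) (isMulCommutative_of_le hV inf_le_left) hBW)
  have h2 := card_sup_mul_card_inf_of_le_normalizer (hBW.trans (centralizer_le_normalizer _))
  have := hA.2.1
  have h3 : B ⊓ W ≤ V ⊓ centralizer (A : Set G) :=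
    le_inf (inf_le_right.trans inf_le_left) ((inf_le_left.trans hB).trans (le_centralizer A))
  rw [offMeas_def, offMeas_def, ← hW, ← h2]
  exact Nat.mul_le_mul h1 (card_le_of_le h3)

theorem pi_equiv {G ι L : Type*} [Group G] [Group L] [Finite ι] (E : ι → Subgroup G) {H : Subgroup G}
    (hn : ∀ i, H ≤ normalizer (E i : Set G)) (he : ∀ i, Nonempty (E i ≃* L)) (hi : iSupIndep E)
    (hs : ⨆ i, E i = H) (h1 : H ≠ ⊥) : ∃ n : ℕ, 1 ≤ n ∧ Nonempty (H ≃* (Fin n → L)) := by
  classical
  have := Fintype.ofFinite ι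
  have hle : ∀ i, E i ≤ H := fun i => hs ▸ le_iSup E i
  have hcomm : Pairwise fun i j : ι => ∀ x y : G, x ∈ E i → y ∈ E j → Commute x y := by
    intro i j hij x y hx hy
    refine commutatorElement_eq_one_iff_commute.1 (disjoint_def.1 (hi.pairwiseDisjoint hij) ?_ ?_)
    · exact comm_mem hx (hn i (hle j hy))
    · rw [← commutatorElement_inv]
      exact inv_mem (comm_mem hy (hn j (hle i hx)))
  refine ⟨Fintype.card ι, Fintype.card_pos_iff.2 ?_, ⟨?_⟩⟩
  · by_contra h
    rw [not_nonempty_iff] at h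
    exact h1 (hs ▸ iSup_of_empty _)
  · exact (((MonoidHom.ofInjective (injective_noncommPiCoprod_of_iSupIndep (hcomm := hcomm) hi)).trans
      (MulEquiv.subgroupCongr ((noncommPiCoprod_range (hcomm := hcomm)).trans hs))).symm.trans
      (MulEquiv.piCongrRight fun i => (he i).some)).trans
      (MulEquiv.arrowCongr (Fintype.equivFin ι) (MulEquiv.refl L))

/-- Let `X` be a finite solvable group whose Fitting subgroup is a 2-group (equivalently `F(X) = O₂(X)`), `T` a Sylow 2-subgroup of `X`, `J(T)` the subgroup generated by the abelian subgroups of `T` of largest order, `C` the largest normal subgroup of `X` centralizing the centre `Z(T)`, and `Y` the normal closure of `J(T)` in `X`. Then `X = C · Y · N_X(J(T))`, and either `Y ≤ C`, or `CY/C` is isomorphic to a direct product of at least one copy of the symmetric group of degree 3. -/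
theorem result {X : Type*} [Group X] [Finite X]
    [Group.IsSolvable X] (hF : Cfsg.fittingSubgroup X = Cfsg.pCore 2 X) (T : Sylow 2 X) :
    ((Subgroup.centralizer (((T : Subgroup X) ⊓ Subgroup.centralizer ((T : Subgroup X) : Set X) : Subgroup X) : Set X)).normalCore
        ⊔ Subgroup.normalClosure (Cfsg.thompsonSubgroupAOf (T : Subgroup X) : Set X)
        ⊔ Subgroup.normalizer (Cfsg.thompsonSubgroupAOf (T : Subgroup X) : Set X) = ⊤) ∧
    (Subgroup.normalClosure (Cfsg.thompsonSubgroupAOf (T : Subgroup X) : Set X)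
        ≤ (Subgroup.centralizer (((T : Subgroup X) ⊓ Subgroup.centralizer ((T : Subgroup X) : Set X) : Subgroup X) : Set X)).normalCore
      ∨ ∃ n : ℕ, 1 ≤ n ∧
        Nonempty (↥(Subgroup.normalClosure (Cfsg.thompsonSubgroupAOf (T : Subgroup X) : Set X)) ⧸
            ((Subgroup.centralizer (((T : Subgroup X) ⊓ Subgroup.centralizer ((T : Subgroup X) : Set X) : Subgroup X) : Set X)).normalCore).subgroupOf
              (Subgroup.normalClosure (Cfsg.thompsonSubgroupAOf (T : Subgroup X) : Set X))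
          ≃* (Fin n → Equiv.Perm (Fin 3)))) := by
  have f2 : Fact (Nat.Prime 2) := ⟨Nat.prime_two⟩
  set Z : Subgroup X := (T : Subgroup X) ⊓ centralizer ((T : Subgroup X) : Set X) with hZ
  set J := thompsonSubgroupAOf (T : Subgroup X) with hJ
  set Y := normalClosure (J : Set X) with hY
  have hJY : J ≤ Y := le_normalClosure
  constructor
  · have h1 := (MSS.sylIn_inf_normal T Y).frattini_sup le_top le_normalizer_of_normal
    have h2 : thompsonSubgroupAOf ((T : Subgroup X) ⊓ Y) = J :=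
      ThA.thompsonSubgroupAOf_eq_of_le (le_inf (ThA.thompsonSubgroupAOf_le _) hJY) inf_le_left
    have h3 := ThA.normalizer_le_normalizer_thompsonSubgroupAOf ((T : Subgroup X) ⊓ Y)
    rw [h2] at h3
    rw [eq_top_iff, ← h1]
    exact sup_le (le_sup_right.trans le_sup_left) ((inf_le_right.trans h3).trans le_sup_right)
  set V₀ := normalClosure (Z : Set X) with hV₀
  have hC : (centralizer (Z : Set X)).normalCore = centralizer (V₀ : Set X) := by
    refine le_antisymm (le_centralizer_iff.1 (normalClosure_le_normal ?_))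
      (normal_le_normalCore.2 (centralizer_le subset_normalClosure))
    exact le_centralizer_iff.1 (normalCore_le _)
  have hOc : centralizer (pCore 2 X : Set X) ≤ pCore 2 X := hF ▸ centralizer_fittingSubgroup_le X
  have hOT : pCore 2 X ≤ T := pCore_le_sylow T
  have hV₀O : V₀ ≤ pCore 2 X ⊓ centralizer (pCore 2 X : Set X) := by
    refine normalClosure_le_normal ?_
    have : Z ≤ centralizer (pCore 2 X : Set X) := inf_le_right.trans (centralizer_le hOT)
    exact le_inf (this.trans hOc) this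
  have hV₀T : V₀ ≤ T := (hV₀O.trans inf_le_left).trans hOT
  have hV₀c : IsMulCommutative V₀ := ⟨⟨fun a b => Subtype.ext ((hV₀O b.2).2 a (hV₀O a.2).1)⟩⟩
  have hV₀2 : IsPGroup 2 V₀ := T.isPGroup'.to_le hV₀T
  have hO₀ : pCore 2 (X ⧸ centralizer (V₀ : Set X)) = ⊥ := by
    refine pCore_quotient_centralizer_eq_bot V₀ ((closure_le _).2 fun x hx => ?_)
    obtain ⟨z, hz, hc⟩ := Group.mem_conjugatesOfSet_iff.1 hx
    obtain ⟨g, rfl⟩ := isConj_iff.1 hc
    refine mem_iSup_of_mem (g • T) ⟨conjugatesOfSet_subset_normalClosure hx, ?_⟩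
    change _ ∈ centralizer ((MulAut.conj g • (T : Subgroup X) : Subgroup X) : Set X)
    rw [centralizer_conj_smul]
    exact conj_mem_conj_smul hz.2
  set W := omegaOne 2 V₀ with hW
  have hWn : W.Normal := omegaOne_normal V₀
  have hWe : IsElementaryAbelian 2 W := elemAb_omegaOne hV₀c
  have hWV : W ≤ V₀ := omegaOne_le V₀
  have hCW : centralizer (W : Set X) = centralizer (V₀ : Set X) := by
    refine eq_of_pCore_quotient_eq_bot hO₀ inferInstance (centralizer_le hWV) ?_
    rw [← card_map_mk'_eq_relIndex]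
    refine IsPGroup.exists_card_eq (MSS.isPGroup_of_forall_coprime ?_)
    rintro _ ⟨g, hg, rfl⟩ hc
    obtain ⟨a, b, -, hb, ⟨k, hk⟩, hbo, rfl⟩ := exists_p_part_mul_p'_part (p := 2) g
    have hbW : zpowers b ≤ centralizer (W : Set X) := zpowers_le.2 (zpowers_le.2 hg hb)
    have hbV : b ∈ centralizer (V₀ : Set X) := by
      obtain ⟨n, hn⟩ := hV₀2.exists_card_eq
      obtain ⟨h1, -⟩ := S0055.result (zpowers b) V₀ le_normalizer_of_normal (by
        rw [Nat.card_zpowers, hn]; exact hbo.pow_right n)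
      have hle : ⁅V₀, zpowers b⁆ ≤ V₀ := commutator_le_left _ _
      have h2 : ⁅V₀, zpowers b⁆ = ⊥ := by
        by_contra h
        refine omegaOne_ne_bot_of_isPGroup (hV₀2.to_le hle) h (eq_bot_iff.2 (h1 ▸ ?_))
        exact le_inf (le_inf ((omegaOne_le _).trans hle)
          ((omegaOne_mono hle).trans (le_centralizer_iff.1 hbW))) (omegaOne_le _)
      exact le_centralizer_iff.1 (commutator_eq_bot_iff_le_centralizer.1 h2) (mem_zpowers b)
    have h3 : QuotientGroup.mk' (centralizer (V₀ : Set X)) b = 1 := (QuotientGroup.eq_one_iff _).2 hbV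
    rw [map_mul, h3, mul_one] at hc ⊢
    exact orderOf_eq_one_iff.1 ((hc.pow_right k).eq_one_of_dvd
      (orderOf_dvd_of_pow_eq_one (by rw [← map_pow, hk, map_one])))
  have hO := pCore_congr hCW.symm hO₀
  have : Finite (MulAut W) := Finite.of_injective _ (DFunLike.coe_injective (F := W ≃* W))
  let M := stdModel W
  have h := M.ffHyp hWe (isPSolvable_of_isSolvable 2 X) hO Y
  have hbest : ∀ A ∈ ThA.maxAbIn (T : Subgroup X), IsBestOffenderOn 2 W A := by
    intro A hA
    have hm := max_of_mem hWe.1 (hWV.trans hV₀T) hA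
    have := hA.2.1
    refine isBestOffenderOn_iff.2 ⟨hm, by
      rw [commutator_eq_bot_iff_le_centralizer.2 (le_centralizer A)]; exact bot_le, fun a ha => ?_⟩
    rw [← M.ker, MonoidHom.mem_ker, map_pow]
    exact sq_eq_one_of_max h (A.map M.σ) (map_mono ((ThA.le_thompsonSubgroupAOf hA).trans hJY))
      (ThA.comm_map hA.2.1 _) ((T.isPGroup'.to_le hA.1).map _) (max_map M hm) _ ⟨a, ha, rfl⟩
  have hgen : Y.map M.σ = ⨆ A : {A // A ≤ Y.map M.σ ∧ IsBestOffenderOn 2 M.ι.range A},
      (A : Subgroup _) := by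
    refine le_antisymm (map_le_iff_le_comap.2 ((closure_le _).2 fun x hx => ?_))
      (iSup_le fun A => A.2.1)
    obtain ⟨z, hz, hc⟩ := Group.mem_conjugatesOfSet_iff.1 hx
    obtain ⟨g, rfl⟩ := isConj_iff.1 hc
    refine (mem_comap (f := (MulAut.conj g).toMonoidHom) (x := z)).1 ?_
    refine ThA.thompsonSubgroupAOf_le_iff.2
      (fun A hA => map_le_iff_le_comap.1 ((map_le_iff_le_comap (f := M.σ)).1 ?_)) hz
    refine le_iSup_of_le ⟨_, map_mono ?_,
      M.bestOff (bestOff_conj (hbest A hA) (le_normalizer_of_normal (mem_top g)))⟩ le_rfl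
    rintro _ ⟨a, ha, rfl⟩
    exact Normal.conj_mem inferInstance a (hJY (ThA.le_thompsonSubgroupAOf hA ha)) g
  have hk : M.σ.ker = (centralizer (Z : Set X)).normalCore := by rw [hC, ← hCW, M.ker]
  by_cases hH : Y.map M.σ = ⊥
  · exact Or.inl (hk ▸ (Subgroup.map_eq_bot_iff _).1 hH)
  obtain ⟨-, h1, h2, h3, -⟩ := S0617.result _ _ h.elem h.norm h.faith h.selfc hgen hH
  obtain ⟨e3⟩ := S0250.result (F := ZMod 2) (ZMod.card 2)
  obtain ⟨n, hn, ⟨e⟩⟩ := pi_equiv _ (fun E => (h1 E).1)
    (fun E => (h1 E).2.1.map fun e => e.trans e3) h2 h3 hH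
  refine Or.inr ⟨n, hn, ?_⟩
  obtain ⟨_, h4⟩ := exists_quotient_equiv (e.toMonoidHom.comp (M.σ.subgroupMap Y))
    (e.surjective.comp (M.σ.subgroupMap_surjective Y))
    (N := (centralizer (Z : Set X)).normalCore.subgroupOf Y) (by
      ext x
      rw [MonoidHom.mem_ker, mem_subgroupOf, ← hk, MonoidHom.mem_ker, MonoidHom.comp_apply,
        MulEquiv.coe_toMonoidHom, e.map_eq_one_iff, Subtype.ext_iff]
      rfl)
  exact h4

end Cfsg.Agent.S4302
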