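import Cfsg.Statements.S4305
import Cfsg.Agent.FGS.FpfS3

set_option autoImplicit false
open Cfsg

namespace Cfsg.Agent.S4305


/-- Let the symmetric group of degree 3 act by automorphisms on a finite solvable group `G` of order prime to 6, so that only the identity of `G` is fixed by all of it. Then the derived subgroup of `G` is nilpotent. -/
theorem result {G : Type*} [Group G] [Finite G] [Group.IsSolvable G]
    [MulDistribMulAction (Equiv.Perm (Fin 3)) G] (hcop : (Nat.card G).Coprime 6)
    (hfpf : ∀ g : G, (∀ a : Equiv.Perm (Fin 3), a • g = g) → g = 1) :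
    Group.IsNilpotent ↥(commutator G) := by
  have h2 := CL.FH.commutator_le_fitting_of_s3 (G := CL.Hol (Equiv.Perm (Fin 3)) G)
    (H := Subgroup.map CL.Hol.inl ⊤) (CL.FH.isSolvable_map inferInstance _) CL.Hol.inr_injective
    (by rwa [CL.Hol.card_map_inl, Subgroup.card_top]) (by
      rw [CL.Hol.map_inl_inf_centralizer, CL.Hol.map_inl_eq_bot, eq_bot_iff]
      exact fun g hg => hfpf g (CL.mem_actFix_top.1 hg.2))
  rw [← Subgroup.map_commutator] at h2
  have h3 : Group.IsNilpotent (Subgroup.map (CL.Hol.inl (A := Equiv.Perm (Fin 3))) (commutator G)) :=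
    CL.isNilpotent_of_le_fittingSubgroup (h2.trans inf_le_left)
  exact Group.nilpotent_of_mulEquiv (Subgroup.equivMapOfInjective _ _
    (CL.Hol.inl_injective (A := Equiv.Perm (Fin 3)))).symm

end Cfsg.Agent.S4305
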