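import Cfsg.Statements.S4309
-- import your own Cfsg.Agent.* helpers here

set_option autoImplicit false
open Cfsg

namespace Cfsg.Agent.S4309

/-- Let `π` be a set of primes, `G` a finite group with a Hall `π`-subgroup `H` (every prime divisor of the order of `H` lies in `π` and no prime of `π` divides its index), and `A` a normal subgroup of `G`. Then `H ∩ A` is a Hall `π`-subgroup of `A` and the image of `H` in `G/A` is a Hall `π`-subgroup of `G/A`. -/
theorem result {G : Type*} [Group G] [Finite G] (π : Set ℕ)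
    (H A : Subgroup G) [A.Normal] (hH : Cfsg.IsPiHall π H) :
    Cfsg.IsPiHall π ((H ⊓ A).subgroupOf A) ∧ Cfsg.IsPiHall π (H.map (QuotientGroup.mk' A)) := by
  refine ⟨⟨fun p hp hd => hH.1 p hp (hd.trans ?_), fun p hp hπ hd => hH.2 p hp hπ (hd.trans ?_)⟩,
    ⟨fun p hp hd => hH.1 p hp (hd.trans (Subgroup.card_map_dvd _ _)),
     fun p hp hπ hd => hH.2 p hp hπ (hd.trans
      (Subgroup.index_map_dvd _ (QuotientGroup.mk'_surjective A)))⟩⟩
  · rw [Nat.card_congr (Subgroup.subgroupOfEquivOfLe (inf_le_right : H ⊓ A ≤ A)).toEquiv]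
    exact Subgroup.card_dvd_of_le inf_le_left
  · change (H ⊓ A).relIndex A ∣ H.index
    have h1 : (H ⊓ A).relIndex A * A.index = (H ⊓ A).index :=
      Subgroup.relIndex_mul_index inf_le_right
    have h2 : (H ⊓ A).relIndex H * H.index = (H ⊓ A).index :=
      Subgroup.relIndex_mul_index inf_le_left
    have h3 : A.relIndex (H ⊔ A) * (H ⊔ A).index = A.index :=
      Subgroup.relIndex_mul_index le_sup_right
    rw [Subgroup.relIndex_sup_right] at h3
    rw [Subgroup.inf_relIndex_left] at h2
    have h4 : A.relIndex H ≠ 0 := Subgroup.index_ne_zero_of_finite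
    refine ⟨(H ⊔ A).index, ?_⟩
    apply Nat.eq_of_mul_eq_mul_left (Nat.pos_of_ne_zero h4)
    rw [h2, ← h1, ← h3]
    ring

end Cfsg.Agent.S4309
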