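import Cfsg.Statements.S4310
import Cfsg.Agent.SOLV.OddOrderCor
import Cfsg.Agent.SOLV.Hall
import Cfsg.Agent.FGS.SylowNum

set_option autoImplicit false
open Cfsg

namespace Cfsg.Agent.S4310

open CL CL.MSS Subgroup

theorem conj_amb {G : Type*} [Group G] [Finite G] {π : Set ℕ} {A : Subgroup G}
    (hA : Cfsg.IsCPiGroup π ↥A) {H K : Subgroup G} (hH : IsPiHallOf π H A)
    (hK : IsPiHallOf π K A) : ∃ a ∈ A, a •ᶜ H = K := by
  obtain ⟨a, ha⟩ := hA.2 _ _ (IsPiHallOf.subgroupOf hH) (IsPiHallOf.subgroupOf hK)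
  refine ⟨a, a.2, ?_⟩
  have := congrArg (Subgroup.map A.subtype) ha
  rw [subtype_map_cj, map_subgroupOf_eq_of_le hH.1, map_subgroupOf_eq_of_le hK.1] at this
  exact this.symm

theorem sep {G : Type*} [Group G] [Finite G] {π : Set ℕ} {A : Subgroup G} [A.Normal]
    {H K : Subgroup G} (hH : IsPiHallOf π H A)
    (hK : IsPiNum π (Nat.card (K.map (QuotientGroup.mk' A)))) :
    IsPiSeparable π (K ⊓ normalizer (H : Set G) : Subgroup G) := by
  refine IsPiSeparable.of_map_of_inf_ker (QuotientGroup.mk' A)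
    (isPiSeparable_of_isPiNum (hK.of_dvd (card_dvd_of_le (map_mono inf_le_left)))) ?_
  rw [QuotientGroup.ker_mk']
  set M := K ⊓ normalizer (H : Set G) ⊓ A with hM
  have := CL.normal_subgroupOf_of_le_normalizer
    (show M ≤ normalizer (H : Set G) from inf_le_left.trans inf_le_right)
  refine IsPiSeparable.of_normal_of_quotient (H.subgroupOf M)
    (isPiSeparable_of_isPiNum ((IsPiHallOf.isPiNum hH).of_dvd ?_))
    (isPiSeparable_of_isPiNum_compl ((IsPiHallOf.relIndex hH).of_dvd ?_))
  · rw [card_subgroupOf_eq]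
    exact card_dvd_of_le inf_le_left
  · have h1 : H.relIndex M ∣ H.relIndex (normalizer (H : Set G) ⊓ A) := by
      have := CL.normal_subgroupOf_of_le_normalizer
        (show normalizer (H : Set G) ⊓ A ≤ normalizer (H : Set G) from inf_le_left)
      have h2 := relIndex_dvd_index_of_normal (H.subgroupOf (normalizer (H : Set G) ⊓ A))
        (M.subgroupOf (normalizer (H : Set G) ⊓ A))
      rwa [relIndex_subgroupOf (inf_le_inf_right _ inf_le_right)] at h2
    exact h1.trans (Dvd.intro _ (relIndex_mul_relIndex H _ A (le_inf le_normalizer hH.1)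
      inf_le_right))


/-- Let `π` be a set of primes and `A` a normal subgroup of the finite group `G`. Suppose `A` has a Hall `π`-subgroup and all Hall `π`-subgroups of `A` are conjugate in `A`, and likewise for `G/A`. Then `G` has a Hall `π`-subgroup and all Hall `π`-subgroups of `G` are conjugate. (The conjugacy of complements of coprime order that the usual proof uses rests, in general, on the odd order Theorem.) -/
theorem result {G : Type*} [Group G] [Finite G] (π : Set ℕ) (A : Subgroup G) [A.Normal]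
    (hA : Cfsg.IsCPiGroup π ↥A) (hQ : Cfsg.IsCPiGroup π (G ⧸ A)) : Cfsg.IsCPiGroup π G := by
  constructor
  · obtain ⟨H₀, hH₀⟩ := hA.1
    have hH := isPiHallOf_map_subtype_iff.2 hH₀
    set H := H₀.map A.subtype
    obtain ⟨K₀, hK₀⟩ := hQ.1
    set K := K₀.comap (QuotientGroup.mk' A) with hK
    obtain ⟨L, hL⟩ := (sep (K := K) hH (by
      rw [map_comap_mk']; exact (isPiHall_iff.1 hK₀).1)).exists_isPiHall
    refine ⟨_, IsPiHall.map_subtype hL ?_⟩
    have h1 : K ⊓ normalizer (H : Set G) ⊔ A = K := by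
      refine le_antisymm (sup_le inf_le_left (le_comap_mk' _ _)) fun k hk => ?_
      have h2 : IsPiHallOf π (k •ᶜ H) A :=
        IsPiHallOf.conj_smul_of_mem_normalizer hH (le_normalizer_of_normal (mem_top k))
      obtain ⟨a, ha, h3⟩ := conj_amb hA h2 hH
      rw [← cj_mul, ← mem_normalizer_iff_cj] at h3
      rw [show k = a⁻¹ * (a * k) by group]
      exact mul_mem (mem_sup_right (A.inv_mem ha))
        (mem_sup_left ⟨K.mul_mem (le_comap_mk' _ _ ha) hk, h3⟩)
    have h2 := CL.SN.relIndex_sup_of_le (X := K ⊓ normalizer (H : Set G)) (K := A) le_rfl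
      le_normalizer_of_normal
    rw [h1] at h2
    rw [← relIndex_mul_index (inf_le_left : K ⊓ normalizer (H : Set G) ≤ K), h2, index_comap_mk']
    refine IsPiNum.mul ((IsPiHallOf.relIndex hH).of_dvd (relIndex_dvd_of_le_left _ ?_))
      (isPiHall_iff.1 hK₀).2
    exact le_inf (hH.1.trans (le_comap_mk' _ _)) le_normalizer
  · intro L₁ L₂ h1 h2
    have hs := QuotientGroup.mk'_surjective A
    obtain ⟨g₀, hg⟩ := hQ.2 _ _ (IsPiHall.map h1 hs) (IsPiHall.map h2 hs)
    obtain ⟨g, rfl⟩ := hs g₀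
    rw [← map_cj] at hg
    have h3 : IsPiHall π (g •ᶜ L₁) := IsPiHall.conj_smul h1 g
    obtain ⟨a, ha, h4⟩ := conj_amb hA (IsPiHall.inf_normal h3 A) (IsPiHall.inf_normal h2 A)
    rw [cj_inf, cj_eq_of_normal a A, ← cj_mul] at h4
    have h5 : IsPiHall π ((a * g) •ᶜ L₁) := IsPiHall.conj_smul h1 _
    set M := (L₂ ⊔ A) ⊓ normalizer ((L₂ ⊓ A : Subgroup G) : Set G) with hM
    have hsep : IsPiSeparable π M := sep (IsPiHall.inf_normal h2 A) (by
      rw [Subgroup.map_sup, (map_mk'_eq_bot_iff A A).2 le_rfl, sup_bot_eq]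
      exact (isPiHall_iff.1 (IsPiHall.map h2 hs)).1)
    have h6 : L₂ ≤ M := le_inf le_sup_left (MSS.le_normalizer_inf le_normalizer le_normalizer_of_normal)
    have h7 : (a * g) •ᶜ L₁ ≤ M := by
      refine le_inf ?_ (h4 ▸ MSS.le_normalizer_inf le_normalizer le_normalizer_of_normal)
      rw [cj_mul]
      exact cj_le_of_mem ((map_mk'_le_map_mk'_iff _ _ _).1 hg.ge) (mem_sup_right ha)
    obtain ⟨m, hm⟩ := hsep.exists_conj_eq' (IsPiHall.subgroupOf_of_le h5 h7)
      (IsPiHall.subgroupOf_of_le h2 h6)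
    refine ⟨m * (a * g), ?_⟩
    have := congrArg (Subgroup.map M.subtype) hm
    rw [pointwise_smul_eq_cj, subtype_map_cj, map_subgroupOf_eq_of_le h7,
      map_subgroupOf_eq_of_le h6, ← cj_mul] at this
    exact this.symm

end Cfsg.Agent.S4310
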