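import Mathlib
import Cfsg.Statements.S4314
import Cfsg.Agent.FGS.SqFree2

set_option autoImplicit false
open Cfsg

namespace Cfsg.Agent.S4314

open Subgroup CL.CS in
open scoped commutatorElement in
theorem aux {G : Type*} [Group G] [Finite G]
    (h : ∀ x : G, (𝐂[x]).index = 1 ∨ ((𝐂[x]).index).Prime) {g : G} {L : Subgroup G} [hL : L.Normal]
    {p : ℕ} (hp : p.Prime) (hLc : Nat.card L = p) (hg : ¬ L ≤ 𝐂[g]) :
    (𝐂[g]).index = p ∧ 𝐂[g] ⊓ L = ⊥ ∧ 𝐂[g] ⊔ L = ⊤ := by
  have h1 : 𝐂[g] ⊓ L = ⊥ := by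
    rw [inf_comm]; exact CL.inf_eq_bot_of_card_prime_of_not_le (hLc ▸ hp) hg
  have h2 := CL.card_inf_mul_relIndex (𝐂[g]) L
  rw [h1, card_bot, one_mul, hLc] at h2
  have h3 := relIndex_dvd_index_of_normal_right (𝐂[g]) L
  rw [h2] at h3
  have h4 : (𝐂[g]).index = p := by
    rcases h g with h4 | h4
    · rw [h4, Nat.dvd_one] at h3; exact absurd h3 hp.one_lt.ne'
    · exact ((Nat.prime_dvd_prime_iff_eq hp h4).mp h3).symm
  refine ⟨h4, h1, ?_⟩
  have h5 := CL.card_sup_mul_card_inf (𝐂[g]) L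
  rw [h1, card_bot, mul_one, hLc, ← h4, card_mul_index] at h5
  exact eq_top_of_card_eq _ h5

open Subgroup CL.CS in
open scoped commutatorElement in
theorem main {G : Type*} [Group G] [Finite G]
    (h : ∀ x : G, (𝐂[x]).index = 1 ∨ ((𝐂[x]).index).Prime) :
    Subgroup.upperCentralSeries G 2 = ⊤ ∨
      ∃ p q : ℕ, p.Prime ∧ q.Prime ∧ p ≠ q ∧ Nat.card (G ⧸ Subgroup.center G) = p * q ∧ ¬ IsMulCommutative (G ⧸ Subgroup.center G) := by
  have hsf : ∀ x : G, Squarefree (𝐂[x]).index := fun x => by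
    rcases h x with h1 | h1
    · rw [h1]; exact squarefree_one
    · exact h1.prime.squarefree
  haveI hc := CL.CS.isCyclic_commutator_of_squarefree_index hsf
  have hsq := CL.CS.squarefree_card_commutator hsf
  by_cases hZ : _root_.commutator G ≤ Subgroup.center G
  · left
    rw [eq_top_iff]
    intro x _
    rw [Subgroup.mem_upperCentralSeries_succ_iff]
    intro y
    rw [Subgroup.upperCentralSeries_one]
    exact hZ (Subgroup.commutator_mem_commutator (Subgroup.mem_top x) (Subgroup.mem_top y))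
  right
  obtain ⟨p, hp, P, hP⟩ : ∃ (p : ℕ) (_ : Fact p.Prime) (P : Sylow p (_root_.commutator G)),
      ¬ (P : Subgroup (_root_.commutator G)).map (_root_.commutator G).subtype ≤ center G := by
    by_contra hc
    push Not at hc
    exact hZ (CL.le_of_forall_isPGroup_le fun p hp P => hc p hp P)
  set L := (P : Subgroup (_root_.commutator G)).map (_root_.commutator G).subtype with hLdef
  haveI hLn : L.Normal := CL.normal_of_le_cyclic_normal (map_subtype_le _)
  have hLc : Nat.card L = p := by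
    have hS : IsPGroup p L := P.isPGroup'.map _
    obtain ⟨k, hk⟩ := hS.exists_card_eq
    have h1 : Squarefree (p ^ k) := hk ▸ hsq.squarefree_of_dvd (card_dvd_of_le (map_subtype_le _))
    have h2 : k ≠ 0 := fun e => hP (by
      rw [e, pow_zero, card_eq_one] at hk; rw [hk]; exact bot_le)
    have h3 : k = 1 := by
      by_contra hc
      exact not_sq_dvd_of_squarefree hp.out h1 (pow_dvd_pow p (by omega))
    rw [hk, h3, pow_one]
  obtain ⟨l, hl, hlZ⟩ := SetLike.not_le_iff_exists.mp hP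
  have hl1 : l ≠ 1 := fun e => hlZ (e ▸ one_mem _)
  have hCl : ∀ g : G, g ∈ 𝐂[l] ↔ L ≤ 𝐂[g] := fun g =>
    ⟨fun hg => le_of_card_prime_of_mem hp.out hLc hl hl1 (mem_cen_comm.mp hg),
      fun hg => mem_cen_comm.mp (hg hl)⟩
  have hq : ((𝐂[l]).index).Prime := (h l).resolve_left fun e => hlZ (index_cen_eq_one_iff.mp e)
  obtain ⟨g, hg⟩ : ∃ g, g ∉ 𝐂[l] := by
    by_contra hc
    push Not at hc
    exact hlZ (cen_eq_top_iff.mp (eq_top_iff.mpr fun g _ => hc g))
  obtain ⟨hg1, hg2, hg3⟩ := aux h hp.out hLc (fun e => hg ((hCl g).mpr e))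
  -- elements of `H = C(g)` outside `C(L)` are central in `H`
  have hH : ∀ y ∈ 𝐂[g], y ∉ 𝐂[l] → 𝐂[g] ≤ 𝐂[y] := by
    intro y hy hyl z hz
    obtain ⟨hy1, hy2, hy3⟩ := aux h hp.out hLc (fun e => hyl ((hCl y).mpr e))
    obtain ⟨c, hc, m, hm, rfl⟩ := mem_sup_of_normal_right.mp (hy3 ▸ mem_top z)
    have h1 : ⁅c * m, y⁆ ∈ L := by
      have h2 := (mem_cen.mp hc).eq
      have e : ⁅c * m, y⁆ = c * (m * (y * m⁻¹ * y⁻¹)) * c⁻¹ := by
        rw [commutatorElement_def]
        calc c * m * y * (c * m)⁻¹ * y⁻¹ = c * m * y * m⁻¹ * (y * c)⁻¹ := by group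
          _ = _ := by rw [← h2]; group
      rw [e]
      exact hLn.conj_mem _ (mul_mem hm (hLn.conj_mem _ (inv_mem hm) y)) c
    have h2 : ⁅c * m, y⁆ ∈ 𝐂[g] := mul_mem (mul_mem (mul_mem hz hy) (inv_mem hz)) (inv_mem hy)
    have h3 : ⁅c * m, y⁆ ∈ 𝐂[g] ⊓ L := ⟨h2, h1⟩
    rw [hg2, mem_bot, commutatorElement_eq_one_iff_commute] at h3
    exact mem_cen.mpr h3
  have hZeq : center G = 𝐂[l] ⊓ 𝐂[g] := by
    refine le_antisymm (le_inf (center_le_cen l) (center_le_cen g)) fun w hw => ?_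
    rw [← cen_eq_top_iff, eq_top_iff, ← hg3]
    have hw1 : w ∈ 𝐂[l] := hw.1
    refine sup_le (fun z hz => ?_) ((hCl w).mp hw.1)
    have h1 := hH (w * g) (mul_mem hw.2 (self_mem_cen g))
      (fun e => hg ((mul_mem_cancel_left hw1).mp e)) hz
    have h2 := inf_le_cen_mul (w * g) g⁻¹ ⟨h1, by rw [cen_inv]; exact hz⟩
    simpa using h2
  have hrel : (𝐂[l]).relIndex (𝐂[g]) = (𝐂[l]).index := by
    refine CL.relIndex_eq_index_of_forall_exists_mul _ _ fun z => ?_
    obtain ⟨c, hc, m, hm, rfl⟩ := mem_sup_of_normal_right.mp (hg3 ▸ mem_top z)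
    exact ⟨c, hc, m, mem_cen.mpr (setLike_mul_comm (s := _root_.commutator G)
      (map_subtype_le _ hm) (map_subtype_le _ hl)), rfl⟩
  refine ⟨p, (𝐂[l]).index, hp.out, hq, fun e => ?_, ?_, fun hcomm => hZ ?_⟩
  · have h1 : 𝐂[l] = centralizer (L : Set G) := by
      ext z; rw [hCl, le_cen_iff]
    have h2 := CL.pow_pred_mem_centralizer_of_card_prime hp.out hLc g
    have h3 := Subgroup.pow_index_mem (centralizer (L : Set G)) g
    rw [← h1, ← e] at h3
    rw [← h1] at h2
    have h4 : g ^ p = g ^ (p - 1) * g := by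
      rw [← pow_succ, Nat.sub_add_cancel hp.out.one_le]
    rw [h4] at h3
    exact hg ((mul_mem_cancel_left h2).mp h3)
  · change (center G).index = _
    rw [hZeq, ← relIndex_mul_index (inf_le_right : 𝐂[l] ⊓ 𝐂[g] ≤ 𝐂[g]), inf_relIndex_right, hrel,
      hg1, mul_comm]
  · exact Subgroup.Normal.quotient_commutative_iff_commutator_le.mp hcomm

/-- Let `G` be a finite group every conjugacy class of which has size 1 or a prime. Then either `G` is nilpotent of class at most 2, or `G/Z(G)` is a non-abelian group of order `pq` for distinct primes `p, q` (a Frobenius group of order `pq`). -/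
theorem result {G : Type*} [Group G] [Finite G]
    (h : ∀ x : G, (Subgroup.centralizer ({x} : Set G)).index = 1 ∨ ((Subgroup.centralizer ({x} : Set G)).index).Prime) :
    Subgroup.upperCentralSeries G 2 = ⊤ ∨
      ∃ p q : ℕ, p.Prime ∧ q.Prime ∧ p ≠ q ∧ Nat.card (G ⧸ Subgroup.center G) = p * q ∧ ¬ IsMulCommutative (G ⧸ Subgroup.center G) := by
  exact main h

end Cfsg.Agent.S4314
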