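import Cfsg.Statements.S4316
import Cfsg.Agent.FGS.CopIndex

set_option autoImplicit false
universe u
open Cfsg

namespace Cfsg.Agent.S4316

/-- There is a function `f` of two natural-number arguments with the following property. Let `q` be a prime and `A` an elementary abelian group of order `q³` acting by automorphisms on a finite group `G` of order prime to `q`, and suppose that for every non-identity `a ∈ A` the derived subgroup of the fixed-point subgroup `C_G(a)` has order at most `m`. Then the derived subgroup of `G` has order at most `f(q, m)`. -/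
theorem result :
    ∃ f : ℕ → ℕ → ℕ, ∀ (q m : ℕ) (A G : Type u) [Group A] [Finite A] [Group G] [Finite G] [MulDistribMulAction A G],
      q.Prime → Nat.card A = q ^ 3 → (∀ a b : A, a * b = b * a) → (∀ a : A, a ^ q = 1) → ¬ q ∣ Nat.card G →
      (∀ a : A, a ≠ 1 → Nat.card ↥(commutator ↥(FixedPoints.subgroup (Subgroup.zpowers a) G)) ≤ m) →
      Nat.card ↥(commutator G) ≤ f q m := by
  exact ⟨fun p m => CL.OddInv.B (m * (2 ^ p ^ 3) ^ 3) m.factorial ((m ^ p ^ 3) ^ 2 ^ p ^ 3 * p ^ 3),
    fun q m A G _ _ _ _ _ hp hj hc hA hG h => CL.Shum.card_commutator_le_act hp hj hc hA hG h⟩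

end Cfsg.Agent.S4316
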