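import Cfsg.Statements.S4320

set_option autoImplicit false
open Cfsg

namespace Cfsg.Agent.S4320

open MonoidAlgebra Module
open scoped TensorProduct

section
variable {G : Type*} [Group G]

/-- The augmentation. -/
noncomputable def aug (Γ : Type*) [CommGroup Γ] : MonoidAlgebra ℤ Γ →ₐ[ℤ] ℤ :=
  MonoidAlgebra.lift ℤ ℤ Γ 1

theorem aug_of {Γ : Type*} [CommGroup Γ] (γ : Γ) : aug Γ (of ℤ Γ γ) = 1 := by
  simp [aug]

theorem det_smul_eq_zero {R M ι : Type*} [CommRing R] [AddCommGroup M] [Module R M] [Fintype ι]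
    [DecidableEq ι] (μ : Matrix ι ι R) (b : ι → M) (h : ∀ i, ∑ j, μ i j • b j = 0) (k : ι) :
    μ.det • b k = 0 := by
  have h1 : ∑ i, μ.adjugate k i • ∑ j, μ i j • b j = 0 := by simp [h]
  simp_rw [Finset.smul_sum, smul_smul] at h1
  rw [Finset.sum_comm] at h1
  simp_rw [← Finset.sum_smul, ← Matrix.mul_apply, Matrix.adjugate_mul] at h1
  simpa [Matrix.one_apply] using h1

theorem exists_relations [Fintype G] [DecidableEq G] :
    ∃ m : Matrix G G ℤ, m.det.natAbs = Nat.card (Abelianization G) ∧
      ∀ i, ∑ j, m i j • Additive.ofMul (Abelianization.of j) = 0 := by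
  let φ : (G → ℤ) →ₗ[ℤ] Additive (Abelianization G) :=
    Fintype.linearCombination ℤ fun j => Additive.ofMul (Abelianization.of j)
  have hφ : Function.Surjective φ := by
    intro x
    obtain ⟨g, hg⟩ : ∃ g, Abelianization.of g = x.toMul := QuotientGroup.mk_surjective _
    exact ⟨Pi.single g 1, by simp [φ, hg]⟩
  let e := φ.quotKerEquivOfSurjective hφ
  have hfin : Finite ((G → ℤ) ⧸ LinearMap.ker φ) := Finite.of_equiv _ e.symm.toEquiv
  have hr := (Submodule.finiteQuotient_iff _).mp hfin
  rw [finrank_fintype_fun_eq_card] at hr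
  let bK : Basis G ℤ (LinearMap.ker φ) :=
    (finBasisOfFinrankEq ℤ _ hr).reindex (Fintype.equivFin G).symm
  have h1 := Submodule.natAbs_det_basis_change (Pi.basisFun ℤ G) (LinearMap.ker φ) bK
  refine ⟨Matrix.of fun i j => (bK i : G → ℤ) j, ?_, fun i => ?_⟩
  · rw [Pi.basisFun_det_apply, Nat.card_congr e.toEquiv] at h1
    exact h1
  · exact (bK i).2

theorem exists_delta [Finite G] {M : Type*} [AddCommGroup M]
    [Module (MonoidAlgebra ℤ (Abelianization G)) M] (b : G → M)
    (hb : ∀ g h, b (g * h) = b g + of ℤ _ (Abelianization.of g) • b h) :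
    ∃ δ : MonoidAlgebra ℤ (Abelianization G),
      (aug _ δ).natAbs = Nat.card (Abelianization G) ∧ ∀ g, δ • b g = 0 := by
  classical
  have := Fintype.ofFinite G
  obtain ⟨m, hm1, hm2⟩ := exists_relations (G := G)
  let S : AddSubgroup M :=
    { carrier := {x | ∃ a : G → MonoidAlgebra ℤ (Abelianization G),
        (∀ j, aug _ (a j) = 0) ∧ x = ∑ j, a j • b j}
      add_mem' := by
        rintro _ _ ⟨a, ha, rfl⟩ ⟨c, hc, rfl⟩
        exact ⟨a + c, fun j => by simp [ha, hc], by simp [add_smul, Finset.sum_add_distrib]⟩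
      zero_mem' := ⟨0, fun j => by simp, by simp⟩
      neg_mem' := by
        rintro _ ⟨a, ha, rfl⟩
        exact ⟨-a, fun j => by simp [ha], by simp⟩ }
  let θ : G →* Multiplicative (M ⧸ S) := MonoidHom.mk'
    (fun g => Multiplicative.ofAdd (QuotientAddGroup.mk (b g))) (by
      intro g h
      rw [← ofAdd_add, ← QuotientAddGroup.mk_add]
      congr 1
      rw [QuotientAddGroup.eq_iff_sub_mem, hb]
      refine ⟨Pi.single h (of ℤ _ (Abelianization.of g) - 1), fun j => ?_, ?_⟩
      · by_cases hj : j = h
        · subst hj; rw [Pi.single_eq_same, map_sub, aug_of, map_one, sub_self]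
        · rw [Pi.single_eq_of_ne hj, map_zero]
      · rw [Finset.sum_eq_single h (fun j _ hj => by rw [Pi.single_eq_of_ne hj, zero_smul]) (by simp),
          Pi.single_eq_same, sub_smul, one_smul]
        abel)
  let θ' : Additive (Abelianization G) →+ M ⧸ S :=
    MonoidHom.toAdditiveLeft (Abelianization.lift θ)
  have hθ' : ∀ g, θ' (Additive.ofMul (Abelianization.of g)) = QuotientAddGroup.mk (b g) :=
    fun g => rfl
  have h1 : ∀ i, ∑ j, m i j • b j ∈ S := by
    intro i
    have := congrArg θ' (hm2 i)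
    rw [map_sum, map_zero] at this
    simp_rw [map_zsmul, hθ'] at this
    rw [← QuotientAddGroup.eq_zero_iff, ← this]
    exact (map_sum (QuotientAddGroup.mk' S) _ _).trans
      (Finset.sum_congr rfl fun j _ => map_zsmul (QuotientAddGroup.mk' S) _ _)
  choose a ha1 ha2 using h1
  let μ : Matrix G G (MonoidAlgebra ℤ (Abelianization G)) := Matrix.of fun i j => (m i j : _) - a i j
  refine ⟨μ.det, ?_, det_smul_eq_zero μ b fun i => ?_⟩
  · rw [AlgHom.map_det, ← hm1]
    congr 2
    ext i j
    simp [μ, ha1]
  · simp only [μ, Matrix.of_apply, sub_smul, Finset.sum_sub_distrib, ← ha2, Int.cast_smul_eq_zsmul,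
      sub_self]

theorem norm_smul_eq_zero [Finite G] [Fintype (Abelianization G)] {M : Type*} [AddCommGroup M]
    [Module (MonoidAlgebra ℤ (Abelianization G)) M] (D : G → M)
    (hD : ∀ g h, D (g * h) = D g + of ℤ _ (Abelianization.of g) • D h) (g : G) :
    (∑ γ : Abelianization G, of ℤ _ γ) • D g = 0 := by
  classical
  obtain ⟨δ, h1, h2⟩ := exists_delta (fun g => (D g, of ℤ _ (Abelianization.of g) - 1)) (by
    intro g h
    refine Prod.ext (hD g h) ?_
    simp only [map_mul, Prod.snd_add, Prod.smul_snd, smul_eq_mul]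
    ring)
  have h3 : ∀ γ : Abelianization G, δ * of ℤ _ γ = δ := by
    intro γ
    obtain ⟨x, rfl⟩ : ∃ x, Abelianization.of x = γ := QuotientGroup.mk_surjective _
    have : δ * (of ℤ _ (Abelianization.of x) - 1) = 0 := congrArg Prod.snd (h2 x)
    rwa [mul_sub, mul_one, sub_eq_zero] at this
  have h4 : δ = δ.coeff 1 • ∑ γ : Abelianization G, of ℤ _ γ := by
    ext γ
    have := congrArg (fun x => x.coeff 1) (h3 γ⁻¹)
    simp only [of_apply, coeff_mul_single_apply, inv_inv, one_mul, mul_one] at this
    rw [coeff_smul, Finsupp.smul_apply, this]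
    simp [Finsupp.single_apply]
  have h5 : (δ.coeff 1).natAbs = 1 := by
    rw [h4, map_smul, map_sum] at h1
    simp only [aug_of, Finset.sum_const, Finset.card_univ, nsmul_eq_mul, mul_one, smul_eq_mul,
      Int.natAbs_mul, Int.natAbs_natCast, Nat.card_eq_fintype_card] at h1
    exact (mul_eq_right₀ Fintype.card_ne_zero).mp h1
  have h6 : δ • D g = 0 := congrArg Prod.fst (h2 g)
  rw [h4, smul_assoc] at h6
  rcases Int.natAbs_eq_iff.mp h5 with h | h <;> rw [h] at h6 <;> simpa using h6

end

/-- The Principal Ideal Theorem of class field theory in its group-theoretic form: for every finite group `G`, the transfer homomorphism from `G` into the abelianization `G'/G''` of its derived subgroup `G'` is the trivial homomorphism. -/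
theorem result {G : Type*} [Group G] [Finite G] :
    MonoidHom.transfer (Abelianization.of : ↥(commutator G) →* Abelianization ↥(commutator G)) =
      (1 : G →* Abelianization ↥(commutator G)) := by
  classical
  have := Fintype.ofFinite (Abelianization G)
  let T : (commutator G).LeftTransversal := default
  let t : Abelianization G → G := fun q => T.2.leftQuotientEquiv q
  have ht : ∀ q, Abelianization.of (t q) = q := fun q => T.2.leftQuotientEquiv.symm_apply_apply q
  have hmem : ∀ (g : G) (q : Abelianization G),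
      (t q)⁻¹ * (g * t ((Abelianization.of g)⁻¹ * q)) ∈ commutator G := by
    intro g q
    rw [← Abelianization.ker_of, MonoidHom.mem_ker]
    simp [ht]
  let f : G → Abelianization G → Additive (Abelianization (commutator G)) := fun g q =>
    Additive.ofMul (Abelianization.of ⟨_, hmem g q⟩)
  have hf : ∀ g h q, f (g * h) q = f g q + f h ((Abelianization.of g)⁻¹ * q) := by
    intro g h q
    simp only [f, ← ofMul_mul, ← map_mul]
    congr 2
    apply Subtype.ext
    simp only [map_mul, mul_inv_rev, Subgroup.coe_mul, mul_assoc, mul_inv_cancel_left]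
  let D : G → MonoidAlgebra ℤ (Abelianization G) ⊗[ℤ] Additive (Abelianization (commutator G)) :=
    fun g => ∑ q, of ℤ _ q ⊗ₜ f g q
  have hD : ∀ g h, D (g * h) = D g + of ℤ _ (Abelianization.of g) • D h := by
    intro g h
    simp only [D, hf, TensorProduct.tmul_add, Finset.sum_add_distrib, Finset.smul_sum,
      TensorProduct.smul_tmul', smul_eq_mul, ← map_mul]
    congr 1
    exact Fintype.sum_equiv (Equiv.mulLeft (Abelianization.of g)⁻¹) _ _ fun q => by simp
  ext g
  have h1 := norm_smul_eq_zero D hD g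
  have h2 : ∀ q : Abelianization G, (∑ γ : Abelianization G, of ℤ _ γ) * of ℤ _ q =
      ∑ γ : Abelianization G, of ℤ _ γ := by
    intro q
    simp only [Finset.sum_mul, ← map_mul]
    exact Fintype.sum_equiv (Equiv.mulRight q) _ _ fun γ => rfl
  simp only [D, Finset.smul_sum, TensorProduct.smul_tmul', smul_eq_mul, h2,
    ← TensorProduct.tmul_sum] at h1
  let c : MonoidAlgebra ℤ (Abelianization G) →ₗ[ℤ] ℤ :=
    (Finsupp.lapply 1).comp (coeffLinearEquiv ℤ).toLinearMap
  have h3 := congrArg (fun x => TensorProduct.lid ℤ _ (c.rTensor _ x)) h1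
  have h4 : c (∑ γ : Abelianization G, of ℤ _ γ) = 1 := by
    simp [c, Finsupp.single_apply]
  simp only [LinearMap.rTensor_tmul, h4, TensorProduct.lid_tmul, one_smul, map_zero] at h3
  rw [MonoidHom.transfer_def _ T, MonoidHom.one_apply]
  have h5 : ∏ q, Additive.toMul (f g q) = 1 := by rw [← toMul_sum, h3]; rfl
  rw [← h5, Subgroup.leftTransversals.diff]
  refine Finset.prod_bij (fun q _ => (q : Abelianization G)) (fun _ _ => Finset.mem_univ _)
    (fun _ _ _ _ h => h) (fun q _ => ⟨q, @Finset.mem_univ _ (_) _, rfl⟩) fun q _ => ?_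
  simp only [f, toMul_ofMul]
  congr 2
  rw [Subgroup.smul_apply_eq_smul_apply_inv_smul]
  obtain ⟨x, rfl⟩ := QuotientGroup.mk_surjective q
  rfl

end Cfsg.Agent.S4320
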