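import Cfsg.Statements.S4323
import Mathlib
import Cfsg.Agent.FGS.AbCent2

set_option autoImplicit false
open Cfsg

namespace Cfsg.Agent.S4323

open CL Subgroup in

/-- Let `q` be a prime and `A` a non-cyclic group of order `q²` acting by automorphisms on a finite group `G` of order prime to `q`, such that the fixed-point subgroup `C_G(a)` is abelian for every non-identity `a ∈ A`. Then `G` is solvable. -/
theorem result {A G : Type*} [Group A] [Finite A]
    [Group G] [Finite G] [MulDistribMulAction A G] (q : ℕ) (hq : q.Prime) (hA : Nat.card A = q ^ 2) (hnc : ¬ IsCyclic A)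
    (hcop : ¬ q ∣ Nat.card G) (h : ∀ a : A, a ≠ 1 → IsMulCommutative ↥(FixedPoints.subgroup (Subgroup.zpowers a) G)) :
    Group.IsSolvable G := by
  have h1 : AbCent.Hyp q ((⊤ : Subgroup A).map (Hol.inr : A →* Hol A G))
      ((⊤ : Subgroup G).map (Hol.inl : G →* Hol A G)) := by
    refine ⟨hq, by rw [Hol.card_map_inr, card_top, hA], fun hc => hnc ?_,
      Hol.map_inr_le_normalizer_top _, by rwa [Hol.card_map_inl, card_top], ?_⟩
    · exact isCyclic_of_surjective _ ((Hol.equivInr (G := G) ⊤).symm.trans topEquiv).surjective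
    · rintro _ ⟨a, -, rfl⟩ ha
      have ha1 : a ≠ 1 := by
        rintro rfl
        exact ha (map_one _)
      rw [Hol.map_inl_inf_centralizer_singleton, top_inf_eq, actFix_eq_fixedPoints]
      refine map_le_centralizer_map _ fun x hx y hy => ?_
      exact congrArg Subtype.val ((h a ha1).is_comm.comm (⟨y, hy⟩ : FixedPoints.subgroup _ G) ⟨x, hx⟩)
  have h2 := h1.isSolvable
  exact isSolvable_of_mulEquiv ((Hol.equivInl (A := A) ⊤).symm.trans topEquiv)

end Cfsg.Agent.S4323
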