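import Cfsg.Statements.S4416
import Cfsg.Agent.PLOC.ESClass

set_option autoImplicit false
open Cfsg

namespace Cfsg.Agent.S4416

/-- Classification of extraspecial 2-groups in intrinsic form. An extraspecial 2-group has order 2^(2m+1) for some m ≥ 1, and the number of its elements squaring to the identity is either 2^(2m) + 2^m or 2^(2m) − 2^m; two extraspecial 2-groups of the same order with the same number of such elements are isomorphic. (The two cases are the central products of m dihedral groups of order 8, and of m − 1 dihedral groups with one quaternion group.) -/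
theorem result (E : Type*) [Group E] [Finite E] (hE : Cfsg.IsExtraspecial 2 E) :
    (∃ m : ℕ, 1 ≤ m ∧ Nat.card E = 2 ^ (2 * m + 1) ∧
      (Nat.card {x : E // x ^ 2 = 1} = 2 ^ (2 * m) + 2 ^ m ∨ Nat.card {x : E // x ^ 2 = 1} = 2 ^ (2 * m) - 2 ^ m)) ∧
    ∀ (E' : Type*) [Group E'] [Finite E'], Cfsg.IsExtraspecial 2 E' → Nat.card E' = Nat.card E →
      Nat.card {x : E' // x ^ 2 = 1} = Nat.card {x : E // x ^ 2 = 1} → Nonempty (E ≃* E') := by
  obtain ⟨z, d, c, -⟩ := CL.ES.exists_zdata hE
  obtain ⟨m, hm, hn⟩ := CL.ES.exists_card_eq_of_isExtraspecial hE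
  have hd := d.finrank_eq_of_card hn
  constructor
  · refine ⟨m, hm, hn, ?_⟩
    by_cases hpl : CL.Orth.IsPlus d.Q
    · exact Or.inl (d.card_sq_eq_one_of_isPlus c hd hpl)
    · exact Or.inr (Nat.eq_sub_of_add_eq (d.card_sq_eq_one_of_not_isPlus c hd hpl))
  · intro E' _ _ hE' hc hr
    obtain ⟨z', d', c', -⟩ := CL.ES.exists_zdata hE'
    have hd' := d'.finrank_eq_of_card (hc.trans hn)
    refine d.nonempty_mulEquiv_of_isPlus_iff d' c c' hc.symm ?_
    have hp : 0 < 2 ^ m := by positivity
    constructor
    · intro h1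
      by_contra h2
      have := d.card_sq_eq_one_of_isPlus c hd h1
      have := d'.card_sq_eq_one_of_not_isPlus c' hd' h2
      omega
    · intro h1
      by_contra h2
      have := d'.card_sq_eq_one_of_isPlus c' hd' h1
      have := d.card_sq_eq_one_of_not_isPlus c hd h2
      omega

end Cfsg.Agent.S4416
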