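import Cfsg.Statements.S4422
-- import your own Cfsg.Agent.* helpers here

set_option autoImplicit false
open Cfsg

namespace Cfsg.Agent.S4422

/-- Primitive divisors of `q^e - 1` are congruent to 1 modulo `e`. Let `q ≥ 2` and `e ≥ 1` be natural numbers and let `m` be a divisor of `q^e - 1` that is coprime to `q^i - 1` for every `1 ≤ i < e` (so `m` divides the primitive part of `q^e - 1`, the largest such divisor). Then `m ≡ 1 (mod e)`. -/
theorem result (q e m : ℕ) (hq : 2 ≤ q) (he : 1 ≤ e)
    (hm : m ∣ q ^ e - 1) (hcop : ∀ i : ℕ, 1 ≤ i → i < e → Nat.Coprime m (q ^ i - 1)) :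
    m % e = 1 % e := by
  -- every prime divisor of `m` is `1` modulo `e`
  have key : ∀ p : ℕ, p.Prime → p ∣ m → p ≡ 1 [MOD e] := by
    intro p hp hpm
    haveI := Fact.mk hp
    have hqe : 1 ≤ q ^ e := Nat.one_le_pow _ _ (by omega)
    have h1 : (q : ZMod p) ^ e = 1 := by
      have : ((q ^ e - 1 : ℕ) : ZMod p) = 0 := (ZMod.natCast_eq_zero_iff _ _).2 (hpm.trans hm)
      rw [Nat.cast_sub hqe] at this
      push_cast at this
      exact sub_eq_zero.1 this
    have hq0 : (q : ZMod p) ≠ 0 := by
      intro h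
      rw [h, zero_pow (by omega)] at h1
      exact zero_ne_one h1
    have hord : orderOf (q : ZMod p) = e := by
      rw [orderOf_eq_iff (by omega)]
      refine ⟨h1, fun i hi hi0 h => ?_⟩
      have hc := hcop i hi0 hi
      have hqi : 1 ≤ q ^ i := Nat.one_le_pow _ _ (by omega)
      have : p ∣ q ^ i - 1 := by
        rw [← ZMod.natCast_eq_zero_iff, Nat.cast_sub hqi]
        push_cast
        rw [h, sub_self]
      have h2 : p ∣ Nat.gcd m (q ^ i - 1) := Nat.dvd_gcd hpm this
      rw [hc] at h2
      exact hp.one_lt.ne' (Nat.dvd_one.1 h2)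
    have hdvd : e ∣ p - 1 := by
      rw [← hord]
      exact orderOf_dvd_of_pow_eq_one (ZMod.pow_card_sub_one_eq_one hq0)
    exact ((Nat.modEq_iff_dvd' hp.one_le).2 hdvd).symm
  have hm0 : m ≠ 0 := by
    rintro rfl
    have h0 : q ^ e - 1 = 0 := Nat.eq_zero_of_zero_dvd hm
    have : 2 ≤ q ^ e := le_trans hq (Nat.le_self_pow (by omega) q)
    omega
  have gen : ∀ n : ℕ, n ≠ 0 → (∀ p : ℕ, p.Prime → p ∣ n → p ≡ 1 [MOD e]) → n ≡ 1 [MOD e] := by
    intro n
    induction n using Nat.recOnMul with
    | zero => intro h; exact absurd rfl h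
    | one => intro _ _; rfl
    | prime p hp => intro _ h; exact h p hp dvd_rfl
    | mul a b iha ihb =>
      intro h0 h
      have ha := iha (left_ne_zero_of_mul h0) (fun p hp hd => h p hp (hd.mul_right _))
      have hb := ihb (right_ne_zero_of_mul h0) (fun p hp hd => h p hp (hd.mul_left _))
      simpa using ha.mul hb
  exact gen m hm0 key

end Cfsg.Agent.S4422
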