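import Cfsg.Statements.S4423
import Cfsg.Agent.KSG.Zsigmondy

set_option autoImplicit false
open Cfsg

namespace Cfsg.Agent.S4423


open CL.Zsig

def pr (q k : ℕ) : ℕ := Nat.rec 1 (fun i c => c * (q ^ (i + 1) - 1)) k

def pp (q e : ℕ) : ℕ := (q ^ e - 1) / Nat.gcd (q ^ e - 1) (pr q (e - 1) ^ 45)

def Chk2 (e q : ℕ) : Prop := 3 ≤ e → 2 ≤ q → q ^ cnt e e ≤ 12 * e ^ 2 →
  (q, e) ∈ [(2, 6), (2, 4), (2, 10), (2, 12), (2, 18), (3, 4), (3, 6), (5, 6), (2, 3), (2, 8), (2, 20), (4, 3), (4, 6)] ∨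
  (pp q e ∣ q ^ e - 1 ∧ (∀ i < e, 1 ≤ i → Nat.gcd (pp q e) (q ^ i - 1) = 1) ∧ 3 * e + 1 ≤ pp q e)

instance decChk2 (e q : ℕ) : Decidable (Chk2 e q) := by
  unfold Chk2; infer_instance

theorem fin_check : ∀ e < 43, ∀ q < 146, Chk2 e q := by
  decide +kernel

theorem small_cnt2 : ∀ n < 1059, 2 ^ cnt n (min n 120) ≤ 12 * n ^ 2 → n < 43 := by
  decide +kernel

theorem lt_two_pow2 {k : ℕ} (hk : 24 ≤ k) : 12 * (2 * k ^ 2) ^ 2 < 2 ^ k := by
  induction k, hk using Nat.le_induction with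
  | base => norm_num
  | succ k hk ih =>
    rw [pow_succ 2 k]
    have h1 : (k + 1) ^ 2 * 5 ≤ k ^ 2 * 6 := by nlinarith
    generalize (k + 1) ^ 2 = a at *
    generalize k ^ 2 = b at *
    nlinarith

theorem lt43 {n : ℕ} (h : 2 ^ n.totient ≤ 12 * n ^ 2) : n < 43 := by
  have h1 := (le_totient_sq n).1
  have h2 : n.totient < 24 := by
    by_contra h2
    have h3 := lt_two_pow2 (not_lt.1 h2)
    have := Nat.pow_le_pow_left h1 2
    omega
  have h3 : n.totient ^ 2 ≤ 23 ^ 2 := Nat.pow_le_pow_left (by omega) 2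
  exact small_cnt2 n (by omega)
    ((Nat.pow_le_pow_right two_pos (cnt_le n (min_le_left _ _))).trans h)

theorem bound (q e A B c : ℕ) (hA : q ^ e - 1 = A * B) (hBc : B ≤ c) (hB0 : 0 < B)
    (hAd : A ∣ (pr q (e - 1)) ^ 3) (m : ℕ) (hm : m ∣ q ^ e - 1)
    (hc : ∀ i : ℕ, 1 ≤ i → i < e → Nat.Coprime m (q ^ i - 1)) : m ≤ c := by
  have hco : ∀ k, k ≤ e - 1 → Nat.Coprime m (pr q k) := by
    intro k
    induction k with
    | zero => intro _; exact Nat.coprime_one_right _
    | succ k ih =>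
      intro hk
      change Nat.Coprime m (pr q k * (q ^ (k + 1) - 1))
      exact Nat.Coprime.mul_right (ih (by omega)) (hc _ (by omega) (by omega))
  have h1 : Nat.Coprime m A := ((hco _ le_rfl).pow_right 3).coprime_dvd_right hAd
  rw [hA] at hm
  exact (Nat.le_of_dvd hB0 (h1.dvd_of_dvd_mul_left hm)).trans hBc

/-- Size of the primitive part of `q^e - 1`. For a prime power `q` and `e ≥ 3`, call a divisor of `q^e - 1` primitive when it is coprime to `q^i - 1` for every `1 ≤ i < e`; the primitive part is the largest primitive divisor. Apart from thirteen exceptional pairs, the primitive part is at least `3e + 1`: there is a primitive divisor `m ≥ 3e + 1` unless `(q, e)` is `(2, 6)` (where every primitive divisor is 1), one of `(2,4), (2,10), (2,12), (2,18), (3,4), (3,6), (5,6)` (where the primitive part is exactly `e + 1`), or one of `(2,3), (2,8), (2,20), (4,3), (4,6)` (where it is exactly `2e + 1`). The statement asserts the existence of a primitive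 divisor `m ≥ 3e + 1` outside the thirteen pairs, and that every primitive divisor is at most `2e + 1` for the thirteen pairs. -/
theorem result (q e : ℕ) (hq : IsPrimePow q) (he : 3 ≤ e) :
    ((q, e) ∉ [(2, 6), (2, 4), (2, 10), (2, 12), (2, 18), (3, 4), (3, 6), (5, 6), (2, 3), (2, 8), (2, 20), (4, 3), (4, 6)] →
      ∃ m : ℕ, m ∣ q ^ e - 1 ∧ (∀ i : ℕ, 1 ≤ i → i < e → Nat.Coprime m (q ^ i - 1)) ∧ 3 * e + 1 ≤ m) ∧
    ((q, e) ∈ [(2, 6), (2, 4), (2, 10), (2, 12), (2, 18), (3, 4), (3, 6), (5, 6), (2, 3), (2, 8), (2, 20), (4, 3), (4, 6)] →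
      ∀ m : ℕ, m ∣ q ^ e - 1 → (∀ i : ℕ, 1 ≤ i → i < e → Nat.Coprime m (q ^ i - 1)) → m ≤ 2 * e + 1) := by
  have hq2 : 2 ≤ q := hq.two_le
  constructor
  · intro hex
    by_contra hcon
    set g := Nat.gcd (cv e q) e with hg
    obtain ⟨m, hm⟩ : g ∣ cv e q := Nat.gcd_dvd_left _ _
    have hmd : m ∣ cv e q := Dvd.intro_left _ hm.symm
    have hprim : ∀ i : ℕ, 1 ≤ i → i < e → Nat.Coprime m (q ^ i - 1) := by
      intro i hi1 hi2
      refine Nat.coprime_of_dvd fun p hp hpm hpi => ?_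
      have hpe : ¬ p ∣ e := by
        intro hpe
        refine not_sq_dvd_cv hp hpe (by omega) hq2 ?_
        rw [hm, sq]
        exact Nat.mul_dvd_mul (Nat.dvd_gcd (hpm.trans hmd) hpe) hpm
      have h7 := (prime_dvd_cv_iff_of_not_dvd hp hpe (by omega)).1 (hpm.trans hmd)
      exact ((orderOf_eq_iff_primitive (by omega) (by omega)).1 h7).2 i hi1 hi2 hpi
    have hm3 : m ≤ 3 * e := by
      by_contra h
      exact hcon ⟨m, hmd.trans (cv_dvd (by omega)), hprim, by omega⟩
    have hge : g ≤ e := Nat.le_of_dvd (by omega) (Nat.gcd_dvd_right _ _)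
    have h6 : q ^ e.totient ≤ 12 * e ^ 2 := by
      have := pow_totient_le_four_mul_cv (n := e) (by omega) hq2
      have h2 := Nat.mul_le_mul hge hm3
      rw [hm] at this
      nlinarith
    have h7 := lt43 ((Nat.pow_le_pow_left hq2 _).trans h6)
    have h8 : q < 146 := by
      by_contra h8
      have h9 : 2 ≤ e.totient :=
        Nat.le_of_dvd (Nat.totient_pos.2 (by omega)) (Nat.totient_even (by omega)).two_dvd
      have h10 : 146 ^ 2 ≤ q ^ e.totient :=
        (Nat.pow_le_pow_left (not_lt.1 h8) 2).trans (Nat.pow_le_pow_right (by omega) h9)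
      have h11 : e ^ 2 ≤ 42 ^ 2 := Nat.pow_le_pow_left (by omega) 2
      omega
    rcases fin_check e h7 q h8 he hq2 (by rwa [cnt_self]) with h | ⟨h9, h10, h11⟩
    · exact hex h
    · exact hcon ⟨_, h9, fun i hi1 hi2 => h10 i hi2 hi1, h11⟩
  · intro hin
    simp only [List.mem_cons, List.not_mem_nil, or_false, Prod.mk.injEq] at hin
    rcases hin with ⟨rfl, rfl⟩ | ⟨rfl, rfl⟩ | ⟨rfl, rfl⟩ | ⟨rfl, rfl⟩ | ⟨rfl, rfl⟩ | ⟨rfl, rfl⟩ | ⟨rfl, rfl⟩ |
      ⟨rfl, rfl⟩ | ⟨rfl, rfl⟩ | ⟨rfl, rfl⟩ | ⟨rfl, rfl⟩ | ⟨rfl, rfl⟩ | ⟨rfl, rfl⟩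
    · exact bound 2 6 63 1 _ (by norm_num) (by norm_num) (by norm_num) (by decide +kernel)
    · exact bound 2 4 3 5 _ (by norm_num) (by norm_num) (by norm_num) (by decide +kernel)
    · exact bound 2 10 93 11 _ (by norm_num) (by norm_num) (by norm_num) (by decide +kernel)
    · exact bound 2 12 315 13 _ (by norm_num) (by norm_num) (by norm_num) (by decide +kernel)
    · exact bound 2 18 13797 19 _ (by norm_num) (by norm_num) (by norm_num) (by decide +kernel)
    · exact bound 3 4 16 5 _ (by norm_num) (by norm_num) (by norm_num) (by decide +kernel)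
    · exact bound 3 6 104 7 _ (by norm_num) (by norm_num) (by norm_num) (by decide +kernel)
    · exact bound 5 6 2232 7 _ (by norm_num) (by norm_num) (by norm_num) (by decide +kernel)
    · exact bound 2 3 1 7 _ (by norm_num) (by norm_num) (by norm_num) (by decide +kernel)
    · exact bound 2 8 15 17 _ (by norm_num) (by norm_num) (by norm_num) (by decide +kernel)
    · exact bound 2 20 25575 41 _ (by norm_num) (by norm_num) (by norm_num) (by decide +kernel)
    · exact bound 4 3 9 7 _ (by norm_num) (by norm_num) (by norm_num) (by decide +kernel)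
    · exact bound 4 6 315 13 _ (by norm_num) (by norm_num) (by norm_num) (by decide +kernel)

end Cfsg.Agent.S4423
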