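import Cfsg.Statements.S4426
import Cfsg.Agent.BLK.Contrib

set_option autoImplicit false
open Cfsg

namespace Cfsg.Agent.S4426

open CL.Blk CL.Char

/-- Let χ be an irreducible character in the p-block B of the finite group G (relative to a maximal ideal M of the algebraic integers containing p), let p^a be the p-part of the order of G, and let χ̃ be the class function equal to p^a · χ on p-regular elements and zero elsewhere. For ξ ∈ B the inner product [χ̃, ξ] is an integer. The following are equivalent: (a) χ has height zero in B; (b) for some ξ ∈ B the integer [χ̃, ξ] is nonzero and the exact power of p dividing it equals the exact power of p dividing ξ(1); (c) the same holds for every ξ ∈ B. -/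
theorem result {G : Type*} [Group G] [Fintype G] (p : ℕ) [Fact p.Prime] (M : Ideal Cfsg.AlgInt) (hM : Cfsg.IsPModular p M) (B : Set (Cfsg.IrrCharacter G)) (hB : Cfsg.IsPBlock M B) (χ : Cfsg.IrrCharacter G) (hχ : χ ∈ B) : (Cfsg.blockHeight p B (χ : G → ℂ) = 0 ↔ ∃ ξ ∈ B, ∃ n : ℤ, Cfsg.classInner (fun x : G => if p ∣ orderOf x then (0 : ℂ) else ((p ^ (Nat.card G).factorization p : ℕ) : ℂ) * (χ : G → ℂ) x) (ξ : G → ℂ) = (n : ℂ) ∧ n ≠ 0 ∧ padicValInt p n = (Cfsg.charDegree (ξ : G → ℂ)).factorization p) ∧ (Cfsg.blockHeight p B (χ : G → ℂ) = 0 ↔ ∀ ξ ∈ B, ∃ n : ℤ, Cfsg.classInner (fun x : G => if p ∣ orderOf x then (0 : ℂ) else ((p ^ (Nat.card G).factorization p : ℕ) : ℂ) * (χ : G → ℂ) x) (ξ : G → ℂ) = (n : ℂ) ∧ n ≠ 0 ∧ padicValInt p n = (Cfsg.charDegree (ξ : G → ℂ)).factorization p) := by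
  classical
  have hp : p.Prime := Fact.out
  have key : ∀ ξ ∈ B, (Cfsg.blockHeight p B (χ : G → ℂ) = 0 ↔ ∃ n : ℤ, Cfsg.classInner (fun x : G => if p ∣ orderOf x then (0 : ℂ) else ((p ^ (Nat.card G).factorization p : ℕ) : ℂ) * (χ : G → ℂ) x) (ξ : G → ℂ) = (n : ℂ) ∧ n ≠ 0 ∧ padicValInt p n = (Cfsg.charDegree (ξ : G → ℂ)).factorization p) := by
    intro ξ hξ
    rw [tilde_eq, classInner_smul_left, ← contr_def, contr_comm hp χ.2.isGen ξ.2.isGen,
      ← tilde_div_notMem_iff hM hB hξ hχ]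
    have h1 := tilde_div_mem_V hM ξ χ.2.isClassFunction (conj_gen_mem_V χ.2.isGen)
    obtain ⟨n, hn⟩ := exists_int_tilde hp ξ.2.isGen χ.2.isGen
    push_cast
    rw [hn, irr_one_eq] at h1 ⊢
    rw [intCast_div_mem_V_iff hM _ (charDegree_ne_zero ξ)] at h1
    rw [intCast_div_mem_nonunits_iff hM _ (charDegree_ne_zero ξ), padicValInt_dvd_iff]
    rw [padicValInt_dvd_iff] at h1
    constructor
    · intro h
      push Not at h
      refine ⟨n, rfl, h.1, ?_⟩
      have := h1.resolve_left h.1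
      omega
    · rintro ⟨m, hm, h0, h2⟩
      obtain rfl : n = m := by exact_mod_cast hm
      push Not
      exact ⟨h0, by omega⟩
  refine ⟨⟨fun h => ⟨χ, hχ, (key χ hχ).1 h⟩, fun ⟨ξ, hξ, h⟩ => (key ξ hξ).2 h⟩,
    ⟨fun h ξ hξ => (key ξ hξ).1 h, fun h => (key χ hχ).2 (h χ hχ)⟩⟩

end Cfsg.Agent.S4426
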