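import Cfsg.Statements.S4427
import Mathlib
import Cfsg.Agent.BLK.IBr
import Cfsg.Agent.BLK.GRoots

set_option autoImplicit false
open Cfsg

namespace Cfsg.Agent.S4427

open CL CL.Blk CL.Char MonoidAlgebra
open scoped CL.MSS
open scoped ComplexConjugate commutatorElement

theorem sum_triv_mul {G : Type*} [Group G] [Finite G] (Q R : Subgroup G) [Fintype Q] [Fintype R]
    (h : (Nat.card Q).Coprime (Nat.card R)) :
    ∑ χ : IrrCharacter G, classInner (fun x : Q => χ.1 x) (fun _ => 1) *
      conj (classInner (fun x : R => χ.1 x) (fun _ => 1)) =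
      (Nat.card G : ℂ) / (Nat.card Q * Nat.card R) := by
  classical
  have h1 : ∀ (x : Q) (y : R), ∑ χ : IrrCharacter G, χ.1 x * conj (χ.1 y) =
      if x = 1 ∧ y = 1 then (Nat.card G : ℂ) else 0 := by
    intro x y
    split_ifs with hxy
    · rw [hxy.1, hxy.2]
      have := column_conj (G := G) (IsConj.refl 1)
      have h0 : Subgroup.centralizer ({1} : Set G) = ⊤ :=
        eq_top_iff.2 fun g _ => Subgroup.mem_centralizer_singleton_iff.2 (by simp)
      rw [h0, Subgroup.card_top] at this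
      simpa using this
    · refine column_not_conj fun hc => hxy ?_
      obtain ⟨c, hc'⟩ := isConj_iff.1 hc
      have h2 : orderOf x = orderOf y := by
        rw [← Subgroup.orderOf_coe, ← Subgroup.orderOf_coe y, ← hc']
        exact ((MulAut.conj c).orderOf_eq _).symm
      have h3 : orderOf x = 1 := Nat.eq_one_of_dvd_coprimes h (orderOf_dvd_natCard x)
        (h2 ▸ orderOf_dvd_natCard y)
      exact ⟨orderOf_eq_one_iff.1 h3, orderOf_eq_one_iff.1 (h2 ▸ h3)⟩
  have h2 : ∀ χ : IrrCharacter G, classInner (fun x : Q => χ.1 x) (fun _ => 1) *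
      conj (classInner (fun x : R => χ.1 x) (fun _ => 1)) =
      ((Nat.card Q : ℂ) * Nat.card R)⁻¹ * ∑ x : Q, ∑ y : R, χ.1 x * conj (χ.1 y) := by
    intro χ
    simp only [classInner_def, map_one, mul_one, map_mul, map_inv₀, map_natCast, map_sum]
    rw [← Finset.sum_mul_sum, mul_inv]
    ring
  simp only [h2]
  rw [← Finset.mul_sum, Finset.sum_comm]
  have h3 : ∑ x : Q, ∑ χ : IrrCharacter G, ∑ y : R, χ.1 x * conj (χ.1 y) = Nat.card G := by
    simp only [fun x : Q => Finset.sum_comm (s := Finset.univ) (t := Finset.univ)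
      (f := fun (χ : IrrCharacter G) (y : R) => χ.1 x * conj (χ.1 y)), h1, ite_and]
    simp
  rw [h3]
  ring

/-- Let G be a finite group of order p^a · q^b · r^c with p, q, r distinct primes, and suppose that G has exactly q^b · r^c elements of order not divisible by p. Then G has a normal p-complement: a normal subgroup of order q^b · r^c. -/
theorem result {G : Type*} [Group G] [Finite G] (p q r a b c : ℕ) (hp : p.Prime) (hq : q.Prime) (hr : r.Prime) (hpq : p ≠ q) (hpr : p ≠ r) (hqr : q ≠ r) (hG : Nat.card G = p ^ a * q ^ b * r ^ c) (hcount : Nat.card {g : G // ¬ p ∣ orderOf g} = q ^ b * r ^ c) : ∃ N : Subgroup G, N.Normal ∧ Nat.card N = q ^ b * r ^ c := by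
  classical
  have := Fintype.ofFinite G
  obtain ⟨M, hM⟩ := CL.Glb.exists_isPModular hp
  obtain ⟨S, hS⟩ := exists_isBrauer hM (isBlockUnion_univ (G := G))
  have hq' : Fact q.Prime := ⟨hq⟩
  have hr' : Fact r.Prime := ⟨hr⟩
  obtain ⟨Q, hQ⟩ := Sylow.exists_subgroup_card_pow_prime q (G := G) (n := b)
    (hG ▸ Dvd.dvd.mul_right (Dvd.intro_left _ rfl) _)
  obtain ⟨R, hR⟩ := Sylow.exists_subgroup_card_pow_prime r (G := G) (n := c)
    (hG ▸ Dvd.intro_left _ rfl)
  have := Fintype.ofFinite Q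
  have := Fintype.ofFinite R
  set o := CL.Blk.irrOne G with ho
  have hdeg := S.degree_eq hp (Set.mem_univ o)
  rw [show charDegree o.1 = 1 from charDegree_const_one] at hdeg
  obtain ⟨i, hi⟩ := S.exists_D_ne_zero hp (Set.mem_univ o)
  have hterm : ∀ j, 0 ≤ S.D o j * S.deg j := fun j =>
    mul_nonneg (hS.D_nonneg o j) (hS.deg_pos hM j).le
  have hi1 : 1 ≤ S.D o i := lt_of_le_of_ne (hS.D_nonneg o i) (Ne.symm hi)
  have hsplit := Finset.add_sum_erase Finset.univ (fun j => S.D o j * S.deg j) (Finset.mem_univ i)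
  have hrest := Finset.sum_nonneg fun j (_ : j ∈ Finset.univ.erase i) => hterm j
  have hdi := hS.deg_pos hM i
  have hDi : S.D o i = 1 := by push_cast at hdeg; nlinarith
  have hD0 : ∀ j, j ≠ i → S.D o j = 0 := by
    intro j hj
    have h1 : ∑ j ∈ Finset.univ.erase i, S.D o j * S.deg j = 0 := by push_cast at hdeg; nlinarith
    have h2 := (Finset.sum_eq_zero_iff_of_nonneg fun j _ => hterm j).1 h1 j
      (Finset.mem_erase.2 ⟨hj, Finset.mem_univ _⟩)
    exact (mul_eq_zero.1 h2).resolve_right (hS.deg_pos hM j).ne'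
  have key : ∀ (K : Subgroup G) [Fintype K], ¬ p ∣ Nat.card K → ∃ a : IrrCharacter G → ℤ,
      ∀ χ, classInner (fun x : K => χ.1 x) (fun _ => 1) = a χ ∧ S.D χ i ≤ a χ := by
    intro K _ hK
    obtain ⟨E, hE, hEi, hEc⟩ := exists_idem_of_not_dvd hM hK K.subtype (CL.Blk.irrOne K)
    obtain ⟨m, hm⟩ := hS.idem E hE hEi
    have h1 : ∀ χ : IrrCharacter G, classInner (fun x : K => χ.1 x) (fun _ => 1) =
        ((∑ j, m j * S.D χ j : ℤ) : ℂ) := by
      intro χ
      have h2 := hEc χ.1 χ.2.isClassFunction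
      rw [hm χ (Set.mem_univ _), CL.Blk.irrOne_apply, mul_one] at h2
      push_cast
      exact h2.symm
    have h2 : m i = 1 := by
      have h3 := h1 o
      rw [Finset.sum_eq_single i (fun j _ hj => by rw [hD0 j hj, mul_zero]) (by simp), hDi,
        mul_one] at h3
      have h4 : classInner (fun x : K => o.1 x) (fun _ => 1) = 1 := classInner_one_one
      rw [h4] at h3
      exact_mod_cast h3.symm
    refine ⟨fun χ => ∑ j, m j * S.D χ j, fun χ => ⟨h1 χ, ?_⟩⟩
    have := Finset.single_le_sum (f := fun j => (m j : ℤ) * S.D χ j)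
      (fun j _ => mul_nonneg (Int.natCast_nonneg _) (hS.D_nonneg χ j)) (Finset.mem_univ i)
    simpa [h2] using this
  obtain ⟨α, hα⟩ := key Q (by
    rw [hQ]; exact fun h => hpq ((Nat.prime_dvd_prime_iff_eq hp hq).1 (hp.dvd_of_dvd_pow h)))
  obtain ⟨β, hβ⟩ := key R (by
    rw [hR]; exact fun h => hpr ((Nat.prime_dvd_prime_iff_eq hp hr).1 (hp.dvd_of_dvd_pow h)))
  have hq0 : (q : ℂ) ≠ 0 := Nat.cast_ne_zero.2 hq.ne_zero
  have hr0 : (r : ℂ) ≠ 0 := Nat.cast_ne_zero.2 hr.ne_zero
  have hp0 : (p : ℂ) ≠ 0 := Nat.cast_ne_zero.2 hp.ne_zero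
  have hsum : ∑ χ, α χ * β χ = (p : ℤ) ^ a := by
    have h1 := sum_triv_mul Q R (by
      rw [hQ, hR]; exact Nat.coprime_pow_primes b c hq hr hqr)
    simp only [fun χ => (hα χ).1, fun χ => (hβ χ).1, map_intCast, hG, hQ, hR] at h1
    have h2 : ((∑ χ, α χ * β χ : ℤ) : ℂ) = ((p : ℤ) ^ a : ℤ) := by
      push_cast at h1 ⊢
      rw [h1]; field_simp
    exact_mod_cast h2
  have hC : S.C i i ≤ (p : ℤ) ^ a := by
    rw [← hsum, S.C_apply]
    exact Finset.sum_le_sum fun χ _ => mul_le_mul (hα χ).2 (hβ χ).2 (hS.D_nonneg χ i)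
      ((hS.D_nonneg χ i).trans (hα χ).2)
  set e : G → ℂ := pRegularPart p (fun _ => 1) with he
  have h1 : classInner (S.Φ i) e = 1 := by
    rw [he, ← classInner_reg_left, S.reg_Φ]
    have := S.inner_Φ_irr o i
    rw [hDi] at this
    exact_mod_cast this
  have h2 : classInner e (S.Φ i) = 1 := by rw [← classInner_conj_symm, h1, map_one]
  have h3 : classInner e e = ((p : ℂ) ^ a)⁻¹ := by
    rw [he, classInner_reg_reg, classInner_def]
    have : ∑ g : G, pRegularPart p (fun _ => (1 : ℂ)) g * conj 1 = (q : ℂ) ^ b * r ^ c := by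
      simp only [pRegularPart_apply, map_one, mul_one]
      rw [Finset.sum_ite, Finset.sum_const_zero, zero_add, Finset.sum_const, nsmul_eq_mul, mul_one,
        ← Fintype.card_subtype, ← Nat.card_eq_fintype_card, hcount]
      push_cast; rfl
    rw [this, hG]
    push_cast
    field_simp
  have h4 : S.Φ i - (p : ℂ) ^ a • e = 0 := by
    rw [← classInner_self_eq_zero]
    have h5 : classInner (S.Φ i - (p : ℂ) ^ a • e) (S.Φ i - (p : ℂ) ^ a • e) =
        ((S.C i i - p ^ a : ℤ) : ℂ) := by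
      rw [classInner_sub_left, classInner_sub_right, classInner_sub_right, classInner_smul_left,
        classInner_smul_left, classInner_smul_right, classInner_smul_right, h1, h2, h3,
        S.inner_Φ_Φ]
      simp only [map_pow, map_natCast]
      push_cast
      field_simp
      ring
    have h6 := classInner_self_re_nonneg (S.Φ i - (p : ℂ) ^ a • e)
    rw [h5, Complex.intCast_re] at h6
    have h7 : S.C i i - p ^ a = 0 := le_antisymm (by omega) (by exact_mod_cast h6)
    rw [h5, h7, Int.cast_zero]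
  have h5 : ∀ g, S.Φ i g = (p : ℂ) ^ a * e g := fun g => congrFun (sub_eq_zero.1 h4) g
  have hΦ := hS.isCharacter_Φ i
  refine ⟨charKer (S.Φ i), hΦ.charKer_normal, ?_⟩
  rw [← hcount]
  refine Nat.card_congr (Equiv.subtypeEquivRight fun g => ?_)
  rw [hΦ.mem_charKer, h5, h5, he, pRegularPart_one hp, pRegularPart_apply]
  split_ifs with hg
  · simp [hg, (pow_ne_zero a hp0).symm]
  · simp [hg]

end Cfsg.Agent.S4427
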