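import Cfsg.Statements.S4431
import Cfsg.Agent.BLK.IndTilde
-- import your own Cfsg.Agent.* helpers here

set_option autoImplicit false
open Cfsg

namespace Cfsg.Agent.S4431

/-- Let H be a subgroup of the finite group G and b a block of H whose induced block B₀ in G is defined (relative to a maximal ideal M of the algebraic integers containing p). Let χ be an irreducible character of G, ψ ∈ b, and let η be the class function on H equal to p^a · χ on the p-regular elements of H and zero elsewhere, p^a being the p-part of the order of H. Then (a) if χ ∉ B₀, the number [η, ψ]/ψ(1) lies in the local ideal at M; (b) if χ ∈ B₀ has height zero, it does not. -/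
theorem result {G : Type*} [Group G] [Fintype G] (p : ℕ) [Fact p.Prime] (M : Ideal Cfsg.AlgInt) (hM : Cfsg.IsPModular p M) (H : Subgroup G) [Fintype H] (b : Set (Cfsg.IrrCharacter H)) (B₀ : Set (Cfsg.IrrCharacter G)) (hind : Cfsg.IsInducedBlock M H b B₀) (χ : Cfsg.IrrCharacter G) (ψ : Cfsg.IrrCharacter H) (hψ : ψ ∈ b) : (χ ∉ B₀ → Cfsg.MemLocalIdeal M (Cfsg.classInner (fun h : H => if p ∣ orderOf h then (0 : ℂ) else ((p ^ (Nat.card H).factorization p : ℕ) : ℂ) * (χ : G → ℂ) h) (ψ : H → ℂ) / (ψ : H → ℂ) 1)) ∧ (χ ∈ B₀ → Cfsg.blockHeight p B₀ (χ : G → ℂ) = 0 → ¬ Cfsg.MemLocalIdeal M (Cfsg.classInner (fun h : H => if p ∣ orderOf h then (0 : ℂ) else ((p ^ (Nat.card H).factorization p : ℕ) : ℂ) * (χ : G → ℂ) h) (ψ : H → ℂ) / (ψ : H → ℂ) 1)) := by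
  classical
  have hp := hM.1
  have key := hind.tilde_notMem_iff hM hψ χ
  have hres : IsGeneralizedCharacter H (fun h : H => (χ : G → ℂ) h) := (χ.2.isCharacter.res H).isGen
  have e : Cfsg.classInner (fun h : H => if p ∣ orderOf h then (0 : ℂ) else ((p ^ (Nat.card H).factorization p : ℕ) : ℂ) * (χ : G → ℂ) h) (ψ : H → ℂ) = (p : ℂ) ^ (Nat.card H).factorization p * CL.Blk.contr p ψ.1 (fun x : H => χ.1 x) := by
    rw [CL.Blk.tilde_eq _ (fun h : H => (χ : G → ℂ) h), CL.Char.classInner_smul_left, ← CL.Blk.contr_def,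
      CL.Blk.contr_comm hp hres ψ.2.isGen, Nat.cast_pow]
  obtain ⟨n, hn⟩ := CL.Blk.exists_int_tilde hp ψ.2.isGen hres
  have halg : IsAlgebraic ℚ ((p : ℂ) ^ (Nat.card H).factorization p * CL.Blk.contr p ψ.1 (fun x : H => χ.1 x) / ψ.1 1) := by
    rw [hn, CL.Blk.irr_one_eq]
    exact CL.Blk.isAlgebraic_div (isAlgebraic_intCast n) (isAlgebraic_natCast _)
  rw [e, CL.Blk.memLocalIdeal_iff_of_alg hM halg]
  refine ⟨fun h => ?_, fun h h0 => key.2 ⟨h, h0⟩⟩
  by_contra h'
  exact h (key.1 h').1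

end Cfsg.Agent.S4431
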