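import Cfsg.Statements.S4437
import Mathlib
import Cfsg.Agent.BLK.Local

set_option autoImplicit false
open Cfsg

namespace Cfsg.Agent.S4437

open CL CL.Blk CL.Char MonoidAlgebra
open scoped CL.MSS

/-- Let P be a p-subgroup of the finite group G, H = P·C_G(P), and b a block of H (relative to a maximal ideal M of the algebraic integers containing p) having P as a defect group; let B be the block of G induced by b. Let T be the stabilizer of b in N_G(P): the elements g of N_G(P) such that the g-conjugate of every member of b is again a member of b. Then B has defect group P if and only if p does not divide the index of H in T. -/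
theorem result {G : Type*} [Group G] [Fintype G] (p : ℕ) [Fact p.Prime] (M : Ideal Cfsg.AlgInt) (hM : Cfsg.IsPModular p M) (P : Subgroup G) (hP : IsPGroup p P) (H : Subgroup G) [Fintype H] (hH : H = P ⊔ Subgroup.centralizer (P : Set G)) (b : Set (Cfsg.IrrCharacter H)) (hb : Cfsg.IsPBlock M b) (hbP : Cfsg.IsDefectGroup p M b (P.subgroupOf H)) (B : Set (Cfsg.IrrCharacter G)) (hind : Cfsg.IsInducedBlock M H b B) (T : Subgroup G) (hT : ∀ g : G, g ∈ T ↔ (g ∈ Subgroup.normalizer (P : Set G) ∧ ∀ θ ∈ b, ∀ θ' : Cfsg.IrrCharacter H, (∀ h h' : H, (h' : G) = g * h * g⁻¹ → (θ' : H → ℂ) h' = (θ : H → ℂ) h) → θ' ∈ b)) : Cfsg.IsDefectGroup p M B P ↔ ¬ p ∣ H.relIndex T := by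
  have hr := Subgroup.range_subtype H
  have hPH : P ≤ H := hH ▸ le_sup_left
  have hCH : Subgroup.centralizer (P : Set G) ≤ H := hH ▸ le_sup_right
  have hHN : H ≤ Subgroup.normalizer (P : Set G) :=
    hH ▸ sup_le Subgroup.le_normalizer (Subgroup.centralizer_le_normalizer _)
  have hNH : Subgroup.normalizer (P : Set G) ≤ Subgroup.normalizer (H : Set G) :=
    hH ▸ MSS.le_normalizer_sup le_rfl (MSS.normalizer_le_normalizer_centralizer P)
  have hB := hind.2.1
  have hsb := (isBlk_eB hM hb).isSB_amb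
  have hg := hsb.isPair_of_le_sup hM.1 (natCast_F hM) hP hPH hCH hH.le
  have hrel : RelPair p ⊤ (eB M B) P (amb H.subtype (eB M b)) :=
    ⟨hg, le_top, le_top, (indAlong_iff_Br_mul hM.1 (natCast_F hM) hP hPH hCH hHN
      (isBlk_eB hM hb) (isBlk_eB hM hB)).1 (hind.indAlong hM)⟩
  have hT' : ∀ g : G, g ∈ T ↔ g ∈ Subgroup.normalizer (P : Set G) ∧
      cj g (amb H.subtype (eB M b)) = amb H.subtype (eB M b) := fun g => by
    rw [hT]
    exact and_congr_right fun h =>
      forall_conj_mem_iff hM (MSS.cj_eq_of_mem_normalizer (hNH h)) hb hb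
  rw [isDefectGroup_iff hM hB, ← sDef_top]
  constructor
  · intro h
    have := (hrel.isMaxIn_of_sDef hM.1 (natCast_F hM) (isBlk_eB hM hB).isSB_top h).not_dvd_relIndex
      hM.1 (natCast_F hM) hg le_top le_top (T := T) le_top (fun x hx => ((hT' x).1 hx).1)
      (isFixed_iff_cj.2 fun x hx => ((hT' x).1 hx).2)
    rwa [← hH] at this
  · intro h
    have hrelH : RelPair p H (amb H.subtype (eB M b)) P (amb H.subtype (eB M b)) :=
      ⟨hg, hPH, hCH, by rw [hg.Br_self, hg.idem]⟩
    have hm := hrelH.isMaxIn_of_sDef hM.1 (natCast_F hM) hsb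
      ((sDef_amb_subtype_iff' hPH).2 (hbP.isDef hM hb))
    exact hrel.sDef_of_isMaxIn hM.1 (natCast_F hM) (isBlk_eB hM hB).isSB_top
      (isMaxIn_of_not_dvd hM.1 hm (fun x _ h1 h2 => (hT' x).2 ⟨h1, h2⟩)
        (fun x hx => hNH ((hT' x).1 hx).1) h)

end Cfsg.Agent.S4437
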