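import Cfsg.Statements.S4442
import Cfsg.Agent.BLK.CycOne

set_option autoImplicit false
open Cfsg

namespace Cfsg.Agent.S4442

/-- Blocks of defect one. Let p be an odd prime and G a finite group whose Sylow p-subgroup P has order p; let C = C_G(P) and N = N_G(P), and fix a maximal ideal M of the algebraic integers containing p. Let B be a block of G with defect group P, b a block of C inducing B, and θ the member of b having P in its kernel (there is exactly one). Let T be the stabilizer of θ in N (the elements g ∈ N with θ(g c g⁻¹) = θ(c) for all c ∈ C) and e the index of C in T. Then e divides p − 1 and B contains exactly e + (p − 1)/e irreducible characters. Moreover B is the disjoint union of a set X of e characters and a set Y of (p − 1)/e characters such that, with f the index of C in N: every χ ∈ X has χ(1) ≡ ±(f/e)·θ(1) (mod p), there is one sign ε with ψ(1) ≡ ε f θ(1) (mod p) for all ψ ∈ Y, and all members of Y agree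 on the p-regular elements of G. -/
theorem result {G : Type*} [Group G] [Finite G] (p : ℕ) [Fact p.Prime] (M : Ideal Cfsg.AlgInt) (hM : Cfsg.IsPModular p M) (hodd : p ≠ 2) (P : Sylow p G) (hP : Nat.card P = p) (B : Set (Cfsg.IrrCharacter G)) (hB : Cfsg.IsPBlock M B) (hBP : Cfsg.IsDefectGroup p M B P) (b : Set (Cfsg.IrrCharacter (Subgroup.centralizer ((P : Subgroup G) : Set G)))) (hind : Cfsg.IsInducedBlock M (Subgroup.centralizer ((P : Subgroup G) : Set G)) b B) (θ : Cfsg.IrrCharacter (Subgroup.centralizer ((P : Subgroup G) : Set G))) (hθ : θ ∈ b) (hθP : ∀ x : Subgroup.centralizer ((P : Subgroup G) : Set G), (x : G) ∈ (P : Subgroup G) → (θ : Subgroup.centralizer ((P : Subgroup G) : Set G) → ℂ) x = (θ : Subgroup.centralizer ((P : Subgroup G) : Set G) → ℂ) 1) (T : Subgroup G) (hT : ∀ g : G, g ∈ T ↔ (g ∈ Subgroup.normalizer ((P : Subgroup G) : Set G) ∧ ∀ c c' : Subgroup.centralizer ((P : Subgroup G) : Set G), (c' : G) = g * c *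 g⁻¹ → (θ : Subgroup.centralizer ((P : Subgroup G) : Set G) → ℂ) c' = (θ : Subgroup.centralizer ((P : Subgroup G) : Set G) → ℂ) c)) (e f : ℕ) (he : (Subgroup.centralizer ((P : Subgroup G) : Set G)).relIndex T = e) (hf : (Subgroup.centralizer ((P : Subgroup G) : Set G)).relIndex (Subgroup.normalizer ((P : Subgroup G) : Set G)) = f) : e ∣ p - 1 ∧ Nat.card B = e + (p - 1) / e ∧ ∃ X Y : Set (Cfsg.IrrCharacter G), B = X ∪ Y ∧ Disjoint X Y ∧ Nat.card X = e ∧ Nat.card Y = (p - 1) / e ∧ (∀ χ ∈ X, (Cfsg.charDegree (χ : G → ℂ) : ℤ) ≡ ((f / e * Cfsg.charDegree (θ : Subgroup.centralizer ((P : Subgroup G) : Set G) → ℂ) : ℕ) : ℤ) [ZMOD p] ∨ (Cfsg.charDegree (χ : G → ℂ) : ℤ) ≡ -((f / e * Cfsg.charDegree (θ : Subgroup.centralizer ((P : Subgroup G) : Set G) → ℂ) : ℕ) : ℤ) [ZMOD p]) ∧ (∃ ε : ℤ, (ε = 1 ∨ ε = -1) ∧ ∀ ψ ∈ Y, (Cfsg.charDegree (ψ : G → ℂ) : ℤ) ≡ ε * ((f * Cfsg.charDegree (θ : Subgroup.centralizer ((P : Subgroup G) : Set G) → ℂ) : ℕ)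 : ℤ) [ZMOD p]) ∧ ∀ ψ ∈ Y, ∀ ψ' ∈ Y, ∀ g : G, ¬ p ∣ orderOf g → (ψ : G → ℂ) g = (ψ' : G → ℂ) g := by
  classical
  have := Fintype.ofFinite G
  have hk : CL.Cyc.InKer (P : Subgroup G) θ := hθP
  have h := (CL.Cyc.setup_self hM hBP hP hind).exists_loc_inKer hθ hk
  have hT' : T = CL.Blk.pairStab (P : Subgroup G) (CL.Blk.sb M _ b) := Subgroup.ext fun g => by
    rw [hT]
    refine ⟨fun ⟨h1, h2⟩ => ?_, fun h1 => ⟨h1.1, fun c c' hc => ?_⟩⟩
    · refine inv_mem_iff.1 ((h.smul_eq_iff (⟨g, h1⟩⁻¹)).1 (Subtype.ext (funext fun x => ?_)))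
      rw [CL.Cyc.smul_irr_apply, inv_inv]
      exact h2 _ _ rfl
    · rw [← congrFun (congrArg Subtype.val (h.fix ⟨g, h1.1⟩ h1)) c', CL.Cyc.smul_irr_apply]
      refine congrArg θ.1 (Subtype.ext ?_)
      rw [CL.Cyc.coe_cjHom, hc]
      simp [mul_assoc]
  rw [← hT', he] at h
  obtain ⟨X, ψ, δ, ε, s⟩ := h.exists_str
  refine ⟨h.e_dvd, by rw [s.card_B h.e_pos, h.card_c, hP], X, ψ '' (_ \ {_}), s.B_eq, s.disjoint,
    s.card_X', by rw [s.card_Y' h.e_pos, h.card_c, hP], fun χ hχ => ?_, ⟨ε, s.sign', ?_⟩, ?_⟩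
  · have := s.degree_X_Z h hk hχ
    rw [hf] at this
    rcases s.sign χ hχ with a | a <;> rw [a] at this
    · exact Or.inr (by simpa using this)
    · exact Or.inl (by simpa using this)
  · rintro _ ⟨θ', hθ', rfl⟩
    have := s.degree_Y_Z h hk hθ'.1 hθ'.2
    rwa [hf] at this
  · rintro _ ⟨θ, hθ, rfl⟩ _ ⟨θ', hθ', rfl⟩ g hg
    exact s.val_reg_eq h hθ.1 hθ.2 hθ'.1 hθ'.2 hg

end Cfsg.Agent.S4442
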