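import Cfsg.Statements.S4447
import Cfsg.Agent.BLK.GOver

set_option autoImplicit false
open Cfsg

namespace Cfsg.Agent.S4447


/-- Inside a finite group Γ let S normalise G and also normalise a normal subgroup N of G, with the order of S coprime to the index of N in G and S or G/N solvable. Then for every S-invariant irreducible character χ of G, the restriction of χ to N has an S-invariant irreducible constituent. -/
theorem result {Γ : Type*} [Group Γ] [Fintype Γ] (G S N : Subgroup Γ) [Fintype G] [Fintype N] (hnorm : ∀ s ∈ S, ∀ g ∈ G, s * g * s⁻¹ ∈ G) (hNG : N ≤ G) [hNn : (N.subgroupOf G).Normal] (hNS : ∀ s ∈ S, ∀ n ∈ N, s * n * s⁻¹ ∈ N) (hcop : (N.relIndex G).Coprime (Nat.card S)) (hsolv : Group.IsSolvable S ∨ Group.IsSolvable (G ⧸ N.subgroupOf G)) (χ : Cfsg.IrrCharacter G) (hinv : (∀ s ∈ S, ∀ g g' : G, (g' : Γ) = s * g * s⁻¹ → (χ : G → ℂ) g' = (χ : G → ℂ) g)) : ∃ θ : Cfsg.IrrCharacter N, Cfsg.classInner (fun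 n : N => (χ : G → ℂ) ⟨n, hNG n.2⟩) (θ : N → ℂ) ≠ 0 ∧ (∀ s ∈ S, ∀ g g' : N, (g' : Γ) = s * g * s⁻¹ → (θ : N → ℂ) g' = (θ : N → ℂ) g) := by
  obtain ⟨θ, hθ, h1, h2⟩ := CL.Glb.exists_IS_under hNG
    ((Subgroup.normal_subgroupOf_iff_le_normalizer hNG).mp hNn) (CL.Glb.le_norm_of_conj hnorm)
    (CL.Glb.le_norm_of_conj hNS) hcop.symm
    (fun s hs => by
      have : s ^ Nat.card S = 1 := congrArg Subtype.val (pow_card_eq_one' (x := (⟨s, hs⟩ : S)))
      rw [this]; exact one_mem N)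
    (fun g hg => Subgroup.pow_index_mem (N.subgroupOf G) ⟨g, hg⟩)
    (hsolv.imp (fun h => CL.Glb.solvMod_of_isSolvable h N) CL.Glb.solvMod_of_quot) χ.2 hinv
  exact ⟨⟨θ, hθ⟩, h1, h2⟩

end Cfsg.Agent.S4447
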