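import Cfsg.Statements.S4450
import Cfsg.Agent.BLK.GAbove

set_option autoImplicit false
open Cfsg

namespace Cfsg.Agent.S4450


/-- Let N ≤ G be normal subgroups of the finite group Γ with the index of G in Γ coprime to the index of N in G, and Γ/G or G/N solvable. Then for every irreducible character ϑ of N invariant under conjugation by Γ, the induced character ϑ^G has an irreducible constituent invariant under conjugation by Γ. -/
theorem result {Γ : Type*} [Group Γ] [Fintype Γ] (G N : Subgroup Γ) [hG : G.Normal] [hN : N.Normal] [Fintype G] [Fintype N] (hNG : N ≤ G) (hcop : (G.index).Coprime (N.relIndex G)) (hsolv : Group.IsSolvable (Γ ⧸ G) ∨ Group.IsSolvable (G ⧸ N.subgroupOf G)) (θ : Cfsg.IrrCharacter N) (hinv : ∀ (x : Γ) (n : N), (θ : N → ℂ) ⟨x * n * x⁻¹, hN.conj_mem n n.2 x⟩ = (θ : N → ℂ) n) : ∃ χ : Cfsg.IrrCharacter G, Cfsg.classInner (fun n : N => (χ : G → ℂ) ⟨n, hNG n.2⟩) (θ : N → ℂ) ≠ 0 ∧ ∀ (x : Γ) (g : G), (χ : G → ℂ) ⟨x * g * x⁻¹, hG.conj_mem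 g g.2 x⟩ = (χ : G → ℂ) g := by
  let π := QuotientGroup.mk' N
  have hπ : ∀ x, π x = 1 ↔ x ∈ N := fun x => QuotientGroup.eq_one_iff x
  have hsurj : Function.Surjective π := QuotientGroup.mk'_surjective N
  have hker : π.ker ≤ G := by rw [QuotientGroup.ker_mk']; exact hNG
  have := hG.map π hsurj
  have hidx : (G.map π).index = G.index := G.index_map_eq hsurj hker
  have hcard : Nat.card (G.map π) = N.relIndex G := by
    rw [← Subgroup.relIndex_ker, QuotientGroup.ker_mk']
  obtain ⟨H, hH⟩ := Subgroup.exists_right_complement'_of_coprime (N := G.map π)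
    (by rw [hidx, hcard]; exact hcop.symm)
  let S := H.comap π
  have hSG : ∀ s ∈ S, s ∈ G → s ∈ N := fun s hs hsG =>
    (hπ s).mp (Subgroup.disjoint_def.mp hH.disjoint ⟨s, hsG, rfl⟩ hs)
  obtain ⟨χ, hχ, h1, h2⟩ := CL.Glb.exists_IS_ov (S := S) hNG
    Subgroup.le_normalizer_of_normal Subgroup.le_normalizer_of_normal
    Subgroup.le_normalizer_of_normal hcop
    (fun s hs => hSG _ (pow_mem hs _) (G.pow_index_mem s))
    (fun g hg => N.pow_relIndex_mem hg)
    (hsolv.imp (fun h => CL.Glb.solvMod_of_hom (h := h) ((QuotientGroup.mk' G).comp S.subtype) fun s hs =>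
      hSG s s.2 ((QuotientGroup.eq_one_iff (s : Γ)).mp hs)) CL.Glb.solvMod_of_quot) θ.2
    (fun s _ g g' hg => by
      rw [← hinv s g]
      exact congrArg θ.1 (Subtype.ext hg))
  refine ⟨⟨χ, hχ⟩, h1, fun x g => ?_⟩
  have h3 : x ∈ CL.Glb.stab G χ := by
    obtain ⟨⟨⟨_, a, ha, rfl⟩, b⟩, hab⟩ := hH.2 (π x)
    have h4 : a⁻¹ * x ∈ S := by
      change π _ ∈ H
      rw [map_mul, map_inv, ← hab]
      simp
    have := mul_mem (CL.Glb.le_stab_self G hχ.isClassFunction ha)
      ((CL.Glb.IS_iff_le_stab Subgroup.le_normalizer_of_normal).mp h2 h4)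
    simpa using this
  exact h3.2 g _ rfl

end Cfsg.Agent.S4450
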