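import Cfsg.Statements.S4451
import Cfsg.Agent.BLK.GCanon

set_option autoImplicit false
open Cfsg

namespace Cfsg.Agent.S4451


/-- Let the finite group Γ be generated by a normal subgroup G and a cyclic subgroup S of coprime orders such that every non-identity element of S has the same centraliser C = G ⊓ C(S) in G. Let χ be an S-invariant irreducible character of G, χ̂ its canonical extension to Γ (determinantal order coprime to the order of S), and β the irreducible character of C with χ̂(c s) = ε₀ β(c) for c ∈ C and generators s of S (ε₀ = ±1). Then there are a sign ε = ±1, which may differ from ε₀, and a linear character μ of S with μ² = 1, such that: (a) χ̂(c x) = ε β(c) μ(x) for all c ∈ C and all x ∈ S other than 1; (b) the restriction of χ to C equals |S|·ϑ + ε β for some character ϑ of C or ϑ = 0; (c) |S| divides χ(1) − ε β(1). -/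
theorem result {Γ : Type*} [Group Γ] [Fintype Γ] (G S : Subgroup Γ) [Fintype G] (hnorm : ∀ s ∈ S, ∀ g ∈ G, s * g * s⁻¹ ∈ G) (hcop : (Nat.card G).Coprime (Nat.card S)) (htop : G ⊔ S = ⊤) (hcyc : IsCyclic S) (C : Subgroup Γ) [Fintype C] (hC : C = G ⊓ Subgroup.centralizer (S : Set Γ)) (hCG : C ≤ G) (hfpf : ∀ x ∈ S, x ≠ 1 → G ⊓ Subgroup.centralizer ({x} : Set Γ) = C) (χ : Cfsg.IrrCharacter G) (hinv : (∀ s ∈ S, ∀ g g' : G, (g' : Γ) = s * g * s⁻¹ → (χ : G → ℂ) g' = (χ : G → ℂ) g)) (χh : Cfsg.IrrCharacter Γ) (hext : (∀ g : G, (χh : Γ → ℂ) g = (χ : G → ℂ) g)) (hdet : (Cfsg.detOrder (χh : Γ → ℂ)).Coprime (Nat.card S)) (β : Cfsg.IrrCharacter C) (ε₀ : ℤ) (hε₀ : ε₀ = 1 ∨ ε₀ = -1) (hβ : ∀ c : C, ∀ s : Γ, Subgroup.zpowers s = S → (χh : Γ → ℂ) ((c : Γ) * s) = (ε₀ : ℂ) * (β : C → ℂ) c) : ∃ ε : ℤ, (ε = 1 ∨ ε = -1) ∧ (∃ μ : S → ℂ, Cfsg.IsCharacter S μ ∧ μ 1 = 1 ∧ (∀ x : S, μ x * μ x = 1) ∧ ∀ c : C, ∀ x : S, x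 ≠ 1 → (χh : Γ → ℂ) ((c : Γ) * x) = (ε : ℂ) * (β : C → ℂ) c * μ x) ∧ (∃ ϑ : C → ℂ, Cfsg.IsCharacter C ϑ ∧ (fun c : C => (χ : G → ℂ) ⟨c, hCG c.2⟩) = fun c => (Nat.card S : ℂ) * ϑ c + (ε : ℂ) * (β : C → ℂ) c) ∧ (Nat.card S : ℤ) ∣ (Cfsg.charDegree (χ : G → ℂ) : ℤ) - ε * (Cfsg.charDegree (β : C → ℂ) : ℤ) := by
  classical
  have := Fintype.ofFinite S
  have hSG := CL.Glb.le_norm_of_conj hnorm
  have := CL.Glb.normal_of_sup_eq_top hSG htop
  obtain ⟨s, hs⟩ := CL.Glb.exists_zpowers_eq hcyc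
  have hsS : s ∈ S := hs.le (Subgroup.mem_zpowers s)
  have hirr : IsIrrCharacter G fun g => χh.1 g := by
    rw [show (fun g : G => χh.1 g) = χ.1 from funext hext]; exact χ.2
  have hφ := χh.2.isCharacter
  have hε₀' : (ε₀ : ℂ) * ε₀ = 1 := by rcases hε₀ with rfl | rfl <;> simp
  have hψ : ∀ γ : IrrCharacter C, IsCharacter S fun x => CL.Glb.cm C χh.1 γ.1 x := fun γ =>
    CL.Glb.isCharacter_cm (hC ▸ inf_le_right) hφ γ.2.isCharacter
  have hres : ∀ c : C, χ.1 ⟨c, hCG c.2⟩ = ∑ γ : IrrCharacter C, CL.Glb.cm C χh.1 γ.1 1 * γ.1 c := by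
    intro c
    rw [← hext, (hφ.res C).isClassFunction.apply_eq_sum c]
    simp [CL.Glb.cm]
  suffices h : ∃ (ε : ℤ) (μ : S →* ℂˣ) (k : IrrCharacter C → ℕ), (ε = 1 ∨ ε = -1) ∧
      (∀ x : S, (μ x : ℂ) * μ x = 1) ∧
      (∀ c : C, ∀ x : S, x ≠ 1 → χh.1 ((c : Γ) * x) = (ε : ℂ) * β.1 c * μ x) ∧
      ∀ γ, CL.Glb.cm C χh.1 γ.1 1 = k γ * Nat.card S + if γ = β then (ε : ℂ) else 0 by
    obtain ⟨ε, μ, k, hε, h1, h2, h3⟩ := h
    have hϑ : IsCharacter C (∑ γ : IrrCharacter C, (k γ : ℂ) • γ.1) :=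
      CL.Char.isCharacter_sum _ _ fun γ _ => γ.2.isCharacter.natCast_smul _
    have h4 : ∀ c : C, χ.1 ⟨c, hCG c.2⟩ =
        Nat.card S * (∑ γ : IrrCharacter C, (k γ : ℂ) • γ.1) c + ε * β.1 c := fun c => by
      rw [hres]
      simp only [h3, add_mul, Finset.sum_add_distrib, ite_mul, zero_mul, Finset.sum_ite_eq',
        Finset.mem_univ, if_true, Finset.sum_apply, Pi.smul_apply, smul_eq_mul, Finset.mul_sum]
      congr 1
      exact Finset.sum_congr rfl fun _ _ => by ring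
    refine ⟨ε, hε, ⟨fun x => μ x, (CL.Char.isIrrCharacter_hom μ).isCharacter, by simp, h1, h2⟩,
      ⟨_, hϑ, funext h4⟩, ?_⟩
    obtain ⟨d, hd⟩ := hϑ.exists_nat_degree
    have h5 := h4 1
    rw [hd, show (⟨(1 : C), hCG (1 : C).2⟩ : G) = 1 from rfl, χ.2.apply_one_eq_charDegree,
      β.2.apply_one_eq_charDegree] at h5
    refine ⟨d, ?_⟩
    have : ((charDegree χ.1 - ε * charDegree β.1 : ℤ) : ℂ) = ((Nat.card S * d : ℤ) : ℂ) := by
      push_cast
      linear_combination h5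
    exact_mod_cast this
  have hβs := CL.Glb.cm_of_eq (fun c => hβ c s hs)
  by_cases hs1 : s = 1
  · subst hs1
    refine ⟨ε₀, 1, fun _ => 0, hε₀, by simp, fun c x hx => absurd (Subtype.ext ?_) hx, fun γ => ?_⟩
    · have := hs.ge x.2
      rwa [Subgroup.zpowers_one_eq_bot, Subgroup.mem_bot] at this
    · rw [hβs, β.2.inner γ.2]
      by_cases h : γ = β
      · simp [h]
      · rw [if_neg fun h' => h (Subtype.ext h'.symm), if_neg h]; simp
  have ho : ∀ x : S, (Nat.card G).Coprime (orderOf (x : Γ)) := fun x => by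
    rw [Subgroup.orderOf_coe]
    exact hcop.coprime_dvd_right (orderOf_dvd_natCard x)
  have hCx : ∀ x : S, x ≠ 1 → C = G ⊓ Subgroup.centralizer {(x : Γ)} := fun x hx =>
    (hfpf x x.2 fun h => hx (Subtype.ext h)).symm
  have hcomm : ∀ a b : S, a * b = b * a := fun a b => mul_comm' a b
  have hle : ∀ γ : IrrCharacter C, ∑ x ∈ (Finset.univ : Finset S).erase 1,
      ‖CL.Glb.cm C χh.1 γ.1 x‖ ^ 2 ≤ Nat.card S - 1 := fun γ => by
    have : ∀ x ∈ (Finset.univ : Finset S).erase 1, ‖CL.Glb.cm C χh.1 γ.1 x‖ ^ 2 ≤ (1 : ℝ) := by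
      intro x hx
      rcases CL.Glb.cm_zero_or_norm (ho x) (hCx x (Finset.mem_erase.mp hx).1) hφ hirr γ.2
        with h | h <;> simp [h]
    refine (Finset.sum_le_card_nsmul _ _ _ this).trans (le_of_eq ?_)
    rw [Finset.card_erase_of_mem (Finset.mem_univ _), Finset.card_univ, nsmul_eq_mul, mul_one,
      Nat.card_eq_fintype_card, Nat.cast_pred Fintype.card_pos]
  have hs1' : (⟨s, hsS⟩ : S) ≠ 1 := fun h => hs1 (congrArg Subtype.val h)
  have hβ0 : CL.Glb.cm C χh.1 β.1 s = ε₀ := by rw [hβs, β.2.inner_self, mul_one]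
  obtain ⟨k, ε, μ, hε, h1, h2⟩ := CL.Glb.exists_sign_linear hcomm (hψ β) (hle β) hs1'
    (by rw [hβ0]; exact left_ne_zero_of_mul_eq_one hε₀')
  have hε' : (ε : ℂ) * ε = 1 := by rcases hε with rfl | rfl <;> simp
  have h3 : ∀ c : C, ∀ x : S, x ≠ 1 → χh.1 ((c : Γ) * x) = (ε : ℂ) * β.1 c * μ x := by
    intro c x hx
    rw [CL.Glb.eq_cm_mul (ho x) (hCx x hx) hφ hirr β.2 (by
      rw [h2 x hx]; exact mul_ne_zero (left_ne_zero_of_mul_eq_one hε') (μ x).ne_zero), h2 x hx]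
    ring
  have h4 : ∀ γ : IrrCharacter C, γ ≠ β → ∃ m : ℕ, CL.Glb.cm C χh.1 γ.1 1 = m * Nat.card S := by
    intro γ hγ
    obtain ⟨m, hm⟩ := (hψ γ).exists_nat_inner CL.Char.isCharacter_one
    refine ⟨m, ?_⟩
    rw [← hm, mul_comm, CL.Char.card_mul_classInner, Finset.sum_eq_single 1 (fun x _ hx => ?_)
      (by simp)]
    · simp
    · rw [CL.Glb.cm_of_eq (a := ε * μ x) (β := β.1) (fun c => by rw [h3 c x hx]; ring),
        β.2.inner_of_ne γ.2 fun h => hγ (Subtype.ext h.symm)]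
      simp
  choose! m hm using h4
  refine ⟨ε, μ, fun γ => if γ = β then k else m γ, hε, fun x => ?_, h3, fun γ => ?_⟩
  · obtain ⟨i, hi⟩ := hs.ge x.2
    have h5 : x = (⟨s, hsS⟩ : S) ^ i := Subtype.ext hi.symm
    have h6 : (μ ⟨s, hsS⟩ : ℂ) * μ ⟨s, hsS⟩ = 1 := by
      have := h2 _ hs1'
      rw [hβ0] at this
      rw [this] at hε₀'
      linear_combination hε₀' - (μ ⟨s, hsS⟩ : ℂ) * μ ⟨s, hsS⟩ * hε'
    rw [h5, map_zpow, Units.val_zpow_eq_zpow_val, ← mul_zpow, h6, one_zpow]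
  · by_cases h : γ = β
    · simp only [h, if_true]
      exact h1
    · simp only [h, if_false, add_zero]
      exact hm γ h

end Cfsg.Agent.S4451
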