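import Cfsg.Statements.S4452
import Cfsg.Agent.BLK.GCount
import Cfsg.Agent.CHAR.Triple
import Cfsg.Agent.CHAR.Gallagher

set_option autoImplicit false
open Cfsg

namespace Cfsg.Agent.S4452

open CL.Glb CL.Char Subgroup in
theorem card_coprime_degree {Γ : Type*} [Group Γ] [Finite Γ] (K H : Subgroup Γ) [hK : K.Normal]
    (hc : H.IsComplement' K) (hcop : (Nat.card K).Coprime (Nat.card H)) :
    Nat.card {χ : IrrCharacter Γ // (charDegree χ.1).Coprime (Nat.card H)} =
      Nat.card {θ : IrrCharacter K // IS H K θ.1} * Nat.card (H →* ℂˣ) := by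
  have hidx : K.index = Nat.card H := hc.index_eq_card
  have h1 : Nat.card (H →* ℂˣ) = Nat.card {lam : Γ →* ℂˣ // ∀ n ∈ K, lam n = 1} := by
    rw [← Nat.card_congr (homQuotEquiv K)]
    exact Nat.card_congr
      { toFun := fun f => f.comp hc.QuotientMulEquiv.toMonoidHom
        invFun := fun f => f.comp hc.QuotientMulEquiv.symm.toMonoidHom
        left_inv := fun f => by ext; simp
        right_inv := fun f => by ext; simp }
  have hext : ∀ θ : {θ : IrrCharacter K // IS H K θ.1},
      ∃ χ, IsIrrCharacter Γ χ ∧ ∀ n : K, χ n = θ.1.1 n := fun θ => by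
    obtain ⟨χ, hχ, h, -⟩ := exists_ext_of_coprime_card K θ.1.2 (fun g n => by
      obtain ⟨⟨h, k⟩, hg⟩ := hc.2 g
      have : g ∈ stab K θ.1.1 := hg ▸ mul_mem ((IS_iff_le_stab le_normalizer_of_normal).mp θ.2 h.2)
        (le_stab_self K θ.1.2.isClassFunction k.2)
      exact this.2 n _ rfl) (hidx ▸ hcop.symm)
    exact ⟨χ, hχ, h⟩
  choose E hE1 hE2 using hext
  have hE3 : ∀ θ, IsIrrCharacter K fun n => E θ n := fun θ => by
    rw [show (fun n : K => E θ n) = θ.1.1 from funext (hE2 θ)]; exact θ.1.2
  rw [h1, ← Nat.card_prod]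
  symm
  refine Nat.card_eq_of_bijective (fun x => ⟨⟨_, (hE1 x.1).hom_mul x.2.1⟩, ?_⟩)
    ⟨fun x y h => ?_, fun χ => ?_⟩
  · have : charDegree (fun g => (x.2.1 g : ℂ) * E x.1 g) = charDegree x.1.1.1 := by
      apply charDegree_eq_of_apply_one
      rw [map_one, Units.val_one, one_mul, ← x.1.1.2.apply_one_eq_charDegree, ← hE2]
      rfl
    rw [this]
    exact hcop.coprime_dvd_left x.1.1.2.charDegree_dvd_card
  · obtain ⟨θ, lam⟩ := x
    obtain ⟨θ', lam'⟩ := y
    have h2 : ∀ g, (lam.1 g : ℂ) * E θ g = lam'.1 g * E θ' g :=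
      congrFun (congrArg (fun z => z.1.1) h)
    obtain rfl : θ = θ' := Subtype.ext (Subtype.ext (funext fun n => by
      have := h2 n
      rwa [lam.2 n n.2, lam'.2 n n.2, Units.val_one, one_mul, one_mul, hE2, hE2] at this))
    refine Prod.ext rfl (Subtype.ext (MonoidHom.ext fun g => Units.ext ?_))
    obtain ⟨n, hn, h3⟩ := exists_apply_mul_ne_zero (hE1 θ).isCharacter (hE3 θ) g
    have := mul_right_cancel₀ h3 (h2 (n * g))
    rwa [map_mul, map_mul, lam.2 n hn, lam'.2 n hn, one_mul, one_mul] at this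
  · have h2 := res_irr_of_coprime_index (N := K) χ.1.2 χ.1.2.apply_one_eq_charDegree
      (by rw [hidx]; exact χ.2)
    let θ : {θ : IrrCharacter K // IS H K θ.1} := ⟨⟨_, h2⟩, fun s _ g g' hg => by
      simp only [hg]
      exact χ.1.2.isClassFunction _ _⟩
    obtain ⟨lam, h3, h4⟩ := exists_hom_mul_of_res_eq (hE1 θ).isCharacter (hE3 θ)
      χ.1.2.isCharacter fun n => (hE2 θ n).symm
    exact ⟨(θ, ⟨lam, h3⟩), Subtype.ext (Subtype.ext h4.symm)⟩

/-- Let the finite group G be the product of a normal subgroup K and a solvable subgroup H of coprime orders, and let N = N_G(H). Then the number of irreducible characters of G of degree coprime to the order of H equals the number of irreducible characters of N of degree coprime to the order of H. (The two sets are in fact in a canonical bijection; only the equality of their sizes is stated here.) -/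
theorem result {G : Type*} [Group G] [Finite G] (K H : Subgroup G) [K.Normal] (hKH : K ⊔ H = ⊤) (hcop : (Nat.card K).Coprime (Nat.card H)) (hsolv : Group.IsSolvable H) : Nat.card {χ : Cfsg.IrrCharacter G // (Cfsg.charDegree (χ : G → ℂ)).Coprime (Nat.card H)} = Nat.card {η : Cfsg.IrrCharacter (Subgroup.normalizer (H : Set G)) // (Cfsg.charDegree (η : Subgroup.normalizer (H : Set G) → ℂ)).Coprime (Nat.card H)} := by
  have hdisj : Disjoint H K := disjoint_iff.mpr (CL.inf_eq_bot_of_coprime_card hcop.symm)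
  have hmul : ∀ g : G, ∃ h ∈ H, ∃ k ∈ K, h * k = g := fun g => by
    have : g ∈ ((H ⊔ K : Subgroup G) : Set G) := by rw [sup_comm, hKH]; trivial
    rw [Subgroup.mul_normal] at this
    exact this
  have hc : H.IsComplement' K := Subgroup.isComplement'_of_disjoint_and_mul_eq_univ hdisj
    (Set.eq_univ_of_forall hmul)
  let N := Subgroup.normalizer (H : Set G)
  have hHN : H ≤ N := Subgroup.le_normalizer
  have hc' : (H.subgroupOf N).IsComplement' (K.subgroupOf N) :=
    Subgroup.isComplement'_of_disjoint_and_mul_eq_univ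
      (Subgroup.disjoint_def.mpr fun h1 h2 => Subtype.ext (Subgroup.disjoint_def.mp hdisj h1 h2))
      (Set.eq_univ_of_forall fun n => by
        obtain ⟨h, hh, k, hk, h1⟩ := hmul n
        refine ⟨⟨h, hHN hh⟩, hh, ⟨h, hHN hh⟩⁻¹ * n, ?_, by simp⟩
        change h⁻¹ * n ∈ K
        rw [← h1]
        simpa using hk)
  have e := Subgroup.subgroupOfEquivOfLe hHN
  have hKN : K ⊓ N = K ⊓ Subgroup.centralizer (H : Set G) := by
    refine le_antisymm (fun k hk => ⟨hk.1, Subgroup.mem_centralizer_iff.mpr fun h hh => ?_⟩)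
      (inf_le_inf_left _ (Subgroup.centralizer_le_normalizer _))
    have h1 : h⁻¹ * (k * h * k⁻¹) = 1 := Subgroup.disjoint_def.mp hdisj
      (mul_mem (inv_mem hh) (CL.Glb.conj_mem_of_norm hk.2 hh))
      (by
        have := mul_mem (Subgroup.Normal.conj_mem' inferInstance k hk.1 h) (inv_mem hk.1)
        simpa only [mul_assoc] using this)
    rw [inv_mul_eq_one, eq_mul_inv_iff_mul_eq] at h1
    exact h1
  have e' : (K.subgroupOf N) ≃* (K ⊓ Subgroup.centralizer (H : Set G) : Subgroup G) := by
    rw [← hKN, ← Subgroup.inf_subgroupOf_right]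
    exact Subgroup.subgroupOfEquivOfLe inf_le_right
  have h1 := card_coprime_degree (K.subgroupOf N) (H.subgroupOf N) hc' (by
    rw [Nat.card_congr e.toEquiv, Nat.card_congr e'.toEquiv]
    exact hcop.coprime_dvd_left (Subgroup.card_dvd_of_le inf_le_left))
  rw [Nat.card_congr e.toEquiv] at h1
  have h2 : K.subgroupOf N ≤ Subgroup.centralizer (H.subgroupOf N : Set N) := fun k hk =>
    Subgroup.mem_centralizer_iff.mpr fun h hh => by
      have h3 : (k : G) ∈ K ⊓ N := ⟨hk, k.2⟩
      rw [hKN] at h3
      exact Subtype.ext (Subgroup.mem_centralizer_iff.mp h3.2 h hh)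
  rw [card_coprime_degree K H hc hcop, h1,
    CL.Glb.card_IS_eq hsolv K Subgroup.le_normalizer_of_normal hcop,
    Nat.card_congr (Equiv.subtypeUnivEquiv fun θ : IrrCharacter (K.subgroupOf N) =>
      CL.Glb.IS_of_le_centralizer h2 θ.1),
    Nat.card_congr (CL.Char.irrCongr e')]
  congr 1
  exact Nat.card_congr
    { toFun := fun f => f.comp e.toMonoidHom
      invFun := fun f => f.comp e.symm.toMonoidHom
      left_inv := fun f => by ext; simp
      right_inv := fun f => by ext; simp }

end Cfsg.Agent.S4452
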