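import Cfsg.Statements.S4453
import Cfsg.Agent.BLK.IsaacsCorr

set_option autoImplicit false
open Cfsg

namespace Cfsg.Agent.S4453

open CL.Glb CL.OW Subgroup

/-- Inside a finite group Γ let S normalise the solvable subgroup G of odd order with the orders of G and S coprime, let C = G ⊓ C(S), and let L ≤ K be S-invariant normal subgroups of G with K/L abelian, G = KC and H = LC (so C ≤ H ≤ G). Then for each S-invariant irreducible character χ of G there is exactly one S-invariant irreducible character ψ of H whose multiplicity in the restriction of χ to H is odd, and χ ↦ ψ is a bijection from the S-invariant irreducible characters of G onto those of H (distinct χ give distinct ψ, and every S-invariant ψ arises). -/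
theorem result {Γ : Type*} [Group Γ] [Fintype Γ] (G S : Subgroup Γ) [Fintype G] (hnorm : ∀ s ∈ S, ∀ g ∈ G, s * g * s⁻¹ ∈ G) (hcop : (Nat.card G).Coprime (Nat.card S)) (hGsolv : Group.IsSolvable G) (hodd : Odd (Nat.card G)) (C : Subgroup Γ) [Fintype C] (hC : C = G ⊓ Subgroup.centralizer (S : Set Γ)) (hCG : C ≤ G) (K L H : Subgroup Γ) [Fintype H] (hLK : L ≤ K) (hKG : K ≤ G) (hKn : ∀ g ∈ G, ∀ k ∈ K, g * k * g⁻¹ ∈ K) (hLn : ∀ g ∈ G, ∀ l ∈ L, g * l * g⁻¹ ∈ L) (hKS : ∀ s ∈ S, ∀ k ∈ K, s * k * s⁻¹ ∈ K) (hLS : ∀ s ∈ S, ∀ l ∈ L, s * l * s⁻¹ ∈ L) (hab : ∀ a ∈ K, ∀ b ∈ K, a * b * a⁻¹ * b⁻¹ ∈ L) (hGKC : K ⊔ C = G) (hH : H = L ⊔ C) (hHG : H ≤ G) : (∀ χ : Cfsg.IrrCharacter G, (∀ s ∈ S, ∀ g g' : G, (g' : Γ) = s * g * s⁻¹ → (χ : G → ℂ) g' = (χ : G → ℂ) g) → ∃! ψ : Cfsg.IrrCharacter H, (∀ s ∈ S, ∀ g g' : H, (g' : Γ) = s * g * s⁻¹ → (ψ : H → ℂ) g' = (ψ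 : H → ℂ) g) ∧ ∃ m : ℕ, Cfsg.classInner (fun h : H => (χ : G → ℂ) ⟨h, hHG h.2⟩) (ψ : H → ℂ) = (m : ℂ) ∧ Odd m) ∧ (∀ χ χ' : Cfsg.IrrCharacter G, (∀ s ∈ S, ∀ g g' : G, (g' : Γ) = s * g * s⁻¹ → (χ : G → ℂ) g' = (χ : G → ℂ) g) → (∀ s ∈ S, ∀ g g' : G, (g' : Γ) = s * g * s⁻¹ → (χ' : G → ℂ) g' = (χ' : G → ℂ) g) → ∀ ψ : Cfsg.IrrCharacter H, (∀ s ∈ S, ∀ g g' : H, (g' : Γ) = s * g * s⁻¹ → (ψ : H → ℂ) g' = (ψ : H → ℂ) g) → ∀ m m' : ℕ, Cfsg.classInner (fun h : H => (χ : G → ℂ) ⟨h, hHG h.2⟩) (ψ : H → ℂ) = (m : ℂ) → Odd m → Cfsg.classInner (fun h : H => (χ' : G → ℂ) ⟨h, hHG h.2⟩) (ψ : H → ℂ) = (m' : ℂ) → Odd m' → χ = χ') ∧ (∀ ψ : Cfsg.IrrCharacter H, (∀ s ∈ S, ∀ g g' : H, (g' : Γ) = s * g * s⁻¹ → (ψ : H → ℂ) g' = (ψ : H → ℂ) g) → ∃ χ : Cfsg.IrrCharacter G, (∀ s ∈ S, ∀ g g' : G, (g' : Γ) = s * g * s⁻¹ → (χ : G → ℂ) g' = (χ : G → ℂ) g) ∧ ∃ m : ℕ, Cfsg.classInner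 (fun h : H => (χ : G → ℂ) ⟨h, hHG h.2⟩) (ψ : H → ℂ) = (m : ℂ) ∧ Odd m) := by
  obtain rfl : ‹Fintype H› = ftSub H := Subsingleton.elim _ _
  have hK : G ≤ normalizer (K : Set Γ) := le_norm_of_conj hKn
  have hL : G ≤ normalizer (L : Set Γ) := le_norm_of_conj hLn
  have hLH : L ≤ H := hH ▸ le_sup_left
  have hCH : C ≤ H := hH ▸ le_sup_right
  have hf : ∀ x ∈ H, ∀ s ∈ S, s * x * s⁻¹ * x⁻¹ ∈ L := fun x hx s hs => by
    obtain ⟨l, hl, c, hc, rfl⟩ := mem_sup_norm (hCG.trans hL) (hH ▸ hx)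
    rw [← mul_assoc, mul_assoc _ c, ← mem_centralizer_iff.1 (hC.le hc).2 _ (inv_mem hs)]
    simpa [mul_assoc] using mul_mem (hLS s hs l hl) (inv_mem hl)
  have hA : CL.Baer.Act (Nat.card G) (K ⊓ H) K H G S := by
    refine ⟨⟨hodd, hKG, hHG, fun g hg => ?_, fun g hg => ?_, rfl⟩, sup_le (hGKC ▸ sup_le
      (le_norm_of_conj fun k hk x hx => ⟨hKn k (hKG hk) x hx.1, ?_⟩) (le_norm_of_conj fun c hc x hx =>
        ⟨hKn c (hCG hc) x hx.1, conj_mem_of_norm (le_normalizer (hCH hc)) hx.2⟩))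
      (le_norm_of_conj fun s hs x hx => ⟨hKS s hs x hx.1, ?_⟩), sup_le hK (le_norm_of_conj hKS),
      le_norm_of_conj hnorm, (hcop.coprime_dvd_right (relIndex_dvd_card _ _)).symm,
      fun x hx y hy => le_inf hLK hLH (hab x hx y hy), fun x hx s hs => le_inf hLK hLH (hf x hx s hs),
      fun Z _ h1 h2 => ?_, solvMod_of_isSolvable hGsolv _⟩
    · rw [show g ^ Nat.card G = 1 from congrArg Subtype.val (pow_card_eq_one' (x := (⟨g, hg⟩ : G)))]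
      exact one_mem _
    · obtain ⟨k, hk, c, hc, e⟩ := mem_sup_norm (hCG.trans hK) (hGKC ▸ hg)
      exact ⟨k, hk, c, hCH hc, e⟩
    · simpa using H.mul_mem (hLH (hab k hk x hx.1)) hx.2
    · simpa using H.mul_mem (hLH (hf x hx.2 s hs)) hx.2
    · refine (CL.coprime_commutator_sup_centralizer S Z h2 (hcop.coprime_dvd_left
        (card_dvd_of_le (h1.trans hKG))).symm (Or.inr (Group.isSolvable_of_isSolvable_injective
          (inclusion_injective (h1.trans hKG))))).ge.trans (sup_le le_sup_right fun z hz =>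
        mem_sup_left ⟨h1 hz.1, hCH (hC.ge ⟨hKG (h1 hz.1), hz.2⟩)⟩)
  have h := hA.corr
  have h2 : ∀ m : ℕ, Odd m ↔ ¬ 2 ∣ m := fun n => by rw [Nat.odd_iff, Nat.two_dvd_ne_zero]
  simp only [h2]
  refine ⟨fun χ a => ?_, fun χ χ' a b ψ c m m' d e f g =>
    Subtype.ext (h.inj _ _ χ.2 a χ'.2 b _ ψ.2 c ⟨m, d, e⟩ ⟨m', f, g⟩), fun ψ a => ?_⟩
  · obtain ⟨ψ, b, c, d⟩ := h.ex _ χ.2 a
    exact ⟨⟨ψ, b⟩, ⟨c, d⟩, fun ψ' e => Subtype.ext (h.uniq _ χ.2 a _ _ ψ'.2 e.1 b c e.2 d)⟩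
  · obtain ⟨χ, b, c, d⟩ := h.surj _ ψ.2 a
    exact ⟨⟨χ, b⟩, c, d⟩

end Cfsg.Agent.S4453
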