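import Cfsg.Statements.S4454
import Cfsg.Agent.BLK.GCanon
import Cfsg.Agent.CHAR.Ramified

set_option autoImplicit false
open Cfsg

namespace Cfsg.Agent.S4454


/-- Let N ≤ G be normal subgroups of the finite group Γ with Γ/G cyclic and Γ/N a Frobenius group with kernel G/N: G ≠ Γ, N ≠ G, and no element of Γ outside G fixes a non-identity coset of N in G under conjugation. Let ϑ be an irreducible character of N invariant under conjugation by Γ and suppose ϑ is fully ramified in G: the character of G induced from ϑ equals e·χ for an irreducible character χ of G and a natural number e. Then the index of G in Γ divides e − 1 or e + 1. -/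
theorem result {Γ : Type*} [Group Γ] [Fintype Γ] (G N : Subgroup Γ) [hG : G.Normal] [hN : N.Normal] [Fintype G] [Fintype N] (hNG : N ≤ G) (hGlt : G ≠ ⊤) (hNlt : N ≠ G) (hcyc : IsCyclic (Γ ⧸ G)) (hfrob : ∀ x : Γ, x ∉ G → ∀ g : Γ, g ∈ G → x * g * x⁻¹ * g⁻¹ ∈ N → g ∈ N) (θ : Cfsg.IrrCharacter N) (hinv : ∀ (x : Γ) (n : N), (θ : N → ℂ) ⟨x * n * x⁻¹, hN.conj_mem n n.2 x⟩ = (θ : N → ℂ) n) (χ : Cfsg.IrrCharacter G) (e : ℕ) (hram : Cfsg.indFun (N.subgroupOf G) (fun n : N.subgroupOf G => (θ : N → ℂ) ⟨(n : G), n.2⟩) = fun g => (e : ℂ) * (χ : G → ℂ) g) : (G.index : ℤ) ∣ (e : ℤ) - 1 ∨ (G.index : ℤ) ∣ (e : ℤ) + 1 := by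
  classical
  have := Fintype.ofFinite (N.subgroupOf G)
  have hθi : CL.Glb.IS ⊤ N θ.1 := fun x _ g g' hg => by
    rw [← hinv x g]; exact congrArg θ.1 (Subtype.ext hg)
  obtain ⟨e', he1, he2, he3⟩ := CL.Char.exists_sq_eq_index_of_ind_eq_smul (N := N.subgroupOf G)
    χ.2 (θ.2.subOf hNG) (CL.Char.inertia_eq_top_iff.mpr fun g n => hinv g ⟨n, n.2⟩) (c := e) hram
  obtain rfl : e = e' := Nat.cast_injective he1
  have he0 : (e : ℂ) ≠ 0 := by
    rw [Nat.cast_ne_zero]
    rintro rfl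
    exact Subgroup.index_ne_zero_of_finite (he3.symm.trans (by simp))
  have hres : (fun n : N => χ.1 (Subgroup.inclusion hNG n)) = (e : ℂ) • θ.1 :=
    funext fun n => congrFun he2 ⟨⟨n, hNG n.2⟩, n.2⟩
  have hov : CL.Glb.Ov hNG χ.1 θ.1 := by
    rw [CL.Glb.Ov, hres, CL.Char.inner_smul_self θ.2]; exact he0
  have huniq : ∀ ψ, IsIrrCharacter G ψ → CL.Glb.Ov hNG ψ θ.1 → ψ = χ.1 := fun ψ hψ h =>
    (CL.Char.sq_eq_index_iff_unique χ.2 (θ.2.subOf hNG) he2).mp he3 ψ hψ
      (by rwa [CL.Char.classInner_res_subOf hNG])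
  obtain ⟨φ, hφ, hext⟩ := CL.Char.exists_ext_of_isCyclic G hcyc χ.2 (fun x g => by
    have h1 := hov.cj (x := x) (Subgroup.le_normalizer_of_normal (Subgroup.mem_top x))
      (Subgroup.le_normalizer_of_normal (Subgroup.mem_top x))
    rw [hθi.cj (Subgroup.mem_top x)] at h1
    exact congrFun (huniq _ (χ.2.comp_mulEquiv _) h1) g)
  have hirr : IsIrrCharacter G fun g => φ g := by
    rw [show (fun g : G => φ g) = χ.1 from funext hext]; exact χ.2
  obtain ⟨q, hq⟩ := hcyc.exists_generator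
  obtain ⟨s, rfl⟩ := QuotientGroup.mk_surjective q
  have htop : G ⊔ Subgroup.zpowers s = ⊤ := by
    rw [eq_top_iff]
    intro x _
    obtain ⟨k, hk⟩ := hq x
    have h1 : x * (s ^ k)⁻¹ ∈ G := by
      rw [← QuotientGroup.eq_one_iff, QuotientGroup.mk_mul, ← hk]; simp
    simpa using mul_mem (Subgroup.mem_sup_left h1)
      (Subgroup.mem_sup_right (Subgroup.zpow_mem_zpowers s k))
  have hsG : s ∉ G := fun h => hGlt (by rw [← htop, left_eq_sup, Subgroup.zpowers_le]; exact h)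
  let S := N ⊔ Subgroup.zpowers s
  have := Fintype.ofFinite S
  have hNS : N ≤ S := le_sup_left
  have hSG : ∀ x ∈ S, x ∈ G → x ∈ N := by
    intro x hx hxG
    obtain ⟨n, hn, k, rfl⟩ := CL.Glb.mem_sup_zpowers (Subgroup.le_normalizer_of_normal
      (Subgroup.mem_top s)) hx
    refine mul_mem hn (hfrob s hsG _ ((mul_mem_cancel_left (hNG hn)).mp hxG) ?_)
    rw [show s * s ^ k * s⁻¹ * (s ^ k)⁻¹ = 1 by group]
    exact one_mem N
  let ι := Subgroup.inclusion hNS
  have hι := Subgroup.inclusion_injective hNS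
  have : ι.range.Normal := CL.Glb.inclusion_range_normal hNS Subgroup.le_normalizer_of_normal
  have hmem : ∀ x : S, x ∈ ι.range ↔ (x : Γ) ∈ N := fun x =>
    ⟨fun ⟨n, hn⟩ => hn ▸ n.2, fun h => ⟨⟨x, h⟩, rfl⟩⟩
  let s' : S := ⟨s, Subgroup.mem_sup_right (Subgroup.mem_zpowers s)⟩
  have hgen : CL.Glb.Gen ι s' :=
    CL.Glb.gen_inclusion (Subgroup.le_normalizer_of_normal (Subgroup.mem_top s))
  have hGr : G.subtype.range.Normal := by rwa [Subgroup.range_subtype]
  have hnorm : ∀ x : S, (x : Γ) ∉ N → CL.Glb.tw ι (fun y => φ y) (fun y => φ y) x = 1 := by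
    intro x hx
    refine Eq.trans ?_ (CL.Glb.tw_self G.subtype_injective hφ.isCharacter hirr x)
    refine (CL.Glb.sum_coset_of_TI G.subtype_injective (Subgroup.inclusion_injective hNG)
      (x := x) (fun g c c' h => ?_) (hφ.isClassFunction.mul hφ.isClassFunction.conj)).symm
    have h1 : (g : Γ) * (c * x) * (g : Γ)⁻¹ = c' * x := h
    refine ⟨⟨g, inv_mem_iff.mp (hfrob x (fun h2 => hx (hSG _ x.2 h2)) _ (inv_mem g.2) ?_)⟩, rfl⟩
    have h2 : (x : Γ) * (g : Γ)⁻¹ * (x : Γ)⁻¹ * (g : Γ)⁻¹⁻¹ =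
        (c : Γ)⁻¹ * ((g : Γ)⁻¹ * c' * g) := by
      rw [show (c' : Γ) = g * (c * x) * (g : Γ)⁻¹ * (x : Γ)⁻¹ by rw [h1]; group]; group
    rw [h2]
    exact mul_mem (inv_mem c.2) (hN.conj_mem' _ c'.2 _)
  have hsN : (s' : Γ) ∉ N := fun h => hsG (hNG h)
  obtain ⟨c, hc⟩ : ∃ c, φ ((ι c * s' : S) : Γ) ≠ 0 := by
    by_contra hc
    push Not at hc
    have h2 := hnorm s' hsN
    simp only [CL.Glb.tw, classInner, hc, zero_mul, Finset.sum_const_zero, mul_zero] at h2
    exact zero_ne_one h2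
  obtain ⟨η, hη, hηi, h0⟩ := CL.Glb.exists_tw_ne_zero hι hgen
    (hφ.isCharacter.res S).isClassFunction hc
  have hψ := CL.Glb.isCharacter_tw hι (hφ.isCharacter.res S) hη.isCharacter
  have hres' : (fun n : N => φ (ι n : S)) = (e : ℂ) • θ.1 := by
    rw [← hres]; exact funext fun n => hext ⟨n, hNG n.2⟩
  have h1 : CL.Glb.tw ι (fun y => φ y) η 1 = e := by
    have h2 : CL.Glb.tw ι (fun y => φ y) η 1 ≠ 0 := fun h =>
      h0 (congrFun (hψ.eq_zero_of_one h) s')
    rw [CL.Glb.tw_one, hres'] at h2 ⊢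
    rw [← CL.Char.eq_of_inner_smul_ne_zero θ.2 hηi h2, CL.Char.inner_smul_self θ.2]
  obtain ⟨ψ, hψ', hψe⟩ := hψ.exists_quot ι.range (by
    rintro _ ⟨n, rfl⟩
    rw [← CL.Glb.tw_mul_left ι _ _ n 1, mul_one])
  have := Fintype.ofFinite (S ⧸ ι.range)
  have hcard : Nat.card (S ⧸ ι.range) = G.index := by
    have h2 : ι.range = G.subgroupOf S := by
      ext x
      rw [hmem, Subgroup.mem_subgroupOf]
      exact ⟨fun h => hNG h, hSG _ x.2⟩
    rw [← Subgroup.index_eq_card, h2, ← Subgroup.relIndex, ← Subgroup.relIndex_sup_left,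
      show G ⊔ S = ⊤ from by rw [eq_top_iff, ← htop]; exact sup_le_sup_left le_sup_right _,
      Subgroup.relIndex_top_right]
  obtain ⟨k, ε, μ, hε, h2, -⟩ := CL.Glb.exists_sign_linear (S := S ⧸ ι.range)
    (fun a b => by
      obtain ⟨a, rfl⟩ := QuotientGroup.mk_surjective a
      obtain ⟨b, rfl⟩ := QuotientGroup.mk_surjective b
      exact hgen.mk_comm a b) hψ' (by
      have : ∀ x ∈ (Finset.univ : Finset (S ⧸ ι.range)).erase 1, ‖ψ x‖ ^ 2 ≤ (1 : ℝ) := by
        intro x hx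
        obtain ⟨x, rfl⟩ := QuotientGroup.mk_surjective x
        have h3 := CL.Glb.norm_inner_le_one (hnorm x fun h => (Finset.mem_erase.mp hx).1
          ((QuotientGroup.eq_one_iff x).mpr ((hmem x).mpr h)))
          (CL.Glb.tw_self hι hη.isCharacter hηi x)
        rw [← congrFun hψe x]
        exact pow_le_one₀ (norm_nonneg _) h3
      refine (Finset.sum_le_card_nsmul _ _ _ this).trans (le_of_eq ?_)
      rw [Finset.card_erase_of_mem (Finset.mem_univ _), Finset.card_univ, nsmul_eq_mul, mul_one,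
        Nat.card_eq_fintype_card, Nat.cast_pred Fintype.card_pos])
    (x₀ := s') (fun h => hsN ((hmem s').mp ((QuotientGroup.eq_one_iff s').mp h)))
    (by rw [← congrFun hψe s']; exact h0)
  rw [← QuotientGroup.mk_one, ← congrFun hψe 1, h1, hcard] at h2
  have h3 : (e : ℤ) = k * G.index + ε := by exact_mod_cast h2
  rcases hε with rfl | rfl
  · exact Or.inl ⟨k, by rw [h3]; ring⟩
  · exact Or.inr ⟨k, by rw [h3]; ring⟩

end Cfsg.Agent.S4454
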