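import Cfsg.Statements.S4457
import Cfsg.Agent.ORD.Deg1

set_option autoImplicit false
open Cfsg

namespace Cfsg.Agent.S4457

/-- Let G be a finite group whose irreducible character degrees are exactly 1 and m (m ≠ 1). Then either G has an abelian normal subgroup of index m, or m is a power of a prime p and G is the direct product of a p-group and an abelian group: there are normal subgroups P and A with P a p-group, A abelian, P ⊓ A = 1 and P ⊔ A = G. -/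
theorem result {G : Type*} [Group G] [Finite G] (m : ℕ) (hcd : ∀ χ : Cfsg.IrrCharacter G, Cfsg.charDegree (χ : G → ℂ) = 1 ∨ Cfsg.charDegree (χ : G → ℂ) = m) (hm : ∃ χ : Cfsg.IrrCharacter G, Cfsg.charDegree (χ : G → ℂ) = m) (hm1 : m ≠ 1) : (∃ A : Subgroup G, A.Normal ∧ (∀ a ∈ A, ∀ b ∈ A, a * b = b * a) ∧ A.index = m) ∨ ∃ p e : ℕ, p.Prime ∧ m = p ^ e ∧ ∃ P A : Subgroup G, P.Normal ∧ A.Normal ∧ IsPGroup p P ∧ (∀ a ∈ A, ∀ b ∈ A, a * b = b * a) ∧ P ⊓ A = ⊥ ∧ P ⊔ A = ⊤ := by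
  obtain ⟨χ, hχ⟩ := hm
  refine (CL.Ord.two_degrees (fun χ h => hcd ⟨χ, h⟩) ⟨χ.1, χ.2, hχ⟩ hm1).imp id ?_
  rintro ⟨p, e, hp, he, hnil, hab⟩
  have : Fact p.Prime := ⟨hp⟩
  exact ⟨p, e, hp, he, pCore p G, pPrimeCore p G, inferInstance, inferInstance,
    CL.isPGroup_pCore p G, hab, CL.pCore_inf_pPrimeCore,
    CL.pCore_sup_pPrimeCore_of_isNilpotent p G⟩

end Cfsg.Agent.S4457
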