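import Cfsg.Statements.S4459
import Cfsg.Agent.ORD.PrimeDeg

set_option autoImplicit false
open Cfsg

namespace Cfsg.Agent.S4459

/-- Let G be a non-abelian finite group and p a prime. Then the irreducible character degrees of G are exactly 1 and p if and only if either G has an abelian normal subgroup of index p or the centre of G has index p³. -/
theorem result {G : Type*} [Group G] [Finite G] (hG : ∃ a b : G, a * b ≠ b * a) (p : ℕ) (hp : p.Prime) : ((∀ χ : Cfsg.IrrCharacter G, Cfsg.charDegree (χ : G → ℂ) = 1 ∨ Cfsg.charDegree (χ : G → ℂ) = p) ∧ ∃ χ : Cfsg.IrrCharacter G, Cfsg.charDegree (χ : G → ℂ) = p) ↔ ((∃ A : Subgroup G, A.Normal ∧ (∀ a ∈ A, ∀ b ∈ A, a * b = b * a) ∧ A.index = p) ∨ (Subgroup.center G).index = p ^ 3) := by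
  constructor
  · rintro ⟨h1, χ, h2⟩
    exact CL.Ord.degrees_one_p hp (fun χ hχ => h1 ⟨χ, hχ⟩) ⟨χ, χ.2, h2⟩
  · intro h
    have h1 : ∀ χ : Cfsg.IrrCharacter G, Cfsg.charDegree (χ : G → ℂ) = 1 ∨
        Cfsg.charDegree (χ : G → ℂ) = p := by
      intro χ
      rcases h with ⟨A, hA, hc, hi⟩ | h
      · exact (Nat.dvd_prime hp).mp (hi ▸ χ.2.charDegree_dvd_index_of_abelian A hc)
      · obtain ⟨j, -, hj⟩ := (Nat.dvd_prime_pow hp).mp (h ▸ χ.2.charDegree_dvd_index_center)
        have h2 := χ.2.charDegree_sq_le_index χ.2.center_le_charCenter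
        rw [h, hj, ← pow_mul, Nat.pow_le_pow_iff_right hp.one_lt] at h2
        rw [hj]
        rcases j with _ | _ | j
        · exact Or.inl rfl
        · exact Or.inr (pow_one p)
        · omega
    refine ⟨h1, ?_⟩
    by_contra hc
    push Not at hc
    obtain ⟨a, b, hab⟩ := hG
    exact hab (CL.Ord.mul_comm_of_forall_degree
      (fun χ hχ => (h1 ⟨χ, hχ⟩).resolve_right (hc ⟨χ, hχ⟩)) a b)
end Cfsg.Agent.S4459
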