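import Cfsg.Statements.S4469
import Cfsg.Agent.FGS.Blichfeldt
import Cfsg.Agent.S4470

set_option autoImplicit false
open Cfsg

namespace Cfsg.Agent.S4469

/-- The classical bound for finite linear groups, in explicit form. Let the finite group G have a faithful character of degree n. Then G has an abelian normal subgroup whose index is at most n! · 12^(n·(π(n+1)+1)), π(k) denoting the number of primes not exceeding k. -/
theorem result {G : Type*} [Group G] [Finite G] (χ : G → ℂ) (hχ : Cfsg.IsCharacter G χ) (hfaith : ∀ g : G, χ g = χ 1 → g = 1) (n : ℕ) (hn : Cfsg.charDegree χ = n) : ∃ A : Subgroup G, A.Normal ∧ (∀ x ∈ A, ∀ y ∈ A, x * y = y * x) ∧ A.index ≤ Nat.factorial n * 12 ^ (n * (Nat.primeCounting (n + 1) + 1)) := by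
  obtain ⟨A, hA, hAc, hAi⟩ := Cfsg.Agent.S4470.result χ hχ hfaith n hn
  refine ⟨A, hA, hAc, ?_⟩
  have h := CL.FGS.Blich.index_le_of_relIndex_le hχ (hχ.charKer_eq_bot_iff.2 hfaith) (A := A) hAi
  rwa [hn, ← pow_mul] at h

end Cfsg.Agent.S4469
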