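import Cfsg.Statements.S4471
import Cfsg.Agent.ORD.TwoP

set_option autoImplicit false
open Cfsg

namespace Cfsg.Agent.S4471

/-- Let p ≥ 7 be a prime and let the finite group G have a faithful irreducible character of degree n with n < 2p and n ≠ p. If the Sylow p-subgroups of G are non-abelian then p² does not divide the index of O_p(G) in G; consequently, in every case G/O_p(G) has abelian Sylow p-subgroups. -/
theorem result {G : Type*} [Group G] [Finite G] (χ : Cfsg.IrrCharacter G) (hfaith : ∀ g : G, (χ : G → ℂ) g = (χ : G → ℂ) 1 → g = 1) (n : ℕ) (hn : Cfsg.charDegree (χ : G → ℂ) = n) (p : ℕ) (hp : p.Prime) (h7 : 7 ≤ p) (hn2 : n < 2 * p) (hnp : n ≠ p) : ((∃ P : Sylow p G, ∃ x ∈ (P : Subgroup G), ∃ y ∈ (P : Subgroup G), x * y ≠ y * x) → ¬ p ^ 2 ∣ (Cfsg.pCore p G).index) ∧ ∀ Q : Sylow p (G ⧸ Cfsg.pCore p G), ∀ x ∈ (Q : Subgroup (G ⧸ Cfsg.pCore p G)), ∀ y ∈ (Q : Subgroup (G ⧸ Cfsg.pCore p G)), x *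 y = y * x := by
  have : Fact p.Prime := ⟨hp⟩
  subst hn
  have key : ∀ P : Subgroup G, IsPGroup p P → (∃ x ∈ P, ∃ y ∈ P, x * y ≠ y * x) →
      ¬ p ^ 2 ∣ (Cfsg.pCore p G).index := by
    rintro P hP ⟨x, hx, y, hy, hxy⟩
    refine CL.Ord.not_sq_dvd_index_pCore χ.2 (χ.2.isCharacter.charKer_eq_bot_iff.mpr hfaith) h7 hn2
      hnp hP fun e => hxy ?_
    have : (⟨x, hx⟩ * ⟨y, hy⟩ * ⟨x, hx⟩⁻¹ * ⟨y, hy⟩⁻¹ : P) ∈ commutator P :=
      Subgroup.commutator_mem_commutator (Subgroup.mem_top _) (Subgroup.mem_top _)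
    rw [e, Subgroup.mem_bot, mul_inv_eq_one, mul_inv_eq_iff_eq_mul] at this
    exact congrArg Subtype.val this
  refine ⟨fun ⟨P, h⟩ => key P P.isPGroup' h, fun Q x hx y hy => ?_⟩
  obtain ⟨P, rfl⟩ := Sylow.mapSurjective_surjective (QuotientGroup.mk'_surjective (Cfsg.pCore p G)) p Q
  by_contra hne
  obtain ⟨a, ha, rfl⟩ := hx
  obtain ⟨b, hb, rfl⟩ := hy
  have h1 := key P P.isPGroup' ⟨a, ha, b, hb, fun e => hne (by rw [← map_mul, e, map_mul])⟩
  obtain ⟨k, hk⟩ := (P.mapSurjective (QuotientGroup.mk'_surjective (Cfsg.pCore p G))).isPGroup'.exists_card_eq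
  have h2 := Subgroup.card_subgroup_dvd_card (P.mapSurjective (QuotientGroup.mk'_surjective (Cfsg.pCore p G)) : Subgroup (G ⧸ Cfsg.pCore p G))
  rw [hk, ← Subgroup.index_eq_card] at h2
  have hk1 : k ≤ 1 := by
    by_contra h
    exact h1 ((pow_dvd_pow p (by omega)).trans h2)
  have hc : IsCyclic (P.mapSurjective (QuotientGroup.mk'_surjective (Cfsg.pCore p G)) : Subgroup (G ⧸ Cfsg.pCore p G)) :=
    isCyclic_of_card_dvd_prime (p := p) (by rw [hk]; simpa using pow_dvd_pow p hk1)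
  exact hne (congrArg Subtype.val (hc.isMulCommutative.is_comm.comm ⟨_, a, ha, rfl⟩ ⟨_, b, hb, rfl⟩))
end Cfsg.Agent.S4471
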