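import Cfsg.Statements.S4476
import Mathlib
import Cfsg.Agent.CHAR.FS
import Cfsg.Agent.BLK.Codeg

set_option autoImplicit false
open Cfsg

namespace Cfsg.Agent.S4476

open CL CL.Blk CL.Char MonoidAlgebra
open scoped CL.MSS
open scoped ComplexConjugate commutatorElement

/-- Let G be a finite group of even order g with exactly t involutions, and put α = (g − 1)/t (a rational number). Then (a) some non-identity element x of G has at most α² conjugates; and (b) some non-principal real-valued irreducible character of G has degree at most α. -/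
theorem result {G : Type*} [Group G] [Fintype G] (heven : Even (Nat.card G)) (t : ℕ) (ht : Nat.card {x : G // orderOf x = 2} = t) : (∃ x : G, x ≠ 1 ∧ ((Subgroup.centralizer ({x} : Set G)).index : ℚ) ≤ (((Nat.card G : ℚ) - 1) / t) ^ 2) ∧ ∃ χ : Cfsg.IrrCharacter G, (χ : G → ℂ) ≠ (fun _ => 1) ∧ (∀ g : G, ((χ : G → ℂ) g).im = 0) ∧ (Cfsg.charDegree (χ : G → ℂ) : ℚ) ≤ ((Nat.card G : ℚ) - 1) / t := by
  classical
  set S := Finset.univ.filter (fun χ : IrrCharacter G => χ ≠ irrOne G ∧
    ∀ g : G, ((χ : G → ℂ) g).im = 0) with hS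
  have := Fact.mk Nat.prime_two
  have ht0 : 0 < t := by
    obtain ⟨z, hz⟩ := exists_prime_orderOf_dvd_card' 2 heven.two_dvd
    rw [← ht]
    have : Nonempty {x : G // orderOf x = 2} := ⟨⟨z, hz⟩⟩
    exact Nat.card_pos
  have hg : 1 < Nat.card G := lt_of_lt_of_le one_lt_two (Nat.le_of_dvd Nat.card_pos heven.two_dvd)
  have h1 : Nat.card {s : G // s * s = 1} = t + 1 := by
    rw [← ht, Nat.card_eq_fintype_card, Nat.card_eq_fintype_card, Fintype.card_subtype,
      Fintype.card_subtype, ← Finset.card_insert_of_notMem (a := (1 : G)) (by simp)]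
    congr 1
    ext s
    simp only [Finset.mem_filter, Finset.mem_univ, true_and, Finset.mem_insert]
    constructor
    · intro h
      by_cases h0 : s = 1
      · exact Or.inl h0
      · exact Or.inr (orderOf_eq_prime (by rw [sq, h]) h0)
    · rintro (rfl | h)
      · simp
      · rw [← sq, ← h, pow_orderOf_eq_one]
  have h2 : (t : ℝ) ≤ ∑ χ ∈ S, (charDegree (χ : G → ℂ) : ℝ) := by
    have h3 := congrArg Complex.re (card_sqrt_eq_sum (1 : G))
    rw [h1, ← Finset.add_sum_erase _ _ (Finset.mem_univ (irrOne G)), irrOne_coe, fsInd_one] at h3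
    simp only [Nat.cast_add, Nat.cast_one, Complex.add_re, Complex.natCast_re, Complex.one_re,
      mul_one, Complex.re_sum] at h3
    have h4 : ∑ χ ∈ Finset.univ.erase (irrOne G), (fsInd (χ : G → ℂ) * (χ : G → ℂ) 1).re ≤
        ∑ χ ∈ Finset.univ.erase (irrOne G), if ∀ g : G, ((χ : G → ℂ) g).im = 0 then
          (charDegree (χ : G → ℂ) : ℝ) else 0 := by
      refine Finset.sum_le_sum fun χ _ => ?_
      split_ifs with h5
      · rw [χ.2.apply_one_eq_charDegree]
        rcases χ.2.fsInd_of_real h5 with h6 | h6 <;> rw [h6] <;> simp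
      · push Not at h5
        rw [χ.2.fsInd_eq_zero_of_not_real h5]; simp
    rw [← Finset.sum_filter] at h4
    have h5 : (Finset.univ.erase (irrOne G)).filter
        (fun χ : IrrCharacter G => ∀ g : G, ((χ : G → ℂ) g).im = 0) = S := by
      ext χ; simp [hS]
    rw [h5] at h4
    linarith
  have h3 : ∑ χ ∈ S, (charDegree (χ : G → ℂ) : ℝ) ^ 2 ≤ Nat.card G - 1 := by
    have h4 := congrArg Complex.re (sum_degree_sq (G := G))
    rw [← Finset.add_sum_erase _ _ (Finset.mem_univ (irrOne G)), irrOne_coe] at h4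
    simp only [one_pow, Complex.add_re, Complex.one_re, Complex.re_sum, Complex.natCast_re] at h4
    have h5 : ∀ χ : IrrCharacter G, ((χ : G → ℂ) 1 ^ 2).re = (charDegree (χ : G → ℂ) : ℝ) ^ 2 := by
      intro χ
      rw [χ.2.apply_one_eq_charDegree]
      norm_cast
    simp only [h5] at h4
    have h6 := Finset.sum_le_sum_of_subset_of_nonneg (s := S) (t := Finset.univ.erase (irrOne G))
      (f := fun χ : IrrCharacter G => (charDegree (χ : G → ℂ) : ℝ) ^ 2)
      (fun χ hχ => Finset.mem_erase.2 ⟨(Finset.mem_filter.1 hχ).2.1, Finset.mem_univ _⟩)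
      fun _ _ _ => sq_nonneg _
    linarith
  have ht' : (0 : ℝ) < t := by exact_mod_cast ht0
  have hg' : (0 : ℝ) < (Nat.card G : ℝ) - 1 := by
    have : (1 : ℝ) < Nat.card G := by exact_mod_cast hg
    linarith
  have hSne : S.Nonempty := by
    by_contra h
    rw [Finset.not_nonempty_iff_eq_empty.1 h] at h2
    simp only [Finset.sum_empty] at h2
    linarith
  constructor
  · by_contra hne
    push Not at hne
    have := Fintype.ofFinite (ConjClasses G)
    set α : ℝ := ((Nat.card G : ℝ) - 1) / t with hα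
    have h4 : (t : ℝ) ^ 2 ≤ S.card * ((Nat.card G : ℝ) - 1) := by
      have h5 := Finset.sum_mul_sq_le_sq_mul_sq S (fun _ => (1 : ℝ))
        (fun χ => (charDegree (χ : G → ℂ) : ℝ))
      simp only [one_mul, one_pow, Finset.sum_const, nsmul_eq_mul, mul_one] at h5
      calc (t : ℝ) ^ 2 ≤ _ := pow_le_pow_left₀ ht'.le h2 2
        _ ≤ _ := h5
        _ ≤ _ := mul_le_mul_of_nonneg_left h3 (Nat.cast_nonneg _)
    have h5 : S.card + 1 ≤ Fintype.card (ConjClasses G) := by
      rw [← Nat.card_eq_fintype_card, ← card_irr, Nat.card_eq_fintype_card,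
        ← Finset.card_insert_of_notMem (a := irrOne G) (by simp [hS])]
      exact Finset.card_le_univ _
    have h6 := sum_conjClasses_card_eq_card G
    rw [← Finset.add_sum_erase _ _ (Finset.mem_univ (ConjClasses.mk (1 : G)))] at h6
    have h7 : (ConjClasses.mk (1 : G)).carrier.toFinset.card = 1 := by
      rw [Finset.card_eq_one]
      exact ⟨1, by ext; simp [ConjClasses.mem_carrier_iff_mk_eq, ConjClasses.mk_eq_mk_iff_isConj]⟩
    have h8 : ∀ C ∈ Finset.univ.erase (ConjClasses.mk (1 : G)),
        α ^ 2 < (C.carrier.toFinset.card : ℝ) := by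
      intro C hC
      obtain ⟨x, rfl⟩ := ConjClasses.mk_surjective C
      have h9 := hne x fun h => (Finset.mem_erase.1 hC).1 (by rw [h])
      have h10 : (ConjClasses.mk x).carrier.toFinset.card =
          (Subgroup.centralizer ({x} : Set G)).index := by
        rw [← card_filter_isConj]
        congr 1
        ext y
        simp only [Set.mem_toFinset, ConjClasses.mem_carrier_iff_mk_eq,
          ConjClasses.mk_eq_mk_iff_isConj, Finset.mem_filter, Finset.mem_univ, true_and]
        exact isConj_comm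
      rw [h10, hα]
      exact_mod_cast h9
    have h9 := Finset.sum_lt_sum_of_nonempty (s := Finset.univ.erase (ConjClasses.mk (1 : G)))
      (by
        rw [← Finset.card_pos, Finset.card_erase_of_mem (Finset.mem_univ _), Finset.card_univ]
        have := hSne.card_pos
        omega) h8
    rw [Finset.sum_const, Finset.card_erase_of_mem (Finset.mem_univ _), Finset.card_univ,
      nsmul_eq_mul, ← Nat.cast_sum] at h9
    rw [h7, ← Nat.card_eq_fintype_card] at h6
    have h10 : ((∑ C ∈ Finset.univ.erase (ConjClasses.mk (1 : G)), C.carrier.toFinset.card : ℕ) : ℝ)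
        = Nat.card G - 1 := by
      rw [← h6]; push_cast; ring
    have h11 : (S.card : ℝ) ≤ ((Fintype.card (ConjClasses G) - 1 : ℕ) : ℝ) := by
      exact_mod_cast (by omega)
    rw [h10] at h9
    have h12 : α * t = Nat.card G - 1 := by rw [hα]; field_simp
    have h13 : (S.card : ℝ) * α ^ 2 < Nat.card G - 1 :=
      lt_of_le_of_lt (mul_le_mul_of_nonneg_right h11 (sq_nonneg _)) h9
    have h14 : ((Nat.card G : ℝ) - 1) ^ 2 = α ^ 2 * t ^ 2 := by rw [← h12]; ring
    nlinarith [sq_nonneg α]
  · by_contra hne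
    push Not at hne
    set α : ℝ := ((Nat.card G : ℝ) - 1) / t with hα
    have hα0 : 0 < α := div_pos hg' ht'
    have h4 : ∑ χ ∈ S, α * (charDegree (χ : G → ℂ) : ℝ) <
        ∑ χ ∈ S, (charDegree (χ : G → ℂ) : ℝ) ^ 2 := by
      refine Finset.sum_lt_sum_of_nonempty hSne fun χ hχ => ?_
      obtain ⟨h5, h6⟩ := (Finset.mem_filter.1 hχ).2
      have h7 : α < charDegree (χ : G → ℂ) := by
        rw [hα]; exact_mod_cast hne χ (fun h => h5 (eq_irrOne_iff.2 h)) h6
      nlinarith
    rw [← Finset.mul_sum] at h4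
    have h12 : α * t = Nat.card G - 1 := by rw [hα]; field_simp
    nlinarith

end Cfsg.Agent.S4476
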