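import Cfsg.Statements.S4478
import Mathlib
import Cfsg.Agent.BLK.DefZero
import Cfsg.Agent.BLK.Reg
import Cfsg.Agent.CHAR.FS
import Cfsg.Agent.INV.BlockAux

set_option autoImplicit false
open Cfsg

namespace Cfsg.Agent.S4478

open CL CL.Blk Cfsg Subgroup

theorem sum_odd {G : Type*} [Group G] [Fintype G] (f : G → ℂ) :
    ∑ g with Odd (orderOf g), f (g * g) = ∑ g with Odd (orderOf g), f g := by
  have h : ∀ g : G, Odd (orderOf g) → g ^ (2 * ((orderOf g + 1) / 2)) = g := fun g hg => by
    rw [Nat.mul_div_cancel' hg.add_one.two_dvd, pow_succ, pow_orderOf_eq_one, one_mul]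
  refine Finset.sum_nbij' (fun g => g * g) (fun g => g ^ ((orderOf g + 1) / 2)) ?_ ?_ ?_ ?_
    fun _ _ => rfl <;> simp only [Finset.mem_filter, Finset.mem_univ, true_and] <;> intro g hg
  · exact hg.of_dvd_nat (sq g ▸ orderOf_pow_dvd 2)
  · exact hg.of_dvd_nat (orderOf_pow_dvd _)
  · rw [← sq, Nat.Coprime.orderOf_pow (Nat.coprime_two_right.2 hg), ← pow_mul, h g hg]
  · rw [← sq, ← pow_mul, mul_comm, h g hg]

/-- Let G be a finite group of even order and χ an irreducible character of G whose degree x is divisible by the full power of 2 dividing the order of G and, for every odd prime p such that G has an element of order 2p, by the full power of p dividing the order of G. Then all involutions of G are conjugate, the centralizer of every involution has order exactly x with x coprime to its index, and the Frobenius–Schur indicator of χ equals 1. -/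
theorem result {G : Type*} [Group G] [Fintype G] (heven : Even (Nat.card G)) (χ : Cfsg.IrrCharacter G) (h2 : 2 ^ (Nat.card G).factorization 2 ∣ Cfsg.charDegree (χ : G → ℂ)) (hp : ∀ p : ℕ, p.Prime → p ≠ 2 → (∃ g : G, orderOf g = 2 * p) → p ^ (Nat.card G).factorization p ∣ Cfsg.charDegree (χ : G → ℂ)) : (∀ s t : G, orderOf s = 2 → orderOf t = 2 → IsConj s t) ∧ (∀ s : G, orderOf s = 2 → Nat.card (Subgroup.centralizer ({s} : Set G)) = Cfsg.charDegree (χ : G → ℂ) ∧ (Nat.card (Subgroup.centralizer ({s} : Set G))).Coprime (Subgroup.centralizer ({s} : Set G)).index) ∧ (Nat.card G : ℂ)⁻¹ * ∑ g : G, (χ : G → ℂ) (g * g) = 1 := by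
  classical
  have hq : ∀ s : G, orderOf s = 2 → ∀ c ∈ centralizer ({s} : Set G), ∀ q : ℕ, q.Prime →
      q ∣ orderOf c → q ^ (Nat.card G).factorization q ∣ charDegree χ.1 := fun s hs c hc q hq hd => by
    by_cases h : q = 2
    · exact h ▸ h2
    have h1 := orderOf_pow_orderOf_div (orderOf_pos c).ne' hd
    refine hp q hq h ⟨s * c ^ (orderOf c / q), ?_⟩
    rw [((Commute.symm (mem_centralizer_singleton_iff.1 hc)).pow_right _).orderOf_mul_eq_mul_orderOf_of_coprime
      (by rw [hs, h1]; exact (Nat.coprime_primes Nat.prime_two hq).2 (Ne.symm h)), hs, h1]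
  have hz : ∀ q : ℕ, q.Prime → q ^ (Nat.card G).factorization q ∣ charDegree χ.1 → ∀ g : G,
      q ∣ orderOf g → χ.1 g = 0 := fun q hq h g hg => by
    obtain ⟨M, hM⟩ := BS.exists_isPModular q hq
    exact ((defZero_iff_pow_dvd hq).2 h).vanish hM hg
  have hv : ∀ s : G, orderOf s = 2 → ∀ c ∈ centralizer ({s} : Set G), c ≠ 1 → χ.1 c = 0 :=
    fun s hs c hc h1 => by
      obtain ⟨q, h, hd⟩ := Nat.exists_prime_and_dvd (mt orderOf_eq_one_iff.1 h1)
      exact hz q h (hq s hs c hc q h hd) c hd
  obtain ⟨t, ht⟩ := exists_prime_orderOf_dvd_card' 2 heven.two_dvd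
  have h0 : ∑ g, χ.1 g = 0 := by
    have h1 := χ.2.inner Char.isIrrCharacter_one
    rw [if_neg fun h => by simpa [h] using hz 2 Nat.prime_two h2 t ht.symm.dvd] at h1
    simpa [Char.classInner_def] using h1
  have h1 : ∑ g, χ.1 (g * g) = (Finset.univ.filter fun g : G => orderOf g = 2).card *
      charDegree χ.1 := by
    rw [← Finset.sum_filter_add_sum_filter_not _ fun g => Odd (orderOf g), sum_odd,
      Finset.sum_filter_of_ne fun g _ h => Nat.not_even_iff_odd.1 fun h' =>
        h (hz 2 Nat.prime_two h2 g h'.two_dvd), h0, zero_add, ← nsmul_eq_mul, ← Finset.sum_const,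
      Finset.sum_filter, Finset.sum_filter]
    refine Finset.sum_congr rfl fun g _ => ?_
    by_cases h : orderOf g = 2
    · rw [if_pos h, if_pos (by rw [h]; decide), ← sq, ← h, pow_orderOf_eq_one,
        χ.2.apply_one_eq_charDegree]
    rw [if_neg h, ite_eq_right_iff]
    intro h3
    have h4 := (Nat.not_odd_iff_even.1 h3).two_dvd
    refine hv _ (orderOf_pow_orderOf_div (orderOf_pos g).ne' h4) _ (mem_centralizer_singleton_iff.2
      (((Commute.refl g).mul_left (Commute.refl g)).pow_right _)) fun h5 => h ?_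
    exact Nat.dvd_antisymm (orderOf_dvd_of_pow_eq_one ((sq g).trans h5)) h4
  have hpos : 0 < (Finset.univ.filter fun g : G => orderOf g = 2).card * charDegree χ.1 :=
    Nat.mul_pos (Finset.card_pos.2 ⟨t, by simpa using ht⟩) χ.2.charDegree_pos
  have h3 : Char.fsInd χ.1 = 1 := by
    have h4 := (mul_inv_cancel_left₀ (Char.card_ne_zero G) _).trans h1
    rw [← Char.fsInd_def] at h4
    rcases χ.2.fsInd_trichotomy with h | h | h
    · rw [h, mul_zero] at h4
      exact absurd (by exact_mod_cast h4) hpos.ne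
    · exact h
    · rw [h, mul_neg_one, neg_eq_iff_add_eq_zero] at h4
      norm_cast at h4
      omega
  have h4 : (Finset.univ.filter fun g : G => orderOf g = 2).card * charDegree χ.1 =
      Nat.card G := by
    rw [Char.fsInd_def, h1, inv_mul_eq_one₀ (Char.card_ne_zero G)] at h3
    exact_mod_cast h3.symm
  have h5 : ∀ s : G, orderOf s = 2 → Nat.card (centralizer ({s} : Set G)) = charDegree χ.1 ∧
      ∀ t : G, orderOf t = 2 → IsConj s t := fun s hs => by
    obtain ⟨k, hk⟩ := card_dvd_degree_of_vanish χ.2.isCharacter.isGen _ (hv s hs)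
    rw [χ.2.apply_one_eq_charDegree] at hk
    have h6 := Nat.le_of_dvd χ.2.charDegree_pos (Int.natCast_dvd_natCast.1
      ⟨k, by exact_mod_cast hk⟩ : Nat.card (centralizer ({s} : Set G)) ∣ _)
    have h7 := Char.card_conj_mul_card_centralizer s
    rw [Nat.card_eq_fintype_card, Fintype.card_subtype] at h7
    have h8 : (Finset.univ.filter fun x => IsConj s x) ⊆ Finset.univ.filter
        fun g : G => orderOf g = 2 := fun x hx => by
      obtain ⟨c, rfl⟩ := isConj_iff.1 (Finset.mem_filter.1 hx).2
      simpa using (MulEquiv.orderOf_eq (MulAut.conj c) s).trans hs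
    have h9 := Finset.card_le_card h8
    have h10 : 0 < Nat.card (centralizer ({s} : Set G)) := Nat.card_pos
    have h11 := (Nat.mul_le_mul_right _ h9).antisymm ((Nat.mul_le_mul_left _ h6).trans_eq
      (h4.trans h7.symm))
    have h12 := Nat.eq_of_mul_eq_mul_right h10 h11
    refine ⟨Nat.eq_of_mul_eq_mul_left (Nat.pos_of_mul_pos_right hpos) ?_, fun t ht => ?_⟩
    · rw [← h11, h7, h4]
    · simpa using (Finset.eq_of_subset_of_card_le h8 h12.ge).ge (by simpa using ht : t ∈ _)
  refine ⟨fun s t hs => (h5 s hs).2 t, fun s hs => ⟨(h5 s hs).1, ?_⟩, h3⟩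
  refine Nat.coprime_of_dvd fun q hq1 hq2 hq3 => ?_
  have := Fact.mk hq1
  obtain ⟨c, hc⟩ := exists_prime_orderOf_dvd_card' q hq2
  have h6 := hq s hs c c.2 q hq1 (by rw [orderOf_coe, hc])
  rw [← (h5 s hs).1] at h6
  refine Nat.pow_succ_factorization_not_dvd (Nat.card_pos (α := G)).ne' hq1 ?_
  rw [pow_succ]
  exact (mul_dvd_mul h6 hq3).trans (card_mul_index _).dvd

end Cfsg.Agent.S4478
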