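import Cfsg.Statements.S4480
import Mathlib
import Cfsg.Agent.BLK.KleinOrder
import Cfsg.Agent.S4479

set_option autoImplicit false
open Cfsg

namespace Cfsg.Agent.S4480

open CL.Blk Cfsg Subgroup
open scoped ComplexConjugate

theorem odd_deg {G : Type*} [Group G] [Finite G] (χ : IrrCharacter G) {J : G} (hJ : J * J = 1)
    {ε : ℤ} (hε : ε = 1 ∨ ε = -1) (h : χ.1 J = ε) : Odd (charDegree χ.1) := by
  obtain ⟨a, b, h1, h2⟩ := χ.2.isCharacter.exists_int_of_mul_self hJ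
  rw [irr_one_eq] at h1
  rw [h] at h2
  have h3 : charDegree χ.1 = a + b := by exact_mod_cast h1
  have h4 : ε = (a : ℤ) - b := by exact_mod_cast h2
  rw [h3, Nat.odd_iff]
  omega

theorem arith {g c d r k x i : ℕ} (hc : c = r * d) (hd : 0 < d) (hx : x + 1 = 2 * k) (hk : 0 < k)
    (hi : g = i * c) (hr : 0 < r)
    (h : g * ((2 * k) * (2 * k) * (2 * x)) * d ^ 2 = 8 * (x * x * (2 * x + 1)) * c ^ 3) :
    ∃ m : ℕ, 4 * c = m * d * (2 * x + 1 + 1) ∧
      8 * g = m ^ 3 * d * ((2 * x + 1) ^ 3 - (2 * x + 1)) := by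
  have hx0 : 0 < x := by omega
  have h1 : i * k ^ 2 = x * (2 * x + 1) * r ^ 2 := by
    subst hc hi
    refine Nat.eq_of_mul_eq_mul_left (show 0 < 8 * x * r * d ^ 3 by positivity) ?_
    linear_combination h
  have h2 : Nat.Coprime k (x * (2 * x + 1)) := by
    refine Nat.Coprime.mul_right ?_ ?_
    · exact Nat.Coprime.coprime_mul_left (k := 2) (by rw [← hx]; simp)
    · exact Nat.Coprime.coprime_mul_left (k := 4) (by
        rw [show 4 * k = (2 * x + 1) + 1 by omega]; simp)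
  have h3 : k ^ 2 ∣ r ^ 2 :=
    (Nat.Coprime.pow_left 2 h2).dvd_of_dvd_mul_left ⟨i, by rw [← h1]; ring⟩
  obtain ⟨m, rfl⟩ := (Nat.pow_dvd_pow_iff two_ne_zero).1 h3
  have h4 : i = x * (2 * x + 1) * m ^ 2 := by
    refine Nat.eq_of_mul_eq_mul_right (show 0 < k ^ 2 by positivity) ?_
    rw [h1]; ring
  refine ⟨m, ?_, ?_⟩
  · rw [hc, show 2 * x + 1 + 1 = 4 * k by omega]; ring
  · have h5 : (2 * x + 1) ^ 3 - (2 * x + 1) = (2 * x + 1) * (2 * x) * (4 * k) := by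
      rw [show 4 * k = 2 * x + 2 by omega]
      refine Nat.sub_eq_of_eq_add ?_
      ring
    rw [h5, hi, h4, hc]; ring

/-- Same setting as the Klein-four order formula: G of order 4·g₀ (g₀ odd) with no normal 2-complement, P a Sylow 2-subgroup, J an involution of P, M over 2, principal 2-block {1, χ₁, χ₂, χ₃} with χ_i(J) = ε_i = ±1. Suppose ε₁ε₂ε₃ = −1 and ε₃ = −1, and put q = x₃ = χ₃(1). Then there is a natural number m with 4·c(J) = m·c(P)·(q + 1), and the order of G equals (m³·c(P)/4)·(q³ − q)/2, that is 8·#G = m³·c(P)·(q³ − q). -/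
theorem result {G : Type*} [Group G] [Finite G] (M : Ideal Cfsg.AlgInt) (hM : Cfsg.IsPModular 2 M) (g₀ : ℕ) (hg₀ : Odd g₀) (hG : Nat.card G = 4 * g₀) (hnc : ¬ ∃ N : Subgroup G, N.Normal ∧ Nat.card N = g₀) (P : Sylow 2 G) (J : G) (hJ : J ∈ (P : Subgroup G)) (hJ2 : orderOf J = 2) (χ₁ χ₂ χ₃ : Cfsg.IrrCharacter G) (ε₁ ε₂ ε₃ : ℤ) (hB : Cfsg.principalBlock M G = {χ : Cfsg.IrrCharacter G | (χ : G → ℂ) = (fun _ => 1) ∨ χ = χ₁ ∨ χ = χ₂ ∨ χ = χ₃}) (hdist : (χ₁ : G → ℂ) ≠ (fun _ => 1) ∧ (χ₂ : G → ℂ) ≠ (fun _ => 1) ∧ (χ₃ : G → ℂ) ≠ (fun _ => 1) ∧ χ₁ ≠ χ₂ ∧ χ₁ ≠ χ₃ ∧ χ₂ ≠ χ₃) (hε : (ε₁ = 1 ∨ ε₁ = -1) ∧ (ε₂ = 1 ∨ ε₂ = -1) ∧ (ε₃ = 1 ∨ ε₃ = -1)) (hval : (χ₁ : G → ℂ) J = ε₁ ∧ (χ₂ : G → ℂ) J = ε₂ ∧ (χ₃ : G → ℂ) J = ε₃) (hprod : ε₁ * ε₂ * ε₃ = -1) (hε₃ : ε₃ = -1) : ∃ m : ℕ, 4 * Nat.card (Subgroup.centralizer ({J} : Set G)) = m * Nat.card (Subgroup.centralizer ((P : Subgroup G) : Set G)) * (Cfsg.charDegree (χ₃ : G → ℂ)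 + 1) ∧ 8 * Nat.card G = m ^ 3 * Nat.card (Subgroup.centralizer ((P : Subgroup G) : Set G)) * (Cfsg.charDegree (χ₃ : G → ℂ) ^ 3 - Cfsg.charDegree (χ₃ : G → ℂ)) := by
  classical
  have := Fintype.ofFinite G
  obtain ⟨hK, hone⟩ := klein_setup hg₀ hG hnc P
  have h1 := S4479.result M hM g₀ hg₀ hG hnc P J hJ hJ2 χ₁ χ₂ χ₃ ε₁ ε₂ ε₃ hB hdist hε hval
  have h2 := S4479.deg_rel hM hJ2 hB hdist hval
  have hJJ := CL.Inv.mul_self_of_orderOf_two hJ2
  have hx₁ := χ₁.2.charDegree_pos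
  have hx₂ := χ₂.2.charDegree_pos
  have hx₃ := χ₃.2.charDegree_pos
  subst hε₃
  obtain ⟨rfl, rfl⟩ : ε₁ = 1 ∧ ε₂ = 1 := by
    rcases hε.1 with rfl | rfl <;> rcases hε.2.1 with rfl | rfl <;> omega
  have o1 := odd_deg χ₁ hJJ hε.1 hval.1
  have o2 := odd_deg χ₂ hJJ hε.2.1 hval.2.1
  have o3 := odd_deg χ₃ hJJ hε.2.2 hval.2.2
  have hfs := sum_fsInd_eq_zero hM (isBlockUnion_of_block hM (isPBlock_principalBlock (G := G)))
    (isPPart_self Nat.prime_two (x := J) ⟨1, by simpa using hJ2⟩) fun s w hw hc => by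
      obtain ⟨y, hy⟩ := exists_isPPart Nat.prime_two s
      have h3 := hy.pow Nat.prime_two 2
      rw [sq s] at h3
      have h4 : y ^ 2 = 1 := by
        by_cases h : y = 1
        · simp [h]
        · have := pow_orderOf_eq_one y
          rwa [klein_pElt P hK hy.pElt h] at this
      rw [hw.unique Nat.prime_two h3, h4, isConj_one_left] at hc
      exact CL.Inv.ne_one_of_orderOf_two hJ2 hc
  rw [S4479.sum_four hB hdist, hval.1, hval.2.1, hval.2.2] at hfs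
  have hconj : ∀ χ ∈ principalBlock M G, ∃ ψ ∈ principalBlock M G, ∀ g, ψ.1 g = conj (χ.1 g) :=
    fun χ hχ => ⟨_, (galIrr_mem_principal_iff hM (starRingAut (R := ℂ)) χ).2 hχ, fun g => rfl⟩
  have hreal : ∀ χ : IrrCharacter G, (∀ g, χ.1 g = conj (χ.1 g)) → Odd (charDegree χ.1) →
      CL.Char.fsInd χ.1 = 1 := fun χ h ho =>
    χ.2.fsInd_eq_one_of_odd (fun g => Complex.conj_eq_iff_im.1 (h g).symm) (irr_one_eq χ) ho
  have hne1 : ∀ χ : IrrCharacter G, χ.1 ≠ (fun _ => 1) → ∀ ψ : IrrCharacter G,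
      (∀ g, ψ.1 g = conj (χ.1 g)) → ψ.1 ≠ fun _ => 1 := fun χ h ψ hψ h' => h (funext fun g => by
    have := hψ g
    rw [h'] at this
    simpa using congrArg conj this.symm)
  have h12 : charDegree χ₁.1 = charDegree χ₂.1 := by
    by_contra hne
    have key : ∀ χ ψ : IrrCharacter G, (∀ g, ψ.1 g = conj (χ.1 g)) →
        charDegree ψ.1 = charDegree χ.1 ∧ ψ.1 J = χ.1 J := fun χ ψ h => by
      refine ⟨?_, by rw [h, irr_conj_of_mul_self χ hJJ]⟩
      have := h 1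
      rw [χ.2.isCharacter.conj_one, irr_one_eq, irr_one_eq] at this
      exact_mod_cast this
    have r1 : CL.Char.fsInd χ₁.1 = 1 := by
      obtain ⟨ψ, hψ, h⟩ := hconj χ₁ (by rw [hB]; simp)
      rw [hB] at hψ
      rcases hψ with h' | rfl | rfl | rfl
      · exact absurd h' (hne1 _ hdist.1 _ h)
      · exact hreal _ h o1
      · exact absurd (key _ _ h).1.symm hne
      · have := (key _ _ h).2
        rw [hval.1, hval.2.2] at this
        norm_num at this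
    have r2 : CL.Char.fsInd χ₂.1 = 1 := by
      obtain ⟨ψ, hψ, h⟩ := hconj χ₂ (by rw [hB]; simp)
      rw [hB] at hψ
      rcases hψ with h' | rfl | rfl | rfl
      · exact absurd h' (hne1 _ hdist.2.1 _ h)
      · exact absurd (key _ _ h).1 hne
      · exact hreal _ h o2
      · have := (key _ _ h).2
        rw [hval.2.1, hval.2.2] at this
        norm_num at this
    have r3 : CL.Char.fsInd χ₃.1 = 1 := by
      obtain ⟨ψ, hψ, h⟩ := hconj χ₃ (by rw [hB]; simp)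
      rw [hB] at hψ
      rcases hψ with h' | rfl | rfl | rfl
      · exact absurd h' (hne1 _ hdist.2.2.1 _ h)
      · have := (key _ _ h).2
        rw [hval.1, hval.2.2] at this
        norm_num at this
      · have := (key _ _ h).2
        rw [hval.2.1, hval.2.2] at this
        norm_num at this
      · exact hreal _ h o3
    have r0 : CL.Char.fsInd (irrOne G).1 = 1 := CL.Char.fsInd_one
    rw [r0, r1, r2, r3, irrOne_apply] at hfs
    norm_num at hfs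
  have h3 : charDegree χ₃.1 = 2 * charDegree χ₁.1 + 1 := by omega
  rw [← h12, h3] at h1
  rw [h3]
  obtain ⟨k, hk⟩ : ∃ k, charDegree χ₁.1 + 1 = 2 * k := o1.add_one.two_dvd
  have hle : centralizer ((P : Subgroup G) : Set G) ≤ centralizer ({J} : Set G) :=
    centralizer_le (Set.singleton_subset_iff.2 hJ)
  obtain ⟨r, hr⟩ := card_dvd_of_le hle
  have hc0 : 0 < Nat.card (centralizer ({J} : Set G)) := Nat.card_pos
  have hd0 : 0 < Nat.card (centralizer ((P : Subgroup G) : Set G)) := Nat.card_pos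
  refine arith (r := r) (k := k) (i := (centralizer ({J} : Set G)).index) (by rw [hr, mul_comm]) hd0
    hk (by omega) (index_mul_card _).symm (Nat.pos_of_ne_zero fun h => by simp [h] at hr) ?_
  rw [← hk]
  have hx : (charDegree χ₁.1 : ℚ) ≠ 0 := by exact_mod_cast hx₁.ne'
  have hd : (Nat.card (centralizer ((P : Subgroup G) : Set G)) : ℚ) ≠ 0 := by exact_mod_cast hd0.ne'
  apply Nat.cast_injective (R := ℚ)
  push_cast at h1 ⊢
  rw [h1, show 2 * (charDegree χ₁.1 : ℚ) + 1 + -1 = 2 * charDegree χ₁.1 by ring]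
  field_simp

end Cfsg.Agent.S4480
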