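import Cfsg.Statements.S4482
import Mathlib
import Cfsg.Agent.BLK.DihBlock
import Cfsg.Agent.BLK.KleinOrder

set_option autoImplicit false
open Cfsg

namespace Cfsg.Agent.S4482

open CL.Blk Cfsg Subgroup CL.Dih CL.Z2 CL.Inv CL.FusInv

variable {G : Type*} [Group G] [Finite G] {P : Sylow 2 G} {m : ℕ} (c : Coord (P : Subgroup G) m)

open Classical in
/-- The local count in the centralizer of the central involution. -/
theorem local_sum (hm : 2 ≤ m) [Fintype (centralizer ({c.r (hh m)} : Set G))] {α : G → ℂ}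
    (e : AddChar (ZMod (2 ^ m)) ℂ) (he : e 2 ≠ 1)
    (hα : ∀ g y : G, IsPPart 2 g y → ∀ i, i ≠ 0 → IsConj y (c.r i) → α g = 2 - e i - e (-i)) :
    ∃ A B : ℕ, A * Nat.card (centralizer ({c.r (hh m), c.s 0} : Set G)) =
        Nat.card (centralizer ({c.r (hh m)} : Set G)) ∧
      B * Nat.card (centralizer ({c.r (hh m), c.s 1} : Set G)) =
        Nat.card (centralizer ({c.r (hh m)} : Set G)) ∧
      pairSum (fun x : centralizer ({c.r (hh m)} : Set G) =>
        if c.r (hh m) ∈ zpowers (x : G) then α x else 0) = 2 * (A + B) ^ 2 := by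
  have hC := c.hasNPC_centralizer c.orderOf_h
  have hPC := c.le_centralizer_h
  obtain ⟨φ, h1, h2, h3, h4⟩ := exists_proj_sylow hC P hPC
  have hJ1 := ne_one_of_orderOf_two c.orderOf_h
  have hJ : ∀ x : centralizer ({c.r (hh m)} : Set G), c.r (hh m) ∈ zpowers (x : G) →
      c.r (hh m) ∈ zpowers (φ x) := fun x ⟨k, hk⟩ => ⟨k, by
    simp only [← map_zpow]
    exact (congrArg φ (Subtype.ext hk)).trans (h2 ⟨_, hPC (c.r_mem _)⟩ (c.r_mem _))⟩
  have hr : ∀ (x : centralizer ({c.r (hh m)} : Set G)) i, φ x = c.r i →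
      (if c.r (hh m) ∈ zpowers (x : G) then α x else 0) = 2 - e i - e (-i) := fun x i h => by
    by_cases hi : i = 0
    · rw [if_neg fun h' => hJ1 (by simpa [h, hi, c.r_zero] using hJ x h'), hi]
      simp; norm_num
    obtain ⟨y, hy⟩ := exists_isPPart Nat.prime_two x
    obtain ⟨u, hu⟩ := h4 x y hy
    rw [h] at hu
    rw [if_pos, hα x y (isPPart_coe_iff.2 hy) i hi (isConj_iff.2 ⟨u, hu⟩)]
    have h5 := c.h_mem_zpowers (c.r_mem_zpowers i) (c.r_eq_one_iff.not.2 hi)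
    refine Subgroup.zpowers_le.2 ((isPPart_coe_iff.2 hy).mem_zpowers Nat.prime_two)
      ((conj_mem_zpowers_conj (u : G)).1 ?_)
    rwa [hu, mul_inv_eq_iff_eq_mul.2 (mem_centralizer_singleton_iff.1 u.2)]
  have hs : ∀ (x : centralizer ({c.r (hh m)} : Set G)) i, φ x = c.s i →
      (if c.r (hh m) ∈ zpowers (x : G) then α x else 0) = 0 := fun x i h => if_neg fun h' =>
    c.r_ne_s _ _ (eq_of_orderOf_two_of_mem_zpowers c.orderOf_h (c.orderOf_s i) (h ▸ hJ x h')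
      (mem_zpowers _))
  let W : (ZMod (2 ^ m) → ℂ) → G → ℂ := fun ε x => ∑ i, if x = c.s i then ε i else 0
  have Wr : ∀ ε i, W ε (c.r i) = 0 := fun ε i => by simp [W, c.r_ne_s]
  have Ws : ∀ ε i, W ε (c.s i) = ε i := fun ε i => by simp [W, c.s_eq_iff]
  have hinv : ∀ a ∈ invs (centralizer ({c.r (hh m)} : Set G)),
      φ a = c.r (hh m) ∨ ∃ i, φ a = c.s i := fun a ha => by
    refine ((c.mem_iff _).1 (h1 a)).imp_left fun ⟨i, hi⟩ => ?_
    have h5 : φ a * φ a = 1 := by rw [← map_mul, mul_self_of_orderOf_two (mem_invs.1 ha), map_one]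
    have h6 : φ a ≠ 1 := fun h => (h3 a).1 h (by rw [mem_invs.1 ha])
    rw [hi, ← (c.orderOf_r_eq_two_iff i).1 (hi ▸ orderOf_eq_prime (by rw [sq, h5]) h6)]
  have key : ∀ a ∈ invs (centralizer ({c.r (hh m)} : Set G)),
      ∀ b ∈ invs (centralizer ({c.r (hh m)} : Set G)),
      (if c.r (hh m) ∈ zpowers ((a * b : centralizer ({c.r (hh m)} : Set G)) : G) then
        α (a * b : centralizer ({c.r (hh m)} : Set G)) else 0) =
      2 * (W 1 (φ a) * W 1 (φ b)) - W e (φ a) * W (fun i => e (-i)) (φ b) -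
        W (fun i => e (-i)) (φ a) * W e (φ b) := fun a ha b hb => by
    rcases hinv a ha with h | ⟨i, h⟩ <;> rcases hinv b hb with h' | ⟨j, h'⟩
    · rw [hr _ 0 (by rw [map_mul, h, h', c.r_mul_r, ← two_mul, c.two_h]), h, h']
      simp [Wr]; norm_num
    · rw [hs _ _ (by rw [map_mul, h, h', c.r_mul_s]), h]; simp [Wr]
    · rw [hs _ _ (by rw [map_mul, h, h', c.s_mul_r]), h']; simp [Wr]
    · rw [hr _ _ (by rw [map_mul, h, h', c.s_mul_s]), h, h']
      simp only [Ws, Pi.one_apply, ← e.map_add_eq_mul]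
      ring_nf
  have hW : ∑ a ∈ invs (centralizer ({c.r (hh m)} : Set G)), W e (φ a) = 0 := by
    have h5 := sum_invs_conj (⟨c.r 1, hPC (c.r_mem 1)⟩ : centralizer ({c.r (hh m)} : Set G))
      fun a => W e (φ a)
    rw [Finset.sum_congr rfl (g := fun a => e 2 * W e (φ a)), ← Finset.mul_sum] at h5
    · by_contra h0
      exact he (mul_right_cancel₀ h0 (h5.trans (one_mul _).symm))
    · intro a _
      rw [map_mul, map_mul, map_inv, h2 ⟨_, hPC (c.r_mem 1)⟩ (c.r_mem 1)]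
      rcases (c.mem_iff _).1 (h1 a) with ⟨i, h⟩ | ⟨i, h⟩
      · simp [h, c.r_conj_r, Wr]
      · rw [h, c.r_conj_s, Ws, Ws, ← e.map_add_eq_mul]; ring_nf
  have hcl : ∀ j a, a ∈ (invs (centralizer ({c.r (hh m)} : Set G))).filter
      (fun a => ∃ t, φ a = c.s (j + 2 * t)) ↔
      IsConj (⟨c.s j, hPC (c.s_mem j)⟩ : centralizer ({c.r (hh m)} : Set G)) a := fun j a => by
    rw [Finset.mem_filter]
    refine ⟨fun ⟨ha, t, h⟩ => ?_, fun h => ⟨mem_invs.2 (by
      rw [← orderOf_eq_of_isConj h, ← orderOf_coe, c.orderOf_s]), ?_⟩⟩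
    · obtain ⟨u, hu⟩ := h4 a a (isPPart_self Nat.prime_two ⟨1, by simpa using mem_invs.1 ha⟩)
      refine isConj_iff.2 ⟨u⁻¹ * ⟨c.r t, hPC (c.r_mem t)⟩, Subtype.ext ?_⟩
      have h5 := (c.r_conj_s t j).trans (hu.trans h).symm
      calc (u : G)⁻¹ * c.r t * c.s j * ((u : G)⁻¹ * c.r t)⁻¹
          = (u : G)⁻¹ * (c.r t * c.s j * (c.r t)⁻¹) * u := by group
        _ = a := by rw [h5]; group
    · obtain ⟨u, rfl⟩ := isConj_iff.1 h
      rw [map_mul, map_mul, map_inv, h2 ⟨_, hPC (c.s_mem j)⟩ (c.s_mem j)]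
      rcases (c.mem_iff _).1 (h1 u) with ⟨i, h⟩ | ⟨i, h⟩
      · exact ⟨i, by rw [h, c.r_conj_s]⟩
      · exact ⟨i - j, by rw [h, c.s_conj_s]; ring_nf⟩
  have hA := card_mul_of_mem_iff_isConj (hcl 0)
  have hB := card_mul_of_mem_iff_isConj (hcl 1)
  rw [card_centralizer_in_centralizer] at hA hB
  refine ⟨_, _, hA, hB, ?_⟩
  rw [pairSum, Finset.sum_congr rfl fun a ha => Finset.sum_congr rfl (key a ha)]
  simp only [Finset.sum_sub_distrib, ← Finset.mul_sum, ← Finset.sum_mul, hW, zero_mul, mul_zero,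
    sub_zero, ← sq, Finset.card_filter]
  push_cast
  rw [← Finset.sum_add_distrib]
  congr 2
  refine Finset.sum_congr rfl fun a ha => ?_
  rcases hinv a ha with h | ⟨i, h⟩
  · simp [h, Wr, c.r_ne_s]
  · simp only [h, Ws, c.s_eq_iff, Pi.one_apply, zero_add]
    rcases even_or_odd i with ⟨t, rfl⟩ | ⟨t, rfl⟩
    · rw [if_pos ⟨t, rfl⟩, if_neg fun ⟨u, hu⟩ => two_mul_ne_odd c.hn t u (hu.trans (add_comm _ _)),
        add_zero]
    · rw [if_neg fun ⟨u, hu⟩ => two_mul_ne_odd c.hn u t hu.symm, if_pos ⟨t, add_comm _ _⟩, zero_add]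

/-- An order formula for groups with dihedral Sylow 2-subgroups and one class of involutions. Let G be a finite group whose Sylow 2-subgroup P = ⟨σ, τ⟩ is dihedral of order 2^n ≥ 8 (σ of order 2^(n−1), τ an involution inverting σ), let J be the central involution σ^(2^(n−2)), and suppose J, τ and στ are conjugate in G. Fix M over 2 and let χ₁ be an irreducible character in the principal 2-block taking one constant value δ₁ = ±1 at every non-identity power of σ, with χ₁ ≠ 1. Then, with x₁ = χ₁(1) and c(·) denoting orders of centralizers, x₁ ≠ δ₁ and #G · (x₁ − δ₁)² = 2·x₁(x₁ + δ₁)·c(J)³·(1/c(J, τ) + 1/c(J, στ))², where c(J, y) is the order of the joint centralizer of J and y. -/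
theorem result {G : Type*} [Group G] [Finite G] (M : Ideal Cfsg.AlgInt) (hM : Cfsg.IsPModular 2 M) (n : ℕ) (hn : 3 ≤ n) (P : Sylow 2 G) (σ τ : G) (hσ : σ ∈ (P : Subgroup G)) (hτ : τ ∈ (P : Subgroup G)) (hσo : orderOf σ = 2 ^ (n - 1)) (hτo : orderOf τ = 2) (hrel : τ * σ * τ⁻¹ = σ⁻¹) (hgen : Subgroup.closure ({σ, τ} : Set G) = (P : Subgroup G)) (hconj : IsConj (σ ^ (2 ^ (n - 2))) τ ∧ IsConj (σ ^ (2 ^ (n - 2))) (σ * τ)) (χ₁ : Cfsg.IrrCharacter G) (hχ₁ : χ₁ ∈ Cfsg.principalBlock M G) (h1 : (χ₁ : G → ℂ) ≠ (fun _ => 1)) (δ₁ : ℤ) (hδ₁ : δ₁ = 1 ∨ δ₁ = -1) (hval : ∀ l : ℕ, 0 < l → l < 2 ^ (n - 1) → (χ₁ : G → ℂ) (σ ^ l) = δ₁) : (Cfsg.charDegree (χ₁ : G → ℂ) : ℤ) ≠ δ₁ ∧ (Nat.card G : ℚ) * ((Cfsg.charDegree (χ₁ : G → ℂ) : ℚ) - δ₁) ^ 2 = 2 * (Cfsg.charDegree (χ₁ : G → ℂ) : ℚ) * ((Cfsg.charDegree (χ₁ : G → ℂ) : ℚ) + δ₁) * (Nat.card (Subgroup.centralizer ({σ ^ (2 ^ (n - 2))} : Set G)) : ℚ) ^ 3 * (1 / (Nat.card (Subgroup.centralizer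 ({σ ^ (2 ^ (n - 2)), τ} : Set G)) : ℚ) + 1 / (Nat.card (Subgroup.centralizer ({σ ^ (2 ^ (n - 2)), σ * τ} : Set G)) : ℚ)) ^ 2 := by
  classical
  have := Fintype.ofFinite G
  obtain ⟨k, rfl⟩ : ∃ k, n = k + 3 := ⟨n - 3, by omega⟩
  obtain ⟨c, rfl, rfl⟩ := exists_coord_of_gens (m := k + 2) (by omega) hσo
    (mul_self_of_orderOf_two hτo) hrel hgen
  have hJ : c.r 1 ^ 2 ^ (k + 1) = c.r (hh (k + 2)) := by rw [c.r_pow, hh]; simp
  have hs1 : c.r 1 * c.s 0 = c.s 1 := by rw [c.r_mul_s, add_zero]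
  rw [show k + 3 - 2 = k + 1 from rfl, hJ, hs1] at hconj ⊢
  have hζ := Complex.isPrimitiveRoot_exp (2 ^ (k + 2)) (by positivity)
  generalize Complex.exp _ = ζ at hζ
  obtain ⟨χ, χ₂, χ₃, ξ, δ, δ₂, δ₃, h1', h2, h3, -, -, -, -, -, -, -, -, h12, h13, h14⟩ :=
    c.principal_block hM (by omega) hζ
  have hp : 0 < 2 ^ k := by positivity
  have hq : 2 ^ (k + 2) = 4 * 2 ^ k := by ring
  have hq' : 2 ^ (k + 1) = 2 * 2 ^ k := by ring
  have hm1 : ζ ^ 2 ^ (k + 1) = -1 := (hζ.pow (by positivity) (show 2 ^ (k + 2) = 2 ^ (k + 1) * 2 by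
    ring)).eq_neg_one_of_two_right
  have hξJ : ∀ j, (ξ j).1 (c.r (hh (k + 2))) = δ * (2 * (-1) ^ ((j : ℕ) + 1)) := fun j => by
    rw [← hJ, (h13 (2 ^ (k + 1)) (by omega) (by omega)).2.2.2 j, mul_comm _ (2 ^ (k + 1)), pow_mul,
      hm1, ← inv_pow, inv_neg_one, two_mul]
  have v1 := hval 1 one_pos (by change 1 < 2 ^ (k + 2); omega)
  have v2 := hval 2 two_pos (by change 2 < 2 ^ (k + 2); omega)
  have vJ := hval (2 ^ (k + 1)) (by omega) (by change _ < 2 ^ (k + 2); omega)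
  have w1 := h13 1 one_pos (by omega)
  have w2 := h13 2 two_pos (by omega)
  have hδ0 : (δ₁ : ℂ) ≠ 0 := by rcases hδ₁ with rfl | rfl <;> simp
  obtain rfl : χ₁ = χ := by
    rcases (h12 χ₁).1 hχ₁ with rfl | h | rfl | rfl | ⟨j, rfl⟩
    · exact absurd rfl h1
    · exact h
    · exact absurd (by linear_combination (w1.2.1 + w2.2.1 - v1 - v2) / 2) hδ0
    · exact absurd (by linear_combination (w1.2.2.1 + w2.2.2.1 - v1 - v2) / 2) hδ0
    · have h := (hξJ j).symm.trans (hJ ▸ vJ)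
      have h' : δ * (2 * (-1) ^ ((j : ℕ) + 1)) = δ₁ := by exact_mod_cast h
      rw [mul_left_comm] at h'
      omega
  obtain rfl : δ₁ = δ := by exact_mod_cast v1.symm.trans w1.1
  have hB := fun χ => (h12 χ).2
  let j₀ : Fin (2 ^ (k + 2 - 1) - 1) := ⟨0, by change 0 < 2 ^ (k + 1) - 1; omega⟩
  let α : G → ℂ := fun g => 1 + δ₁ * χ₁.1 g - δ₁ * (ξ j₀).1 g
  have hone : ∀ x, orderOf x = 2 → IsConj (c.r (hh (k + 2))) x := fun x hx => by
    obtain ⟨a, ha, ho, h⟩ := exists_isConj_mem P (k := 1) hx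
    refine IsConj.trans ?_ h
    rcases (c.mem_iff a).1 ha with ⟨i, rfl⟩ | ⟨i, rfl⟩
    · rw [(c.orderOf_r_eq_two_iff i).1 ho]
    · rcases c.par i with h | h
      · exact hconj.1.trans (c.isConj_s (by rw [h, mul_zero]))
      · exact hconj.2.trans (c.isConj_s (by rw [h, mul_one]))
  have hαc : IsClassFunction G α := fun g u => by simp only [α, χ₁.2.isClassFunction g u,
    (ξ j₀).2.isClassFunction g u]
  have hδδ : (δ₁ : ℂ) * δ₁ = 1 := by rcases hδ₁ with rfl | rfl <;> simp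
  let e := AddChar.zmodChar (2 ^ (k + 2)) hζ.pow_eq_one
  have := Fintype.ofFinite (centralizer ({c.r (hh (k + 2))} : Set G))
  obtain ⟨A, B, hA, hB', hS⟩ := local_sum c (α := α) (by omega) e (fun h => by
      have h5 := AddChar.zmodChar_apply' hζ.pow_eq_one 2
      rw [Nat.cast_ofNat, h] at h5
      have := Nat.le_of_dvd two_pos (hζ.dvd_of_pow_eq_one 2 h5.symm)
      omega) fun g y hy i hi hc => by
    obtain ⟨u, hu⟩ := isConj_iff.1 hc
    have h5 := c.npc_of_mem (c.r_mem_zpowers i) (c.r_eq_one_iff.not.2 hi)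
    have h6 := hy.conj u
    rw [hu] at h6
    have h7 : c.r i = c.r 1 ^ i.val := by rw [c.r_pow]; simp
    have h8 := h13 i.val (Nat.pos_of_ne_zero ((ZMod.val_ne_zero i).2 hi)) i.val_lt
    rw [← hαc g u]
    simp only [α]
    rw [principal_apply_of_isPPart hM h6 h5 hχ₁, principal_apply_of_isPPart hM h6 h5
      (hB _ (by simp)), h7, h8.1, h8.2.2.2, e.map_neg_eq_inv, AddChar.zmodChar_apply]
    simp only [j₀, zero_add, one_mul]
    linear_combination (1 - (ζ ^ i.val + (ζ ^ i.val)⁻¹)) * hδδ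
  have hL := pairSum_local c.orderOf_h hαc fun g hg => by
    obtain ⟨y, hy⟩ := exists_isPPart Nat.prime_two g
    have hy1 : y ≠ 1 := fun h => hg (sub_eq_zero.2 ((h14 g ((hy.eq_one_iff Nat.prime_two).1 h)).2 _))
    obtain ⟨x, hx⟩ := exists_prime_orderOf_dvd_card' (G := zpowers y) 2 (by
      obtain ⟨a, ha⟩ := hy.pElt
      rw [Nat.card_zpowers, ha]
      exact dvd_pow_self 2 fun h => hy1 (by simpa [h] using ha))
    obtain ⟨u, hu⟩ := isConj_iff.1 (hone x (by rw [orderOf_coe, hx]))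
    exact ⟨u, hu ▸ Subgroup.zpowers_le.2 (hy.mem_zpowers Nat.prime_two) x.2⟩
  have hP : pairSum α = pairSum (irrOne G).1 + δ₁ * pairSum χ₁.1 - δ₁ * pairSum (ξ j₀).1 := by
    simp only [pairSum, α, Finset.sum_sub_distrib, Finset.sum_add_distrib, Finset.mul_sum,
      irrOne_apply]
  have p0 := (SI.of_irr (irrOne G).2).one_mul_pairSum hone
  have p1 := (SI.of_irr χ₁.2).one_mul_pairSum hone
  have p2 := (SI.of_irr (ξ j₀).2).one_mul_pairSum hone
  have d2 : (ξ j₀).1 1 = χ₁.1 1 + δ₁ := by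
    linear_combination (-δ₁ : ℂ) * (h14 1 (not_dvd_orderOf_one Nat.prime_two)).2 j₀ +
      (χ₁.1 1 - (ξ j₀).1 1) * hδδ
  have d0 := (ξ j₀).2.one_ne_zero
  have d1 := χ₁.2.one_ne_zero
  have hi := congrArg (Nat.cast : ℕ → ℂ) (card_invs_mul c.orderOf_h hone)
  have hA' := congrArg (Nat.cast : ℕ → ℂ) hA
  have hB'' := congrArg (Nat.cast : ℕ → ℂ) hB'
  rw [hξJ, d2, show (j₀ : ℕ) = 0 from rfl] at p2
  rw [show χ₁.1 (c.r (hh (k + 2))) = δ₁ from hJ ▸ vJ] at p1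
  rw [d2] at d0
  rw [hS, hP] at hL
  simp only [irrOne_apply, one_mul, irr_one_eq, Nat.cast_mul] at p0 p1 p2 d0 d1 hi hA' hB''
  have g0 := CL.Char.card_ne_zero G
  have c0 := CL.Char.card_ne_zero (centralizer ({c.r (hh (k + 2))} : Set G))
  have c1 := CL.Char.card_ne_zero (centralizer ({c.r (hh (k + 2)), c.s 0} : Set G))
  have c2 := CL.Char.card_ne_zero (centralizer ({c.r (hh (k + 2)), c.s 1} : Set G))
  have fin : (Nat.card G : ℂ) * ((charDegree χ₁.1 : ℂ) - δ₁) ^ 2 = 2 * (charDegree χ₁.1 : ℂ) *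
      ((charDegree χ₁.1 : ℂ) + δ₁) * (Nat.card (centralizer ({c.r (hh (k + 2))} : Set G)) : ℂ) ^ 3 *
      (1 / (Nat.card (centralizer ({c.r (hh (k + 2)), c.s 0} : Set G)) : ℂ) +
        1 / (Nat.card (centralizer ({c.r (hh (k + 2)), c.s 1} : Set G)) : ℂ)) ^ 2 := by
    generalize (Nat.card G : ℂ) = g at *
    generalize (Nat.card (centralizer ({c.r (hh (k + 2))} : Set G)) : ℂ) = cJ at *
    generalize (Nat.card (centralizer ({c.r (hh (k + 2)), c.s 0} : Set G)) : ℂ) = a at *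
    generalize (Nat.card (centralizer ({c.r (hh (k + 2)), c.s 1} : Set G)) : ℂ) = b at *
    generalize (charDegree χ₁.1 : ℂ) = x at *
    generalize ((invs G).card : ℂ) = i at *
    have e1 : 1 / a = A / cJ := by field_simp; linear_combination -hA'
    have e2 : 1 / b = B / cJ := by field_simp; linear_combination -hB''
    rw [e1, e2, mul_assoc _ (cJ ^ 3), show cJ ^ 3 * (A / cJ + B / cJ) ^ 2 = cJ * (A + B) ^ 2 by
      field_simp]
    subst hi
    refine mul_left_cancel₀ (left_ne_zero_of_mul g0) ?_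
    linear_combination x * (x + δ₁) * hL - cJ * x * (x + δ₁) * p0 -
      cJ * δ₁ * (x + δ₁) * p1 + cJ * δ₁ * x * p2 + i ^ 2 * cJ * (3 * δ₁ * x - δ₁ ^ 2) * hδδ
  refine ⟨fun h => ?_, Rat.cast_injective (α := ℂ) (by push_cast; exact fin)⟩
  rw [show (charDegree χ₁.1 : ℂ) - δ₁ = 0 by rw [← h]; simp] at fin
  refine absurd fin.symm ?_
  simp only [ne_eq, OfNat.ofNat_ne_zero, not_false_eq_true, zero_pow, mul_zero]
  refine mul_ne_zero (mul_ne_zero (mul_ne_zero (mul_ne_zero two_ne_zero d1) d0) (pow_ne_zero _ c0))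
    (pow_ne_zero _ ?_)
  rw [div_add_div _ _ c1 c2]
  refine div_ne_zero ?_ (mul_ne_zero c1 c2)
  rw [one_mul, mul_one, ← Nat.cast_add, Nat.cast_ne_zero]
  exact (Nat.add_pos_left Nat.card_pos _).ne'

end Cfsg.Agent.S4482
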