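import Cfsg.Statements.S4484
import Cfsg.Agent.BLK.Princ2
import Cfsg.Agent.CHAR.Blichfeldt
import Cfsg.Agent.CHAR.Burnside
-- import your own Cfsg.Agent.* helpers here

set_option autoImplicit false
open Cfsg

namespace Cfsg.Agent.S4484

open CL.Char CL.Blk

theorem re_div_gt {u v : ℂ} (hu : ‖u‖ = 1) (hv : ‖v‖ = 1)
    (h : ⌈3 * u.arg / Real.pi⌉ = ⌈3 * v.arg / Real.pi⌉) : 1 / 2 < (u / v).re := by
  have h1 : |3 * u.arg / Real.pi - 3 * v.arg / Real.pi| < 1 := by
    have a1 := Int.le_ceil (3 * u.arg / Real.pi)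
    have a2 := Int.ceil_lt_add_one (3 * u.arg / Real.pi)
    have a3 := Int.le_ceil (3 * v.arg / Real.pi)
    have a4 := Int.ceil_lt_add_one (3 * v.arg / Real.pi)
    rw [h] at a1 a2
    rw [abs_lt]; constructor <;> linarith
  have hpi := Real.pi_pos
  have h2 : |u.arg - v.arg| < Real.pi / 3 := by
    rw [← sub_div, ← mul_sub, abs_div, abs_mul, abs_of_pos hpi, div_lt_one hpi] at h1
    norm_num at h1
    linarith
  have e : u / v = Complex.exp ((u.arg - v.arg : ℝ) * Complex.I) := by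
    conv_lhs => rw [← Complex.norm_mul_exp_arg_mul_I u, ← Complex.norm_mul_exp_arg_mul_I v, hu, hv]
    push_cast
    rw [one_mul, one_mul, ← Complex.exp_sub, sub_mul]
  rw [e, Complex.exp_ofReal_mul_I_re, ← Real.cos_abs, ← Real.cos_pi_div_three]
  exact Real.cos_lt_cos_of_nonneg_of_le_pi (abs_nonneg _) (by linarith) h2

theorem ceil_mem (u : ℂ) : ⌈3 * u.arg / Real.pi⌉ ∈ Finset.Icc (-2 : ℤ) 3 := by
  have hpi := Real.pi_pos
  have h1 := Complex.neg_pi_lt_arg u
  have h2 := Complex.arg_le_pi u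
  rw [Finset.mem_Icc]
  constructor
  · have : ((-3 : ℤ) : ℝ) < 3 * u.arg / Real.pi := by
      rw [lt_div_iff₀ hpi]; push_cast; linarith
    have := Int.lt_ceil.2 this
    omega
  · rw [Int.ceil_le, div_le_iff₀ hpi]; push_cast; linarith

theorem exists_pow_close {p : ℕ} (hp : p ≠ 0) (S : Finset ℂ) (hS : ∀ z ∈ S, z ^ p = 1)
    (h : 6 ^ S.card < p) : ∃ r, ¬ p ∣ r ∧ ∀ z ∈ S, 1 / 2 < (z ^ r).re := by
  obtain ⟨r, s, hrs, he⟩ := Fintype.exists_ne_map_eq_of_card_lt
    (fun (r : Fin p) (z : S) => (⟨_, ceil_mem (z.1 ^ r.1)⟩ : Finset.Icc (-2 : ℤ) 3))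
    (by simpa using h)
  refine ⟨r + (p - s), fun hd => hrs (Fin.ext ?_), fun z hz => ?_⟩
  · have h1 := r.2
    have h2 := s.2
    obtain ⟨c, hc⟩ := hd
    have h3 : c < 2 := by by_contra h3; nlinarith [Nat.sub_le p s]
    interval_cases c <;> omega
  · have hz1 : ‖z‖ = 1 := Complex.norm_eq_one_of_pow_eq_one (hS z hz) hp
    have hz0 : z ≠ 0 := by rintro rfl; simp at hz1
    have := re_div_gt (u := z ^ r.1) (v := z ^ s.1) (by simp [hz1]) (by simp [hz1])
      (congrArg Subtype.val (congrFun he ⟨z, hz⟩))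
    rwa [pow_add, pow_sub₀ _ hz0 s.2.le, hS z hz, one_mul, ← div_eq_mul_inv]

theorem sum_pow_eq {p : ℕ} {z : ℂ} (hz : z ^ p = 1) :
    ∑ k ∈ Finset.range p, z ^ k = if z = 1 then (p : ℂ) else 0 := by
  split_ifs with h
  · simp [h]
  · rw [geom_sum_eq h, hz, sub_self, zero_div]

/-- A refinement of Burnside's result on simple groups of order divisible by only two primes. Let G be a finite simple group of order p^a · q^b · g₀ with p, q distinct primes, a > 0, g₀ coprime to p and q, and the order of G different from p. Then g₀ − 1 > log p / log 6, that is 6^(g₀ − 1) > p. -/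
theorem result {G : Type*} [Group G] [Finite G] [IsSimpleGroup G] (p q a b g₀ : ℕ) (hp : p.Prime) (hq : q.Prime) (hpq : p ≠ q) (ha : 0 < a) (hg : Nat.card G = p ^ a * q ^ b * g₀) (hcop : ¬ p ∣ g₀) (hcoq : ¬ q ∣ g₀) (hne : Nat.card G ≠ p) : p < 6 ^ (g₀ - 1) := by
  classical
  have := Fact.mk hp
  by_contra hlt
  have hlt' : 6 ^ (g₀ - 1) < p := by
    refine lt_of_le_of_ne (not_lt.1 hlt) fun e => ?_
    rcases Nat.eq_zero_or_pos (g₀ - 1) with h0 | h0
    · rw [h0] at e; exact hp.one_lt.ne e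
    · have h6 : 6 ∣ p := e ▸ dvd_pow_self 6 h0.ne'
      have h2 := (Nat.prime_dvd_prime_iff_eq Nat.prime_two hp).1 (dvd_trans (by norm_num) h6)
      have h3 := (Nat.prime_dvd_prime_iff_eq Nat.prime_three hp).1 (dvd_trans (by norm_num) h6)
      omega
  have hpG : p ∣ Nat.card G := hg ▸ ((dvd_pow_self p ha.ne').mul_right _).mul_right _
  obtain ⟨P⟩ : Nonempty (Sylow p G) := inferInstance
  have : Nontrivial (P : Subgroup G) := (Subgroup.nontrivial_iff_ne_bot _).2 (P.ne_bot_of_dvd_card hpG)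
  have := P.isPGroup'.center_nontrivial
  obtain ⟨k, hk, hc⟩ := (P.isPGroup'.to_subgroup (Subgroup.center P)).nontrivial_iff_card.1 this
  obtain ⟨x₀, hx₀⟩ := exists_prime_orderOf_dvd_card' (G := Subgroup.center (P : Subgroup G)) p
    (hc ▸ dvd_pow_self p hk.ne')
  set x : G := x₀.1.1
  have hx : orderOf x = p := by rw [← hx₀, Subgroup.orderOf_coe, Subgroup.orderOf_coe]
  have hxc : ∀ k, ¬ p ∣ (Subgroup.centralizer ({x ^ k} : Set G)).index := fun k =>
    not_dvd_index_centralizer_of_sylow P fun u hu => (Commute.pow_right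
      (congrArg Subtype.val (Subgroup.mem_center_iff.1 x₀.2 ⟨u, hu⟩)) k).eq
  obtain ⟨M, hM⟩ := CL.Glb.exists_isPModular hp
  obtain ⟨χ, hχ, h1, hqn, -⟩ := exists_principal_not_dvd hM hq (y := x) (hx ▸ dvd_rfl)
  have hn1 := χ.2.apply_one_eq_charDegree
  set n := charDegree χ.1
  have hn0 : (n : ℂ) ≠ 0 := hn1 ▸ χ.2.one_ne_zero
  have hint : ∀ k, IsIntegral ℤ ((g₀ : ℂ) * (χ.1 (x ^ k) / n)) := fun k => by
    set h := (Subgroup.centralizer ({x ^ k} : Set G)).index with hh
    have h2 : h ∣ q ^ b * g₀ := Nat.Coprime.dvd_of_dvd_mul_left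
      (Nat.Coprime.pow_right a ((Nat.Prime.coprime_iff_not_dvd hp).2 (hxc k)).symm)
      (by rw [← mul_assoc, ← hg]; exact Subgroup.index_dvd_card _)
    obtain ⟨e, he⟩ : Nat.gcd n h ∣ g₀ := Nat.Coprime.dvd_of_dvd_mul_left
      (Nat.Coprime.pow_right b ((Nat.Prime.coprime_iff_not_dvd hq).2
        fun h3 => hqn (h3.trans (Nat.gcd_dvd_left _ _))).symm) ((Nat.gcd_dvd_right _ _).trans h2)
    have h3 := congrArg (Int.cast : ℤ → ℂ) (Nat.gcd_eq_gcd_ab n h)
    push_cast at h3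
    have h4 := centralChar_isIntegral χ (x ^ k)
    rw [centralChar, hn1, ← hh] at h4
    have : (g₀ : ℂ) * (χ.1 (x ^ k) / n) = e * (Nat.gcdA n h * χ.1 (x ^ k) +
        Nat.gcdB n h * (h * χ.1 (x ^ k) / n)) := by
      rw [he]; push_cast; rw [h3]; field_simp
    rw [this]
    exact (isIntegral_natCast' e).mul (((isIntegral_intCast _).mul (χ.2.isIntegral _)).add
      ((isIntegral_intCast _).mul h4))
  have hcong : ∀ k, χ.1 (x ^ k) / n - 1 ∈ (V M).nonunits := fun k =>
    hn1 ▸ principal_apply_div_sub_one hM hχ (hxc k)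
  have hker := χ.2.charCenter_eq_center (χ.2.charKer_eq_bot_of_simple h1)
  obtain ⟨χ, m, ρ, hρ, rfl⟩ := χ
  obtain ⟨B, ε, hε, hB⟩ := exists_eigenbasis ρ x
  rw [hx] at hε
  have hBk : ∀ k i, ρ (x ^ k) (B i) = ε i ^ k • B i := fun k i => by
    rw [map_pow]; exact pow_apply_of_eigen _ (hB i) k
  have htr : ∀ k, ρ.character (x ^ k) = ∑ i, ε i ^ k := fun k =>
    trace_of_eigenbasis _ B _ (hBk k)
  have hnm : n = Module.finrank ℂ (Fin m → ℂ) := by
    have := hn1.symm.trans ρ.char_one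
    exact_mod_cast this
  have hε0 : ∀ i, ε i ≠ 0 := fun i => ne_zero_pow hp.ne_zero (by rw [hε]; exact one_ne_zero)
  have hdiv : ∀ i j, (ε i / ε j) ^ p = 1 := fun i j => by rw [div_pow, hε, hε, div_one]
  have hmult : ∀ j, n ∣ g₀ * (Finset.univ.filter fun i => ε i = ε j).card := fun j => by
    set c := (Finset.univ.filter fun i => ε i = ε j).card with hc
    have hz : (ε j)⁻¹ ^ p = 1 := by rw [inv_pow, hε, inv_one]
    have hzi : IsIntegral ℤ (ε j)⁻¹ := IsIntegral.of_pow hp.pos (hz ▸ isIntegral_one)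
    have e1 : ∑ k ∈ Finset.range p, (ε j)⁻¹ ^ k * ((g₀ : ℂ) * (ρ.character (x ^ k) / n)) =
        ((p * (g₀ * c) : ℕ) : ℤ) / ((n : ℤ) : ℂ) := by
      have : ∑ k ∈ Finset.range p, (ε j)⁻¹ ^ k * ρ.character (x ^ k) = p * c := by
        simp only [htr, Finset.mul_sum, ← mul_pow, ← div_eq_inv_mul]
        rw [Finset.sum_comm]
        simp only [sum_pow_eq (hdiv _ j), div_eq_one_iff_eq (hε0 j)]
        rw [← Finset.sum_filter, Finset.sum_const, nsmul_eq_mul, mul_comm]
      push_cast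
      rw [mul_left_comm, ← this, Finset.mul_sum, Finset.sum_div]
      exact Finset.sum_congr rfl fun k _ => by ring
    have hI : IsIntegral ℤ (∑ k ∈ Finset.range p,
        (ε j)⁻¹ ^ k * ((g₀ : ℂ) * (ρ.character (x ^ k) / n))) :=
      IsIntegral.sum _ fun k _ => (hzi.pow k).mul (hint k)
    have hN : ∑ k ∈ Finset.range p, (ε j)⁻¹ ^ k * ((g₀ : ℂ) * (ρ.character (x ^ k) / n)) ∈
        (V M).nonunits := by
      have : ∑ k ∈ Finset.range p, (ε j)⁻¹ ^ k * ((g₀ : ℂ) * (ρ.character (x ^ k) / n)) =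
          ∑ k ∈ Finset.range p, ((ε j)⁻¹ ^ k * g₀) * (ρ.character (x ^ k) / n - 1) +
            g₀ * ∑ k ∈ Finset.range p, (ε j)⁻¹ ^ k := by
        rw [Finset.mul_sum, ← Finset.sum_add_distrib]
        exact Finset.sum_congr rfl fun k _ => by ring
      rw [this]
      refine add_mem (sum_mem fun k _ => mul_mem_nonunits_left
        (mul_mem (pow_mem (mem_V_of_isIntegral hzi) k) (natCast_mem _ _)) (hcong k))
        (mul_mem_nonunits_left (natCast_mem _ _) ?_)
      rw [sum_pow_eq hz]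
      split_ifs
      · exact p_mem_nonunits hM
      · exact zero_mem _
    rw [e1] at hI hN
    obtain ⟨t, ht⟩ := int_dvd_of_isIntegral_div (by exact_mod_cast hn0) hI
    rw [ht, Int.cast_mul, mul_div_cancel_left₀ _ (by exact_mod_cast hn0),
      intCast_mem_nonunits_iff hM] at hN
    obtain ⟨s, rfl⟩ := hN
    rw [mul_left_comm (n : ℤ), Nat.cast_mul, mul_right_inj' (by exact_mod_cast hp.ne_zero)] at ht
    exact Int.natCast_dvd_natCast.1 ⟨s, ht⟩
  have hg0 : g₀ ≠ 0 := by rintro rfl; exact hcop (dvd_zero p)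
  have hnpos : 0 < n := Nat.pos_of_ne_zero (by exact_mod_cast hn0)
  have hcard : (Finset.univ.image ε).card ≤ g₀ := by
    have h2 := Finset.card_eq_sum_card_image ε Finset.univ
    rw [Finset.card_univ, Fintype.card_fin] at h2
    replace h2 := hnm.trans h2
    have h3 : (Finset.univ.image ε).card * n ≤ g₀ * n := by
      conv_rhs => rw [h2, Finset.mul_sum]
      rw [← smul_eq_mul]
      refine Finset.card_nsmul_le_sum _ _ _ fun z hz => ?_
      obtain ⟨j, -, rfl⟩ := Finset.mem_image.1 hz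
      exact Nat.le_of_dvd (Nat.mul_pos (Nat.pos_of_ne_zero hg0)
        (Finset.card_pos.2 ⟨j, by simp⟩)) (hmult j)
    exact Nat.le_of_mul_le_mul_right h3 hnpos
  have i₀ : Fin (Module.finrank ℂ (Fin m → ℂ)) := ⟨0, hnm ▸ hnpos⟩
  obtain ⟨r, hr, hre⟩ := exists_pow_close hp.ne_zero
    (((Finset.univ.image ε).erase (ε i₀)).image (· / ε i₀)) (fun z hz => by
      obtain ⟨w, hw, rfl⟩ := Finset.mem_image.1 hz
      obtain ⟨j, -, rfl⟩ := Finset.mem_image.1 (Finset.mem_of_mem_erase hw)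
      exact hdiv _ _) (lt_of_le_of_lt (Nat.pow_le_pow_right (by norm_num)
      (Finset.card_image_le.trans (by
        rw [Finset.card_erase_of_mem (Finset.mem_image_of_mem _ (Finset.mem_univ _))]
        omega))) hlt')
  have hxr : x ^ r ≠ 1 := fun e => hr (hx ▸ orderOf_dvd_of_pow_eq_one e)
  have hnc : Subgroup.normalClosure {x ^ r} = ⊤ :=
    (Subgroup.normalClosure_normal.eq_bot_or_eq_top).resolve_left fun e =>
      hxr (Subgroup.mem_bot.1 (e ▸ Subgroup.subset_normalClosure (Set.mem_singleton _)))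
  have hsc := blichfeldt_sixty ρ hnc B (fun i => ε i ^ r) (hBk r) i₀ fun i => by
    rw [← div_pow]
    by_cases hi : ε i = ε i₀
    · rw [hi, div_self (hε0 _), one_pow]; norm_num
    · exact hre _ (Finset.mem_image_of_mem _ (Finset.mem_erase.2
        ⟨hi, Finset.mem_image_of_mem _ (Finset.mem_univ _)⟩))
  have hz : x ^ r ∈ Subgroup.center G := by
    rw [← hker]
    exact (mem_charCenter_character ρ).2 ⟨ε i₀ ^ r, B.ext fun i => by
      rw [hBk, LinearMap.smul_apply, Module.End.one_apply, ← hsc i]⟩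
  have : IsMulCommutative G := ⟨⟨mul_comm_of_simple_of_mem_center hxr hz⟩⟩
  exact hne ((Nat.prime_dvd_prime_iff_eq hp
    (Group.is_simple_iff_prime_card.mp inferInstance)).1 hpG).symm

end Cfsg.Agent.S4484
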