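import Cfsg.Statements.S4497
import Mathlib
import Cfsg.Agent.BLK.SelfCent

set_option autoImplicit false
open Cfsg

namespace Cfsg.Agent.S4497

open CL CL.Blk CL.Char MonoidAlgebra
open scoped CL.MSS
open scoped ComplexConjugate commutatorElement

/-- Let the finite group G contain an element x of prime order p with C_G(x) = ⟨x⟩, let t be the number of conjugacy classes of elements of order p, and let S* = O_{p′}(G) be the largest normal subgroup of order prime to p. Then S* ≤ G′; if t ≠ p − 1 the quotient G′/S* is simple (in particular non-trivial); if t = p − 1 then G′ = S*. -/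
theorem result {G : Type*} [Group G] [Finite G] (p : ℕ) (hp : p.Prime) (x : G) (hx : orderOf x = p) (hC : Subgroup.centralizer ({x} : Set G) = Subgroup.zpowers x) (t : ℕ) (ht : Nat.card {C : ConjClasses G // ∃ g ∈ C.carrier, orderOf g = p} = t) : Cfsg.pPrimeCore p G ≤ commutator G ∧ (t ≠ p - 1 → ∀ h : ((Cfsg.pPrimeCore p G).subgroupOf (commutator G)).Normal, IsSimpleGroup (↥(commutator G) ⧸ (Cfsg.pPrimeCore p G).subgroupOf (commutator G))) ∧ (t = p - 1 → commutator G = Cfsg.pPrimeCore p G) := by
  have := Fact.mk hp
  have h : SelfCent p x := ⟨hx, hC⟩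
  subst ht
  refine ⟨h.le_commutator _ (not_dvd_card_pPrimeCore p G), fun h1 hn => ?_,
    fun h1 => h.commutator_eq (h.autIdx_eq_one_iff.2 h1)⟩
  have he : autIdx x ≠ 1 := fun e => h1 (h.autIdx_eq_one_iff.1 e)
  have hx' := h.mem_commutator he
  have : Nontrivial (↥(commutator G) ⧸ (pPrimeCore p G).subgroupOf (commutator G)) := by
    refine QuotientGroup.nontrivial_iff.2 fun e => not_dvd_card_pPrimeCore p G ?_
    exact hx.symm.dvd.trans (Subgroup.orderOf_dvd_natCard _ (Subgroup.subgroupOf_eq_top.1 e hx'))
  refine ⟨fun S hS => ?_⟩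
  have hs := QuotientGroup.mk'_surjective ((pPrimeCore p G).subgroupOf (commutator G))
  by_cases hd : p ∣ Nat.card (S.comap (QuotientGroup.mk' ((pPrimeCore p G).subgroupOf (commutator G))))
  · right
    have := h.eq_top_of_normal he _ hd
    rw [← Subgroup.map_comap_eq_self_of_surjective hs S, this, Subgroup.map_top_of_surjective _ hs]
  · left
    have h2 := le_pPrimeCore ((Nat.Prime.coprime_iff_not_dvd hp).2 hd).symm
    rw [← Subgroup.map_comap_eq_self_of_surjective hs S, Subgroup.map_eq_bot_iff, QuotientGroup.ker_mk']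
    refine h2.trans fun g hg => ?_
    have h3 : ((pPrimeCore p (commutator G)).map (commutator G).subtype) ≤ pPrimeCore p G :=
      le_pPrimeCore (coprime_card_map_pPrimeCore _)
    exact h3 ⟨g, hg, rfl⟩

end Cfsg.Agent.S4497
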