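import Cfsg.Statements.S4498
import Cfsg.Agent.BLK.Princ2
-- import your own Cfsg.Agent.* helpers here

set_option autoImplicit false
open Cfsg

namespace Cfsg.Agent.S4498

/-- Let p and q be distinct primes dividing the order of the finite group G, and suppose G has no element of order p·q. Fix maximal ideals M_p over p and M_q over q of the algebraic integers. Then the principal p-block and the principal q-block of G have a non-principal irreducible character in common. -/
theorem result {G : Type*} [Group G] [Finite G] (p q : ℕ) [Fact p.Prime] [Fact q.Prime] (hpq : p ≠ q) (hp : p ∣ Nat.card G) (hq : q ∣ Nat.card G) (hno : ∀ g : G, orderOf g ≠ p * q) (Mp Mq : Ideal Cfsg.AlgInt) (hMp : Cfsg.IsPModular p Mp) (hMq : Cfsg.IsPModular q Mq) : ∃ χ : Cfsg.IrrCharacter G, (χ : G → ℂ) ≠ (fun _ => 1) ∧ χ ∈ Cfsg.principalBlock Mp G ∧ χ ∈ Cfsg.principalBlock Mq G := by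
  classical
  have := Fintype.ofFinite G
  have hp' : p.Prime := Fact.out
  have hq' : q.Prime := Fact.out
  by_contra hne
  push Not at hne
  set A : G → ℂ := Cfsg.pRegularPart p (fun _ => 1) with hA
  set B : G → ℂ := Cfsg.pRegularPart q (fun _ => 1) with hB
  have hAc : IsClassFunction G A := CL.Blk.isClassFunction_pRegularPart (CL.Char.isClassFunction_const 1)
  have hBc : IsClassFunction G B := CL.Blk.isClassFunction_pRegularPart (CL.Char.isClassFunction_const 1)
  have hnot : ∀ g : G, p ∣ orderOf g → ¬ q ∣ orderOf g := fun g h1 h2 => by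
    have h3 : p * q ∣ orderOf g := Nat.Coprime.mul_dvd_of_dvd_of_dvd ((Nat.coprime_primes hp' hq').2 hpq) h1 h2
    exact hno (g ^ (orderOf g / (p * q))) (orderOf_pow_orderOf_div (orderOf_pos g).ne' h3)
  -- the complements have inner product zero
  have h0 : classInner (1 - A) (1 - B) = 0 := by
    rw [CL.Char.classInner_def, Finset.sum_eq_zero, mul_zero]
    intro g _
    by_cases h1 : p ∣ orderOf g
    · simp [hB, CL.Blk.pRegularPart_apply, hnot g h1]
    · simp [hA, CL.Blk.pRegularPart_apply, h1]
  have hz : ∀ (r : ℕ) (N : Ideal Cfsg.AlgInt), Cfsg.IsPModular r N → ∀ χ : IrrCharacter G,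
      (χ : G → ℂ) ≠ (fun _ => 1) → χ ∉ principalBlock N G →
      classInner (1 - Cfsg.pRegularPart r (fun _ => 1)) χ.1 = 0 := fun r N hN χ h1 h2 => by
    rw [CL.Char.classInner_sub_left, CL.Char.isIrrCharacter_one'.inner_of_ne χ.2 (Ne.symm h1), zero_sub,
      neg_eq_zero]
    exact CL.Blk.contr_eq_zero_of_notMem hN CL.Blk.isPBlock_principalBlock
      (CL.Blk.irrOne_mem_principalBlock hN) h2
  have hone : ∀ (r : ℕ), r.Prime → r ∣ Nat.card G →
      classInner (1 - Cfsg.pRegularPart r (fun _ : G => 1)) (CL.Blk.irrOne G).1 ≠ 0 := fun r hr hd h => by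
    have : Fact r.Prime := ⟨hr⟩
    obtain ⟨y, hy⟩ := exists_prime_orderOf_dvd_card' r hd
    have e : classInner (1 - Cfsg.pRegularPart r (fun _ : G => 1)) (1 - Cfsg.pRegularPart r (fun _ : G => 1)) = 0 := by
      rw [← h, CL.Char.classInner_def, CL.Char.classInner_def]
      congr 1
      refine Finset.sum_congr rfl fun g _ => ?_
      by_cases h1 : r ∣ orderOf g <;> simp [CL.Blk.pRegularPart_apply, h1, CL.Blk.irrOne]
    have := congrFun (CL.Char.classInner_self_eq_zero.1 e) y
    simp [CL.Blk.pRegularPart_apply, hy] at this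
  rw [CL.Char.inner_eq_sum_of_right _ (CL.Char.isClassFunction_one.sub hBc),
    Finset.sum_eq_single (CL.Blk.irrOne G)] at h0
  · rcases mul_eq_zero.1 h0 with h | h
    · exact hone p hp' hp h
    · exact hone q hq' hq ((map_eq_zero _).1 h)
  · intro χ _ hχ
    have h1 : (χ : G → ℂ) ≠ (fun _ => 1) := fun e => hχ (Subtype.ext e)
    by_cases h2 : χ ∈ principalBlock Mp G
    · rw [hz q Mq hMq χ h1 (hne χ h1 h2), map_zero, mul_zero]
    · rw [hz p Mp hMp χ h1 h2, zero_mul]
  · simp

end Cfsg.Agent.S4498
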