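import Cfsg.Statements.S4500
import Cfsg.Agent.BLK.Princ2
import Cfsg.Agent.BLK.BrauerFeit
import Cfsg.Agent.CHAR.Burnside
-- import your own Cfsg.Agent.* helpers here

set_option autoImplicit false
open Cfsg

namespace Cfsg.Agent.S4500

theorem lin {G : Type*} [Group G] [Finite G] [Nontrivial G] (h : Group.IsSolvable G) :
    ∃ χ : Cfsg.IrrCharacter G, (χ : G → ℂ) ≠ (fun _ => 1) ∧ Cfsg.charDegree (χ : G → ℂ) = 1 := by
  have h1 : commutator G ≠ ⊤ := (IsSolvable.commutator_lt_top_of_nontrivial G).ne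
  rw [Ne, CL.Char.commutator_eq_top_iff_hom] at h1
  push Not at h1
  obtain ⟨l, hl⟩ := h1
  refine ⟨⟨_, CL.Char.isIrrCharacter_hom l⟩, fun e => hl ?_, CL.Blk.charDegree_of_eq (by simp)⟩
  ext g
  simpa using congrFun e g

theorem aux {G : Type*} [Group G] [Finite G] [Nontrivial G] (p q r a b c : ℕ) (hp : p.Prime)
    (hq : q.Prime) (hr : r.Prime) (hpq : p ≠ q) (hpr : p ≠ r) (ha : a ≤ 2)
    (hG : Nat.card G = p ^ a * q ^ b * r ^ c) :
    ∃ χ : Cfsg.IrrCharacter G, (χ : G → ℂ) ≠ (fun _ => 1) ∧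
      ∃ k : ℕ, Cfsg.charDegree (χ : G → ℂ) = q ^ k := by
  rcases Nat.eq_zero_or_pos a with rfl | ha0
  · obtain ⟨χ, h1, h2⟩ := lin (G := G) (CL.Char.isSolvable_of_card_dvd_pow_mul_pow hq hr
      (a := b) (b := c) (by rw [hG, pow_zero, one_mul]))
    exact ⟨χ, h1, 0, by rw [h2, pow_zero]⟩
  have : Fact p.Prime := ⟨hp⟩
  obtain ⟨M, hM⟩ := CL.Glb.exists_isPModular hp
  have hd : p ∣ Nat.card G := by
    rw [hG]; exact ((dvd_pow_self p ha0.ne').mul_right _).mul_right _
  obtain ⟨y, hy⟩ := exists_prime_orderOf_dvd_card' p hd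
  obtain ⟨χ, hχ, hne, hrd, -⟩ := CL.Blk.exists_principal_not_dvd hM hr (y := y) (by rw [hy])
  have hfac : (Nat.card G).factorization p = a := by
    rw [hG, Nat.factorization_mul (mul_ne_zero (pow_ne_zero _ hp.ne_zero) (pow_ne_zero _ hq.ne_zero))
      (pow_ne_zero _ hr.ne_zero), Nat.factorization_mul (pow_ne_zero _ hp.ne_zero)
      (pow_ne_zero _ hq.ne_zero)]
    simp [hp.factorization_pow, hq.factorization_pow, hr.factorization_pow, hpq.symm, hpr.symm,
      Finsupp.single_apply]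
  have hpd : ¬ p ∣ charDegree (χ : G → ℂ) := fun h => by
    have h1 : 0 < (charDegree (χ : G → ℂ)).factorization p :=
      hp.factorization_pos_of_dvd (CL.Blk.charDegree_ne_zero χ) h
    have h2 := CL.Blk.height_add_two_le hM CL.Blk.isPBlock_principalBlock hχ
      (by rw [CL.Blk.blockHeight_principal hM]; omega)
    rw [CL.Blk.blockHeight_principal hM, CL.Blk.blockDefect_principal hM, hfac] at h2
    omega
  have hdvd := CL.Blk.charDegree_dvd_card χ
  rw [hG] at hdvd
  have h3 := Nat.Coprime.dvd_of_dvd_mul_right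
    (Nat.Coprime.pow_right c ((Nat.Prime.coprime_iff_not_dvd hr).2 hrd).symm) hdvd
  have h4 := Nat.Coprime.dvd_of_dvd_mul_left
    (Nat.Coprime.pow_right a ((Nat.Prime.coprime_iff_not_dvd hp).2 hpd).symm) h3
  obtain ⟨k, -, hk⟩ := (Nat.dvd_prime_pow hq).1 h4
  exact ⟨χ, hne, k, hk⟩

/-- Let G be a non-trivial finite group of order p^a · q^b · r^c with p, q, r distinct primes and a ≤ 2. Then G has a non-principal irreducible character whose degree is a power of q, and a non-principal irreducible character whose degree is a power of r; the power may be the zeroth, so a non-principal linear character serves for both. -/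
theorem result {G : Type*} [Group G] [Finite G] [Nontrivial G] (p q r a b c : ℕ) (hp : p.Prime) (hq : q.Prime) (hr : r.Prime) (hpq : p ≠ q) (hpr : p ≠ r) (hqr : q ≠ r) (ha : a ≤ 2) (hG : Nat.card G = p ^ a * q ^ b * r ^ c) : (∃ χ : Cfsg.IrrCharacter G, (χ : G → ℂ) ≠ (fun _ => 1) ∧ ∃ k : ℕ, Cfsg.charDegree (χ : G → ℂ) = q ^ k) ∧ ∃ χ : Cfsg.IrrCharacter G, (χ : G → ℂ) ≠ (fun _ => 1) ∧ ∃ k : ℕ, Cfsg.charDegree (χ : G → ℂ) = r ^ k := by
  exact ⟨aux p q r a b c hp hq hr hpq hpr ha hG,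
    aux p r q a c b hp hr hq hpr hpq ha (by rw [hG, mul_right_comm])⟩

end Cfsg.Agent.S4500
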