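import Cfsg.Statements.S4635
import Cfsg.Agent.BLK.CycSub

set_option autoImplicit false
open Cfsg

namespace Cfsg.Agent.S4635

/-- Let B be a block of the finite group G relative to a maximal ideal M of the algebraic integers containing the prime p, with a nontrivial cyclic defect group P; let Z be the subgroup of order p of P and H = N_G(Z), which contains N_G(P). Let c be the block of H with defect group P that induces B. Then B and c contain the same number of irreducible characters, have the same p-regular rank, and there is a perfect isometry from c onto B. -/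
theorem result {G : Type*} [Group G] [Finite G] (p : ℕ) [Fact p.Prime] (M : Ideal Cfsg.AlgInt) (hM : Cfsg.IsPModular p M) (B : Set (Cfsg.IrrCharacter G)) (hB : Cfsg.IsPBlock M B) (P : Subgroup G) (hPD : Cfsg.IsDefectGroup p M B P) (hP1 : P ≠ ⊥) (hcyc : IsCyclic P) (Z : Subgroup G) (hZ : Z ≤ P) (hZcard : Nat.card Z = p) (H : Subgroup G) (hH : H = Subgroup.normalizer (Z : Set G)) (c : Set (Cfsg.IrrCharacter H)) (hcD : Cfsg.IsDefectGroup p M c (P.subgroupOf H)) (hc : Cfsg.IsInducedBlock M H c B) : Nat.card c = Nat.card B ∧ Cfsg.blockRank p c = Cfsg.blockRank p B ∧ ∃ (I : Cfsg.IrrCharacter H → Cfsg.IrrCharacter G) (ε : Cfsg.IrrCharacter H → ℤ), Cfsg.IsPerfectIsometry p M c B I ε := by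
  classical
  have := Fintype.ofFinite G
  have hP := ((CL.Blk.isDefectGroup_iff_sDef_top hM hB).1 hPD).pgroup
  have hPH : P ≤ H := hH ▸ (CL.Cyc.le_centralizer_of_isCyclic hcyc).trans
    ((CL.Blk.centralizer_anti hZ).trans (Subgroup.centralizer_le_normalizer _))
  have hc' := ((CL.Blk.isInducedBlock_iff hM).1 hc).1
  obtain ⟨b, hb⟩ := CL.Cyc.exists_relPair_of_def hM hc' hcD
  have hZ' := Subgroup.map_subgroupOf_eq_of_le (hZ.trans hPH)
  obtain ⟨c', h⟩ := CL.Cyc.exists_setup_of_le hM hc' hb hcD
    (isCyclic_of_surjective _ (Subgroup.subgroupOfEquivOfLe hPH).symm.surjective)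
    (Subgroup.subgroupOf_mono H hZ)
    ((Nat.card_congr (Subgroup.subgroupOfEquivOfLe (hZ.trans hPH)).toEquiv).trans hZcard)
  obtain ⟨h1, I, η, h2⟩ := h.exists_match (by rw [hZ']; exact hH.ge) hc
    (by rwa [Subgroup.map_subgroupOf_eq_of_le hPH])
  exact ⟨Nat.card_congr h2.1.equiv, h1, I, η, h2⟩

end Cfsg.Agent.S4635
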