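import Cfsg.Statements.S4502
import Cfsg.Agent.S4635
import Cfsg.Agent.BLK.GRoots

set_option autoImplicit false
open Cfsg

namespace Cfsg.Agent.S4502

/-- Let G be a finite group whose order is divisible by the prime p exactly once, and let P be a Sylow p-subgroup. Then the number of irreducible characters of G of degree not divisible by p equals the number of conjugacy classes of the normalizer of P. -/
theorem result {G : Type*} [Group G] [Finite G] (p : ℕ) [Fact p.Prime] (hdiv : p ∣ Nat.card G) (hsq : ¬ p ^ 2 ∣ Nat.card G) (P : Sylow p G) : Nat.card {χ : Cfsg.IrrCharacter G // ¬ p ∣ Cfsg.charDegree (χ : G → ℂ)} = Nat.card (ConjClasses (Subgroup.normalizer ((P : Subgroup G) : Set G))) := by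
  classical
  have := Fintype.ofFinite G
  have hp : p.Prime := Fact.out
  obtain ⟨M, hM⟩ := CL.Glb.exists_isPModular hp
  have hP : Nat.card P = p := by
    rw [P.card_eq_multiplicity, le_antisymm (Nat.lt_succ_iff.1 (lt_of_not_ge fun a =>
      hsq ((pow_dvd_pow p a).trans (Nat.ordProj_dvd _ p))))
      (hp.factorization_pos_of_dvd Nat.card_pos.ne' hdiv), pow_one]
  have hcyc : IsCyclic P := isCyclic_of_prime_card hP
  have hinj := (Subgroup.normalizer ((P : Subgroup G) : Set G)).subtype_injective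
  have hN := (Subgroup.normalizer ((P : Subgroup G) : Set G)).range_subtype.ge
  have hd : ∀ b, IsPBlock M b → IsDefectGroup p M b ((P : Subgroup G).subgroupOf
      (Subgroup.normalizer ((P : Subgroup G) : Set G))) := fun b hb => by
    obtain ⟨D, hD⟩ := CL.Blk.exists_isDefectGroup hM hb
    rwa [(P.subtype Subgroup.le_normalizer).is_maximal' (hD.isDef hM hb).pgroup
      (hD.normal_le hM hb (P := (P : Subgroup G).subgroupOf _)
        (P.subtype Subgroup.le_normalizer).isPGroup')] at hD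
  have ex : ∀ b, ∃ (B : Set (IrrCharacter G)) (I : _ → IrrCharacter G), IsPBlock M b →
      IsInducedBlock M (Subgroup.normalizer ((P : Subgroup G) : Set G)) b B ∧
        IsDefectGroup p M B P ∧ Set.BijOn I b B := fun b => by
    by_cases hb : IsPBlock M b
    · obtain ⟨B, hB⟩ := CL.Blk.inducedBlockDefined_of_local hM P.isPGroup' Subgroup.le_normalizer
        (Subgroup.centralizer_le_normalizer _) le_rfl hb
      have hBD := (CL.Blk.isDefectGroup_iff hM hB.2.1).2 (CL.Blk.first_main_isDef' hp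
        (CL.Blk.natCast_F hM) hinj hN P.isPGroup' (CL.Blk.isBlk_eB hM hb) ((hd b hb).isDef hM hb)
        (CL.Blk.isBlk_eB hM hB.2.1) (hB.indAlong hM))
      obtain ⟨-, -, I, η, h⟩ := S4635.result p M hM B hB.2.1 P hBD (fun a => hp.one_lt.ne' (by
        rw [← hP]; exact Subgroup.card_eq_one.2 a)) hcyc P le_rfl hP _ rfl b (hd b hb) hB
      exact ⟨B, I, fun _ => ⟨hB, hBD, h.1⟩⟩
    · exact ⟨∅, fun _ => CL.Blk.irrOne G, fun a => (hb a).elim⟩
  choose f I hf using ex
  have hm := fun η => (hf _ (CL.Blk.isPBlock_blockOf η)).2.2.mapsTo (CL.Blk.mem_blockOf_self hM η)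
  rw [← CL.Char.card_irr]
  have key : ∀ η, ¬ p ∣ charDegree (I (blockOf M η.1) η).1 := fun η => by
    obtain ⟨h1, h2, -⟩ := hf _ (CL.Blk.isPBlock_blockOf η)
    obtain ⟨b, hb⟩ := CL.Cyc.exists_relPair_of_def hM h1.2.1 h2
    obtain ⟨c, h⟩ := CL.Cyc.exists_setup_of_le hM h1.2.1 hb h2 hcyc le_rfl hP
    obtain ⟨θ₀, l⟩ := h.exists_loc'
    obtain ⟨X, ψ, δ, ε, s⟩ := l.exists_str
    have h3 := (CL.Blk.blockHeight_eq_zero_iff (hm η)).1 (s.height_eq_zero l (hm η))
    have h4 := CL.Blk.minVal_add_blockDefect p ⟨_, hm η⟩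
    rw [(CL.Blk.isDefectGroup_sylow_iff hM h1.2.1 P).1 h2, Nat.add_eq_right, ← h3] at h4
    exact fun a => (hp.factorization_pos_of_dvd (IsIrrCharacter.charDegree_pos
      (I _ η).2).ne' a).ne' h4
  refine (Nat.card_congr (Equiv.ofBijective (fun η => ⟨I (blockOf M η.1) η, key η⟩) ⟨?_, ?_⟩)).symm
  · intro η η' a
    replace a : I (blockOf M η.1) η = I (blockOf M η'.1) η' := congrArg Subtype.val a
    have hb := CL.Blk.isPBlock_blockOf (M := M) η
    have hb' := CL.Blk.isPBlock_blockOf (M := M) η'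
    have h1 := CL.Blk.block_eq_of_mem hM (hf _ hb).1.2.1 (hf _ hb').1.2.1 (hm η) (a ▸ hm η')
    have h2 := CL.Blk.eq_of_eB_eq hM hb hb' (CL.Blk.first_main_inj' hp (CL.Blk.natCast_F hM) hinj
      hN P.isPGroup' (CL.Blk.isBlk_eB hM hb) ((hd _ hb).isDef hM hb) (CL.Blk.isBlk_eB hM hb')
      ((hd _ hb').isDef hM hb') (CL.Blk.isBlk_eB hM (hf _ hb).1.2.1) ((hf _ hb).1.indAlong hM)
      (h1 ▸ (hf _ hb').1.indAlong hM))
    refine (hf _ hb).2.2.injOn (CL.Blk.mem_blockOf_self hM η)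
      (h2 ▸ CL.Blk.mem_blockOf_self hM η') (a.trans ?_)
    rw [h2]
  · rintro ⟨χ, hχ⟩
    have hB := CL.Blk.isPBlock_blockOf (M := M) χ
    have hBD := (CL.Blk.isDefectGroup_sylow_iff hM hB P).2
      (CL.Blk.blockDefect_eq_of_not_dvd (CL.Blk.mem_blockOf_self hM χ) hχ)
    obtain ⟨b, μ, hb, -, hi⟩ := CL.Blk.first_main_surj' hp (CL.Blk.natCast_F hM) hinj hN
      (CL.Blk.isBlk_eB hM hB) (hBD.isDef hM hB)
    obtain ⟨c, hc, rfl, hi'⟩ := CL.Blk.exists_block_of_indAlong hM hb hi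
    have h1 := CL.Blk.block_unique_of_indAlong hM (hf _ hc).1.2.1 hB ((hf _ hc).1.indAlong hM) hi'
    obtain ⟨η, a, a'⟩ := (hf _ hc).2.2.surjOn (h1 ▸ CL.Blk.mem_blockOf_self hM χ)
    exact ⟨η, Subtype.ext ((congrArg (I · η) (CL.Blk.block_eq_blockOf hM hc a)).symm.trans a')⟩

end Cfsg.Agent.S4502
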