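import Cfsg.Statements.S4506
import Mathlib
import Cfsg.Agent.BLK.PRat
import Cfsg.Agent.BLK.CycGal
import Cfsg.Agent.BLK.GRoots

set_option autoImplicit false
open Cfsg

namespace Cfsg.Agent.S4506


/-- Let G be a finite group, p a prime, p^a the p-part of the order of G and g′ its p′-part. Call two irreducible characters p-conjugate when one is obtained from the other by applying a field automorphism of ℂ that fixes the g′-th roots of unity, and let r be the number of characters p-conjugate to the irreducible character χ (χ included). Then the exponent of p in r·χ(1) is at most a; and if p^a divides r·χ(1) then p^a already divides χ(1). -/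
theorem result {G : Type*} [Group G] [Finite G] (p : ℕ) (hp : p.Prime) (χ : Cfsg.IrrCharacter G) (r : ℕ) (hr : Nat.card {ψ : Cfsg.IrrCharacter G // ∃ σ : ℂ ≃+* ℂ, σ (Complex.exp (2 * Real.pi * Complex.I / ((Nat.card G / p ^ (Nat.card G).factorization p) : ℕ))) = Complex.exp (2 * Real.pi * Complex.I / ((Nat.card G / p ^ (Nat.card G).factorization p) : ℕ)) ∧ (ψ : G → ℂ) = fun g => σ ((χ : G → ℂ) g)} = r) : (r * Cfsg.charDegree (χ : G → ℂ)).factorization p ≤ (Nat.card G).factorization p ∧ (p ^ (Nat.card G).factorization p ∣ r * Cfsg.charDegree (χ : G → ℂ) → p ^ (Nat.card G).factorization p ∣ Cfsg.charDegree (χ : G → ℂ)) := by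
  classical
  open CL.Blk CL.Char CL.Cyc Cfsg in
  have := Fintype.ofFinite G
  obtain ⟨M, hM⟩ := CL.Glb.exists_isPModular hp
  have hG0 : Nat.card G ≠ 0 := Nat.card_pos.ne'
  simp only [← CL.Cyc.fixReg_iff (p := p) hG0] at hr
  set A : Set (IrrCharacter G) := {ψ | ∃ σ : ℂ ≃+* ℂ, CL.Cyc.FixReg p (Nat.card G) σ ∧
    (ψ : G → ℂ) = fun g => σ ((χ : G → ℂ) g)} with hA
  have hrA : (Finset.univ.filter (· ∈ A)).card = r := by
    rw [← hr]
    exact (Nat.subtype_card _ fun ψ => by simp [hA]).symm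
  have hχA : χ ∈ A := ⟨RingEquiv.refl ℂ, fun _ _ => rfl, rfl⟩
  have hreg : ∀ ψ ∈ A, ∀ g, IsPRegular p g → (ψ : G → ℂ) g = (χ : G → ℂ) g := by
    rintro ψ ⟨σ, hσ, h⟩ g hg
    rw [h]
    exact hσ.apply hp dvd_rfl χ.2.isCharacter hg
  set a := (Nat.card G).factorization p with ha
  set v := (charDegree (χ : G → ℂ)).factorization p with hv
  have hva : v ≤ a := CL.Blk.factorization_charDegree_le p χ
  obtain ⟨d, hd⟩ : ∃ d, a = d + v := ⟨a - v, by omega⟩
  choose c hc using fun ψ : IrrCharacter G =>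
    CL.Blk.exists_int_contr hp χ (ψ := ψ.1) ψ.2.isGen (d := d) hd.le
  have hcA : ∀ ψ ∈ A, c ψ = c χ := by
    intro ψ hψ
    have := hc ψ
    rw [CL.Blk.contr_congr (fun _ _ => rfl) (hreg ψ hψ), hc χ] at this
    exact_mod_cast this.symm
  have hp0 : (p : ℂ) ^ d ≠ 0 := pow_ne_zero _ (by exact_mod_cast hp.ne_zero)
  have hexp : (p : ℂ) ^ d • pRegularPart p χ.1 = ∑ ψ : IrrCharacter G, (c ψ : ℂ) • ψ.1 := by
    rw [CL.Blk.reg_eq_sum_univ χ.2.isClassFunction, Finset.smul_sum]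
    exact Finset.sum_congr rfl fun ψ _ => by rw [smul_smul, hc]
  have hsq : ∑ ψ, c ψ ^ 2 = p ^ d * c χ := by
    have h1 : classInner ((p : ℂ) ^ d • pRegularPart p χ.1) ((p : ℂ) ^ d • pRegularPart p χ.1) =
        (p : ℂ) ^ d * c χ := by
      rw [CL.Char.classInner_smul_left, CL.Char.classInner_smul_right, ← CL.Blk.contr_eq_both,
        ← hc χ, map_pow, map_natCast]
    have h2 : (∑ ψ : IrrCharacter G, (c ψ : ℂ) • ψ.1) = CL.Blk.zcomb c := by
      funext g
      rw [CL.Blk.zcomb_apply, Finset.sum_apply]; rfl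
    rw [hexp, h2, CL.Blk.classInner_zcomb_zcomb] at h1
    simp only [sq]
    exact_mod_cast h1
  have hpos : 0 < c χ := by
    have h0 : 0 ≤ ∑ ψ, c ψ ^ 2 := Finset.sum_nonneg fun _ _ => sq_nonneg _
    have hpd : (0 : ℤ) < p ^ d := pow_pos (by exact_mod_cast hp.pos) _
    have h1 : 0 ≤ c χ := by rw [hsq] at h0; exact nonneg_of_mul_nonneg_right h0 hpd
    refine lt_of_le_of_ne h1 fun h => ?_
    rw [← h, mul_zero, Finset.sum_eq_zero_iff_of_nonneg fun _ _ => sq_nonneg _] at hsq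
    have h2 := congrFun hexp 1
    rw [Finset.sum_eq_zero fun ψ _ => by
      rw [pow_eq_zero_iff two_ne_zero |>.1 (hsq ψ (Finset.mem_univ _)), Int.cast_zero, zero_smul],
      Pi.smul_apply, CL.Blk.pRegularPart_of (by
        rw [IsPRegular, orderOf_one, Nat.dvd_one]; exact hp.ne_one), smul_eq_mul] at h2
    exact mul_ne_zero hp0 (CL.Blk.irr_one_ne_zero χ) h2
  have hsplit : ∑ ψ, c ψ ^ 2 = r * c χ ^ 2 + ∑ ψ with ¬ ψ ∈ A, c ψ ^ 2 := by
    rw [← Finset.sum_filter_add_sum_filter_not Finset.univ (· ∈ A),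
      Finset.sum_congr rfl fun ψ hψ => by rw [hcA ψ (Finset.mem_filter.1 hψ).2],
      Finset.sum_const, hrA, nsmul_eq_mul]
  have hrest : 0 ≤ ∑ ψ with ¬ ψ ∈ A, c ψ ^ 2 := Finset.sum_nonneg fun _ _ => sq_nonneg _
  have hle : (r : ℤ) * c χ ≤ p ^ d := by
    refine le_of_mul_le_mul_right ?_ hpos
    nlinarith
  have hr0 : 0 < r := by
    rw [← hrA]; exact Finset.card_pos.2 ⟨χ, Finset.mem_filter.2 ⟨Finset.mem_univ _, hχA⟩⟩
  have hle' : r ≤ p ^ d := by
    have : (r : ℤ) ≤ p ^ d := by nlinarith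
    exact_mod_cast this
  have hdeg0 : charDegree (χ : G → ℂ) ≠ 0 := CL.Blk.charDegree_ne_zero χ
  have hfac : (r * charDegree (χ : G → ℂ)).factorization p = r.factorization p + v := by
    rw [Nat.factorization_mul hr0.ne' hdeg0]; rfl
  have hrd : r.factorization p ≤ d :=
    (Nat.pow_le_pow_iff_right hp.one_lt).1 ((Nat.ordProj_le p hr0.ne').trans hle')
  refine ⟨by omega, fun hdvd => ?_⟩
  have h1 : a ≤ r.factorization p + v := by
    rw [← hfac]
    exact (hp.pow_dvd_iff_le_factorization (mul_ne_zero hr0.ne' hdeg0)).1 hdvd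
  have hrp : r = p ^ d := by
    refine le_antisymm hle' (Nat.le_of_dvd hr0 ?_)
    exact (hp.pow_dvd_iff_le_factorization hr0.ne').2 (by omega)
  have hpd : (0 : ℤ) < p ^ d := pow_pos (by exact_mod_cast hp.pos) _
  have hc1 : c χ = 1 := by
    rw [hrp] at hle
    push_cast at hle
    nlinarith
  have hrest0 : ∀ ψ, ψ ∉ A → c ψ = 0 := by
    intro ψ hψ
    have : ∑ ψ with ¬ ψ ∈ A, c ψ ^ 2 = 0 := by
      rw [hsq, hc1, hrp] at hsplit
      push_cast at hsplit
      linarith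
    rw [Finset.sum_eq_zero_iff_of_nonneg fun _ _ => sq_nonneg _] at this
    exact (pow_eq_zero_iff two_ne_zero).1 (this ψ (Finset.mem_filter.2 ⟨Finset.mem_univ _, hψ⟩))
  have hsum : ∀ g, ∑ ψ with ψ ∈ A, (ψ : G → ℂ) g = (p : ℂ) ^ d * pRegularPart p χ.1 g := by
    intro g
    have := congrFun hexp g
    rw [Pi.smul_apply, smul_eq_mul] at this
    rw [this, Finset.sum_apply, Finset.sum_filter]
    refine Finset.sum_congr rfl fun ψ _ => ?_
    split_ifs with h
    · rw [hcA ψ h, hc1]; simp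
    · rw [hrest0 ψ h]; simp
  have h1reg : IsPRegular p (1 : G) := by
    rw [IsPRegular, orderOf_one, Nat.dvd_one]; exact hp.ne_one
  have hblk : CL.Blk.IsBlockUnion M A := by
    refine CL.Blk.isBlockUnion_of_isInt hM fun g => ?_
    rw [CL.Blk.coeff_blockIdem, CL.Blk.blockCoeff_eq_sum,
      Finset.sum_congr rfl fun ψ hψ => by rw [hreg ψ (Finset.mem_filter.1 hψ).2 1 h1reg],
      ← Finset.mul_sum, ← map_sum, hsum, map_mul, map_pow, map_natCast, CL.Blk.irr_one_eq]
    have e1 : (Nat.card G : ℂ) = p ^ a * ((Nat.card G / p ^ a : ℕ) : ℂ) := by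
      exact_mod_cast (Nat.ordProj_mul_ordCompl_eq_self (Nat.card G) p).symm
    have e2 : (charDegree (χ : G → ℂ) : ℂ) = p ^ v * ((charDegree (χ : G → ℂ) / p ^ v : ℕ) : ℂ) := by
      exact_mod_cast (Nat.ordProj_mul_ordCompl_eq_self (charDegree (χ : G → ℂ)) p).symm
    have hp1 : (p : ℂ) ≠ 0 := by exact_mod_cast hp.ne_zero
    have e3 : (Nat.card G : ℂ)⁻¹ * ((charDegree (χ : G → ℂ) : ℂ) *
        ((p : ℂ) ^ d * (starRingEnd ℂ) (pRegularPart p χ.1 g))) =
        ((Nat.card G / p ^ a : ℕ) : ℂ)⁻¹ * (((charDegree (χ : G → ℂ) / p ^ v : ℕ) : ℂ) *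
          (starRingEnd ℂ) (pRegularPart p χ.1 g)) := by
      conv_lhs => rw [e1, e2, hd, pow_add]
      rw [hd]
      field_simp
    rw [e3]
    refine mul_mem (CL.Blk.natCast_inv_mem_V hM (Nat.not_dvd_ordCompl hp hG0))
      (mul_mem (natCast_mem _ _) ?_)
    by_cases hg : IsPRegular p g
    · rw [CL.Blk.pRegularPart_of hg]
      exact CL.Blk.conj_gen_mem_V χ.2.isGen g
    · rw [CL.Blk.pRegularPart_of_not hg, map_zero]
      exact zero_mem _
  have hrank : blockRank p A = 1 := by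
    have h2 := hblk.sum_contr_self hM
    rw [Finset.sum_congr rfl fun ψ hψ => CL.Blk.contr_congr (hreg ψ (Finset.mem_filter.1 hψ).2)
      (hreg ψ (Finset.mem_filter.1 hψ).2), Finset.sum_const, hrA, nsmul_eq_mul, hrp,
      Nat.cast_pow, hc, hc1] at h2
    exact_mod_cast h2.symm
  have hall : ∀ ψ ∈ A, ψ = χ := by
    rintro ψ ⟨σ, hσ, h⟩
    obtain ⟨k, hk, hσk⟩ := CL.Char.exists_coprime_apply_eq_pow hG0 (σ : ℂ →+* ℂ)
    have hkreg : ∀ g : G, ¬ p ∣ orderOf g → g ^ k = g := by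
      intro g hg
      have ho : orderOf g ≠ 0 := (orderOf_pos g).ne'
      have hζ := Complex.isPrimitiveRoot_exp _ ho
      have h3 : orderOf g ∣ Nat.card G / p ^ a := by
        refine Nat.Coprime.dvd_of_dvd_mul_left (Nat.Coprime.pow_right a
          ((Nat.Prime.coprime_iff_not_dvd hp).2 hg).symm) ?_
        rw [Nat.ordProj_mul_ordCompl_eq_self]; exact orderOf_dvd_natCard g
      have h4 := hσk _ ((hζ.pow_eq_one_iff_dvd _).2 (orderOf_dvd_natCard g))
      have h5 := hσ _ ((hζ.pow_eq_one_iff_dvd _).2 h3)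
      rw [RingHom.coe_coe, h5] at h4
      conv_rhs => rw [← pow_one g]
      rw [pow_eq_pow_iff_modEq, hζ.eq_orderOf, ← (hζ.isOfFinOrder ho).pow_eq_pow_iff_modEq, pow_one]
      exact h4.symm
    have h6 := CL.Blk.PRat.rank_le_card_fixed hM hblk hk hkreg
    rw [hrank] at h6
    obtain ⟨⟨ξ, ⟨τ, -, hτ⟩, hξ⟩⟩ := (Nat.card_pos_iff.1 h6).1
    refine Subtype.ext (funext fun g => ?_)
    have h7 := hξ g
    rw [hτ] at h7
    rw [h]
    change σ (χ.1 g) = _
    exact (χ.2.isCharacter.gal_apply hσk pow_card_eq_one').trans (τ.injective h7)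
  have hr1 : r = 1 := by
    rw [← hrA, Finset.card_eq_one]
    refine ⟨χ, ?_⟩
    ext ψ
    simp only [Finset.mem_filter, Finset.mem_univ, true_and, Finset.mem_singleton]
    exact ⟨hall ψ, fun h => h ▸ hχA⟩
  rwa [hr1, one_mul] at hdvd

end Cfsg.Agent.S4506
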