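import Cfsg.Statements.S4507
import Cfsg.Agent.BLK.CycGal

set_option autoImplicit false
open Cfsg

namespace Cfsg.Agent.S4507

/-- Let G be a finite group whose order g is divisible by the prime p exactly once, g′ = g/p, and fix a maximal ideal M of the algebraic integers containing p. Call two irreducible characters p-conjugate when a field automorphism of ℂ fixing the g′-th roots of unity carries one to the other. Let B be a p-block of positive defect (its defect group is a Sylow p-subgroup). Then B contains a subset Y (the exceptional family) such that: Y is a full p-conjugacy class (its members are pairwise p-conjugate and every p-conjugate of a member of Y lies in Y); every member of B outside Y is p-conjugate only to itself; the size t of Y divides p − 1 and B has exactly t + (p − 1)/t members; and there are signs δ_χ = ±1 (χ ∈ B) such that for every p-regular element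 x and every θ ∈ Y, Σ_{χ ∈ B ∖ Y} δ_χ χ(x) + δ_θ θ(x) = 0. -/
theorem result {G : Type*} [Group G] [Finite G] (p : ℕ) [Fact p.Prime] (M : Ideal Cfsg.AlgInt) (hM : Cfsg.IsPModular p M) (hdiv : p ∣ Nat.card G) (hsq : ¬ p ^ 2 ∣ Nat.card G) (B : Set (Cfsg.IrrCharacter G)) (hB : Cfsg.IsPBlock M B) (hd : 0 < Cfsg.blockDefect p B) : ∃ Y : Set (Cfsg.IrrCharacter G), Y ⊆ B ∧ Y.Nonempty ∧ (∀ θ ∈ Y, ∀ ψ : Cfsg.IrrCharacter G, (∃ σ : ℂ ≃+* ℂ, σ (Complex.exp (2 * Real.pi * Complex.I / ((Nat.card G / p ^ (Nat.card G).factorization p) : ℕ))) = Complex.exp (2 * Real.pi * Complex.I / ((Nat.card G / p ^ (Nat.card G).factorization p) : ℕ)) ∧ (ψ : G → ℂ) = fun g => σ ((θ : G → ℂ) g)) ↔ ψ ∈ Y) ∧ (∀ χ ∈ B, χ ∉ Y → ∀ ψ : Cfsg.IrrCharacter G, (∃ σ : ℂ ≃+* ℂ, σ (Complex.exp (2 * Real.pi * Complex.I / ((Nat.card G / p ^ (Nat.card G).factorization p) : ℕ))) = Complex.exp (2 * Real.pi * Complex.I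 / ((Nat.card G / p ^ (Nat.card G).factorization p) : ℕ)) ∧ (ψ : G → ℂ) = fun g => σ ((χ : G → ℂ) g)) → ψ = χ) ∧ Nat.card Y ∣ p - 1 ∧ Nat.card B = Nat.card Y + (p - 1) / Nat.card Y ∧ ∃ δ : Cfsg.IrrCharacter G → ℤ, (∀ χ ∈ B, δ χ = 1 ∨ δ χ = -1) ∧ ∀ x : G, ¬ p ∣ orderOf x → ∀ θ ∈ Y, (∑ᶠ χ ∈ B \ Y, (δ χ : ℂ) * (χ : G → ℂ) x) + (δ θ : ℂ) * (θ : G → ℂ) x = 0 := by
  classical
  have := Fintype.ofFinite G
  obtain ⟨Z, c, b, h0⟩ := CL.Cyc.exists_setup_one hM hB hsq hd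
  obtain ⟨θ₀, hθ₀, hk⟩ := h0.exists_inKer
  have h := h0.exists_loc_inKer hθ₀ hk
  obtain ⟨X, ψ, δ, ε, s⟩ := h.exists_str
  have hn := (Nat.card_pos (α := G)).ne'
  have hY := s.card_Y
  rw [h.card_c, h.card] at hY
  have hY' : p - 1 = _ := (Nat.eq_sub_of_add_eq hY).symm
  have hXY : B \ ψ '' (c \ {θ₀}) = X := by
    rw [s.B_eq, Set.union_sdiff_right, s.disjoint.sdiff_eq_left]
  obtain ⟨θ₁, hθ₁⟩ := h.exists_ne
  refine ⟨ψ '' (c \ {θ₀}), ?_, ⟨_, θ₁, hθ₁, rfl⟩, ?_, ?_, ⟨_, hY'⟩, ?_,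
    fun χ => if χ ∈ X then δ χ else ε, fun χ _ => ?_, ?_⟩
  · rintro _ ⟨θ, hθ, rfl⟩
    exact s.mem_Y hθ.1 hθ.2
  · rintro _ ⟨θ, hθ, rfl⟩ χ
    constructor
    · rintro ⟨σ, hσ, a⟩
      have hσ' := (CL.Cyc.fixReg_iff hn).2 hσ
      exact ⟨_, ⟨h.gal_mem hσ' hθ.1, h.gal_ne hk hθ.1 hθ.2⟩,
        (s.gal_Y h hk hσ' hθ.1 hθ.2).symm.trans (Subtype.ext a.symm)⟩
    · rintro ⟨θ', hθ', rfl⟩
      obtain ⟨σ, hσ, rfl⟩ := h.exists_gal hk hθ.1 hθ.2 hθ'.1 hθ'.2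
      exact ⟨σ, (CL.Cyc.fixReg_iff hn).1 hσ, congrArg Subtype.val (s.gal_Y h hk hσ hθ.1 hθ.2).symm⟩
  · rintro χ hχ hχ' χ' ⟨σ, hσ, a⟩
    exact (Subtype.ext a).trans (s.gal_X h hk ((CL.Cyc.fixReg_iff hn).2 hσ) (hXY.le ⟨hχ, hχ'⟩))
  · have : Nonempty (ψ '' (c \ {θ₀})) := ⟨⟨_, θ₁, hθ₁, rfl⟩⟩
    rw [hY', Nat.mul_div_cancel_left _ Nat.card_pos, s.card_B h.e_pos, ← s.card_Y' h.e_pos,
      add_comm]
  · beta_reduce
    split_ifs with a
    exacts [s.sign χ a, s.sign']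
  · rintro x hx _ ⟨θ, hθ, rfl⟩
    rw [hXY, finsum_mem_coe_finset, add_comm, ← s.val_reg h hθ.1 hθ.2 hx]
    beta_reduce
    rw [if_neg (s.notMem θ hθ.1 hθ.2), Finset.sum_congr rfl fun χ hχ => by rw [if_pos hχ]]

end Cfsg.Agent.S4507
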