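import Cfsg.Statements.S4508
import Cfsg.Agent.BLK.D1Det

set_option autoImplicit false
open Cfsg

namespace Cfsg.Agent.S4508

/-- Let the finite group G contain an element x of prime order p with C_G(x) = ⟨x⟩, and let t be the number of conjugacy classes of elements of order p. If G has an irreducible character of degree p − 1, then t is even or the commutator subgroup has even index. -/
theorem result {G : Type*} [Group G] [Finite G] (p : ℕ) (hp : p.Prime) (x : G) (hx : orderOf x = p) (hC : Subgroup.centralizer ({x} : Set G) = Subgroup.zpowers x) (t : ℕ) (ht : Nat.card {C : ConjClasses G // ∃ g ∈ C.carrier, orderOf g = p} = t) (χ : Cfsg.IrrCharacter G) (hχ : Cfsg.charDegree (χ : G → ℂ) + 1 = p) : Even t ∨ Even (commutator G).index := by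
  have := Fact.mk hp
  have h : CL.Blk.SelfCent p x := ⟨hx, hC⟩
  have h1 := h.clsCt_mul
  rw [CL.Blk.clsCt, ht] at h1
  refine or_iff_not_imp_left.2 fun h2 => ?_
  by_cases he : CL.Blk.autIdx x = 1
  · rw [h.commutator_eq he, h.index_pPrimeCore he]
    rw [he, mul_one] at h1
    have := hp.two_le
    rw [Nat.even_iff] at *
    omega
  obtain ⟨P, k, g, hS⟩ := CL.D1.exists_SC hx hC
  have h3 := hS.hg
  rw [hS.hP, h.centralizer_zpowers] at h3
  have h4 : Even (orderOf g) := by
    rcases hp.eq_two_or_odd' with rfl | h4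
    · exact absurd (Nat.eq_one_of_mul_eq_one_left h1) he
    · rw [h3]
      exact (Nat.even_mul.1 (h1 ▸ Nat.Odd.sub_odd h4 odd_one)).resolve_left h2
  have h5 := CL.D1T.detChar_of_vanish χ.2.isCharacter (b := t) (by
      rw [χ.2.apply_one_eq_charDegree, h3, ← Nat.cast_mul, h1, ← hχ]; simp)
    (fun y hy h5 => CL.D1T.eq_zero_of_degree h he χ.2 hχ
      (Subgroup.zpowers_le.2 (by simpa [hS.hP] using hS.gN) hy)
      fun h6 => h5 (hS.eq_one_of_mem hy (hS.hP ▸ h6))) h4
  by_contra h6
  have h7 := (CL.Char.detOrder_dvd_iff _ _).1 (CL.Char.detOrder_dvd_index_commutator χ.1) g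
  rw [h5, (Nat.not_even_iff_odd.1 h2).neg_one_pow, (Nat.not_even_iff_odd.1 h6).neg_one_pow] at h7
  norm_num at h7

end Cfsg.Agent.S4508
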