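import Cfsg.Statements.S4509
import Mathlib
import Cfsg.Agent.BLK.SelfCent

set_option autoImplicit false
open Cfsg

namespace Cfsg.Agent.S4509

open CL CL.Blk CL.Char MonoidAlgebra
open scoped CL.MSS
open scoped ComplexConjugate commutatorElement

/-- Let the finite group G contain an element x of prime order p with C_G(x) = ⟨x⟩; let t be the number of conjugacy classes of elements of order p and 1 + n·p the number of subgroups of order p. Then G has a normal subgroup of order 1 + n·p if and only if either t = p − 1, or t < p − 1 and G″ ≠ G′. Moreover, if t = p − 1 then G′ has order 1 + n·p and G/G′ is cyclic of order p; and if t < p − 1 and G″ ≠ G′ then G″ has order 1 + n·p and G′ has order p·(1 + n·p). -/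
theorem result {G : Type*} [Group G] [Finite G] (p : ℕ) (hp : p.Prime) (x : G) (hx : orderOf x = p) (hC : Subgroup.centralizer ({x} : Set G) = Subgroup.zpowers x) (t : ℕ) (ht : Nat.card {C : ConjClasses G // ∃ g ∈ C.carrier, orderOf g = p} = t) (n : ℕ) (hn : Nat.card {H : Subgroup G // Nat.card H = p} = 1 + n * p) : ((∃ S : Subgroup G, S.Normal ∧ Nat.card S = 1 + n * p) ↔ (t = p - 1 ∨ (t < p - 1 ∧ derivedSeries G 2 ≠ derivedSeries G 1))) ∧ (t = p - 1 → Nat.card (commutator G) = 1 + n * p ∧ IsCyclic (G ⧸ commutator G) ∧ (commutator G).index = p) ∧ (t < p - 1 → derivedSeries G 2 ≠ derivedSeries G 1 → Nat.card (derivedSeries G 2) = 1 + n * p ∧ Nat.card (commutator G) = p * (1 + n * p)) := by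
  have := Fact.mk hp
  have h : SelfCent p x := ⟨hx, hC⟩
  subst ht
  rw [h.card_subgroups] at hn
  set N := Subgroup.normalizer (Subgroup.zpowers x : Set G) with hN
  have hd1 : derivedSeries G 1 = commutator G := derivedSeries_one G
  have hd2 : derivedSeries G 2 = ⁅commutator G, commutator G⁆ := by
    rw [derivedSeries_succ, hd1]
  have hA : clsCt p G = p - 1 → Nat.card (commutator G) = 1 + n * p ∧
      IsCyclic (G ⧸ commutator G) ∧ (commutator G).index = p := by
    intro h1
    have he := h.autIdx_eq_one_iff.2 h1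
    have h2 : (commutator G).index = p := by rw [h.commutator_eq he, h.index_pPrimeCore he]
    refine ⟨?_, isCyclic_of_prime_card h2, h2⟩
    have h3 : N = Subgroup.zpowers x :=
      le_antisymm (Subgroup.relIndex_eq_one.1 he) Subgroup.le_normalizer
    have h4 := (commutator G).card_mul_index
    rw [← N.card_mul_index, hn, h3, h.card, h2, mul_comm p] at h4
    exact Nat.eq_of_mul_eq_mul_right hp.pos h4
  have hB : clsCt p G < p - 1 → derivedSeries G 2 ≠ derivedSeries G 1 →
      Nat.card (derivedSeries G 2) = 1 + n * p ∧ Nat.card (commutator G) = p * (1 + n * p) := by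
    intro h1 h2
    have he : autIdx x ≠ 1 := fun e => h1.ne (h.autIdx_eq_one_iff.1 e)
    have hx' := h.mem_commutator he
    set S := derivedSeries G 2
    have hle : S ≤ commutator G := hd1 ▸ derivedSeries_antitone G (by norm_num)
    have hS : ¬ p ∣ Nat.card S := fun hd => h2 (le_antisymm (hd1 ▸ hle) (hd1 ▸ h.commutator_le S hd))
    have hq := h.quot S hS
    have h3 : (commutator G).map (QuotientGroup.mk' S) =
        Subgroup.zpowers (QuotientGroup.mk x : G ⧸ S) := by
      refine le_antisymm ?_ (Subgroup.zpowers_le.2 ⟨x, hx', rfl⟩)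
      rintro _ ⟨g, hg, rfl⟩
      rw [← hq.cent, Subgroup.mem_centralizer_singleton_iff, ← commutatorElement_eq_one_iff_mul_comm]
      change ⁅QuotientGroup.mk' S g, QuotientGroup.mk' S x⁆ = 1
      rw [← map_commutatorElement]
      exact (QuotientGroup.eq_one_iff _).2 (hd2 ▸ Subgroup.commutator_mem_commutator hg hx')
    have h4 : Nat.card (commutator G) = p * Nat.card S := by
      have := card_comap_mk' S ((commutator G).map (QuotientGroup.mk' S))
      rw [Subgroup.comap_map_eq, QuotientGroup.ker_mk', sup_eq_left.2 hle, h3, hq.card] at this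
      exact this
    have h5 : N ⊓ commutator G = Subgroup.zpowers x := by
      refine le_antisymm (fun g hg => ?_) (le_inf Subgroup.le_normalizer (Subgroup.zpowers_le.2 hx'))
      rw [← hC, Subgroup.mem_centralizer_singleton_iff, ← commutatorElement_eq_one_iff_mul_comm]
      have h6 : ⁅g, x⁆ ∈ Subgroup.zpowers x := mul_mem ((Subgroup.mem_normalizer_iff.1 hg.1 x).1
        (Subgroup.mem_zpowers x)) (inv_mem (Subgroup.mem_zpowers x))
      have h7 : ⁅g, x⁆ ∈ S := hd2 ▸ Subgroup.commutator_mem_commutator hg.2 hx'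
      have h8 := Subgroup.orderOf_dvd_natCard _ h6
      rw [h.card] at h8
      rcases (Nat.dvd_prime hp).1 h8 with h9 | h9
      · exact orderOf_eq_one_iff.1 h9
      · exact absurd (h9 ▸ Subgroup.orderOf_dvd_natCard _ h7) hS
    have h6 : Nat.card (commutator G) = p * (1 + n * p) := by
      have h7 := Subgroup.relIndex_mul_index (le_inf (le_refl _) (inf_le_left : N ⊓ commutator G ≤ N))
      have h8 : (commutator G).relIndex N = (commutator G).index := by
        rw [← Subgroup.relIndex_sup_right, hN, h.normalizer_sup _ hx', Subgroup.relIndex_top_right]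
      have h9 := Subgroup.relIndex_mul_index (inf_le_left : N ⊓ commutator G ≤ N)
      rw [inf_comm, Subgroup.inf_relIndex_right, h8, inf_comm, h5, hn] at h9
      have h10 := (commutator G).card_mul_index
      rw [← (Subgroup.zpowers x).card_mul_index, h.card, ← h9, mul_comm _ (1 + n * p),
        ← mul_assoc] at h10
      exact Nat.eq_of_mul_eq_mul_right (Nat.pos_of_ne_zero Subgroup.index_ne_zero_of_finite) h10
    exact ⟨Nat.eq_of_mul_eq_mul_left hp.pos (h4.symm.trans h6), h6⟩
  refine ⟨⟨?_, ?_⟩, hA, hB⟩
  · rintro ⟨S, hSn, hS⟩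
    refine h.clsCt_le.eq_or_lt.imp_right fun h1 => ⟨h1, fun h2 => ?_⟩
    have he : autIdx x ≠ 1 := fun e => h1.ne (h.autIdx_eq_one_iff.1 e)
    have hx' := h.mem_commutator he
    have hd : ¬ p ∣ Nat.card S := by
      rw [hS, Nat.dvd_add_left (dvd_mul_left p n), Nat.dvd_one]
      exact hp.one_lt.ne'
    have hq := h.quot S hd
    have h3 : S ⊓ N = ⊥ := by
      refine eq_bot_iff.2 fun g hg => ?_
      have h6 : ⁅g, x⁆ ∈ Subgroup.zpowers x := mul_mem ((Subgroup.mem_normalizer_iff.1 hg.2 x).1
        (Subgroup.mem_zpowers x)) (inv_mem (Subgroup.mem_zpowers x))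
      have h7 : ⁅g, x⁆ ∈ S := by
        have := S.mul_mem hg.1 (hSn.conj_mem _ (S.inv_mem hg.1) x)
        rw [commutatorElement_def]
        convert this using 1; group
      have h10 : ∀ y ∈ Subgroup.zpowers x, y ∈ S → y = 1 := fun y h6 h7 => by
        have h8 := Subgroup.orderOf_dvd_natCard _ h6
        rw [h.card] at h8
        rcases (Nat.dvd_prime hp).1 h8 with h9 | h9
        · exact orderOf_eq_one_iff.1 h9
        · exact absurd (h9 ▸ Subgroup.orderOf_dvd_natCard _ h7) hd
      exact h10 g (hC ▸ Subgroup.mem_centralizer_singleton_iff.2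
        (commutatorElement_eq_one_iff_mul_comm.1 (h10 _ h6 h7))) hg.1
    have h4 : N.map (QuotientGroup.mk' S) = ⊤ := by
      apply Subgroup.eq_top_of_card_eq
      have h5 := N.card_mul_index
      rw [hn, ← hS, ← S.index_mul_card] at h5
      have h6 := Nat.eq_of_mul_eq_mul_right Nat.card_pos h5
      rw [← Subgroup.relIndex_ker, QuotientGroup.ker_mk', ← Subgroup.inf_relIndex_right, h3,
        Subgroup.relIndex_bot_left, h6]
      rfl
    have h5 : (Subgroup.zpowers (QuotientGroup.mk x : G ⧸ S)).Normal := by
      rw [← Subgroup.normalizer_eq_top_iff, eq_top_iff, ← h4]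
      have := Subgroup.le_normalizer_map (H := Subgroup.zpowers x) (QuotientGroup.mk' S)
      rwa [MonoidHom.map_zpowers] at this
    have h6 := hq.commutator_le _ (by rw [hq.card])
    have h7 : commutator G ≤ S := by
      rw [← hd1, ← h2, hd2, Subgroup.commutator_le]
      intro a ha b hb
      rw [← QuotientGroup.eq_one_iff]
      change QuotientGroup.mk' S ⁅a, b⁆ = 1
      have h8 : ∀ a ∈ commutator G, QuotientGroup.mk' S a ∈
          Subgroup.zpowers (QuotientGroup.mk x : G ⧸ S) := fun a ha => h6 (by
        rw [commutator_def, ← Subgroup.map_top_of_surjective _ (QuotientGroup.mk'_surjective S),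
          ← Subgroup.map_commutator]
        exact ⟨a, ha, rfl⟩)
      obtain ⟨i, hi⟩ := h8 a ha
      obtain ⟨j, hj⟩ := h8 b hb
      rw [map_commutatorElement, ← hi, ← hj, commutatorElement_eq_one_iff_commute]
      exact Commute.zpow_zpow_self _ i j
    exact hd (hx ▸ Subgroup.orderOf_dvd_natCard _ (h7 hx'))
  · rintro (h1 | ⟨h1, h2⟩)
    · exact ⟨_, inferInstance, (hA h1).1⟩
    · exact ⟨_, inferInstance, (hB h1 h2).1⟩

end Cfsg.Agent.S4509
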