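import Cfsg.Statements.S4510
import Mathlib
import Cfsg.Agent.BLK.DefCard

set_option autoImplicit false
open Cfsg

namespace Cfsg.Agent.S4510

open CL CL.Blk CL.Char MonoidAlgebra
open scoped CL.MSS

/-- Let G be a finite group, p a prime, M a maximal ideal of the algebraic integers containing p, and call the defect of a conjugacy class the exponent of p in the order of the centralizer of its elements. Two irreducible characters lying in p-blocks of defect exactly d lie in the same block if and only if their central characters (class size times χ(x)/χ(1)) agree modulo the local ideal at M at every p-regular element x whose class has defect exactly d. -/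
theorem result {G : Type*} [Group G] [Finite G] (p : ℕ) [Fact p.Prime] (M : Ideal Cfsg.AlgInt) (hM : Cfsg.IsPModular p M) (d : ℕ) (χ ψ : Cfsg.IrrCharacter G) (hχ : Cfsg.blockDefect p (Cfsg.blockOf M (χ : G → ℂ)) = d) (hψ : Cfsg.blockDefect p (Cfsg.blockOf M (ψ : G → ℂ)) = d) : Cfsg.SameBlock M (χ : G → ℂ) (ψ : G → ℂ) ↔ ∀ x : G, ¬ p ∣ orderOf x → (Nat.card (Subgroup.centralizer ({x} : Set G))).factorization p = d → Cfsg.MemLocalIdeal M (Cfsg.centralChar (χ : G → ℂ) x - Cfsg.centralChar (ψ : G → ℂ) x) := by
  refine ⟨fun h x _ _ => h x, fun h => ?_⟩
  have hB := isPBlock_blockOf (M := M) χ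
  have hB' := isPBlock_blockOf (M := M) ψ
  have : blockOf M (χ : G → ℂ) = blockOf M (ψ : G → ℂ) := by
    refine block_eq_of_lamB_classSum hM hB hB' fun g hg => ?_
    by_cases hd : (Nat.card (Subgroup.centralizer ({g} : Set G))).factorization p = d
    · have := h g (not_dvd_orderOf_of_coeff_eB hM hB hg) hd
      rw [memLocalIdeal_sub_iff_red hM
        (memLocalRing_of_isIntegral hM (centralChar_isIntegral χ g))
        (memLocalRing_of_isIntegral hM (centralChar_isIntegral ψ g))] at this
      rw [lamB_blockOf hM, lamB_blockOf hM, lam_classSum, lam_classSum, this]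
    · have h1 := factorization_le_blockDefect hM hB hg
      have h2 : lamB M (blockOf M (χ : G → ℂ)) (classSum (F M) g) = 0 := by
        by_contra h2
        have := blockDefect_le_of_centralChar hM hB h2
        omega
      have h3 : lamB M (blockOf M (ψ : G → ℂ)) (classSum (F M) g) = 0 := by
        by_contra h2
        have := blockDefect_le_of_centralChar hM hB' h2
        omega
      rw [h2, h3]
  exact mem_blockOf_iff.1 (this ▸ mem_blockOf_self hM ψ)

end Cfsg.Agent.S4510
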