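import Cfsg.Statements.S4511
import Mathlib
import Cfsg.Agent.BLK.Section2

set_option autoImplicit false
open Cfsg

namespace Cfsg.Agent.S4511

open CL.Blk

/-- Brauer's count of the irreducible characters in a block by subsections. Let M be a maximal ideal of the algebraic integers containing the prime p, B a p-block of the finite group G, and X a set of representatives of the conjugacy classes of p-elements of G (elements of p-power order, the identity included: every p-element is conjugate to exactly one member of X). Then the number of irreducible characters in B is the sum, over x ∈ X and over the blocks b of C_G(x) that induce B, of the p-regular rank of b (the number of irreducible Brauer characters of b, here the dimension of the span of the restrictions of the members of b to the p-regular elements of C_G(x)). -/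
theorem result {G : Type*} [Group G] [Finite G] (p : ℕ) (M : Ideal Cfsg.AlgInt) (hM : Cfsg.IsPModular p M)
    (B : Set (Cfsg.IrrCharacter G)) (hB : Cfsg.IsPBlock M B) (X : Finset G)
    (hX : ∀ x ∈ X, ∃ k : ℕ, orderOf x = p ^ k)
    (hXrep : ∀ g : G, (∃ k : ℕ, orderOf g = p ^ k) → ∃! x, x ∈ X ∧ IsConj g x) :
    Nat.card B = ∑ x ∈ X, ∑ᶠ b ∈ {b : Set (Cfsg.IrrCharacter ↥(Subgroup.centralizer ({x} : Set G))) | Cfsg.IsInducedBlock M (Subgroup.centralizer ({x} : Set G)) b B},
      Cfsg.blockRank p b := by
  classical
  have := Fintype.ofFinite G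
  have hA := isBlockUnion_of_block hM hB
  have h1 : (Nat.card B : ℂ) = ∑ χ with χ ∈ B, Cfsg.classInner χ.1 χ.1 := by
    rw [Finset.sum_congr rfl fun χ _ => χ.2.inner_self, Finset.sum_const, nsmul_eq_mul, mul_one,
      Nat.card_eq_fintype_card, Fintype.card_subtype]
  rw [Finset.sum_congr rfl fun χ _ => classInner_eq_sum_sections hM.1 hX hXrep
    χ.2.isClassFunction χ.2.isClassFunction, Finset.sum_comm,
    Finset.sum_congr rfl fun x hx => (isSec_centralizer (hX x hx)).sum_contr_sh hM hA] at h1
  have h2 : Nat.card B = ∑ x ∈ X, ∑ b ∈ blocks M (Subgroup.centralizer ({x} : Set G)) with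
      b ⊆ locSet M (Subgroup.centralizer ({x} : Set G)).subtype B, Cfsg.blockRank p b := by
    exact_mod_cast h1
  rw [h2]
  refine Finset.sum_congr rfl fun x hx => ?_
  rw [← finsum_mem_coe_finset]
  refine finsum_mem_congr ?_ fun _ _ => rfl
  ext b
  simp only [Finset.coe_filter, mem_blocks, Set.mem_ofPred_eq]
  exact ⟨fun h => (subset_locSet_iff_isInducedBlock hM (hX x hx) rfl hB h.1).1 h.2,
    fun h => ⟨h.1, (subset_locSet_iff_isInducedBlock hM (hX x hx) rfl hB h.1).2 h⟩⟩

end Cfsg.Agent.S4511
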