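import Cfsg.Statements.S4513
import Mathlib
import Cfsg.Agent.BLK.SignArg
import Cfsg.Agent.INV.InvCalc

set_option autoImplicit false
open Cfsg

namespace Cfsg.Agent.S4513

open CL.Blk Cfsg Subgroup
open scoped ComplexConjugate

theorem mem_zp {G : Type*} [Group G] {x y : G} (hx : orderOf x = 2) (hy : y ∈ zpowers x) :
    y = 1 ∨ y = x := by
  have : Finite (zpowers x) := by
    have := (isOfFinOrder_iff_pow_eq_one.2 ⟨2, two_pos, by rw [← hx, pow_orderOf_eq_one]⟩ :
      IsOfFinOrder x)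
    exact this.finite_zpowers
  obtain ⟨k, rfl⟩ := mem_zpowers_iff.1 hy
  have h2 : x ^ (2 : ℤ) = 1 := by
    have := pow_orderOf_eq_one x
    rw [hx] at this; exact_mod_cast this
  rcases Int.even_or_odd' k with ⟨m, rfl | rfl⟩
  · left; rw [zpow_mul, h2, one_zpow]
  · right; rw [zpow_add, zpow_mul, h2, one_zpow, one_mul, zpow_one]

/-- Blocks of defect one for p = 2. Let M be a maximal ideal of the algebraic integers containing 2, B a 2-block of the finite group G whose defect group is the subgroup generated by an involution x, C = C_G(x), b a block of C inducing B and θ a member of b taking the same value at x as at 1 (there is exactly one). Then B consists of exactly two irreducible characters, which agree on every element of odd order, and they can be labelled χ₁, χ₂ with signs ε₁, ε₂ = ±1, ε₁ε₂ = −1, such that χᵢ(x y) = εᵢ θ(y) for every element y of C of odd order. -/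
theorem result {G : Type*} [Group G] [Finite G] (M : Ideal Cfsg.AlgInt) (hM : Cfsg.IsPModular 2 M) (x : G) (hx : orderOf x = 2)
    (B : Set (Cfsg.IrrCharacter G)) (hB : Cfsg.IsPBlock M B) (hBD : Cfsg.IsDefectGroup 2 M B (Subgroup.zpowers x))
    (b : Set (Cfsg.IrrCharacter ↥(Subgroup.centralizer ({x} : Set G)))) (hb : Cfsg.IsInducedBlock M (Subgroup.centralizer ({x} : Set G)) b B)
    (θ : Cfsg.IrrCharacter ↥(Subgroup.centralizer ({x} : Set G))) (hθ : θ ∈ b)
    (hθx : ∀ z : ↥(Subgroup.centralizer ({x} : Set G)), (z : G) = x → (θ : ↥(Subgroup.centralizer ({x} : Set G)) → ℂ) z = (θ : ↥(Subgroup.centralizer ({x} : Set G)) → ℂ) 1) :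
    Nat.card B = 2 ∧ (∀ χ ∈ B, ∀ ψ ∈ B, ∀ g : G, ¬ 2 ∣ orderOf g → (χ : G → ℂ) g = (ψ : G → ℂ) g) ∧
      ∃ χ₁ ∈ B, ∃ χ₂ ∈ B, χ₁ ≠ χ₂ ∧ ∃ ε₁ ε₂ : ℤ, (ε₁ = 1 ∨ ε₁ = -1) ∧ (ε₂ = 1 ∨ ε₂ = -1) ∧ ε₁ * ε₂ = -1 ∧
        ∀ y : ↥(Subgroup.centralizer ({x} : Set G)), ¬ 2 ∣ orderOf y →
          (χ₁ : G → ℂ) (x * y) = (ε₁ : ℂ) * (θ : ↥(Subgroup.centralizer ({x} : Set G)) → ℂ) y ∧ (χ₂ : G → ℂ) (x * y) = (ε₂ : ℂ) * (θ : ↥(Subgroup.centralizer ({x} : Set G)) → ℂ) y := by
  classical
  have := Fintype.ofFinite G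
  let C := centralizer ({x} : Set G)
  have hx' : ∃ k, orderOf x = 2 ^ k := ⟨1, by simpa using hx⟩
  have hx1 := CL.Inv.ne_one_of_orderOf_two hx
  have hs := isSec_centralizer hx'
  have hBu := isBlockUnion_of_block hM hB
  have hbb := ((isInducedBlock_iff hM).1 hb).1
  have hCN : C = normalizer (zpowers x : Set G) := by
    refine le_antisymm (fun g hg => centralizer_le_normalizer _ ?_) fun g hg => ?_
    · refine mem_centralizer_iff.2 fun y hy => ?_
      rcases mem_zp hx hy with rfl | rfl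
      · simp
      · exact (mem_centralizer_singleton_iff.1 hg).symm
    · have h1 := (mem_set_normalizer_iff.1 hg x).1 (mem_zpowers x)
      rcases mem_zp hx h1 with h | h
      · exact absurd (by simpa using h) hx1
      · exact mem_centralizer_singleton_iff.2 (mul_inv_eq_iff_eq_mul.1 h)
  have hDC : zpowers x ≤ C := zpowers_le.2 (self_mem_centralizer_singleton x)
  have hdef : IsDef 2 (eB M b) ((zpowers x).comap C.subtype) :=
    isDef_comap_of_indAlong hM.1 (natCast_F hM) (subtype_injective C) (by rwa [range_subtype])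
      (by rw [range_subtype, ← hCN]) (isBlk_eB hM hbb) (isBlk_eB hM hB) (hBD.isDef hM hB)
      (hb.indAlong hM)
  have hloc : locSet M C.subtype B = b := by
    refine Set.Subset.antisymm (fun ψ hψ => ?_)
      ((subset_locSet_iff_isInducedBlock hM hx' rfl hB hbb).2 hb)
    have h1 := (isBlockUnion_locSet hM C.subtype B).block_subset hM (isPBlock_blockOf ψ)
      (mem_blockOf_self hM ψ) hψ
    have h2 := (subset_locSet_iff_isInducedBlock hM hx' rfl hB (isPBlock_blockOf ψ)).1 h1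
    have h3 := first_main_inj hM.1 (natCast_F hM) (subtype_injective C)
      (by rw [range_subtype, ← hCN]) hBD.isPGroup (isBlk_eB hM hbb) hdef
      (isBlk_eB hM (isPBlock_blockOf ψ)) (hb.indAlong hM) (h2.indAlong hM)
    rw [eq_of_eB_eq hM hbb (isPBlock_blockOf ψ) h3]
    exact mem_blockOf_self hM ψ
  let D : Subgroup C := (zpowers x).comap C.subtype
  have hbD : IsDefectGroup 2 M b D := (isDefectGroup_iff hM hbb).2 hdef
  let z : C := ⟨x, self_mem_centralizer_singleton x⟩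
  have hDm : ∀ y ∈ D, y = 1 ∨ y = z := fun y hy => by
    rcases mem_zp hx hy with h | h
    · exact Or.inl (Subtype.ext h)
    · exact Or.inr (Subtype.ext h)
  have hzD : z ∈ D := mem_zpowers x
  have hDZ : D ≤ center C := fun y hy => by
    rcases hDm y hy with rfl | rfl
    · exact one_mem _
    · exact hs.mem_center
  have hsup := sup_centralizer_of_le_center hDZ
  have hθk : θ ∈ kerSet D := mem_kerSet.2 fun y hy => by
    rcases hDm y hy with rfl | rfl
    · rfl
    · exact hθx _ rfl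
  have hDc : ∀ a b : D, a * b = b * a := fun a b =>
    Subtype.ext (mem_center_iff.1 (hDZ b.2) a)
  have hcD : Nat.card D = 2 := by
    rw [← hx, ← Nat.card_zpowers]
    exact Nat.card_congr (subgroupOfEquivOfLe hDC).toEquiv
  choose ζ hζ using fun (ψ : IrrCharacter C) (hψ : ψ ∈ b) =>
    exists_irr_of_mem_of_sup hM hsup hbb hbD hθ hθk hψ
  have hreg : ∀ ψ ∈ b, ψ.1 1 = θ.1 1 := fun ψ hψ => by
    have := hζ ψ hψ 1 1 (not_dvd_orderOf_one hM.1)
    rwa [(ζ ψ hψ).2.one_eq_one_of_comm hDc, one_mul, OneMemClass.coe_one, one_mul] at this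
  have hd : ∀ χ ∈ B, ∃ d : ℤ, ∀ s : C, ¬ 2 ∣ orderOf s → χ.1 (x * s) = d * θ.1 s := by
    intro χ hχ
    have h1 : ∀ ψ : IrrCharacter C, ∃ n : ℤ, ∀ hψ : ψ ∈ b,
        classInner (fun c : C => χ.1 c) ψ.1 * (ζ ψ hψ).1 ⟨z, hzD⟩ = n := by
      intro ψ
      by_cases hψ : ψ ∈ b
      · obtain ⟨m, hm⟩ := (χ.2.isCharacter.res C).isGen.exists_int_inner ψ.2.isGen
        obtain ⟨n, hn⟩ := (ζ ψ hψ).2.isGen.exists_int_of_mul_self (g := ⟨z, hzD⟩)
          (Subtype.ext (Subtype.ext (CL.Inv.mul_self_of_orderOf_two hx)))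
        exact ⟨m * n, fun _ => by rw [hm, hn]; push_cast; rfl⟩
      · exact ⟨0, fun h => absurd h hψ⟩
    choose n hn using h1
    refine ⟨∑ ψ with ψ ∈ b, n ψ, fun s hs' => ?_⟩
    have h2 := hs.blockPart_locSet_sh_of_mem hM hBu hχ hs'
    rw [hloc] at h2
    have h3 := blockPart_shift b (χ.2.isClassFunction.res C) hs.mem_center s
    refine (h2.symm.trans h3).trans ?_
    rw [blockPart_apply_sum]
    push_cast
    rw [Finset.sum_mul]
    refine Finset.sum_congr rfl fun ψ hψ => ?_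
    have hψ' := (Finset.mem_filter.1 hψ).2
    rw [← hn ψ hψ', mul_assoc, ← hζ ψ hψ' ⟨z, hzD⟩ s hs']
  choose! d hd using hd
  have hdx : ∀ χ ∈ B, χ.1 x = d χ * θ.1 1 := fun χ hχ => by
    simpa using hd χ hχ 1 (not_dvd_orderOf_one hM.1)
  have hθ0 := θ.2.one_ne_zero
  have hsum : ∑ χ with χ ∈ B, d χ ^ 2 = 2 := by
    have h1 := hs.column hM hBu (not_dvd_orderOf_one hM.1) (not_dvd_orderOf_one hM.1)
    have h4 : ∑ ψ with ψ ∈ b, ψ.1 1 * conj (ψ.1 1) = 2 * θ.1 1 ^ 2 := by
      have h2 : Nat.card {ψ // ψ ∈ b} = 2 := by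
        have := card_block_of_sup hM hsup hbb hbD
        rw [← CL.Char.card_irr, CL.Char.card_irr_of_comm hDc, hcD] at this
        exact this
      rw [Finset.sum_congr rfl (g := fun _ => θ.1 1 ^ 2), Finset.sum_const,
        ← Fintype.card_subtype, ← Nat.card_eq_fintype_card, nsmul_eq_mul, h2, Nat.cast_ofNat]
      intro ψ hψ
      rw [hreg ψ (Finset.mem_filter.1 hψ).2, θ.2.isCharacter.conj_one, sq]
    rw [hloc, h4, Finset.sum_congr rfl (g := fun χ => (d χ : ℂ) ^ 2 * θ.1 1 ^ 2),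
      ← Finset.sum_mul] at h1
    · have h3 := mul_right_cancel₀ (pow_ne_zero 2 hθ0) h1
      exact_mod_cast h3
    · intro χ hχ
      simp only [mul_one, coe_subtype]
      rw [hdx χ (Finset.mem_filter.1 hχ).2, map_mul, map_intCast, θ.2.isCharacter.conj_one]; ring
  have hd0 : ∀ χ ∈ B, d χ ≠ 0 := by
    intro χ hχ h0
    have h1 : DefZero 2 χ := by
      refine defZero_of_vanish hM.1 fun g hg => ?_
      obtain ⟨y, hy⟩ := exists_isPPart hM.1 g
      by_cases h : ∃ u : G, u * y * u⁻¹ ∈ zpowers x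
      · obtain ⟨u, hu⟩ := h
        have h2 := hy.conj u
        rcases mem_zp hx hu with h | h
        · have : y = 1 := by simpa using h
          exact absurd hg ((hy.eq_one_iff hM.1).1 this)
        · rw [h] at h2
          obtain ⟨c, hc, h3⟩ := hs.exists_of_isPPart h2
          rw [← χ.2.isClassFunction g u, ← h3]
          have := hd χ hχ c hc
          rw [h0] at this
          simpa using this
      · exact irr_eq_zero_of_not_conj_mem hM hB hBD hχ hy fun u hu => h ⟨u, hu⟩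
    have h2 := hBD.card_eq_pow hM hB
    rw [h1.blockDefect_eq_zero hM hB hχ, Nat.card_zpowers, hx] at h2
    norm_num at h2
  have hpm : ∀ χ ∈ B, d χ = 1 ∨ d χ = -1 := fun χ hχ => by
    have h3 : d χ ^ 2 ≤ 2 := hsum ▸ Finset.single_le_sum (f := fun χ => d χ ^ 2)
      (fun _ _ => sq_nonneg _) (Finset.mem_filter.2 ⟨Finset.mem_univ _, hχ⟩)
    have h0 := hd0 χ hχ
    have : -2 < d χ := by nlinarith
    have : d χ < 2 := by nlinarith
    omega
  have hcard : (Finset.univ.filter (· ∈ B)).card = 2 := by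
    rw [Finset.sum_congr rfl (g := fun _ => (1 : ℤ)) (fun χ hχ => by
      rcases hpm χ (Finset.mem_filter.1 hχ).2 with h | h <;> simp [h])] at hsum
    simp only [Finset.sum_const, nsmul_eq_mul, mul_one] at hsum
    exact_mod_cast hsum
  obtain ⟨χ₁, χ₂, hne, h12⟩ := Finset.card_eq_two.1 hcard
  have hmem : ∀ χ, χ ∈ B ↔ χ = χ₁ ∨ χ = χ₂ := fun χ => by
    have : χ ∈ Finset.univ.filter (· ∈ B) ↔ χ ∈ ({χ₁, χ₂} : Finset _) := by rw [h12]
    simpa using this
  have h1B := (hmem χ₁).2 (Or.inl rfl)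
  have h2B := (hmem χ₂).2 (Or.inr rfl)
  have hrel : ∀ g, ¬ 2 ∣ orderOf g → d χ₁ * χ₁.1 g + d χ₂ * χ₂.1 g = 0 := fun g hg => by
    have h1 := weak_orth_of_int hM (blockCoeff_mem_V hM hB) hg (y := x) (by rw [hx])
    rw [h12, Finset.sum_pair hne, hdx _ h1B, hdx _ h2B] at h1
    simp only [map_mul, map_intCast, θ.2.isCharacter.conj_one] at h1
    exact mul_right_cancel₀ hθ0 (by linear_combination h1)
  have hsign : d χ₁ * d χ₂ = -1 := by
    have h1 := hrel 1 (not_dvd_orderOf_one hM.1)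
    rw [irr_one_eq, irr_one_eq] at h1
    have h2 : d χ₁ * (charDegree χ₁.1 : ℤ) + d χ₂ * (charDegree χ₂.1 : ℤ) = 0 := by
      exact_mod_cast h1
    have h3 := χ₁.2.charDegree_pos
    have h4 := χ₂.2.charDegree_pos
    rcases hpm _ h1B with h | h <;> rcases hpm _ h2B with h' | h' <;> rw [h, h'] at h2 ⊢ <;> omega
  have heq : ∀ g, ¬ 2 ∣ orderOf g → χ₁.1 g = χ₂.1 g := fun g hg => by
    have h1 := hrel g hg
    rcases hpm _ h1B with h | h <;> rcases hpm _ h2B with h' | h' <;> rw [h, h'] at h1 hsign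
    · omega
    · push_cast at h1; linear_combination h1
    · push_cast at h1; linear_combination -h1
    · omega
  refine ⟨?_, fun χ hχ ψ hψ g hg => ?_, χ₁, h1B, χ₂, h2B, hne, d χ₁, d χ₂, hpm _ h1B, hpm _ h2B,
    hsign, fun y hy => ⟨hd _ h1B y hy, hd _ h2B y hy⟩⟩
  · rw [← hcard, ← Fintype.card_subtype, ← Nat.card_eq_fintype_card]
  · rcases (hmem χ).1 hχ with rfl | rfl <;> rcases (hmem ψ).1 hψ with rfl | rfl
    · rfl
    · exact heq g hg
    · exact (heq g hg).symm
    · rfl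

end Cfsg.Agent.S4513
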