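import Cfsg.Statements.S4634
import Cfsg.Agent.BLK.CycStar
import Cfsg.Agent.BLK.PrincCol

set_option autoImplicit false
open Cfsg

namespace Cfsg.Agent.S4634

open CL.Blk CL.Char in
theorem two_sq_le {G : Type*} [Group G] [Finite G] (N : Subgroup G) [N.Normal]
    {η η' : IrrCharacter G} (h : η ∉ kerSet N) (h' : η' ∉ kerSet N) (hne : η ≠ η') :
    charDegree η.1 ^ 2 + charDegree η'.1 ^ 2 + N.index ≤ Nat.card G := by
  classical
  have h1 := congrArg (·.coeff 1) (blockIdem_kerSet N)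
  simp only [coeff_blockIdem, coeff_avgI, if_pos N.one_mem, blockCoeff_eq_sum', irr_one_eq,
    map_natCast, ← sq] at h1
  have h2 : ∑ χ with χ ∈ kerSet N, charDegree χ.1 ^ 2 = N.index := by
    rw [inv_mul_eq_iff_eq_mul₀ (card_ne_zero G), ← N.index_mul_card, Nat.cast_mul,
      mul_inv_cancel_right₀ (card_ne_zero N)] at h1
    exact_mod_cast h1
  have h3 : ∑ χ : IrrCharacter G, charDegree χ.1 ^ 2 = Nat.card G := by
    have := sum_degree_sq (G := G)
    simp only [irr_one_eq] at this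
    exact_mod_cast this
  rw [← h3, ← h2, ← Finset.sum_pair (f := fun χ : IrrCharacter G => charDegree χ.1 ^ 2) hne,
    ← Finset.sum_union (by simp [h, h'])]
  exact Finset.sum_le_sum_of_subset (Finset.subset_univ _)

open CL.Blk CL.Char in
theorem degree_of_const {G : Type*} [Group G] [Finite G] (N : Subgroup G) [N.Normal]
    {η : IrrCharacter G} (h : η ∉ kerSet N) {a : ℤ} (ha : a = 1 ∨ a = -1)
    (h1 : ∀ x ∈ N, x ≠ 1 → η.1 x = -a) : charDegree η.1 + 1 = Nat.card N := by
  classical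
  have := Fintype.ofFinite N
  have h2 := blockPart_kerSet (N := N) η.2.isCharacter.isClassFunction 1
  rw [blockPart_irr_of_notMem h, ← Finset.add_sum_erase _ _ (Finset.mem_univ 1),
    Finset.sum_congr rfl (g := fun _ => -(a : ℂ)) fun x hx => by
      rw [mul_one, h1 x x.2 fun b => Finset.ne_of_mem_erase hx (Subtype.ext b)],
    Finset.sum_const, Finset.card_erase_of_mem (Finset.mem_univ _), Finset.card_univ,
    ← Nat.card_eq_fintype_card, Pi.zero_apply, eq_comm, mul_eq_zero,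
    or_iff_right (inv_ne_zero (card_ne_zero N)), OneMemClass.coe_one, mul_one, irr_one_eq] at h2
  have h3 : (charDegree η.1 : ℤ) + (Nat.card N - 1 : ℕ) * -a = 0 := by
    rw [nsmul_eq_mul] at h2
    exact_mod_cast h2
  have := charDegree_pos η
  have := Nat.card_pos (α := N)
  rcases ha with rfl | rfl <;> omega


/-- Let B be a block of the finite group G relative to a maximal ideal M of the algebraic integers containing the prime p, with a nontrivial cyclic defect group P, let c be a block of C_G(P) inducing B, T the stabilizer of c in N_G(P) and e the index of C_G(P) in T. Let F be any finite group of order #P · e having a cyclic subgroup Q of order #P that is its own centralizer (F is then the semidirect product of Q by a cyclic group of order e acting faithfully). Then there is a perfect isometry from the set of all irreducible characters of F onto B whose signs agree on all the characters of F that do not contain Q in their kernel. -/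
theorem result {G : Type*} [Group G] [Finite G] (p : ℕ) [Fact p.Prime] (M : Ideal Cfsg.AlgInt) (hM : Cfsg.IsPModular p M) (B : Set (Cfsg.IrrCharacter G)) (hB : Cfsg.IsPBlock M B) (P : Subgroup G) (hPD : Cfsg.IsDefectGroup p M B P) (hP1 : P ≠ ⊥) (hcyc : IsCyclic P) (c : Set (Cfsg.IrrCharacter (Subgroup.centralizer (P : Set G)))) (hc : Cfsg.IsInducedBlock M (Subgroup.centralizer (P : Set G)) c B) (T : Subgroup G) (hT : ∀ g : G, g ∈ T ↔ (g ∈ Subgroup.normalizer (P : Set G) ∧ Cfsg.StabilizesBlock (Subgroup.centralizer (P : Set G)) c g)) (e : ℕ) (he : (Subgroup.centralizer (P : Set G)).relIndex T = e) (F : Type*) [Group F] [Finite F] (hF : Nat.card F = Nat.card P * e) (Q : Subgroup F) (hQ : IsCyclic Q) (hQcard : Nat.card Q = Nat.card P) (hQC : Subgroup.centralizer (Q : Set F) = Q) : ∃ (I : Cfsg.IrrCharacter F → Cfsg.IrrCharacter G) (ε : Cfsg.IrrCharacter F → ℤ), Cfsg.IsPerfectIsometry p M (Set.univ : Set (Cfsg.IrrCharacter F)) B I ε ∧ ∀ η η' : Cfsg.IrrCharacter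 F, (∃ x ∈ Q, (η : F → ℂ) x ≠ (η : F → ℂ) 1) → (∃ x ∈ Q, (η' : F → ℂ) x ≠ (η' : F → ℂ) 1) → ε η = ε η' := by
  classical
  have := Fintype.ofFinite G
  have := Fintype.ofFinite F
  have hp := hM.1
  have hP := ((CL.Blk.isDefectGroup_iff_sDef_top hM hB).1 hPD).pgroup
  obtain ⟨Z, hZ, hZc⟩ := CL.Cyc.exists_le_card_eq hp hP hP1
  obtain ⟨-, hc1, hr⟩ := (CL.Blk.isInducedBlock_iff_relPair hM hP).1 hc
  obtain ⟨c₁, h⟩ := CL.Cyc.exists_setup_of_le hM hB hr hPD hcyc hZ hZc
  obtain ⟨θ₀, l⟩ := h.exists_loc'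
  rw [show CL.Blk.pairStab P _ = T from (CL.Blk.eq_pairStab hM hc1 hT).symm, he] at l
  have hi : Q.index = e := Nat.eq_of_mul_eq_mul_left Nat.card_pos
    (by rw [Q.card_mul_index, hF, hQcard])
  have hQp : IsPGroup p Q := by
    obtain ⟨n, hn⟩ := hP.exists_card_eq
    exact IsPGroup.of_card (hQcard.trans hn)
  have hle := Nat.le_of_dvd (by have := hp.two_le; omega) l.e_dvd
  let S := hQp.toSylow (hi ▸ l.not_dvd_e)
  have hN : Q.Normal := by
    have h1 := card_sylow_modEq_one p F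
    have h2 := Nat.le_of_dvd (hi ▸ l.e_pos) S.card_dvd_index
    have h3 : Nat.card (Sylow p F) = 1 := h1.eq_of_lt_of_lt (by
      have := hp.two_le
      change _ ≤ Q.index at h2
      omega) hp.one_lt
    have := (Nat.card_eq_one_iff_unique.1 h3).1
    exact S.normal_of_subsingleton
  have hU : principalBlock M F = Set.univ := Set.eq_univ_of_forall fun χ =>
    CL.Blk.mem_principalBlock_iff.2 (CL.Blk.sameBlock_of_centralizer hM hQp (fun g hg h1 => by
      obtain ⟨k, hk⟩ := IsPGroup.iff_orderOf.1 hQp ⟨g, hQC ▸ hg⟩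
      rw [← Subgroup.orderOf_coe] at hk
      rcases k with _ | k
      · exact orderOf_eq_one_iff.1 hk
      · exact (h1 (hk ▸ dvd_pow_self p k.succ_ne_zero)).elim) _ _)
  obtain ⟨Z', hZ', hZc'⟩ := CL.Cyc.exists_le_card_eq hp hQp fun a => hP1
    (Subgroup.card_eq_one.1 (by rw [← hQcard, a, Subgroup.card_bot]))
  obtain ⟨c', h'⟩ := CL.Cyc.exists_setup_of_le hM CL.Blk.isPBlock_principalBlock
    (CL.Blk.relPair_pb hM hQp) ((CL.Blk.isDefectGroup_principal_iff hM).2 ⟨S, rfl⟩) hQ hZ' hZc'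
  have hS := (CL.Blk.pairStab_pb hM Q).trans (Subgroup.normalizer_eq_top Q)
  have hC : Subgroup.centralizer (Z' : Set F) = Q :=
    le_antisymm (fun x hx => hQC.le (h'.mem_cent_D hx (hS ▸ Subgroup.mem_top x))) h'.D_le
  obtain ⟨θ₁, l'⟩ := h'.exists_loc'
  rw [hS, hQC, Subgroup.relIndex_top_right, hi] at l'
  have hCp : IsPGroup p (Subgroup.centralizer (Z' : Set F)) := hC.symm ▸ hQp
  have hCc : IsCyclic (Subgroup.centralizer (Z' : Set F)) := hC.symm ▸ hQ
  have hc' : c' = Set.univ := CL.Blk.block_eq_of_mem hM h'.blkc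
    (CL.Blk.principal_eq_univ_of_isPGroup hM hCp ▸ CL.Blk.isPBlock_principalBlock) l'.mem trivial
  replace l' := l'.of_fixed (θ₁ := CL.Blk.irrOne _) (hc' ▸ trivial) fun _ _ => rfl
  obtain ⟨τ, A, h1, h2, h3, h4, h5, h6⟩ := l.exists_star
    (mulEquivOfCyclicCardEq (G := Subgroup.centralizer (Z' : Set F)) (by rw [hC, hQcard]))
  have hZN : Subgroup.normalizer (Z' : Set F) = ⊤ :=
    top_le_iff.1 ((Subgroup.normalizer_eq_top Q).ge.trans h'.normalizer_le)
  have h7 : Nat.card (CL.Cyc.cjHom Z').range = e :=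
    (CL.Cyc.card_range_aut _).trans (by rw [hZN, hC, hQC, Subgroup.relIndex_top_right, hi])
  have hA : (CL.Cyc.cjHom Z').range = A :=
    CL.Cyc.aut_eq hp hCc hCp (h7.trans h1.symm) (h7 ▸ l.e_dvd)
  have m : CL.Cyc.Match c' c₁ (CL.Blk.irrOne _) θ₀ τ := ⟨hc' ▸ h2, h3, fun θ _ θ' _ => by
    rw [← h4, ← hA]
    exact ⟨fun ⟨n, a⟩ => ⟨_, ⟨n⁻¹, rfl⟩, fun x => a ▸ CL.Cyc.smul_irr_apply n θ' x⟩,
      fun ⟨_, ⟨n, rfl⟩, a⟩ => ⟨n⁻¹, Subtype.ext (funext fun x => by
        rw [CL.Cyc.smul_irr_apply, inv_inv, a])⟩⟩⟩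
  obtain ⟨X, ψ, δ, ε, s⟩ := l.exists_str
  obtain ⟨X', ψ', δ', ε', s'⟩ := l'.exists_str
  obtain ⟨I, η, h8, h9⟩ := m.exists_perfect l' l s s' (by simpa [hc'] using h5)
    (by simpa [hc'] using h6)
  have key : ∀ χ ∈ X', ∀ χ', χ ∉ CL.Blk.kerSet Q → χ' ∉ CL.Blk.kerSet Q → χ = χ' :=
    fun χ hχ χ' a a' => by
      by_contra b
      have h10 := two_sq_le Q a a' b
      have h11 := degree_of_const Q a (s'.sign χ hχ) fun x hx hx1 => by
        obtain ⟨k, hk⟩ := IsPGroup.iff_orderOf.1 hQp ⟨x, hx⟩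
        rw [← Subgroup.orderOf_coe] at hk
        have := s'.val_X l' hχ (x := x) (hk ▸ dvd_pow_self p fun d => hx1
          (orderOf_eq_one_iff.1 (by rw [hk, d, pow_zero])))
        have hn : (Subgroup.centralizer (Z' : Set F)).Normal := hC.symm ▸ hN
        rw [CL.Char.indFun_coe_of_invariant _ _ (fun _ _ => rfl) ⟨x, hC.ge hx⟩,
          (congrArg Subgroup.index hC).trans hi] at this
        refine mul_left_cancel₀ (Nat.cast_ne_zero.2 l.e_pos.ne') (this.trans ?_)
        change -(_ * (_ * 1)) = _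
        ring
      have h12 := CL.Blk.charDegree_pos χ'
      have h13 := Subgroup.card_le_of_le hZ'
      rw [hF, ← hQcard, hi, ← h11] at h10
      have h14 : e ≤ charDegree χ.1 := by omega
      nlinarith
  refine ⟨I, η, hU ▸ h8, fun χ χ' ⟨x, hx, a⟩ ⟨y, hy, b⟩ => ?_⟩
  have a' : χ ∉ CL.Blk.kerSet Q := fun d => a (d x hx)
  have b' : χ' ∉ CL.Blk.kerSet Q := fun d => b (d y hy)
  by_cases h10 : χ ∈ X'
  · rw [key χ h10 χ' a' b']
  by_cases h11 : χ' ∈ X'
  · rw [key χ' h11 χ b' a']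
  rw [h9 χ h10, h9 χ' h11]

end Cfsg.Agent.S4634
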