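import Cfsg.Statements.S4636


set_option autoImplicit false
open scoped Pointwise
open Cfsg

namespace Cfsg.Agent.S4636

/-- Let P be a nontrivial cyclic p-subgroup of the finite group G and Z its subgroup of order p. For every x outside N_G(Z), P meets its conjugate xPx⁻¹ trivially; consequently N_G(Q) ≤ N_G(Z) for every nontrivial subgroup Q of P. -/
theorem result {G : Type*} [Group G] [Finite G] (p : ℕ) [Fact p.Prime] (P : Subgroup G) (hP : IsPGroup p P) (hP1 : P ≠ ⊥) (hcyc : IsCyclic P) (Z : Subgroup G) (hZ : Z ≤ P) (hZcard : Nat.card Z = p) : (∀ x : G, x ∉ Subgroup.normalizer (Z : Set G) → P ⊓ MulAut.conj x • P = ⊥) ∧ ∀ Q : Subgroup G, Q ≤ P → Q ≠ ⊥ → Subgroup.normalizer (Q : Set G) ≤ Subgroup.normalizer (Z : Set G) := by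
  classical
  have hp : p.Prime := Fact.out
  -- every element of P of order dividing p lies in Z
  have hZmem : ∀ y ∈ P, y ^ p = 1 → y ∈ Z := by
    have := Fintype.ofFinite P
    have h1 : (Finset.univ.filter (fun a : P => a ^ p = 1)).card ≤ p :=
      IsCyclic.card_pow_eq_one_le hp.pos
    have h2 : (Finset.univ.filter (fun a : P => (a : G) ∈ Z)).card = p := by
      rw [← hZcard, ← Nat.card_congr (Subgroup.subgroupOfEquivOfLe hZ).toEquiv]
      rw [Nat.card_eq_fintype_card, Fintype.card_subtype]
      congr 1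
    have h3 : (Finset.univ.filter (fun a : P => (a : G) ∈ Z)) ⊆
        (Finset.univ.filter (fun a : P => a ^ p = 1)) := by
      intro a ha
      simp only [Finset.mem_filter, Finset.mem_univ, true_and] at ha ⊢
      apply Subtype.ext
      have : (⟨a, ha⟩ : Z) ^ p = 1 := by rw [← hZcard]; exact pow_card_eq_one'
      simpa using congrArg Subtype.val this
    have h4 := Finset.eq_of_subset_of_card_le h3 (by omega)
    intro y hy hyp
    have : (⟨y, hy⟩ : P) ∈ (Finset.univ.filter (fun a : P => a ^ p = 1)) := by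
      simp only [Finset.mem_filter, Finset.mem_univ, true_and]
      exact Subtype.ext hyp
    rw [← h4] at this
    simpa using this
  have hZpow : ∀ z ∈ Z, z ^ p = 1 := by
    intro z hz
    have : (⟨z, hz⟩ : Z) ^ p = 1 := by rw [← hZcard]; exact pow_card_eq_one'
    simpa using congrArg Subtype.val this
  -- every nontrivial subgroup of P contains Z
  have hZle : ∀ Q : Subgroup G, Q ≤ P → Q ≠ ⊥ → Z ≤ Q := by
    intro Q hQ hQ1
    have hQp : IsPGroup p Q := hP.to_le hQ
    have : Nontrivial Q := (Subgroup.nontrivial_iff_ne_bot Q).mpr hQ1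
    obtain ⟨n, hn0, hn⟩ := hQp.nontrivial_iff_card.mp this
    have hdvd : p ∣ Nat.card Q := by rw [hn]; exact dvd_pow_self p hn0.ne'
    obtain ⟨y, hy⟩ := exists_prime_orderOf_dvd_card' p hdvd
    have hyZ : (y : G) ∈ Z := hZmem y (hQ y.2) (by
      have : y ^ p = 1 := by rw [← hy]; exact pow_orderOf_eq_one y
      simpa using congrArg Subtype.val this)
    have hle : Subgroup.zpowers (y : G) ≤ Z := Subgroup.zpowers_le.mpr hyZ
    have heq : Subgroup.zpowers (y : G) = Z := by
      apply Subgroup.eq_of_le_of_card_ge hle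
      rw [hZcard, Nat.card_zpowers, Subgroup.orderOf_coe, hy]
    rw [← heq]
    exact Subgroup.zpowers_le.mpr y.2
  have hnorm : ∀ x : G, (∀ z ∈ Z, x⁻¹ * z * x ∈ P) → x ∈ Subgroup.normalizer (Z : Set G) := by
    intro x hx
    rw [← inv_mem_iff]
    apply Subgroup.mem_normalizer_fintype
    intro z hz
    rw [inv_inv]
    apply hZmem _ (hx z hz)
    have : x⁻¹ * z * x = MulAut.conj x⁻¹ z := by simp
    rw [this, ← map_pow, hZpow z hz, map_one]
  have key : ∀ x : G, x ∉ Subgroup.normalizer (Z : Set G) → P ⊓ MulAut.conj x • P = ⊥ := by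
    intro x hx
    by_contra hne
    apply hx
    apply hnorm
    intro z hz
    have := (hZle _ inf_le_left hne hz).2
    change z ∈ MulAut.conj x • P at this
    rw [Subgroup.mem_pointwise_smul_iff_inv_smul_mem] at this
    simpa using this
  refine ⟨key, fun Q hQ hQ1 x hx => ?_⟩
  apply hnorm
  intro z hz
  apply hQ
  have h1 := hZle Q hQ hQ1 hz
  have h2 := (Subgroup.mem_normalizer_iff.mp (inv_mem hx) z).mp h1
  simpa using h2

end Cfsg.Agent.S4636
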