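import Cfsg.Statements.S4640
import Cfsg.Agent.BLK.CoverAb

set_option autoImplicit false
open Cfsg

namespace Cfsg.Agent.S4640

/-- Let N be a normal subgroup of the finite group G of index a power of the prime p, M a maximal ideal of the algebraic integers containing p, b a block of N stabilized by every element of G, and B a block of G covering b (some member of B has a member of b as a constituent of its restriction to N). Suppose that B has a commutative defect group P. Then G = NP and P ∩ N is a defect group of b; every member of B restricts to a member of b; every member of b is the restriction of exactly [G : N] members of B; B contains exactly [G : N] times as many irreducible characters as b; and B and b have the same p-regular rank. -/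
theorem result {G : Type*} [Group G] [Fintype G] (p : ℕ) [Fact p.Prime] (M : Ideal Cfsg.AlgInt) (hM : Cfsg.IsPModular p M) (N : Subgroup G) [N.Normal] [Fintype N] (hNi : ∃ k : ℕ, N.index = p ^ k) (b : Set (Cfsg.IrrCharacter N)) (hb : Cfsg.IsPBlock M b) (hstab : ∀ g : G, Cfsg.StabilizesBlock N b g) (B : Set (Cfsg.IrrCharacter G)) (hB : Cfsg.IsPBlock M B) (hcov : ∃ χ ∈ B, ∃ θ ∈ b, Cfsg.classInner (fun n : N => (χ : G → ℂ) n) (θ : N → ℂ) ≠ 0) (P : Subgroup G) (hPD : Cfsg.IsDefectGroup p M B P) (hPab : ∀ x ∈ P, ∀ y ∈ P, x * y = y * x) : N ⊔ P = ⊤ ∧ Cfsg.IsDefectGroup p M b ((P ⊓ N).subgroupOf N) ∧ (∀ χ ∈ B, ∃ θ ∈ b, ∀ n : N, (χ : G → ℂ) n = (θ : N → ℂ) n) ∧ (∀ θ ∈ b, Nat.card {χ : Cfsg.IrrCharacter G // χ ∈ B ∧ ∀ n : N, (χ : G → ℂ) n = (θ : N → ℂ) n} = N.index) ∧ Nat.card B = N.index * Nat.card b ∧ Cfsg.blockRank p B = Cfsg.blockRank p b := by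
  classical
  obtain ⟨k, hk⟩ := hNi
  have hk' := hk
  rw [← Subgroup.relIndex_top_right] at hk'
  have hst : ∀ x : G, CL.Blk.cjN N x (CL.Blk.eB M b) = CL.Blk.eB M b := fun x =>
    (CL.Blk.stabilizesBlock_iff_cjN hM hb x).1 (hstab x)
  have hf : CL.Blk.IsFixed ⊤ (CL.Blk.sb M N b) := CL.Blk.isFixed_iff_cj.2 fun x _ =>
    (CL.Blk.cj_sb_eq_iff b x).2 (hst x)
  have hsb := CL.Blk.isSB_sb hM hb
  have h1 := hsb.of_fixed_of_relIndex hM le_top Subgroup.le_normalizer_of_normal hk' hf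
  have hc := (CL.Blk.covF_eB_iff hM hB hb).2 hcov
  have huniq : ∀ B', IsPBlock M B' → CL.Blk.CovF N (CL.Blk.eB M B') (CL.Blk.eB M b) → B' = B :=
    fun B' hB' h => CL.Blk.block_eq_of_covF_of_index_pow hM hk hB' hB hb h hc
  obtain ⟨B', hB', h2⟩ := h1.exists_block_top hM
  have h3 : B' = B := huniq B' hB' (by
    change CL.Blk.eB M B' * CL.Blk.sb M N b ≠ 0
    rw [← h2, hsb.idem]; exact hsb.ne_zero)
  subst h3
  have h4 := (CL.Blk.isDefectGroup_iff_sDef_top hM hB).1 hPD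
  rw [← h2] at h4
  have hsup : N ⊔ P = ⊤ := h4.sup_eq_of_relIndex hM.1 (CL.Blk.natCast_F hM) hsb le_top
    Subgroup.le_normalizer_of_normal hk' hf
  have hcomm := CL.Blk.commutator_le_of_sup_eq_top hsup hPab
  have hirr : ∀ χ ∈ B', IsIrrCharacter N fun n : N => χ.1 n := fun χ hχ =>
    CL.Blk.res_irr_of_abelian_defect hM hB hPD hPab hk hsup hχ
  have hres : ∀ χ ∈ B', ∀ θ : IrrCharacter N, classInner (fun n : N => χ.1 n) θ.1 ≠ 0 →
      ∀ n : N, χ.1 n = θ.1 n := fun χ hχ θ h =>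
    congrFun ((hirr χ hχ).eq_of_inner_ne_zero θ.2 h)
  have hA : ∀ χ ∈ B', ∃ θ ∈ b, ∀ n : N, χ.1 n = θ.1 n := fun χ hχ => by
    obtain ⟨θ, hθ, h⟩ := CL.Blk.exists_under_of_covF hM hB hb hc hχ
    exact ⟨θ, hθ, hres χ hχ θ h⟩
  have hB2 : ∀ θ ∈ b, ∃ χ ∈ B', ∀ n : N, χ.1 n = θ.1 n := fun θ hθ => by
    obtain ⟨χ, hχ, h⟩ := CL.Blk.exists_over_of_covF hM (CL.Blk.isBlockUnion_of_block hM hB) hb hc hθ
    exact ⟨χ, hχ, hres χ hχ θ h⟩
  have hmem : ∀ θ ∈ b, ∀ ψ : IrrCharacter G, (∀ n : N, ψ.1 n = θ.1 n) → ψ ∈ B' := fun θ hθ ψ h => by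
    rw [← huniq _ (CL.Blk.isPBlock_blockOf ψ) ((CL.Blk.covF_eB_iff hM (CL.Blk.isPBlock_blockOf ψ) hb).2
      ⟨ψ, CL.Blk.mem_blockOf_self hM ψ, θ, hθ, by
        rw [funext h, θ.2.inner_self]; exact one_ne_zero⟩)]
    exact CL.Blk.mem_blockOf_self hM ψ
  have hC : ∀ θ ∈ b, Nat.card {χ : IrrCharacter G // χ ∈ B' ∧ ∀ n : N, χ.1 n = θ.1 n} = N.index :=
    fun θ hθ => by
      obtain ⟨χ, hχ, h⟩ := hB2 θ hθ
      rw [← CL.Blk.card_ext_eq_index hcomm (hirr χ hχ)]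
      refine Nat.card_congr (Equiv.subtypeEquivRight fun ψ => ⟨fun h' n => ?_, fun h' => ?_⟩)
      · rw [h'.2, h]
      · have h5 : ∀ n : N, ψ.1 n = θ.1 n := fun n => by rw [h', h]
        exact ⟨hmem θ hθ ψ h5, h5⟩
  refine ⟨hsup, ?_, hA, hC, ?_, CL.Blk.blockRank_eq_of_res
    (fun g hg => CL.Blk.mem_of_index_pow_of_not_dvd hM.1 hk hg) hA hB2⟩
  · refine (CL.Blk.isDefectGroup_subgroupOf_iff hM hb inf_le_right).2 ?_
    exact h4.inf_of_fixed hM.1 (CL.Blk.natCast_F hM) h1 hsb le_top Subgroup.le_normalizer_of_normal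
      (by rw [hsb.idem]; exact hsb.ne_zero) hf
  · choose r hr hr' using fun χ : B' => hA χ.1 χ.2
    let R : B' → b := fun χ => ⟨r χ, hr χ⟩
    have := Fintype.ofFinite b
    rw [← Nat.card_congr (Equiv.sigmaFiberEquiv R), Nat.card_sigma,
      Finset.sum_congr rfl (g := fun _ => N.index), Finset.sum_const, Finset.card_univ,
      smul_eq_mul, Nat.card_eq_fintype_card, mul_comm]
    intro θ _
    rw [← hC θ.1 θ.2]
    refine Nat.card_eq_of_bijective (fun χ => ⟨χ.1.1, χ.1.2, fun n => by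
      rw [hr']; exact congrFun (congrArg (fun x : b => x.1.1) χ.2) n⟩) ⟨?_, ?_⟩
    · intro a c h
      exact Subtype.ext (Subtype.ext (Subtype.mk.inj h))
    · rintro ⟨χ, hχ, h⟩
      refine ⟨⟨⟨χ, hχ⟩, Subtype.ext (Subtype.ext (funext fun n => ?_))⟩, rfl⟩
      rw [← h]; exact (hr' ⟨χ, hχ⟩ n).symm

end Cfsg.Agent.S4640
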