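import Cfsg.Statements.S4641
import Cfsg.Agent.BLK.IBr

set_option autoImplicit false
open Cfsg

namespace Cfsg.Agent.S4641

open CL.Blk CL.Char

/-- Let B be a block of the finite group G relative to a maximal ideal M of the algebraic integers containing the prime p, let p^a be the p-part of the order of G and p^d the order of a defect group D of B, and let g be the greatest common divisor of the degrees of the members of B. Then the p-part of g is exactly p^(a−d), and writing g = p^(a−d)·u there is a positive integer v, prime to p and at least the p-regular rank of B (its number of irreducible Brauer characters), with Σ_{χ ∈ B} χ(1)² = p^(2a−d)·u²·v. -/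
theorem result {G : Type*} [Group G] [Finite G] (p : ℕ) [Fact p.Prime] (M : Ideal Cfsg.AlgInt) (hM : Cfsg.IsPModular p M) (B : Set (Cfsg.IrrCharacter G)) (hB : Cfsg.IsPBlock M B) (D : Subgroup G) (hD : Cfsg.IsDefectGroup p M B D) (a d : ℕ) (ha : (Nat.card G).factorization p = a) (hd : Nat.card D = p ^ d) (g : ℕ) (hg1 : ∀ χ ∈ B, g ∣ Cfsg.charDegree (χ : G → ℂ)) (hg2 : ∀ g' : ℕ, (∀ χ ∈ B, g' ∣ Cfsg.charDegree (χ : G → ℂ)) → g' ∣ g) : g.factorization p = a - d ∧ ∃ v : ℕ, 0 < v ∧ ¬ p ∣ v ∧ Cfsg.blockRank p B ≤ v ∧ ∑ᶠ χ ∈ B, Cfsg.charDegree (χ : G → ℂ) ^ 2 = p ^ (2 * a - d) * (g / p ^ (a - d)) ^ 2 * v := by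
  classical
  have hp := hM.1
  have hne := block_nonempty hM hB
  have hdd : d = Cfsg.blockDefect p B := Nat.pow_right_injective hp.two_le
    (hd.symm.trans (hD.card_eq_pow hM hB))
  have hmv := minVal_add_blockDefect p hne
  have had : a - d = minVal p B := by omega
  obtain ⟨χ, hχ, h0⟩ := exists_eq_minVal p hne
  have hg0 : g ≠ 0 := fun h => charDegree_ne_zero χ (by simpa [h] using hg1 χ hχ)
  have h1 : p ^ minVal p B ∣ g := hg2 _ fun ψ hψ => pow_minVal_dvd hψ
  have h2 : g.factorization p = minVal p B := le_antisymm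
    (h0 ▸ (Nat.factorization_le_iff_dvd hg0 (charDegree_ne_zero χ)).2 (hg1 χ hχ) p)
    ((hp.pow_dvd_iff_le_factorization hg0).1 h1)
  refine ⟨h2.trans had.symm, ?_⟩
  obtain ⟨u, rfl⟩ := h1
  have hu : ¬ p ∣ u := fun h => by
    have := (hp.pow_dvd_iff_le_factorization hg0).1 (pow_succ p _ ▸ Nat.mul_dvd_mul_left _ h)
    omega
  rw [had, Nat.mul_div_cancel_left _ (pow_pos hp.pos _), show 2 * a - d = a + minVal p B by omega]
  obtain ⟨S, hS⟩ := exists_isBrauer hM (isBlockUnion_of_block hM hB)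
  have h3 : ∀ i, ∃ x : ℤ, S.deg i = (p ^ minVal p B * u : ℕ) * x := fun i =>
    S.dvd_deg (fun ψ hψ => Int.natCast_dvd_natCast.2 (hg1 ψ hψ)) i
  have h4 : ∀ i, ∃ y : ℤ, S.pdeg i = p ^ a * u * y := fun i =>
    IsCoprime.mul_dvd (IsCoprime.pow_left (Nat.isCoprime_iff_coprime.2
      ((Nat.Prime.coprime_iff_not_dvd hp).2 hu))) (ha ▸ S.pow_dvd_pdeg hp i)
      (Finset.dvd_sum fun ψ _ => by
        by_cases hψ : ψ ∈ B
        · exact (Int.natCast_dvd_natCast.2 ((Dvd.intro_left _ rfl).trans (hg1 ψ hψ))).mul_left _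
        · simp [S.D_zero ψ hψ])
  choose x hx using h3
  choose y hy using h4
  have hu0 : (0 : ℤ) < u := Int.natCast_pos.2 (Nat.pos_of_ne_zero fun h => hu (h ▸ dvd_zero p))
  have hp0 : (0 : ℤ) < p := Int.natCast_pos.2 hp.pos
  have h5 : ∀ i, 1 ≤ x i * y i := fun i => by
    have h6 := hS.deg_pos hM i
    have h7 := hS.pdeg_pos i
    rw [hx] at h6
    rw [hy] at h7
    exact mul_pos ((mul_pos_iff_of_pos_left (by push_cast; positivity)).1 h6)
      ((mul_pos_iff_of_pos_left (by positivity)).1 h7)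
  have h6 : (Cfsg.blockRank p B : ℤ) ≤ ∑ i, x i * y i := by
    simpa [S.blockRank_eq] using Finset.card_nsmul_le_sum Finset.univ _ _ fun i _ => h5 i
  obtain ⟨v, hv⟩ := Int.eq_ofNat_of_zero_le ((Int.natCast_nonneg _).trans h6)
  have h7 : ∑ᶠ χ ∈ B, Cfsg.charDegree (χ : G → ℂ) ^ 2 = p ^ (a + minVal p B) * u ^ 2 * v := by
    have := S.sum_sq_eq hp
    rw [finsum_mem_block_eq]
    zify
    rw [this, ← hv, Finset.mul_sum]
    exact Finset.sum_congr rfl fun i _ => by rw [hx, hy]; push_cast; ring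
  rw [hv] at h6
  refine ⟨v, (blockRank_pos hM hB).trans_le (by exact_mod_cast h6), fun h => ?_,
    by exact_mod_cast h6, h7⟩
  obtain ⟨w, hw, h8⟩ := exists_sum_sq_eq hM hB
  rw [h7, ha, mul_assoc] at h8
  exact hw (Nat.eq_of_mul_eq_mul_left (pow_pos hp.pos _) h8 ▸ h.mul_left _)

end Cfsg.Agent.S4641
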