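import Cfsg.Statements.S4642
import Mathlib
import Cfsg.Agent.BLK.Fong

set_option autoImplicit false
open Cfsg

namespace Cfsg.Agent.S4642

open CL CL.Blk CL.Char MonoidAlgebra
open scoped CL.MSS

/-- Let G be a finite group, p a prime, M a maximal ideal of the algebraic integers containing p, K the largest normal subgroup of G of order prime to p, and L the preimage in G of the largest normal p-subgroup of G/K. Let Q be a Sylow p-subgroup of L and suppose C_G(Q) ≤ L. Let θ be an irreducible character of K invariant under conjugation by every element of G, and let B be the set of irreducible characters of G whose restriction to K contains θ. Then B is a block of G, every Sylow p-subgroup of G is a defect group of B, and B is of principal type: for every p-subgroup R of G exactly one block of C_G(R) induces B. -/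
theorem result {G : Type*} [Group G] [Fintype G] (p : ℕ) [Fact p.Prime] (M : Ideal Cfsg.AlgInt) (hM : Cfsg.IsPModular p M) (K : Subgroup G) (hK : K = Cfsg.pPrimeCore p G) [Fintype K] (L : Subgroup G) (hL : L = Cfsg.pPrimePCore p G) (Q : Subgroup G) (hQL : Q ≤ L) (hQp : IsPGroup p Q) (hQS : ¬ p ∣ Q.relIndex L) (hCQ : Subgroup.centralizer (Q : Set G) ≤ L) (θ : Cfsg.IrrCharacter K) (hθ : ∀ g : G, Cfsg.IsConjCharOf K g (θ : K → ℂ) (θ : K → ℂ)) (B : Set (Cfsg.IrrCharacter G)) (hBdef : ∀ χ : Cfsg.IrrCharacter G, χ ∈ B ↔ Cfsg.classInner (fun k : K => (χ : G → ℂ) k) (θ : K → ℂ) ≠ 0) : Cfsg.IsPBlock M B ∧ (∀ S : Sylow p G, Cfsg.IsDefectGroup p M B S) ∧ ∀ R : Subgroup G, IsPGroup p R → ∃! f : Set (Cfsg.IrrCharacter (Subgroup.centralizer (R : Set G))), Cfsg.IsInducedBlock M (Subgroup.centralizer (R : Set G)) f B := by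
  have hc : IsPConstrained p G := PC.isPConstrained_iff_exists.2
    ⟨Q, hL ▸ MSS.sylIn_of_not_dvd_relIndex hQp hQL hQS, hL ▸ hCQ⟩
  have : K.Normal := hK ▸ inferInstance
  have hi : inertia K (θ : K → ℂ) = ⊤ := inertia_eq_top_iff.2 fun g n => hθ g n _ rfl
  have hB : B = overSet K θ := Set.ext hBdef
  subst hB
  exact ⟨isPBlock_overSet hM hc hK hi, fun S => (isDefectGroup_overSet_iff hM hc hK hi).2 ⟨S, rfl⟩,
    fun R hR => existsUnique_induced_of_isPair hM (isPBlock_overSet hM hc hK hi)
      (isPair_Br_overSet hM hc hK hi hR)⟩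

end Cfsg.Agent.S4642
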