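import Cfsg.Statements.S4644
import Cfsg.Agent.BLK.Watanabe

set_option autoImplicit false
open Cfsg

namespace Cfsg.Agent.S4644

/-- Let B be a block of the finite group G relative to a maximal ideal M of the algebraic integers containing the prime p, with a commutative defect group P; let c be a block of C_G(P) inducing B and T the stabilizer of c in N_G(P). Let u be an element of P fixed under conjugation by every element of T, H = C_G(u) (so C_G(P) ≤ H), and f the block of H induced by c inside H. Then B and f have the same p-regular rank and the same number of irreducible characters. -/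
theorem result {G : Type*} [Group G] [Finite G] (p : ℕ) [Fact p.Prime] (M : Ideal Cfsg.AlgInt) (hM : Cfsg.IsPModular p M) (B : Set (Cfsg.IrrCharacter G)) (hB : Cfsg.IsPBlock M B) (P : Subgroup G) (hPD : Cfsg.IsDefectGroup p M B P) (hPab : ∀ x ∈ P, ∀ y ∈ P, x * y = y * x) (c : Set (Cfsg.IrrCharacter (Subgroup.centralizer (P : Set G)))) (hc : Cfsg.IsInducedBlock M (Subgroup.centralizer (P : Set G)) c B) (T : Subgroup G) (hT : ∀ g : G, g ∈ T ↔ (g ∈ Subgroup.normalizer (P : Set G) ∧ Cfsg.StabilizesBlock (Subgroup.centralizer (P : Set G)) c g)) (u : G) (hu : u ∈ P) (huT : ∀ g ∈ T, g * u * g⁻¹ = u) (H : Subgroup G) (hH : H = Subgroup.centralizer ({u} : Set G)) (f : Set (Cfsg.IrrCharacter H)) (hf : Cfsg.IsInducedBlockIn M H (Subgroup.centralizer (P : Set G)) c f) : Cfsg.blockRank p B = Cfsg.blockRank p f ∧ Nat.card B = Nat.card f := by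
  have h := CL.Blk.maxP_of_isInducedBlock hM hPD hc
  obtain rfl := CL.Blk.eq_pairStab hM hc.1 hT
  rw [← CL.Blk.MaxP.centralizer_zpowers] at hH
  subst hH
  have h1 : Subgroup.zpowers u ≤ P := Subgroup.zpowers_le.2 hu
  have h2 := CL.Blk.le_cent_of_comm hPab h1
  obtain ⟨-, h3, h4⟩ := (CL.Blk.isInducedBlockIn_iff_relPair hM h.pgroup h2
    (CL.Blk.centralizer_anti h1)).1 hf
  obtain rfl : f = CL.Blk.bu p M P (CL.Blk.sb M _ c) u :=
    CL.Blk.eq_of_sb_eq hM h3 (h.isPBlock_bu hu) (h4.unique_blk h.prime h.hF (CL.Blk.isSB_sb hM h3)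
      (CL.Blk.isSB_sb hM (h.isPBlock_bu hu)) ((h.ple_bu hu).relPair_cent h.prime h.hF h.pair h2))
  exact ⟨(h.blockRank_bu_of_fixed hPab hu huT).symm, (h.card_bu_of_fixed hPab hu huT).symm⟩

end Cfsg.Agent.S4644
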