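import Cfsg.Statements.S4645
import Cfsg.Agent.BLK.NilAb

set_option autoImplicit false
open Cfsg

namespace Cfsg.Agent.S4645

/-- Let B be a block of the finite group G relative to a maximal ideal M of the algebraic integers containing the prime p, with a nontrivial cyclic defect group P; let c be a block of C_G(P) inducing B and T the stabilizer of c in N_G(P). Let Q be a nontrivial subgroup of P (so C_G(P) ≤ C_G(Q)), f the block of C_G(Q) induced by c inside C_G(Q), and T' the stabilizer of f in N_G(Q). Then T' = T·C_G(Q), the index of C_G(Q) in T' equals the index of C_G(P) in T, f has p-regular rank 1, and f is a nilpotent block of C_G(Q). -/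
theorem result {G : Type*} [Group G] [Finite G] (p : ℕ) [Fact p.Prime] (M : Ideal Cfsg.AlgInt) (hM : Cfsg.IsPModular p M) (B : Set (Cfsg.IrrCharacter G)) (hB : Cfsg.IsPBlock M B) (P : Subgroup G) (hPD : Cfsg.IsDefectGroup p M B P) (hP1 : P ≠ ⊥) (hcyc : IsCyclic P) (c : Set (Cfsg.IrrCharacter (Subgroup.centralizer (P : Set G)))) (hc : Cfsg.IsInducedBlock M (Subgroup.centralizer (P : Set G)) c B) (T : Subgroup G) (hT : ∀ g : G, g ∈ T ↔ (g ∈ Subgroup.normalizer (P : Set G) ∧ Cfsg.StabilizesBlock (Subgroup.centralizer (P : Set G)) c g)) (Q : Subgroup G) (hQP : Q ≤ P) (hQ1 : Q ≠ ⊥) (f : Set (Cfsg.IrrCharacter (Subgroup.centralizer (Q : Set G)))) (hf : Cfsg.IsInducedBlockIn M (Subgroup.centralizer (Q : Set G)) (Subgroup.centralizer (P : Set G)) c f) (T' : Subgroup G) (hT' : ∀ g : G, g ∈ T' ↔ (g ∈ Subgroup.normalizer (Q : Set G) ∧ Cfsg.StabilizesBlock (Subgroup.centralizer (Q : Set G)) f g)) : T' = T ⊔ Subgroup.centralizer (Q : Set G) ∧ (Subgroup.centralizer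 (Q : Set G)).relIndex T' = (Subgroup.centralizer (P : Set G)).relIndex T ∧ Cfsg.blockRank p f = 1 ∧ Cfsg.IsNilpotentBlock p M f := by
  have h := CL.Blk.maxP_of_isInducedBlock hM hPD hc
  obtain rfl := CL.Blk.eq_pairStab hM hc.1 hT
  have hab : ∀ x ∈ P, ∀ y ∈ P, Commute x y := fun x hx y hy =>
    congrArg Subtype.val (IsCyclic.isMulCommutative.is_comm.comm (⟨x, hx⟩ : P) ⟨y, hy⟩)
  have hPQ : P ≤ Subgroup.centralizer (Q : Set G) := fun x hx y hy => (hab y (hQP hy) x hx).eq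
  obtain ⟨-, hf1, hf2⟩ := (CL.Blk.isInducedBlockIn_iff_relPair hM hPD.isPGroup hPQ
    (CL.Blk.centralizer_anti hQP)).1 hf
  have h1 := (hf2.nsub_of_cent (CL.Blk.isPair_sb hM ⟨hPD.isPGroup.to_le hQP, hf1⟩) hQP).ple
  obtain rfl := CL.Blk.eq_pairStab hM hf1 hT'
  have h2 := h1.lowB_eq hM h.pair hf1
  have hN : CL.Blk.pairStab P (CL.Blk.sb M _ c) ≤ Subgroup.normalizer (Q : Set G) :=
    inf_le_left.trans (CL.Blk.normalizer_le_of_isCyclic hQP)
  have h3 := h1.pairStab_eq_sup h.prime h.hF h.pair (h2 ▸ h.sDef_lowB_of_comm hQP hPQ)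
  rw [inf_eq_left.2 hN] at h3
  have h4 : Subgroup.centralizer (Q : Set G) ⊓ CL.Blk.pairStab P (CL.Blk.sb M _ c) ≤
      Subgroup.centralizer (P : Set G) := fun g hg => by
    obtain ⟨x, hx⟩ := Subgroup.ne_bot_iff_exists_ne_one.1 hQ1
    exact h.rel.mem_cent_of_isCyclic h.prime h.hF h.isSB h.sdef ⟨trivial, hg.2⟩ (hQP x.2)
      (fun h0 => hx (Subtype.ext h0)) (mul_inv_eq_iff_eq_mul.2 (hg.1 x x.2).symm)
  refine ⟨h3, ?_, h2 ▸ h.blockRank_lowB_eq_one hab hQP h4,
    h2 ▸ (h.isNilpotentBlock_lowB_iff hab hQP).2 h4⟩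
  change Subgroup.relIndex _ (CL.Blk.pairStab Q _) = Subgroup.relIndex _ (CL.Blk.pairStab P _)
  rw [h3, CL.Blk.relIndex_sup_eq_of_normalizes (CL.MSS.le_normalizer_centralizer hN),
    ← Subgroup.inf_relIndex_right, ← Subgroup.inf_relIndex_right (Subgroup.centralizer (P : Set G))]
  congr 1
  exact le_antisymm (le_inf h4 inf_le_right) (inf_le_inf_right _ (CL.Blk.centralizer_anti hQP))

end Cfsg.Agent.S4645
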