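import Cfsg.Statements.S4691
import Cfsg.Agent.BLK.PairApp
import Cfsg.Agent.PLOC.FrobeniusNPC

set_option autoImplicit false
open Cfsg

namespace Cfsg.Agent.S4691

/-- Fix a prime p and a maximal ideal M of the algebraic integers containing p. A finite group G has a normal p-complement if and only if its principal p-block is nilpotent. -/
theorem result {G : Type*} [Group G] [Fintype G] (p : ℕ) [Fact p.Prime] (M : Ideal Cfsg.AlgInt) (hM : Cfsg.IsPModular p M) : Cfsg.HasNormalPComplement p G ↔ Cfsg.IsNilpotentBlock p M (Cfsg.principalBlock M G) := by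
  rw [CL.Blk.isNilpotentBlock_iff hM, and_iff_right CL.Blk.isPBlock_principalBlock,
    CL.Blk.nilF_principal_iff hM, CL.Tr.hasNPC_iff_forall_isPGroup]
  refine forall₂_congr fun Q _ => ?_
  rw [← CL.Blk.forall_pReg_mem_iff hM.1]
  simp only [Nat.coprime_comm.trans (Nat.Prime.coprime_iff_not_dvd hM.1)]

end Cfsg.Agent.S4691
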