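import Cfsg.Statements.S4649
import Cfsg.Agent.BLK.CycMain

set_option autoImplicit false
open Cfsg

namespace Cfsg.Agent.S4649

/-- A block with cyclic defect group, of a finite group relative to a maximal ideal M of the algebraic integers containing the prime p, is nilpotent if and only if its p-regular rank is 1 (it has a unique irreducible Brauer character). -/
theorem result {G : Type*} [Group G] [Finite G] (p : ℕ) [Fact p.Prime] (M : Ideal Cfsg.AlgInt) (hM : Cfsg.IsPModular p M) (B : Set (Cfsg.IrrCharacter G)) (hB : Cfsg.IsPBlock M B) (P : Subgroup G) (hPD : Cfsg.IsDefectGroup p M B P) (hcyc : IsCyclic P) : Cfsg.IsNilpotentBlock p M B ↔ Cfsg.blockRank p B = 1 := by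
  classical
  have := Fintype.ofFinite G
  have hab := CL.Cyc.le_centralizer_of_isCyclic hcyc
  refine ⟨fun h => h.blockRank_of_comm hM hPD fun x hx y hy =>
    Subgroup.mem_centralizer_iff.1 (hab hy) x hx, fun h1 => ?_⟩
  obtain ⟨b, hr⟩ := CL.Cyc.exists_relPair_of_def hM hB hPD
  refine (CL.Blk.isNilpotentBlock_iff hM).2 ⟨hB, (CL.Blk.nilF_iff_of_comm hM.1
    (CL.Blk.natCast_F hM) (CL.Blk.isSB_top_eB hM hB) hr
    ((CL.Blk.isDefectGroup_iff_sDef_top hM hB).1 hPD) hab).2 ?_⟩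
  by_cases h0 : P = ⊥
  · subst h0
    rw [CL.Blk.centralizer_bot_eq]; exact le_top
  obtain ⟨Z, hZ, hZc⟩ := CL.Cyc.exists_le_card_eq hM.1 hr.pair.pgroup h0
  obtain ⟨c, hc⟩ := CL.Cyc.exists_setup_of_le hM hB hr hPD hcyc hZ hZc
  obtain ⟨θ₀, h⟩ := hc.exists_loc'
  obtain ⟨X, ψ, δ, ε, s⟩ := h.exists_str
  exact Subgroup.relIndex_eq_one.1 (s.rank_eq.symm.trans h1)

end Cfsg.Agent.S4649
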