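import Cfsg.Statements.S4650
import Cfsg.Agent.BLK.PairApp

set_option autoImplicit false
open Cfsg

namespace Cfsg.Agent.S4650

/-- Let B be a block of the finite group G relative to a maximal ideal M of the algebraic integers containing the prime p, with a nontrivial commutative defect group P; let c be a block of C_G(P) inducing B and T the stabilizer of c in N_G(P). Then T/C_G(P) acts freely on the non-identity elements of P (an element of T fixing a non-identity element of P under conjugation lies in C_G(P)) if and only if, for every nontrivial subgroup Q of P, the block of C_G(Q) induced by c inside C_G(Q) is a nilpotent block of C_G(Q). -/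
theorem result {G : Type*} [Group G] [Finite G] (p : ℕ) [Fact p.Prime] (M : Ideal Cfsg.AlgInt) (hM : Cfsg.IsPModular p M) (B : Set (Cfsg.IrrCharacter G)) (hB : Cfsg.IsPBlock M B) (P : Subgroup G) (hPD : Cfsg.IsDefectGroup p M B P) (hPab : ∀ x ∈ P, ∀ y ∈ P, x * y = y * x) (hP1 : P ≠ ⊥) (c : Set (Cfsg.IrrCharacter (Subgroup.centralizer (P : Set G)))) (hc : Cfsg.IsInducedBlock M (Subgroup.centralizer (P : Set G)) c B) (T : Subgroup G) (hT : ∀ g : G, g ∈ T ↔ (g ∈ Subgroup.normalizer (P : Set G) ∧ Cfsg.StabilizesBlock (Subgroup.centralizer (P : Set G)) c g)) : (∀ g ∈ T, ∀ x ∈ P, x ≠ 1 → g * x * g⁻¹ = x → g ∈ Subgroup.centralizer (P : Set G)) ↔ ∀ Q : Subgroup G, Q ≤ P → Q ≠ ⊥ → ∀ f : Set (Cfsg.IrrCharacter (Subgroup.centralizer (Q : Set G))), Cfsg.IsInducedBlockIn M (Subgroup.centralizer (Q : Set G)) (Subgroup.centralizer (P : Set G)) c f → Cfsg.IsNilpotentBlock p M f := by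
  have hp := hM.1
  have hF := CL.Blk.natCast_F hM
  have hP := ((CL.Blk.isInducedBlock_iff_relPair hM hPD.isPGroup).1 hc).2.2
  have hPd := (CL.Blk.isDefectGroup_iff_sDef_top hM hB).1 hPD
  have hb := CL.Blk.isSB_top_eB hM hB
  obtain rfl := CL.Blk.eq_pairStab hM hc.1 hT
  have hPQ : ∀ Q : Subgroup G, Q ≤ P → P ≤ Subgroup.centralizer (Q : Set G) :=
    fun Q hQ x hx y hy => hPab y (hQ hy) x hx
  constructor
  · intro h Q hQ hQ1 f hf
    obtain ⟨-, hf1, hf2⟩ := (CL.Blk.isInducedBlockIn_iff_relPair hM hPD.isPGroup (hPQ Q hQ)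
      (CL.Blk.centralizer_anti hQ)).1 hf
    have h1 := (hf2.nsub_of_cent (CL.Blk.isPair_sb hM ⟨hPD.isPGroup.to_le hQ, hf1⟩) hQ).ple
    refine (CL.Blk.isNilpotentBlock_iff_nilIn hM).2 ⟨hf1, (h1.nilIn_cent_iff hp hF hP.pair
      (hPQ P le_rfl) (hP.sDef_cent_of_comm hp hF hb hPd h1 le_top (hPQ Q hQ))).2 fun g hg => ?_⟩
    obtain ⟨x, hx⟩ := Subgroup.ne_bot_iff_exists_ne_one.1 hQ1
    exact h g hg.2 x (hQ x.2) (fun h0 => hx (Subtype.ext h0))
      (mul_inv_eq_iff_eq_mul.2 (hg.1 x x.2).symm)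
  · intro h g hg x hx h1 h2
    have hQ : Subgroup.zpowers x ≤ P := Subgroup.zpowers_le.2 hx
    obtain ⟨f, hf⟩ := hP.pair.exists_ple hp hF hQ
    obtain ⟨f, hf1, rfl, -⟩ := hf.exists_block hM ⟨hPD.isPGroup, hc.1⟩
    have h3 := h _ hQ (Subgroup.zpowers_ne_bot.2 h1) f
      ((CL.Blk.isInducedBlockIn_iff_relPair hM hPD.isPGroup (hPQ _ hQ)
        (CL.Blk.centralizer_anti hQ)).2 ⟨hc.1, hf1.2, hf.relPair_cent hp hF hP.pair (hPQ _ hQ)⟩)
    refine (hf.nilIn_cent_iff hp hF hP.pair (hPQ P le_rfl)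
      (hP.sDef_cent_of_comm hp hF hb hPd hf le_top (hPQ _ hQ))).1
      ((CL.Blk.isNilpotentBlock_iff_nilIn hM).1 h3).2 ⟨?_, hg⟩
    rintro _ ⟨n, rfl⟩
    exact ((Commute.zpow_left (mul_inv_eq_iff_eq_mul.1 h2).symm n) : x ^ n * g = g * x ^ n)

end Cfsg.Agent.S4650
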