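import Cfsg.Statements.S4654
import Cfsg.Agent.BLK.PairOrb

set_option autoImplicit false
open Cfsg

namespace Cfsg.Agent.S4654

/-- Fix a prime p and a maximal ideal M of the algebraic integers containing p. Let P be a normal p-subgroup of the finite group G, B a p-block of G and e a p-block of C_G(P) such that (P, e) is a Brauer pair of B (as P is normal, this says that e occurs in the idempotent of B, which is supported on C_G(P)). Let T be the stabilizer of e in G under conjugation. Then the idempotent of e is a block idempotent of T: some block E of T has, at every element of T, the same idempotent coefficient as e (zero off C_G(P)); and the idempotent of B is the sum of the distinct G-conjugates of the idempotent of e: its coefficient at g is the sum over all x in G of the coefficient of e at x⁻¹ g x, divided by the order of T. -/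
theorem result {G : Type*} [Group G] [Fintype G] (p : ℕ) [Fact p.Prime] (M : Ideal Cfsg.AlgInt) (hM : Cfsg.IsPModular p M) (P : Subgroup G) [P.Normal] (hP : IsPGroup p P) (B : Set (Cfsg.IrrCharacter G)) (e : Set (Cfsg.IrrCharacter (Subgroup.centralizer (P : Set G)))) (hBe : Cfsg.IsBrauerPairOf p M B P e) (T : Subgroup G) (hT : ∀ x : G, x ∈ T ↔ Cfsg.StabilizesBlock (Subgroup.centralizer (P : Set G)) e x) : (∃ E : Set (Cfsg.IrrCharacter T), Cfsg.IsPBlock M E ∧ ∀ t : T, Cfsg.blockCoeff E t = Cfsg.subgroupBlockCoeff (Subgroup.centralizer (P : Set G)) e (t : G)) ∧ ∀ g : G, Cfsg.blockCoeff B g = (Nat.card T : ℂ)⁻¹ * ∑ x : G, Cfsg.subgroupBlockCoeff (Subgroup.centralizer (P : Set G)) e (x⁻¹ * g * x) := by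
  have hR := hBe.relPair hM
  have hN : Subgroup.normalizer (P : Set G) = ⊤ := Subgroup.normalizer_eq_top P
  have hT' : T = CL.Blk.cjStab (CL.Blk.sb M _ e) := Subgroup.ext fun x => by
    rw [hT, CL.Blk.stabilizesBlock_iff hM hBe.1.2, Subgroup.normalizer_eq_top, CL.Blk.mem_cjStab]
    simp
  have hfix : CL.Blk.IsFixed T (CL.Blk.sb M _ e) := CL.Blk.isFixed_iff_le_cjStab.2 hT'.le
  have hCT : Subgroup.centralizer (P : Set G) ≤ T :=
    hT' ▸ CL.Blk.isFixed_iff_le_cjStab.1 hR.pair.fixed_cent
  have hPT : P ≤ T := hT' ▸ CL.Blk.isFixed_iff_le_cjStab.1 hR.pair.fixed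
  refine ⟨?_, CL.Blk.blockCoeff_eq_sum_conj hM hBe.1.2 hBe.2.1 ?_ hT⟩
  · obtain ⟨E, hE, -, h⟩ := CL.Blk.exists_block_coeff_eq hM hCT hBe.1.2
      (hR.pair.isSB_of_fixed hM.1 (CL.Blk.natCast_F hM) hPT hCT (hN ▸ le_top) hfix)
    exact ⟨E, hE, h⟩
  · have := hR.br
    rwa [((CL.Blk.isSB_top_eB hM hBe.2.1).suppIn_centralizer hM.1 (CL.Blk.natCast_F hM) hP le_top
      hN.ge).Br_eq] at this

end Cfsg.Agent.S4654
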