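import Cfsg.Statements.S4657
import Cfsg.Agent.BLK.Transport

set_option autoImplicit false
open Cfsg

namespace Cfsg.Agent.S4657

/-- Fix a prime p and a maximal ideal M of the algebraic integers containing p. Every Brauer pair (P, e) of the finite group G is a Brauer pair of exactly one p-block B of G. -/
theorem result {G : Type*} [Group G] [Fintype G] (p : ℕ) [Fact p.Prime] (M : Ideal Cfsg.AlgInt) (hM : Cfsg.IsPModular p M) (P : Subgroup G) (e : Set (Cfsg.IrrCharacter (Subgroup.centralizer (P : Set G)))) (hPe : Cfsg.IsBrauerPair p M P e) : ∃! B : Set (Cfsg.IrrCharacter G), Cfsg.IsBrauerPairOf p M B P e := by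
  obtain ⟨b, hb, h⟩ := (CL.Blk.isPair_sb hM hPe).exists_relPair hM.1 (CL.Blk.natCast_F hM)
    (H := ⊤) le_top le_top
  obtain ⟨B, hB, rfl⟩ := hb.exists_block_top hM
  refine ⟨B, (CL.Blk.isBrauerPairOf_iff_relPair hM).2 ⟨hB, hPe.2, h⟩, fun B' hB' => ?_⟩
  exact CL.Blk.eq_of_eB_eq hM hB'.2.1 hB ((hB'.relPair hM).unique_blk hM.1 (CL.Blk.natCast_F hM)
    (CL.Blk.isSB_top_eB hM hB'.2.1) hb h)

end Cfsg.Agent.S4657
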