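import Cfsg.Statements.S4661
import Cfsg.Agent.BLK.PairDict

set_option autoImplicit false
open Cfsg

namespace Cfsg.Agent.S4661

/-- Fix a prime p and a maximal ideal M of the algebraic integers containing p. Let (P, e) be a maximal Brauer pair of the p-block B of the finite group G, Q ≤ P, and f the p-block of C_G(Q) with (Q, f) ≤ (P, e). Then C_P(Q) is contained in a defect group of f (as a block of the group C_G(Q)); and for some x in G the conjugate pair (x Q x⁻¹, conjugate of f) again lies below (P, e) and C_P(x Q x⁻¹) is a defect group of the conjugate of f in C_G(x Q x⁻¹). -/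
theorem result {G : Type*} [Group G] [Fintype G] (p : ℕ) [Fact p.Prime] (M : Ideal Cfsg.AlgInt) (hM : Cfsg.IsPModular p M) (B : Set (Cfsg.IrrCharacter G)) (P Q : Subgroup G) (e : Set (Cfsg.IrrCharacter (Subgroup.centralizer (P : Set G)))) (f : Set (Cfsg.IrrCharacter (Subgroup.centralizer (Q : Set G)))) (hmax : Cfsg.IsMaximalBrauerPair p M B P e) (hQP : Q ≤ P) (hf : Cfsg.IsPBlock M f) (hle : Cfsg.SubpairLE p M Q f P e) : (∃ D : Subgroup (Subgroup.centralizer (Q : Set G)), Cfsg.IsDefectGroup p M f D ∧ (P ⊓ Subgroup.centralizer (Q : Set G)).subgroupOf (Subgroup.centralizer (Q : Set G)) ≤ D) ∧ ∃ x : G, Cfsg.SubpairLE p M (Q.map (MulAut.conj x).toMonoidHom) (Cfsg.conjBlock Q x f) P e ∧ Cfsg.IsDefectGroup p M (Cfsg.conjBlock Q x f) ((P ⊓ Subgroup.centralizer ((Q.map (MulAut.conj x).toMonoidHom) : Set G)).subgroupOf (Subgroup.centralizer ((Q.map (MulAut.conj x).toMonoidHom) : Set G))) := by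
  have hp := hM.1
  have hF := CL.Blk.natCast_F hM
  have hP := hmax.relPair hM
  have hPd := hmax.sDef hM
  have hb := hmax.isSB hM
  have h := hle.ple hM
  have hQ := h.left hP.pair
  constructor
  · obtain ⟨D, hD, h1⟩ := h.exists_sDef_ge hp hF hP.pair (Subgroup.centralizer_le_normalizer _) hQ.sb
    exact ⟨_, hD.isDefectGroup hM hf, Subgroup.subgroupOf_mono _ h1⟩
  · obtain ⟨x, -, h1, h2⟩ := hP.exists_cj_sDef hp hF hb hPd (hP.of_ple' hp hF hb h le_top) le_top
      hQ.cent_le_pairStab hQ.sb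
    refine ⟨x, (CL.Blk.subpairLE_conjBlock_iff hM hf hmax.1.1.2 x).2 h1, ?_⟩
    rw [CL.MSS.cj_centralizer, ← CL.Blk.sb_conjBlock] at h2
    exact h2.isDefectGroup hM (CL.Blk.isPBlock_conjBlock hM x hf)

end Cfsg.Agent.S4661
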