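import Cfsg.Statements.S4664
import Cfsg.Agent.BLK.QuotP
import Cfsg.Agent.CHAR.Galois

set_option autoImplicit false
open Cfsg

namespace Cfsg.Agent.S4664


/-- Fix a prime p and a maximal ideal M of the algebraic integers containing p, and let B be a p-block of the finite group G. Let m be the p'-part of the order of G and η = exp(2πi/m). Then every coefficient of the idempotent of B lies in the cyclotomic field ℚ(η). -/
theorem result {G : Type*} [Group G] [Fintype G] (p : ℕ) [Fact p.Prime] (M : Ideal Cfsg.AlgInt) (hM : Cfsg.IsPModular p M) (B : Set (Cfsg.IrrCharacter G)) (hB : Cfsg.IsPBlock M B) (g : G) : Cfsg.blockCoeff B g ∈ IntermediateField.adjoin ℚ ({Complex.exp (2 * Real.pi * Complex.I / ((Nat.card G / p ^ (Nat.card G).factorization p : ℕ) : ℂ))} : Set ℂ) := by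
  classical
  have hp : p.Prime := Fact.out
  by_cases hg : p ∣ orderOf g
  · rw [CL.Blk.blockCoeff_eq_zero_of_sing hM hB hg]
    exact zero_mem _
  set m : ℕ := Nat.card G / p ^ (Nat.card G).factorization p with hm
  have hG : Nat.card G ≠ 0 := Nat.card_pos.ne'
  have hm0 : m ≠ 0 := (Nat.ordCompl_pos p hG).ne'
  have hdvd : orderOf g ∣ m := by
    have h1 : orderOf g ∣ Nat.card G := orderOf_dvd_natCard g
    have h2 : Nat.card G = p ^ (Nat.card G).factorization p * m :=
      (Nat.ordProj_mul_ordCompl_eq_self (Nat.card G) p).symm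
    rw [h2] at h1
    exact (Nat.Coprime.dvd_mul_left
      (Nat.Coprime.pow_right _ ((Nat.Prime.coprime_iff_not_dvd hp).2 hg).symm)).1 h1
  have hgm : g⁻¹ ^ m = 1 := by
    rw [inv_pow, orderOf_dvd_iff_pow_eq_one.1 hdvd, inv_one]
  unfold Cfsg.blockCoeff
  refine mul_mem (inv_mem (natCast_mem _ _)) ?_
  refine finsum_mem_induction (fun z => z ∈ _) (zero_mem _) (fun a b ha hb => add_mem ha hb) ?_
  intro χ _
  refine mul_mem ?_ ?_
  · rw [χ.2.apply_one_eq_charDegree]
    exact natCast_mem _ _
  · rw [← χ.2.apply_inv]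
    exact χ.2.isGen.apply_mem_adjoin_exp hm0 hgm

end Cfsg.Agent.S4664
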