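import Cfsg.Statements.S4665


set_option autoImplicit false
open Cfsg

namespace Cfsg.Agent.S4665

/-- Fix a prime p, a maximal ideal M of the algebraic integers containing p, and a p-block B of the finite group G, and let p^a be the p-part of the order of G. Let χ be an integer combination of the irreducible characters in B. If the function that agrees with χ on p-regular elements and vanishes on p-singular elements is again an integer combination of the irreducible characters in B, then p^a divides χ(1). -/
theorem result {G : Type*} [Group G] [Fintype G] (p : ℕ) [Fact p.Prime] (M : Ideal Cfsg.AlgInt) (hM : Cfsg.IsPModular p M) (B : Set (Cfsg.IrrCharacter G)) (hB : Cfsg.IsPBlock M B) (χ : G → ℂ) (hχ : (∃ n : Cfsg.IrrCharacter G → ℤ, ∀ g : G, χ g = ∑ᶠ ψ ∈ B, (n ψ : ℂ) * (ψ : G → ℂ) g)) (h0 : (∃ n : Cfsg.IrrCharacter G → ℤ, ∀ g : G, Cfsg.pRegularPart p χ g = ∑ᶠ ψ ∈ B, (n ψ : ℂ) * (ψ : G → ℂ) g)) : ∃ k : ℤ, χ 1 = (p ^ (Nat.card G).factorization p : ℂ) * k := by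
  classical
  obtain ⟨n, hn⟩ := h0
  obtain ⟨P⟩ : Nonempty (Sylow p G) := inferInstance
  have hp : p.Prime := Fact.out
  have hcard : Nat.card (P : Subgroup G) = p ^ (Nat.card G).factorization p := P.card_eq_multiplicity
  have hne : (Nat.card (P : Subgroup G) : ℂ) ≠ 0 := Nat.cast_ne_zero.mpr Nat.card_pos.ne'
  -- average of an irreducible character over P is a natural number
  have hav : ∀ ψ : IrrCharacter G, ∃ m : ℕ,
      ∑ x : (P : Subgroup G), (ψ : G → ℂ) x = (Nat.card (P : Subgroup G) : ℂ) * m := by
    rintro ⟨ψ, d, ρ, -, rfl⟩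
    have : Invertible (Nat.card (P : Subgroup G) : ℂ) := invertibleOfNonzero hne
    have := Representation.card_inv_mul_sum_char_eq_finrank
      (ρ.comp (P : Subgroup G).subtype : Representation ℂ (P : Subgroup G) (Fin d → ℂ))
    refine ⟨Module.finrank ℂ (Representation.invariants
      (ρ.comp (P : Subgroup G).subtype : Representation ℂ (P : Subgroup G) (Fin d → ℂ))), ?_⟩
    rw [← this, ← mul_assoc, mul_inv_cancel₀ hne, one_mul]
    rfl
  choose m hm using hav
  -- the sum over P of the p-regular part is χ 1
  have hsum : ∑ x : (P : Subgroup G), pRegularPart p χ x = χ 1 := by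
    rw [Finset.sum_eq_single (1 : (P : Subgroup G))]
    · have : IsPRegular p (1 : G) := by
        unfold IsPRegular
        rw [orderOf_one]
        exact fun h => hp.one_lt.ne' (Nat.dvd_one.mp h)
      simp [pRegularPart, this]
    · intro x _ hx
      have : ¬ IsPRegular p (x : G) := by
        unfold IsPRegular
        rw [not_not, Subgroup.orderOf_coe]
        obtain ⟨k, hk⟩ := (IsPGroup.iff_orderOf.mp P.isPGroup') x
        rw [hk]
        apply dvd_pow_self
        rintro rfl
        exact hx (orderOf_eq_one_iff.mp (by simpa using hk))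
      simp [pRegularPart, this]
    · simp
  by_cases hfin : (B ∩ Function.support (fun ψ : IrrCharacter G =>
      fun g : G => (n ψ : ℂ) * (ψ : G → ℂ) g)).Finite
  · have hs : ∀ g : G, ∑ᶠ ψ ∈ B, (n ψ : ℂ) * (ψ : G → ℂ) g =
        ∑ ψ ∈ hfin.toFinset, (n ψ : ℂ) * (ψ : G → ℂ) g := by
      intro g
      apply finsum_mem_eq_sum_of_inter_support_eq
      ext ψ
      simp only [Set.mem_inter_iff, Function.mem_support, Set.Finite.coe_toFinset]
      constructor
      · rintro ⟨h1, h2⟩
        exact ⟨⟨h1, fun h => h2 (congrFun h g)⟩, h2⟩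
      · rintro ⟨⟨h1, -⟩, h2⟩
        exact ⟨h1, h2⟩
    refine ⟨∑ ψ ∈ hfin.toFinset, n ψ * m ψ, ?_⟩
    rw [← hsum]
    simp_rw [hn, hs]
    rw [Finset.sum_comm]
    simp_rw [← Finset.mul_sum, hm]
    rw [hcard]
    push_cast
    rw [Finset.mul_sum]
    refine Finset.sum_congr rfl fun ψ _ => by ring
  · refine ⟨0, ?_⟩
    have h1 : IsPRegular p (1 : G) := by
      unfold IsPRegular
      rw [orderOf_one]
      exact fun h => hp.one_lt.ne' (Nat.dvd_one.mp h)
    have h2 := hn 1
    rw [finsum_mem_eq_zero_of_infinite] at h2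
    · simpa [pRegularPart, h1] using h2
    · intro hf
      apply hfin
      refine hf.subset ?_
      rintro ⟨ψ, d, ρ, hρ, rfl⟩ ⟨h1, h2⟩
      refine ⟨h1, ?_⟩
      simp only [Function.mem_support, ne_eq, mul_eq_zero, not_or] at h2 ⊢
      constructor
      · intro h0
        apply h2
        ext g
        simp [h0]
      · rw [Representation.char_one]
        have := hρ
        have : Nontrivial (Fin d → ℂ) := by
          have h := (Representation.irreducible_iff_isSimpleModule_asModule ρ).mp hρ
          exact IsSimpleModule.nontrivial (MonoidAlgebra ℂ G) ρ.asModule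
        exact Nat.cast_ne_zero.mpr Module.finrank_pos.ne'

end Cfsg.Agent.S4665
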