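import Cfsg.Statements.S4666
import Cfsg.Agent.BLK.Contrib

set_option autoImplicit false
open Cfsg

namespace Cfsg.Agent.S4666

open CL.Blk CL.Char

/-- Fix a prime p and a maximal ideal M of the algebraic integers containing p, and a p-block B of the finite group G of defect d. For every integer combination χ of the irreducible characters in B, p^d times the function that agrees with χ on p-regular elements and vanishes elsewhere is again an integer combination of the irreducible characters in B. -/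
theorem result {G : Type*} [Group G] [Fintype G] (p : ℕ) [Fact p.Prime] (M : Ideal Cfsg.AlgInt) (hM : Cfsg.IsPModular p M) (B : Set (Cfsg.IrrCharacter G)) (hB : Cfsg.IsPBlock M B) (χ : G → ℂ) (hχ : (∃ n : Cfsg.IrrCharacter G → ℤ, ∀ g : G, χ g = ∑ᶠ ψ ∈ B, (n ψ : ℂ) * (ψ : G → ℂ) g)) : (∃ n : Cfsg.IrrCharacter G → ℤ, ∀ g : G, (p ^ Cfsg.blockDefect p B : ℂ) * Cfsg.pRegularPart p χ g = ∑ᶠ ψ ∈ B, (n ψ : ℂ) * (ψ : G → ℂ) g) := by
  classical
  obtain ⟨n, hn⟩ := hχ
  have hχ' : χ = ∑ ψ : B, (n ψ : ℂ) • ψ.1.1 := by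
    funext g
    rw [hn, finsum_mem_block_eq_subtype, Finset.sum_apply]
    rfl
  refine ⟨fun θ => ∑ ψ : B, n ψ * cz p (blockDefect p B) ψ.1.1 θ.1, fun g => ?_⟩
  rw [finsum_mem_block_eq_subtype, hχ', pRegularPart_sum, Finset.sum_apply, Finset.mul_sum]
  push_cast
  simp only [Finset.sum_mul]
  rw [Finset.sum_comm]
  refine Finset.sum_congr rfl fun ψ _ => ?_
  rw [pRegularPart_smul, reg_eq_sum hM hB ψ.2, Pi.smul_apply, Finset.sum_apply, smul_eq_mul,
    Finset.mul_sum, Finset.mul_sum]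
  refine Finset.sum_congr rfl fun θ _ => ?_
  rw [cz_cast hM hB ψ.2 θ.1.2.isGen, Pi.smul_apply, smul_eq_mul]
  ring

end Cfsg.Agent.S4666
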