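import Cfsg.Statements.S4668
import Mathlib
import Cfsg.Agent.BLK.Dict
import Cfsg.Agent.SOLV.CoprimeSylow

set_option autoImplicit false
open Cfsg

namespace Cfsg.Agent.S4668

open CL CL.Blk CL.Char MonoidAlgebra
open scoped CL.MSS

theorem aux {G : Type*} [Group G] [Finite G] (p : ℕ) [hp : Fact p.Prime] {x : G}
    (hx : ¬ p ∣ orderOf x) (m : ℕ) : ∀ (Q : Fin (m + 1) → Subgroup G), Monotone Q →
      (∀ i, IsPGroup p (Q i)) → (∀ i, x ∈ Subgroup.normalizer (Q i : Set G)) →
      (∀ u ∈ Q (Fin.last m), (∀ i, u ∈ Subgroup.normalizer (Q i : Set G)) → Commute u x) →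
      ∀ u ∈ Q (Fin.last m), Commute u x := by
  induction m with
  | zero =>
    intro Q _ _ _ h u hu
    refine h u hu fun i => ?_
    rw [show i = Fin.last 0 from Fin.ext (by omega)]
    exact Subgroup.le_normalizer hu
  | succ m ih =>
    intro Q hQ hQp hxN h
    have hle : ∀ i : Fin (m + 1), Q i.castSucc ≤ Q (Fin.last m).castSucc := fun i =>
      hQ (Fin.castSucc_le_castSucc_iff.2 (Fin.le_last i))
    have hle' : Q (Fin.last m).castSucc ≤ Q (Fin.last (m + 1)) := hQ (Fin.le_last _)
    have h1 := ih (fun i => Q i.castSucc) (fun i j hij => hQ (Fin.castSucc_le_castSucc_iff.2 hij))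
      (fun i => hQp _) (fun i => hxN _) (fun u hu hN => h u (hle' hu) fun i => by
        induction i using Fin.lastCases with
        | last => exact Subgroup.le_normalizer (hle' hu)
        | cast i => exact hN i)
    have key : ∀ u : G, u ∈ Subgroup.centralizer (Subgroup.zpowers x : Set G) ↔ Commute u x := by
      intro u
      constructor
      · intro hu; exact (hu x (Subgroup.mem_zpowers x)).symm
      · rintro hu _ ⟨k, rfl⟩; exact (hu.zpow_right k).eq.symm
    have h2 := CL.thompson_p_times_q (p := p) (Q (Fin.last m).castSucc) (Subgroup.zpowers x)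
      (Q (Fin.last (m + 1))) (hQp _)
      (by rw [Nat.card_zpowers]; exact (hp.out.coprime_iff_not_dvd.2 hx).symm) (hQp _)
      (fun u hu => (key u).2 (h1 u hu)) (hle'.trans Subgroup.le_normalizer)
      (Subgroup.zpowers_le.2 (hxN _)) (fun u hu => (key u).2 (h u hu.1 fun i => by
        induction i using Fin.lastCases with
        | last => exact Subgroup.le_normalizer hu.1
        | cast i =>
          exact Subgroup.centralizer_le_normalizer _
            (Subgroup.centralizer_le (SetLike.coe_subset_coe.2 (hle i)) hu.2)))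
    exact fun u hu => (key u).1 (h2 hu)

/-- Fix a prime p and a maximal ideal M of the algebraic integers containing p. Let Q₀ < Q₁ < ⋯ < Q_m be a strictly increasing chain of p-subgroups of the finite group G and N the intersection of their normalizers. Then every block idempotent of N is supported on C_G(Q_m): for every p-block E of N, the idempotent coefficient of E vanishes at every element of N outside C_G(Q_m). -/
theorem result {G : Type*} [Group G] [Fintype G] (p : ℕ) [Fact p.Prime] (M : Ideal Cfsg.AlgInt) (hM : Cfsg.IsPModular p M) (m : ℕ) (Q : Fin (m + 1) → Subgroup G) (hQ : StrictMono Q) (hQp : ∀ i, IsPGroup p (Q i)) (N : Subgroup G) (hN : ∀ g : G, g ∈ N ↔ ∀ i, g ∈ Subgroup.normalizer (Q i : Set G)) (E : Set (Cfsg.IrrCharacter N)) (hE : Cfsg.IsPBlock M E) (n : N) (hn : (n : G) ∉ Subgroup.centralizer (Q (Fin.last m) : Set G)) : Cfsg.blockCoeff E n = 0 := by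
  by_contra h0
  apply hn
  have h1 : ¬ p ∣ orderOf (n : G) := by
    rw [Subgroup.orderOf_coe]
    exact fun h => h0 (blockCoeff_eq_zero_of_int hM (blockCoeff_mem_V hM hE) h)
  have hle : N ≤ Subgroup.normalizer (Q (Fin.last m) : Set G) := fun g hg => (hN g).1 hg _
  have : ((Q (Fin.last m)).comap N.subtype).Normal :=
    normal_comap_of_le_normalizer (by rwa [Subgroup.range_subtype])
  have h2 : n ∈ Subgroup.centralizer ((Q (Fin.last m)).comap N.subtype : Set N) := by
    by_contra h
    exact h0 (blockCoeff_eq_zero_of_normal hM hE (P := (Q (Fin.last m)).comap N.subtype)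
      (MSS.isPGroup_subgroupOf (hQp _) N) h)
  have h3 := aux p h1 m Q hQ.monotone hQp ((hN n).1 n.2) fun u hu hu' =>
    congrArg Subtype.val (h2 ⟨u, (hN u).2 hu'⟩ hu)
  exact fun u hu => h3 u hu

end Cfsg.Agent.S4668
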