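import Cfsg.Statements.S4670
import Mathlib
import Cfsg.Agent.BLK.Dict

set_option autoImplicit false
open Cfsg

namespace Cfsg.Agent.S4670

open CL CL.Blk CL.Char MonoidAlgebra
open scoped CL.MSS

/-- Fix a prime p and a maximal ideal M of the algebraic integers containing p. Let P be a p-subgroup of the finite group G and H a subgroup containing N_G(P). For every p-block B of G with defect group P there is exactly one p-block c of H with defect group P whose idempotent agrees with that of B, modulo the local ideal at M, at every element of C_G(P) (their Brauer-map images at P coincide); and every p-block c of H with defect group P arises in this way from exactly one such B. This is the Brauer correspondence over H. -/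
theorem result {G : Type*} [Group G] [Fintype G] (p : ℕ) [Fact p.Prime] (M : Ideal Cfsg.AlgInt) (hM : Cfsg.IsPModular p M) (P H : Subgroup G) (hP : IsPGroup p P) (hH : Subgroup.normalizer (P : Set G) ≤ H) : (∀ B : Set (Cfsg.IrrCharacter G), Cfsg.IsPBlock M B → Cfsg.IsDefectGroup p M B P → ∃! c : Set (Cfsg.IrrCharacter H), Cfsg.IsPBlock M c ∧ Cfsg.IsDefectGroup p M c (P.subgroupOf H) ∧ ∀ x : G, x ∈ Subgroup.centralizer (P : Set G) → Cfsg.MemLocalIdeal M (Cfsg.blockCoeff B x - Cfsg.subgroupBlockCoeff H c x)) ∧ (∀ c : Set (Cfsg.IrrCharacter H), Cfsg.IsPBlock M c → Cfsg.IsDefectGroup p M c (P.subgroupOf H) → ∃! B : Set (Cfsg.IrrCharacter G), Cfsg.IsPBlock M B ∧ Cfsg.IsDefectGroup p M B P ∧ ∀ x : G, x ∈ Subgroup.centralizer (P : Set G) → Cfsg.MemLocalIdeal M (Cfsg.blockCoeff B x - Cfsg.subgroupBlockCoeff H c x)) := by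
  have hinj := H.subtype_injective
  have hr := Subgroup.range_subtype H
  have hN : Subgroup.normalizer (P : Set G) ≤ H.subtype.range := by rwa [hr]
  have hPH : P ≤ H := Subgroup.le_normalizer.trans hH
  have key : ∀ (B : Set (IrrCharacter G)) (c : Set (IrrCharacter H)), IsPBlock M B → IsPBlock M c →
      ((∀ x : G, x ∈ Subgroup.centralizer (P : Set G) →
        MemLocalIdeal M (blockCoeff B x - subgroupBlockCoeff H c x)) ↔
      trunc (Subgroup.centralizer (P : Set G) : Set G) (eB M B) =
        trunc (Subgroup.centralizer (P : Set G) : Set G) (amb H.subtype (eB M c))) := by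
    intro B c hB hc
    simp only [memLocalIdeal_blockCoeff_sub_iff hM hB hc]
    constructor
    · intro h
      refine ga_ext fun g => ?_
      by_cases hg : g ∈ Subgroup.centralizer (P : Set G)
      · rw [coeff_trunc_of_mem _ hg, coeff_trunc_of_mem _ hg, h g hg]
      · rw [coeff_trunc_of_notMem _ hg, coeff_trunc_of_notMem _ hg]
    · intro h g hg
      rw [← coeff_trunc_of_mem (eB M B) hg, h, coeff_trunc_of_mem _ hg]
  have uniq : ∀ c c' : Set (IrrCharacter H), IsPBlock M c → IsPBlock M c' →
      IsDef p (eB M c) (P.comap H.subtype) →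
      trunc (Subgroup.centralizer (P : Set G) : Set G) (amb H.subtype (eB M c)) =
        trunc (Subgroup.centralizer (P : Set G) : Set G) (amb H.subtype (eB M c')) → c = c' := by
    intro c c' hc hc' hcD h
    refine eq_of_eB_eq hM hc hc' ((isBlk_eB hM hc).eq_of_trunc_eq (isBlk_eB hM hc') hM.1
      (natCast_F hM) hcD.pgroup hcD.brNe ?_)
    have := congrArg (res H.subtype) h
    rwa [res_trunc_centralizer hinj (by rwa [hr]), res_trunc_centralizer hinj (by rwa [hr]),
      res_amb hinj, res_amb hinj] at this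
  constructor
  · intro B hB hBD
    obtain ⟨b, μ, hb, hbD, hi⟩ := first_main_surj' hM.1 (natCast_F hM) hinj hN (isBlk_eB hM hB)
      (hBD.isDef hM hB)
    obtain ⟨c, hc, rfl, hi'⟩ := exists_block_of_indAlong hM hb hi
    have ht := trunc_eq_trunc_amb_of_indAlong hM.1 (natCast_F hM) hinj hN hP (isBlk_eB hM hc) hbD
      (isBlk_eB hM hB) hi'
    refine ⟨c, ⟨hc, (isDefectGroup_iff hM hc).2 hbD, (key B c hB hc).2 ht⟩, ?_⟩
    rintro c' ⟨hc', -, h'⟩
    exact (uniq c c' hc hc' hbD (ht.symm.trans ((key B c' hB hc').1 h'))).symm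
  · intro c hc hcD
    have hmap : (P.subgroupOf H).map H.subtype = P := by
      rw [Subgroup.subgroupOf_map_subtype, inf_eq_left.2 hPH]
    obtain ⟨B, hB⟩ := inducedBlockDefined_of_isDefectGroup hM hc hcD
      (by rw [hmap]; exact (Subgroup.centralizer_le_normalizer _).trans hH)
    have hBD := first_main_isDef' hM.1 (natCast_F hM) hinj hN hP (isBlk_eB hM hc) (hcD.isDef hM hc)
      (isBlk_eB hM hB.2.1) (hB.indAlong hM)
    have ht := trunc_eq_trunc_amb_of_indAlong hM.1 (natCast_F hM) hinj hN hP (isBlk_eB hM hc)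
      (hcD.isDef hM hc) (isBlk_eB hM hB.2.1) (hB.indAlong hM)
    refine ⟨B, ⟨hB.2.1, (isDefectGroup_iff hM hB.2.1).2 hBD, (key B c hB.2.1 hc).2 ht⟩, ?_⟩
    rintro B' ⟨hB', -, h'⟩
    exact (eq_of_eB_eq hM hB.2.1 hB' ((isBlk_eB hM hB.2.1).eq_of_trunc_eq (isBlk_eB hM hB') hM.1
      (natCast_F hM) hP hBD.brNe (ht.trans ((key B' c hB' hc).1 h').symm))).symm

end Cfsg.Agent.S4670
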