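import Cfsg.Statements.S4672
import Cfsg.Agent.BLK.Cover2

set_option autoImplicit false
open Cfsg

namespace Cfsg.Agent.S4672

/-- Fix a prime p and a maximal ideal M of the algebraic integers containing p. Let N be a normal subgroup of the finite group G of p-power index and c a p-block of N stable under conjugation by G. Then the idempotent of c is a block idempotent of G: there is a p-block B of G whose idempotent coefficients agree with those of c on N and vanish off N; and for every defect group P of such a block B, G = NP and P ∩ N is a defect group of c. -/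
theorem result {G : Type*} [Group G] [Fintype G] (p : ℕ) [Fact p.Prime] (M : Ideal Cfsg.AlgInt) (hM : Cfsg.IsPModular p M) (N : Subgroup G) [N.Normal] (hN : ∃ k : ℕ, N.index = p ^ k) (c : Set (Cfsg.IrrCharacter N)) (hc : Cfsg.IsPBlock M c) (hst : ∀ x : G, Cfsg.StabilizesBlock N c x) : (∃ B : Set (Cfsg.IrrCharacter G), Cfsg.IsPBlock M B ∧ ∀ g : G, Cfsg.blockCoeff B g = Cfsg.subgroupBlockCoeff N c g) ∧ ∀ B : Set (Cfsg.IrrCharacter G), Cfsg.IsPBlock M B → (∀ g : G, Cfsg.blockCoeff B g = Cfsg.subgroupBlockCoeff N c g) → ∀ P : Subgroup G, Cfsg.IsDefectGroup p M B P → N ⊔ P = ⊤ ∧ Cfsg.IsDefectGroup p M c ((P ⊓ N).subgroupOf N) := by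
  obtain ⟨k, hk⟩ := hN
  rw [← Subgroup.relIndex_top_right] at hk
  have hf : CL.Blk.IsFixed ⊤ (CL.Blk.sb M N c) := CL.Blk.isFixed_iff_cj.2 fun x _ =>
    (CL.Blk.cj_sb_eq_iff c x).2 ((CL.Blk.stabilizesBlock_iff_cjN hM hc x).1 (hst x))
  have hsb := CL.Blk.isSB_sb hM hc
  have h1 := hsb.of_fixed_of_relIndex hM le_top Subgroup.le_normalizer_of_normal hk hf
  constructor
  · obtain ⟨B, hB, h2⟩ := h1.exists_block_top hM
    exact ⟨B, hB, (CL.Blk.forall_blockCoeff_eq_iff_eB hM hc hB).2 h2.symm⟩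
  · intro B hB h P hP
    have h2 := (CL.Blk.isDefectGroup_iff_sDef_top hM hB).1 hP
    rw [(CL.Blk.forall_blockCoeff_eq_iff_eB hM hc hB).1 h] at h2
    refine ⟨h2.sup_eq_of_relIndex hM.1 (CL.Blk.natCast_F hM) hsb le_top
      Subgroup.le_normalizer_of_normal hk hf, ?_⟩
    refine (CL.Blk.isDefectGroup_subgroupOf_iff hM hc inf_le_right).2 ?_
    exact h2.inf_of_fixed hM.1 (CL.Blk.natCast_F hM) h1 hsb le_top Subgroup.le_normalizer_of_normal
      (by rw [hsb.idem]; exact hsb.ne_zero) hf

end Cfsg.Agent.S4672
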