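import Cfsg.Statements.S4673
import Cfsg.Agent.BLK.Cover2

set_option autoImplicit false
open Cfsg

namespace Cfsg.Agent.S4673

/-- Fix a prime p and a maximal ideal M of the algebraic integers containing p. Let N ≤ L be normal subgroups of the finite group G with L/N a p-group, let B be a p-block of G covering the p-block c of N (some member of B has a constituent in c on restriction to N), and suppose that N contains a defect group of B. Then the stabilizer T of c in G satisfies T ∩ L = N. -/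
theorem result {G : Type*} [Group G] [Fintype G] (p : ℕ) [Fact p.Prime] (M : Ideal Cfsg.AlgInt) (hM : Cfsg.IsPModular p M) (N L : Subgroup G) [N.Normal] [L.Normal] [Fintype N] (hNL : N ≤ L) (hLN : ∃ k : ℕ, (N.subgroupOf L).index = p ^ k) (B : Set (Cfsg.IrrCharacter G)) (hB : Cfsg.IsPBlock M B) (c : Set (Cfsg.IrrCharacter N)) (hc : Cfsg.IsPBlock M c) (hcov : (∃ χ ∈ B, ∃ θ ∈ c, Cfsg.classInner (fun n : N => (χ : G → ℂ) n) (θ : N → ℂ) ≠ 0)) (hD : ∃ D : Subgroup G, Cfsg.IsDefectGroup p M B D ∧ D ≤ N) (T : Subgroup G) (hT : ∀ x : G, x ∈ T ↔ Cfsg.StabilizesBlock N c x) : T ⊓ L = N := by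
  obtain ⟨k, hk⟩ := hLN
  change N.relIndex L = p ^ k at hk
  obtain ⟨D, hD, hDN⟩ := hD
  have hp := hM.1
  have hF := CL.Blk.natCast_F hM
  have hsb := CL.Blk.isSB_sb hM hc
  have he := CL.Blk.isSB_top_eB hM hB
  have hcov' := (CL.Blk.eB_mul_sb_ne_zero_iff hM hB hc).2 hcov
  have hfix : ∀ x, x ∈ T ↔ CL.Blk.cj x (CL.Blk.sb M N c) = CL.Blk.sb M N c := fun x => by
    rw [hT, CL.Blk.stabilizesBlock_iff_cjN hM hc, CL.Blk.cj_sb_eq_iff]
  have hNT : N ≤ T ⊓ L := le_inf (fun x hx => (hfix x).2 (hsb.fixed.cj_eq hx)) hNL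
  refine le_antisymm ?_ hNT
  obtain ⟨S, hS⟩ := CL.MSS.exists_sylIn p (T ⊓ L)
  obtain ⟨P, hP, h1, h2⟩ := hsb.exists_brNe_sup_eq hp hF hS.pgroup Subgroup.le_normalizer_of_normal
    (CL.Blk.isFixed_iff_cj.2 fun x hx => (hfix x).1 (hS.le hx).1)
  obtain ⟨j, -, hj⟩ := (Nat.dvd_prime_pow hp).1 (hk ▸ CL.Blk.relIndex_dvd_relIndex_of_normalizer
    (N := N) (C := T ⊓ L) (K := L) Subgroup.le_normalizer_of_normal inf_le_right)
  rw [CL.Blk.sup_eq_of_sylIn_of_relIndex hp hS hNT hj] at h2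
  have hPT : P ≤ T ⊓ L := le_sup_right.trans h2.le
  have hd := hsb.isSB_orbSum_of_relIndex hM hNL Subgroup.le_normalizer_of_normal hk
  have hmul := hsb.orbSum_mul (N := L) Subgroup.le_normalizer_of_normal
  have h3 : CL.Blk.BrNe P (CL.Blk.orbSum L (CL.Blk.sb M N c)) := by
    rw [← hmul] at h1
    exact h1.of_mul_left hp hF hP (hd.fixed.mono (hPT.trans inf_le_right))
      (CL.Blk.isFixed_iff_cj.2 fun x hx => (hfix x).1 (hPT hx).1)
  have h4 := he.brNe_of_cov hp hF hd le_top Subgroup.le_normalizer_of_normal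
    (fun h0 => hcov' (by rw [← hmul, ← mul_assoc, h0, zero_mul])) hP (hPT.trans inf_le_right) h3
  obtain ⟨x, hx⟩ := (hD.isDef hM hB).inDef P hP h4
  rw [← h2]
  refine sup_le le_rfl ?_
  have h5 := hx.trans hDN
  rwa [← CL.MSS.cj_eq_of_normal x N, CL.MSS.cj_le_cj_iff] at h5

end Cfsg.Agent.S4673
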