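import Cfsg.Statements.S4674
import Cfsg.Agent.BLK.HarrisKnorr

set_option autoImplicit false
open Cfsg

namespace Cfsg.Agent.S4674

/-- Fix a prime p and a maximal ideal M of the algebraic integers containing p. Let N be a normal subgroup of the finite group G, Q a p-subgroup of N, H = N_G(Q) and L = H ∩ N = N_N(Q). Let d be a p-block of N with defect group Q and e the p-block of L with defect group Q that induces d inside N (its Brauer correspondent). Then block induction from H to G is a bijection from the p-blocks of H covering e onto the p-blocks of G covering d: every block of H covering e induces exactly one block of G, and that block covers d; and every block of G covering d is induced by exactly one block of H covering e. -/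
theorem result {G : Type*} [Group G] [Fintype G] (p : ℕ) [Fact p.Prime] (M : Ideal Cfsg.AlgInt) (hM : Cfsg.IsPModular p M) (N : Subgroup G) [N.Normal] [Fintype N] (Q : Subgroup G) (hQ : IsPGroup p Q) (hQN : Q ≤ N) [Fintype ↥(Subgroup.normalizer (Q : Set G) ⊓ N)] (d : Set (Cfsg.IrrCharacter N)) (hd : Cfsg.IsPBlock M d) (hdQ : Cfsg.IsDefectGroup p M d (Q.subgroupOf N)) (e : Set (Cfsg.IrrCharacter ↥(Subgroup.normalizer (Q : Set G) ⊓ N))) (he : Cfsg.IsPBlock M e) (heQ : Cfsg.IsDefectGroup p M e (Q.subgroupOf (Subgroup.normalizer (Q : Set G) ⊓ N))) (hed : Cfsg.IsInducedBlockIn M N (Subgroup.normalizer (Q : Set G) ⊓ N) e d) : (∀ c : Set (Cfsg.IrrCharacter ↥(Subgroup.normalizer (Q : Set G))), Cfsg.IsPBlock M c → (∃ ψ ∈ c, ∃ ξ ∈ e, Cfsg.classInner (fun l : ↥(Subgroup.normalizer (Q : Set G) ⊓ N) => (ψ : ↥(Subgroup.normalizer (Q : Set G)) → ℂ) (Subgroup.inclusion inf_le_left l)) (ξ : ↥(Subgroup.normalizer (Q : Set G) ⊓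 N) → ℂ) ≠ 0) → ∃! B : Set (Cfsg.IrrCharacter G), Cfsg.IsInducedBlock M (Subgroup.normalizer (Q : Set G)) c B ∧ (∃ χ ∈ B, ∃ θ ∈ d, Cfsg.classInner (fun n : N => (χ : G → ℂ) n) (θ : N → ℂ) ≠ 0)) ∧ (∀ B : Set (Cfsg.IrrCharacter G), Cfsg.IsPBlock M B → (∃ χ ∈ B, ∃ θ ∈ d, Cfsg.classInner (fun n : N => (χ : G → ℂ) n) (θ : N → ℂ) ≠ 0) → ∃! c : Set (Cfsg.IrrCharacter ↥(Subgroup.normalizer (Q : Set G))), (Cfsg.IsPBlock M c ∧ ∃ ψ ∈ c, ∃ ξ ∈ e, Cfsg.classInner (fun l : ↥(Subgroup.normalizer (Q : Set G) ⊓ N) => (ψ : ↥(Subgroup.normalizer (Q : Set G)) → ℂ) (Subgroup.inclusion inf_le_left l)) (ξ : ↥(Subgroup.normalizer (Q : Set G) ⊓ N) → ℂ) ≠ 0) ∧ Cfsg.IsInducedBlock M (Subgroup.normalizer (Q : Set G)) c B) := by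
  classical
  have hp := hM.1
  have hF := CL.Blk.natCast_F hM
  have h1 := CL.Blk.Br_sb_eq_of_isInducedBlockIn hM hQN hdQ hed
  have hd' := CL.Blk.isSB_sb hM hd
  have hdQ' := (CL.Blk.isDefectGroup_subgroupOf_iff hM hd hQN).1 hdQ
  have he' := CL.Blk.isSB_sb hM he
  have heQ' := (CL.Blk.isDefectGroup_subgroupOf_iff hM he
    (le_inf Subgroup.le_normalizer hQN)).1 heQ
  have key : ∀ c B, IsInducedBlock M (Subgroup.normalizer (Q : Set G)) c B →
      (CL.Blk.eB M B * CL.Blk.sb M N d ≠ 0 ↔ CL.Blk.sb M _ c * CL.Blk.sb M _ e ≠ 0) := fun c B h => by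
    obtain ⟨hc, hB, hi⟩ := (CL.Blk.isInducedBlock_iff hM).1 h
    rw [hdQ'.cov_iff_of_indAlong hp hF hd' (CL.Blk.isBlk_eB hM hc) (CL.Blk.isBlk_eB hM hB) hi, h1]
    rfl
  constructor
  · intro c hc hce
    have h2 := (CL.Blk.sb_mul_sb_ne_zero_iff hM inf_le_left hc he).2 hce
    obtain ⟨B, hB, hi⟩ := CL.Blk.exists_block_indAlong hM ((CL.Blk.inducedBlockDefined_iff hM).1
      (CL.Blk.inducedBlockDefined_of_local hM hQ Subgroup.le_normalizer
        (Subgroup.centralizer_le_normalizer _) le_rfl hc)).2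
    have h3 := (CL.Blk.isInducedBlock_iff hM).2 ⟨hc, hB, hi⟩
    refine ⟨B, ⟨h3, (CL.Blk.eB_mul_sb_ne_zero_iff hM hB hd).1 ((key c B h3).2 h2)⟩, fun B' h => ?_⟩
    obtain ⟨-, hB', hi'⟩ := (CL.Blk.isInducedBlock_iff hM).1 h.1
    exact CL.Blk.block_unique_of_indAlong hM hB' hB hi' hi
  · intro B hB hBd
    have h2 := (CL.Blk.eB_mul_sb_ne_zero_iff hM hB hd).2 hBd
    have h3 := (CL.Blk.isSB_top_eB hM hB).brNe_of_cov hp hF hd' le_top
      Subgroup.le_normalizer_of_normal h2 hQ hQN hdQ'.brNe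
    have hr := Subgroup.range_subtype (Subgroup.normalizer (Q : Set G))
    obtain ⟨c₀, μ, hc₀, hi₀⟩ := (CL.Blk.isBlk_eB hM hB).exists_indAlong_of_local hp hF hQ
      (Subgroup.subtype_injective (Subgroup.normalizer (Q : Set G)))
      (hr.symm ▸ Subgroup.le_normalizer) (hr.symm ▸ Subgroup.centralizer_le_normalizer _) hr.le h3
    obtain ⟨c, hc, -, hi⟩ := CL.Blk.exists_block_of_indAlong hM hc₀ hi₀
    have h4 := (CL.Blk.isInducedBlock_iff hM).2 ⟨hc, hB, hi⟩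
    have h5 := (key c B h4).1 h2
    refine ⟨c, ⟨⟨hc, (CL.Blk.sb_mul_sb_ne_zero_iff hM inf_le_left hc he).1 h5⟩, h4⟩, fun c' h => ?_⟩
    obtain ⟨hc', -, hi'⟩ := (CL.Blk.isInducedBlock_iff hM).1 h.2
    exact CL.Blk.eq_of_eB_eq hM hc' hc (CL.Blk.eq_of_cov_of_indAlong hp hF he' heQ'
      (CL.Blk.isBlk_eB hM hc') (CL.Blk.isBlk_eB hM hc) ((key c' B h.2).1 h2) h5
      (CL.Blk.isBlk_eB hM hB) hi' hi)

end Cfsg.Agent.S4674
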