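import Cfsg.Statements.S4675
import Cfsg.Agent.BLK.RegChar
import Cfsg.Agent.S0908

set_option autoImplicit false
open Cfsg

namespace Cfsg.Agent.S4675

open CL.Blk CL.Char

/-- Fix a prime p and a maximal ideal M of the algebraic integers containing p. Let B be a p-block of the finite group G with defect group P and p-regular rank one (a single irreducible Brauer character). Then there are a function φ on G that is, on the p-regular elements, an integer combination of the members of B, and natural numbers d_χ (χ ∈ B), such that every χ ∈ B agrees with d_χ·φ on the p-regular elements and Σ_{χ ∈ B} d_χ² equals the order of P (the single Cartan invariant of B is the order of P). -/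
theorem result {G : Type*} [Group G] [Fintype G] (p : ℕ) [Fact p.Prime] (M : Ideal Cfsg.AlgInt) (hM : Cfsg.IsPModular p M) (B : Set (Cfsg.IrrCharacter G)) (hB : Cfsg.IsPBlock M B) (P : Subgroup G) (hP : Cfsg.IsDefectGroup p M B P) (hl : Cfsg.blockRank p B = 1) : ∃ φ : G → ℂ, ∃ d : Cfsg.IrrCharacter G → ℕ, (∃ n : Cfsg.IrrCharacter G → ℤ, ∀ x : G, Cfsg.IsPRegular p x → φ x = ∑ᶠ ψ ∈ B, (n ψ : ℂ) * (ψ : G → ℂ) x) ∧ (∀ χ ∈ B, ∀ x : G, Cfsg.IsPRegular p x → (χ : G → ℂ) x = (d χ : ℂ) * φ x) ∧ ∑ᶠ χ ∈ B, d χ ^ 2 = Nat.card P := by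
  classical
  obtain ⟨S⟩ := exists_basicSet hM hB
  have hl1 : S.l = 1 := by rw [← S.blockRank_eq, hl]
  have hsub : Subsingleton (Fin S.l) := by rw [hl1]; infer_instance
  let i : Fin S.l := ⟨0, by omega⟩
  have hC := S.C_eq_of_l_eq_one hM hB hl1 i
  have hdeg : ∀ χ ∈ B, (charDegree χ.1 : ℤ) = S.D χ i * S.deg i := fun χ hχ => by
    rw [S.degree_eq hM.1 hχ, Fintype.sum_subsingleton _ i]
  let ε : ℤ := Int.sign (S.deg i)
  have hε : ∀ χ ∈ B, ((S.D χ i).natAbs : ℤ) * ε = S.D χ i := fun χ hχ => by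
    have h1 : 0 < S.D χ i * S.deg i := by
      rw [← hdeg χ hχ]
      exact_mod_cast charDegree_pos χ
    rcases pos_and_pos_or_neg_and_neg_of_mul_pos h1 with ⟨h2, h3⟩ | ⟨h2, h3⟩
    · simp [ε, Int.sign_eq_one_of_pos h3, abs_of_pos h2]
    · simp [ε, Int.sign_eq_neg_one_of_neg h3, abs_of_neg h2]
  refine ⟨fun x => ε * S.φ i x, fun χ => (S.D χ i).natAbs, ⟨fun χ => ε * S.L i χ, fun x hx => ?_⟩,
    fun χ hχ x hx => ?_, ?_⟩
  · beta_reduce
    rw [S.φ_of i hx, zcomb_apply, finsum_mem_block_eq_ite, Finset.mul_sum]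
    refine Finset.sum_congr rfl fun χ _ => ?_
    split_ifs with hχ
    · push_cast
      ring
    · simp [S.L_zero χ hχ i]
  · have h1 := S.apply_eq hχ hx
    rw [Fintype.sum_subsingleton _ i] at h1
    rw [← mul_assoc]
    refine h1.trans ?_
    congr 1
    beta_reduce
    rw [← Int.cast_natCast, ← Int.cast_mul, hε χ hχ]
  · rw [Cfsg.Agent.S0908.result p M hM B hB P hP, finsum_mem_block_eq_ite]
    zify
    rw [← hC, S.C_apply]
    refine Finset.sum_congr rfl fun χ _ => ?_
    split_ifs with hχ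
    · simp [sq]
    · simp [S.D_zero χ hχ i]

end Cfsg.Agent.S4675
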