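import Cfsg.Statements.S4682
import Cfsg.Agent.BLK.PairDict

set_option autoImplicit false
open Cfsg

namespace Cfsg.Agent.S4682

/-- Fix a prime p and a maximal ideal M of the algebraic integers containing p, a p-block B of the finite group G with maximal Brauer pair (P, e), P abelian, and a Brauer pair (Q, f) ≤ (P, e). Let T_Q be the stabilizer of f in N_G(Q) and T_P the stabilizer of e in N_G(P). Then every element of T_Q is a product of an element of T_P and an element of C_G(Q); and the index of C_G(Q) in T_Q equals the index of T_P ∩ C_G(Q) in T_P ∩ N_G(Q). -/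
theorem result {G : Type*} [Group G] [Fintype G] (p : ℕ) [Fact p.Prime] (M : Ideal Cfsg.AlgInt) (hM : Cfsg.IsPModular p M) (B : Set (Cfsg.IrrCharacter G)) (P : Subgroup G) (e : Set (Cfsg.IrrCharacter (Subgroup.centralizer (P : Set G)))) (hmax : Cfsg.IsMaximalBrauerPair p M B P e) (hab : ∀ x ∈ P, ∀ y ∈ P, x * y = y * x) (Q : Subgroup G) (f : Set (Cfsg.IrrCharacter (Subgroup.centralizer (Q : Set G)))) (hQP : Q ≤ P) (hf : Cfsg.IsPBlock M f) (hle : Cfsg.SubpairLE p M Q f P e) (TQ : Subgroup G) (hTQ : ∀ y : G, y ∈ TQ ↔ y ∈ Subgroup.normalizer (Q : Set G) ∧ Cfsg.StabilizesBlock (Subgroup.centralizer (Q : Set G)) f y) (TP : Subgroup G) (hTP : ∀ y : G, y ∈ TP ↔ y ∈ Subgroup.normalizer (P : Set G) ∧ Cfsg.StabilizesBlock (Subgroup.centralizer (P : Set G)) e y) : (∀ x ∈ TQ, ∃ y ∈ TP, ∃ c ∈ Subgroup.centralizer (Q : Set G), x = y * c) ∧ ((Subgroup.centralizer (Q : Set G)).subgroupOf TQ).index = ((TP ⊓ Subgroup.centralizer (Q : Set G)).subgroupOf (TP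 ⊓ Subgroup.normalizer (Q : Set G))).index := by
  have hp := hM.1
  have hF := CL.Blk.natCast_F hM
  have hP := hmax.relPair hM
  have hPd := hmax.sDef hM
  have hb := hmax.isSB hM
  have h := hle.ple hM
  have hQ := h.left hP.pair
  obtain rfl := CL.Blk.eq_pairStab hM hf hTQ
  obtain rfl := CL.Blk.eq_pairStab hM hmax.1.1.2 hTP
  have hPQ : P ≤ Subgroup.centralizer (Q : Set G) := fun x hx y hy => hab y (hQP hy) x hx
  have hd := hP.sDef_cent_of_comm hp hF hb hPd h le_top hPQ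
  have key : ∀ x ∈ CL.Blk.pairStab Q (CL.Blk.sb M _ f), ∃ y ∈ CL.Blk.pairStab P (CL.Blk.sb M _ e) ⊓
      Subgroup.normalizer (Q : Set G), ∃ c ∈ Subgroup.centralizer (Q : Set G), x = y * c := by
    intro x hx
    obtain ⟨c, hc, h1⟩ := h.exists_cent_mul_mem hp hF hP.pair hd (inv_mem hx)
    refine ⟨(c * x⁻¹)⁻¹, inv_mem ⟨h1, mul_mem (Subgroup.centralizer_le_normalizer _ hc)
      ((Subgroup.normalizer (Q : Set G)).inv_mem hx.1)⟩, c, hc, by group⟩
  refine ⟨fun x hx => let ⟨y, hy, h1⟩ := key x hx; ⟨y, hy.1, h1⟩, ?_⟩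
  have h1 : CL.Blk.pairStab Q (CL.Blk.sb M _ f) = (CL.Blk.pairStab P (CL.Blk.sb M _ e) ⊓
      Subgroup.normalizer (Q : Set G)) ⊔ Subgroup.centralizer (Q : Set G) := by
    refine le_antisymm (fun x hx => ?_) (sup_le (h.pairStab_inf_le hp hF hP.pair) hQ.cent_le_pairStab)
    obtain ⟨y, hy, c, hc, rfl⟩ := key x hx
    exact Subgroup.mul_mem_sup hy hc
  change Subgroup.relIndex _ (CL.Blk.pairStab Q (CL.Blk.sb M _ f)) =
    Subgroup.relIndex (CL.Blk.pairStab P (CL.Blk.sb M _ e) ⊓ _) (CL.Blk.pairStab P (CL.Blk.sb M _ e) ⊓ _)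
  rw [h1, CL.Blk.relIndex_sup_eq_of_normalizes (CL.MSS.le_normalizer_centralizer inf_le_right),
    ← Subgroup.inf_relIndex_right, eq_comm, ← Subgroup.inf_relIndex_right]
  congr 1
  exact le_antisymm (inf_le_inf_right _ inf_le_right)
    (le_inf (le_inf (inf_le_right.trans inf_le_left) inf_le_left) inf_le_right)

end Cfsg.Agent.S4682
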