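import Cfsg.Statements.S4693
import Cfsg.Agent.BLK.PairApp

set_option autoImplicit false
open Cfsg

namespace Cfsg.Agent.S4693

/-- Fix a prime p and a maximal ideal M of the algebraic integers containing p, a p-block B of the finite group G with maximal Brauer pair (P, e) and fusion system F on P, and a Brauer pair (Q, f) ≤ (P, e) with Q centric in F. Suppose every element of G normalizes Q and stabilizes f. Then the idempotent of B agrees with that of f modulo M at every element of G, and f is the idempotent of a nilpotent block of Q·C_G(Q): some p-block of Q·C_G(Q) has the idempotent coefficients of f and is nilpotent. -/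
theorem result {G : Type*} [Group G] [Fintype G] (p : ℕ) [Fact p.Prime] (M : Ideal Cfsg.AlgInt) (hM : Cfsg.IsPModular p M) (B : Set (Cfsg.IrrCharacter G)) (P : Subgroup G) (e : Set (Cfsg.IrrCharacter (Subgroup.centralizer (P : Set G)))) (hmax : Cfsg.IsMaximalBrauerPair p M B P e) (F : Cfsg.FusionSystem P) (hF : Cfsg.IsBlockFusionSystemOn p M B P e F) (Q : Subgroup G) (f : Set (Cfsg.IrrCharacter (Subgroup.centralizer (Q : Set G)))) (hQP : Q ≤ P) (hf : Cfsg.IsPBlock M f) (hle : Cfsg.SubpairLE p M Q f P e) (hcen : F.IsCentric Q) (hG : ∀ x : G, x ∈ Subgroup.normalizer (Q : Set G) ∧ Cfsg.StabilizesBlock (Subgroup.centralizer (Q : Set G)) f x) : (∀ g : G, Cfsg.MemLocalIdeal M (Cfsg.blockCoeff B g - Cfsg.subgroupBlockCoeff (Subgroup.centralizer (Q : Set G)) f g)) ∧ ∃ F' : Set (Cfsg.IrrCharacter ↥(Q ⊔ Subgroup.centralizer (Q : Set G))), Cfsg.IsPBlock M F' ∧ (∀ t : ↥(Q ⊔ Subgroup.centralizer (Q : Set G)), Cfsg.blockCoeff F' t = Cfsg.subgroupBlockCoeff (Subgroup.centralizer (Q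 : Set G)) f (t : G)) ∧ Cfsg.IsNilpotentBlock p M F' := by
  have hp := hM.1
  have hF' := CL.Blk.natCast_F hM
  have hP := hmax.relPair hM
  have hPd := hmax.sDef hM
  have hb := hmax.isSB hM
  have h := hle.ple hM
  have hQ := h.left hP.pair
  have hR := hP.of_ple' hp hF' hb h le_top
  have hT : ⊤ ≤ CL.Blk.pairStab Q (CL.Blk.sb M _ f) := fun x _ =>
    (CL.Blk.mem_normalizer_and_stabilizes_iff hM hf).1 (hG x)
  have hd := ((hF.isPairFus hM).isCentric_iff hp hF' hb hP hPd h).1 hcen
  constructor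
  · have h1 : CL.Blk.eB M B = CL.Blk.sb M _ f := by
      refine hb.eq_of_mul_ne_zero (hQ.isSB_of_le hp hF' le_top le_top hT) fun h0 => hQ.ne_zero ?_
      rw [← hR.br, (hb.suppIn_centralizer hp hF' hQ.pgroup le_top (hT.trans inf_le_left)).Br_eq, h0]
    intro g
    rw [CL.Blk.memLocalIdeal_blockCoeff_sub_iff hM hmax.1.2.1 hf, h1]
    rfl
  · have h1 := hQ.isSB_of_le hp hF' (le_sup_left : Q ≤ Q ⊔ Subgroup.centralizer (Q : Set G))
      le_sup_right (le_top.trans hT)
    obtain ⟨E, hE, h2, h3⟩ := CL.Blk.exists_block_coeff_eq hM le_sup_right hf h1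
    refine ⟨E, hE, h3, (CL.Blk.isNilpotentBlock_iff_nilIn hM).2 ⟨hE, ?_⟩⟩
    rw [h2]
    exact (h1.sDef_sup hp hF' (CL.MSS.le_normalizer_centralizer Subgroup.le_normalizer) hQ.pgroup
      hQ.brNe hd).nilIn le_rfl

end Cfsg.Agent.S4693
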