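import Cfsg.Statements.S4694
import Cfsg.Agent.BLK.PairApp

set_option autoImplicit false
open Cfsg

namespace Cfsg.Agent.S4694

/-- Fix a prime p and a maximal ideal M of the algebraic integers containing p, a p-block B of the finite group G and a Brauer pair (Q, e) of B. Let T be the stabilizer of e in N_G(Q) and suppose that (Q, e) carries a weight: the block of T whose idempotent is that of e contains an irreducible character χ that is constant on the cosets of Q and whose degree has p-part equal to the p-part of the index of Q in T. Then Z(Q) is a defect group of e as a block of C_G(Q), and Q is the largest normal p-subgroup of T: every p-subgroup of T normalized by T lies in Q. -/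
theorem result {G : Type*} [Group G] [Fintype G] (p : ℕ) [Fact p.Prime] (M : Ideal Cfsg.AlgInt) (hM : Cfsg.IsPModular p M) (B : Set (Cfsg.IrrCharacter G)) (Q : Subgroup G) (e : Set (Cfsg.IrrCharacter (Subgroup.centralizer (Q : Set G)))) (hQe : Cfsg.IsBrauerPairOf p M B Q e) (T : Subgroup G) (hT : ∀ y : G, y ∈ T ↔ y ∈ Subgroup.normalizer (Q : Set G) ∧ Cfsg.StabilizesBlock (Subgroup.centralizer (Q : Set G)) e y) (F' : Set (Cfsg.IrrCharacter T)) (hF' : Cfsg.IsPBlock M F') (hF'e : ∀ t : T, Cfsg.blockCoeff F' t = Cfsg.subgroupBlockCoeff (Subgroup.centralizer (Q : Set G)) e (t : G)) (χ : Cfsg.IrrCharacter T) (hχ : χ ∈ F') (hχQ : ∀ q : G, q ∈ Q → ∀ t : T, ∀ t' : T, (t' : G) = q * (t : G) → (χ : T → ℂ) t' = (χ : T → ℂ) t) (hdeg : (Cfsg.charDegree (χ : T → ℂ)).factorization p + (Nat.card Q).factorization p = (Nat.card T).factorization p) : Cfsg.IsDefectGroup p M e ((Q ⊓ Subgroup.centralizer (Q : Set G)).subgroupOf (Subgroup.centralizer (Q : Set G))) ∧ ∀ R : Subgroup G, R ≤ T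 → IsPGroup p R → (∀ t ∈ T, t ∈ Subgroup.normalizer (R : Set G)) → R ≤ Q := by
  have hp := hM.1
  have hQ := CL.Blk.isPair_sb hM hQe.1
  obtain rfl := CL.Blk.eq_pairStab hM hQe.1.2 hT
  have hQT := hQ.le_pairStab
  haveI := Subgroup.normal_subgroupOf_of_le_normalizer
    (inf_le_left : CL.Blk.pairStab Q (CL.Blk.sb M _ e) ≤ _)
  obtain ⟨ψ, rfl⟩ := CL.Blk.exists_infl_eq_of_mem_kerSet (D := Q.subgroupOf _) (χ := χ)
    fun n hn => hχQ n hn 1 n (by simp)
  have hψ : CL.Blk.DefZero p ψ := (CL.Blk.factorization_index_subgroupOf hQT).2 hdeg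
  refine ⟨(CL.Blk.sDef_center_of_weight hM hQe.1 hQ.cent_le_pairStab inf_le_left hF'
    ((CL.Blk.forall_blockCoeff_eq_iff_sb hM hQ.cent_le_pairStab hQe.1.2 hF').1 hF'e) hψ
    hχ).isDefectGroup hM hQe.1.2, fun R hR hRp hn => ?_⟩
  have hN := (Subgroup.normal_subgroupOf_of_le_normalizer hn).map
    (QuotientGroup.mk' (Q.subgroupOf (CL.Blk.pairStab Q (CL.Blk.sb M _ e))))
    (QuotientGroup.mk'_surjective _)
  have h1 := @CL.Blk.DefZero.eq_bot_of_normal _ _ _ _ _ hM _ hψ _ hN
    ((hRp.comap_subtype (K := CL.Blk.pairStab Q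
    (CL.Blk.sb M _ e))).map (QuotientGroup.mk' (Q.subgroupOf _)))
  rw [Subgroup.map_eq_bot_iff, QuotientGroup.ker_mk'] at h1
  exact fun x hx => h1 (x := ⟨x, hR hx⟩) hx

end Cfsg.Agent.S4694
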