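import Cfsg.Statements.S4695
import Cfsg.Agent.BLK.CycMain

set_option autoImplicit false
open Cfsg

namespace Cfsg.Agent.S4695

/-- Let p be a prime, M a maximal ideal of the algebraic integers containing p, and B a p-block of the finite group G whose defect group D is cyclic of order p^a with a ≥ 1. Let C = C_G(D), let b be a block of C inducing B, let T be the stabilizer of b in N_G(D) (the elements g of N_G(D) such that the g-conjugate of every member of b is again in b), and let e be the index of C in T (the inertial index of B). Then the p-regular rank of B (the dimension of the span of the restrictions of its members to the p-regular elements, classically the number l(B) of irreducible Brauer characters in B) equals e. -/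
theorem result {G : Type*} [Group G] [Finite G] (p : ℕ) [Fact p.Prime] (M : Ideal Cfsg.AlgInt) (hM : Cfsg.IsPModular p M) (D : Subgroup G) (hD : IsCyclic D) (a : ℕ) (ha : 1 ≤ a) (hDa : Nat.card D = p ^ a) (B : Set (Cfsg.IrrCharacter G)) (hB : Cfsg.IsPBlock M B) (hBD : Cfsg.IsDefectGroup p M B D) (b : Set (Cfsg.IrrCharacter (Subgroup.centralizer (D : Set G)))) (hind : Cfsg.IsInducedBlock M (Subgroup.centralizer (D : Set G)) b B) (T : Subgroup G) (hT : ∀ g : G, g ∈ T ↔ (g ∈ Subgroup.normalizer (D : Set G) ∧ ∀ θ ∈ b, ∀ θ' : Cfsg.IrrCharacter (Subgroup.centralizer (D : Set G)), (∀ h h' : Subgroup.centralizer (D : Set G), (h' : G) = g * h * g⁻¹ → (θ' : Subgroup.centralizer (D : Set G) → ℂ) h' = (θ : Subgroup.centralizer (D : Set G) → ℂ) h) → θ' ∈ b)) (e : ℕ) (he : (Subgroup.centralizer (D : Set G)).relIndex T = e) : Cfsg.blockRank p B = e := by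
  classical
  have := Fintype.ofFinite G
  obtain ⟨-, hb, hr⟩ := (CL.Blk.isInducedBlock_iff_relPair hM
    ((CL.Blk.isDefectGroup_iff_sDef_top hM hB).1 hBD).pgroup).1 hind
  obtain ⟨Z, hZ, hZc⟩ := CL.Cyc.exists_le_card_eq hM.1 hr.pair.pgroup (D := D) (by
    rintro rfl
    rw [Subgroup.card_bot] at hDa
    exact (Nat.one_lt_pow (by omega) hM.1.one_lt).ne hDa)
  obtain ⟨c, hc⟩ := CL.Cyc.exists_setup_of_le hM hB hr hBD hD hZ hZc
  obtain ⟨θ₀, h⟩ := hc.exists_loc'
  obtain ⟨X, ψ, δ, ε, s⟩ := h.exists_str
  have hT' : T = CL.Blk.pairStab D (CL.Blk.sb M _ b) := Subgroup.ext fun g => by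
    rw [hT]
    exact and_congr_right fun hg => CL.Blk.forall_conj_mem_iff hM
      (CL.MSS.cj_eq_of_mem_normalizer (CL.MSS.normalizer_le_normalizer_centralizer D hg)) hb hb
  rw [s.rank_eq, ← he, hT']

end Cfsg.Agent.S4695
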