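import Cfsg.Statements.S4697
import Cfsg.Agent.BLK.KBound2

set_option autoImplicit false
open Cfsg

namespace Cfsg.Agent.S4697

open CL.Blk CL.Char

/-- Let p be a prime, M a maximal ideal of the algebraic integers containing p, and B a p-block of the finite group G with an abelian defect group D of order p^d. If D has rank 2 (its least number of generators is 2) then B contains at most p^d irreducible characters; if D has rank 3 then the number k of irreducible characters in B satisfies k^3 ≤ p^(5d). -/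
theorem result {G : Type*} [Group G] [Finite G] (p : ℕ) [Fact p.Prime] (M : Ideal Cfsg.AlgInt) (hM : Cfsg.IsPModular p M) (B : Set (Cfsg.IrrCharacter G)) (hB : Cfsg.IsPBlock M B) (D : Subgroup G) (hBD : Cfsg.IsDefectGroup p M B D) (hab : IsMulCommutative D) (d : ℕ) (hDd : Nat.card D = p ^ d) : (Group.rank D = 2 → Nat.card B ≤ p ^ d) ∧ (Group.rank D = 3 → Nat.card B ^ 3 ≤ p ^ (5 * d)) := by
  classical
  have hz : ∀ z : D, z ∈ Subgroup.center D := fun z =>
    Subgroup.mem_center_iff.2 fun y => hab.is_comm.comm y z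
  have hcl : ∀ {K : Type _} [Group K] (a b : K), Subgroup.closure {a, b} =
      Subgroup.zpowers a ⊔ Subgroup.zpowers b := fun a b => by
    rw [Subgroup.zpowers_eq_closure, Subgroup.zpowers_eq_closure, ← Subgroup.closure_union]; rfl
  obtain ⟨S, hS, hS'⟩ := Group.rank_spec D
  refine ⟨fun h => ?_, fun h => ?_⟩
  · obtain ⟨a, b, -, rfl⟩ := Finset.card_eq_two.1 (hS.trans h)
    rw [Finset.coe_pair, hcl] at hS'
    exact hDd ▸ card_le_of_two_gen hM hB hBD (hz a) hS'
  obtain ⟨z, hzS, hmax⟩ := S.exists_max_image orderOf (Finset.card_pos.1 (by omega))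
  obtain ⟨a, b, -, hab'⟩ := Finset.card_eq_two.1 (show (S.erase z).card = 2 by
    rw [Finset.card_erase_of_mem hzS, hS, h])
  have ha : a ∈ S := Finset.mem_of_mem_erase (by rw [hab']; simp)
  have hb : b ∈ S := Finset.mem_of_mem_erase (by rw [hab']; simp)
  obtain ⟨K, _, _, c, E, π, h1, h2, h3, h4, h5, -, h6, -⟩ := exists_major_quot hM hB hBD z (hz z)
  have h7 : Subgroup.zpowers (π a) ⊔ Subgroup.zpowers (π b) = ⊤ := by
    rw [← hcl, eq_top_iff, ← Subgroup.map_top_of_surjective π h3, ← hS', MonoidHom.map_closure,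
      Subgroup.closure_le, ← Finset.insert_erase hzS, hab']
    rintro _ ⟨x, hx, rfl⟩
    simp only [Finset.coe_insert, Finset.coe_singleton, Set.mem_insert_iff,
      Set.mem_singleton_iff] at hx
    rcases hx with rfl | rfl | rfl
    · rw [h4]; exact one_mem _
    · exact Subgroup.subset_closure (by simp)
    · exact Subgroup.subset_closure (by simp)
  have hE : ∀ x : E, x ∈ Subgroup.center E := fun x => Subgroup.mem_center_iff.2 fun y => by
    obtain ⟨x, rfl⟩ := h3 x
    obtain ⟨y, rfl⟩ := h3 y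
    rw [← map_mul, ← map_mul, hab.is_comm.comm]
  have h8 := h6.trans (Nat.mul_le_mul_left _ ((blockRank_le_card p c).trans
    (card_le_of_two_gen hM h1 h2 (hE _) h7)))
  have h9 : Nat.card E ≤ orderOf z * orderOf z := by
    have := normal_of_le_center' (K := Subgroup.zpowers (π a)) fun x _ => hE x
    have h10 := Nat.card_le_card_of_surjective
      (fun x : Subgroup.zpowers (π a) × Subgroup.zpowers (π b) => (x.1 * x.2 : E)) fun x => by
        obtain ⟨u, hu, v, hv, rfl⟩ := Subgroup.mem_sup_of_normal_left.1 (h7 ▸ Subgroup.mem_top x)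
        exact ⟨(⟨u, hu⟩, ⟨v, hv⟩), rfl⟩
    rw [Nat.card_prod, Nat.card_zpowers, Nat.card_zpowers] at h10
    exact h10.trans (Nat.mul_le_mul
      ((Nat.le_of_dvd (orderOf_pos a) (orderOf_map_dvd π a)).trans (hmax a ha))
      ((Nat.le_of_dvd (orderOf_pos b) (orderOf_map_dvd π b)).trans (hmax b hb)))
  calc Nat.card B ^ 3 ≤ (Nat.card D * Nat.card E) ^ 3 := Nat.pow_le_pow_left h8 3
    _ = Nat.card D ^ 3 * Nat.card E ^ 2 * Nat.card E := by ring
    _ ≤ Nat.card D ^ 3 * Nat.card E ^ 2 * (orderOf z * orderOf z) := Nat.mul_le_mul_left _ h9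
    _ = Nat.card D ^ 3 * (orderOf z * Nat.card E) ^ 2 := by ring
    _ = p ^ (5 * d) := by rw [h5, hDd]; ring

end Cfsg.Agent.S4697
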