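import Cfsg.Statements.S4699
import Cfsg.Agent.BLK.D1Tr

set_option autoImplicit false
open Cfsg

namespace Cfsg.Agent.S4699

/-- Let p be a prime and G a finite group whose Sylow p-subgroup P is cyclic of order p^n with n ≥ 2 and meets every other Sylow p-subgroup trivially. Then every faithful irreducible representation of G on a finite-dimensional space over a finite field of characteristic p has dimension at least p^n − (p − 1). -/
theorem result {G : Type*} [Group G] [Finite G] (p : ℕ) [Fact p.Prime] (P : Sylow p G) (hcyc : IsCyclic P) (n : ℕ) (hn : 2 ≤ n) (hPn : Nat.card P = p ^ n) (hTI : ∀ Q : Sylow p G, Q ≠ P → (P : Subgroup G) ⊓ (Q : Subgroup G) = ⊥) (F : Type*) [Field F] [Finite F] [CharP F p] (V : Type*) [AddCommGroup V] [Module F V] [FiniteDimensional F V] (ρ : Representation F G V) (hfaith : Function.Injective ρ) (hirr : ρ.IsIrreducible) : p ^ n - (p - 1) ≤ Module.finrank F V := by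
  classical
  have hp : p.Prime := Fact.out
  by_contra hlt
  push Not at hlt
  obtain ⟨x₀, hx₀⟩ := hcyc.exists_generator
  set x : G := ((x₀ : (P : Subgroup G)) : G) with hx
  have hP : (P : Subgroup G) = Subgroup.zpowers x := by
    refine le_antisymm (fun u hu => ?_) (by simpa [hx] using x₀.2)
    obtain ⟨j, hj⟩ := hx₀ ⟨u, hu⟩
    exact ⟨j, congrArg Subtype.val hj⟩
  have hord : orderOf x = p ^ n := by
    rw [← Nat.card_zpowers, ← hP]; exact hPn
  have hnt : Nontrivial V := by
    by_contra h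
    rw [not_nontrivial_iff_subsingleton] at h
    have : (⊥ : Subrepresentation ρ) = ⊤ := Subrepresentation.toSubmodule_injective
      (Subsingleton.elim _ _)
    exact absurd this bot_ne_top
  have : CharP (Module.End F V) p := charP_of_injective_algebraMap
    (algebraMap F (Module.End F V)).injective p
  set y : Module.End F V := ρ x - 1 with hy
  have hynil : IsNilpotent y := ⟨p ^ n, by
    rw [hy, sub_pow_char_pow_of_commute _ _ (Commute.one_right _), ← map_pow, ← hord,
      pow_orderOf_eq_one, map_one, one_pow, sub_self]⟩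
  have hys : y ^ Module.finrank F V = 0 := by
    have h1 := y.aeval_self_charpoly
    rwa [hynil.charpoly_eq_X_pow_finrank, map_pow, Polynomial.aeval_X] at h1
  have := Fintype.ofFinite (G ⧸ (P : Subgroup G))
  have := Fintype.ofFinite (P : Subgroup G)
  have hconj : ∀ (g : G) (f : Module.End F V), (ρ.linHom ρ) g f = ρ g * f * ρ g⁻¹ := fun g f => rfl
  have hconj2 : ∀ g : G, ρ g * y ^ (p - 1) * ρ g⁻¹ = (ρ (g * x * g⁻¹) - 1) ^ (p - 1) := by
    intro g
    have h1 : ρ g * ρ g⁻¹ = 1 := by rw [← map_mul, mul_inv_cancel, map_one]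
    have h2 : ρ g⁻¹ * ρ g = 1 := by rw [← map_mul, inv_mul_cancel, map_one]
    have h3 : ρ (g * x * g⁻¹) - 1 = ρ g * y * ρ g⁻¹ := by
      rw [hy, mul_sub, sub_mul, mul_one, h1, map_mul, map_mul]
    rw [h3]
    generalize p - 1 = j
    induction j with
    | zero => simp [h1]
    | succ j ih =>
      rw [pow_succ, pow_succ, ← ih]
      simp only [mul_assoc]
      rw [← mul_assoc (ρ g⁻¹) (ρ g), h2, one_mul]
  have hfix : ∀ u ∈ (P : Subgroup G), (ρ.linHom ρ) u (y ^ (p - 1)) = y ^ (p - 1) := by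
    intro u hu
    rw [hconj, hconj2]
    rw [hP] at hu
    obtain ⟨j, rfl⟩ := hu
    rw [((Commute.refl x).zpow_left j).eq, mul_inv_cancel_right]
  obtain ⟨α, hα⟩ := CL.D1T.relTr_eq' (ρ.linHom ρ) (P := (P : Subgroup G)) Subgroup.le_normalizer
    Subgroup.le_normalizer (CL.D1T.ti_of_sylow P hTI) hfix
  have hinv := CL.D1T.relTr_fixed (ρ.linHom ρ) hfix
  set ψ := CL.D1T.relTr (ρ.linHom ρ) (P : Subgroup G) (y ^ (p - 1)) with hψ
  set S := Finset.univ.filter fun ω : G ⧸ (P : Subgroup G) =>
    ω.out ∈ Subgroup.normalizer ((P : Subgroup G) : Set G) with hS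
  have hc : (S.card : F) ≠ 0 := by
    rw [Ne, CharP.cast_eq_zero_iff F p]
    intro h
    have h1 := CL.D1T.card_filter_out (H := (P : Subgroup G)) Subgroup.le_normalizer
    rw [← hS] at h1
    have h2 := (P : Subgroup G).card_mul_index
    have h3 := Subgroup.card_subgroup_dvd_card (Subgroup.normalizer ((P : Subgroup G) : Set G))
    rw [← h1, ← h2] at h3
    exact P.not_dvd_index (h.trans (Nat.dvd_of_mul_dvd_mul_left Nat.card_pos h3))
  have hterm : ∀ ω ∈ S, ∃ z, (ρ.linHom ρ) ω.out (y ^ (p - 1)) = y ^ (p - 1) + y ^ p * z := by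
    intro ω hω
    have h1 : ω.out ∈ Subgroup.normalizer ((P : Subgroup G) : Set G) := (Finset.mem_filter.1 hω).2
    have h2 : ω.out * x * ω.out⁻¹ ∈ Subgroup.zpowers x := by
      rw [← hP]
      exact (Subgroup.mem_normalizer_iff.1 h1 x).1 x₀.2
    rw [← mem_powers_iff_mem_zpowers] at h2
    obtain ⟨a, ha⟩ := h2
    have ha' : ¬ p ∣ a := by
      rintro ⟨b, rfl⟩
      have h3 : orderOf (x ^ (p * b)) = p ^ n := by
        have : x ^ (p * b) = ω.out * x * ω.out⁻¹ := ha
        rw [this, ← hord]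
        exact (MulAut.conj ω.out).orderOf_eq x
      have h4 : (x ^ (p * b)) ^ p ^ (n - 1) = 1 := by
        rw [← pow_mul, mul_right_comm, ← pow_succ', Nat.sub_add_cancel (by omega), ← hord, pow_mul,
          pow_orderOf_eq_one, one_pow]
      have h5 := orderOf_dvd_of_pow_eq_one h4
      rw [h3, Nat.pow_dvd_pow_iff_le_right hp.one_lt] at h5
      omega
    obtain ⟨g, hg⟩ := CL.D1T.exists_pow_sub_one_pow (F := F) ha'
    refine ⟨Polynomial.aeval (ρ x) g, ?_⟩
    have h6 := congrArg (Polynomial.aeval (ρ x)) hg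
    simp only [map_pow, map_sub, map_add, map_mul, Polynomial.aeval_X, map_one] at h6
    have : x ^ a = ω.out * x * ω.out⁻¹ := ha
    rw [hconj, hconj2, ← this, map_pow, h6]
  choose! z hz using hterm
  have hpn : p ≤ p ^ n := Nat.le_self_pow (by omega) p
  have htr : ∃ w, ∑ u : (P : Subgroup G), (ρ.linHom ρ) u α = y ^ p * w := by
    rw [CL.D1T.sum_zpowers hP (fun u => (ρ.linHom ρ) u α), hord]
    simp only [hconj]
    simp only [← inv_pow, map_pow]
    rw [CL.D1T.sum_conj_eq (by rw [← map_mul, mul_inv_cancel, map_one])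
      (by rw [← map_mul, inv_mul_cancel, map_one])]
    refine ⟨∑ a ∈ Finset.range (p ^ n), y ^ (a - p) * α *
      (if p ≤ a then y ^ (p ^ n - 1 - a) * ρ x⁻¹ ^ (p ^ n - 1) else 0), ?_⟩
    rw [Finset.mul_sum]
    refine Finset.sum_congr rfl fun a _ => ?_
    split_ifs with h
    · rw [← mul_assoc (y ^ p), ← mul_assoc (y ^ p), ← pow_add, Nat.add_sub_cancel' h]
    · rw [pow_eq_zero_of_le (show Module.finrank F V ≤ p ^ n - 1 - a by omega) hys]
      simp
  obtain ⟨w, hw⟩ := htr
  have hψ2 : ψ = (S.card : F) • y ^ (p - 1) + y ^ p * (∑ ω ∈ S, z ω + w) := by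
    rw [hα, hw, Finset.sum_congr rfl hz, Finset.sum_add_distrib, Finset.sum_const, mul_add,
      Finset.mul_sum, add_assoc, Nat.cast_smul_eq_nsmul]
  have hyp : y ^ p = y * y ^ (p - 1) := by rw [← pow_succ', Nat.sub_add_cancel hp.one_le]
  have hψ0 : ψ = 0 := by
    let R : Subrepresentation ρ := ⟨LinearMap.range ψ, by
      rintro g _ ⟨v, rfl⟩
      refine ⟨ρ g v, ?_⟩
      conv_lhs => rw [← hinv g, hconj]
      simp only [Module.End.mul_apply]
      rw [← Module.End.mul_apply (ρ g⁻¹), ← map_mul, inv_mul_cancel, map_one, Module.End.one_apply]⟩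
    rcases eq_bot_or_eq_top R with h | h
    · exact LinearMap.range_eq_bot.1 (congrArg Subrepresentation.toSubmodule h)
    · exfalso
      have h1 : LinearMap.range ψ = ⊤ := congrArg Subrepresentation.toSubmodule h
      have h2 : IsUnit ψ := (LinearMap.isUnit_iff_range_eq_top ψ).2 h1
      have h3 : ψ = y * ((S.card : F) • y ^ (p - 2) + y ^ (p - 1) * (∑ ω ∈ S, z ω + w)) := by
        rw [hψ2, mul_add y, mul_smul_comm, ← pow_succ', ← mul_assoc, ← hyp,
          show p - 2 + 1 = p - 1 by have := hp.two_le; omega]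
      rw [h3] at h2
      exact hynil.not_isUnit ((LinearMap.isUnit_iff_range_eq_top y).2 (by
        have h4 := (LinearMap.isUnit_iff_range_eq_top _).1 h2
        exact top_le_iff.1 (h4.ge.trans (LinearMap.range_comp_le_range _ _))))
  have h0 : y ^ (p - 1) = 0 := by
    refine CL.D1T.eq_zero_of_eq_mul hynil (z := -(S.card : F)⁻¹ • (∑ ω ∈ S, z ω + w)) ?_
    rw [hψ0, eq_comm, add_eq_zero_iff_eq_neg] at hψ2
    rw [← hyp, mul_smul_comm, neg_smul, ← smul_neg, ← hψ2, smul_smul, inv_mul_cancel₀ hc, one_smul]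
  have h1 : ρ (x ^ p) = ρ 1 := by
    rw [h0, mul_zero, hy, sub_pow_char_of_commute _ (Commute.one_right _), one_pow,
      sub_eq_zero] at hyp
    rw [map_pow, hyp, map_one]
  have h2 := orderOf_dvd_of_pow_eq_one (hfaith h1)
  rw [hord] at h2
  have h3 := (Nat.pow_dvd_pow_iff_le_right hp.one_lt (k := n) (l := 1)).1 (by simpa using h2)
  omega

end Cfsg.Agent.S4699
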