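import Cfsg.Statements.S4701
import Cfsg.Agent.BLK.BrauerNR
import Cfsg.Agent.KSG.PSL2Basic
import Cfsg.Agent.SPOR.Ord11c
-- import your own Cfsg.Agent.* helpers here

set_option autoImplicit false
open Cfsg

namespace Cfsg.Agent.S4701

/-- Let G be a finite perfect group and p a prime dividing the order of G with p^3 larger than the order of G. Suppose a Sylow p-subgroup of G is not normal and G has no normal subgroup of order 2. Then p > 3 and G is isomorphic to PSL(2, p), or to SL(2, 2^m) with p = 2^m + 1. -/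
theorem result {G : Type*} [Group G] [Finite G] (hperf : commutator G = ⊤) (p : ℕ) [Fact p.Prime] (hdvd : p ∣ Nat.card G) (hbig : Nat.card G < p ^ 3) (P : Sylow p G) (hP : ¬ (P : Subgroup G).Normal) (h2 : ∀ N : Subgroup G, N.Normal → Nat.card N ≠ 2) : (∃ (F : Type) (_ : Field F) (_ : Fintype F), Fintype.card F = p ∧ 3 < p ∧ Nonempty (G ≃* Matrix.ProjectiveSpecialLinearGroup (Fin 2) F)) ∨ (∃ (m : ℕ) (F : Type) (_ : Field F) (_ : Fintype F), Fintype.card F = 2 ^ m ∧ p = 2 ^ m + 1 ∧ 3 < p ∧ Nonempty (G ≃* Matrix.SpecialLinearGroup (Fin 2) F)) := by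
  classical
  have hp : p.Prime := Fact.out
  have hv : Nat.card (Sylow p G) ≠ 1 := fun h => hP (CL.Small.normal_of_card_sylow_eq_one h P)
  have hv1 := CL.Small.card_sylow_mod (G := G) (p := p)
  obtain ⟨n, hn⟩ : ∃ n, Nat.card (Sylow p G) = 1 + n * p :=
    ⟨_, by rw [← hv1]; exact (Nat.mod_add_div' _ _).symm⟩
  have hn0 : 0 < n := Nat.pos_of_ne_zero (by rintro rfl; simp [hn] at hv)
  have h1 : Nat.card P = p := by
    obtain ⟨k, hk⟩ := P.2.exists_card_eq
    have h3 := (P : Subgroup G).card_mul_index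
    have h4 := Nat.le_of_dvd (Nat.pos_of_ne_zero Subgroup.index_ne_zero_of_finite) P.card_dvd_index
    have h5 : p ^ k * p < p ^ 3 := by nlinarith [pow_pos hp.pos k]
    rw [← pow_succ, Nat.pow_lt_pow_iff_right hp.one_lt] at h5
    have : k ≠ 0 := by
      rintro rfl
      exact P.not_dvd_index (by rwa [← h3, hk, pow_zero, one_mul] at hdvd)
    rw [hk, show k = 1 by omega, pow_one]
  obtain ⟨v, c, e, -, -, h3, h4, -⟩ := CL.Ord.prime_data P h1
  have h5 := CL.Small.card_sylow_mul_card_normalizer P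
  have hc : 0 < c := Nat.pos_of_mul_pos_left (h3 ▸ Nat.card_pos)
  have he : 2 ≤ e := by
    have : 0 < e := Nat.pos_of_mul_pos_left (h4 ▸ Nat.card_pos)
    by_contra h
    obtain rfl : e = 1 := by omega
    exact CL.D1.not_normalizer_le hperf P h1 (Subgroup.eq_of_le_of_card_ge
      (CL.Small.centralizer_le_normalizer' _) (by omega)).ge
  have h6 : 2 * (1 + n * p) < p * p := by
    rw [← h5, hn, h4] at hbig
    have : (1 + n * p) * (p * 1 * 2) ≤ (1 + n * p) * (p * c * e) := by gcongr; omega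
    nlinarith [hp.pos]
  have hK := (pPrimeCore p G).card_mul_index
  have key : ∀ {H : Type} [Group H], 3 < p → (G ⧸ pPrimeCore p G ≃* H) →
      p ^ 3 ≤ 3 * Nat.card H → Nonempty (G ≃* H) := fun _ f h => by
    have h7 : (pPrimeCore p G).index = _ := Nat.card_congr f.toEquiv
    have h8 := h2 (pPrimeCore p G) inferInstance
    have h9 : 0 < Nat.card (pPrimeCore p G) := Nat.card_pos
    have : Nat.card (pPrimeCore p G) < 3 := by nlinarith
    exact ⟨(QuotientGroup.quotientBot.symm.trans (QuotientGroup.quotientMulEquivOfEq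
      (Subgroup.card_eq_one.1 (by omega)).symm)).trans f⟩
  rcases CL.D1.brauer_nr hperf P h1 hn (by
    rintro ⟨h, u, a1, a2, a3⟩
    have : p < 2 * n := by
      by_contra a4
      nlinarith [Nat.mul_le_mul_right (u * p) a1, Nat.mul_le_mul_left n a2,
        Nat.mul_le_mul_left u (not_lt.1 a4)]
    nlinarith) with ⟨F, _, _, a1, a2, ⟨f⟩⟩ | ⟨m, F, _, _, a1, a2, a3, ⟨f⟩⟩
  · refine .inl ⟨F, _, _, a1, a2, key a2 f ?_⟩
    have h7 := CL.GL2.gcd_mul_card_PSL2 (F := F)
    have h8 := Nat.mul_le_mul_right (Nat.card (Matrix.ProjectiveSpecialLinearGroup (Fin 2) F))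
      (Nat.gcd_le_left (Fintype.card F - 1) two_pos)
    obtain ⟨q, rfl⟩ : ∃ q, p = q + 4 := ⟨p - 4, by omega⟩
    rw [h7, a1, show q + 4 - 1 = q + 3 from rfl] at h8
    nlinarith [Nat.zero_le (q ^ 3), Nat.zero_le (q ^ 2)]
  · have h7 := CL.GL2.two_eq_zero_of_even (F := F) (a1 ▸ dvd_pow_self 2 (by rintro rfl; omega))
    refine .inr ⟨m, F, _, _, a1, a2, a3, key a3 (f.trans (CL.GL2.pslEquivEven h7).symm) ?_⟩
    have h8 := CL.GL2.gcd_mul_card_PSL2 (F := F)
    rw [CL.GL2.gcd_even h7, one_mul, a1] at h8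
    rw [Nat.card_congr (CL.GL2.pslEquivEven h7).toEquiv, h8, a2]
    obtain ⟨q, hq⟩ : ∃ q, 2 ^ m = q + 3 := ⟨2 ^ m - 3, by omega⟩
    rw [hq, show q + 3 - 1 = q + 2 from rfl]
    nlinarith [Nat.zero_le (q ^ 3), Nat.zero_le (q ^ 2)]

end Cfsg.Agent.S4701
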