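import Cfsg.Statements.S4702
import Cfsg.Agent.PERM.ZassPGL

set_option autoImplicit false
open Cfsg

namespace Cfsg.Agent.S4702

open CL.Zass

/-- Let G be a triply transitive permutation group on a finite set of odd size m ≥ 3 in which only the identity fixes three or more points. Then m = 2^a + 1 for some a ≥ 1 and G is isomorphic to SL(2, 2^a). -/
theorem result {α : Type*} [Fintype α] [DecidableEq α] (hm : 3 ≤ Fintype.card α) (hodd : Odd (Fintype.card α)) (G : Subgroup (Equiv.Perm α)) (h3 : MulAction.IsMultiplyPretransitive G α 3) (hfix : ∀ g : G, 3 ≤ Nat.card (MulAction.fixedBy α g) → g = 1) : ∃ a : ℕ, 1 ≤ a ∧ Fintype.card α = 2 ^ a + 1 ∧ ∃ (F : Type) (_ : Field F) (_ : Fintype F), Fintype.card F = 2 ^ a ∧ Nonempty (G ≃* Matrix.SpecialLinearGroup (Fin 2) F) := by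
  rw [← Nat.card_eq_fintype_card] at hm hodd ⊢
  have hZ : Z2 G α := Z2.of_sharp_three h3 (sharp_three_iff.mpr fun g a b c hab hac hbc ha hb hc => by
    apply hfix
    rw [Nat.card_coe_set_eq]
    exact (Set.two_lt_ncard_iff (Set.toFinite _)).mpr ⟨a, b, c, ha, hb, hc, hab, hac, hbc⟩) hm
  obtain ⟨a⟩ := hZ.nonempty
  obtain ⟨b, hab⟩ := hZ.exists_ne a
  obtain ⟨s, hs, hsa, hsb⟩ := hZ.exists_invol_swap hab
  obtain ⟨K, _, _, h1, ⟨e⟩⟩ := hZ.pgl_of_inverted hab ((hZ.three_trans_iff_card hab).mp h3) hsa hsb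
    (hZ.inverted_of_odd_degree hodd hab hs hsa hsb)
  have hc : ringChar K = 2 := by
    rw [FiniteField.even_card_iff_char_two]
    rw [Nat.odd_iff] at hodd
    omega
  have : CharP K 2 := ringChar.of_eq hc
  obtain ⟨n, -, hn⟩ := FiniteField.card K 2
  obtain ⟨-, ⟨e'⟩⟩ := nonempty_pgl_equiv_of_char_two (K := K) (CharP.cast_eq_zero K 2)
  exact ⟨n, n.2, by omega, K, inferInstance, inferInstance, hn, ⟨e.trans e'⟩⟩

end Cfsg.Agent.S4702
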