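import Cfsg.Statements.S4704
import Cfsg.Agent.BLK.M1Main

set_option autoImplicit false
open Cfsg

namespace Cfsg.Agent.S4704

open CL.M1 CL.D1T CL.Char Subgroup

/-- Let G be a finite group with centre Z, p > 7 a prime, and suppose a Sylow p-subgroup of G has order p and is not normal. Let ζ be a faithful irreducible character of G and t the number of conjugacy classes of G consisting of elements of order p. Then one of the following holds: G/Z is isomorphic to PSL(2, p), ζ has degree (p + 1)/2 or (p − 1)/2 and t = 2; or ζ has degree at least p − 1; or ζ has degree at least p + 3/2 − √(p + 5/4) and p ≤ t^2 − 3t + 1. -/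
theorem result {G : Type*} [Group G] [Finite G] (p : ℕ) [Fact p.Prime] (hp : 7 < p) (P : Sylow p G) (hP : Nat.card P = p) (hnn : ¬ (P : Subgroup G).Normal) (ζ : G → ℂ) (hζ : Cfsg.IsIrrCharacter G ζ) (hfaith : ∀ g : G, ζ g = ζ 1 → g = 1) (t : ℕ) (ht : Nat.card {c : ConjClasses G // ∃ g : G, ConjClasses.mk g = c ∧ orderOf g = p} = t) : ((∃ (F : Type) (_ : Field F) (_ : Fintype F), Fintype.card F = p ∧ Nonempty (G ⧸ Subgroup.center G ≃* Matrix.ProjectiveSpecialLinearGroup (Fin 2) F)) ∧ (2 * Cfsg.charDegree ζ = p + 1 ∨ 2 * Cfsg.charDegree ζ = p - 1) ∧ t = 2) ∨ p - 1 ≤ Cfsg.charDegree ζ ∨ ((p : ℝ) + 3 / 2 - Real.sqrt ((p : ℝ) + 5 / 4) ≤ (Cfsg.charDegree ζ : ℝ) ∧ (p : ℤ) ≤ (t : ℤ) ^ 2 - 3 * t + 1) := by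
  obtain ⟨x, h, hx⟩ := exists_P1 P hP
  by_cases hd : charDegree ζ + 1 < p
  swap
  · exact Or.inr (Or.inl (by omega))
  have h0 := card_cls h
  rw [ht] at h0
  obtain ⟨h1, h2, h3⟩ | ⟨y, b, e, t', h1, h2, h3, h4⟩ := main h (hx ▸ hnn) hp hζ hfaith hd
  · exact Or.inl ⟨⟨ZMod p, inferInstance, inferInstance, ZMod.card p, h1⟩, h2,
      Nat.eq_of_mul_eq_mul_right (by omega) (Nat.add_right_cancel (h0.trans h3.symm))⟩
  rw [h1.cardA] at h0
  obtain rfl : t = t' := Nat.eq_of_mul_eq_mul_right h1.e_pos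
    (Nat.add_right_cancel (h0.trans h1.te.symm))
  have h5 := h1.add_three_le (hx ▸ hnn) hp hζ hfaith h3 h4 h2 (by omega)
  refine Or.inr (Or.inr ⟨?_, by zify at h0 h5; nlinarith⟩)
  have h6 : (e : ℝ) + 3 / 2 ≤ Real.sqrt (p + 5 / 4) := Real.le_sqrt_of_sq_le (by
    have h7 : e * (e + 3) + 1 ≤ p := by nlinarith
    have h8 : (e : ℝ) * (e + 3) + 1 ≤ p := by exact_mod_cast h7
    linarith)
  have h7 : (charDegree ζ : ℝ) + e = p := by exact_mod_cast h3
  linarith

end Cfsg.Agent.S4704
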