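import Cfsg.Statements.S4705
import Cfsg.Agent.BLK.D1Feit

set_option autoImplicit false
open Cfsg

namespace Cfsg.Agent.S4705

/-- Let G be a finite group with centre Z and p > 5 a prime such that a Sylow p-subgroup of G has order p and is not normal. If G has a faithful irreducible character of degree p − 2, then p = 2^a + 1 for some a and G is isomorphic to the direct product of SL(2, 2^a) with Z. -/
theorem result {G : Type*} [Group G] [Finite G] (p : ℕ) [Fact p.Prime] (hp : 5 < p) (P : Sylow p G) (hP : Nat.card P = p) (hnn : ¬ (P : Subgroup G).Normal) (ζ : G → ℂ) (hζ : Cfsg.IsIrrCharacter G ζ) (hfaith : ∀ g : G, ζ g = ζ 1 → g = 1) (hdeg : Cfsg.charDegree ζ = p - 2) : ∃ (a : ℕ) (F : Type) (_ : Field F) (_ : Fintype F), p = 2 ^ a + 1 ∧ Fintype.card F = 2 ^ a ∧ Nonempty (G ≃* Matrix.SpecialLinearGroup (Fin 2) F × Subgroup.center G) := by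
  obtain ⟨x, hx, hPx⟩ := CL.D1T.exists_P1 P hP
  obtain ⟨e, h⟩ := hx.exists_two (fun hz => hnn (by
      rw [hPx]
      refine ⟨fun n hn g => ?_⟩
      have h1 : n ∈ Subgroup.center G := (Subgroup.zpowers_le.2 hz) hn
      rw [Subgroup.mem_center_iff.1 h1 g, mul_inv_cancel_right]
      exact hn)) hζ (hζ.isCharacter.charKer_eq_bot_iff.2 hfaith) (by omega) hp.le
  exact h.iso_prod hp

end Cfsg.Agent.S4705
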