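import Cfsg.Statements.S4706
import Cfsg.Agent.BLK.D1Perm

set_option autoImplicit false
open Cfsg

namespace Cfsg.Agent.S4706

/-- Let p > 2 be a prime and G a permutation group on p letters whose Sylow p-subgroup P has normalizer of order 2p. Then either P is normal in G, or p − 1 = 2^a for some a and G is isomorphic to SL(2, 2^a). -/
theorem result {α : Type*} [Fintype α] [DecidableEq α] {p : ℕ} [Fact p.Prime] (hp : 2 < p) (hα : Fintype.card α = p) (G : Subgroup (Equiv.Perm α)) (P : Sylow p G) (hN : Nat.card (Subgroup.normalizer ((P : Subgroup G) : Set G)) = 2 * p) : (P : Subgroup G).Normal ∨ ∃ (a : ℕ) (F : Type) (_ : Field F) (_ : Fintype F), p = 2 ^ a + 1 ∧ Fintype.card F = 2 ^ a ∧ Nonempty (G ≃* Matrix.SpecialLinearGroup (Fin 2) F) := by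
  have hpp : p.Prime := Fact.out
  by_contra hc
  obtain ⟨hn, hc⟩ := not_or.1 hc
  have hd : p ∣ Nat.card G := by
    by_contra hd
    obtain ⟨k, hk⟩ := IsPGroup.iff_card.1 P.2
    rcases k with _ | k
    · rw [Subgroup.card_eq_one.1 hk] at hn
      exact hn inferInstance
    · exact hd ((hk ▸ dvd_pow_self p k.succ_ne_zero).trans (Subgroup.card_subgroup_dvd_card _))
  have h5 : 5 ≤ p := by
    by_contra h5
    obtain rfl : p = 3 := by
      have : p ≠ 4 := by rintro rfl; norm_num at hpp
      omega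
    have h1 := Nat.le_of_dvd Nat.card_pos (Subgroup.card_subgroup_dvd_card G)
    rw [Nat.card_perm, Nat.card_eq_fintype_card (α := α), hα] at h1
    exact hn (Subgroup.normalizer_eq_top_iff.1 (Subgroup.eq_top_of_le_card _ (hN ▸ h1)))
  have hα' : Nat.card α = p := by rw [Nat.card_eq_fintype_card, hα]
  have : Nonempty α := Fintype.card_pos_iff.1 (by omega)
  have : MulAction.IsPretransitive G α := by
    obtain ⟨g, hg⟩ := exists_prime_orderOf_dvd_card' p hd
    have h1 : (g : Equiv.Perm α).IsCycle := Equiv.Perm.isCycle_of_prime_order'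
      (by rw [Subgroup.orderOf_coe, hg]; exact hpp) (by rw [Subgroup.orderOf_coe, hg]; omega)
    have h2 : (g : Equiv.Perm α).support = Finset.univ := Finset.eq_univ_of_card _ (by
      rw [← h1.orderOf, Subgroup.orderOf_coe, hg, hα])
    refine ⟨fun a b => ?_⟩
    obtain ⟨i, hi⟩ := h1.exists_pow_eq (Equiv.Perm.mem_support.1 (h2 ▸ Finset.mem_univ a))
      (Equiv.Perm.mem_support.1 (h2 ▸ Finset.mem_univ b))
    exact ⟨g ^ i, hi⟩
  have : MulAction.IsPreprimitive G α := .of_prime_card (hα' ▸ hpp)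
  obtain ⟨x, χ, δ, Y, h⟩ := CL.D1T.exists_E2 h5 P hd hN
    (CL.D1T.eq_bot_of_primitive α hα'.symm.dvd) hn
  refine hc (h.iso ?_)
  obtain ⟨k, hk⟩ := h.deg
  have h2 := h.two_le
  rcases h.perm_cases α hα'.symm.dvd (by omega) with h1 | ⟨rfl, d, -, h1, -⟩ | h1
  · exact h1
  · rcases d with _ | d
    · omega
    · rw [mul_add] at h1; omega
  · omega

end Cfsg.Agent.S4706
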