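import Cfsg.Statements.S4708
import Cfsg.Agent.BLK.Princ2
import Cfsg.Agent.CHAR.Gallagher
-- import your own Cfsg.Agent.* helpers here

set_option autoImplicit false
open Cfsg

namespace Cfsg.Agent.S4708

/-- Let p be a prime, M a maximal ideal of the algebraic integers containing p, G a finite group and H a normal subgroup. Write λ(X) for the sum of the squares of the degrees of the irreducible characters in the principal p-block of a group X. Then λ(H) ≤ λ(G) ≤ [G : H]·λ(H). -/
theorem result {G : Type*} [Group G] [Finite G] (p : ℕ) [Fact p.Prime] (M : Ideal Cfsg.AlgInt) (hM : Cfsg.IsPModular p M) (H : Subgroup G) [H.Normal] : (∑ᶠ θ ∈ Cfsg.principalBlock M H, Cfsg.charDegree (θ : H → ℂ) ^ 2) ≤ (∑ᶠ χ ∈ Cfsg.principalBlock M G, Cfsg.charDegree (χ : G → ℂ) ^ 2) ∧ (∑ᶠ χ ∈ Cfsg.principalBlock M G, Cfsg.charDegree (χ : G → ℂ) ^ 2) ≤ H.index * ∑ᶠ θ ∈ Cfsg.principalBlock M H, Cfsg.charDegree (θ : H → ℂ) ^ 2 := by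
  classical
  have := Fintype.ofFinite G
  rw [CL.Blk.finsum_mem_block_eq, CL.Blk.finsum_mem_block_eq]
  choose n hn using fun (χ : IrrCharacter G) (θ : IrrCharacter H) =>
    (χ.2.isCharacter.res H).exists_nat_inner θ.2.isCharacter
  -- degree identities
  have hχ : ∀ χ : IrrCharacter G, charDegree χ.1 = ∑ θ, n χ θ * charDegree θ.1 := fun χ => by
    apply Nat.cast_injective (R := ℂ)
    rw [← CL.Blk.irr_one_eq, Nat.cast_sum]
    have := (χ.2.isClassFunction.res H).apply_eq_sum 1
    simp only [OneMemClass.coe_one] at this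
    rw [this]
    exact Finset.sum_congr rfl fun θ _ => by rw [hn, CL.Blk.irr_one_eq, Nat.cast_mul]
  have hθ : ∀ θ : IrrCharacter H, H.index * charDegree θ.1 = ∑ χ, n χ θ * charDegree χ.1 := fun θ => by
    apply Nat.cast_injective (R := ℂ)
    rw [Nat.cast_mul, ← CL.Blk.irr_one_eq, ← CL.Char.indFun_one, CL.Char.indFun_eq_sum_inner_res θ.2.isCharacter,
      Nat.cast_sum, Finset.sum_apply]
    exact Finset.sum_congr rfl fun χ _ => by
      rw [hn, Pi.smul_apply, CL.Blk.irr_one_eq, Nat.cast_mul, smul_eq_mul]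
  have h0 : ∀ χ ∈ principalBlock M G, ∀ θ, θ ∉ principalBlock M H → n χ θ = 0 := fun χ h θ h' => by
    by_contra hne
    exact h' (CL.Blk.principal_of_under hM H h (by rw [hn]; exact Nat.cast_ne_zero.2 hne))
  have key : ∑ χ with χ ∈ principalBlock M G, charDegree χ.1 ^ 2 =
      ∑ θ with θ ∈ principalBlock M H, ∑ χ with χ ∈ principalBlock M G,
        n χ θ * charDegree χ.1 * charDegree θ.1 := by
    rw [Finset.sum_comm]
    refine Finset.sum_congr rfl fun χ h => ?_
    rw [pow_two]
    nth_rewrite 2 [hχ χ]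
    rw [Finset.mul_sum, Finset.sum_filter]
    refine Finset.sum_congr rfl fun θ _ => ?_
    split_ifs with h'
    · ring
    · rw [h0 χ (Finset.mem_filter.1 h).2 θ h', zero_mul, mul_zero]
  rw [key]
  constructor
  · refine Finset.sum_le_sum fun θ h => ?_
    obtain ⟨χ, h1, h2⟩ := CL.Blk.exists_principal_over hM H (Finset.mem_filter.1 h).2
    refine le_trans ?_ (Finset.single_le_sum (f := fun χ : IrrCharacter G =>
      n χ θ * charDegree χ.1 * charDegree θ.1) (fun _ _ => Nat.zero_le _)
      (Finset.mem_filter.2 ⟨Finset.mem_univ χ, h1⟩))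
    have h3 : 1 ≤ n χ θ := Nat.one_le_iff_ne_zero.2 fun e => h2 (by rw [hn, e, Nat.cast_zero])
    have h4 : n χ θ * charDegree θ.1 ≤ charDegree χ.1 := by
      rw [hχ χ]
      exact Finset.single_le_sum (f := fun θ : IrrCharacter H => n χ θ * charDegree θ.1)
        (fun _ _ => Nat.zero_le _) (Finset.mem_univ θ)
    rw [pow_two]
    refine Nat.mul_le_mul_right _ ?_
    nlinarith
  · rw [Finset.mul_sum]
    refine Finset.sum_le_sum fun θ _ => ?_
    rw [pow_two, ← mul_assoc, hθ, Finset.sum_mul]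
    exact Finset.sum_le_sum_of_subset (Finset.filter_subset _ _)

end Cfsg.Agent.S4708
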