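import Cfsg.Statements.S4711
import Cfsg.Agent.BLK.IsaacsSmith
import Cfsg.Agent.CHAR.FrobGroup
import Cfsg.Agent.SOLV.PLength
-- import your own Cfsg.Agent.* helpers here

set_option autoImplicit false
open Cfsg

namespace Cfsg.Agent.S4711

/-- Let p be a prime, M a maximal ideal of the algebraic integers containing p, G a finite group, P a Sylow p-subgroup and N = N_G(P). Then G has p-length 1 (G = O_{p',p,p'}(G)) if and only if every irreducible character in the principal p-block of G restricts to an irreducible character of N. -/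
theorem result {G : Type*} [Group G] [Finite G] (p : ℕ) [Fact p.Prime] (M : Ideal Cfsg.AlgInt) (hM : Cfsg.IsPModular p M) (P : Sylow p G) : Cfsg.PLengthLE p 1 G ↔ ∀ χ ∈ Cfsg.principalBlock M G, Cfsg.IsIrrCharacter ↥(Subgroup.normalizer ((P : Subgroup G) : Set G)) (fun n : ↥(Subgroup.normalizer ((P : Subgroup G) : Set G)) => (χ : G → ℂ) n) := by
  have hp : p.Prime := Fact.out
  have hPN : (P : Subgroup G) ≤ Subgroup.normalizer ((P : Subgroup G) : Set G) :=
    Subgroup.le_normalizer
  rw [CL.pLengthLE_one_iff]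
  constructor
  · intro h χ hχ
    refine χ.2.res_irr_of_ker (K := pPrimeCore p G) ?_
      (CL.Blk.pPrimeCore_ker_of_mem_principal hM hχ)
    have hle : (P : Subgroup G) ≤ pPrimePCore p G := by
      intro x hx
      obtain ⟨k, hk⟩ := P.isPGroup' ⟨x, hx⟩
      have hk' : x ^ p ^ k = 1 := congrArg Subtype.val hk
      exact CL.Char.mem_of_coprime_pow_mem _ (h.pow_right k)
        ((pPrimePCore p G).pow_index_mem x) (hk' ▸ one_mem _)
    have h1 : Subgroup.normalizer ((P : Subgroup G) : Set G) ⊔ pPrimePCore p G = ⊤ :=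
      P.normalizer_sup_eq_top' hle
    rw [← CL.pPrimeCore_sup_sylow_inf P, inf_eq_left.2 hle, sup_comm, sup_assoc,
      sup_eq_right.2 hPN] at h1
    exact h1
  · intro h
    have := Fintype.ofFinite G
    have := Fintype.ofFinite (Subgroup.normalizer ((P : Subgroup G) : Set G))
    have hQ : ((P : Subgroup G).subgroupOf
      (Subgroup.normalizer ((P : Subgroup G) : Set G))).Normal := Subgroup.normal_in_normalizer
    have hsol : IsPSolvable p (Subgroup.normalizer ((P : Subgroup G) : Set G)) :=
      CL.IsPSolvable.of_normal_of_quotient ((P : Subgroup G).subgroupOf _)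
        (CL.isPSolvable_of_isPGroup (P.subtype hPN).isPGroup')
        (CL.isPSolvable_of_coprime ((Nat.Prime.coprime_iff_not_dvd hp).2
          (P.subtype hPN).not_dvd_index).symm)
    obtain ⟨L, hL, h1, h2, -, -⟩ := CL.Blk.exists_normal_of_ext P (pPrimeCore p _)
      (CL.not_dvd_card_pPrimeCore p _) (fun θ _ hθ => by
        obtain ⟨χ, hχ, hne⟩ := CL.Blk.exists_principal_over hM _
          ((CL.Blk.mem_principal_iff_core_le_ker hM hsol θ).2 hθ)
        exact ⟨χ, congrFun ((h χ hχ).eq_of_inner_ne_zero θ.2 hne)⟩)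
    have h3 := CL.sup_le_pPrimePCore ((Nat.Prime.coprime_iff_not_dvd hp).2 h1).symm P.isPGroup'
    exact ((Nat.Prime.coprime_iff_not_dvd hp).2 fun hd => P.not_dvd_index
      (hd.trans (Subgroup.index_dvd_of_le (le_sup_right.trans h3)))).symm

end Cfsg.Agent.S4711
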