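import Cfsg.Statements.S4712
import Mathlib
import Cfsg.Agent.BLK.PRat

set_option autoImplicit false
open Cfsg

namespace Cfsg.Agent.S4712


/-- Let p be an odd prime, M a maximal ideal of the algebraic integers containing p, G a finite group of order n with p-part p^a, and B a p-block of G. Call an irreducible character χ p-rational when χ(g^k) = χ(g) for every g and every k coprime to n with k ≡ 1 modulo n/p^a (χ is fixed by the Galois automorphisms fixing the roots of unity of order prime to p). Then the number of p-rational irreducible characters in B is at least the p-regular rank of B (the number of irreducible Brauer characters in B). -/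
theorem result {G : Type*} [Group G] [Finite G] (p : ℕ) [Fact p.Prime] (hodd : p ≠ 2) (M : Ideal Cfsg.AlgInt) (hM : Cfsg.IsPModular p M) (B : Set (Cfsg.IrrCharacter G)) (hB : Cfsg.IsPBlock M B) : Cfsg.blockRank p B ≤ Nat.card {χ : Cfsg.IrrCharacter G // χ ∈ B ∧ ∀ k : ℕ, Nat.Coprime k (Nat.card G) → k ≡ 1 [MOD Nat.card G / p ^ (Nat.card G).factorization p] → ∀ g : G, (χ : G → ℂ) (g ^ k) = (χ : G → ℂ) g} := by
  classical
  have := Fintype.ofFinite G
  have hp : p.Prime := Fact.out
  set a := (Nat.card G).factorization p with ha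
  set m := Nat.card G / p ^ a with hm
  have hG : p ^ a * m = Nat.card G := Nat.ordProj_mul_ordCompl_eq_self _ _
  have hcop : Nat.Coprime (p ^ a) m :=
    (Nat.coprime_ordCompl hp (Nat.card_pos (α := G)).ne').pow_left a
  have : NeZero (p ^ a) := ⟨pow_ne_zero _ hp.ne_zero⟩
  obtain ⟨w, hw⟩ := (ZMod.isCyclic_units_of_prime_pow p hp hodd a).exists_monoid_generator
  obtain ⟨k₀, h1, h2⟩ := Nat.chineseRemainder hcop (w : ZMod (p ^ a)).val 1
  have hk₀ : k₀.Coprime (Nat.card G) := by
    rw [← hG]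
    refine Nat.Coprime.mul_right ?_ ?_
    · rw [Nat.Coprime, h1.gcd_eq]
      exact ZMod.val_coe_unit_coprime w
    · rw [Nat.Coprime, h2.gcd_eq]; simp
  have hreg : ∀ g : G, ¬ p ∣ orderOf g → g ^ k₀ = g := by
    intro g hg
    have h3 : orderOf g ∣ m := by
      refine Nat.Coprime.dvd_of_dvd_mul_left (Nat.Coprime.pow_right a
        ((Nat.Prime.coprime_iff_not_dvd hp).2 hg).symm) ?_
      rw [hG]; exact orderOf_dvd_natCard g
    conv_rhs => rw [← pow_one g]
    exact pow_eq_pow_iff_modEq.2 (h2.of_dvd h3)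
  refine (CL.Blk.PRat.rank_le_card_fixed hM (CL.Blk.isBlockUnion_of_block hM hB) hk₀ hreg).trans
    (Nat.card_le_card_of_injective (fun χ => ⟨χ.1, χ.2.1, ?_⟩) fun χ ψ h => Subtype.ext
      (by simpa using h))
  intro k hk hk1 g
  have hk' : k.Coprime (p ^ a) := hk.coprime_dvd_right ⟨m, hG.symm⟩
  obtain ⟨n, hn⟩ := hw (ZMod.unitOfCoprime k hk')
  have h4 : k ≡ k₀ ^ n [MOD p ^ a] := by
    rw [← ZMod.natCast_eq_natCast_iff, Nat.cast_pow, (ZMod.natCast_eq_natCast_iff _ _ _).2 h1,
      ZMod.natCast_zmod_val, ← Units.val_pow_eq_pow_val]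
    simp only at hn
    rw [hn]; rfl
  have h5 : k ≡ k₀ ^ n [MOD m] := by
    refine hk1.trans ?_
    have := (h2.pow n).symm
    rwa [one_pow] at this
  have h6 : k ≡ k₀ ^ n [MOD Nat.card G] := by
    rw [← hG]; exact (Nat.modEq_and_modEq_iff_modEq_mul hcop).1 ⟨h4, h5⟩
  rw [pow_eq_pow_iff_modEq.2 (h6.of_dvd (orderOf_dvd_natCard g))]
  clear h4 h5 h6 hn
  induction n with
  | zero => rw [pow_zero, pow_one]
  | succ n ih => rw [pow_succ, pow_mul, χ.2.2, ih]

end Cfsg.Agent.S4712
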