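import Cfsg.Statements.S4713
import Mathlib
import Cfsg.Agent.BLK.Ito

set_option autoImplicit false
open Cfsg

namespace Cfsg.Agent.S4713

open CL CL.Blk CL.Char MonoidAlgebra
open scoped CL.MSS

/-- Let p be a prime and G a finite p-solvable group. Then G has a normal abelian Sylow p-subgroup if and only if the degree of every irreducible character of G is prime to p. -/
theorem result {G : Type*} [Group G] [Finite G] (p : ℕ) [Fact p.Prime] (hsolv : Cfsg.IsPSolvable p G) (P : Sylow p G) : ((P : Subgroup G).Normal ∧ IsMulCommutative P) ↔ ∀ χ : Cfsg.IrrCharacter G, ¬ p ∣ Cfsg.charDegree (χ : G → ℂ) := by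
  rw [← Subtype.forall' (p := IsIrrCharacter G) (q := fun χ _ => ¬ p ∣ charDegree χ),
    ← ito_iff hsolv P]
  refine and_congr_right fun _ => ⟨fun h x hx y hy => ?_, fun h => ⟨⟨fun a b => ?_⟩⟩⟩
  · exact congrArg Subtype.val (h.is_comm.comm (⟨x, hx⟩ : (P : Subgroup G)) ⟨y, hy⟩)
  · exact Subtype.ext (h _ a.2 _ b.2)

end Cfsg.Agent.S4713
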