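import Cfsg.Statements.S4715
import Mathlib
import Cfsg.Agent.BLK.Nilp
import Cfsg.Agent.BLK.Local
import Cfsg.Agent.BLK.KBound

set_option autoImplicit false
open Cfsg

namespace Cfsg.Agent.S4715

open CL CL.Blk CL.Char MonoidAlgebra Subgroup
open scoped CL.MSS
open scoped ComplexConjugate commutatorElement

variable {G : Type*} [Group G] [Finite G] {p : ℕ} {M : Ideal AlgInt} {B : Set (IrrCharacter G)}
  {P : Subgroup G} {e : (F M)[G]}

theorem avg_ge (h : MaxP p M B P e) {z : G} (hz : z ∈ P) (hc : ∀ y ∈ P, Commute y z)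
    {χ : IrrCharacter G} (hχ : χ ∈ B) :
    (p : ℝ) ^ blockHeight p B χ.1 * (copr (p ^ blockDefect p B)).card ≤
      ∑ k ∈ copr (p ^ blockDefect p B),
        (p : ℝ) ^ blockDefect p B * ‖gc p M P e (z ^ k) χ.1 χ.1‖ := by
  have hM := h.hM
  have hp := h.prime
  have hq : p ^ blockDefect p B ≠ 0 := pow_ne_zero _ hp.ne_zero
  have hd := h.blockDefect_bu_of_comm hz hc
  obtain ⟨x, hx, hxk⟩ := h.gc_pow_mem_cyc hz χ.2.isGen χ.2.isGen
  rw [hd] at hxk
  have hbu := isBlockUnion_of_block hM (h.isPBlock_bu hz)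
  have h1 : x 1 = (p : ℂ) ^ blockDefect p B * gc p M P e z χ.1 χ.1 := by
    rw [hxk 1 (Nat.coprime_one_left _), pow_one]
  have hne : x 1 ≠ 0 := by
    rw [h1]
    refine mul_ne_zero (pow_ne_zero _ (Nat.cast_ne_zero.2 hp.ne_zero)) ?_
    rw [gc, Ne, gcontr_self_eq_zero _ _ hM hbu]
    exact (h.isSec hz).rb_ne_zero_of_major hM (h.isPBlock_bu hz) h.blk (h.bu_subset hz) hd hχ
  have hV : x 1 / (p : ℂ) ^ blockHeight p B χ.1 ∈ V M := by
    rw [← div_nd_mem_V_iff hM hχ, h1]
    exact (h.isSec hz).gcontr_div_mem_V hM hbu h.blk hχ χ.2.isGen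
  obtain ⟨y, hy, hyk⟩ := Cyc.exists_div hM hx hV
  have hy1 : y 1 ≠ 0 := fun h0 => hne (by rw [hyk 1 (Nat.coprime_one_left _), h0, mul_zero])
  have h2 := Cyc.card_le_sum_norm hq hy hy1
  refine (mul_le_mul_of_nonneg_left h2 (by positivity)).trans (le_of_eq ?_)
  rw [Finset.mul_sum]
  refine Finset.sum_congr rfl fun k hk => ?_
  have h3 := congrArg norm ((hyk k (mem_copr.1 hk).2).symm.trans (hxk k (mem_copr.1 hk).2))
  simpa [norm_mul, norm_pow] using h3

open Classical in
theorem card_fused_le [Fintype G] (h : MaxP p M B P e) (x : G) :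
    (Finset.univ.filter fun u => FConj p P e u x ∧ u ∈ P ⊓ centralizer (P : Set G)).card ≤
      (P ⊔ centralizer (P : Set G)).relIndex (pairStab P e) := by
  set S := Finset.univ.filter fun u => FConj p P e u x ∧ u ∈ P ⊓ centralizer (P : Set G) with hS
  rcases S.eq_empty_or_nonempty with h0 | ⟨u0, hu0⟩
  · simp [h0]
  have hcz : ∀ u ∈ P ⊓ centralizer (P : Set G), P ≤ centralizer (zpowers u : Set G) :=
    fun u hu => MaxP.le_cent_zpowers fun y hy => (hu.2 y hy)
  simp only [hS, Finset.mem_filter, Finset.mem_univ, true_and] at hu0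
  set T := pairStab P e
  set H := P ⊔ centralizer (P : Set G)
  have hH : H ≤ centralizer ({u0} : Set G) := by
    refine sup_le (fun y hy => ?_) fun y hy => ?_
    · rw [mem_centralizer_singleton_iff]; exact hu0.2.2 y hy
    · rw [mem_centralizer_singleton_iff]; exact (hy u0 hu0.2.1).symm
  haveI := Fintype.ofFinite (T ⧸ H.subgroupOf T)
  rw [relIndex, index, Nat.card_eq_fintype_card]
  refine (Finset.card_le_card (t := Finset.univ.image fun q : T ⧸ H.subgroupOf T =>
    (q.out : G) * u0 * (q.out : G)⁻¹) fun u hu => ?_).trans (Finset.card_image_le.trans ?_)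
  · simp only [hS, Finset.mem_filter, Finset.mem_univ, true_and] at hu
    obtain ⟨n, hn, rfl⟩ := FConj.exists_mem_pairStab h.prime h.hF h.isSB h.rel h.sdef
      (h.fConj_trans hu0.1 hu.1.symm) (hcz _ hu0.2) (hcz _ hu.2)
    refine Finset.mem_image.2 ⟨(⟨n, hn⟩ : T), Finset.mem_univ _, ?_⟩
    obtain ⟨k, hk⟩ := QuotientGroup.mk_out_eq_mul (H.subgroupOf T) (⟨n, hn⟩ : T)
    have hk' := mem_centralizer_singleton_iff.1 (hH k.2)
    rw [hk]
    simp only [Subgroup.coe_mul, mul_inv_rev]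
    calc n * ((k : T) : G) * u0 * (((k : T) : G)⁻¹ * n⁻¹)
        = n * (((k : T) : G) * u0) * ((k : T) : G)⁻¹ * n⁻¹ := by group
      _ = n * u0 * n⁻¹ := by
        rw [show ((k : T) : G) * u0 = u0 * ((k : T) : G) from hk']; group
  · simp

theorem sum_center_le (h : MaxP p M B P e) {χ : IrrCharacter G} (hχ : χ ∈ B)
    [Fintype (P ⊓ centralizer (P : Set G) : Subgroup G)] :
    ∑ z : (P ⊓ centralizer (P : Set G) : Subgroup G), ‖gc p M P e z χ.1 χ.1‖ ≤
      (P ⊔ centralizer (P : Set G)).relIndex (pairStab P e) := by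
  classical
  haveI := Fintype.ofFinite G
  obtain ⟨X, hX⟩ := h.exists_isReps
  have h1 : ∑ z : (P ⊓ centralizer (P : Set G) : Subgroup G), ‖gc p M P e z χ.1 χ.1‖ =
      ∑ u with u ∈ P, if u ∈ P ⊓ centralizer (P : Set G) then ‖gc p M P e u χ.1 χ.1‖ else 0 := by
    rw [← Finset.sum_filter, Finset.filter_filter]
    refine (Finset.sum_subtype (p := fun u => u ∈ P ⊓ centralizer (P : Set G)) _ (fun u => ?_)
      fun u => ‖gc p M P e u χ.1 χ.1‖).symm
    simp only [Finset.mem_filter, Finset.mem_univ, true_and]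
    exact ⟨fun h => h.2, fun h => ⟨h.1, h⟩⟩
  have h2 : ∑ x ∈ X, ‖gc p M P e x χ.1 χ.1‖ = 1 := by
    have := h.sum_gc_irr hX (ψ := χ) hχ
    rw [if_pos rfl, Finset.sum_congr rfl fun x _ => h.gc_self_eq_norm x χ.1] at this
    exact_mod_cast this
  rw [h1, hX.sum_eq h.prime h.hF h.pair, ← mul_one ((relIndex _ _ : ℕ) : ℝ), ← h2, Finset.mul_sum]
  refine Finset.sum_le_sum fun x hx => ?_
  rw [← Finset.sum_filter, Finset.filter_filter, Finset.sum_congr rfl
    (g := fun _ => ‖gc p M P e x χ.1 χ.1‖) fun u hu => by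
      rw [(Finset.mem_filter.1 hu).2.1.gc_eq h.hM h.pair χ.2.isClassFunction χ.2.isClassFunction],
    Finset.sum_const, nsmul_eq_mul]
  refine mul_le_mul_of_nonneg_right ?_ (norm_nonneg _)
  exact_mod_cast (le_of_eq (by congr)).trans (card_fused_le h x)

theorem height_bound (h : MaxP p M B P e) {χ : IrrCharacter G} (hχ : χ ∈ B) :
    p ^ blockHeight p B χ.1 * Nat.card (P ⊓ centralizer (P : Set G) : Subgroup G) ≤
      (P ⊔ centralizer (P : Set G)).relIndex (pairStab P e) * p ^ blockDefect p B := by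
  classical
  set Z := P ⊓ centralizer (P : Set G)
  haveI := Fintype.ofFinite Z
  have hq : p ^ blockDefect p B ≠ 0 := pow_ne_zero _ h.prime.ne_zero
  have hpos : (0 : ℝ) < (copr (p ^ blockDefect p B)).card := by exact_mod_cast card_copr_pos hq
  have h1 := Finset.sum_le_sum (s := Finset.univ) fun (z : Z) _ =>
    avg_ge h z.2.1 (fun y hy => z.2.2 y hy) hχ
  rw [Finset.sum_const, Finset.sum_comm, nsmul_eq_mul, Finset.card_univ,
    ← Nat.card_eq_fintype_card] at h1
  have h2 : ∀ k ∈ copr (p ^ blockDefect p B), ∑ z : Z, (p : ℝ) ^ blockDefect p B *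
      ‖gc p M P e ((z : G) ^ k) χ.1 χ.1‖ ≤ (p : ℝ) ^ blockDefect p B *
        (P ⊔ centralizer (P : Set G)).relIndex (pairStab P e) := by
    intro k hk
    have hc : (Nat.card Z).Coprime k := by
      refine Nat.Coprime.coprime_dvd_left ?_ (mem_copr.1 hk).2.symm
      rw [← h.card_eq]
      exact card_dvd_of_le inf_le_left
    rw [← Finset.mul_sum]
    refine mul_le_mul_of_nonneg_left (le_of_eq_of_le ?_ (sum_center_le h hχ)) (by positivity)
    exact Equiv.sum_comp (powCoprime hc) fun z : Z => ‖gc p M P e z χ.1 χ.1‖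
  have h3 := h1.trans (Finset.sum_le_sum h2)
  rw [Finset.sum_const, nsmul_eq_mul] at h3
  have h4 : (p : ℝ) ^ blockHeight p B χ.1 * Nat.card Z ≤
      (P ⊔ centralizer (P : Set G)).relIndex (pairStab P e) * (p : ℝ) ^ blockDefect p B := by
    refine le_of_mul_le_mul_left ?_ hpos
    nlinarith [h3]
  exact_mod_cast h4

/-- Let p be a prime, M a maximal ideal of the algebraic integers containing p, B a p-block of the finite group G with defect group D of order p^d, H = D·C_G(D), b a block of H inducing B, T the stabilizer of b in N_G(D) and e = [T : H] the inertial index of B; let n be the integer with p^n ≤ e < p^(n+1) and p^c the order of the centre of D. Then every irreducible character in B has height h with h + c ≤ n + d. -/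
theorem result {G : Type*} [Group G] [Finite G] (p : ℕ) [Fact p.Prime] (M : Ideal Cfsg.AlgInt) (hM : Cfsg.IsPModular p M) (B : Set (Cfsg.IrrCharacter G)) (hB : Cfsg.IsPBlock M B) (D : Subgroup G) (hBD : Cfsg.IsDefectGroup p M B D) (d : ℕ) (hDd : Nat.card D = p ^ d) (H : Subgroup G) (hH : H = D ⊔ Subgroup.centralizer (D : Set G)) (b : Set (Cfsg.IrrCharacter H)) (hind : Cfsg.IsInducedBlock M H b B) (T : Subgroup G) (hT : ∀ g : G, g ∈ T ↔ (g ∈ Subgroup.normalizer (D : Set G) ∧ ∀ θ ∈ b, ∀ θ' : Cfsg.IrrCharacter H, (∀ h h' : H, (h' : G) = g * h * g⁻¹ → (θ' : H → ℂ) h' = (θ : H → ℂ) h) → θ' ∈ b)) (e : ℕ) (he : H.relIndex T = e) (n : ℕ) (hn : p ^ n ≤ e ∧ e < p ^ (n + 1)) (c : ℕ) (hc : Nat.card (Subgroup.center D) = p ^ c) : ∀ χ ∈ B, Cfsg.blockHeight p B (χ : G → ℂ) + c ≤ n + d := by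
  intro χ hχ
  have hp : p.Prime := Fact.out
  have hF := natCast_F hM
  have hDp := hBD.isPGroup
  have hb := hind.1
  have hDH : D ≤ H := hH ▸ le_sup_left
  have hCH : centralizer (D : Set G) ≤ H := hH ▸ le_sup_right
  have hHN : H ≤ normalizer (D : Set G) := hH ▸ sup_le le_normalizer (centralizer_le_normalizer _)
  have hpair : IsPair p D (sb M H b) :=
    (isSB_sb hM hb).isPair_of_le_sup hp hF hDp hDH hCH hH.le
  have hmax : MaxP p M B D (sb M H b) :=
    ⟨hM, hB, relPair_top_iff.2 ⟨hpair, (indAlong_iff_Br_mul hp hF hDp hDH hCH hHN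
      (isBlk_eB hM hb) (isBlk_eB hM hB)).1 (hind.indAlong hM)⟩,
      (isDefectGroup_iff_sDef_top hM hB).1 hBD⟩
  have hTs : T = pairStab D (sb M H b) := by
    ext g
    rw [hT, pairStab, mem_inf, mem_cjStab]
    refine and_congr_right fun hg => ?_
    have hKL : g •ᶜ H = H := by
      rw [hH, MSS.cj_sup, MSS.cj_centralizer, MSS.cj_eq_of_mem_normalizer hg]
    exact forall_conj_mem_iff hM hKL hb hb
  have h1 := height_bound hmax hχ
  have hZ : Nat.card (D ⊓ centralizer (D : Set G) : Subgroup G) = p ^ c := by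
    rw [← hc, ← card_map_of_injective (f := D.subtype) D.subtype_injective]
    congr 2
    ext g
    simp only [mem_inf, mem_map, mem_center_iff, mem_centralizer_iff, coe_subtype]
    constructor
    · rintro ⟨hg, h⟩
      exact ⟨⟨g, hg⟩, fun y => Subtype.ext (h y y.2), rfl⟩
    · rintro ⟨x, hx, rfl⟩
      exact ⟨x.2, fun y hy => congrArg Subtype.val (hx ⟨y, hy⟩)⟩
  have hd : blockDefect p B = d := Nat.pow_right_injective hp.two_le (hmax.card_eq.symm.trans hDd)
  rw [hZ, ← hH, ← hTs, he, hd, ← pow_add] at h1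
  have h2 : p ^ (blockHeight p B χ.1 + c) < p ^ (n + 1 + d) := by
    rw [pow_add p (n + 1)]
    exact h1.trans_lt (Nat.mul_lt_mul_of_pos_right hn.2 (pow_pos hp.pos _))
  have := (Nat.pow_lt_pow_iff_right hp.one_lt).1 h2
  omega

end Cfsg.Agent.S4715
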