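import Cfsg.Statements.S4717
import Mathlib
import Cfsg.Agent.BLK.PrincCol

set_option autoImplicit false
open Cfsg

namespace Cfsg.Agent.S4717

open CL.Blk Cfsg Subgroup

/-- Let p be a prime, M a maximal ideal of the algebraic integers containing p, and r a natural number; say that a finite group X has deficiency class r when X has no non-principal p-block of defect ≥ r. If G has deficiency class r then so does the centralizer of every p-element of G; conversely, if r > 0 and the centralizer of every element of order p has deficiency class r, then G has deficiency class r. -/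
theorem result {G : Type*} [Group G] [Finite G] (p : ℕ) [Fact p.Prime] (M : Ideal Cfsg.AlgInt) (hM : Cfsg.IsPModular p M) (r : ℕ) : ((∀ B' : Set (Cfsg.IrrCharacter G), Cfsg.IsPBlock M B' → B' ≠ Cfsg.principalBlock M G → Cfsg.blockDefect p B' < r) → ∀ y : G, (∃ k : ℕ, orderOf y = p ^ k) → (∀ B' : Set (Cfsg.IrrCharacter ↥(Subgroup.centralizer ({y} : Set G))), Cfsg.IsPBlock M B' → B' ≠ Cfsg.principalBlock M ↥(Subgroup.centralizer ({y} : Set G)) → Cfsg.blockDefect p B' < r)) ∧ (0 < r → (∀ y : G, orderOf y = p → (∀ B' : Set (Cfsg.IrrCharacter ↥(Subgroup.centralizer ({y} : Set G))), Cfsg.IsPBlock M B' → B' ≠ Cfsg.principalBlock M ↥(Subgroup.centralizer ({y} : Set G)) → Cfsg.blockDefect p B' < r)) → (∀ B' : Set (Cfsg.IrrCharacter G), Cfsg.IsPBlock M B' → B' ≠ Cfsg.principalBlock M G → Cfsg.blockDefect p B' < r)) := by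
  constructor
  · intro h y hy b hb hne
    obtain ⟨B, hB⟩ := exists_isInducedBlock_of_eq hM hy rfl hb
    refine lt_of_le_of_lt (hB.blockDefect_le hM) (h B ((isInducedBlock_iff hM).1 hB).2.1 ?_)
    exact fun h0 => hne ((hB.eq_principal_iff hM).1 h0)
  · intro hr h B hB hne
    by_contra hlt
    obtain ⟨D, hD⟩ := exists_isDefectGroup hM hB
    have hc := hD.card_eq_pow hM hB
    have hD1 : Nontrivial D := by
      rw [← Finite.one_lt_card_iff_nontrivial, hc]
      exact Nat.one_lt_pow (by omega) hM.1.one_lt
    have h1 := hD.isPGroup.center_nontrivial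
    have h2 : p ∣ Nat.card (center D) := by
      obtain ⟨k, hk⟩ := IsPGroup.iff_card.1 (hD.isPGroup.to_subgroup (center D))
      rw [hk]
      refine dvd_pow_self p fun h0 => ?_
      rw [h0, pow_zero] at hk
      exact (Finite.one_lt_card_iff_nontrivial.2 h1).ne' hk
    obtain ⟨y, hy⟩ := exists_prime_orderOf_dvd_card' p h2
    have hy' : orderOf ((y : D) : G) = p := by rw [orderOf_coe, orderOf_coe, hy]
    obtain ⟨b, hb, -, hd⟩ := exists_major hM hB hD (y : D).2 rfl (fun d hd =>
      mem_centralizer_singleton_iff.2 (congrArg Subtype.val (mem_center_iff.1 y.2 ⟨d, hd⟩)))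
    have := h _ hy' b ((isInducedBlock_iff hM).1 hb).1 fun h0 => hne ((hb.eq_principal_iff hM).2 h0)
    omega

end Cfsg.Agent.S4717
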