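import Cfsg.Statements.S4718
import Cfsg.Agent.FGS.Landau
import Cfsg.Agent.S4494
import Cfsg.Agent.BLK.Deg
import Cfsg.Agent.CHAR.Orth

set_option autoImplicit false
universe u
open Cfsg

namespace Cfsg.Agent.S4718

/-- Let p be a prime and a a natural number. There is a bound N such that every finite group whose Sylow p-subgroups have order p^a and whose only p-block (relative to a maximal ideal of the algebraic integers containing p) is the principal block has order at most N. -/
theorem result (p : ℕ) [Fact p.Prime] (a : ℕ) : ∃ N : ℕ, ∀ (G : Type u) [Group G] [Finite G] (M : Ideal Cfsg.AlgInt), Cfsg.IsPModular p M → (Nat.card G).factorization p = a → (∀ B : Set (Cfsg.IrrCharacter G), Cfsg.IsPBlock M B → B = Cfsg.principalBlock M G) → Nat.card G ≤ N := by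
  obtain ⟨N, hN⟩ := CL.FGS.exists_card_le_of_card_conjClasses_le (p ^ (2 * a) + 4)
  refine ⟨N, fun G _ _ M hM ha h => hN G ?_⟩
  have h1 := Cfsg.Agent.S4494.result p M hM _ (CL.Blk.isPBlock_principalBlock (G := G))
  have h2 : Cfsg.principalBlock M G = Set.univ := by
    rw [Set.eq_univ_iff_forall]
    intro χ
    rw [← h _ ⟨χ, rfl⟩]
    exact CL.Blk.mem_blockOf_self hM χ
  have h3 : Cfsg.blockDefect p (Cfsg.principalBlock M G) ≤ a := ha ▸ Nat.sub_le _ _
  have h4 : p ^ (2 * Cfsg.blockDefect p (Cfsg.principalBlock M G)) ≤ p ^ (2 * a) :=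
    Nat.pow_le_pow_right (Nat.Prime.pos Fact.out) (by omega)
  have h5 : Nat.card (Cfsg.principalBlock M G) = Nat.card (ConjClasses G) := by
    rw [h2, Nat.card_univ, CL.Char.card_irr]
  omega
end Cfsg.Agent.S4718
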