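import Cfsg.Statements.S4719
import Cfsg.Agent.BLK.Deficiency
import Cfsg.Agent.BLK.BrauerFeit
import Cfsg.Agent.BLK.IndTilde
import Cfsg.Agent.BLK.DefCard
import Cfsg.Agent.BLK.Princ
import Cfsg.Agent.FGS.Landau

set_option autoImplicit false
universe u
open Cfsg

namespace Cfsg.Agent.S4719

/-- For every natural number a there is a bound N with the following property. Let G be a finite group with Sylow 2-subgroups of order 2^a and r ≥ 0 such that G has no non-principal 2-block (relative to a maximal ideal of the algebraic integers containing 2) of defect ≥ r, and suppose a Sylow 2-subgroup of G contains an elementary abelian subgroup of order 2^(r+1). Then the order of G is at most N. -/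
theorem result (a : ℕ) : ∃ N : ℕ, ∀ (G : Type u) [Group G] [Finite G] (M : Ideal Cfsg.AlgInt) (r : ℕ) (P : Sylow 2 G), Cfsg.IsPModular 2 M → Nat.card P = 2 ^ a → (∀ B : Set (Cfsg.IrrCharacter G), Cfsg.IsPBlock M B → B ≠ Cfsg.principalBlock M G → Cfsg.blockDefect 2 B < r) → (∃ E : Subgroup G, E ≤ (P : Subgroup G) ∧ IsMulCommutative E ∧ (∀ x ∈ E, x * x = 1) ∧ Nat.card E = 2 ^ (r + 1)) → Nat.card G ≤ N := by
  haveI : Fact (Nat.Prime 2) := ⟨Nat.prime_two⟩
  obtain ⟨N₀, hN₀⟩ := CL.FGS.exists_card_le_of_card_conjClasses_le.{u} (2 ^ (2 * a) + 1)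
  have main : ∀ i : ℕ, ∃ N : ℕ, ∀ (G : Type u) [Group G] [Finite G] (r : ℕ) (E : Subgroup G),
      ¬ 2 ^ (a + 1) ∣ Nat.card G → IsMulCommutative E → (∀ x ∈ E, x * x = 1) →
      Nat.card E = 2 ^ (r + 1) →
      (∀ Q ≤ E, 2 ^ r ≤ Nat.card Q → Nat.card (Subgroup.centralizer (Q : Set G)) ≤ N₀) →
      ∀ Q ≤ E, 2 ^ r ≤ 2 ^ i * Nat.card Q → Nat.card (Subgroup.centralizer (Q : Set G)) ≤ N := by
    intro i
    induction i with
    | zero => exact ⟨N₀, fun G _ _ r E _ _ _ _ h Q hQ hc => h Q hQ (by simpa using hc)⟩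
    | succ i ih =>
      obtain ⟨N, hN⟩ := ih
      obtain ⟨B, hB⟩ := CL.Defic.exists_bound.{u} N (a + 1)
      refine ⟨N + B, ?_⟩
      intro G _ _ r E ha hE hE2 hEc h Q hQ hc
      have hcomm : ∀ x ∈ E, ∀ y ∈ E, x * y = y * x := fun x hx y hy =>
        congrArg Subtype.val (hE.is_comm.comm (⟨x, hx⟩ : E) ⟨y, hy⟩)
      by_cases hQc : 2 ^ r ≤ 2 ^ i * Nat.card Q
      · exact (hN G r E ha hE hE2 hEc h Q hQ hQc).trans (Nat.le_add_right _ _)
      have hlt : Nat.card Q < 2 ^ r := by
        have : Nat.card Q ≤ 2 ^ i * Nat.card Q := Nat.le_mul_of_pos_left _ (by positivity)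
        omega
      have hEC : E ≤ Subgroup.centralizer (Q : Set G) := fun x hx y hy => hcomm y (hQ hy) x hx
      have hstep : ∀ v (hv : v ∈ E), v ∉ Q → Nat.card (CL.JordanP.Cz
          (⟨v, hEC hv⟩ : Subgroup.centralizer (Q : Set G))) ≤ N := by
        intro v hv hvQ
        have h1 : Q ⊔ Subgroup.zpowers v ≤ E := sup_le hQ (Subgroup.zpowers_le.mpr hv)
        have h2 : 2 * Nat.card Q ≤ Nat.card ↥(Q ⊔ Subgroup.zpowers v) := by
          obtain ⟨k, hk⟩ := Subgroup.card_dvd_of_le (le_sup_left : Q ≤ Q ⊔ Subgroup.zpowers v)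
          have hk1 : k ≠ 1 := by
            rintro rfl
            have := Subgroup.eq_of_le_of_card_ge (le_sup_left : Q ≤ Q ⊔ Subgroup.zpowers v)
              (by rw [hk, mul_one])
            exact hvQ (this ▸ Subgroup.mem_sup_right (Subgroup.mem_zpowers v))
          have hk0 : k ≠ 0 := by
            rintro rfl
            exact Nat.card_pos.ne' (by simpa using hk)
          rw [hk, mul_comm]
          exact Nat.mul_le_mul_left _ (by omega)
        refine le_trans ?_ (hN G r E ha hE hE2 hEc h _ h1 (hc.trans ?_))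
        · refine Nat.card_le_card_of_injective (fun x => ⟨x.1.1, ?_⟩) ?_
          · have hle : Q ⊔ Subgroup.zpowers v ≤ CL.JordanP.Cz x.1.1 := by
              refine sup_le ?_ (Subgroup.zpowers_le.mpr ?_)
              · rintro y hy _ rfl
                exact (x.1.2 y hy).symm
              · rintro _ rfl
                exact (congrArg Subtype.val (x.2 _ rfl)).symm
            exact fun y hy => (hle hy _ rfl).symm
          · intro x y hxy
            exact Subtype.ext (Subtype.ext (Subtype.mk.inj hxy))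
        · rw [pow_succ, mul_assoc]
          exact Nat.mul_le_mul_left _ h2
      obtain ⟨x, hxE, hxQ⟩ : ∃ x ∈ E, x ∉ Q := by
        by_contra hcon
        push Not at hcon
        have := Subgroup.card_le_of_le (show E ≤ Q from hcon)
        rw [hEc, pow_succ] at this
        omega
      obtain ⟨y, hyE, hyQ, hxy⟩ : ∃ y ∈ E, y ∉ Q ∧ x * y ∉ Q := by
        by_contra hcon
        push Not at hcon
        have h1 : (E : Set G) ⊆ (Q : Set G) ∪ (fun g => x * g) '' (Q : Set G) := by
          intro y hy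
          by_cases hyQ : y ∈ Q
          · exact Or.inl hyQ
          · exact Or.inr ⟨x * y, hcon y hy hyQ, by
              change x * (x * y) = y
              rw [← mul_assoc, hE2 x hxE, one_mul]⟩
        have h2 := (Set.ncard_le_ncard h1 (Set.toFinite _)).trans (Set.ncard_union_le _ _)
        have h3 := Set.ncard_image_le (s := (Q : Set G)) (f := fun g => x * g) (Set.toFinite _)
        have h4 : (E : Set G).ncard = 2 ^ (r + 1) := by rw [← hEc, ← Nat.card_coe_set_eq]; rfl
        have h5 : (Q : Set G).ncard = Nat.card Q := by rw [← Nat.card_coe_set_eq]; rfl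
        rw [pow_succ] at h4
        omega
      refine (hB _ (fun hd => ha (hd.trans (Subgroup.card_subgroup_dvd_card _)))
        ⟨x, hEC hxE⟩ ⟨y, hEC hyE⟩ (Subtype.ext (hE2 x hxE)) (Subtype.ext (hE2 y hyE))
        (Subtype.ext (hcomm x hxE y hyE)) ?_ ?_ ?_ (hstep x hxE hxQ) (hstep y hyE hyQ)
        (hstep _ (E.mul_mem hxE hyE) hxy)).trans (Nat.le_add_left _ _)
      · exact fun h => hxQ (by rw [show x = 1 from congrArg Subtype.val h]; exact Q.one_mem)
      · exact fun h => hyQ (by rw [show y = 1 from congrArg Subtype.val h]; exact Q.one_mem)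
      · exact fun h => hxy (by rw [show x * y = 1 from congrArg Subtype.val h]; exact Q.one_mem)
  obtain ⟨N, hN⟩ := main a
  refine ⟨N, ?_⟩
  rintro G _ _ M r P hM hP hdef ⟨E, hEP, hE, hE2, hEc⟩
  have hfac : (Nat.card G).factorization 2 = a :=
    Nat.pow_right_injective le_rfl ((Sylow.card_eq_multiplicity P).symm.trans hP)
  have ha : ¬ 2 ^ (a + 1) ∣ Nat.card G := by
    rw [Nat.prime_two.pow_dvd_iff_le_factorization Nat.card_pos.ne']
    omega
  have hra : r + 1 ≤ a := by
    have := Subgroup.card_le_of_le hEP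
    rw [hEc, hP] at this
    exact (Nat.pow_le_pow_iff_right one_lt_two).mp this
  have := hN G r E ha hE hE2 hEc ?_ ⊥ bot_le (by
    rw [Subgroup.card_bot, mul_one]; exact Nat.pow_le_pow_right two_pos (by omega))
  · refine le_trans ?_ this
    refine Nat.card_le_card_of_injective (fun g => ⟨g, ?_⟩) fun x y h => congrArg Subtype.val h
    rintro _ rfl
    simp
  intro Q hQ hQc
  have hQ2 : IsPGroup 2 Q := P.isPGroup'.to_le (hQ.trans hEP)
  have hall : ∀ χ : Cfsg.IrrCharacter (Subgroup.centralizer (Q : Set G)),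
      χ ∈ Cfsg.principalBlock M (Subgroup.centralizer (Q : Set G)) := by
    intro χ
    have hb := CL.Blk.isPBlock_blockOf (M := M) χ
    have hd := CL.Blk.inducedBlockDefined_centralizer hM hQ2 hb
    obtain ⟨B, hB⟩ := id hd
    have hBb : Cfsg.IsPBlock M B := ((CL.Blk.isInducedBlock_iff hM).mp hB).2.1
    have hbr := (CL.Blk.exists_isBrauerPairOf_iff hM hBb hQ2).mp
      ⟨_, (CL.Blk.isBrauerPairOf_iff_induced hM).mpr ⟨hQ2, hB⟩⟩
    obtain ⟨D, hD, hQD⟩ := (CL.Blk.brNe_eB_iff_exists hM hBb hQ2).mp hbr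
    have h1 := hQc.trans (Subgroup.card_le_of_le hQD)
    rw [hD.card_eq_pow hM hBb, Nat.pow_le_pow_iff_right one_lt_two] at h1
    have h2 : B = Cfsg.principalBlock M G := by
      by_contra hne
      exact absurd (hdef B hBb hne) (by omega)
    rw [← (CL.Blk.isInducedBlock_principal_iff hM hd).mp (h2 ▸ hB)]
    exact CL.Blk.mem_blockOf_self hM χ
  refine hN₀ _ ?_
  rw [← CL.Char.card_irr]
  have h1 := CL.Blk.four_mul_card_le (G := Subgroup.centralizer (Q : Set G)) hM
    (CL.Blk.isPBlock_principalBlock (M := M))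
  rw [CL.Blk.blockDefect_principal hM] at h1
  have h2 : Nat.card (Cfsg.IrrCharacter (Subgroup.centralizer (Q : Set G))) ≤
      Nat.card (Cfsg.principalBlock M (Subgroup.centralizer (Q : Set G))) :=
    Nat.card_le_card_of_injective (fun χ => ⟨χ, hall χ⟩) fun x y h => congrArg Subtype.val h
  have h3 : (Nat.card (Subgroup.centralizer (Q : Set G))).factorization 2 ≤ a := by
    rw [← hfac]
    exact (Nat.factorization_le_iff_dvd Nat.card_pos.ne' Nat.card_pos.ne').mpr
      (Subgroup.card_subgroup_dvd_card _) 2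
  have h4 := Nat.pow_le_pow_right two_pos (Nat.mul_le_mul_left 2 h3)
  have h5 : 0 < 2 ^ (2 * a) := by positivity
  omega

end Cfsg.Agent.S4719
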