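import Cfsg.Statements.S4720
import Mathlib
import Cfsg.Agent.BLK.PrincCol2

set_option autoImplicit false
open Cfsg

namespace Cfsg.Agent.S4720

open CL.Blk Cfsg Subgroup
open scoped ComplexConjugate

/-- Let p be a prime, M a maximal ideal of the algebraic integers containing p, P a p-subgroup of the finite group G, N a subgroup with P ≤ N ≤ N_G(P), and U a nonempty subset of P normalized by N such that an element of U and an element of P that are conjugate in G are already conjugate in N, and such that λ(C_G(y)) = w·#C_N(y) for every y ∈ U with one rational number w, where λ(X) denotes the sum of the squares of the degrees of the irreducible characters in the principal p-block of X. For a complex function θ on P and χ in the principal block of G put a_χ(θ) = #P⁻¹ Σ_{y ∈ P} χ(y) θ(y⁻¹). Then for generalized characters θ, η of P with θ vanishing outside U, Σ_χ a_χ(θ)·conj(a_χ(η)) = (w/#P²)·Σ_{y ∈ P} θ(y)·conj(Σ_{x ∈ N} η(x y x⁻¹)) (η extended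 by zero off P; the conjugates lie in P), the first sum over the principal p-block of G. -/
theorem result {G : Type*} [Group G] [Finite G] (p : ℕ) [Fact p.Prime] (M : Ideal Cfsg.AlgInt) (hM : Cfsg.IsPModular p M) (P : Subgroup G) (hP : IsPGroup p P) (N : Subgroup G) (hPN : P ≤ N) (hNN : N ≤ Subgroup.normalizer (P : Set G)) (U : Set G) (hUne : U.Nonempty) (hUP : U ⊆ (P : Set G)) (hUN : ∀ n ∈ N, ∀ u ∈ U, n * u * n⁻¹ ∈ U) (hfus : ∀ u ∈ U, ∀ g : G, g * u * g⁻¹ ∈ (P : Set G) → ∃ n ∈ N, n * u * n⁻¹ = g * u * g⁻¹) (w : ℚ) (hw : ∀ y ∈ U, ((∑ᶠ ψ ∈ Cfsg.principalBlock M ↥(Subgroup.centralizer ({y} : Set G)), Cfsg.charDegree (ψ : ↥(Subgroup.centralizer ({y} : Set G)) → ℂ) ^ 2) : ℚ) = w * Nat.card ↥(N ⊓ Subgroup.centralizer ({y} : Set G))) (θ η : ↥P → ℂ) (hθ : Cfsg.IsGeneralizedCharacter ↥P θ) (hη : Cfsg.IsGeneralizedCharacter ↥P η) (hθU : ∀ y : ↥P, (y : G) ∉ U → θ y = 0) : ∑ᶠ χ ∈ Cfsg.principalBlock M G, ((Nat.card ↥P : ℂ)⁻¹ * ∑ᶠ y : ↥P, (χ : G → ℂ) (y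 : G) * θ y⁻¹) * (starRingEnd ℂ) ((Nat.card ↥P : ℂ)⁻¹ * ∑ᶠ y : ↥P, (χ : G → ℂ) (y : G) * η y⁻¹) = ((w : ℂ) / ((Nat.card ↥P : ℂ) ^ 2)) * ∑ᶠ y : ↥P, θ y * (starRingEnd ℂ) (∑ᶠ x : ↥N, Cfsg.extendByZero P η ((x : G) * (y : G) * (x : G)⁻¹)) := by
  classical
  have := Fintype.ofFinite P
  have := Fintype.ofFinite N
  have hU : ∀ y : P, θ y ≠ 0 → (y : G) ∈ U := fun y hy => by_contra fun h => hy (hθU y h)
  have h1 := sum_colA_principal hM hP (N := N) (θ := θ) η (w := (w : ℂ))
    (fun y y' hy hc => by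
      obtain ⟨g, hg⟩ := isConj_iff.1 hc
      rw [← hg]
      exact hfus y (hU y hy) g (by rw [hg]; exact y'.2))
    (fun y hy => by
      have h2 := congrArg (fun q : ℚ => (q : ℂ)) (hw y (hU y hy))
      simp only [finsum_mem_block_eq] at h2
      push_cast at h2
      rw [← h2]
      exact Finset.sum_congr rfl fun ψ _ => by rw [irr_one_eq])
  simp only [colA_eq_finsum hθ, colA_eq_finsum hη]
  rw [finsum_mem_block_eq]
  simp only [finsum_eq_sum_of_fintype]
  have h2 := congrArg conj h1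
  simp only [map_mul, map_sum, map_div₀, map_pow, map_natCast, map_ratCast, Complex.conj_conj] at h2 ⊢
  rw [← h2]
  refine Finset.sum_congr rfl fun χ _ => ?_
  obtain ⟨a, ha⟩ := exists_int_colA hθ χ
  obtain ⟨b, hb⟩ := exists_int_colA hη χ
  simp [ha, hb]

end Cfsg.Agent.S4720
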