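import Cfsg.Statements.S4721
import Mathlib
import Cfsg.Agent.BLK.FrobCol
import Cfsg.Agent.INV.Four

set_option autoImplicit false
open Cfsg

namespace Cfsg.Agent.S4721

open CL.Blk Cfsg Subgroup MulAction
open scoped ComplexConjugate

section aux
variable {G : Type*} [Group G] [Finite G] {p : ℕ} {M : Ideal AlgInt}

open Classical in
theorem sum_pair_eq_zero' (hM : IsPModular p M) {A : Set (IrrCharacter G)}
    (hA : IsBlockUnion M A) {a y : G} (ha : a * a = 1) (hy : ∃ k, orderOf y = p ^ k)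
    (h : ∀ u v : G, ¬ IsPPart p (u * a * u⁻¹ * (v * a * v⁻¹)) y) :
    ∑ χ with χ ∈ A, χ.1 y * (χ.1 a ^ 2 / χ.1 1) = 0 := by
  have := Fintype.ofFinite G
  have h1 : blockPart A (pairCt a a) y = 0 := by
    refine blockPart_eq_zero_of_section hM (hA.isInt hM) (isPPart_self hM.1 hy) fun k w hw hc => ?_
    by_contra h0
    obtain ⟨u, v, rfl⟩ := exists_of_pairCt_ne_zero h0
    obtain ⟨c, rfl⟩ := isConj_iff.1 hc
    refine h (c⁻¹ * u) (c⁻¹ * v) ?_
    convert hw.conj c⁻¹ using 1 <;> group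
  rw [blockPart_pairCt, mul_eq_zero] at h1
  rcases h1 with h1 | h1
  · exact absurd h1 (CL.Char.card_ne_zero G)
  · rw [← h1]
    refine Finset.sum_congr rfl fun χ _ => ?_
    rw [irr_conj_of_mul_self χ ha]; ring

omit [Finite G] in
theorem conj_sq {a : G} (ha : a * a = 1) (u : G) : u * a * u⁻¹ * (u * a * u⁻¹) = 1 := by
  rw [show u * a * u⁻¹ * (u * a * u⁻¹) = u * (a * a) * u⁻¹ by group, ha]; group

variable [Fact p.Prime] {P : Sylow p G}

omit [Finite G] [Fact p.Prime] in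
theorem cube_mem (hCN : (centralizer ((P : Subgroup G) : Set G)).relIndex
    (normalizer ((P : Subgroup G) : Set G)) = 3) {n : G}
    (hn : n ∈ normalizer ((P : Subgroup G) : Set G)) :
    n ^ 3 ∈ centralizer ((P : Subgroup G) : Set G) := by
  have := pow_index_mem (H := (centralizer ((P : Subgroup G) : Set G)).subgroupOf
    (normalizer ((P : Subgroup G) : Set G))) ⟨n, hn⟩
  rw [relIndex] at hCN
  rwa [hCN] at this

theorem not_conj_inv (h : FrobSyl P) (hCN : (centralizer ((P : Subgroup G) : Set G)).relIndex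
    (normalizer ((P : Subgroup G) : Set G)) = 3) {y : G} (hy : y ∈ (P : Subgroup G))
    (hc : IsConj y y⁻¹) : y * y = 1 := by
  by_cases h1 : y = 1
  · simp [h1]
  obtain ⟨n, hn, h2⟩ := h.fus hy (inv_mem hy) hc
  have h3 : n ^ 2 ∈ centralizer ((P : Subgroup G) : Set G) := by
    refine h.free y hy h1 ▸ ⟨mem_centralizer_singleton_iff.2 ?_, pow_mem hn 2⟩
    rw [sq]
    calc n * n * y = n * (n * y * n⁻¹) * n⁻¹ * (n * n) := by group
      _ = n * y⁻¹ * n⁻¹ * (n * n) := by rw [h2]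
      _ = (n * y * n⁻¹)⁻¹ * (n * n) := by group
      _ = _ := by rw [h2, inv_inv]
  have h4 : n ∈ centralizer ((P : Subgroup G) : Set G) := by
    have := mul_mem (cube_mem hCN hn) (inv_mem h3)
    rwa [show n ^ 3 * (n ^ 2)⁻¹ = n by group] at this
  rw [← mem_centralizer_iff.1 h4 y hy, mul_inv_cancel_right] at h2
  exact mul_eq_one_iff_eq_inv.2 h2

theorem exists_hom_two (h : FrobSyl P) (hCN : (centralizer ((P : Subgroup G) : Set G)).relIndex
    (normalizer ((P : Subgroup G) : Set G)) = 3) (hm : 3 + 1 < Nat.card P) {t : G}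
    (htP : t ∈ (P : Subgroup G)) (ht : t * t = 1) : ∃ ψ : (P : Subgroup G) →* ℂˣ, ψ ≠ 1 ∧
      ∀ x : (P : Subgroup G), IsConj t x → ψ x = 1 := by
  classical
  let N := normalizer ((P : Subgroup G) : Set G)
  let C := (centralizer ((P : Subgroup G) : Set G)).subgroupOf N
  have hQ : Nat.card (N ⧸ C) = 3 := hCN
  have : Nontrivial (N ⧸ C) := Finite.one_lt_card_iff_nontrivial.1 (by omega)
  obtain ⟨q, hq⟩ := exists_ne (1 : N ⧸ C)
  obtain ⟨g, rfl⟩ := QuotientGroup.mk_surjective q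
  let a : (P : Subgroup G) := ⟨t, htP⟩
  have hfix : ∀ c ∈ C, ∀ x : (P : Subgroup G), c • x = x := fun c hc x => Subtype.ext (by
    have h0 : (x : G) * c = c * x := mem_centralizer_iff.1 hc x x.2
    rw [coe_normalizer_smul, ← h0, mul_inv_cancel_right])
  have h3 : g ^ 3 • a = a := hfix _ (cube_mem hCN g.2) a
  have hprod : a * (g • a) * (g ^ 2 • a) = 1 := by
    by_contra hne
    have h1 : g • (a * (g • a) * (g ^ 2 • a)) = a * (g • a) * (g ^ 2 • a) := by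
      rw [smul_mul', smul_mul', smul_smul, smul_smul, ← sq, ← pow_succ', h3, h.comm' _ a, mul_assoc]
    refine hq ((QuotientGroup.eq_one_iff g).2 ?_)
    have h2 : (g : G) ∈ centralizer ((P : Subgroup G) : Set G) :=
      h.free _ (a * (g • a) * (g ^ 2 • a)).2 (fun h => hne (Subtype.ext h)) ▸
        ⟨mem_centralizer_singleton_iff.2 (mul_inv_eq_iff_eq_mul.1 (congrArg Subtype.val h1)), g.2⟩
    exact h2
  have ha : a * a = 1 := Subtype.ext ht
  have hb : (g • a) * (g • a) = 1 := by rw [← smul_mul', ha, smul_one]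
  obtain ⟨x, hx⟩ : ∃ x, x ∉ closure ({a, g • a} : Set (P : Subgroup G)) := by
    by_contra hn
    push Not at hn
    have := Fintype.ofFinite (P : Subgroup G)
    have h1 : (Finset.univ : Finset (P : Subgroup G)) ⊆ {1, a, g • a, a * g • a} := fun x _ => by
      simpa using (CL.Four.mem_closure_pair_iff_of_commute ha hb (h.comm' _ _)).1 (hn x)
    have h2 := (Finset.card_le_card h1).trans Finset.card_le_four
    rw [Finset.card_univ, ← Nat.card_eq_fintype_card] at h2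
    exact absurd hm (not_lt.2 h2)
  obtain ⟨ψ, h1, h2⟩ := CL.Char.exists_hom_of_not_mem (closure ({a, g • a} : Set (P : Subgroup G)))
    (by rw [CL.Char.commutator_eq_bot_of_comm h.comm']; exact bot_le) hx
  have e0 : ψ a = 1 := h1 _ (subset_closure (by simp))
  have e1 : ψ (g • a) = 1 := h1 _ (subset_closure (by simp))
  have e2 : ψ (g ^ 2 • a) = 1 := by simpa [e0, e1] using congrArg ψ hprod
  have e3 : ∀ k : ℕ, ψ (g ^ k • a) = 1 := fun k => by
    induction k using Nat.strong_induction_on with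
    | _ k ih =>
      rcases k with _ | _ | _ | k
      · simpa using e0
      · simpa using e1
      · exact e2
      · rw [show k + 1 + 1 + 1 = k + 3 by ring, pow_add, mul_smul, h3]; exact ih k (by omega)
  refine ⟨ψ, fun h => h2 (by simp [h]), fun y hy => ?_⟩
  obtain ⟨n, hn, h4⟩ := h.fus htP y.2 hy
  have : Fact (Nat.Prime 3) := ⟨Nat.prime_three⟩
  obtain ⟨k, hk⟩ := mem_powers_of_prime_card hQ hq (g' := ((⟨n, hn⟩ : N) : N ⧸ C))
  have h5 : (g ^ k)⁻¹ * ⟨n, hn⟩ ∈ C := QuotientGroup.eq.1 hk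
  have h6 : y = g ^ k • a := by
    rw [← hfix _ h5 a, smul_smul, mul_inv_cancel_left]
    exact Subtype.ext h4.symm
  rw [h6, e3]

open Classical in
theorem exists_relations [Fintype (P : Subgroup G)] (hM : IsPModular p M) (h : FrobSyl P)
    (hCN : (centralizer ((P : Subgroup G) : Set G)).relIndex
    (normalizer ((P : Subgroup G) : Set G)) = 3) (hm : 3 + 1 < Nat.card P) {t : G}
    (ht : orderOf t = 2) : ∃ ψ : (P : Subgroup G) →* ℂˣ, ψ ≠ 1 ∧
      ∑ χ with χ ∈ principalBlock M G, ((mlt P 1 χ - mlt P ψ χ : ℤ) : ℂ) * (χ.1 t ^ 2 / χ.1 1) = 0 ∧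
      ∑ χ with χ ∈ principalBlock M G, ((mlt P 1 χ - mlt P ψ χ : ℤ) : ℂ) * χ.1 t = 0 := by
  have hB := isBlockUnion_of_block hM (isPBlock_principalBlock (G := G))
  have ht2 := CL.Inv.mul_self_of_orderOf_two ht
  have hy : ∀ y : (P : Subgroup G), ∃ k, orderOf (y : G) = p ^ k := fun y =>
    pElt_of_mem_isPGroup hM.1 P.isPGroup' y.2
  by_cases hp2 : p = 2
  · subst hp2
    obtain ⟨c, hc⟩ := CL.Inv.exists_conj_mem_sylow P ht2
    obtain ⟨ψ, h1, h2⟩ := exists_hom_two h hCN hm hc (conj_sq ht2 c)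
    have h3 : ∀ x : (P : Subgroup G), IsConj t x → ψ x = 1 := fun x hx =>
      h2 x ((isConj_iff.2 ⟨c, rfl⟩).symm.trans hx)
    have h4 : ∀ y, (lc 1 - lc ψ : _ → ℂ) y ≠ 0 → ψ y ≠ 1 := fun y hy h => hy (by simp [lc, h])
    simp only [cast_mlt_sub]
    refine ⟨ψ, h1, sum_colA_mul_eq_zero _ fun y hy0 => ?_, sum_colA_mul_eq_zero _ fun y hy0 => ?_⟩
    · refine sum_pair_eq_zero' hM hB ht2 (hy y) fun u v hw => h4 y hy0 ?_
      have h5 := inverts_pPart hM.1 (conj_sq ht2 u) (conj_sq ht2 v) hw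
      have h6 := not_conj_inv h hCN y.2 (isConj_iff.2 ⟨_, h5⟩)
      have hy1 : (y : G) ≠ 1 := fun h => ne_one_of_lc_sub hy0 (Subtype.ext h)
      have ha : u * t * u⁻¹ ∈ centralizer ({(y : G)} : Set G) :=
        mem_centralizer_singleton_iff.2 (CL.Inv.commute_of_inverts_of_mul_self h5 h6)
      have hb : v * t * v⁻¹ ∈ centralizer ({(y : G)} : Set G) :=
        (mul_mem_cancel_left ha).1 hw.mem_centralizer
      obtain ⟨φ, hφ1, -, -, hφ4⟩ := exists_proj_sylow (h.npc y.2 hy1) P (h.le_centralizer y.2)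
      have h7 : ∀ (w : G) (hw : w * t * w⁻¹ ∈ centralizer ({(y : G)} : Set G)),
          ψ ⟨φ ⟨_, hw⟩, hφ1 _⟩ = 1 := fun w hw => by
        obtain ⟨z, hz⟩ := hφ4 ⟨_, hw⟩ ⟨_, hw⟩ (isPPart_self hM.1
          ⟨1, by rw [← orderOf_coe, CL.Inv.orderOf_conj', ht, pow_one]⟩)
        exact h3 _ ((isConj_iff.2 ⟨w, rfl⟩).trans (isConj_iff.2 ⟨_, hz⟩))
      obtain ⟨z, hz⟩ := hφ4 (⟨_, ha⟩ * ⟨_, hb⟩) (cz1 (y : G)) (isPPart_coe_iff.1 hw)
      have h8 : y = ⟨φ ⟨_, ha⟩, hφ1 _⟩ * ⟨φ ⟨_, hb⟩, hφ1 _⟩ := by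
        refine Subtype.ext ?_
        rw [map_mul, mem_centralizer_singleton_iff.1 z.2, mul_inv_cancel_right] at hz
        exact hz
      rw [h8, map_mul, h7, h7, one_mul]
    · rw [← column_of_not_isConj hM hB (hy y) (y := t) ⟨1, by simpa using ht⟩
        fun hc => h4 y hy0 (h3 y hc.symm)]
      exact Finset.sum_congr rfl fun χ _ => by rw [irr_conj_of_mul_self χ ht2]
  · obtain ⟨ψ, -, h1, -⟩ := h.exists_two_orbits (by rwa [hCN])
    refine ⟨ψ, h1, ?_, sum_mlt_sub_mul_reg hM P.isPGroup' hB 1 ψ fun hd => hp2 ?_⟩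
    · simp only [cast_mlt_sub]
      refine sum_colA_mul_eq_zero _ fun y hy0 => ?_
      refine sum_pair_eq_zero' hM hB ht2 (hy y) fun u v hw => ne_one_of_lc_sub hy0 ?_
      have h5 := inverts_pPart hM.1 (conj_sq ht2 u) (conj_sq ht2 v) hw
      have h6 := not_conj_inv h hCN y.2 (isConj_iff.2 ⟨_, h5⟩)
      refine Subtype.ext (eq_one_of_pElt_of_pReg (hy y) fun hd => hp2 ?_)
      exact (Nat.prime_dvd_prime_iff_eq hM.1 Nat.prime_two).1
        (hd.trans (orderOf_dvd_of_pow_eq_one (by rw [sq, h6])))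
    · exact (Nat.prime_dvd_prime_iff_eq hM.1 Nat.prime_two).1 (ht ▸ hd)

theorem swap {P : Subgroup G} [Fintype P] {δ : ℤ} {ζ : (P →* ℂˣ) → IrrCharacter G}
    {a : IrrCharacter G → ℤ} (D : ExcData M P δ δ ζ a) {ψ₀ ψ₁ : P →* ℂˣ} (h0 : ψ₀ ≠ 1) (h1 : ψ₁ ≠ 1)
    (h01 : ζ ψ₀ ≠ ζ ψ₁) (h : ∀ ψ, ψ ≠ 1 → ζ ψ = ζ ψ₀ ∨ ζ ψ = ζ ψ₁) :
    ∃ ζ', ExcData M P (-δ) 0 ζ' a ∧ ζ' '' {ψ | ψ ≠ 1} = ζ '' {ψ | ψ ≠ 1} := by
  classical
  let ζ' : (P →* ℂˣ) → IrrCharacter G := fun ψ => if ζ ψ = ζ ψ₀ then ζ ψ₁ else ζ ψ₀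
  have him : ζ' '' {ψ | ψ ≠ 1} = ζ '' {ψ | ψ ≠ 1} := by
    refine Set.Subset.antisymm ?_ ?_
    · rintro _ ⟨ψ, -, rfl⟩
      simp only [ζ']
      split_ifs
      · exact ⟨ψ₁, h1, rfl⟩
      · exact ⟨ψ₀, h0, rfl⟩
    · rintro _ ⟨ψ, hψ, rfl⟩
      rcases h ψ hψ with h2 | h2
      · exact ⟨ψ₁, h1, by simp [ζ', h01.symm, h2]⟩
      · exact ⟨ψ₀, h0, by simp [ζ', h2]⟩
  refine ⟨ζ', ⟨by have := D.sign; omega, fun ψ hψ => ?_, fun ψ φ hψ hφ => ?_,
    fun ψ hψ χ hχ hn => D.of_notMem ψ hψ χ hχ (him ▸ hn), fun ψ hψ => ?_,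
    fun ψ φ hψ hφ hne => ?_⟩, him⟩
  · simp only [ζ']
    split_ifs
    · exact D.mem _ h1
    · exact D.mem _ h0
  · rw [← D.eq_iff ψ φ hψ hφ]
    rcases h ψ hψ with h2 | h2 <;> rcases h φ hφ with h3 | h3 <;> simp [ζ', h2, h3, h01, h01.symm]
  · rw [zero_sub, neg_neg]
    simp only [ζ']
    split_ifs with h2
    · exact D.other ψ ψ₁ hψ h1 (h2 ▸ h01.symm)
    · exact D.other ψ ψ₀ hψ h0 (Ne.symm h2)
  · have h4 : ζ' φ = ζ ψ := by
      revert hne
      rcases h ψ hψ with h2 | h2 <;> rcases h φ hφ with h3 | h3 <;> simp [ζ', h2, h3, h01.symm]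
    rw [h4, D.self ψ hψ, sub_self]

end aux

theorem isSquare_of_rel {x y z u v w : ℤ} (hx : 0 < x) (hy : 0 < y) (hz : 0 < z) (hv : v ≠ y)
    (h1 : 1 + x - y - z = 0) (h2 : 1 + u - v - w = 0)
    (h3 : x * y * z + u ^ 2 * y * z - v ^ 2 * x * z - w ^ 2 * x * y = 0) : IsSquare (x * y * z) := by
  have hD : (v - y) ^ 2 * z + (w - z) ^ 2 * y = ((v - y) * z - (w - z) * y) ^ 2 := by
    have e1 : x = y + z - 1 := by linarith
    have e2 : u = v + w - 1 := by linarith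
    subst e1 e2
    linear_combination h3
  have h4 : x * y * z * ((v - y) * z - (w - z) * y) ^ 2 = ((u - x) * y * z) ^ 2 := by
    rw [← hD]
    have e1 : x = y + z - 1 := by linarith
    have e2 : u = v + w - 1 := by linarith
    subst e1 e2
    linear_combination (-(y * z)) * h3
  have h5 : (v - y) * z - (w - z) * y ≠ 0 := fun h => by
    rw [h] at hD
    have : 0 < (v - y) ^ 2 := by positivity [sub_ne_zero.2 hv]
    nlinarith [sq_nonneg (w - z), mul_pos this hz, mul_nonneg (sq_nonneg (w - z)) hy.le]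
  rw [← Rat.isSquare_intCast_iff]
  refine ⟨((u - x) * y * z : ℤ) / ((v - y) * z - (w - z) * y : ℤ), ?_⟩
  have h6 : (((v - y) * z - (w - z) * y : ℤ) : ℚ) ≠ 0 := by exact_mod_cast h5
  rw [div_mul_div_comm, eq_div_iff (mul_ne_zero h6 h6), ← sq, ← sq]
  exact_mod_cast h4

theorem sq_rel {x y z : ℕ} {u v w : ℤ} (hx : 0 < x) (hy : 0 < y) (hz : 0 < z) (hv : (v : ℂ) ≠ y)
    (h1 : (1 : ℂ) + x - y - z = 0) (h2 : (1 : ℂ) + u - v - w = 0)
    (h3 : (1 : ℂ) + u ^ 2 / x - v ^ 2 / y - w ^ 2 / z = 0) : IsSquare (x * y * z) := by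
  have hx' : (x : ℂ) ≠ 0 := by exact_mod_cast hx.ne'
  have hy' : (y : ℂ) ≠ 0 := by exact_mod_cast hy.ne'
  have hz' : (z : ℂ) ≠ 0 := by exact_mod_cast hz.ne'
  have h4 : (x : ℂ) * y * z + u ^ 2 * y * z - v ^ 2 * x * z - w ^ 2 * x * y = 0 := by
    field_simp at h3
    linear_combination h3
  rw [← Int.isSquare_natCast_iff]
  push_cast
  exact isSquare_of_rel (u := u) (v := v) (w := w) (by exact_mod_cast hx) (by exact_mod_cast hy)
    (by exact_mod_cast hz) (by exact_mod_cast hv) (by exact_mod_cast h1) (by exact_mod_cast h2)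
    (by exact_mod_cast h4)

/-- Let p be a prime, M a maximal ideal of the algebraic integers containing p, and G a finite group with a nontrivial abelian Sylow p-subgroup P, N = N_G(P), C = C_G(P), such that N/C is cyclic of order 3, #P > 4, and C_G(y) ∩ N = C for every non-identity y ∈ P. Then the principal p-block is the disjoint union of a set X of exactly 3 characters containing the principal character and a set Y of (#P − 1)/3 characters, with signs a_χ = ±1 (χ ∈ X, a = 1 at the principal character) and δ = ±1 such that every χ ∈ X takes the value a_χ at every element whose p-part is a non-identity element of P, and there is a map ζ from the non-principal linear characters of P onto Y, constant on N-conjugacy classes, with ζ_ψ(z) = δ·Σ ψ'(y) over the N-orbit of ψ, for z with p-part y ≠ 1 in P. If moreover G has an involution lying in no proper normal subgroup of G, then exactly two of the three numbers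 −δ and a_χ (χ ∈ X non-principal) equal −1, and the product of the degrees of the two non-principal members of X and of any member of Y is a perfect square. -/
theorem result {G : Type*} [Group G] [Finite G] (p : ℕ) [Fact p.Prime] (M : Ideal Cfsg.AlgInt) (hM : Cfsg.IsPModular p M) (P : Sylow p G) (hab : IsMulCommutative P) (hP1 : Nat.card P ≠ 1) (hCN : (Subgroup.centralizer ((P : Subgroup G) : Set G)).relIndex (Subgroup.normalizer ((P : Subgroup G) : Set G)) = 3) (hcyc : ∃ g : G, g ∈ Subgroup.normalizer ((P : Subgroup G) : Set G) ∧ Subgroup.centralizer ((P : Subgroup G) : Set G) ⊔ Subgroup.zpowers g = Subgroup.normalizer ((P : Subgroup G) : Set G)) (hm2 : 3 + 1 < Nat.card P) (hfrob : ∀ y : G, y ∈ (P : Subgroup G) → y ≠ 1 → Subgroup.centralizer ({y} : Set G) ⊓ Subgroup.normalizer ((P : Subgroup G) : Set G) = Subgroup.centralizer ((P : Subgroup G) : Set G)) : ∃ (X Y : Set (Cfsg.IrrCharacter G)), Cfsg.principalBlock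 M G = X ∪ Y ∧ Disjoint X Y ∧ Nat.card X = 3 ∧ Nat.card Y = (Nat.card P - 1) / 3 ∧ (∃ χ₁ ∈ X, (χ₁ : G → ℂ) = fun _ => 1) ∧ ∃ (a : Cfsg.IrrCharacter G → ℤ) (δ : ℤ) (ζ : (↥(P : Subgroup G) →* ℂˣ) → Cfsg.IrrCharacter G), (δ = 1 ∨ δ = -1) ∧ (∀ χ ∈ X, (a χ = 1 ∨ a χ = -1) ∧ ∀ z y : G, Cfsg.IsPPart p z y → y ∈ (P : Subgroup G) → y ≠ 1 → (χ : G → ℂ) z = (a χ : ℂ)) ∧ (∀ ψ : ↥(P : Subgroup G) →* ℂˣ, ψ ≠ 1 → ζ ψ ∈ Y) ∧ (∀ η ∈ Y, ∃ ψ : ↥(P : Subgroup G) →* ℂˣ, ψ ≠ 1 ∧ ζ ψ = η) ∧ (∀ ψ ψ' : ↥(P : Subgroup G) →* ℂˣ, ψ ≠ 1 → (∃ n : G, n ∈ Subgroup.normalizer ((P : Subgroup G) : Set G) ∧ ∀ w w' : ↥(P : Subgroup G), (w' : G) = n * w * n⁻¹ → ψ' w' = ψ w) → ζ ψ' = ζ ψ) ∧ (∀ ψ : ↥(P : Subgroup G) →* ℂˣ, ψ ≠ 1 → ∀ (z : G) (y : ↥(P : Subgroup G)), Cfsg.IsPPart p z (y : G) → (y : G) ≠ 1 → (ζ ψ : G → ℂ) z = (δ : ℂ) * ∑ᶠ ψ' ∈ {ψ' : ↥(P : Subgroup G) →* ℂˣ | ∃ n : G, n ∈ Subgroup.normalizer ((P : Subgroup G) : Set G) ∧ ∀ w w' : ↥(P : Subgroup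 G), (w' : G) = n * w * n⁻¹ → ψ' w' = ψ w}, ((ψ' y : ℂˣ) : ℂ)) ∧ ((∃ t : G, orderOf t = 2 ∧ ∀ K : Subgroup G, K.Normal → t ∈ K → K = ⊤) → Nat.card {χ : Cfsg.IrrCharacter G // χ ∈ X ∧ (χ : G → ℂ) ≠ (fun _ => 1) ∧ a χ = -1} + (if δ = 1 then 1 else 0) = 2 ∧ ∀ η ∈ Y, IsSquare (Cfsg.charDegree (η : G → ℂ) * ∏ᶠ χ ∈ {χ : Cfsg.IrrCharacter G | χ ∈ X ∧ (χ : G → ℂ) ≠ fun _ => 1}, Cfsg.charDegree (χ : G → ℂ))) := by
  classical
  have := Fintype.ofFinite (P : Subgroup G)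
  have h : FrobSyl P := ⟨hab, hfrob⟩
  have hB := isBlockUnion_of_block hM (isPBlock_principalBlock (G := G))
  obtain ⟨ψ₀, ψ₁, h0, h1, h01⟩ := h.exists_two_orbits (by rwa [hCN])
  obtain ⟨y₀, hy₀⟩ : ∃ y : (P : Subgroup G), y ≠ 1 := by
    have : Nontrivial (P : Subgroup G) := Finite.one_lt_card_iff_nontrivial.1 (lt_trans (by omega) hm2)
    exact exists_ne 1
  have ha0 : ∀ {δ d ζ a}, ExcData M (P : Subgroup G) δ d ζ a →
      ∀ χ ∈ principalBlock M G \ ζ '' {ψ | ψ ≠ 1}, a χ ≠ 0 := fun D χ hχ h2 => by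
    have := h.apply_ne_zero hM y₀.2 hχ.1
    rw [D.apply_of_notMem h.comm' hχ.1 hχ.2 hy₀, h2] at this
    simp at this
  have hY : ∀ (ζ : ((P : Subgroup G) →* ℂˣ) → IrrCharacter G) ψ, ψ ≠ 1 →
      ζ ψ ∈ Finset.univ.filter (· ∈ ζ '' {ψ | ψ ≠ 1}) := fun ζ ψ hψ =>
    Finset.mem_filter.2 ⟨Finset.mem_univ _, ψ, hψ, rfl⟩
  have hYc : ∀ S : Set (IrrCharacter G), (Finset.univ.filter (· ∈ S)).card = Nat.card S := fun S => by
    rw [← Fintype.card_subtype, ← Nat.card_eq_fintype_card]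
  obtain ⟨δ, ζ, a, D⟩ : ∃ δ ζ a, ExcData M (P : Subgroup G) δ 0 ζ a := by
    obtain ⟨δ, d, ζ, a, D⟩ := h.exists_excData hM (by rwa [hCN])
    have hone := D.irrOne_notMem h0 h1 h01
    have ha1 := D.a_irrOne hM h0 hone
    have hX1 : irrOne G ∈ Finset.univ.filter (· ∈ principalBlock M G \ ζ '' {ψ | ψ ≠ 1}) :=
      Finset.mem_filter.2 ⟨Finset.mem_univ _, irrOne_mem_principalBlock hM, hone⟩
    have hcard := D.card_mul h.comm' (m := 3) fun ψ hψ => (h.ncard_orbit hψ).trans hCN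
    have hsq := h.sum_sq hM h0
    rw [D.sum_split h0 fun n _ => n ^ 2, Finset.sum_erase_eq_sub (hY ζ _ h0), Finset.sum_const, hYc,
      hCN, nsmul_eq_mul, ← Finset.add_sum_erase _ _ hX1, ha1] at hsq
    have hne : ζ ψ₀ ≠ ζ ψ₁ := fun h => h01 ((D.eq_iff _ _ h1 h0).1 h.symm)
    have hr2 : 2 ≤ Nat.card (ζ '' {ψ | ψ ≠ 1}) := by
      rw [← hYc]
      exact Finset.one_lt_card.2 ⟨_, hY ζ _ h0, _, hY ζ _ h1, hne⟩
    have hS := Finset.sum_nonneg (s := (Finset.univ.filter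
      (· ∈ principalBlock M G \ ζ '' {ψ | ψ ≠ 1})).erase (irrOne G)) fun χ _ => sq_nonneg (a χ)
    have hr2' : (2 : ℤ) ≤ Nat.card (ζ '' {ψ | ψ ≠ 1}) := by exact_mod_cast hr2
    have hd : d = 0 ∨ d = δ := by
      have h2 : (d - δ) ^ 2 + d ^ 2 ≤ 3 := by push_cast at hsq; nlinarith [sq_nonneg d]
      have h3 : -2 < d := by nlinarith [sq_nonneg (d - δ)]
      have h4 : d < 2 := by nlinarith [sq_nonneg (d - δ)]
      rcases D.sign with rfl | rfl <;> interval_cases d <;> simp_all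
    rcases hd with rfl | rfl
    · exact ⟨_, _, _, D⟩
    have hd2 : d ^ 2 = 1 := by rcases D.sign with h | h <;> simp [h]
    rw [hd2, sub_self] at hsq
    have hr4 : (Nat.card (ζ '' {ψ | ψ ≠ 1}) : ℤ) ≤ 4 := by push_cast at hsq; linarith
    have hr : Nat.card (ζ '' {ψ | ψ ≠ 1}) = 2 ∨ Nat.card (ζ '' {ψ | ψ ≠ 1}) = 3 ∨
      Nat.card (ζ '' {ψ | ψ ≠ 1}) = 4 := by omega
    rcases hr with hr | hr | hr
    · have h2 : ({ζ ψ₀, ζ ψ₁} : Finset _) = Finset.univ.filter (· ∈ ζ '' {ψ | ψ ≠ 1}) := by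
        refine Finset.eq_of_subset_of_card_le (fun χ hχ => ?_) (by rw [hYc, hr, Finset.card_pair hne])
        rcases Finset.mem_insert.1 hχ with rfl | hχ
        · exact hY ζ _ h0
        · rw [Finset.mem_singleton.1 hχ]; exact hY ζ _ h1
      obtain ⟨ζ', D', -⟩ := swap D h0 h1 hne fun ψ hψ => by
        have := hY ζ ψ hψ
        rw [← h2] at this
        simpa using this
      exact ⟨_, _, _, D'⟩
    · exfalso
      obtain ⟨k, hk⟩ := IsPGroup.iff_card.1 P.isPGroup'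
      rw [hr] at hcard
      have h2 : p ^ k = 10 := hk.symm.trans hcard.symm
      have h3 := (Nat.prime_dvd_prime_iff_eq Nat.prime_two hM.1).1
        (Nat.prime_two.dvd_of_dvd_pow (n := k) (by rw [h2]; norm_num))
      have h4 := (Nat.prime_dvd_prime_iff_eq Nat.prime_five hM.1).1
        (Nat.prime_five.dvd_of_dvd_pow (n := k) (by rw [h2]; norm_num))
      omega
    · exfalso
      rw [hr] at hsq
      have h2 := (Finset.sum_eq_zero_iff_of_nonneg fun χ _ => sq_nonneg (a χ)).1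
        (show ∑ χ ∈ (Finset.univ.filter (· ∈ principalBlock M G \ ζ '' {ψ | ψ ≠ 1})).erase
          (irrOne G), a χ ^ 2 = 0 by push_cast at hsq; linarith)
      have h3 := sum_mlt_sub_mul_reg hM P.isPGroup' hB 1 ψ₀ (not_dvd_orderOf_one hM.1)
      rw [D.sum_split h0 fun n χ => (n : ℂ) * χ.1 1, Finset.sum_erase_eq_sub (hY ζ _ h0),
        Finset.sum_congr rfl (g := fun _ => (d : ℂ) * (ζ ψ₀).1 1)
          (s₁ := Finset.univ.filter (· ∈ ζ '' {ψ | ψ ≠ 1})),
        Finset.sum_const, hYc, nsmul_eq_mul, hr, ← Finset.add_sum_erase _ _ hX1, ha1,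
        Finset.sum_eq_zero fun χ hχ => by rw [pow_eq_zero_iff two_ne_zero |>.1 (h2 χ hχ)]; simp,
        irrOne_apply, irr_one_eq] at h3
      · have h4 : (1 : ℤ) + 3 * (d * charDegree (ζ ψ₀).1) = 0 := by
          apply Int.cast_injective (α := ℂ)
          push_cast at h3 ⊢
          linear_combination h3
        omega
      · intro χ hχ
        obtain ⟨φ, hφ, rfl⟩ := (Finset.mem_filter.1 hχ).2
        rw [D.exc_eq_of_reg hM P.isPGroup' hφ h0 (not_dvd_orderOf_one hM.1)]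
  have hone := D.irrOne_notMem h0 h1 h01
  have ha1 := D.a_irrOne hM h0 hone
  have hX1 : irrOne G ∈ Finset.univ.filter (· ∈ principalBlock M G \ ζ '' {ψ | ψ ≠ 1}) :=
    Finset.mem_filter.2 ⟨Finset.mem_univ _, irrOne_mem_principalBlock hM, hone⟩
  have hcard := D.card_mul h.comm' (m := 3) fun ψ hψ => (h.ncard_orbit hψ).trans hCN
  have hsq := h.sum_sq hM h0
  have hδ2 : δ ^ 2 = 1 := by rcases D.sign with h | h <;> simp [h]
  rw [D.sum_split h0 fun n _ => n ^ 2, hCN, ← Finset.add_sum_erase _ _ hX1, ha1] at hsq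
  set S := (Finset.univ.filter (· ∈ principalBlock M G \ ζ '' {ψ | ψ ≠ 1})).erase (irrOne G) with hS
  have hsum : ∑ χ ∈ S, a χ ^ 2 = 2 := by
    simp only [zero_sub, neg_sq, hδ2, ne_eq, OfNat.ofNat_ne_zero, not_false_eq_true, zero_pow,
      Finset.sum_const_zero] at hsq
    push_cast at hsq
    linarith
  have hpm : ∀ χ ∈ S, a χ = 1 ∨ a χ = -1 := fun χ hχ => by
    have h3 : a χ ^ 2 ≤ 2 := hsum ▸ Finset.single_le_sum (f := fun χ => a χ ^ 2)
      (fun _ _ => sq_nonneg _) hχ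
    have h0 := ha0 D χ (Finset.mem_filter.1 (Finset.mem_of_mem_erase hχ)).2
    have : -2 < a χ := by nlinarith
    have : a χ < 2 := by nlinarith
    omega
  have hc2 : S.card = 2 := by
    rw [Finset.sum_congr rfl (g := fun _ => (1 : ℤ)) (fun χ hχ => by
      rcases hpm χ hχ with h | h <;> simp [h])] at hsum
    simp only [Finset.sum_const, nsmul_eq_mul, mul_one] at hsum
    exact_mod_cast hsum
  obtain ⟨χ₁, χ₂, hne, h12⟩ := Finset.card_eq_two.1 hc2
  have hmem : ∀ χ, (χ ∈ principalBlock M G \ ζ '' {ψ | ψ ≠ 1} ∧ χ.1 ≠ fun _ => 1) ↔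
      χ = χ₁ ∨ χ = χ₂ := fun χ => by
    have : χ ∈ S ↔ χ ∈ ({χ₁, χ₂} : Finset _) := by rw [h12]
    rw [hS, Finset.mem_erase, Finset.mem_filter, Finset.mem_insert, Finset.mem_singleton] at this
    rw [← this]
    exact ⟨fun h => ⟨fun h' => h.2 (by rw [h']; rfl), Finset.mem_univ _, h.1⟩,
      fun h => ⟨h.2.2, fun h' => h.1 (Subtype.ext h')⟩⟩
  have m1 := (hmem χ₁).2 (Or.inl rfl)
  have m2 := (hmem χ₂).2 (Or.inr rfl)
  have p1 := hpm χ₁ (by rw [h12]; simp)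
  have p2 := hpm χ₂ (by rw [h12]; simp)
  have horb : ∀ ψ : (P : Subgroup G) →* ℂˣ, {ψ' : ↥(P : Subgroup G) →* ℂˣ | ∃ n : G,
      n ∈ Subgroup.normalizer ((P : Subgroup G) : Set G) ∧ ∀ w w' : ↥(P : Subgroup G),
        (w' : G) = n * w * n⁻¹ → ψ' w' = ψ w} = orbit (NK (P : Subgroup G)) ψ := fun ψ =>
    Set.ext fun _ => mem_orbit_nk_iff.symm
  refine ⟨principalBlock M G \ ζ '' {ψ | ψ ≠ 1}, ζ '' {ψ | ψ ≠ 1}, ?_, Set.disjoint_sdiff_left,
    ?_, ?_, ⟨irrOne G, ⟨irrOne_mem_principalBlock hM, hone⟩, rfl⟩, a, δ, ζ, D.sign,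
    fun χ hχ => ⟨?_, fun z y hz hy hy1 => ?_⟩, fun ψ hψ => ⟨ψ, hψ, rfl⟩,
    fun η hη => hη, fun ψ ψ' hψ hh => ?_, fun ψ hψ z y hz hy => ?_, ?_⟩
  · refine (Set.sdiff_union_of_subset ?_).symm
    rintro _ ⟨ψ, hψ, rfl⟩
    exact D.mem ψ hψ
  · have := Finset.card_erase_add_one hX1
    rw [← hS, hc2] at this
    rw [Nat.card_eq_fintype_card, Fintype.card_subtype, ← this]
  · rw [show Nat.card P - 1 = Nat.card (ζ '' {ψ | ψ ≠ 1}) * 3 from Nat.sub_eq_of_eq_add hcard.symm,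
      Nat.mul_div_cancel _ (by omega)]
  · by_cases h2 : χ = irrOne G
    · rw [h2, ha1]; simp
    · exact hpm χ (Finset.mem_erase.2 ⟨h2, Finset.mem_filter.2 ⟨Finset.mem_univ _, hχ⟩⟩)
  · rw [h.apply_of_isPPart hM hz hy hy1 hχ.1]
    exact D.apply_of_notMem h.comm' hχ.1 hχ.2 (y := ⟨y, hy⟩) fun h => hy1 (congrArg Subtype.val h)
  · have h2 := mem_orbit_nk_iff.2 hh
    exact (D.eq_iff _ _ (ne_one_of_mem_orbit h2 hψ) hψ).2 h2
  · rw [h.apply_of_isPPart hM hz y.2 hy (D.mem ψ hψ), horb,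
      D.apply_exc h.comm' hψ fun h => hy (congrArg Subtype.val h)]
    simp
  rintro ⟨t, ht, hK⟩
  have ht2 := CL.Inv.mul_self_of_orderOf_two ht
  have hker : ∀ χ : IrrCharacter G, χ ≠ irrOne G → χ.1 t ≠ χ.1 1 := fun χ hχ h =>
    charKer_ne_top hχ (hK _ χ.2.charKer_normal (χ.2.mem_charKer.2 h))
  obtain ⟨ψ, hψ, r1, r3⟩ := exists_relations hM h hCN hm2 ht
  have r2 := sum_mlt_sub_mul_reg hM P.isPGroup' hB 1 ψ (not_dvd_orderOf_one hM.1)
  have hsplit : ∀ F : IrrCharacter G → ℂ, ∑ χ with χ ∈ principalBlock M G,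
      ((mlt P 1 χ - mlt P ψ χ : ℤ) : ℂ) * F χ =
      F (irrOne G) + a χ₁ * F χ₁ + a χ₂ * F χ₂ - δ * F (ζ ψ) := fun F => by
    rw [D.sum_split hψ fun n χ => (n : ℂ) * F χ, ← Finset.add_sum_erase _ _ hX1, ha1, ← hS, h12,
      Finset.sum_pair hne]
    simp
    ring
  rw [hsplit] at r1 r2 r3
  choose n hn using fun χ : IrrCharacter G => χ.2.isGen.exists_int_of_mul_self ht2
  have k1 := hker χ₁ fun h => m1.2 (by rw [h]; rfl)
  have k2 := hker χ₂ fun h => m2.2 (by rw [h]; rfl)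
  have k3 := hker (ζ ψ) fun h => hone ⟨ψ, hψ, h⟩
  simp only [irrOne_apply, one_pow, div_one] at r1 r2 r3
  simp only [hn, irr_one_eq] at r1 r2 r3 k1 k2 k3
  have d1 := χ₁.2.charDegree_pos
  have d2 := χ₂.2.charDegree_pos
  have d3 := (ζ ψ).2.charDegree_pos
  have hcnt : Nat.card {χ : IrrCharacter G // χ ∈ principalBlock M G \ ζ '' {ψ | ψ ≠ 1} ∧
      (χ : G → ℂ) ≠ (fun _ => 1) ∧ a χ = -1} =
      (if a χ₁ = -1 then 1 else 0) + (if a χ₂ = -1 then 1 else 0) := by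
    rw [Nat.card_eq_fintype_card, Fintype.card_subtype, ← Finset.sum_pair (f := fun χ =>
      if a χ = -1 then 1 else 0) hne, ← Finset.card_filter]
    congr 1
    ext χ
    simp only [Finset.mem_filter, Finset.mem_univ, true_and, ← and_assoc, hmem, Finset.mem_insert,
      Finset.mem_singleton]
  have hprod : ∀ η ∈ ζ '' {ψ | ψ ≠ 1}, charDegree η.1 * ∏ᶠ χ ∈ {χ : IrrCharacter G |
      χ ∈ principalBlock M G \ ζ '' {ψ | ψ ≠ 1} ∧ (χ : G → ℂ) ≠ fun _ => 1}, charDegree χ.1 =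
      charDegree χ₁.1 * charDegree χ₂.1 * charDegree (ζ ψ).1 := by
    rintro _ ⟨φ, hφ, rfl⟩
    have h2 := D.exc_eq_of_reg hM P.isPGroup' hφ hψ (not_dvd_orderOf_one hM.1)
    rw [irr_one_eq, irr_one_eq, Nat.cast_inj] at h2
    rw [show {χ : IrrCharacter G | χ ∈ principalBlock M G \ ζ '' {ψ | ψ ≠ 1} ∧
      (χ : G → ℂ) ≠ fun _ => 1} = {χ₁, χ₂} from Set.ext hmem, finprod_mem_pair hne, h2, mul_comm]
  have key : ∀ {x y z : ℕ} {u v w e f g : ℤ}, 0 < x → 0 < y → 0 < z → (u : ℂ) ≠ x →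
      (1 : ℂ) + e * x + f * y + g * z = 0 → (1 : ℂ) + e * u + f * v + g * w = 0 →
      (1 : ℂ) + e * (u ^ 2 / x) + f * (v ^ 2 / y) + g * (w ^ 2 / z) = 0 →
      ¬ (e = -1 ∧ ((f = 1 ∧ g = 1) ∨ (f = -1 ∧ g = -1))) := by
    intro x y z u v w e f g hx hy hz hu s2 s3 s1
    let dd : Fin 4 → ℝ := ![1, x, y, z]
    let nn : Fin 4 → ℝ := ![1, u, v, w]
    have hd : ∀ i, 0 < dd i := fun i => by fin_cases i <;> simp [dd, hx, hy, hz]
    have s1' : (1 : ℝ) + e * (u ^ 2 / x) + f * (v ^ 2 / y) + g * (w ^ 2 / z) = 0 := by exact_mod_cast s1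
    have s2' : (1 : ℝ) + e * x + f * y + g * z = 0 := by exact_mod_cast s2
    have s3' : (1 : ℝ) + e * u + f * v + g * w = 0 := by exact_mod_cast s3
    have hu' : (u : ℝ) ≠ x := by exact_mod_cast hu
    rintro ⟨rfl, ⟨rfl, rfl⟩ | ⟨rfl, rfl⟩⟩
    · have := sign_arg_real (s := Finset.univ) (a := ![1, -1, 1, 1]) (n := nn) hd
        (by simp [Fin.sum_univ_four, dd, nn]; push_cast at s1'; linear_combination s1')
        (by simp [Fin.sum_univ_four, dd]; push_cast at s2'; linear_combination s2')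
        (by simp [Fin.sum_univ_four, nn]; push_cast at s3'; linear_combination s3') 1
        (fun i _ hi => by fin_cases i <;> simp at hi ⊢) (i := 0) (by simp) (by simp)
      exact hu' (by simpa [dd, nn] using this.symm)
    · have := sign_arg_real (s := Finset.univ) (a := ![-1, 1, 1, 1]) (n := nn) hd
        (by simp [Fin.sum_univ_four, dd, nn]; push_cast at s1'; linear_combination -s1')
        (by simp [Fin.sum_univ_four, dd]; push_cast at s2'; linear_combination -s2')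
        (by simp [Fin.sum_univ_four, nn]; push_cast at s3'; linear_combination -s3') 0
        (fun i _ hi => by fin_cases i <;> simp at hi ⊢) (i := 1) (by simp) (by simp)
      exact hu' (by simpa [dd, nn] using this)
  have q1 := key (u := n χ₁) (v := n χ₂) (w := n (ζ ψ)) (e := a χ₁) (f := a χ₂) (g := -δ) d1 d2 d3 k1 (by push_cast; linear_combination r2)
    (by push_cast; linear_combination r3) (by push_cast; linear_combination r1)
  have q2 := key (u := n χ₂) (v := n χ₁) (w := n (ζ ψ)) (e := a χ₂) (f := a χ₁) (g := -δ) d2 d1 d3 k2 (by push_cast; linear_combination r2)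
    (by push_cast; linear_combination r3) (by push_cast; linear_combination r1)
  have q3 := key (u := n (ζ ψ)) (v := n χ₁) (w := n χ₂) (e := -δ) (f := a χ₁) (g := a χ₂) d3 d1 d2 k3 (by push_cast; linear_combination r2)
    (by push_cast; linear_combination r3) (by push_cast; linear_combination r1)
  have q4 : ¬ (a χ₁ = 1 ∧ a χ₂ = 1 ∧ δ = -1) := by
    rintro ⟨e1, e2, e3⟩
    rw [e1, e2, e3] at r2
    have : (1 : ℤ) + charDegree χ₁.1 + charDegree χ₂.1 + charDegree (ζ ψ).1 = 0 := by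
      apply Int.cast_injective (α := ℂ)
      push_cast at r2 ⊢
      linear_combination r2
    omega
  rw [hcnt]
  rcases p1 with e1 | e1 <;> rcases p2 with e2 | e2 <;> rcases D.sign with e3 | e3 <;>
    simp only [e1, e2, e3] at q1 q2 q3 q4 r1 r2 r3 ⊢ <;> try (exfalso; simp at q1 q2 q3 q4; done)
  · refine ⟨by simp, fun η hη => ?_⟩
    rw [hprod η hη]
    exact sq_rel (u := n χ₁) (w := n (ζ ψ)) d1 d2 d3 k2 (by push_cast at r2; linear_combination r2)
      (by push_cast at r3; linear_combination r3) (by push_cast at r1; linear_combination r1)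
  · refine ⟨by simp, fun η hη => ?_⟩
    rw [hprod η hη, mul_comm (charDegree χ₁.1)]
    exact sq_rel (u := n χ₂) (w := n (ζ ψ)) d2 d1 d3 k1 (by push_cast at r2; linear_combination r2)
      (by push_cast at r3; linear_combination r3) (by push_cast at r1; linear_combination r1)
  · refine ⟨by simp, fun η hη => ?_⟩
    rw [hprod η hη, mul_comm, ← mul_assoc]
    exact sq_rel (u := n (ζ ψ)) (w := n χ₂) d3 d1 d2 k1 (by push_cast at r2; linear_combination r2)
      (by push_cast at r3; linear_combination r3) (by push_cast at r1; linear_combination r1)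

end Cfsg.Agent.S4721
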