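import Cfsg.Statements.S4722
import Mathlib
import Cfsg.Agent.BLK.SignArg
import Cfsg.Agent.INV.InvCalc

set_option autoImplicit false
open Cfsg

namespace Cfsg.Agent.S4722

open CL.Blk Cfsg Subgroup
open scoped ComplexConjugate

/-- Let M be a maximal ideal of the algebraic integers containing 2, P a 2-subgroup of the finite group G, U a subset of P, and t an involution of G such that no element of U is inverted by any conjugate of t. Let θ be a generalized character of P vanishing outside U, and for χ in the principal 2-block B₀ put a_χ = #P⁻¹ Σ_{y ∈ P} χ(y) θ(y⁻¹). Then Σ_{χ ∈ B₀} a_χ χ(t)^2/χ(1) = 0, Σ_{χ ∈ B₀} a_χ χ(1) = 0 and Σ_{χ ∈ B₀} a_χ χ(t) = 0. If moreover #P⁻¹ Σ_{y ∈ P} θ(y) ≠ 0, then either at least two of the a_χ have positive real part and at least two have negative real part, or G has a proper normal subgroup containing O_2'(G) and t. -/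
theorem result {G : Type*} [Group G] [Finite G] (M : Ideal Cfsg.AlgInt) (hM : Cfsg.IsPModular 2 M) (P : Subgroup G) (hP : IsPGroup 2 P) (U : Set G) (hUP : U ⊆ (P : Set G)) (t : G) (ht : orderOf t = 2) (hinv : ∀ u ∈ U, ∀ g : G, (g * t * g⁻¹) * u * (g * t * g⁻¹)⁻¹ ≠ u⁻¹) (θ : ↥P → ℂ) (hθ : Cfsg.IsGeneralizedCharacter ↥P θ) (hθU : ∀ y : ↥P, (y : G) ∉ U → θ y = 0) : (∑ᶠ χ ∈ Cfsg.principalBlock M G, ((Nat.card ↥P : ℂ)⁻¹ * ∑ᶠ y : ↥P, (χ : G → ℂ) (y : G) * θ y⁻¹) * (χ : G → ℂ) t ^ 2 / (χ : G → ℂ) 1 = 0) ∧ (∑ᶠ χ ∈ Cfsg.principalBlock M G, ((Nat.card ↥P : ℂ)⁻¹ * ∑ᶠ y : ↥P, (χ : G → ℂ) (y : G) * θ y⁻¹) * (χ : G → ℂ) 1 = 0) ∧ (∑ᶠ χ ∈ Cfsg.principalBlock M G, ((Nat.card ↥P : ℂ)⁻¹ * ∑ᶠ y : ↥P, (χ : G → ℂ) (y : G) * θ y⁻¹) * (χ : G → ℂ) t = 0) ∧ ((Nat.card ↥P : ℂ)⁻¹ * ∑ᶠ y : ↥P, θ y ≠ 0 → (2 ≤ Nat.card {χ : Cfsg.IrrCharacter G // χ ∈ Cfsg.principalBlock M G ∧ 0 < (((Nat.card ↥P : ℂ)⁻¹ *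 ∑ᶠ y : ↥P, (χ : G → ℂ) (y : G) * θ y⁻¹)).re} ∧ 2 ≤ Nat.card {χ : Cfsg.IrrCharacter G // χ ∈ Cfsg.principalBlock M G ∧ (((Nat.card ↥P : ℂ)⁻¹ * ∑ᶠ y : ↥P, (χ : G → ℂ) (y : G) * θ y⁻¹)).re < 0}) ∨ ∃ K : Subgroup G, K.Normal ∧ K ≠ ⊤ ∧ Cfsg.pPrimeCore 2 G ≤ K ∧ t ∈ K) := by
  classical
  have := Fintype.ofFinite P
  have : Fact (Nat.Prime 2) := ⟨Nat.prime_two⟩
  have hU : ∀ y : P, θ y ≠ 0 → (y : G) ∈ U := fun y hy => by_contra fun h => hy (hθU y h)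
  have ht2 := CL.Inv.mul_self_of_orderOf_two ht
  have hB : IsPBlock M (principalBlock M G) := isPBlock_principalBlock
  have hBu := isBlockUnion_of_block hM hB
  have hy2 : ∀ y : P, ∃ k, orderOf (y : G) = 2 ^ k := fun y => pElt_of_mem_isPGroup hM.1 hP y.2
  have h0 : (Nat.card ↥P : ℂ)⁻¹ * ∑ᶠ y : ↥P, θ y = colA P θ (irrOne G) := by
    rw [← colA_eq_finsum hθ, finsum_eq_sum_of_fintype, finsum_eq_sum_of_fintype,
      ← Equiv.sum_comp (Equiv.inv P)]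
    simp [irrOne_apply]
  simp only [colA_eq_finsum hθ, finsum_mem_block_eq, h0]
  have h1 : ∑ χ with χ ∈ principalBlock M G, colA P θ χ * χ.1 t ^ 2 / χ.1 1 = 0 := by
    rw [← sum_colA_mul_eq_zero (θ := θ) (F := fun χ => χ.1 t ^ 2 / χ.1 1)
      (Finset.univ.filter (· ∈ principalBlock M G)) fun y hy => ?_]
    · exact Finset.sum_congr rfl fun χ _ => by ring
    · rw [← sum_pair_eq_zero hM hBu ht2 ht2 (isPPart_self hM.1 (hy2 y)) (hinv y (hU y hy))]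
      exact Finset.sum_congr rfl fun χ _ => by ring
  have h2 : ∑ χ with χ ∈ principalBlock M G, colA P θ χ * χ.1 1 = 0 := by
    refine sum_colA_mul_eq_zero _ fun y hy => ?_
    have hy1 : (y : G) ≠ 1 := fun h => hinv y (hU y hy) 1 (by rw [h]; group)
    obtain ⟨k, hk⟩ := hy2 y
    rw [← sum_degree_mul_eq_zero hM hB (y := y) (by
      rw [hk]; exact dvd_pow_self 2 fun h => hy1 (by rwa [h, pow_zero, orderOf_eq_one_iff] at hk))]
    exact Finset.sum_congr rfl fun χ _ => by ring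
  have h3 : ∑ χ with χ ∈ principalBlock M G, colA P θ χ * χ.1 t = 0 := by
    refine sum_colA_mul_eq_zero _ fun y hy => ?_
    rw [← column_of_not_isConj hM hBu (hy2 y) (y := t) ⟨1, by simpa using ht⟩ fun hc => ?_]
    · exact Finset.sum_congr rfl fun χ _ => by rw [irr_conj_of_mul_self χ ht2]
    · obtain ⟨g, hg⟩ := isConj_iff.1 hc.symm
      refine hinv y (hU y hy) g ?_
      rw [← hg, mul_inv_cancel_right]
      refine eq_inv_of_mul_eq_one_left ?_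
      rw [show g * t * g⁻¹ * (g * t * g⁻¹) = g * (t * t) * g⁻¹ by group, ht2]; group
  refine ⟨h1, h2, h3, fun hne => ?_⟩
  choose a ha using exists_int_colA hθ
  simp only [ha] at h1 h2 h3 hne ⊢
  have hs : irrOne G ∈ Finset.univ.filter (· ∈ principalBlock M G) :=
    Finset.mem_filter.2 ⟨Finset.mem_univ _, irrOne_mem_principalBlock hM⟩
  have key : (∃ χ ∈ Finset.univ.filter (· ∈ principalBlock M G), χ ≠ irrOne G ∧ χ.1 t = χ.1 1) →
      ∃ K : Subgroup G, K.Normal ∧ K ≠ ⊤ ∧ Cfsg.pPrimeCore 2 G ≤ K ∧ t ∈ K := by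
    rintro ⟨χ, hχ, hne, h⟩
    exact ⟨CL.Char.charKer χ.1, χ.2.charKer_normal, charKer_ne_top hne,
      χ.2.isCharacter.le_charKer_iff.2 (pPrimeCore_ker_of_mem_principal hM (Finset.mem_filter.1 hχ).2),
      χ.2.mem_charKer.2 h⟩
  have hsub : ∀ q : IrrCharacter G → Prop, ¬ 2 ≤ Nat.card {χ // q χ} → ∀ χ ψ, q χ → q ψ → χ = ψ := by
    intro q hq χ ψ h1 h2
    have : Subsingleton {χ // q χ} := Finite.card_le_one_iff_subsingleton.1 (by omega)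
    exact congrArg Subtype.val (Subsingleton.elim (⟨χ, h1⟩ : {χ // q χ}) ⟨ψ, h2⟩)
  rw [or_iff_not_imp_left, not_and_or]
  rintro (h | h)
  · obtain ⟨χ, hχ, -, h4⟩ := sign_arg (a := fun χ => - a χ) ht2
      (by simp only [Int.cast_neg, neg_mul, neg_div, Finset.sum_neg_distrib, h1, neg_zero])
      (by simp only [Int.cast_neg, neg_mul, Finset.sum_neg_distrib, h2, neg_zero])
      (by simp only [Int.cast_neg, neg_mul, Finset.sum_neg_distrib, h3, neg_zero]) hs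
      (by simpa using hne) fun χ hχ ψ hψ h1 h2 => hsub _ h χ ψ
        ⟨(Finset.mem_filter.1 hχ).2, by simpa using h1⟩ ⟨(Finset.mem_filter.1 hψ).2, by simpa using h2⟩
    exact key ⟨χ, hχ, h4⟩
  · obtain ⟨χ, hχ, -, h4⟩ := sign_arg ht2 h1 h2 h3 hs
      (by simpa using hne) fun χ hχ ψ hψ h1 h2 => hsub _ h χ ψ
        ⟨(Finset.mem_filter.1 hχ).2, by simpa using h1⟩ ⟨(Finset.mem_filter.1 hψ).2, by simpa using h2⟩
    exact key ⟨χ, hχ, h4⟩

end Cfsg.Agent.S4722
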