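import Cfsg.Statements.S4723
import Cfsg.Agent.BLK.Cover2
import Cfsg.Agent.CHAR.CliffordCorr

set_option autoImplicit false
open Cfsg

namespace Cfsg.Agent.S4723

/-- Let p be a prime, M a maximal ideal of the algebraic integers containing p, H a normal subgroup of the finite group G and b a p-block of H. Let T be the stabilizer of b in G. Then b contains a character θ of height zero whose own stabilizer in G (the elements g with θ(g h g⁻¹) = θ(h) for all h ∈ H) has index prime to p in T, i.e. contains a Sylow p-subgroup of T. -/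
theorem result {G : Type*} [Group G] [Finite G] (p : ℕ) [Fact p.Prime] (M : Ideal Cfsg.AlgInt) (hM : Cfsg.IsPModular p M) (H : Subgroup G) [H.Normal] (b : Set (Cfsg.IrrCharacter ↥H)) (hb : Cfsg.IsPBlock M b) (T : Subgroup G) (hT : (∀ g : G, g ∈ T ↔ ∀ θ ∈ b, ∀ θ' : Cfsg.IrrCharacter ↥H, (∀ h h' : ↥H, (h' : G) = g * h * g⁻¹ → (θ' : ↥H → ℂ) h' = (θ : ↥H → ℂ) h) → θ' ∈ b)) : ∃ θ ∈ b, Cfsg.blockHeight p b (θ : ↥H → ℂ) = 0 ∧ ∃ S : Subgroup G, S ≤ T ∧ (∀ g : G, g ∈ S ↔ (g ∈ T ∧ ∀ h h' : ↥H, (h' : G) = g * h * g⁻¹ → (θ : ↥H → ℂ) h' = (θ : ↥H → ℂ) h)) ∧ ¬ p ∣ S.relIndex T := by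
  classical
  have := Fintype.ofFinite H
  have hp := hM.1
  have hT' : ∀ g, g ∈ T ↔ CL.Blk.cj g (CL.Blk.sb M H b) = CL.Blk.sb M H b := fun g => by
    rw [hT, CL.Blk.stab_iff_cjN' hM hb, CL.Blk.cj_sb_eq_iff]
  have hsb := CL.Blk.isSB_sb hM hb
  have hHT : H ≤ T := fun g hg => (hT' g).2 (hsb.fixed.cj_eq hg)
  have hf : CL.Blk.IsFixed T (CL.Blk.sb M H b) := CL.Blk.isFixed_iff_cj.2 fun x hx => (hT' x).1 hx
  have hN : T ≤ Subgroup.normalizer (H : Set G) := Subgroup.le_normalizer_of_normal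
  obtain ⟨e, D, he, hec, hD, hnd⟩ := hsb.exists_cov_not_dvd hp (CL.Blk.natCast_F hM) hHT hN hf
  obtain ⟨B, hB, rfl⟩ := he.exists_block hM
  have h1 := CL.Blk.blockDefect_add_of_cov hM hHT hN hB hb hec hD
  rw [Nat.factorization_eq_zero_of_not_dvd hnd, add_zero] at h1
  have h2 := CL.Blk.minVal_add_blockDefect p (CL.Blk.block_nonempty hM hB)
  have h3 := CL.Blk.minVal_add_blockDefect p (CL.Blk.block_nonempty hM hb)
  have h4 : Nat.card T = Nat.card H * H.relIndex T := by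
    rw [← Nat.card_congr (Subgroup.subgroupOfEquivOfLe hHT).toEquiv, Subgroup.relIndex,
      Subgroup.card_mul_index]
  have hi0 : H.relIndex T ≠ 0 := Subgroup.index_ne_zero_of_finite
  rw [h4, Nat.factorization_mul Nat.card_pos.ne' hi0, Finsupp.add_apply] at h2
  have h5 : CL.Blk.minVal p B = CL.Blk.minVal p b := by
    omega
  obtain ⟨ψ, hψ, hψ0⟩ := CL.Blk.exists_eq_minVal p (CL.Blk.block_nonempty hM hB)
  obtain ⟨θ, hθ, hne⟩ := (ψ.2.isCharacter.resLE hHT).exists_irr_inner_ne_zero (fun h =>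
    ψ.2.one_ne_zero (congrFun h 1))
  have hθb : (⟨θ, hθ⟩ : IrrCharacter H) ∈ b := by
    have h6 := CL.Blk.isPBlock_blockOf (M := M) (⟨θ, hθ⟩ : IrrCharacter H)
    have h7 := (CL.Blk.sb_mul_sb_ne_zero_iff hM hHT hB h6).2
      ⟨ψ, hψ, _, CL.Blk.mem_blockOf_self hM _, hne⟩
    rw [CL.Blk.eq_of_sb_eq hM hb h6 (he.eq_of_cov_of_fixed hsb (CL.Blk.isSB_sb hM h6) hHT hN hec h7 hf)]
    exact CL.Blk.mem_blockOf_self hM _
  have h8 := CL.Char.clifford_degree_le hHT ψ.2 hθ hne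
  obtain ⟨m, hm⟩ := (ψ.2.isCharacter.resLE hHT).exists_nat_inner hθ.isCharacter
  rw [hm] at hne h8
  rw [CL.Blk.irr_one_eq, CL.Blk.char_one_eq hθ.isCharacter] at h8
  have h9 : charDegree ψ.1 = m * (CL.Char.inertia H θ).relIndex T * charDegree θ := by
    exact_mod_cast h8
  have hm0 : m ≠ 0 := by exact_mod_cast hne
  have hr0 : (CL.Char.inertia H θ).relIndex T ≠ 0 := Subgroup.index_ne_zero_of_finite
  have hd0 : charDegree θ ≠ 0 := CL.Blk.charDegree_ne_zero ⟨θ, hθ⟩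
  rw [h9, Nat.factorization_mul (mul_ne_zero hm0 hr0) hd0, Nat.factorization_mul hm0 hr0,
    Finsupp.add_apply, Finsupp.add_apply, h5] at hψ0
  have h10 : CL.Blk.minVal p b ≤ (charDegree θ).factorization p := CL.Blk.minVal_le hθb
  refine ⟨⟨θ, hθ⟩, hθb, (CL.Blk.blockHeight_eq_zero_iff hθb).2 ?_, T ⊓ CL.Char.inertia H θ,
    inf_le_left, fun g => ?_, ?_⟩
  · change (charDegree θ).factorization p = _
    omega
  · rw [Subgroup.mem_inf, CL.Char.mem_inertia]
    refine and_congr_right fun _ => ⟨fun h n n' e => ?_, fun h n => h n _ rfl⟩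
    exact (congrArg θ (Subtype.ext e)).trans (h n)
  · rw [Subgroup.inf_relIndex_left]
    intro hd
    have := (hp.dvd_iff_one_le_factorization hr0).1 hd
    omega

end Cfsg.Agent.S4723
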