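import Cfsg.Statements.S4726
import Mathlib
import Cfsg.Agent.BLK.Local

set_option autoImplicit false
open Cfsg

namespace Cfsg.Agent.S4726

open CL CL.Blk CL.Char MonoidAlgebra
open scoped CL.MSS

/-- Let p be a prime, M a maximal ideal of the algebraic integers containing p, H a subgroup of the finite group G and b a p-block of H with defect group D₀ such that C_G(D₀) ≤ H. Then b induces a block of G, and for every block B of G induced by b there is a defect group D of B with Z(D) ≤ Z(D₀) ≤ D₀ ≤ D (as subgroups of G). In particular, if the defect groups of B are abelian then D₀ is a defect group of B. -/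
theorem result {G : Type*} [Group G] [Finite G] (p : ℕ) [Fact p.Prime] (M : Ideal Cfsg.AlgInt) (hM : Cfsg.IsPModular p M) (H : Subgroup G) (b : Set (Cfsg.IrrCharacter ↥H)) (hb : Cfsg.IsPBlock M b) (D₀ : Subgroup ↥H) (hD₀ : Cfsg.IsDefectGroup p M b D₀) (hC : Subgroup.centralizer ((D₀.map H.subtype : Subgroup G) : Set G) ≤ H) : Cfsg.InducedBlockDefined M H b ∧ ∀ B : Set (Cfsg.IrrCharacter G), Cfsg.IsInducedBlock M H b B → (∃ D : Subgroup G, Cfsg.IsDefectGroup p M B D ∧ (Subgroup.center ↥D).map D.subtype ≤ ((Subgroup.center ↥D₀).map D₀.subtype).map H.subtype ∧ ((Subgroup.center ↥D₀).map D₀.subtype).map H.subtype ≤ D₀.map H.subtype ∧ D₀.map H.subtype ≤ D) ∧ (∀ D : Subgroup G, Cfsg.IsDefectGroup p M B D → IsMulCommutative ↥D → Cfsg.IsDefectGroup p M B (D₀.map H.subtype)) := by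
  refine ⟨inducedBlockDefined_of_isDefectGroup hM hb hD₀ hC, fun B hind => ?_⟩
  have hB := hind.2.1
  obtain ⟨D, hD, h1, h2⟩ := IndAlong.exists_isDef_centric hM.1 (natCast_F hM) (isBlk_eB hM hb)
    (hD₀.isDef hM hb) hC (isBlk_eB hM hB) (hind.indAlong hM)
  have h3 : (Subgroup.center ↥D).map D.subtype ≤
      D ⊓ Subgroup.centralizer ((D₀.map H.subtype : Subgroup G) : Set G) := by
    rintro _ ⟨z, hz, rfl⟩
    exact ⟨z.2, fun y hy => congrArg Subtype.val (Subgroup.mem_center_iff.1 hz ⟨y, h1 hy⟩)⟩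
  constructor
  · refine ⟨D, (isDefectGroup_iff hM hB).2 hD, fun z hz => ?_,
      Subgroup.map_mono (Subgroup.map_subtype_le _), h1⟩
    obtain ⟨y, hy, rfl⟩ := h2 (h3 hz)
    refine ⟨y, ⟨⟨y, hy⟩, Subgroup.mem_center_iff.2 fun w => ?_, rfl⟩, rfl⟩
    exact Subtype.ext (Subtype.ext ((h3 hz).2 w ⟨w, w.2, rfl⟩))
  · intro E hE hab
    obtain ⟨x, rfl⟩ := (hE.isDef hM hB).exists_cj_eq hD
    have := MSS.isMulCommutative_cj x hab
    have h4 : x •ᶜ E ≤ D₀.map H.subtype := fun z hz => h2 ⟨hz, fun y hy =>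
      congrArg Subtype.val (mul_comm' (⟨y, h1 hy⟩ : (x •ᶜ E : Subgroup G)) ⟨z, hz⟩)⟩
    rw [le_antisymm h1 h4]
    exact (isDefectGroup_iff hM hB).2 hD

end Cfsg.Agent.S4726
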