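import Cfsg.Statements.S4727
import Mathlib
import Cfsg.Agent.BLK.PiKer
import Cfsg.Agent.BLK.PrincCol2

set_option autoImplicit false
open Cfsg

namespace Cfsg.Agent.S4727

open CL CL.Blk Cfsg Subgroup MonoidAlgebra
open scoped CL.MSS

/-- Let p be a prime, π a set of primes containing p, M a maximal ideal of the algebraic integers containing p, and B a p-block of the finite group G with defect group D; let B₁ be the block of N_G(D) with defect group D that induces B (the Brauer correspondent of B). Suppose every element of O_π'(N_G(D)), the largest normal subgroup of N_G(D) whose order has no prime divisor in π, lies in the kernel of every member of B₁. If y is a p-element whose centralizer C has a normal Hall π'-subgroup (every element of C whose order has no prime divisor in π lies in O_π'(C)), then χ(y x) = χ(y) for every χ ∈ B and every x ∈ C whose order has no prime divisor in π. -/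
theorem result {G : Type*} [Group G] [Finite G] (p : ℕ) [Fact p.Prime] (M : Ideal Cfsg.AlgInt) (hM : Cfsg.IsPModular p M) (π : Set ℕ) (hpπ : p ∈ π) (B : Set (Cfsg.IrrCharacter G)) (hB : Cfsg.IsPBlock M B) (D : Subgroup G) (hBD : Cfsg.IsDefectGroup p M B D) (B₁ : Set (Cfsg.IrrCharacter ↥(Subgroup.normalizer (D : Set G)))) (hB₁ : Cfsg.IsInducedBlock M (Subgroup.normalizer (D : Set G)) B₁ B) (hB₁D : Cfsg.IsDefectGroup p M B₁ (D.subgroupOf (Subgroup.normalizer (D : Set G)))) (hker : ∀ n : ↥(Subgroup.normalizer (D : Set G)), n ∈ Cfsg.piCore {q | q ∉ π} ↥(Subgroup.normalizer (D : Set G)) → n ∈ Cfsg.blockKer B₁) (y : G) (hy : ∃ k : ℕ, orderOf y = p ^ k) (hC : ∀ x : ↥(Subgroup.centralizer ({y} : Set G)), (∀ q : ℕ, q.Prime → q ∣ orderOf x → q ∉ π) → x ∈ Cfsg.piCore {q | q ∉ π} ↥(Subgroup.centralizer ({y} : Set G))) : ∀ χ ∈ B, ∀ x : G, x ∈ Subgroup.centralizer ({y} : Set G) → (∀ q : ℕ, q.Prime → q ∣ orderOf x → q ∉ π) → (χ : G → ℂ) (y * x) = (χ : G → ℂ) y := by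
  intro χ hχ x hx hxπ
  rw [← centralizer_zpowers' y] at hC hx
  have hs := isSec_centralizer_zpowers hy
  have hA := isBlockUnion_of_block hM hB
  have hL : locSet M (centralizer (zpowers y : Set G)).subtype B ⊆
      kerSet (piCore {q | q ∉ π} (centralizer (zpowers y : Set G))) := fun θ hθ => by
    have hb : IsPBlock M (blockOf M θ.1) := ⟨θ, rfl⟩
    have h1 := (subset_locSet_iff_indAlong hM hy hs.inj hs.range hB hb).1
      ((isBlockUnion_locSet hM _ _).block_subset hM hb (mem_blockOf_self hM θ) hθ)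
    have h2 := ((isBrauerPairOf_iff_indAlong hM).2
      ⟨isPGroup_zpowers_of_pElt hy, hb, hB, h1⟩).relPair hM
    exact mem_blockKer_of_kerF hM (π := {q | q ∉ π}) (fun h => h hpπ) hb (piK_of_correspondent hM (π := {q | q ∉ π}) (fun h => h hpπ)
      hBD hB₁ hker h2 _ (map_subtype_le _) (le_normalizer.trans
        (normalizer_le_normalizer_map_piCore _)) (isPiNum_card_map_piCore _))
      (mem_blockOf_self hM θ)
  have hx' : ¬ p ∣ orderOf (⟨x, hx⟩ : centralizer (zpowers y : Set G)) := fun h =>
    hxπ p hM.1 (by rwa [← orderOf_coe] at h) hpπ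
  have h1 := irr_eq_blockPart_locSet hM hs.inj (hs.isPPart hx') hs.range hA hχ
  have h2 := irr_eq_blockPart_locSet hM hs.inj (hs.isPPart (not_dvd_orderOf_one hM.1)) hs.range hA hχ
  rw [blockPart_mul_of_subset_kerSet hL _ (hC ⟨x, hx⟩ (by rwa [← orderOf_coe]))] at h1
  rw [mul_one] at h2
  exact h1.trans h2.symm

end Cfsg.Agent.S4727
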