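import Cfsg.Statements.S4728
import Mathlib
import Cfsg.Agent.BLK.PiKer
import Cfsg.Agent.BLK.PrincCol2

set_option autoImplicit false
open Cfsg

namespace Cfsg.Agent.S4728

open CL CL.Blk Cfsg Subgroup MonoidAlgebra
open scoped CL.MSS

/-- Let p be a prime, π a set of primes containing p, M a maximal ideal of the algebraic integers containing p, B a p-block of the finite group G with defect group D, and B₁ the block of N_G(D) with defect group D inducing B. Let D₀ be a p-subgroup, H₀ = D₀·C_G(D₀), and b a block of H₀ inducing B. Write O_π'(X) for the largest normal subgroup of X whose order has no prime divisor in π. Suppose that O_π'(C_G(D₀)) is a normal Hall π'-subgroup of C_G(D₀) (it contains every element of C_G(D₀) whose order has no prime divisor in π) and that every element of it lies in the kernel of every member of b. Then every element of O_π'(N_G(D)) lies in the kernel of every member of B₁. -/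
theorem result {G : Type*} [Group G] [Finite G] (p : ℕ) [Fact p.Prime] (M : Ideal Cfsg.AlgInt) (hM : Cfsg.IsPModular p M) (π : Set ℕ) (hpπ : p ∈ π) (B : Set (Cfsg.IrrCharacter G)) (hB : Cfsg.IsPBlock M B) (D : Subgroup G) (hBD : Cfsg.IsDefectGroup p M B D) (B₁ : Set (Cfsg.IrrCharacter ↥(Subgroup.normalizer (D : Set G)))) (hB₁ : Cfsg.IsInducedBlock M (Subgroup.normalizer (D : Set G)) B₁ B) (hB₁D : Cfsg.IsDefectGroup p M B₁ (D.subgroupOf (Subgroup.normalizer (D : Set G)))) (D₀ : Subgroup G) (hD₀ : IsPGroup p D₀) (H₀ : Subgroup G) (hH₀ : H₀ = D₀ ⊔ Subgroup.centralizer (D₀ : Set G)) (b : Set (Cfsg.IrrCharacter ↥H₀)) (hb : Cfsg.IsInducedBlock M H₀ b B) (hcompl : ∀ x : ↥(Subgroup.centralizer (D₀ : Set G)), (∀ q : ℕ, q.Prime → q ∣ orderOf x → q ∉ π) → x ∈ Cfsg.piCore {q | q ∉ π} ↥(Subgroup.centralizer (D₀ : Set G))) (hkerb : ∀ x : ↥(Subgroup.centralizer (D₀ : Set G)), x ∈ Cfsg.piCore {q | q ∉ π} ↥(Subgroup.centralizer (D₀ : Set G)) → ∀ θ ∈ b, ∀ h : ↥H₀,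 (h : G) = (x : G) → (θ : ↥H₀ → ℂ) h = (θ : ↥H₀ → ℂ) 1) : ∀ n : ↥(Subgroup.normalizer (D : Set G)), n ∈ Cfsg.piCore {q | q ∉ π} ↥(Subgroup.normalizer (D : Set G)) → n ∈ Cfsg.blockKer B₁ := by
  intro n hn θ hθ
  have hp := hM.1
  have hF := natCast_F hM
  obtain ⟨g, h1, h2⟩ := exists_relPair_normalizer hM hD₀ (hH₀ ▸ le_sup_left) (hH₀ ▸ le_sup_right)
    (hH₀ ▸ sup_le le_normalizer (centralizer_le_normalizer _)) hb
  obtain ⟨e, h3, h4⟩ := exists_relPair_normalizer hM hBD.isPGroup le_normalizer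
    (centralizer_le_normalizer _) le_rfl hB₁
  obtain ⟨x, -, hx⟩ := h4.exists_cj_ple hp hF (isSB_top_eB hM hB)
    ((isDefectGroup_iff_sDef_top hM hB).1 hBD) h2
  have h5 := isPiNum_card_map_piCore (π := {q | q ∉ π}) (normalizer (D : Set G)).subtype
  have h6 := le_normalizer.trans
    (normalizer_le_normalizer_map_piCore (π := {q | q ∉ π}) (normalizer (D : Set G)))
  refine mem_blockKer_of_kerF hM (π := {q | q ∉ π}) (fun h => h hpπ) hB₁.1 (kerF_of_Br hp hF (isSB_sb hM hB₁.1)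
    (map_subtype_le _) h6 hBD.isPGroup (le_normalizer.trans h6)
    ((isSB_sb hM hB₁.1).fixed.mono le_normalizer) (fun h => h5 p hp h hpπ) h3.br h3.pair.ne_zero
    fun y hy => hx.single_mul hp hF hy.2 ?_) hθ n hn
  have h7 : x⁻¹ * y * x ∈ centralizer (D₀ : Set G) := by
    rw [← MSS.mem_cj, MSS.cj_centralizer]; exact centralizer_anti hx.le hy.2
  have h8 := hcompl ⟨_, h7⟩ fun q hq hd => h5 q hq (Dvd.dvd.trans (by
    rw [← orderOf_coe] at hd
    simpa using (orderOf_conj' x⁻¹ y).symm ▸ (by simpa using hd : q ∣ orderOf (x⁻¹ * y * x⁻¹⁻¹)))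
    (orderOf_dvd_natCard _ hy.1))
  have h9 := single_mul_of_Br hp hF hD₀ ((isSB_sb hM hb.1).fixed.mono h1.le) h1.br h7 (by
    have := congrArg (amb H₀.subtype) (single_mul_eB_of_mem (M := M) (b := b)
      (x := ⟨_, h1.cent h7⟩) fun θ hθ => hkerb _ h8 θ hθ _ rfl)
    rwa [map_mul, amb_single] at this)
  have h10 := congrArg (cj x) h9
  rwa [map_mul, cj_single, show x * (x⁻¹ * y * x) * x⁻¹ = y by group] at h10

end Cfsg.Agent.S4728
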