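import Cfsg.Statements.S4729
import Cfsg.Agent.BLK.Princ3
-- import your own Cfsg.Agent.* helpers here

set_option autoImplicit false
open Cfsg

namespace Cfsg.Agent.S4729

/-- Let p be a prime, M a maximal ideal of the algebraic integers containing p, G a finite perfect group and P a Sylow p-subgroup. If the principal p-block of G contains a faithful irreducible character of degree less than 2p, then the centralizer of P is a p-group. -/
theorem result {G : Type*} [Group G] [Finite G] (p : ℕ) [Fact p.Prime] (M : Ideal Cfsg.AlgInt) (hM : Cfsg.IsPModular p M) (hperf : commutator G = ⊤) (P : Sylow p G) (χ : Cfsg.IrrCharacter G) (hχ : χ ∈ Cfsg.principalBlock M G) (hfaith : ∀ g : G, (χ : G → ℂ) g = (χ : G → ℂ) 1 → g = 1) (hdeg : Cfsg.charDegree (χ : G → ℂ) < 2 * p) : IsPGroup p ↥(Subgroup.centralizer ((P : Subgroup G) : Set G)) := by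
  open CL.Char CL.Blk in
  classical
  have hp : p.Prime := Fact.out
  have := Fintype.ofFinite G
  have := Fintype.ofFinite (regCent P)
  obtain ⟨m, hm, hsum⟩ := (χ.2.isCharacter.res (regCent P)).exists_nat_coeffs
  have hcong : ∀ k : regCent P, χ.1 k - χ.1 1 ∈ (V M).nonunits := fun k => by
    have h := principal_apply_div_sub_one hM hχ (not_dvd_index_centralizer_of_sylow P
      fun u hu => ((mem_regCent P).1 k.2).1 u hu)
    convert mul_mem_nonunits_left (irr_mem_V χ 1) h using 1
    have := χ.2.one_ne_zero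
    field_simp
  have hdvd : ∀ θ : IrrCharacter (regCent P), θ ≠ CL.Char.irrOne _ → p ∣ m θ := fun θ hθ => by
    rw [← natCast_mem_nonunits_iff hM, ← hm]
    refine mem_nonunits_of_mul_unit (u := Nat.card (regCent P))
      (by rw [natCast_mem_nonunits_iff hM]; exact not_dvd_card_regCent P) ?_
    rw [card_mul_classInner]
    have h0 : ∑ k : regCent P, (starRingEnd ℂ) (θ.1 k) = 0 := by
      rw [← map_sum, θ.2.sum_eq_zero (fun e => hθ (eq_irrOne_iff.2 e)), map_zero]
    rw [← sub_zero (∑ _, _), ← mul_zero (χ.1 1), ← h0, Finset.mul_sum, ← Finset.sum_sub_distrib]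
    refine sum_mem fun k _ => ?_
    rw [← sub_mul]
    exact mul_mem_nonunits_right (hcong k) (char_mem_V θ.2.isCharacter.conj k)
  have hdeg' : ∑ θ, m θ * charDegree θ.1 < 2 * p := by
    refine lt_of_eq_of_lt (charDegree_of_eq ?_).symm hdeg
    have := congrFun hsum 1
    simp only [Finset.sum_apply, Pi.smul_apply, smul_eq_mul, irr_one_eq] at this
    push_cast
    exact this
  have hzero : ∀ θ : IrrCharacter (regCent P), θ ≠ CL.Char.irrOne _ → m θ = 0 := fun θ hθ => by
    by_contra h0
    have hle := Nat.le_of_dvd (Nat.pos_of_ne_zero h0) (hdvd θ hθ)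
    have hoth : ∀ φ : IrrCharacter (regCent P), φ ≠ CL.Char.irrOne _ → φ ≠ θ → m φ = 0 := fun φ h1 h2 => by
      by_contra h3
      have hle' := Nat.le_of_dvd (Nat.pos_of_ne_zero h3) (hdvd φ h1)
      have := Finset.sum_le_sum_of_subset (f := fun θ => m θ * charDegree θ.1)
        (Finset.subset_univ {θ, φ})
      rw [Finset.sum_pair h2.symm] at this
      nlinarith [charDegree_pos θ, charDegree_pos φ]
    have h1 := Finset.single_le_sum (f := fun θ => m θ * charDegree θ.1)
      (fun _ _ => Nat.zero_le _) (Finset.mem_univ θ)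
    have hd1 : charDegree θ.1 = 1 := by
      have := charDegree_pos θ
      by_contra hne
      have : 2 ≤ charDegree θ.1 := by omega
      nlinarith
    have hmp : m θ = p := by
      obtain ⟨c, hc⟩ := hdvd θ hθ
      rw [hd1, mul_one, hc] at h1
      have : c = 1 := by
        rcases c with _ | _ | c
        · simp [hc] at h0
        · rfl
        · nlinarith [hp.pos]
      rw [hc, this, mul_one]
    have hθ1 : θ.1 1 = 1 := by rw [irr_one_eq, hd1, Nat.cast_one]
    apply hθ
    refine eq_irrOne_iff.2 (funext fun k => ?_)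
    have e1 : detChar (fun x : regCent P => χ.1 x) k = 1 := by
      rw [χ.2.isCharacter.detChar_res, ← detHom_apply,
        hom_apply_of_mem_commutator _ (hperf ▸ Subgroup.mem_top _), Units.val_one]
    rw [hsum, detChar_sum _ _ (fun φ _ => φ.2.isCharacter.natCast_smul _), Finset.prod_apply,
      Finset.prod_eq_single θ (fun φ _ hφ => by
        rw [φ.2.isCharacter.detChar_natCast_smul]
        by_cases h : φ = CL.Char.irrOne _
        · rw [h, CL.Char.irrOne_coe, detChar_one]; simp
        · rw [hoth φ h hφ]; simp) (by simp), θ.2.isCharacter.detChar_natCast_smul,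
      θ.2.isCharacter.detChar_of_apply_one hθ1, hmp, Pi.pow_apply] at e1
    obtain ⟨lam, hl⟩ := θ.2.isCharacter.exists_hom hθ1
    have e2 : θ.1 k ^ Nat.card (regCent P) = 1 := by rw [hl]; exact hom_pow_card lam k
    have := Nat.dvd_gcd (orderOf_dvd_of_pow_eq_one e1) (orderOf_dvd_of_pow_eq_one e2)
    rw [(Nat.Prime.coprime_iff_not_dvd hp).2 (not_dvd_card_regCent P), Nat.dvd_one] at this
    exact orderOf_eq_one_iff.1 this
  have hbot : ∀ k ∈ regCent P, k = 1 := fun k hk => by
    refine hfaith k ?_
    have e : ∀ x : regCent P, χ.1 x = m (CL.Char.irrOne _) := fun x => by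
      have := congrFun hsum x
      simp only [Finset.sum_apply, Pi.smul_apply, smul_eq_mul] at this
      rw [this, Finset.sum_eq_single (CL.Char.irrOne _) (fun φ _ h => by simp [hzero φ h]) (by simp),
        CL.Char.irrOne_apply, mul_one]
    exact (e ⟨k, hk⟩).trans (e 1).symm
  intro c
  obtain ⟨x, y, -, hy, ⟨j, hj⟩, hy', e⟩ := CL.exists_p_part_mul_p'_part (p := p) (c : G)
  have h1 : y = 1 := hbot y ((mem_regCent P).2 ⟨(Subgroup.zpowers_le.2 c.2) hy,
    (Nat.Prime.coprime_iff_not_dvd hp).1 hy'.symm⟩)
  refine ⟨j, Subtype.ext ?_⟩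
  rw [Subgroup.coe_pow, e, h1, mul_one, hj, Subgroup.coe_one]

end Cfsg.Agent.S4729
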