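import Cfsg.Statements.S4730
import Cfsg.Agent.BLK.Princ2
import Cfsg.Agent.BLK.IndPart
-- import your own Cfsg.Agent.* helpers here

set_option autoImplicit false
open Cfsg

namespace Cfsg.Agent.S4730

/-- Let p be a prime, M a maximal ideal of the algebraic integers containing p, and G a finite group with trivial centre, Sylow p-subgroup P of order p^a and centre Z(P) of order p^b. If χ is a faithful irreducible character of G whose degree is a power of p, then the p-block of χ has defect at most a − b; in particular, if P is abelian then χ lies in a block of defect zero. -/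
theorem result {G : Type*} [Group G] [Finite G] (p : ℕ) [Fact p.Prime] (M : Ideal Cfsg.AlgInt) (hM : Cfsg.IsPModular p M) (hZ : Subgroup.center G = ⊥) (P : Sylow p G) (a b : ℕ) (ha : Nat.card P = p ^ a) (hb : Nat.card (Subgroup.center ↥(P : Subgroup G)) = p ^ b) (χ : Cfsg.IrrCharacter G) (hfaith : ∀ g : G, (χ : G → ℂ) g = (χ : G → ℂ) 1 → g = 1) (n : ℕ) (hdeg : Cfsg.charDegree (χ : G → ℂ) = p ^ n) : Cfsg.blockDefect p (Cfsg.blockOf M (χ : G → ℂ)) ≤ a - b ∧ (IsMulCommutative ↥(P : Subgroup G) → Cfsg.blockDefect p (Cfsg.blockOf M (χ : G → ℂ)) = 0) := by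
  classical
  have := Fintype.ofFinite G
  have hp := hM.1
  have hker : CL.Char.charKer (χ : G → ℂ) = ⊥ := χ.2.isCharacter.charKer_eq_bot_iff.2 hfaith
  have ha' : (Nat.card G).factorization p = a := by
    have := P.card_eq_multiplicity
    rw [ha] at this
    exact (Nat.pow_right_injective hp.two_le this).symm
  have hB := CL.Blk.isPBlock_blockOf (M := M) χ
  let Z := Subgroup.center (P : Subgroup G)
  let f : Z →* G := (P : Subgroup G).subtype.comp Z.subtype
  let _ := Fintype.ofFinite Z
  have hi : ∀ z : Z, ¬ p ∣ (Subgroup.centralizer ({f z} : Set G)).index := fun z =>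
    CL.Blk.not_dvd_index_centralizer_of_sylow P
      fun u hu => congrArg Subtype.val (Subgroup.mem_center_iff.1 z.2 ⟨u, hu⟩)
  have h0 : ∀ z : Z, z ≠ 1 → χ.1 (f z) = 0 := fun z hz => by
    refine (χ.2.eq_zero_or_norm_eq (f z) (by
      rw [hdeg]; exact Nat.Coprime.pow_left _ ((Nat.Prime.coprime_iff_not_dvd hp).2 (hi z)))).resolve_right
      fun h => hz ?_
    rw [← χ.2.mem_charCenter, χ.2.charCenter_eq_center hker, hZ, Subgroup.mem_bot] at h
    exact Subtype.ext (Subtype.ext h)
  have key : b ≤ CL.Blk.minVal p (blockOf M (χ : G → ℂ)) := by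
    obtain ⟨ζ, hζ, e⟩ := CL.Blk.exists_eq_minVal p (CL.Blk.block_nonempty hM hB)
    rw [← e]
    obtain ⟨m, hm⟩ := (ζ.2.isCharacter.comp f).exists_nat_inner CL.Char.isCharacter_one
    have h1 : ∑ z : Z, ζ.1 (f z) = ((p ^ b * m : ℕ) : ℂ) := by
      rw [Nat.cast_mul, ← hb, ← hm, CL.Char.card_mul_classInner]
      simp only [map_one, mul_one]
      congr
    have h2 : ((p ^ b * m : ℕ) : ℂ) / (charDegree ζ.1 : ℂ) - 1 ∈ (CL.Blk.V M).nonunits := by
      rw [← h1, ← CL.Blk.irr_one_eq, ← Finset.add_sum_erase _ _ (Finset.mem_univ 1), map_one, add_div,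
        div_self ζ.2.one_ne_zero, add_sub_cancel_left, Finset.sum_div]
      refine sum_mem fun z hz => ?_
      have := (CL.Blk.sameBlock_iff hM χ ζ).1 hζ (f z)
      rw [centralChar, centralChar, h0 z (Finset.ne_of_mem_erase hz), mul_zero, zero_div, zero_sub,
        neg_mem_iff, mul_div_assoc] at this
      exact CL.Blk.mem_nonunits_of_mul_unit (by rw [CL.Blk.natCast_mem_nonunits_iff hM]; exact hi z) this
    obtain ⟨h3, h4⟩ := CL.Blk.factorization_eq_of_div_sub_one hM (CL.Blk.charDegree_ne_zero ζ) h2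
    rw [← h4]
    exact (hp.pow_dvd_iff_le_factorization h3).1 (dvd_mul_right _ _)
  have hle : blockDefect p (blockOf M (χ : G → ℂ)) ≤ a - b := by
    rw [CL.Blk.blockDefect_eq, ha']; omega
  refine ⟨hle, fun hc => ?_⟩
  have : Z = ⊤ := by
    rw [eq_top_iff]
    exact fun x _ => Subgroup.mem_center_iff.2 fun y => hc.is_comm.comm y x
  have e : p ^ b = p ^ a := by rw [← hb, ← ha]; change Nat.card Z = _; rw [this, Subgroup.card_top]
  have := Nat.pow_right_injective hp.two_le e
  omega

end Cfsg.Agent.S4730
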