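import Cfsg.Statements.S4731
import Mathlib
import Cfsg.Agent.BLK.Section2

set_option autoImplicit false
open Cfsg

namespace Cfsg.Agent.S4731

open CL.Blk Cfsg
open scoped ComplexConjugate

/-- Let p ≠ q be primes, M_p and M_q maximal ideals of the algebraic integers containing p and q respectively, and G a finite group with no element of order pq; let q^b be the q-part of the order of G. For a p-block B_p (relative to M_p), a q-block B_q (relative to M_q) and a p-singular element y, the sum of χ(1)χ(y) over the irreducible characters χ lying in both B_p and B_q is q^b times an algebraic integer. -/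
theorem result {G : Type*} [Group G] [Finite G] (p q : ℕ) [Fact p.Prime] [Fact q.Prime] (hpq : p ≠ q) (Mp Mq : Ideal Cfsg.AlgInt) (hMp : Cfsg.IsPModular p Mp) (hMq : Cfsg.IsPModular q Mq) (hno : ∀ g : G, orderOf g ≠ p * q) (b : ℕ) (hb : (Nat.card G).factorization q = b) (Bp : Set (Cfsg.IrrCharacter G)) (hBp : Cfsg.IsPBlock Mp Bp) (Bq : Set (Cfsg.IrrCharacter G)) (hBq : Cfsg.IsPBlock Mq Bq) (y : G) (hy : p ∣ orderOf y) : ∃ ω : Cfsg.AlgInt, ∑ᶠ χ ∈ Bp ∩ Bq, (Cfsg.charDegree (χ : G → ℂ) : ℂ) * (χ : G → ℂ) y = (q : ℂ) ^ b * (ω : ℂ) := by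
  classical
  have := Fintype.ofFinite G
  have hp : p.Prime := Fact.out
  have hq : q.Prime := Fact.out
  have hsing : ∀ g : G, p ∣ orderOf g → ¬ q ∣ orderOf g := by
    intro g h1 h2
    have h3 : p * q ∣ orderOf g := ((Nat.coprime_primes hp hq).2 hpq).mul_dvd_of_dvd_of_dvd h1 h2
    exact hno _ (orderOf_pow_orderOf_div (orderOf_pos g).ne' h3)
  have hT : ∀ z : G, q ∣ orderOf z →
      ∑ χ with χ ∈ Bp ∩ Bq, conj ((χ : G → ℂ) z) * (χ : G → ℂ) y = 0 := by
    intro z hz
    have h1 : classInner (blockPart Bq (∑ χ : IrrCharacter G, conj (χ.1 z) • χ.1))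
        (blockPart Bp (∑ χ : IrrCharacter G, conj (χ.1 y) • χ.1)) = 0 := by
      rw [CL.Char.classInner_def, Finset.sum_eq_zero, mul_zero]
      intro g _
      rw [blockPart_sum_smul_irr, blockPart_sum_smul_irr]
      simp only [mul_comm (conj _)]
      by_cases hg : p ∣ orderOf g
      · rw [weak_orth_of_int hMq (blockCoeff_mem_V hMq hBq) (hsing g hg) hz, zero_mul]
      · rw [weak_orth_of_int hMp (blockCoeff_mem_V hMp hBp) hg hy, map_zero, mul_zero]
    rw [CL.Char.inner_eq_sum_of_right _ (blockPart_isClassFunction _ _)] at h1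
    simp only [classInner_blockPart, CL.Char.classInner_sum_irr] at h1
    rw [← h1, Finset.sum_filter]
    refine Finset.sum_congr rfl fun χ _ => ?_
    by_cases h1 : χ ∈ Bp <;> by_cases h2 : χ ∈ Bq <;> simp [h1, h2]
  obtain ⟨Q⟩ : Nonempty (Sylow q G) := inferInstance
  have hQ : Nat.card Q = q ^ b := by rw [Q.card_eq_multiplicity, hb]
  have hn : ∀ χ : IrrCharacter G, ∃ n : ℕ,
      ∑ z : (Q : Subgroup G), conj ((χ : G → ℂ) z) = (q : ℂ) ^ b * n := by
    intro χ
    obtain ⟨n, hn⟩ := (CL.Char.isCharacter_one (G := (Q : Subgroup G))).exists_nat_inner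
      (χ.2.isCharacter.res Q)
    refine ⟨n, ?_⟩
    have := CL.Char.card_mul_classInner (fun _ : (Q : Subgroup G) => (1 : ℂ))
      (fun z : (Q : Subgroup G) => χ.1 z)
    simp only [one_mul] at this
    rw [← this, hn]
    congr 1
    exact_mod_cast hQ
  choose n hn using hn
  have h2 : ∑ z : (Q : Subgroup G), ∑ χ with χ ∈ Bp ∩ Bq, conj ((χ : G → ℂ) z) * (χ : G → ℂ) y =
      ∑ χ with χ ∈ Bp ∩ Bq, (charDegree (χ : G → ℂ) : ℂ) * (χ : G → ℂ) y := by
    rw [Finset.sum_eq_single 1]
    · refine Finset.sum_congr rfl fun χ _ => ?_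
      rw [OneMemClass.coe_one, χ.2.isCharacter.conj_one, irr_one_eq]
    · intro z _ hz
      refine hT _ ?_
      by_contra hc
      exact hz (Subtype.ext (eq_one_of_pElt_of_pReg (pElt_of_mem_isPGroup hq Q.isPGroup' z.2) hc))
    · simp
  rw [Finset.sum_comm] at h2
  simp only [← Finset.sum_mul, hn] at h2
  refine ⟨⟨∑ χ with χ ∈ Bp ∩ Bq, (n χ : ℂ) * (χ : G → ℂ) y, ?_⟩, ?_⟩
  · exact IsIntegral.sum _ fun χ _ => (isIntegral_algebraMap (x := (n χ : ℤ))).mul (irr_isIntegral χ y)
  · rw [finsum_mem_block_eq, ← h2, Finset.mul_sum]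
    simp only [mul_assoc]

end Cfsg.Agent.S4731
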