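import Cfsg.Statements.S4732
import Cfsg.Agent.BLK.JordanP4

set_option autoImplicit false
universe u v
open Cfsg

namespace Cfsg.Agent.S4732

/-- Let p be a prime. There is a function f of two natural-number arguments such that every finite group G admitting a faithful representation of degree n over a field of characteristic p, with Sylow p-subgroups of order p^m, has a normal abelian subgroup A with [G : A] < f(m, n). -/
theorem result (p : ℕ) [Fact p.Prime] : ∃ f : ℕ → ℕ → ℕ, ∀ (G : Type u) [Group G] [Finite G] (F : Type v) [Field F] [CharP F p] (n : ℕ) (ρ : Representation F G (Fin n → F)), Function.Injective ρ → ∀ m : ℕ, (Nat.card G).factorization p = m → ∃ A : Subgroup G, A.Normal ∧ IsMulCommutative A ∧ A.index < f m n := by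
  classical
  choose c hc using fun m n => CL.JordanP.exists_jp.{u, v} p m n
  refine ⟨fun m n => (c m n).factorial + 1, ?_⟩
  intro G _ _ F _ _ n ρ hρ m hm
  let K := AlgebraicClosure F
  let σ : Representation K G (Fin n → K) :=
    (Matrix.toLinAlgEquiv' : Matrix (Fin n) (Fin n) K ≃ₐ[K] _).toRingEquiv.toRingHom.toMonoidHom.comp
      ((algebraMap F K).mapMatrix.toMonoidHom.comp
        ((LinearMap.toMatrixAlgEquiv' : _ ≃ₐ[F] Matrix (Fin n) (Fin n) F).toRingEquiv.toRingHom.toMonoidHom.comp ρ))
  have hσ : Function.Injective σ :=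
    (Matrix.toLinAlgEquiv' : Matrix (Fin n) (Fin n) K ≃ₐ[K] _).injective.comp
      ((Matrix.map_injective (algebraMap F K).injective).comp
        ((LinearMap.toMatrixAlgEquiv' : _ ≃ₐ[F] Matrix (Fin n) (Fin n) F).injective.comp hρ))
  have hp : p.Prime := Fact.out
  have hm' : ¬ p ^ (m + 1) ∣ Nat.card G := by
    rw [hp.pow_dvd_iff_le_factorization Nat.card_pos.ne']
    omega
  obtain ⟨A, hi, hA⟩ := hc m n G K (Fin n → K) σ (by simp) hm'
  refine ⟨A.normalCore, inferInstance, ⟨⟨fun a b => Subtype.ext (hσ ?_)⟩⟩, ?_⟩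
  · simp only [Subgroup.coe_mul, map_mul]
    exact hA a (A.normalCore_le a.2) b (A.normalCore_le b.2)
  · refine Nat.lt_succ_of_le ?_
    rw [Subgroup.normalCore_eq_ker, Subgroup.index_ker]
    refine le_trans (Nat.card_le_card_of_injective _ Subtype.val_injective) ?_
    rw [Nat.card_perm]
    exact Nat.factorial_le hi

end Cfsg.Agent.S4732
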