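import Cfsg.Statements.S4733
import Cfsg.Agent.BLK.BrauerFeit

set_option autoImplicit false
open Cfsg

namespace Cfsg.Agent.S4733

open CL.Blk CL.Char

/-- Let p be a prime, M a maximal ideal of the algebraic integers containing p, and B a p-block of the finite group G with k irreducible characters and p-regular rank l (the number of irreducible Brauer characters). Then l ≤ k, and the following are equivalent: B has defect 0; k = l = 1; k = l. -/
theorem result {G : Type*} [Group G] [Finite G] (p : ℕ) [Fact p.Prime] (M : Ideal Cfsg.AlgInt) (hM : Cfsg.IsPModular p M) (B : Set (Cfsg.IrrCharacter G)) (hB : Cfsg.IsPBlock M B) : Cfsg.blockRank p B ≤ Nat.card B ∧ (Cfsg.blockDefect p B = 0 ↔ (Nat.card B = 1 ∧ Cfsg.blockRank p B = 1)) ∧ (Cfsg.blockDefect p B = 0 ↔ Nat.card B = Cfsg.blockRank p B) := by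
  have h1 := blockRank_le_card p B
  have h2 := blockRank_pos hM hB
  refine ⟨h1, ⟨fun h => ?_, fun h => ?_⟩, ⟨fun h => ?_, fun h => ?_⟩⟩
  · have := card_eq_one_of_blockDefect_eq_zero hM hB h
    omega
  · by_contra h0
    have := blockRank_lt_card hM hB h0
    omega
  · have := card_eq_one_of_blockDefect_eq_zero hM hB h
    omega
  · by_contra h0
    have := blockRank_lt_card hM hB h0
    omega

end Cfsg.Agent.S4733
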