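import Cfsg.Statements.S4734
import Mathlib
import Cfsg.Agent.BLK.PiKer

set_option autoImplicit false
open Cfsg

namespace Cfsg.Agent.S4734

open CL CL.Blk Cfsg Subgroup MonoidAlgebra
open scoped CL.MSS

/-- Let p be a prime, π a set of primes containing p, M a maximal ideal of the algebraic integers containing p, B a p-block of the finite group G with defect group D, and B₁ the block of N_G(D) with defect group D inducing B. Write O_π'(X) for the largest normal subgroup of X whose order has no prime divisor in π, and suppose every element of O_π'(N_G(D)) lies in the kernel of every member of B₁. Let G₀ be a subgroup and B₀ a block of G₀ with defect group D₀ such that C_G(D₀) ≤ G₀ and B₀ induces B. Then every element of O_π'(G₀) lies in the kernel of every member of B₀. -/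
theorem result {G : Type*} [Group G] [Finite G] (p : ℕ) [Fact p.Prime] (M : Ideal Cfsg.AlgInt) (hM : Cfsg.IsPModular p M) (π : Set ℕ) (hpπ : p ∈ π) (B : Set (Cfsg.IrrCharacter G)) (hB : Cfsg.IsPBlock M B) (D : Subgroup G) (hBD : Cfsg.IsDefectGroup p M B D) (B₁ : Set (Cfsg.IrrCharacter ↥(Subgroup.normalizer (D : Set G)))) (hB₁ : Cfsg.IsInducedBlock M (Subgroup.normalizer (D : Set G)) B₁ B) (hB₁D : Cfsg.IsDefectGroup p M B₁ (D.subgroupOf (Subgroup.normalizer (D : Set G)))) (hker : ∀ n : ↥(Subgroup.normalizer (D : Set G)), n ∈ Cfsg.piCore {q | q ∉ π} ↥(Subgroup.normalizer (D : Set G)) → n ∈ Cfsg.blockKer B₁) (G₀ : Subgroup G) (B₀ : Set (Cfsg.IrrCharacter ↥G₀)) (hB₀ : Cfsg.IsInducedBlock M G₀ B₀ B) (D₀ : Subgroup ↥G₀) (hD₀ : Cfsg.IsDefectGroup p M B₀ D₀) (hC : Subgroup.centralizer ((D₀.map G₀.subtype : Subgroup G) : Set G) ≤ G₀) : ∀ x : ↥G₀, x ∈ Cfsg.piCore {q | q ∉ π} ↥G₀ → x ∈ Cfsg.blockKer B₀ := by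
  intro n hn θ hθ
  have hp := hM.1
  have hF := natCast_F hM
  have h0 := isSB_sb hM hB₀.1
  have h1 := (isDefectGroup_iff_sDef hM hB₀.1).1 hD₀
  obtain ⟨g, h2⟩ := h0.exists_relPair hp hF h1.pgroup (map_subtype_le _) hC h1.brNe
  have h3 := h2.top_of_indAlong hp hF (isBlk_eB hM hB₀.1) (isBlk_eB hM hB) (hB₀.indAlong hM)
  have h5 := isPiNum_card_map_piCore (π := {q | q ∉ π}) G₀.subtype
  have h6 := le_normalizer.trans (normalizer_le_normalizer_map_piCore (π := {q | q ∉ π}) G₀)
  exact mem_blockKer_of_kerF hM (π := {q | q ∉ π}) (fun h => h hpπ) hB₀.1 (kerF_of_Br hp hF h0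
    (map_subtype_le _) h6 h1.pgroup (h2.le.trans h6) (h0.fixed.mono h2.le)
    (fun h => h5 p hp h hpπ) h2.br h2.pair.ne_zero (piK_of_correspondent hM (π := {q | q ∉ π}) (fun h => h hpπ)
      hBD hB₁ hker h3 _ inf_le_right (MSS.le_normalizer_inf (hC.trans h6) le_normalizer)
      (h5.of_dvd (card_dvd_of_le inf_le_left)))) hθ n hn

end Cfsg.Agent.S4734
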