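import Cfsg.Statements.S4735
import Cfsg.Agent.BLK.Princ2
-- import your own Cfsg.Agent.* helpers here

set_option autoImplicit false
open Cfsg

namespace Cfsg.Agent.S4735

/-- Let p be a prime, M a maximal ideal of the algebraic integers containing p, G a finite group, H = O_p'(G) and Ḡ = G/H. For x ∈ G write λ(G, x) for the sum of |χ(x)|^2 over the irreducible characters χ in the principal p-block of G. Then λ(G, x) is a positive integer, λ(G, x) = λ(Ḡ, x̄) where x̄ is the image of x, and λ(G, x) ≤ #C_Ḡ(x̄). Moreover λ(G, 1) = [G : H] if and only if the principal block is the only p-block of Ḡ. -/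
theorem result {G : Type*} [Group G] [Finite G] (p : ℕ) [Fact p.Prime] (M : Ideal Cfsg.AlgInt) (hM : Cfsg.IsPModular p M) (x : G) : (∃ n : ℕ, 0 < n ∧ ∑ᶠ χ ∈ Cfsg.principalBlock M G, Complex.normSq ((χ : G → ℂ) x) = n) ∧ ∑ᶠ χ ∈ Cfsg.principalBlock M G, Complex.normSq ((χ : G → ℂ) x) = ∑ᶠ ψ ∈ Cfsg.principalBlock M (G ⧸ Cfsg.pPrimeCore p G), Complex.normSq ((ψ : G ⧸ Cfsg.pPrimeCore p G → ℂ) (QuotientGroup.mk x)) ∧ ∑ᶠ χ ∈ Cfsg.principalBlock M G, Complex.normSq ((χ : G → ℂ) x) ≤ (Nat.card ↥(Subgroup.centralizer ({(QuotientGroup.mk x : G ⧸ Cfsg.pPrimeCore p G)} : Set (G ⧸ Cfsg.pPrimeCore p G))) : ℝ) ∧ ((∑ᶠ χ ∈ Cfsg.principalBlock M G, Cfsg.charDegree (χ : G → ℂ) ^ 2) = (Cfsg.pPrimeCore p G).index ↔ ∀ B : Set (Cfsg.IrrCharacter (G ⧸ Cfsg.pPrimeCore p G)), Cfsg.IsPBlock M B → B = Cfsg.principalBlock M (G ⧸ Cfsg.pPrimeCore p G)) := by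
  classical
  have := Fintype.ofFinite G
  let f := QuotientGroup.mk' (Cfsg.pPrimeCore p G)
  have hf : Function.Surjective f := QuotientGroup.mk'_surjective _
  have hk : ¬ p ∣ Nat.card f.ker := by
    rw [QuotientGroup.ker_mk']; exact CL.not_dvd_card_pPrimeCore p G
  have him := CL.Blk.image_irrInfl_principal hM f hf hk
  have tr : ∀ {A : Type} [AddCommMonoid A] (F : IrrCharacter G → A),
      ∑ᶠ χ ∈ principalBlock M G, F χ =
        ∑ᶠ ψ ∈ principalBlock M (G ⧸ Cfsg.pPrimeCore p G), F (CL.Char.irrInfl f hf ψ) := fun F => by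
    rw [← him, finsum_mem_image (CL.Char.irrInfl_injective f hf).injOn]
  refine ⟨?_, tr _, ?_, ?_⟩
  · rw [CL.Blk.finsum_mem_block_eq]
    set S : ℝ := ∑ χ with χ ∈ principalBlock M G, Complex.normSq ((χ : G → ℂ) x) with hS
    have e : (S : ℂ) = ∑ χ with χ ∈ principalBlock M G, (χ : G → ℂ) x * starRingEnd ℂ ((χ : G → ℂ) x) := by
      rw [hS, Complex.ofReal_sum]
      exact Finset.sum_congr rfl fun χ _ => (Complex.mul_conj _).symm
    obtain ⟨n, hn⟩ := CL.Char.exists_int_of_fixed (z := (S : ℂ)) (by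
      rw [e]
      exact IsIntegral.sum _ fun χ _ => (CL.Blk.irr_isIntegral χ x).mul
        (CL.Blk.isIntegral_conj (CL.Blk.irr_isIntegral χ x))) (fun σ => by
      rw [e, map_sum]
      refine Finset.sum_bijective (CL.Char.galIrr G σ) (CL.Char.galIrr G σ).bijective (fun χ => ?_)
        fun χ _ => ?_
      · simp only [Finset.mem_filter, Finset.mem_univ, true_and, CL.Blk.galIrr_mem_principal_iff hM]
      · rw [map_mul, CL.Char.galIrr_apply]
        congr 1
        exact χ.2.isGen.gal_conj (σ : ℂ →+* ℂ) x)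
    have hn' : S = n := by exact_mod_cast hn
    have h1 : 1 ≤ S := by
      have := Finset.single_le_sum (f := fun χ : IrrCharacter G => Complex.normSq ((χ : G → ℂ) x))
        (s := Finset.univ.filter (· ∈ principalBlock M G)) (fun χ _ => Complex.normSq_nonneg _)
        (a := CL.Blk.irrOne G) (Finset.mem_filter.2 ⟨Finset.mem_univ _, CL.Blk.irrOne_mem_principalBlock hM⟩)
      simpa [CL.Blk.irrOne_apply] using this
    have h2 : (1 : ℤ) ≤ n := by rw [hn'] at h1; exact_mod_cast h1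
    refine ⟨n.toNat, by omega, ?_⟩
    rw [hn', ← Int.cast_natCast, Int.toNat_of_nonneg (by omega)]
  · rw [tr, CL.Blk.finsum_mem_block_eq, ← CL.Char.sum_norm_sq_eq_card_centralizer]
    simp only [← Complex.normSq_eq_norm_sq]
    exact Finset.sum_le_sum_of_subset_of_nonneg (Finset.filter_subset _ _)
      fun _ _ _ => Complex.normSq_nonneg _
  · rw [tr, CL.Blk.finsum_mem_block_eq]
    have e : ∑ ψ : IrrCharacter (G ⧸ Cfsg.pPrimeCore p G), charDegree ψ.1 ^ 2 = (Cfsg.pPrimeCore p G).index := by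
      apply Nat.cast_injective (R := ℂ)
      rw [Subgroup.index, ← CL.Char.sum_degree_sq, Nat.cast_sum]
      exact Finset.sum_congr rfl fun ψ _ => by rw [Nat.cast_pow, CL.Blk.irr_one_eq]
    have e2 : ∀ ψ : IrrCharacter (G ⧸ Cfsg.pPrimeCore p G),
        charDegree (CL.Char.irrInfl f hf ψ).1 = charDegree ψ.1 := fun ψ => rfl
    simp only [e2]
    rw [← e]
    constructor
    · intro h B hB
      obtain ⟨ψ, hψ⟩ := CL.Blk.block_nonempty hM hB
      refine CL.Blk.block_eq_of_mem hM hB CL.Blk.isPBlock_principalBlock hψ ?_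
      by_contra hn
      exact (Finset.sum_lt_sum_of_subset (Finset.filter_subset _ _) (Finset.mem_univ ψ) (by simpa using hn)
        (pow_pos (CL.Blk.charDegree_pos ψ) 2) fun _ _ _ => Nat.zero_le _).ne h
    · intro h
      rw [Finset.filter_true_of_mem]
      intro ψ _
      rw [← h _ (CL.Blk.isPBlock_blockOf ψ)]
      exact CL.Blk.mem_blockOf_self hM ψ

end Cfsg.Agent.S4735
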