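import Cfsg.Statements.S4736
import Mathlib
import Cfsg.Agent.BLK.Ito

set_option autoImplicit false
open Cfsg

namespace Cfsg.Agent.S4736

open CL CL.Blk CL.Char MonoidAlgebra
open scoped CL.MSS

/-- Let p be a prime, M a maximal ideal of the algebraic integers containing p, and G a finite p-solvable group with Sylow p-subgroup P. Then P is abelian if and only if every irreducible character in the principal p-block of G has height zero. -/
theorem result {G : Type*} [Group G] [Finite G] (p : ℕ) [Fact p.Prime] (M : Ideal Cfsg.AlgInt) (hM : Cfsg.IsPModular p M) (hsolv : Cfsg.IsPSolvable p G) (P : Sylow p G) : IsMulCommutative P ↔ ∀ χ ∈ Cfsg.principalBlock M G, Cfsg.blockHeight p (Cfsg.principalBlock M G) (χ : G → ℂ) = 0 := by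
  constructor
  · intro h χ hχ
    have h1 := blockHeight_le_of_isPSolvable hM hsolv isPBlock_principalBlock
      ((isDefectGroup_principal_iff hM).2 ⟨P, rfl⟩) hχ
    have h2 : Subgroup.center (P : Subgroup G) = ⊤ := by
      rw [eq_top_iff]
      intro x _
      exact Subgroup.mem_center_iff.2 fun y => h.is_comm.comm y x
    rw [h2, Subgroup.index_top] at h1
    simpa using h1
  · intro h
    have h1 := comm_of_forall_ker_not_dvd hsolv (pPrimeCore p G) (not_dvd_card_pPrimeCore p G)
      (fun χ hχ hk hd => by
        have h2 := h ⟨χ, hχ⟩ ((mem_principal_iff_of_isPSolvable hM hsolv).2 hk)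
        rw [blockHeight_principal hM] at h2
        have h3 := (Nat.Prime.dvd_iff_one_le_factorization hM.1 hχ.charDegree_pos.ne').1 hd
        change (charDegree χ).factorization p = 0 at h2
        omega) P
    exact ⟨⟨fun a b => Subtype.ext (h1 _ a.2 _ b.2)⟩⟩

end Cfsg.Agent.S4736
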