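import Cfsg.Statements.S4955
import Cfsg.Agent.BLK.GCanon
import Cfsg.Agent.CHAR.FrobGroup
import Cfsg.Agent.CHAR.Faithful
import Cfsg.Agent.CHAR.Galois
import Cfsg.Agent.CHAR.Quot

set_option autoImplicit false
open Cfsg

namespace Cfsg.Agent.S4955

open Subgroup CL.Char


/-- Let X be a finite group with an abelian normal Sylow p-subgroup V (a normal p-subgroup of index prime to p in which any two elements commute), and let G be a complement to V in X. Then for every v in V, writing C for the centralizer of v in G, the number k(X) of conjugacy classes of X satisfies k(X) ≤ (order of C)·(order of V) − ((order of G) − k(G)); the statement is written with the subtracted term moved to the left. In particular, if some v in V is centralized by no nonidentity element of G, then k(X) is at most the order of V. -/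
theorem result {X : Type*} [Group X] [Finite X] (p : ℕ) [Fact p.Prime] (V : Subgroup X) [V.Normal] (hVp : IsPGroup p V) (hidx : ¬ p ∣ V.index) (hab : ∀ a ∈ V, ∀ b ∈ V, a * b = b * a) (G : Subgroup X) (hGV : Subgroup.IsComplement' V G) (v : X) (hv : v ∈ V) : Nat.card (ConjClasses X) + Nat.card G ≤ Nat.card ↥(G ⊓ Subgroup.centralizer ({v} : Set X)) * Nat.card V + Nat.card (ConjClasses G) := by
  classical
  have hp : p.Prime := Fact.out
  have hcen : Nat.card (centralizer ({v} : Set X)) ≤
      Nat.card ↥(G ⊓ centralizer ({v} : Set X)) * Nat.card V := by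
    rw [← Nat.card_prod]
    refine Nat.card_le_card_of_surjective
      (fun q : ↥(G ⊓ centralizer ({v} : Set X)) × V => (⟨q.2 * q.1, mul_mem
        (mem_centralizer_singleton_iff.2 (hab _ q.2.2 v hv)) q.1.2.2⟩ : centralizer {v})) ?_
    rintro ⟨x, hx⟩
    obtain ⟨⟨w, g⟩, h⟩ := hGV.existsUnique x |>.exists
    have hw : (w : X) ∈ centralizer {v} := mem_centralizer_singleton_iff.2 (hab _ w.2 v hv)
    refine ⟨(⟨g, g.2, ?_⟩, w), Subtype.ext h⟩
    rw [← h] at hx
    exact ((centralizer {v}).mul_mem_cancel_left hw).1 hx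
  have : NeZero (Nat.card X) := ⟨Nat.card_pos.ne'⟩
  set U := (ZMod (Nat.card X))ˣ
  have hU : (0 : ℝ) < Fintype.card U := by exact_mod_cast Fintype.card_pos
  have h1 : ∀ u : U, ∑ χ : IrrCharacter X, ‖χ.1 (v ^ (u : ZMod (Nat.card X)).val)‖ ^ 2 =
      Nat.card (centralizer ({v} : Set X)) := fun u => by
    rw [sum_norm_sq_eq_card_centralizer, CL.Glb.centralizer_pow_eq' v
      ((ZMod.val_coe_unit_coprime u).coprime_dvd_right (orderOf_dvd_natCard v))]
  let K : IrrCharacter X → Prop := fun χ => ∀ n ∈ V, χ.1 n = χ.1 1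
  have h2 : ∀ χ : IrrCharacter X, Fintype.card U * (if K χ then ‖χ.1 1‖ ^ 2 else 1) ≤
      ∑ u : U, ‖χ.1 (v ^ (u : ZMod (Nat.card X)).val)‖ ^ 2 := fun χ => by
    split_ifs with hK
    · simp only [hK _ (pow_mem hv _), Finset.sum_const, Finset.card_univ, nsmul_eq_mul, le_refl]
    · rw [mul_one]
      refine χ.2.isGen.card_units_le_sum (fun h0 => ?_) pow_card_eq_one'
      obtain ⟨a, ha⟩ := hVp ⟨v, hv⟩
      exact hidx ((CL.Glb.dvd_of_char_eq_zero hp χ.2.isCharacter (congrArg Subtype.val ha) h0
        χ.2.apply_one_eq_charDegree).trans (χ.2.charDegree_dvd_index_of_abelian V hab))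
  have h3 := Finset.sum_le_sum fun χ (_ : χ ∈ Finset.univ) => h2 χ
  rw [Finset.sum_comm, ← Finset.mul_sum] at h3
  simp only [h1, Finset.sum_const, Finset.card_univ, nsmul_eq_mul] at h3
  have h4 := le_of_mul_le_mul_left h3 hU
  rw [Finset.sum_ite, Finset.sum_const, nsmul_eq_mul, mul_one] at h4
  have h5 : ∑ χ ∈ Finset.univ.filter K, ‖χ.1 1‖ ^ 2 = (Nat.card G : ℝ) := by
    have := sum_ker_degree_sq V
    rw [hGV.symm.index_eq_card] at this
    simp only [fun χ : IrrCharacter X => χ.2.isCharacter.norm_one]
    simp only [fun χ : IrrCharacter X => χ.2.apply_one_eq_charDegree] at this ⊢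
    have h6 : ((∑ χ ∈ Finset.univ.filter K, (charDegree χ.1 : ℝ) ^ 2 : ℝ) : ℂ) =
        (Nat.card G : ℝ) := by
      push_cast
      convert this using 3
      simp only [K, fun χ : IrrCharacter X => χ.2.apply_one_eq_charDegree]
    exact_mod_cast h6
  have h6 : (Finset.univ.filter K).card = Nat.card (ConjClasses G) := by
    rw [← card_conjClasses_congr hGV.symm.QuotientMulEquiv, ← card_irr_ker,
      Nat.card_eq_fintype_card, Fintype.card_subtype]
  have h7 := Finset.card_filter_add_card_filter_not (s := Finset.univ) K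
  rw [h6, Finset.card_univ, ← Nat.card_eq_fintype_card, card_irr] at h7
  rw [h5] at h4
  have h8 : Nat.card G + (Finset.univ.filter fun χ => ¬ K χ).card ≤
      Nat.card (centralizer ({v} : Set X)) := by exact_mod_cast h4
  omega

end Cfsg.Agent.S4955
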