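import Cfsg.Statements.S4956
import Cfsg.Agent.SOLV.Coprime

set_option autoImplicit false
open Cfsg

namespace Cfsg.Agent.S4956

open Subgroup
open scoped Pointwise


/-- Let X be a finite group, V an abelian normal subgroup of X (any two elements of V commute) and G a complement to V in X whose order is coprime to that of V. Let S be a set of representatives of the orbits of G on V under conjugation: S lies in V and every element of V is conjugate under G to exactly one member of S. Then the number of conjugacy classes of X equals the sum, over s in S, of the number of conjugacy classes of the centralizer of s in G. -/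
theorem result {X : Type*} [Group X] [Finite X] (V : Subgroup X) [V.Normal] (hab : ∀ a ∈ V, ∀ b ∈ V, a * b = b * a) (G : Subgroup X) (hGV : Subgroup.IsComplement' V G) (hcop : (Nat.card V).Coprime (Nat.card G)) (S : Finset X) (hSV : ∀ s ∈ S, s ∈ V) (hrep : ∀ v ∈ V, ∃! s, s ∈ S ∧ ∃ g ∈ G, g * v * g⁻¹ = s) : Nat.card (ConjClasses X) = ∑ s ∈ S, Nat.card (ConjClasses ↥(G ⊓ Subgroup.centralizer ({s} : Set X))) := by
  classical
  have hN : V.Normal := inferInstance
  let C : X → Subgroup X := fun s => G ⊓ centralizer {s}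
  let r : ∀ s, ConjClasses (C s) → C s := fun s => Function.surjInv ConjClasses.mk_surjective
  have hr : ∀ s c, ConjClasses.mk (r s c) = c := fun s c => Function.surjInv_eq _ c
  let F : (Σ s : S, ConjClasses (C s)) → ConjClasses X := fun q =>
    ConjClasses.mk (q.1.1 * r _ q.2)
  obtain ⟨e, he1, he2⟩ := Nat.chineseRemainder hcop 1 0
  have hVe : ∀ v ∈ V, v ^ e = v := fun v hv => by
    rw [pow_eq_pow_iff_modEq.2 (he1.of_dvd (V.orderOf_dvd_natCard hv)), pow_one]
  have hGe : ∀ g ∈ G, g ^ e = 1 := fun g hg => by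
    rw [pow_eq_pow_iff_modEq.2 (he2.of_dvd (G.orderOf_dvd_natCard hg)), pow_zero]
  have hpow : ∀ s ∈ V, ∀ c : C s, (s * c) ^ e = s := fun s hs c => by
    have : Commute s c := (mem_centralizer_singleton_iff.1 c.2.2).symm
    rw [this.mul_pow, hVe s hs, hGe c c.2.1, mul_one]
  have hdec : ∀ x : X, ∃ v ∈ V, ∃ g ∈ G, v * g = x := fun x => by
    obtain ⟨⟨v, g⟩, h⟩ := hGV.existsUnique x |>.exists
    exact ⟨v, v.2, g, g.2, h⟩
  have hbot : ∀ x ∈ V, x ∈ G → x = 1 := fun x h1 h2 =>
    (Subgroup.disjoint_def.1 hGV.disjoint) h1 h2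
  rw [← Finset.sum_coe_sort S, ← Nat.card_sigma]
  refine (Nat.card_eq_of_bijective F ⟨?_, fun y => ?_⟩).symm
  · rintro ⟨⟨s, hs⟩, c⟩ ⟨⟨s', hs'⟩, c'⟩ h
    obtain ⟨x, hx⟩ := isConj_iff.1 (ConjClasses.mk_eq_mk_iff_isConj.1 h)
    obtain ⟨v, hv, g, hg, rfl⟩ := hdec x
    simp only at hx
    have h1 : v * g * s * (v * g)⁻¹ = s' := by
      rw [← hpow s (hSV s hs) (r s c), ← conj_pow, hx, hpow s' (hSV s' hs')]
    have h2 : g * s * g⁻¹ = s' := by
      rw [← h1, mul_inv_rev, ← mul_assoc, mul_assoc v, mul_assoc v,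
        hab v hv _ (hN.conj_mem s (hSV s hs) g), mul_inv_cancel_right]
    obtain rfl : s = s' := (hrep s (hSV s hs)).unique ⟨hs, 1, one_mem _, by simp⟩ ⟨hs', g, hg, h2⟩
    have hgC : g ∈ C s := ⟨hg, mem_centralizer_singleton_iff.2 (by
      rw [← mul_inv_eq_iff_eq_mul, h2])⟩
    have h3 : v * g * r s c * (v * g)⁻¹ = r s c' := by
      apply mul_left_cancel (a := s)
      rw [← hx]
      calc _ = (v * g * s * (v * g)⁻¹) * (v * g * r s c * (v * g)⁻¹) := by rw [h1]
        _ = _ := by group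
    have h4 : g * r s c * g⁻¹ = r s c' := by
      have h5 : g * r s c * g⁻¹ ∈ G := mul_mem (mul_mem hg (r s c).2.1) (inv_mem hg)
      have h6 := hbot ((r s c' : X) * (g * r s c * g⁻¹)⁻¹) (by
        have := mul_mem hv (hN.conj_mem _ (inv_mem hv) (g * r s c * g⁻¹))
        rw [← h3]
        convert this using 1
        group) (mul_mem (r s c').2.1 (inv_mem h5))
      exact (mul_inv_eq_one.1 h6).symm
    congr 1
    rw [← hr s c, ← hr s c']
    exact ConjClasses.mk_eq_mk_iff_isConj.2 (isConj_iff.2 ⟨⟨g, hgC⟩, Subtype.ext h4⟩)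
  · obtain ⟨x, rfl⟩ := ConjClasses.mk_surjective y
    have hu : x ^ e ∈ V := by
      obtain ⟨d, hd⟩ := (Nat.modEq_zero_iff_dvd.1 he2)
      rw [hd, pow_mul, ← hGV.symm.index_eq_card]
      exact pow_mem (V.pow_index_mem x) _
    set y := x * (x ^ e)⁻¹ with hy
    have hc : Commute x (x ^ e) := Commute.self_pow x e
    have hye : y ^ e = 1 := by
      rw [hy, hc.inv_right.mul_pow, inv_pow, hVe _ hu, mul_inv_cancel]
    have hcop' : (Nat.card (zpowers y)).Coprime (Nat.card V) := by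
      rw [Nat.card_zpowers]
      refine Nat.Coprime.coprime_dvd_left (orderOf_dvd_of_pow_eq_one hye) ?_
      exact Nat.coprime_of_mul_modEq_one 1 (by simpa using he1)
    obtain ⟨k, hk, hkG⟩ := CL.coprime_le_conj_of_le_sup (zpowers y) V G
      (by rw [normalizer_eq_top]; exact le_top) (by rw [hGV.sup_eq_top]; exact le_top) hcop'
      (Or.inl inferInstance)
    have h1 : k⁻¹ * y * k ∈ G := by
      simpa using mem_pointwise_smul_iff_inv_smul_mem.1 (hkG (mem_zpowers y))
    obtain ⟨s, ⟨hs, g, hg, h2⟩, -⟩ := hrep _ hu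
    have h3 : k⁻¹ * x ^ e * k = x ^ e := by
      rw [mul_assoc, ← hab k hk _ hu, inv_mul_cancel_left]
    have hcC : g * (k⁻¹ * y * k) * g⁻¹ ∈ C s := ⟨G.mul_mem (G.mul_mem hg h1) (G.inv_mem hg),
      mem_centralizer_singleton_iff.2 (by
        rw [← h2, ← h3, hy]
        have := hc.eq
        group)⟩
    refine ⟨⟨⟨s, hs⟩, ConjClasses.mk ⟨_, hcC⟩⟩, ConjClasses.mk_eq_mk_iff_isConj.2 ?_⟩
    obtain ⟨t, ht⟩ := isConj_iff.1 (ConjClasses.mk_eq_mk_iff_isConj.1
      (hr s (ConjClasses.mk ⟨_, hcC⟩)))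
    have ht' : (t : X) * r s (ConjClasses.mk ⟨_, hcC⟩) * (t : X)⁻¹ = g * (k⁻¹ * y * k) * g⁻¹ :=
      congrArg Subtype.val ht
    have hts : (t : X) * s * (t : X)⁻¹ = s := by
      rw [mem_centralizer_singleton_iff.1 t.2.2, mul_inv_cancel_right]
    refine isConj_iff.2 ⟨k * g⁻¹ * t, ?_⟩
    calc _ = k * g⁻¹ * ((t : X) * s * (t : X)⁻¹ *
        ((t : X) * r s (ConjClasses.mk ⟨_, hcC⟩) * (t : X)⁻¹)) * g * k⁻¹ := by group
      _ = x := by
        rw [hts, ht', ← h2, ← h3, hy]
        group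

end Cfsg.Agent.S4956
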