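import Cfsg.Statements.S4957
import Cfsg.Agent.BLK.KT.Main
import Cfsg.Agent.ODD.AbelemRep
import Cfsg.Agent.S4956

set_option autoImplicit false
open Cfsg

namespace Cfsg.Agent.S4957

/-- Let X be a finite group and V a normal subgroup of X in which every element has order dividing the prime p, whose index in X is prime to p and which is its own centralizer in X; so V is an elementary abelian normal Sylow p-subgroup, and any complement G to V in X is a group of order prime to p acting faithfully on the vector space V by conjugation (the coprime linear setting of the k(GV) problem). Suppose a complement G to V in X is transitive by conjugation on the nonidentity elements of V. Then X has at most (order of V) conjugacy classes, and if equality holds then G is cyclic (hence, being transitive, a Singer cycle), or V has order 8 and G has order 21 (the nonabelian group of order 21 inside the simple group of order 168), or V has order 9 and G has order 16 (a semidihedral Sylow 2-subgroup of the 2-dimensional general linear group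 over the field with 3 elements). -/
theorem result {X : Type*} [Group X] [Finite X] (p : ℕ) [Fact p.Prime] (V : Subgroup X) [V.Normal] (hVexp : ∀ v ∈ V, v ^ p = 1) (hidx : ¬ p ∣ V.index) (hself : Subgroup.centralizer (V : Set X) = V) (G : Subgroup X) (hGV : Subgroup.IsComplement' V G) (htrans : ∀ v ∈ V, ∀ w ∈ V, v ≠ 1 → w ≠ 1 → ∃ g ∈ G, g * v * g⁻¹ = w) : Nat.card (ConjClasses X) ≤ Nat.card V ∧ (Nat.card (ConjClasses X) = Nat.card V → (IsCyclic G ∨ (Nat.card V = 8 ∧ Nat.card G = 21) ∨ (Nat.card V = 9 ∧ Nat.card G = 16))) := by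
  classical
  have hab : ∀ a ∈ V, ∀ b ∈ V, a * b = b * a := fun a ha b hb => hself.ge hb a ha
  by_cases hV : V = ⊥
  · subst hV
    have h1 : ∀ x : X, x = 1 := fun x => hself.le fun y hy => by
      rw [show y = 1 from hy, one_mul, mul_one]
    have : Subsingleton X := ⟨fun a b => (h1 a).trans (h1 b).symm⟩
    have h2 : Nat.card (ConjClasses X) ≤ Nat.card X :=
      Nat.card_le_card_of_surjective _ ConjClasses.mk_surjective
    rw [Nat.card_of_subsingleton (1 : X)] at h2
    exact ⟨by rwa [Subgroup.card_bot], fun _ => Or.inl inferInstance⟩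
  have hE : IsElementaryAbelian p V := ⟨⟨⟨fun a b => Subtype.ext (hab a a.2 b b.2)⟩⟩, hVexp⟩
  have := (CL.Abelem.nontrivial_V_iff (hE := hE)).mpr hV
  have hA : G ≤ Subgroup.normalizer (V : Set X) := Subgroup.le_normalizer_of_normal
  have hG : ¬ p ∣ Nat.card G := by rwa [← hGV.symm.index_eq_card]
  have hρ : Function.Injective (CL.Abelem.rep hE hA) := CL.Abelem.rep_injective_iff.mpr (by
    rw [hself]; exact hGV.disjoint.symm.eq_bot)
  have hT : CL.RegLin.Trans (CL.Abelem.rep hE hA) := fun v w hv hw => by
    obtain ⟨g, hg, h⟩ := htrans v.val v.mem w.val w.mem (mt CL.Abelem.V.val_eq_one_iff.mp hv)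
      (mt CL.Abelem.V.val_eq_one_iff.mp hw)
    exact ⟨⟨g, hg⟩, CL.Abelem.V.ext h⟩
  obtain ⟨⟨v, hv⟩, hv1⟩ := Subgroup.ne_bot_iff_exists_ne_one.mp hV
  have hv1' : v ≠ 1 := fun e => hv1 (Subtype.ext e)
  have h1 := Cfsg.Agent.S4956.result V hab G hGV (by
    rw [CL.Abelem.card_eq_pow_finrank (hE := hE)]
    exact Nat.Coprime.pow_left _ ((Nat.Prime.coprime_iff_not_dvd Fact.out).mpr hG)) {1, v}
    (by simp [hv]) fun w hw => by
      by_cases h : w = 1
      · refine ⟨1, ⟨by simp, 1, G.one_mem, by simp [h]⟩, ?_⟩
        rintro s ⟨-, g, -, rfl⟩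
        simp [h]
      · refine ⟨v, ⟨by simp, htrans w hw v hv h hv1'⟩, ?_⟩
        rintro s ⟨hs, g, -, rfl⟩
        exact (by simpa [h] using hs : _ = v)
  rw [Finset.sum_pair hv1'.symm] at h1
  have h2 : G ⊓ Subgroup.centralizer ({1} : Set X) = G :=
    inf_eq_left.mpr fun g _ => Subgroup.mem_centralizer_singleton_iff.mpr (by simp)
  rw [h2] at h1
  have h3 : Nat.card (ConjClasses ↥(G ⊓ Subgroup.centralizer ({v} : Set X))) ≤ _ :=
    Nat.card_le_card_of_surjective _ ConjClasses.mk_surjective
  have h4 : Nat.card G = (Nat.card V - 1) * Nat.card ↥(G ⊓ Subgroup.centralizer ({v} : Set X)) := by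
    let H := (Subgroup.centralizer ({v} : Set X)).subgroupOf G
    have h5 : Nat.card H = Nat.card ↥(G ⊓ Subgroup.centralizer ({v} : Set X)) := by
      rw [inf_comm, ← Nat.card_congr (Subgroup.subgroupOfEquivOfLe inf_le_right).toEquiv,
        Subgroup.inf_subgroupOf_right]
    rw [← H.index_mul_card, h5]
    congr 1
    let f : G ⧸ H → {w : V // w ≠ 1} := Quotient.lift (fun g : G => ⟨⟨g * v * (g : X)⁻¹,
      ‹V.Normal›.conj_mem v hv g⟩, fun e => hv1' (by simpa using congrArg Subtype.val e)⟩)
      fun a b h => Subtype.ext (Subtype.ext (by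
        have : (a : X)⁻¹ * b * v = v * ((a : X)⁻¹ * b) :=
          Subgroup.mem_centralizer_singleton_iff.mp ((QuotientGroup.leftRel_apply (s := H)).mp h)
        change (a : X) * v * (a : X)⁻¹ = b * v * (b : X)⁻¹
        calc _ = a * (v * ((a : X)⁻¹ * b)) * (b : X)⁻¹ := by group
          _ = _ := by rw [← this]; group))
    have hf : Function.Bijective f := by
      constructor
      · rintro ⟨a⟩ ⟨b⟩ h
        have h6 : (a : X) * v * (a : X)⁻¹ = b * v * (b : X)⁻¹ :=
          congrArg (fun u : {w : V // w ≠ 1} => (u.1 : X)) h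
        refine QuotientGroup.eq.mpr (Subgroup.mem_centralizer_singleton_iff.mpr ?_)
        change (a : X)⁻¹ * b * v = v * ((a : X)⁻¹ * b)
        calc _ = (a : X)⁻¹ * (b * v * (b : X)⁻¹) * b := by group
          _ = _ := by rw [← h6]; group
      · rintro ⟨w, hw⟩
        obtain ⟨g, hg, h⟩ := htrans v hv w w.2 hv1' fun e => hw (Subtype.ext e)
        exact ⟨QuotientGroup.mk ⟨g, hg⟩, Subtype.ext (Subtype.ext h)⟩
    rw [Subgroup.index_eq_card, Nat.card_eq_of_bijective f hf]
    have := Fintype.ofFinite V
    simp [Nat.card_eq_fintype_card]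
  have h5 := CL.KT.good hρ hT hG
  rw [CL.Abelem.card_V] at h5
  obtain ⟨h6, h7⟩ := h5 _ h4
  exact ⟨by omega, fun e => h7 (by omega)⟩

end Cfsg.Agent.S4957
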