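import Cfsg.Statements.S4959
import Cfsg.Agent.BLK.RVecB

set_option autoImplicit false
open Cfsg

namespace Cfsg.Agent.S4959

open Subgroup CL.VCh CL.RVec

theorem exists_good {p : ℕ} [Fact p.Prime] {H W : Type*} [Group H] [Finite H] [CommGroup W]
    [Finite W] [Module (ZMod p) (Additive W)] {M : Ideal AlgInt} (hM : IsPModular p M) {n : ℕ}
    (hn0 : n ≠ 0) (hpn : p ∣ n) (hn : Nat.card H ∣ n) (hH : ¬ p ∣ Nat.card H)
    (c : H → W →* W) (h1 : ∀ u, c 1 u = u)
    (h2 : ∀ a b u, c (a * b) u = c a (c b u)) (β : W → W → ZMod p)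
    (hl : ∀ a b w, β (a * b) w = β a w + β b w) (hr : ∀ u a b, β u (a * b) = β u a + β u b)
    (hi : ∀ h a b, β (c h a) (c h b) = β a b) (hnd : ∀ u, (∀ w, β u w = 0) → u = 1) :
    ∃ ψ ∈ VC H, (∀ h, ψ h ∈ Fix n) ∧
      (∀ (σ : ℂ →+* ℂ) h, ‖σ (ψ h)‖ ^ 2 * Nat.card {u // c h u = u} ≤ Nat.card W) ∧ ψ 1 = 1 ∧
      ∀ h, ¬ (∀ u, c h u = u) → CL.Blk.red M (ψ h) = 0 := by
  let ρ : Representation (ZMod p) H (Additive W) :=
    { toFun := fun h => (MonoidHom.toAdditive (c h)).toZModLinearMap p
      map_one' := LinearMap.ext fun _ => Additive.toMul.injective (h1 _)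
      map_mul' := fun a b => LinearMap.ext fun _ => Additive.toMul.injective (h2 a b _) }
  let B : LinearMap.BilinForm (ZMod p) (Additive W) :=
    (AddMonoidHom.mk' (fun u : Additive W => (AddMonoidHom.mk' (fun w : Additive W =>
      β u.toMul w.toMul) fun a b => hr _ _ _).toZModLinearMap p)
      fun a b => LinearMap.ext fun w => hl _ _ _).toZModLinearMap p
  have hnd : B.Nondegenerate := LinearMap.BilinForm.Nondegenerate.ofSeparatingLeft fun u hu =>
    Additive.toMul.injective (hnd _ fun w => hu (.ofMul w))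
  obtain ⟨ψ, hψ⟩ := exists_GR hM hn0 hpn hn hH ρ hnd fun g x y => hi g _ _
  exact ⟨ψ, hψ.mem, hψ.fix, hψ.le, hψ.one, fun h hh => hψ.zero h fun h3 => hh fun u =>
    (h3.ge Submodule.mem_top : Additive.ofMul u ∈ Fx ρ h)⟩

/-- Let X be a finite group and V a normal subgroup of X in which every element has order dividing the prime p, whose index in X is prime to p and which is its own centralizer in X; so V is an elementary abelian normal Sylow p-subgroup, and any complement G to V in X is a group of order prime to p acting faithfully on the vector space V by conjugation (the coprime linear setting of the k(GV) problem). Let G be a complement to V in X, let v be in V and let H be the centralizer of v in G. Suppose there is a subgroup U of V normalized by H, on which H acts faithfully, and carrying an H-invariant bi-additive pairing β with values in the integers modulo p that is nondegenerate on U (equivalently: the restriction of the module V to H has a faithful self-dual submodule; such a v is called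 a real vector for G). Then the number of conjugacy classes of X is at most the order of V (the real-vector criterion for the k(GV) problem). The pairing is given as a function on X whose relevant values are those on pairs from U. -/
theorem result {X : Type*} [Group X] [Finite X] (p : ℕ) [Fact p.Prime] (V : Subgroup X) [V.Normal] (hVexp : ∀ v ∈ V, v ^ p = 1) (hidx : ¬ p ∣ V.index) (hself : Subgroup.centralizer (V : Set X) = V) (G : Subgroup X) (hGV : Subgroup.IsComplement' V G) (v : X) (hv : v ∈ V) (U : Subgroup X) (hUV : U ≤ V) (hUinv : ∀ h ∈ G, h * v * h⁻¹ = v → ∀ u ∈ U, h * u * h⁻¹ ∈ U) (hUfaith : ∀ h ∈ G, h * v * h⁻¹ = v → (∀ u ∈ U, h * u * h⁻¹ = u) → h = 1) (β : X → X → ZMod p) (hβl : ∀ u ∈ U, ∀ u' ∈ U, ∀ w ∈ U, β (u * u') w = β u w + β u' w) (hβr : ∀ u ∈ U, ∀ w ∈ U, ∀ w' ∈ U, β u (w * w') = β u w + β u w') (hβinv : ∀ h ∈ G, h * v * h⁻¹ = v → ∀ u ∈ U, ∀ w ∈ U, β (h * u * h⁻¹) (h * w * h⁻¹) = β u w) (hβnd : ∀ u ∈ U, (∀ w ∈ U, β u w = 0) → u = 1) : Nat.card (ConjClasses X) ≤ Nat.card V := by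
  have hp : p.Prime := Fact.out
  obtain ⟨M, hM⟩ := CL.Glb.exists_isPModular hp
  have hVp : IsPGroup p V := fun x => ⟨1, Subtype.ext (by simpa using hVexp x x.2)⟩
  have habV : ∀ a ∈ V, ∀ b ∈ V, a * b = b * a := fun a ha b hb => (hself.ge hb) a ha
  have hG : ¬ p ∣ Nat.card G := by rwa [← hGV.symm.index_eq_card]
  let H := G ⊓ centralizer ({v} : Set X)
  have hHv : ∀ h : H, (h : X) * v * (h : X)⁻¹ = v := fun h => by
    rw [mem_centralizer_singleton_iff.1 h.2.2, mul_inv_cancel_right]
  let _ : CommGroup U := { (inferInstance : Group U) with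
    mul_comm := fun a b => Subtype.ext (habV a (hUV a.2) b (hUV b.2)) }
  have _ : Module (ZMod p) (Additive U) := AddCommGroup.zmodModule fun w => by
    rw [← ofMul_toMul w, ← ofMul_pow]
    exact congrArg Additive.ofMul (Subtype.ext (hVexp _ (hUV w.toMul.2)))
  let c : H → U →* U := fun h => MonoidHom.mk' (fun u => ⟨h * u * (h : X)⁻¹,
    hUinv h h.2.1 (hHv h) u u.2⟩) fun a b => Subtype.ext (by simp)
  obtain ⟨ψ, hm, hf, hle, h1, h0⟩ := exists_good hM (n := p * Nat.card X)
    (mul_ne_zero hp.ne_zero Nat.card_pos.ne')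
    (dvd_mul_right _ _) (H.card_subgroup_dvd_card.mul_left _)
    (fun h => hG (h.trans (card_dvd_of_le inf_le_left)))
    c (fun u => Subtype.ext (by simp [c]))
    (fun a b u => Subtype.ext (by simp [c, mul_assoc])) (fun a b => β a b)
    (fun a b w => hβl _ a.2 _ b.2 _ w.2) (fun a b w => hβr _ a.2 _ b.2 _ w.2)
    (fun g x y => hβinv g g.2.1 (hHv g) _ x.2 _ y.2)
    fun u hu => Subtype.ext (hβnd _ u.2 fun w hw => hu ⟨w, hw⟩)
  refine knorr hM hVp hidx habV hGV hv hm (mul_ne_zero hp.ne_zero Nat.card_pos.ne')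
    (dvd_mul_left _ _) hf (fun σ h => ?_) (by simp [h1, CL.Blk.red_one])
    fun h hh => h0 h fun h1 => hh (Subtype.ext (hUfaith h h.2.1 (hHv h) fun u hu =>
      congrArg Subtype.val (h1 ⟨u, hu⟩)))
  have h1 := hle σ h
  set C := centralizer ({(h : X)} : Set X)
  have h2 : Nat.card {u // c h u = u} = Nat.card (C.subgroupOf U) := Nat.card_congr
    (Equiv.subtypeEquivRight fun u => by
      rw [mem_subgroupOf, mem_centralizer_singleton_iff, Subtype.ext_iff, eq_comm]
      exact eq_mul_inv_iff_mul_eq)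
  have h3 : C.relIndex U ≤ C.relIndex V := relIndex_le_of_le_right hUV index_ne_zero_of_finite
  have h4 : Nat.card ↥(V ⊓ C) * C.relIndex V = Nat.card V := by
    rw [← (C.subgroupOf V).card_mul_index, ← inf_subgroupOf_left,
      Nat.card_congr (subgroupOfEquivOfLe inf_le_left).toEquiv, inf_subgroupOf_left]
    rfl
  have h5 : Nat.card U = Nat.card (C.subgroupOf U) * C.relIndex U :=
    (C.subgroupOf U).card_mul_index.symm
  rw [h2, h5, Nat.cast_mul, mul_comm] at h1
  have h6 := le_of_mul_le_mul_left h1 (by exact_mod_cast Nat.card_pos)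
  rw [← h4, Nat.cast_mul, mul_comm]
  exact mul_le_mul_of_nonneg_left (h6.trans (by exact_mod_cast h3)) (by positivity)

end Cfsg.Agent.S4959
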