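import Cfsg.Statements.S4960
import Cfsg.Agent.KGV.E2

set_option autoImplicit false
open Cfsg

namespace Cfsg.Agent.S4960

/-- Let X be a finite group and V a normal subgroup of X in which every element has order dividing the prime p, whose index in X is prime to p and which is its own centralizer in X; so V is an elementary abelian normal Sylow p-subgroup, and any complement G to V in X is a group of order prime to p acting faithfully on the vector space V by conjugation (the coprime linear setting of the k(GV) problem). Let G be a complement to V in X acting irreducibly on V (the only normal subgroups of X contained in V are the trivial subgroup and V), and suppose X has exactly (order of V) conjugacy classes. Then for every v in V the centralizer H of v in G satisfies: the order of H is congruent to 1 or to −1 modulo p, and the number of conjugacy classes of H is congruent to the order of H modulo p. (With v = 1 this gives the congruences for G itself.) -/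
theorem result {X : Type*} [Group X] [Finite X] (p : ℕ) [Fact p.Prime] (V : Subgroup X) [V.Normal] (hVexp : ∀ v ∈ V, v ^ p = 1) (hidx : ¬ p ∣ V.index) (hself : Subgroup.centralizer (V : Set X) = V) (G : Subgroup X) (hGV : Subgroup.IsComplement' V G) (hirr : ∀ N : Subgroup X, N.Normal → N ≤ V → N = ⊥ ∨ N = V) (hk : Nat.card (ConjClasses X) = Nat.card V) (v : X) (hv : v ∈ V) : (Nat.ModEq p (Nat.card ↥(G ⊓ Subgroup.centralizer ({v} : Set X))) 1 ∨ Nat.ModEq p (Nat.card ↥(G ⊓ Subgroup.centralizer ({v} : Set X)) + 1) 0) ∧ Nat.ModEq p (Nat.card (ConjClasses ↥(G ⊓ Subgroup.centralizer ({v} : Set X)))) (Nat.card ↥(G ⊓ Subgroup.centralizer ({v} : Set X))) :=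
  CL.KGV.Eq16.main (CL.KGV.E2.ex2 p) V hVexp hidx hself G hGV hk v hv

end Cfsg.Agent.S4960
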