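import Cfsg.Statements.S4964
import Cfsg.Agent.BLK.CoverQuot

set_option autoImplicit false
open Cfsg

namespace Cfsg.Agent.S4964

/-- Let D be a normal p-subgroup of the finite group G, let D′ be its commutator subgroup (normal in G), and fix a maximal ideal M of the algebraic integers containing p. Then (i) two irreducible characters of G ⧸ D′ lie in the same p-block if and only if their inflations to G do, and (ii) every p-block of G contains the inflation of some irreducible character of G ⧸ D′; so inflation induces a bijection between the p-blocks of G ⧸ D′ and the p-blocks of G. -/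
theorem result {G : Type*} [Group G] [Finite G] (p : ℕ) [Fact p.Prime] (M : Ideal Cfsg.AlgInt) (hM : Cfsg.IsPModular p M) (D : Subgroup G) [D.Normal] (hD : IsPGroup p D) : (∀ χ ψ : Cfsg.IrrCharacter (G ⧸ ⁅D, D⁆), Cfsg.SameBlock M (χ : G ⧸ ⁅D, D⁆ → ℂ) (ψ : G ⧸ ⁅D, D⁆ → ℂ) ↔ Cfsg.SameBlock M ((χ : G ⧸ ⁅D, D⁆ → ℂ) ∘ QuotientGroup.mk) ((ψ : G ⧸ ⁅D, D⁆ → ℂ) ∘ QuotientGroup.mk)) ∧ ∀ B : Set (Cfsg.IrrCharacter G), Cfsg.IsPBlock M B → ∃ χ : Cfsg.IrrCharacter (G ⧸ ⁅D, D⁆), ∃ θ ∈ B, (θ : G → ℂ) = (χ : G ⧸ ⁅D, D⁆ → ℂ) ∘ QuotientGroup.mk := by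
  have hle : ⁅D, D⁆ ≤ D := Subgroup.commutator_le_left D D
  have hk : IsPGroup p (QuotientGroup.mk' ⁅D, D⁆).ker := by
    rw [QuotientGroup.ker_mk']; exact hD.to_le hle
  have hf := QuotientGroup.mk'_surjective ⁅D, D⁆
  refine ⟨fun χ ψ => ⟨CL.Blk.sameBlock_infl hM _ hf, fun h => ?_⟩, fun B hB => ?_⟩
  · have : (D.map (QuotientGroup.mk' ⁅D, D⁆)).Normal := Subgroup.Normal.map inferInstance _ hf
    refine CL.Blk.sameBlock_of_infl_of_commute hM hf hk (hD.map (QuotientGroup.mk' ⁅D, D⁆)) (fun x hx hc u hu => ?_) h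
    rw [QuotientGroup.ker_mk'] at hu
    refine CL.Blk.mem_centralizer_of_commutator_mem hM.1 hD hx (fun v hv => ?_) u (hle hu)
    rw [← QuotientGroup.eq_one_iff, ← QuotientGroup.mk'_apply, map_commutatorElement,
      commutatorElement_eq_one_iff_mul_comm]
    exact hc _ ⟨v, hv, rfl⟩
  · obtain ⟨χ, hχ, h⟩ := CL.Blk.exists_mem_block_ker hM hB ⁅D, D⁆ (hD.to_le hle)
    obtain ⟨ψ, hψ, h1⟩ := χ.2.exists_quot _ h
    exact ⟨⟨ψ, hψ⟩, χ, hχ, h1⟩

end Cfsg.Agent.S4964
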