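import Cfsg.Statements.S4965
import Mathlib.GroupTheory.GroupAction.CardCommute
import Mathlib.GroupTheory.SemidirectProduct
import Mathlib.Tactic.Group

set_option autoImplicit false
open Cfsg

namespace Cfsg.Agent.S4965


/-- Let X be a finite group with an abelian normal subgroup V (any two elements of V commute), and let φ be the action of X ⧸ V on V induced by conjugation (well defined because V is abelian; the hypothesis hφ says that the class of x acts as conjugation by x). Then X has at most as many conjugacy classes as the semidirect product of V by X ⧸ V formed with this action: the split extension has the largest class number among extensions with the given action. -/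
theorem result {X : Type*} [Group X] [Finite X] (V : Subgroup X) [V.Normal] (hab : ∀ a ∈ V, ∀ b ∈ V, a * b = b * a) (φ : X ⧸ V →* MulAut ↥V) (hφ : ∀ (x : X) (v : ↥V), ((φ (QuotientGroup.mk x) v : ↥V) : X) = x * v * x⁻¹) : Nat.card (ConjClasses X) ≤ Nat.card (ConjClasses (SemidirectProduct ↥V (X ⧸ V) φ)) := by
  classical
  let Q := X ⧸ V
  let P : Q × Q → Prop := fun q => ∃ p : X × X, Commute p.1 p.2 ∧ (p.1 : Q) = q.1 ∧ (p.2 : Q) = q.2
  let c : Q × Q → X × X := fun q => if h : P q then h.choose else (1, 1)
  have hc : ∀ p : {p : X × X // Commute p.1 p.2}, Commute (c (p.1.1, p.1.2)).1 (c (p.1.1, p.1.2)).2 ∧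
      ((c (p.1.1, p.1.2)).1 : Q) = p.1.1 ∧ ((c (p.1.1, p.1.2)).2 : Q) = p.1.2 := fun p => by
    have h : P (p.1.1, p.1.2) := ⟨p.1, p.2, rfl, rfl⟩
    simp only [c, dif_pos h]
    exact h.choose_spec
  have hm : ∀ {x y : X}, (x : Q) = y → y * x⁻¹ ∈ V := fun {x y} h => by
    have := QuotientGroup.eq.1 h
    exact (inferInstance : V.Normal).mem_comm this
  let f : {p : X × X // Commute p.1 p.2} →
      {p : SemidirectProduct V Q φ × SemidirectProduct V Q φ // Commute p.1 p.2} := fun p =>
    ⟨(⟨⟨p.1.1 * (c (p.1.1, p.1.2)).1⁻¹, hm (hc p).2.1⟩, p.1.1⟩,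
      ⟨⟨p.1.2 * (c (p.1.1, p.1.2)).2⁻¹, hm (hc p).2.2⟩, p.1.2⟩), by
      obtain ⟨h1, h2, h3⟩ := hc p
      obtain ⟨⟨x, y⟩, hxy⟩ := p
      refine SemidirectProduct.ext (Subtype.ext ?_) ?_
      · simp only [SemidirectProduct.mul_left, Subgroup.coe_mul] at h1 h2 h3 ⊢
        have hφ' : ∀ {x y : X}, (x : Q) = y → ∀ v : V, (φ (y : Q) v : X) = x * v * x⁻¹ :=
          fun h v => h ▸ hφ _ v
        rw [hφ' h2, hφ' h3]
        have h4 : x * y = y * x := hxy
        have h5 := h1.inv_inv.eq
        simp only [mul_assoc, inv_mul_cancel_left]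
        rw [← h5, ← mul_assoc, ← mul_assoc y, h4]
      · exact congrArg (QuotientGroup.mk (s := V)) (hxy : x * y = y * x)⟩
  have hf : Function.Injective f := fun p q h => by
    have h1 := congrArg (fun z => z.1.1.right) h
    have h2 := congrArg (fun z => z.1.2.right) h
    have h3 := congrArg (fun z => (z.1.1.left : X)) h
    have h4 := congrArg (fun z => (z.1.2.left : X)) h
    simp only [f] at h1 h2 h3 h4
    rw [h1, h2] at h3 h4
    exact Subtype.ext (Prod.ext (mul_right_cancel h3) (mul_right_cancel h4))
  have hfin : Finite (SemidirectProduct V Q φ) :=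
    Finite.of_equiv _ (SemidirectProduct.equivProd (φ := φ)).symm
  have h := Nat.card_le_card_of_injective f hf
  rw [card_comm_eq_card_conjClasses_mul_card, card_comm_eq_card_conjClasses_mul_card,
    SemidirectProduct.card, mul_comm (Nat.card V),
    ← Subgroup.card_eq_card_quotient_mul_card_subgroup] at h
  exact Nat.le_of_mul_le_mul_right h Nat.card_pos

end Cfsg.Agent.S4965
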