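import Cfsg.Statements.S4967
import Mathlib.RepresentationTheory.Irreducible
import Mathlib.FieldTheory.Finite.GaloisField
import Mathlib.RingTheory.Trace.Basic

set_option autoImplicit false
open Cfsg

namespace Cfsg.Agent.S4967

open Module FiniteField in
theorem exists_frob {F K : Type*} [Field F] [Fintype F] [Field K] [Algebra F K] [Finite K]
    {H : Type*} [CommGroup H] [Finite H] (χ : H →* K) (hinj : Function.Injective χ)
    (hspan : Submodule.span F (Set.range χ) = ⊤) (B : LinearMap.BilinForm F K)
    (hB : B.Nondegenerate) (hBi : ∀ h x y, B (χ h * x) (χ h * y) = B x y) :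
    ∃ i < finrank F K, finrank F K ∣ 2 * i ∧ Nat.card H ∣ Fintype.card F ^ i + 1 ∧
      (i = 0 → Nat.card H ∣ 2 ∧ finrank F K ≤ 1) := by
  have := isCyclic_of_injective_ringHom χ hinj
  obtain ⟨g, hg⟩ := IsCyclic.exists_monoid_generator (α := H)
  have h1 : ∀ h x y, B (χ h * x) y = B x (χ h⁻¹ * y) := fun h x y => by
    rw [← hBi h x, ← mul_assoc, ← map_mul, mul_inv_cancel, map_one, one_mul]
  have h2 : ∀ f : Polynomial F, ∀ x y, B (Polynomial.aeval (χ g) f * x) y =
      B x (Polynomial.aeval (χ g⁻¹) f * y) := fun f x y => by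
    induction f using Polynomial.induction_on' with
    | add p q hp hq => simp [add_mul, hp, hq]
    | monomial n c =>
      simp only [Polynomial.aeval_monomial, ← Algebra.smul_def, smul_mul_assoc, map_smul,
        LinearMap.smul_apply, ← map_pow, h1, inv_pow]
  have h3 : Polynomial.aeval (χ g⁻¹) (minpoly F (χ g)) = 0 := hB.2 _ fun x => by
    rw [← mul_one (Polynomial.aeval _ _), ← h2, minpoly.aeval]; simp
  obtain ⟨σ, hσ⟩ := minpoly.exists_algEquiv_of_root' (Algebra.IsAlgebraic.isAlgebraic _) h3
  obtain ⟨⟨i, hi⟩, rfl⟩ := (bijective_frobeniusAlgEquivOfAlgebraic_pow F K).2 σ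
  have h4 : ∀ h, (frobeniusAlgEquivOfAlgebraic F K ^ i) (χ h) = χ h⁻¹ := fun h => by
    obtain ⟨k, rfl⟩ := hg h
    simp only [map_pow, ← inv_pow]
    exact congrArg (· ^ k) hσ
  have h5 : Nat.card H ∣ Fintype.card F ^ i + 1 := by
    rw [← orderOf_eq_card_of_forall_mem_powers hg, orderOf_dvd_iff_pow_eq_one, pow_succ,
      mul_eq_one_iff_eq_inv]
    refine hinj ?_
    rw [← h4, AlgEquiv.coe_pow, coe_frobeniusAlgEquivOfAlgebraic_iterate, map_pow]
  refine ⟨i, hi, ?_, h5, ?_⟩
  · rw [← orderOf_frobeniusAlgEquivOfAlgebraic, orderOf_dvd_iff_pow_eq_one]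
    refine AlgEquiv.toLinearMap_injective (LinearMap.ext_on_range hspan fun h => ?_)
    simp [two_mul, pow_add, h4]
  · rintro rfl
    refine ⟨by simpa using h5, ?_⟩
    rw [← finrank_top, ← hspan]
    refine (Submodule.finrank_mono (t := Submodule.span F {1}) ?_).trans
      (finrank_span_singleton one_ne_zero).le
    rw [Submodule.span_le]
    rintro _ ⟨h, rfl⟩
    have h6 : χ h * χ h = 1 := by
      nth_rewrite 1 [show χ h = χ h⁻¹ from h4 h]
      rw [← map_mul, inv_mul_cancel, map_one]
    rcases mul_self_eq_one_iff.1 h6 with h7 | h7 <;> rw [h7]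
    · exact Submodule.subset_span rfl
    · exact neg_mem (Submodule.subset_span rfl)

open FiniteField in
theorem exists_form {F K : Type*} [Field F] [Fintype F] [Field K] [Algebra F K] [Finite K]
    {H : Type*} [CommGroup H] (χ : H →* K) {m : ℕ} (hm : Nat.card H ∣ Fintype.card F ^ m + 1) :
    ∃ B : LinearMap.BilinForm F K, B.Nondegenerate ∧ ∀ h x y, B (χ h * x) (χ h * y) = B x y := by
  set σ := frobeniusAlgEquivOfAlgebraic F K ^ m
  have hT := traceForm_nondegenerate F K
  refine ⟨(Algebra.traceForm F K).comp LinearMap.id σ.toLinearMap, ⟨fun x hx => hT.1 x fun y => ?_,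
    fun y hy => σ.injective ((hT.2 _ hy).trans (map_zero σ).symm)⟩, fun h x y => ?_⟩
  · simpa using hx (σ.symm y)
  · have : χ h * σ (χ h) = 1 := by
      rw [AlgEquiv.coe_pow, coe_frobeniusAlgEquivOfAlgebraic_iterate, ← pow_succ', ← map_pow,
        orderOf_dvd_iff_pow_eq_one.1 ((orderOf_dvd_natCard h).trans hm), map_one]
    simp only [LinearMap.BilinForm.comp_apply, LinearMap.id_apply, AlgEquiv.toLinearMap_apply,
      map_mul, Algebra.traceForm_apply]
    rw [mul_mul_mul_comm, this, one_mul]


/-- Let F be a finite field with r elements and of characteristic p, H a finite abelian group of order prime to p, and V a faithful irreducible representation of H over F of dimension n (faithful: distinct elements act differently; irreducible: the only H-invariant subspaces are 0 and V). Call V self-dual when it carries a nondegenerate H-invariant bilinear form. If n = 1 and V is self-dual then H has order at most 2. If n ≥ 2 then V is self-dual if and only if n is even and the order of H divides r^(n/2) + 1. -/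
theorem result {F : Type*} [Field F] [Fintype F] (p : ℕ) [Fact p.Prime] [CharP F p] {H : Type*} [CommGroup H] [Finite H] (hcop : ¬ p ∣ Nat.card H) {V : Type*} [AddCommGroup V] [Module F V] [FiniteDimensional F V] (ρ : Representation F H V) (hfaith : Function.Injective ρ) (hirr : ∀ U : Submodule F V, (∀ h : H, ∀ u ∈ U, ρ h u ∈ U) → U = ⊥ ∨ U = ⊤) : (Module.finrank F V = 1 → (∃ B : LinearMap.BilinForm F V, B.Nondegenerate ∧ ∀ h : H, ∀ x y : V, B (ρ h x) (ρ h y) = B x y) → Nat.card H ≤ 2) ∧ (2 ≤ Module.finrank F V → ((∃ B : LinearMap.BilinForm F V, B.Nondegenerate ∧ ∀ h : H, ∀ x y : V, B (ρ h x) (ρ h y) = B x y) ↔ (Even (Module.finrank F V) ∧ Nat.card H ∣ Fintype.card F ^ (Module.finrank F V / 2) + 1))) := by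
  rcases subsingleton_or_nontrivial V with hV | hV
  · rw [Module.finrank_zero_of_subsingleton]
    exact ⟨fun h => absurd h (by decide), fun h => absurd h (by decide)⟩
  have : Nontrivial (Subrepresentation ρ) := ⟨⊥, ⊤, fun h => bot_ne_top (α := Submodule F V)
    (congrArg Subrepresentation.toSubmodule h)⟩
  have : ρ.IsIrreducible := ⟨fun U => (hirr U.1 U.2).imp
    (fun h => Subrepresentation.toSubmodule_injective h)
    (fun h => Subrepresentation.toSubmodule_injective h)⟩
  obtain ⟨I, hI, ⟨e₀⟩⟩ := isSimpleModule_iff_quot_maximal.1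
    (inferInstance : IsSimpleModule (MonoidAlgebra F H) ρ.asModule)
  let _ := Ideal.Quotient.field I
  let e : V ≃ₗ[F] MonoidAlgebra F H ⧸ I := ρ.asModuleEquiv.symm.trans (e₀.restrictScalars F)
  let χ : H →* MonoidAlgebra F H ⧸ I := (Ideal.Quotient.mk I).toMonoidHom.comp (MonoidAlgebra.of F H)
  have he : ∀ h x, e (ρ h x) = χ h * e x := fun h x => by
    show e₀ (ρ.asModuleEquiv.symm (ρ h x)) = _
    rw [Representation.asModuleEquiv_symm_map_rho, map_smul]
    rfl
  have he' : ∀ h x, e.symm (χ h * x) = ρ h (e.symm x) := fun h x => by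
    rw [e.symm_apply_eq, he, e.apply_symm_apply]
  have hinj : Function.Injective χ := fun a b hab => hfaith (LinearMap.ext fun x =>
    e.injective (by rw [he, he, hab]))
  have hspan : Submodule.span F (Set.range χ) = ⊤ := by
    rw [eq_top_iff]
    rintro x -
    obtain ⟨x, rfl⟩ := Ideal.Quotient.mk_surjective x
    induction x using MonoidAlgebra.induction_on with
    | of m => exact Submodule.subset_span ⟨m, rfl⟩
    | add f g hf hg => rw [map_add]; exact add_mem hf hg
    | smul r f hf => exact Submodule.smul_mem _ r hf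
  have : Finite V := Module.finite_of_finite F
  have : Finite (MonoidAlgebra F H ⧸ I) := Finite.of_equiv V e.toEquiv
  have key : ∀ B : LinearMap.BilinForm F V, B.Nondegenerate →
      (∀ h x y, B (ρ h x) (ρ h y) = B x y) → _ := fun B hB hBi =>
    exists_frob χ hinj hspan (LinearMap.BilinForm.congr e B) (hB.congr e) fun h x y => by
      simp [he', hBi]
  rw [← e.finrank_eq] at key
  refine ⟨fun hn ⟨B, hB, hBi⟩ => ?_, fun hn => ⟨fun ⟨B, hB, hBi⟩ => ?_, fun h => ?_⟩⟩
  · obtain ⟨i, hi, -, -, h⟩ := key B hB hBi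
    exact Nat.le_of_dvd two_pos (h (by omega)).1
  · obtain ⟨i, hi, ⟨k, hk⟩, h1, h2⟩ := key B hB hBi
    have hi0 : i ≠ 0 := fun h => by have := (h2 h).2; omega
    have hk1 : k = 1 := by
      rcases k with _ | _ | k
      · omega
      · rfl
      · nlinarith
    subst hk1
    rw [mul_one] at hk
    rw [← hk, Nat.mul_div_cancel_left _ two_pos]
    exact ⟨even_two_mul i, h1⟩
  · obtain ⟨B, hB, hBi⟩ := exists_form χ h.2
    exact ⟨LinearMap.BilinForm.congr e.symm B, hB.congr e.symm, fun h x y => by simp [he, hBi]⟩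

end Cfsg.Agent.S4967
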