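import Cfsg.Statements.S4968
import Cfsg.Agent.S4954
import Cfsg.Agent.S4957

set_option autoImplicit false
open Cfsg

namespace Cfsg.Agent.S4968

/-- Let X be a finite group and V a normal subgroup of X in which every element has order dividing the prime p, whose index in X is prime to p and which is its own centralizer in X; so V is an elementary abelian normal Sylow p-subgroup, and any complement G to V in X is a group of order prime to p acting faithfully on the vector space V by conjugation (the coprime linear setting of the k(GV) problem). Suppose V is nontrivial and G is a complement to V in X. Then G has at most (order of V) − 1 conjugacy classes, and equality holds if and only if G is cyclic and transitive by conjugation on the nonidentity elements of V (that is, G is a Singer cycle: the multiplicative group of a field structure on V). -/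
theorem result {X : Type*} [Group X] [Finite X] (p : ℕ) [Fact p.Prime] (V : Subgroup X) [V.Normal] (hVexp : ∀ v ∈ V, v ^ p = 1) (hidx : ¬ p ∣ V.index) (hself : Subgroup.centralizer (V : Set X) = V) (hV : V ≠ ⊥) (G : Subgroup X) (hGV : Subgroup.IsComplement' V G) : Nat.card (ConjClasses G) ≤ Nat.card V - 1 ∧ (Nat.card (ConjClasses G) = Nat.card V - 1 ↔ (IsCyclic G ∧ ∀ v ∈ V, ∀ w ∈ V, v ≠ 1 → w ≠ 1 → ∃ g ∈ G, g * v * g⁻¹ = w)) := by
  classical
  have hab : ∀ a ∈ V, ∀ b ∈ V, a * b = b * a := fun a ha b hb => hself.ge hb a ha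
  have hG : ¬ p ∣ Nat.card G := by rwa [← hGV.symm.index_eq_card]
  have hVp : IsPGroup p V := fun x => ⟨1, Subtype.ext (by simpa using hVexp x x.2)⟩
  have hcop : (Nat.card V).Coprime (Nat.card G) := by
    obtain ⟨k, hk⟩ := IsPGroup.iff_card.mp hVp
    rw [hk]
    exact Nat.Coprime.pow_left _ ((Nat.Prime.coprime_iff_not_dvd Fact.out).mpr hG)
  have hX := Cfsg.Agent.S4954.result p V hVexp hidx hself
  let r : Setoid X := ⟨fun a b => ∃ g ∈ G, g * a * g⁻¹ = b,
    fun a => ⟨1, G.one_mem, by simp⟩,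
    fun ⟨g, hg, h⟩ => ⟨g⁻¹, G.inv_mem hg, by rw [← h]; group⟩,
    fun ⟨g, hg, h⟩ ⟨g', hg', h'⟩ => ⟨g' * g, G.mul_mem hg' hg, by rw [← h', ← h]; group⟩⟩
  have := Fintype.ofFinite X
  let o : X → X := fun a => (Quotient.mk r a).out
  have ho : ∀ a, r a (o a) := fun a => r.symm (Quotient.mk_out a)
  have ho2 : ∀ a b, r a b → o a = o b := fun a b h => by
    simp only [o, Quotient.sound h]
  let S : Finset X := (Finset.univ.filter (· ∈ V)).image o
  have hoV : ∀ a ∈ V, o a ∈ V := fun a ha => by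
    obtain ⟨g, -, h⟩ := ho a
    rw [← h]; exact ‹V.Normal›.conj_mem a ha g
  have hmem : ∀ a ∈ V, o a ∈ S := fun a ha => Finset.mem_image.2 ⟨a, by simpa using ha, rfl⟩
  have hS : ∀ s ∈ S, ∃ a ∈ V, o a = s := fun s hs => by
    obtain ⟨a, ha, h⟩ := Finset.mem_image.1 hs
    exact ⟨a, by simpa using ha, h⟩
  have h1 := Cfsg.Agent.S4956.result V hab G hGV hcop S
    (fun s hs => by obtain ⟨a, ha, rfl⟩ := hS s hs; exact hoV a ha) fun v hv =>
    ⟨o v, ⟨hmem v hv, ho v⟩, by
      rintro s ⟨hs, h⟩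
      obtain ⟨a, ha, rfl⟩ := hS s hs
      exact (ho2 _ _ (r.trans h (r.symm (ho a)))).symm⟩
  have ho1 : ∀ a, o a = 1 ↔ a = 1 := fun a => by
    obtain ⟨g, -, h⟩ := ho a
    rw [← h]; simp
  have h1S : (1 : X) ∈ S := (ho1 1).2 rfl ▸ hmem 1 V.one_mem
  rw [← Finset.add_sum_erase _ _ h1S] at h1
  have h2 : G ⊓ Subgroup.centralizer ({1} : Set X) = G :=
    inf_eq_left.mpr fun g _ => Subgroup.mem_centralizer_singleton_iff.mpr (by simp)
  rw [h2] at h1
  have hpos : ∀ K : Subgroup X, 1 ≤ Nat.card (ConjClasses K) := fun K => Nat.card_pos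
  have herase : ∀ a ∈ V, a ≠ 1 → o a ∈ S.erase 1 := fun a ha h =>
    Finset.mem_erase.2 ⟨fun e => h ((ho1 a).1 e), hmem a ha⟩
  obtain ⟨⟨v, hv⟩, hv1⟩ := Subgroup.ne_bot_iff_exists_ne_one.mp hV
  have hv1' : v ≠ 1 := fun e => hv1 (Subtype.ext e)
  have h3 := Finset.single_le_sum (f := fun s =>
    Nat.card (ConjClasses ↥(G ⊓ Subgroup.centralizer ({s} : Set X)))) (fun _ _ => Nat.zero_le _)
    (herase v hv hv1')
  have h4 := hpos (G ⊓ Subgroup.centralizer ({o v} : Set X))
  -- orbit map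
  have hinj : ∀ u, ∀ hu : u ∈ V, ∀ hu1 : u ≠ 1, (∀ g ∈ G, g * u * g⁻¹ = u → g = 1) →
      Function.Injective (fun g : G => (⟨⟨g * u * (g : X)⁻¹, ‹V.Normal›.conj_mem u hu g⟩,
        fun e => hu1 (by simpa using congrArg Subtype.val e)⟩ : {w : V // w ≠ 1})) := by
    intro u hu hu1 hst a b h
    have h6 : (a : X) * u * (a : X)⁻¹ = b * u * (b : X)⁻¹ :=
      congrArg (fun u : {w : V // w ≠ 1} => (u.1 : X)) h
    have h7 := hst ((b : X)⁻¹ * a) (G.mul_mem (G.inv_mem b.2) a.2) (by
      calc _ = (b : X)⁻¹ * (a * u * (a : X)⁻¹) * b := by group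
        _ = _ := by rw [h6]; group)
    exact Subtype.ext (inv_mul_eq_one.1 h7).symm
  have hcard : Nat.card {w : V // w ≠ 1} = Nat.card V - 1 := by
    simp [Nat.card_eq_fintype_card]
  refine ⟨by omega, fun e => ?_, fun ⟨hc, ht⟩ => ?_⟩
  · have h5 : ∑ s ∈ S.erase 1,
        Nat.card (ConjClasses ↥(G ⊓ Subgroup.centralizer ({s} : Set X))) ≤ 1 := by omega
    have ht : ∀ v ∈ V, ∀ w ∈ V, v ≠ 1 → w ≠ 1 → ∃ g ∈ G, g * v * g⁻¹ = w := by
      intro a ha b hb ha1 hb1
      have h6 : (S.erase 1).card ≤ 1 := by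
        rw [Finset.card_eq_sum_ones]
        exact (Finset.sum_le_sum fun s _ => hpos _).trans h5
      have h7 := Finset.card_le_one.1 h6 _ (herase a ha ha1) _ (herase b hb hb1)
      exact r.trans (ho a) (h7 ▸ r.symm (ho b))
    refine ⟨?_, ht⟩
    have h6 : Nat.card (ConjClasses ↥(G ⊓ Subgroup.centralizer ({o v} : Set X))) ≤ 1 := by omega
    have h7 : Subsingleton (ConjClasses ↥(G ⊓ Subgroup.centralizer ({o v} : Set X))) :=
      Finite.card_le_one_iff_subsingleton.1 h6
    have h8 := Nat.card_le_card_of_injective _ (hinj (o v) (hoV v hv)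
      (fun e => hv1' ((ho1 v).1 e)) fun g hg h => by
        have h9 : ConjClasses.mk (1 : ↥(G ⊓ Subgroup.centralizer ({o v} : Set X))) =
            ConjClasses.mk ⟨g, hg, Subgroup.mem_centralizer_singleton_iff.2
              (mul_inv_eq_iff_eq_mul.1 h)⟩ := Subsingleton.elim _ _
        exact congrArg Subtype.val (isConj_one_right.1 (ConjClasses.mk_eq_mk_iff_isConj.1 h9)))
    rw [hcard] at h8
    rcases (Cfsg.Agent.S4957.result p V hVexp hidx hself G hGV ht).2 (by omega) with h | h | h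
    · exact h
    · omega
    · omega
  · have hcm : ∀ a ∈ G, ∀ b ∈ G, a * b = b * a := fun a ha b hb =>
      congrArg Subtype.val (IsCyclic.commGroup.mul_comm (⟨a, ha⟩ : G) ⟨b, hb⟩)
    have h5 : Nat.card G = Nat.card V - 1 := by
      rw [← hcard]
      refine Nat.card_eq_of_bijective _ ⟨hinj v hv hv1' fun g hg h => ?_, ?_⟩
      · refine Subgroup.disjoint_def.1 hGV.disjoint (hself.le fun w hw => ?_) hg
        by_cases hw1 : w = 1
        · simp [hw1]
        obtain ⟨k, hk, rfl⟩ := ht v hv w hw hv1' hw1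
        have h6 : g * v = v * g := mul_inv_eq_iff_eq_mul.1 h
        calc k * v * k⁻¹ * g = k * (v * g) * k⁻¹ := by
              rw [mul_assoc, hcm _ (G.inv_mem hk) g hg]; group
          _ = g * (k * v * k⁻¹) := by rw [← h6, ← mul_assoc, hcm k hk g hg]; group
      · rintro ⟨w, hw⟩
        obtain ⟨g, hg, h⟩ := ht v hv w w.2 hv1' fun e => hw (Subtype.ext e)
        exact ⟨⟨g, hg⟩, Subtype.ext (Subtype.ext h)⟩
    rw [← h5]
    refine (Nat.card_eq_of_bijective ConjClasses.mk ⟨fun a b h => ?_,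
      ConjClasses.mk_surjective⟩).symm
    obtain ⟨c, hc⟩ := isConj_iff.1 (ConjClasses.mk_eq_mk_iff_isConj.1 h)
    rw [← hc]
    exact Subtype.ext (by
      change (a : X) = c * a * (c : X)⁻¹
      rw [hcm _ c.2 _ a.2, mul_inv_cancel_right])

end Cfsg.Agent.S4968
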