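import Cfsg.Statements.S5008
import Cfsg.Agent.BLK.Princ
import Cfsg.Agent.BLK.GRoots
import Cfsg.Agent.CHAR.Galois

set_option autoImplicit false
open Cfsg

namespace Cfsg.Agent.S5008

/-- The characters of the principal block do not vanish on classes of size prime to `p`. -/
theorem dvd_of_zero {G : Type*} [Group G] [Finite G] {p : ℕ} {M : Ideal AlgInt}
    (hM : IsPModular p M) {χ : IrrCharacter G} (hχ : χ ∈ principalBlock M G) {g : G}
    (hg : (χ : G → ℂ) g = 0) : p ∣ (Subgroup.centralizer ({g} : Set G)).index := by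
  have h1 := (CL.Blk.mem_principal_iff_centralChar hM).1 hχ g
  rw [centralChar, hg, mul_zero, zero_div, zero_sub] at h1
  have h2 : ((Subgroup.centralizer ({g} : Set G)).index : ℂ) ∈ (CL.Blk.V M).nonunits := by
    have := neg_mem h1
    rwa [neg_neg] at this
  exact (CL.Blk.natCast_mem_nonunits_iff hM _).1 h2

/-- Let `G` be a finite group and `p` a prime dividing the size of no vanishing conjugacy class of `G` (a class of an element on which some irreducible complex character takes the value zero). Then `G` has a normal `p`-complement and abelian Sylow `p`-subgroups. The known proof uses the classification of finite simple groups. -/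
theorem result {G : Type*} [Group G] [Finite G] (p : ℕ) [Fact p.Prime]
    (h : ∀ x : G, (∃ χ : Cfsg.IrrCharacter G, (χ : G → ℂ) x = 0) → ¬ p ∣ (Subgroup.centralizer ({x} : Set G)).index) :
    Cfsg.HasNormalPComplement p G ∧ ∀ P : Sylow p G, IsMulCommutative (P : Subgroup G) := by
  have hp : p.Prime := Fact.out
  obtain ⟨M, hM⟩ := CL.Glb.exists_isPModular hp
  have hK : commutator G ≤ CL.Blk.blockKerSub (principalBlock M G) := by
    refine le_iInf₂ fun χ hχ => ?_
    rw [χ.2.commutator_le_charKer_iff]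
    by_contra h1
    obtain ⟨g, hg⟩ := χ.2.exists_apply_eq_zero h1
    exact h g ⟨χ, hg⟩ (dvd_of_zero hM hχ hg)
  have hnd : ¬ p ∣ Nat.card (CL.Blk.blockKerSub (principalBlock M G)) :=
    CL.Blk.not_dvd_card_blockKerSub hM CL.Blk.isPBlock_principalBlock
  have key : ∀ (P : Sylow p G) (a b : G), a * b * a⁻¹ * b⁻¹ ∈ (P : Subgroup G) → a * b = b * a := by
    intro P a b hab
    have h1 : a * b * a⁻¹ * b⁻¹ ∈ CL.Blk.blockKerSub (principalBlock M G) :=
      hK (Subgroup.commutator_mem_commutator (Subgroup.mem_top a) (Subgroup.mem_top b))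
    obtain ⟨k, hk⟩ := P.2 ⟨_, hab⟩
    have h2 : (a * b * a⁻¹ * b⁻¹) ^ p ^ k = 1 := by
      simpa using congrArg Subtype.val hk
    have h3 : orderOf (a * b * a⁻¹ * b⁻¹) ∣ p ^ k := orderOf_dvd_of_pow_eq_one h2
    have h4 : orderOf (a * b * a⁻¹ * b⁻¹) ∣ Nat.card (CL.Blk.blockKerSub (principalBlock M G)) :=
      Subgroup.orderOf_dvd_natCard _ h1
    have h5 : (p ^ k).Coprime (Nat.card (CL.Blk.blockKerSub (principalBlock M G))) :=
      Nat.Coprime.pow_left _ ((Nat.Prime.coprime_iff_not_dvd hp).2 hnd)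
    have h6 : orderOf (a * b * a⁻¹ * b⁻¹) = 1 := Nat.eq_one_of_dvd_coprimes h5 h3 h4
    rw [orderOf_eq_one_iff] at h6
    calc a * b = a * b * a⁻¹ * b⁻¹ * (b * a) := by group
      _ = b * a := by rw [h6, one_mul]
  refine ⟨?_, fun P => ⟨⟨fun a b => Subtype.ext (key P a b ?_)⟩⟩⟩
  · obtain ⟨P⟩ : Nonempty (Sylow p G) := inferInstance
    have hP : Subgroup.normalizer (P : Set G) ≤ Subgroup.centralizer (P : Set G) := by
      intro n hn
      rw [Subgroup.mem_centralizer_iff]
      intro x hx
      refine (key P n x ?_).symm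
      exact (P : Subgroup G).mul_mem ((Subgroup.mem_normalizer_iff.1 hn x).1 hx)
        ((P : Subgroup G).inv_mem hx)
    exact ⟨P, _, inferInstance, MonoidHom.ker_transferSylow_isComplement' P hP⟩
  · exact (P : Subgroup G).mul_mem ((P : Subgroup G).mul_mem ((P : Subgroup G).mul_mem a.2 b.2)
      ((P : Subgroup G).inv_mem a.2)) ((P : Subgroup G).inv_mem b.2)

end Cfsg.Agent.S5008
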