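import Cfsg.Statements.S5010
import Cfsg.Agent.ORD.SDeg1
import Cfsg.Agent.SOLV.Supersolvable

set_option autoImplicit false
open Cfsg

namespace Cfsg.Agent.S5010

open CL CL.Ord CL.SDeg CL.Char
open scoped commutatorElement

theorem nilp {N : Type*} [Group N] [Finite N] [Group.IsNilpotent N]
    (h : ∀ d ∈ charDegrees N, Squarefree d) : ⁅commutator N, commutator N⁆ = ⊥ := by
  rw [← Subgroup.card_eq_one]
  by_contra h1
  obtain ⟨p, hp, hd⟩ := Nat.exists_prime_and_dvd h1
  have : Fact p.Prime := ⟨hp⟩
  have hP : IsPGroup p (N ⧸ pPrimeCore p N) := isPGroup_quot_pPrimeCore fun g => ⟨0, by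
    rw [fittingSubgroup_eq_top_iff.2 inferInstance]; trivial⟩
  have h2 := commutator_commutator_eq_bot_of_two (G := N ⧸ pPrimeCore p N) (m := p) fun χ hχ => by
    obtain ⟨k, hk⟩ := IsPGroup.iff_card.1 hP
    obtain ⟨j, -, hj⟩ := (Nat.dvd_prime_pow hp).1 (hk ▸ hχ.charDegree_dvd_card)
    have h3 := h _ (charDegrees_quotient_subset _ (mem_charDegrees hχ))
    rw [hj] at h3 ⊢
    rcases j with _ | _ | j
    · simp
    · simp
    · exact absurd (h3 p ⟨p ^ j, by ring⟩) hp.prime.not_unit
  have hs := QuotientGroup.mk'_surjective (pPrimeCore p N)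
  rw [← map_commutator_eq _ hs, ← Subgroup.map_commutator, Subgroup.map_eq_bot_iff,
    QuotientGroup.ker_mk'] at h2
  exact hp.one_lt.ne' (Nat.eq_one_of_dvd_coprimes (coprime_card_pPrimeCore p N)
    (hd.trans (Subgroup.card_dvd_of_le h2)) dvd_rfl)

/-- Let `G` be a finite solvable group. If every irreducible complex character degree of `G` is squarefree (1 included), then the derived length of `G` is at most 4. -/
theorem result {G : Type*} [Group G] [Finite G] [Group.IsSolvable G]
    (h : ∀ χ : Cfsg.IrrCharacter G, Squarefree (Cfsg.charDegree (χ : G → ℂ))) : derivedSeries G 4 = ⊥ := by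
  have hd : ∀ d ∈ charDegrees G, Squarefree d := by
    rintro _ ⟨χ, rfl⟩
    exact h χ
  have hFn := fittingSubgroup_normal G
  set F := fittingSubgroup G with hF
  have hs := QuotientGroup.mk'_surjective F
  have hsq : Squarefree (Nat.card (fittingSubgroup (G ⧸ F))) := by
    rw [Nat.squarefree_iff_prime_squarefree]
    intro q hq hdv
    have : Fact q.Prime := ⟨hq⟩
    obtain ⟨B, hB⟩ := Sylow.exists_subgroup_card_pow_prime (G := fittingSubgroup (G ⧸ F)) q
      (n := 2) (by rwa [sq])
    have := isNilpotent_fittingSubgroup (G ⧸ F)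
    have hsub : (B.map (fittingSubgroup (G ⧸ F)).subtype).IsSubnormal :=
      Subgroup.IsSubnormal.trans' (isSubnormal_of_isNilpotent B)
        (fittingSubgroup_normal _).isSubnormal
    set B' := B.map (fittingSubgroup (G ⧸ F)).subtype
    have hB' : Nat.card B' = q ^ 2 := by
      rw [Subgroup.card_map_of_injective (Subgroup.subtype_injective _), hB]
    have hc := IsPGroup.isMulCommutative_of_card_eq_prime_sq hB'
    obtain ⟨e, he, hqe⟩ := exists_dvd_of_subnormal_top (q := q) (k := 2)
      (hsub.comap (QuotientGroup.mk' F))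
      (by
        rw [Subgroup.commutator_le]
        intro a ha b hb
        rw [← hF, ← QuotientGroup.eq_one_iff]
        change QuotientGroup.mk' F ⁅a, b⁆ = 1
        rw [map_commutatorElement, commutatorElement_eq_one_iff_mul_comm]
        exact congrArg Subtype.val (hc.is_comm.comm (⟨_, ha⟩ : B') ⟨_, hb⟩))
      (by
        rw [← hB', ← hF]
        have e := Subgroup.relIndex_comap (⊥ : Subgroup (G ⧸ F)) (QuotientGroup.mk' F)
          (B'.comap (QuotientGroup.mk' F))
        rwa [MonoidHom.comap_bot, QuotientGroup.ker_mk',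
          Subgroup.map_comap_eq_self_of_surjective hs, Subgroup.relIndex_bot_left] at e)
    exact hq.prime.not_unit (hd e he q (sq q ▸ hqe))
  have hcyc : IsCyclic (fittingSubgroup (G ⧸ F)) := by
    have := isNilpotent_fittingSubgroup (G ⧸ F)
    have := IsZGroup.of_squarefree hsq
    infer_instance
  have := fittingSubgroup_normal (G ⧸ F)
  have h1 : commutator (G ⧸ F) ≤ fittingSubgroup (G ⧸ F) :=
    (commutator_le_centralizer_of_cyclic_normal _).trans (centralizer_fittingSubgroup_le _)
  have h2 : ⁅commutator G, commutator G⁆ ≤ F := by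
    rw [← QuotientGroup.ker_mk' F, ← Subgroup.map_eq_bot_iff, Subgroup.map_commutator,
      map_commutator_eq _ hs, Subgroup.commutator_eq_bot_iff_le_centralizer]
    exact (commutator_le_centralizer_of_cyclic_normal _).trans (Subgroup.centralizer_le h1)
  have := isNilpotent_fittingSubgroup G
  have h3 := nilp (N := F) fun d hdF => by
    obtain ⟨e, he, hde⟩ := exists_dvd_of_isSubnormal hFn.isSubnormal d hdF
    exact (hd e he).squarefree_of_dvd hde
  have h4 : ⁅⁅F, F⁆, ⁅F, F⁆⁆ = ⊥ := by
    rw [← Subgroup.map_subtype_commutator F, ← Subgroup.map_commutator, h3, Subgroup.map_bot]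
  rw [eq_bot_iff, ← h4]
  exact Subgroup.commutator_mono (Subgroup.commutator_mono h2 h2) (Subgroup.commutator_mono h2 h2)

end Cfsg.Agent.S5010
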