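import Cfsg.Statements.S5015
import Cfsg.Agent.CHEV.RankOne

set_option autoImplicit false
open Cfsg

namespace Cfsg.Agent.S5015

open CL.RankOne

/-- Let a group Y act doubly transitively on a set Ω with at least three points, and suppose that the stabilizer of a point α contains a nilpotent subgroup A, normalized by that stabilizer, which acts regularly on the points other than α. Then for any y in Y moving α, the subgroups A and y A y⁻¹ are the unipotent subgroups of a rank one group, and the normal closure of A in Y (the subgroup generated by all conjugates of A) is generated by A and y A y⁻¹ alone. -/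
theorem result {Y Ω : Type*} [Group Y] [MulAction Y Ω]
    (h2 : MulAction.IsMultiplyPretransitive Y Ω 2) (hΩ : 3 ≤ ENat.card Ω) (α : Ω) (A : Subgroup Y)
    (hA : A ≤ MulAction.stabilizer Y α) (hAn : ∀ y ∈ MulAction.stabilizer Y α, Cfsg.conjBy A y = A)
    (hnil : Group.IsNilpotent A) (hreg : ∀ β γ : Ω, β ≠ α → γ ≠ α → ∃! a : Y, a ∈ A ∧ a • β = γ)
    (y : Y) (hy : y ∉ MulAction.stabilizer Y α) :
    Cfsg.IsRankOnePair A (Cfsg.conjBy A y) ∧ Subgroup.normalClosure (A : Set Y) = A ⊔ Cfsg.conjBy A y := by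
  classical
  -- conjugates of `A` depend only on the image of `α`
  have hconj : ∀ g g' : Y, g • α = g' • α → conjBy A g = conjBy A g' := by
    intro g g' e
    have h1 : g'⁻¹ * g ∈ MulAction.stabilizer Y α := by
      rw [MulAction.mem_stabilizer_iff, mul_smul, e, inv_smul_smul]
    have : g = g' * (g'⁻¹ * g) := by group
    rw [this, ← conjBy_conjBy, hAn _ h1]
  have hfix : ∀ g : Y, ∀ b ∈ conjBy A g, b • g • α = g • α := by
    intro g b hb
    have := hA (mem_conjBy.1 hb)
    rw [MulAction.mem_stabilizer_iff, mul_smul, mul_smul, inv_smul_eq_iff] at this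
    exact this
  have hreg' : ∀ g : Y, ∀ β γ : Ω, β ≠ g • α → γ ≠ g • α → ∃! b : Y, b ∈ conjBy A g ∧ b • β = γ := by
    intro g β γ hβ hγ
    obtain ⟨a, ⟨ha, e⟩, hu⟩ := hreg (g⁻¹ • β) (g⁻¹ • γ) (fun e => hβ (by rw [← e, smul_inv_smul]))
      (fun e => hγ (by rw [← e, smul_inv_smul]))
    refine ⟨g * a * g⁻¹, ⟨conj_mem_conjBy ha g, by rw [mul_smul, mul_smul, e, smul_inv_smul]⟩, ?_⟩
    rintro b ⟨hb, e'⟩
    rw [← hu (g⁻¹ * b * g) ⟨mem_conjBy.1 hb, by rw [mul_smul, mul_smul, smul_inv_smul, e']⟩]
    group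
  have hcond : ∀ g g' : Y, g • α ≠ g' • α → RankOneCondition (conjBy A g) (conjBy A g') := by
    intro g g' hne a ha ha1
    have h1 : a⁻¹ • g' • α ≠ g' • α := by
      intro e
      obtain ⟨c, -, hu⟩ := hreg' g (g' • α) (g' • α) hne.symm hne.symm
      apply ha1
      rw [← inv_eq_one, hu a⁻¹ ⟨inv_mem ha, e⟩, hu 1 ⟨one_mem _, one_smul _ _⟩]
    obtain ⟨b, ⟨hb, e⟩, -⟩ := hreg' g' (g • α) (a⁻¹ • g' • α) hne h1
    refine ⟨b⁻¹, inv_mem hb, ?_, ?_⟩
    · rw [inv_ne_one]
      rintro rfl
      rw [one_smul, eq_inv_smul_iff, hfix g a ha] at e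
      exact hne e
    · rw [inv_inv, conjBy_conjBy, conjBy_conjBy]
      apply hconj
      rw [mul_smul, mul_smul, e]
  have hy' : (1 : Y) • α ≠ y • α := by
    rw [one_smul]; exact fun e => hy e.symm
  have hy'' : α ≠ y • α := by simpa using hy'
  have hne : A ≠ conjBy A y := by
    intro e
    obtain ⟨γ, h1, h2⟩ : ∃ γ : Ω, γ ≠ α ∧ γ ≠ y • α := by
      by_contra hcon
      push Not at hcon
      have : (Set.univ : Set Ω) ⊆ {α, y • α} := by
        intro γ _
        by_cases h : γ = α
        · exact Or.inl h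
        · exact Or.inr (hcon γ h)
      have h3 := Set.encard_le_encard this
      rw [Set.encard_univ] at h3
      have h4 := (hΩ.trans h3).trans (Set.encard_insert_le _ _)
      rw [Set.encard_singleton] at h4
      norm_num at h4
    obtain ⟨b, ⟨hb, e'⟩, -⟩ := hreg' y α γ hy'' h2
    rw [← e] at hb
    exact h1 (by rw [← e']; exact hA hb)
  refine ⟨⟨hne, hnil, isNilpotent_conjBy hnil y, ?_, ?_⟩, ?_⟩
  · simpa only [conjBy_one] using hcond 1 y hy'
  · simpa only [conjBy_one] using hcond y 1 hy'.symm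
  · apply le_antisymm
    · rw [Subgroup.normalClosure, Subgroup.closure_le]
      intro x hx
      rw [Group.mem_conjugatesOfSet_iff] at hx
      obtain ⟨a, ha, hc⟩ := hx
      obtain ⟨g, rfl⟩ := isConj_iff.1 hc
      have h1 : conjBy A g ≤ A ⊔ conjBy A y := by
        by_cases hg : g • α = α
        · rw [hAn g hg]; exact le_sup_left
        · obtain ⟨c, ⟨hc, e⟩, -⟩ := hreg (y • α) (g • α) hy''.symm hg
          rw [← hconj (c * y) g (by rw [mul_smul, e]), ← conjBy_conjBy]
          exact conjBy_le_of_mem le_sup_right (Subgroup.mem_sup_left hc)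
      exact h1 (conj_mem_conjBy ha g)
    · refine sup_le Subgroup.le_normalClosure ?_
      have := conjBy_mono (Subgroup.le_normalClosure (H := A)) y
      rwa [conjBy_normal (Subgroup.normalClosure (A : Set Y))] at this

end Cfsg.Agent.S5015
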