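import Cfsg.Statements.S5017
import Cfsg.Agent.CHEV.RankOne

set_option autoImplicit false
open Cfsg

namespace Cfsg.Agent.S5017

open CL.RankOne

/-- Let X be a rank one group with unipotent subgroups A and B and N a normal subgroup of X. Then either X = N A or N lies in the centre of X. Consequently a perfect rank one group is quasisimple. -/
theorem result {X : Type*} [Group X] {A B : Subgroup X} (h : Cfsg.IsRankOneGroup X A B) :
    (∀ N : Subgroup X, N.Normal → N ⊔ A = ⊤ ∨ N ≤ Subgroup.center X) ∧
    (Group.IsPerfect X → Cfsg.IsQuasisimple X) := by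
  refine ⟨fun N hN => normal_dichotomy_top h N, fun hp => ⟨hp, ?_⟩⟩
  have hnt : Nontrivial (X ⧸ Subgroup.center X) := by
    rw [QuotientGroup.nontrivial_iff]
    intro e
    apply ne_bot_left h.2
    rw [← inf_center_eq_bot h.2, e, inf_top_eq]
  refine ⟨fun M hM => ?_⟩
  rcases normal_dichotomy_top h (M.comap (QuotientGroup.mk' (Subgroup.center X))) with e | e
  · right
    set N := M.comap (QuotientGroup.mk' (Subgroup.center X))
    have hsurj : Function.Surjective ((QuotientGroup.mk' N).comp A.subtype) := by
      intro y
      obtain ⟨x, rfl⟩ := QuotientGroup.mk_surjective y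
      have hx : x ∈ ((N ⊔ A : Subgroup X) : Set X) := by rw [e]; trivial
      rw [Subgroup.normal_mul] at hx
      obtain ⟨n, hn, a, ha, rfl⟩ := hx
      refine ⟨⟨a, ha⟩, ?_⟩
      simp [(QuotientGroup.eq_one_iff n).2 hn]
    have := h.2.nilpotent_left
    have hnil : Group.IsNilpotent (X ⧸ N) := Group.nilpotent_of_surjective _ hsurj
    have hperf : Group.IsPerfect (X ⧸ N) := inferInstance
    have hsub : Subsingleton (X ⧸ N) := by
      by_contra hcon
      rw [not_subsingleton_iff_nontrivial] at hcon
      exact Group.IsPerfect.not_isSolvable (X ⧸ N) inferInstance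
    have hN : N = ⊤ := by rwa [← QuotientGroup.subsingleton_iff]
    rw [eq_top_iff]
    intro y _
    obtain ⟨x, rfl⟩ := QuotientGroup.mk_surjective y
    have : x ∈ N := by rw [hN]; trivial
    exact this
  · left
    rw [eq_bot_iff]
    intro y hy
    obtain ⟨x, rfl⟩ := QuotientGroup.mk_surjective y
    exact (QuotientGroup.eq_one_iff x).2 (e hy)

end Cfsg.Agent.S5017
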