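import Cfsg.Statements.S5018
import Cfsg.Agent.CHEV.RankOne

set_option autoImplicit false
open Cfsg

namespace Cfsg.Agent.S5018

open CL.RankOne

/-- A rank one group is not nilpotent, and its second centre equals its centre. -/
theorem result {X : Type*} [Group X] {A B : Subgroup X} (h : Cfsg.IsRankOneGroup X A B) :
    Subgroup.upperCentralSeries X 2 = Subgroup.center X ∧ ¬ Group.IsNilpotent X := by
  have key : ∀ {A B : Subgroup X}, IsRankOneGroup X A B → ∀ z ∈ Subgroup.upperCentralSeries X 2,
      ∀ a ∈ A, z * a = a * z := by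
    intro A B h z hz a ha
    have hz' : ∀ y, z * y * z⁻¹ * y⁻¹ ∈ Subgroup.center X := by
      intro y
      have := (Subgroup.mem_upperCentralSeries_succ_iff (n := 1)).1 hz y
      rwa [Subgroup.upperCentralSeries_one] at this
    have hA : conjBy A z = A := by
      by_contra hne
      have hp := pair_of_mem_unipotent h.2 (left_mem_unipotent A B)
        (conjBy_mem_unipotent (left_mem_unipotent A B) (x := z) (by rw [h.1]; trivial)) (Ne.symm hne)
      obtain ⟨c, hc, hc1⟩ := exists_ne_one_left h.2
      refine not_commute hp hc (conj_mem_conjBy hc z) hc1 (by simpa using hc1) ?_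
      have e := Subgroup.mem_center_iff.1 (hz' c) c
      calc c * (z * c * z⁻¹) = (c * (z * c * z⁻¹ * c⁻¹)) * c := by group
        _ = z * c * z⁻¹ * c := by rw [e]; group
    have h1 : z * a * z⁻¹ * a⁻¹ ∈ A ⊓ Subgroup.center X := by
      refine Subgroup.mem_inf.2 ⟨mul_mem ?_ (inv_mem ha), hz' a⟩
      rw [← hA]; exact conj_mem_conjBy ha z
    rw [inf_center_eq_bot h.2, Subgroup.mem_bot] at h1
    calc z * a = (z * a * z⁻¹ * a⁻¹) * (a * z) := by group
      _ = a * z := by rw [h1, one_mul]
  have h2 : Subgroup.upperCentralSeries X 2 = Subgroup.center X := by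
    apply le_antisymm
    · intro z hz
      rw [Subgroup.mem_center_iff]
      intro g
      have hg : g ∈ A ⊔ B := by rw [h.1]; trivial
      refine sup_induction hg ?_ ?_ ?_ ?_
      · simp
      · intro a ha; exact (key h z hz a ha).symm
      · intro b hb
        exact (key ⟨by rw [sup_comm]; exact h.1, RankOnePair_symm h.2⟩ z hz b hb).symm
      · intro x y _ _ hx hy; rw [mul_assoc, hy, ← mul_assoc, hx, mul_assoc]
    · rw [← Subgroup.upperCentralSeries_one]
      exact Subgroup.upperCentralSeries_mono X (by norm_num)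
  refine ⟨h2, fun hn => ?_⟩
  obtain ⟨n, hn⟩ := hn.nilpotent'
  have h3 : ∀ m, Subgroup.upperCentralSeries X (m + 1) = Subgroup.center X := by
    intro m
    induction m with
    | zero => exact Subgroup.upperCentralSeries_one X
    | succ m ih =>
      rw [← h2]
      ext x
      rw [Subgroup.mem_upperCentralSeries_succ_iff, ih,
        Subgroup.mem_upperCentralSeries_succ_iff (n := 1), Subgroup.upperCentralSeries_one]
  have h4 : Subgroup.center X = ⊤ := by
    rw [eq_top_iff, ← hn, ← h3 n]
    exact Subgroup.upperCentralSeries_mono X (Nat.le_succ n)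
  apply ne_bot_left h.2
  rw [← inf_center_eq_bot h.2, h4, inf_top_eq]

end Cfsg.Agent.S5018
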