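import Cfsg.Statements.S5020
import Cfsg.Agent.CHEV.RankOneSpecial
import Cfsg.Agent.S5017
import Cfsg.Agent.SIG.Quasisimple

set_option autoImplicit false
open Cfsg

namespace Cfsg.Agent.S5020

open CL.RankOne

/-- Let X be a special rank one group with abelian unipotent subgroups A and B, and H = N(A) ∩ N(B) its diagonal subgroup. Then either A has at most three elements and X is isomorphic to SL₂(2), SL₂(3) or PSL₂(3); or X = X' A with the commutator subgroup X' quasisimple and the commutator subgroup ⁅A, H⁆ having more than three elements. -/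
theorem result {X : Type*} [Group X] {A B : Subgroup X} (h : Cfsg.IsRankOneGroup X A B)
    (hs : Cfsg.IsSpecialRankOnePair A B) (hab : Cfsg.HasAbelianUnipotents A B) :
    (ENat.card A ≤ 3 ∧ (Nonempty (X ≃* Matrix.SpecialLinearGroup (Fin 2) (ZMod 2)) ∨
        Nonempty (X ≃* Matrix.SpecialLinearGroup (Fin 2) (ZMod 3)) ∨
        Nonempty (X ≃* Matrix.ProjectiveSpecialLinearGroup (Fin 2) (ZMod 3)))) ∨
    (commutator X ⊔ A = ⊤ ∧ Cfsg.IsQuasisimple (commutator X) ∧
      3 < ENat.card ↥(⁅A, Cfsg.rankOneDiagonal A B⁆ : Subgroup X)) := by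
  by_cases hc : 3 < ENat.card A
  · right
    have h1 := commutator_diagonal_eq hs hab.1 hc
    have hA : A ≤ commutator X := by
      rw [← h1]; exact Subgroup.commutator_mono le_top le_top
    have hB : B ≤ commutator X := by
      obtain ⟨x, -, e, -⟩ := exists_swap h.2
      rw [← e, ← conjBy_normal (commutator X) x]
      exact conjBy_mono hA x
    have htop : commutator X = ⊤ := by
      rw [eq_top_iff, ← h.1]; exact sup_le hA hB
    refine ⟨by rw [htop, top_sup_eq], ?_, by rw [h1]; exact hc⟩
    rw [htop]
    exact ((Cfsg.Agent.S5017.result h).2 (Group.isPerfect_def.2 htop)).top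
  · left
    rw [not_lt] at hc
    refine ⟨hc, ?_⟩
    have hfin : Finite A := by
      rw [← ENat.card_lt_top]; exact hc.trans_lt (by decide)
    have hcard : Nat.card A ≤ 3 := by
      rw [ENat.card_eq_coe_natCard] at hc; exact_mod_cast hc
    have hcard1 : 1 < Nat.card A := (Subgroup.one_lt_card_iff_ne_bot A).2 (ne_bot_left h.2)
    obtain ⟨x, -, ex, -⟩ := exists_swap h.2
    have hcB : Nat.card B = Nat.card A := by
      rw [← ex]; exact (Nat.card_congr (conjByEquiv A x).toEquiv).symm
    obtain ⟨a, ha, ha1⟩ := exists_ne_one_left h.2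
    have key : ∀ (p : ℕ) [Fact p.Prime], Nat.card A = p →
        Nonempty (X ≃* Matrix.SpecialLinearGroup (Fin 2) (ZMod p)) ∨
          Nonempty (X ≃* Matrix.ProjectiveSpecialLinearGroup (Fin 2) (ZMod p)) := by
      intro p _ hp
      have hgen : ∀ (C : Subgroup X), Nat.card C = p → ∀ c ∈ C, c ≠ 1 → C ≤ Subgroup.closure {c} := by
        intro C hC c hc hc1 y hy
        have := mem_zpowers_of_prime_card hC (g := ⟨c, hc⟩) (g' := ⟨y, hy⟩)
          (fun e => hc1 (congrArg Subtype.val e))
        obtain ⟨k, hk⟩ := this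
        rw [← Subgroup.zpowers_eq_closure]
        exact ⟨k, congrArg Subtype.val hk⟩
      have hap : a ^ p = 1 := by
        have : (⟨a, ha⟩ : A) ^ p = 1 := by rw [← hp]; exact pow_card_eq_one'
        exact congrArg Subtype.val this
      obtain ⟨φ, h1, -, -, h2⟩ := exists_hom_zmod hs ha ha1 hap
      have h3 : φ.range = ⊤ := by
        rw [eq_top_iff, ← h.1, h1]
        refine sup_le ((hgen A hp a ha ha1).trans (Subgroup.closure_mono (by simp)))
          ((hgen B (hcB.trans hp) _ (pt_mem A B a) (pt_ne_one h.2 ha ha1)).trans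
            (Subgroup.closure_mono (by simp)))
      have e : X ≃* φ.range := Subgroup.topEquiv.symm.trans (MulEquiv.subgroupCongr h3.symm)
      rcases range_equiv_of_ker_le_center φ h2 with ⟨⟨f⟩⟩ | ⟨⟨f⟩⟩
      · exact Or.inl ⟨e.trans f⟩
      · exact Or.inr ⟨e.trans f⟩
    have : Nat.card A = 2 ∨ Nat.card A = 3 := by omega
    rcases this with h2 | h3
    · left
      rcases key 2 h2 with hh | ⟨⟨f⟩⟩
      · exact hh
      · have : Subgroup.center (Matrix.SpecialLinearGroup (Fin 2) (ZMod 2)) = ⊥ := by
          rw [eq_bot_iff]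
          intro g hg
          rcases mem_center_sl2 hg with rfl | rfl
          · exact one_mem _
          · rw [Subgroup.mem_bot]; decide
        exact ⟨f.trans ((QuotientGroup.quotientMulEquivOfEq this).trans QuotientGroup.quotientBot)⟩
    · right
      exact key 3 h3

end Cfsg.Agent.S5020
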