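import Cfsg.Statements.S5026
import Cfsg.Agent.CHEV.RootSubGraph

set_option autoImplicit false
open Cfsg

namespace Cfsg.Agent.S5026

open CL.RankOne CL.RootSub

/-- Let S be a degenerate set of abstract root subgroups of G (a set of abstract transvection groups) and let a, b be commuting non-identity elements of members of S with a b ≠ 1. Then the members of S centralizing a b are exactly those centralizing both a and b. -/
theorem result {G : Type*} [Group G] {S : Set (Subgroup G)} (hS : Cfsg.IsRootSubgroupSet S) (hdeg : Cfsg.IsDegenerateRootSet S)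
    {a b : G} (ha : a ∈ Cfsg.rootElements S) (hb : b ∈ Cfsg.rootElements S) (hab : a * b = b * a) (hab1 : a * b ≠ 1) :
    Cfsg.centralizingMembers S (Subgroup.zpowers (a * b)) =
      Cfsg.centralizingMembers S (Subgroup.zpowers a) ∩ Cfsg.centralizingMembers S (Subgroup.zpowers b) := by
  obtain ⟨ha1, A, hA, haA⟩ := ha
  obtain ⟨hb1, B, hB, hbB⟩ := hb
  have hmem : ∀ (x : G) (C : Subgroup G), C ∈ centralizingMembers S (Subgroup.zpowers x) ↔
      C ∈ S ∧ ∀ c ∈ C, c * x = x * c := by
    intro x C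
    refine and_congr_right fun _ => ⟨fun h c hc => ?_, fun h c hc => ?_⟩
    · exact (Subgroup.mem_centralizer_iff.1 (h hc) x (Subgroup.mem_zpowers x)).symm
    · refine Subgroup.mem_centralizer_iff.2 ?_
      rintro _ ⟨k, rfl⟩
      exact ((Commute.zpow_right (h c hc) k).eq).symm
  have key : ∀ {a b : G} {A B C : Subgroup G}, A ∈ S → B ∈ S → C ∈ S → a ∈ A → b ∈ B → a ≠ 1 → b ≠ 1 →
      a * b = b * a → a * b ≠ 1 → (∀ c ∈ C, c * (a * b) = a * b * c) → ∀ c ∈ C, c * a = a * c := by
    intro a b A B C hA hB hC haA hbB ha1 hb1 hab hab1 h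
    by_contra hne
    have hp : IsRankOnePair C A := by
      rcases trichotomy hS hC hA with h' | h' | h'
      · exact absurd (fun c hc => h' c hc a haA) hne
      · exact h'
      · exact absurd h' (hdeg C hC A hA)
    have e : conjBy C b⁻¹ = conjBy C a := by
      rw [← conjBy_eq_iff_eq_conjBy_inv.1 (show conjBy (conjBy C a) b = C by
        rw [conjBy_conjBy, ← hab]; exact conjBy_eq_of_forall_comm h)]
    obtain ⟨h1, h2⟩ := mem_unipotent_of_conj_eq hS hC hB hp haA ha1 (inv_mem hbB) e
    by_cases hAB : A = B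
    · subst hAB
      exact hab1 (eq_one_of_commute (RankOnePair_symm hp) (mul_mem haA hbB) fun c hc => (h c hc).symm)
    · exact not_commute (pair_of_mem_unipotent hp (right_mem_unipotent hp) h2 hAB) haA hbB ha1 hb1 hab
  ext C
  rw [Set.mem_inter_iff, hmem, hmem, hmem]
  constructor
  · rintro ⟨hC, h⟩
    exact ⟨⟨hC, key hA hB hC haA hbB ha1 hb1 hab hab1 h⟩,
      ⟨hC, key hB hA hC hbB haA hb1 ha1 hab.symm (hab ▸ hab1) (hab ▸ h)⟩⟩
  · rintro ⟨⟨hC, h1⟩, -, h2⟩
    exact ⟨hC, fun c hc => by rw [← mul_assoc, h1 c hc, mul_assoc, h2 c hc, mul_assoc]⟩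

end Cfsg.Agent.S5026
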