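import Cfsg.Statements.S5027
import Cfsg.Agent.CHEV.RootSubGraph

set_option autoImplicit false
open Cfsg

namespace Cfsg.Agent.S5027

open CL.RankOne CL.RootSub

/-- Let S be a set of abstract root subgroups of G such that every member of S has a rank one partner in S (the graph of rank one pairs on S has no isolated vertex). Then the second centre of G equals its centre. -/
theorem result {G : Type*} [Group G] {S : Set (Subgroup G)} (hS : Cfsg.IsRootSubgroupSet S)
    (hF : ∀ A ∈ S, ¬ Cfsg.IsIsolatedIn (Cfsg.FAdj S) S A) : Subgroup.upperCentralSeries G 2 = Subgroup.center G := by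
  apply le_antisymm
  · intro z hz
    rw [Subgroup.mem_upperCentralSeries_succ_iff] at hz
    simp only [Subgroup.upperCentralSeries_one] at hz
    have : Subgroup.centralizer ({z} : Set G) = ⊤ := by
      refine eq_top_of_forall_le hS fun A hA a ha => ?_
      by_cases ha1 : a = 1
      · rw [ha1]; exact one_mem _
      obtain ⟨B, hB, hp⟩ := (hasOpp_iff hA).1 (hF A hA)
      have hc := Subgroup.mem_center_iff.1 (hz a)
      have := eq_one_of_mul_mem hS hB hp (fun x _ => hc x) (fun x _ => hc x) ha ha1 (hS.conj_mem A hA z) (by
        rw [hc a]
        have := conj_mem_conjBy ha z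
        convert this using 1
        rw [commutatorElement_def]; group)
      rw [Subgroup.mem_centralizer_singleton_iff]
      exact (commutatorElement_eq_one_iff_mul_comm.1 this).symm
    rw [Subgroup.mem_center_iff]
    intro g
    have hg : g ∈ Subgroup.centralizer ({z} : Set G) := this ▸ Subgroup.mem_top g
    exact Subgroup.mem_centralizer_singleton_iff.1 hg
  · rw [← Subgroup.upperCentralSeries_one]
    exact Subgroup.upperCentralSeries_mono G (by norm_num)

end Cfsg.Agent.S5027
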