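import Cfsg.Statements.S5028


set_option autoImplicit false
open Cfsg
open scoped commutatorElement

namespace Cfsg.Agent.S5028

lemma mem_conj {G : Type*} [Group G] {A : Subgroup G} {g x : G} :
    x ∈ conjBy A g ↔ g⁻¹ * x * g ∈ A := by
  constructor
  · rintro ⟨y, hy, rfl⟩
    simpa [mul_assoc] using hy
  · intro h
    exact ⟨_, h, by simp [mul_assoc]⟩

lemma comm_of {G : Type*} [Group G] {A : Subgroup G} (h : IsMulCommutative A) {x y : G}
    (hx : x ∈ A) (hy : y ∈ A) : x * y = y * x := by
  have := h.is_comm.comm (⟨x, hx⟩ : A) ⟨y, hy⟩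
  exact congrArg Subtype.val this

/-- no non-identity element of `A` normalises `C`. -/
lemma not_norm {G : Type*} [Group G] {A C : Subgroup G} (h : IsRankOnePair A C) {a : G}
    (ha : a ∈ A) (ha1 : a ≠ 1) (hn : ∀ x, x ∈ C ↔ a * x * a⁻¹ ∈ C) : False := by
  obtain ⟨c, hc, -, e⟩ := h.cond_left a ha ha1
  apply h.ne
  ext x
  have h1 : c⁻¹ * x * c ∈ conjBy A c⁻¹ ↔ x ∈ A := by
    rw [mem_conj]; simp [mul_assoc]
  rw [← h1, e, mem_conj, inv_inv, ← hn]
  constructor
  · intro hx
    have := C.mul_mem (C.mul_mem hc hx) (C.inv_mem hc)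
    simpa [mul_assoc] using this
  · intro hx
    exact C.mul_mem (C.mul_mem (C.inv_mem hc) hx) hc


/-- Let S be a set of abstract root subgroups of G and A a member of S having a rank one partner in S. Then A meets every other member of S trivially. -/
theorem result {G : Type*} [Group G] {S : Set (Subgroup G)} (hS : Cfsg.IsRootSubgroupSet S)
    {A : Subgroup G} (hA : ¬ Cfsg.IsIsolatedIn (Cfsg.FAdj S) S A) (hAS : A ∈ S) : ∀ B ∈ S, A ⊓ B = ⊥ ∨ A = B := by
  intro B hB
  by_contra hcon
  push Not at hcon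
  obtain ⟨hne, hAB⟩ := hcon
  obtain ⟨⟨a, haA, haB⟩, ha1⟩ := (Subgroup.ne_bot_iff_exists_ne_one).1 hne
  have ha1' : a ≠ 1 := fun h => ha1 (Subtype.ext h)
  -- a rank one partner
  obtain ⟨C, hCS, hAC⟩ : ∃ C ∈ S, IsRankOnePair A C := by
    by_contra hno
    push Not at hno
    apply hA
    refine ⟨hAS, fun C => ⟨fun h => hno C h.2.1 h.2.2, fun h => hno C h.1 (RankOnePair_symm h.2.2)⟩⟩
  have hAc := hS.commutative A hAS
  have hCc := hS.commutative C hCS
  rcases hS.pair B hB C hCS with h | h | h
  · -- a centralises C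
    have hc : ∀ x ∈ C, a * x = x * a := by
      intro x hx
      have := Subgroup.commutator_mem_commutator haB hx
      rw [h, Subgroup.mem_bot, commutatorElement_eq_one_iff_mul_comm] at this
      exact this
    apply not_norm hAC haA ha1'
    intro x
    constructor
    · intro hx
      rw [hc x hx]; simpa using hx
    · intro hx
      have h2 := hc _ hx
      have : x = a * x * a⁻¹ := by
        have h3 : a * (a * x * a⁻¹) = a * x := by rw [h2]; simp
        exact (mul_left_cancel h3).symm
      rw [this]; exact hx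
  · obtain ⟨c, hc, -, e⟩ := hAC.cond_left a haA ha1'
    obtain ⟨c', hc', -, e'⟩ := h.cond_left a haB ha1'
    -- B = conj of A by d = c' c⁻¹
    have hBA : ∀ x, x ∈ B ↔ (c * c'⁻¹) * x * (c * c'⁻¹)⁻¹ ∈ A := by
      intro x
      have h1 : c'⁻¹ * x * c' ∈ conjBy B c'⁻¹ ↔ x ∈ B := by
        rw [mem_conj]; simp [mul_assoc]
      rw [← h1, e', ← e, mem_conj]
      simp [mul_assoc]
    by_cases hd : c * c'⁻¹ = 1
    · apply hAB
      ext x
      rw [hBA, hd]; simp
    · obtain ⟨a', ha', -, e2⟩ := hAC.cond_right _ (C.mul_mem hc (C.inv_mem hc')) hd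
      have h1 : a ∈ conjBy C a'⁻¹ := by
        rw [e2, mem_conj, inv_inv]
        exact (hBA a).1 haB
      rw [mem_conj, inv_inv, comm_of hAc ha' haA] at h1
      have haC : a ∈ C := by simpa using h1
      apply not_norm hAC haA ha1'
      intro x
      constructor
      · intro hx
        exact C.mul_mem (C.mul_mem haC hx) (C.inv_mem haC)
      · intro hx
        have := C.mul_mem (C.mul_mem (C.inv_mem haC) hx) haC
        simpa [mul_assoc] using this
  · obtain ⟨-, hcen, -, -⟩ := h
    obtain ⟨c, hc, hc1, e⟩ := hAC.cond_left a haA ha1'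
    -- every element of `a⁻¹ C a` commutes with `c`; so `c` normalises (centralises) `c⁻¹ A c`, hence `A`.
    have key : ∀ y ∈ conjBy C a⁻¹, c * y = y * c := by
      intro y hy
      rw [mem_conj, inv_inv] at hy
      have hk : ⁅a⁻¹, a * y * a⁻¹⁆ ∈ ⁅B, C⁆ :=
        Subgroup.commutator_mem_commutator (B.inv_mem haB) hy
      have h1 := hcen _ hk c (Subgroup.mem_sup_right hc)
      have h2 := comm_of hCc hc hy
      have hy' : y = ⁅a⁻¹, a * y * a⁻¹⁆ * (a * y * a⁻¹) := by
        simp [commutatorElement_def, mul_assoc]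
      rw [hy']
      generalize ⁅a⁻¹, a * y * a⁻¹⁆ = z at *
      generalize a * y * a⁻¹ = w at *
      rw [← mul_assoc, ← h1, mul_assoc, h2, mul_assoc]
    have hcA : ∀ x ∈ A, c * x = x * c := by
      intro x hx
      have h1 : c⁻¹ * x * c ∈ conjBy A c⁻¹ := by
        rw [mem_conj]; simpa [mul_assoc] using hx
      rw [e] at h1
      have h2 := key _ h1
      have h3 : c * (c * (c⁻¹ * x * c)) * c⁻¹ = c * (c⁻¹ * x * c * c) * c⁻¹ := by rw [h2]
      simpa [mul_assoc] using h3
    apply not_norm (RankOnePair_symm hAC) hc hc1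
    intro x
    constructor
    · intro hx
      rw [hcA x hx]; simpa using hx
    · intro hx
      have h2 := hcA _ hx
      have : x = c * x * c⁻¹ := by
        have h3 : c * (c * x * c⁻¹) = c * x := by rw [h2]; simp
        exact (mul_left_cancel h3).symm
      rw [this]; exact hx

end Cfsg.Agent.S5028
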