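import Cfsg.Statements.S5029
import Cfsg.Agent.CHEV.RootSubGraph

set_option autoImplicit false
open Cfsg

namespace Cfsg.Agent.S5029

open CL.RankOne CL.RootSub

/-- Let S be a set of abstract root subgroups of G, A ∈ S having a rank one partner in S, and B ∈ S with C = ⁅A, B⁆ ∈ S. Then the members of S contained in AC are the conjugates of A by elements of B together with C, they partition AC, the members of S inside AC partition AC so that A is a line partner of C, and for every non-identity a ∈ A the map b ↦ a⁻¹ b⁻¹ a b is an isomorphism from B onto C. -/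
theorem result {G : Type*} [Group G] {S : Set (Subgroup G)} (hS : Cfsg.IsRootSubgroupSet S)
    {A B : Subgroup G} (hA : ¬ Cfsg.IsIsolatedIn (Cfsg.FAdj S) S A) (hAS : A ∈ S) (hB : B ∈ S) (hC : ⁅A, B⁆ ∈ S) :
    Cfsg.membersIn S (A ⊔ ⁅A, B⁆) = (fun b : G => Cfsg.conjBy A b) '' (B : Set G) ∪ {⁅A, B⁆} ∧
    Cfsg.IsSubgroupPartition (A ⊔ ⁅A, B⁆) (Cfsg.membersIn S (A ⊔ ⁅A, B⁆)) ∧
    A ∈ Cfsg.linePartners S ⁅A, B⁆ ∧
    ∀ a ∈ A, a ≠ 1 → ∃ φ : ↥B ≃* ↥⁅A, B⁆, ∀ b : ↥B, (φ b : G) = a⁻¹ * (b : G)⁻¹ * a * b := by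
  have hO := (hasOpp_iff hAS).1 hA
  have h := rcc_of_mem hS hAS hB hC
  refine ⟨?_, rcc_partition hS hAS hO h, line_symm hAS (rcc_line hS hAS hO h), ?_⟩
  · ext F
    constructor
    · rintro ⟨hF, hle⟩
      rcases rcc_members hS hAS hO h hF hle with e | ⟨b, hb, e⟩
      · exact Or.inr e
      · exact Or.inl ⟨b, hb, e.symm⟩
    · rintro (⟨b, hb, rfl⟩ | rfl)
      · exact ⟨hS.conj_mem A hAS b, rcc_conjBy_le h hb⟩
      · exact ⟨hC, le_sup_right⟩
  · intro a ha ha1
    have hm : ∀ b : B, a⁻¹ * (b : G)⁻¹ * a * b ∈ ⁅A, B⁆ := fun b => by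
      simpa using cm_mem (inv_mem ha) (inv_mem b.2)
    let f : B →* ↥⁅A, B⁆ := MonoidHom.mk' (fun b => ⟨_, hm b⟩) (fun b c => by
      apply Subtype.ext
      have := rcc_mul_right h (inv_mem ha) (inv_mem b.2) (inv_mem c.2)
      rw [← mul_inv_rev] at this
      simp only [inv_inv] at this
      simp only [Subgroup.coe_mul]
      rw [← this, self_comm hS hB _ b.2 _ c.2])
    refine ⟨MulEquiv.ofBijective f ⟨?_, ?_⟩, fun b => rfl⟩
    · rw [injective_iff_map_eq_one]
      intro b hb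
      have e : a⁻¹ * (b : G)⁻¹ * a * b = 1 := congrArg Subtype.val hb
      apply Subtype.ext
      refine rcc_inj_right hS hAS hO h ha ha1 b.2 ?_
      calc a * b = b * a * (a⁻¹ * (b : G)⁻¹ * a * b) := by group
        _ = _ := by rw [e, mul_one]
    · rintro ⟨e, he⟩
      obtain ⟨b, hb, rfl⟩ := rcc_exists_right h (inv_mem ha) (inv_ne_one.2 ha1) he
      exact ⟨⟨b⁻¹, inv_mem hb⟩, Subtype.ext (by simp [f])⟩

end Cfsg.Agent.S5029
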