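import Cfsg.Statements.S5030
import Cfsg.Agent.CHEV.RootSubGraph

set_option autoImplicit false
open Cfsg

namespace Cfsg.Agent.S5030

open CL.RankOne CL.RootSub
open scoped commutatorElement

section Aux

variable {G : Type*} [Group G] {S : Set (Subgroup G)}

theorem not_pair (hS : IsRootSubgroupSet S) {A B C : Subgroup G} (hA : A ∈ S) (hC : C ∈ S)
    (h : RootCommutatorCase S C B) (hAC : Comm A C) {b : G} (hb : b ∈ B) :
    ¬ IsRankOnePair A (conjBy C b) := by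
  intro hp
  obtain ⟨c, hc, hc1⟩ := exists_ne_one hS hC
  have hf := inv_mem (cm_mem hc hb)
  have e : conjBy A (c * b * c⁻¹ * b⁻¹)⁻¹ = conjBy A (b * c * b⁻¹) := by
    rw [rcc_conj_eq h hc hb, ← rcc_comm_left h _ hf c hc, ← conjBy_conjBy, hAC.conjBy_eq hc]
  obtain ⟨-, h2⟩ := mem_unipotent_of_conj_eq hS hA h.1 hp (conj_mem_conjBy hc b) (by simpa using hc1) hf e
  have h3 : Comm ⁅C, B⁆ (conjBy C b) := by
    have := (rcc_comm_left h).conj b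
    rwa [(rcc_comm_right h).conjBy_eq hb] at this
  by_cases e2 : ⁅C, B⁆ = conjBy C b
  · have e3 := conjBy_eq_iff_eq_conjBy_inv.1 e2.symm
    rw [(rcc_comm_right h).conjBy_eq (inv_mem hb)] at e3
    exact rcc_ne hS h e3
  · exact h3.not_pair (pair_of_mem_unipotent hp h2 (right_mem_unipotent hp) e2)

theorem comm_conj_iff {A B C : Subgroup G}
    (h : RootCommutatorCase S C B) (hAC : Comm A C) {b : G} (hb : b ∈ B) (hb1 : b ≠ 1) :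
    Comm A (conjBy C b) ↔ Comm A ⁅C, B⁆ := by
  constructor
  · intro h1
    refine (hAC.sup_right h1).mono le_rfl ?_
    rw [rcc_sup_conjBy h hb hb1]; exact le_sup_right
  · intro h1
    exact (hAC.sup_right h1).mono le_rfl (rcc_conjBy_le h hb)

theorem class_two {A B : Subgroup G} (hA : Comm A A) (hB : Comm B B) (h : Comm ⁅A, B⁆ (A ⊔ B)) :
    ⁅A ⊔ B, A ⊔ B⁆ ≤ ⁅A, B⁆ := by
  have key : ∀ y ∈ A ⊔ B, (∀ a ∈ A, a * y * a⁻¹ * y⁻¹ ∈ ⁅A, B⁆) → (∀ a ∈ B, a * y * a⁻¹ * y⁻¹ ∈ ⁅A, B⁆) →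
      ∀ x ∈ A ⊔ B, x * y * x⁻¹ * y⁻¹ ∈ ⁅A, B⁆ := by
    intro y _ h1 h2 x hx
    refine sup_induction hx (by simp) h1 h2 fun x x' hx _ k1 k2 => ?_
    have : x * x' * y * (x * x')⁻¹ * y⁻¹ = (x' * y * x'⁻¹ * y⁻¹) * (x * y * x⁻¹ * y⁻¹) := by
      calc x * x' * y * (x * x')⁻¹ * y⁻¹ = x * (x' * y * x'⁻¹ * y⁻¹) * (y * x⁻¹ * y⁻¹) := by group
        _ = _ := by rw [← h _ k2 x hx]; group
    rw [this]; exact mul_mem k2 k1
  have inv : ∀ x y : G, x * y * x⁻¹ * y⁻¹ ∈ ⁅A, B⁆ → y * x * y⁻¹ * x⁻¹ ∈ ⁅A, B⁆ := fun x y k => by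
    have := inv_mem k
    convert this using 1; group
  rw [Subgroup.commutator_le]
  intro x hx y hy
  refine key y hy (fun a ha => inv _ _ (key a (Subgroup.mem_sup_left ha) (fun a' ha' => ?_)
    (fun b hb => inv _ _ (cm_mem ha hb)) y hy)) (fun b hb => inv _ _ (key b (Subgroup.mem_sup_right hb)
    (fun a ha => cm_mem ha hb) (fun b' hb' => ?_) y hy)) x hx
  · rw [cm_eq_one_of_comm (hA _ ha' _ ha)]; exact one_mem _
  · rw [cm_eq_one_of_comm (hB _ hb' _ hb)]; exact one_mem _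

theorem class_two' (hS : IsRootSubgroupSet S) {A B : Subgroup G} (hA : A ∈ S) (hB : B ∈ S)
    (h : ¬ IsRankOnePair A B) : Comm ⁅A ⊔ B, A ⊔ B⁆ (A ⊔ B) := by
  have h1 : Comm ⁅A, B⁆ (A ⊔ B) := by
    rcases trichotomy hS hA hB with h' | h' | h'
    · rw [comm_iff.2 h']; intro x hx y _; rw [Subgroup.mem_bot.1 hx]; simp
    · exact absurd h' h
    · exact (rcc_comm_left h').sup_right (rcc_comm_right h')
  exact h1.mono (class_two (self_comm hS hA) (self_comm hS hB) h1) le_rfl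

theorem isMulCommutative_sup_iff (hS : IsRootSubgroupSet S) {A B : Subgroup G} (hA : A ∈ S) (hB : B ∈ S) :
    IsMulCommutative ↥(A ⊔ B) ↔ Comm A B := by
  constructor
  · intro h a ha b hb
    exact comm_of_isMulCommutative h (Subgroup.mem_sup_left ha) (Subgroup.mem_sup_right hb)
  · intro h
    exact isMulCommutative_of_comm (((self_comm hS hA).sup_right h).sup_left
      (h.symm.sup_right (self_comm hS hB)))

/-- relative upper central series -/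
def zr (R : Subgroup G) (n : ℕ) : Subgroup G := (Subgroup.upperCentralSeries R n).map R.subtype

theorem zr_succ {A B C : Subgroup G} {n : ℕ} {x : G} (hx : x ∈ A ⊔ B ⊔ C)
    (h1 : ∀ y ∈ A, x * y * x⁻¹ * y⁻¹ ∈ zr (A ⊔ B ⊔ C) n)
    (h2 : ∀ y ∈ B, x * y * x⁻¹ * y⁻¹ ∈ zr (A ⊔ B ⊔ C) n)
    (h3 : ∀ y ∈ C, x * y * x⁻¹ * y⁻¹ ∈ zr (A ⊔ B ⊔ C) n) : x ∈ zr (A ⊔ B ⊔ C) (n + 1) := by
  have hn : ∀ y ∈ A ⊔ B ⊔ C, ∀ z ∈ zr (A ⊔ B ⊔ C) n, y * z * y⁻¹ ∈ zr (A ⊔ B ⊔ C) n := by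
    rintro y hy _ ⟨z, hz, rfl⟩
    exact ⟨_, Subgroup.Normal.conj_mem inferInstance z hz ⟨y, hy⟩, rfl⟩
  have hm : ∀ y y', y ∈ A ⊔ B ⊔ C → x * y * x⁻¹ * y⁻¹ ∈ zr (A ⊔ B ⊔ C) n →
      x * y' * x⁻¹ * y'⁻¹ ∈ zr (A ⊔ B ⊔ C) n → x * (y * y') * x⁻¹ * (y * y')⁻¹ ∈ zr (A ⊔ B ⊔ C) n := by
    intro y y' hy k1 k2
    have := mul_mem k1 (hn y hy _ k2)
    convert this using 1; group
  have key : ∀ y ∈ A ⊔ B ⊔ C, x * y * x⁻¹ * y⁻¹ ∈ zr (A ⊔ B ⊔ C) n := by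
    intro y hy
    refine sup_induction hy (by simp) (fun y hy => ?_) h3 (fun y y' hy _ => hm y y' hy)
    exact sup_induction hy (by simp) h1 h2 (fun y y' hy _ => hm y y' (Subgroup.mem_sup_left hy))
  refine ⟨⟨x, hx⟩, Subgroup.mem_upperCentralSeries_succ_iff.2 fun y => ?_, rfl⟩
  obtain ⟨z, hz, e⟩ := key y y.2
  have : z = ⁅(⟨x, hx⟩ : ↥(A ⊔ B ⊔ C)), y⁆ := Subtype.ext e
  exact this ▸ hz

theorem nilpotent_of_le_zr {R : Subgroup G} {n : ℕ} (h : R ≤ zr R n) : Group.IsNilpotent R := by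
  refine ⟨n, eq_top_iff.2 fun x _ => ?_⟩
  obtain ⟨y, hy, e⟩ := h x.2
  exact (Subtype.ext e : y = x) ▸ hy

theorem nilpotent_aux {A B C N : Subgroup G} (hAB : RootCommutatorCase S A B) (hCB : RootCommutatorCase S C B)
    (hA : Comm A A) (hB : Comm B B) (hC : Comm C C) (hAC : Comm A C)
    (hN : A ⊔ ⁅A, B⁆ ⊔ (C ⊔ ⁅C, B⁆) ≤ N) (h2 : Comm ⁅N, N⁆ N) : Group.IsNilpotent ↥(A ⊔ B ⊔ C) := by
  set R := A ⊔ B ⊔ C with hR
  have one : ∀ {x y : G} {n : ℕ}, x * y = y * x → x * y * x⁻¹ * y⁻¹ ∈ zr R n := fun h => by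
    rw [cm_eq_one_of_comm h]; exact one_mem _
  have inv : ∀ {x y : G} {n : ℕ}, x * y * x⁻¹ * y⁻¹ ∈ zr R n → y * x * y⁻¹ * x⁻¹ ∈ zr R n := fun k => by
    have := inv_mem k
    convert this using 1; group
  have hAR : A ≤ R := le_sup_left.trans le_sup_left
  have hBR : B ≤ R := le_sup_right.trans le_sup_left
  have hCR : C ≤ R := le_sup_right
  have hER : ⁅A, B⁆ ≤ R := (Subgroup.commutator_le_sup _ _).trans (sup_le hAR hBR)
  have hFR : ⁅C, B⁆ ≤ R := (Subgroup.commutator_le_sup _ _).trans (sup_le hCR hBR)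
  have hAN : A ≤ N := (le_sup_left.trans le_sup_left).trans hN
  have hEN : ⁅A, B⁆ ≤ N := (le_sup_right.trans le_sup_left).trans hN
  have hCN : C ≤ N := (le_sup_left.trans le_sup_right).trans hN
  have hFN : ⁅C, B⁆ ≤ N := (le_sup_right.trans le_sup_right).trans hN
  have cmR : ∀ {x y : G}, x ∈ R → y ∈ R → x * y * x⁻¹ * y⁻¹ ∈ R := fun hx hy =>
    mul_mem (mul_mem (mul_mem hx hy) (inv_mem hx)) (inv_mem hy)
  have s1 : ∀ e ∈ ⁅A, B⁆, ∀ f ∈ ⁅C, B⁆, e * f * e⁻¹ * f⁻¹ ∈ zr R 1 := by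
    intro e he f hf
    have hc := h2 _ (cm_mem (hEN he) (hFN hf))
    refine zr_succ (cmR (hER he) (hFR hf)) (fun y hy => one (hc y (hAN hy))) (fun b hb => one ?_)
      (fun y hy => one (hc y (hCN hy)))
    have k1 : Commute e b := rcc_comm_right hAB e he b hb
    have k2 : Commute f b := rcc_comm_right hCB f hf b hb
    exact (((k1.mul_left k2).mul_left k1.inv_left).mul_left k2.inv_left).eq
  have s2 : ∀ {A C : Subgroup G}, RootCommutatorCase S A B → RootCommutatorCase S C B → A ≤ R → ⁅C, B⁆ ≤ R →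
      A ≤ N → ⁅A, B⁆ ≤ N → ⁅C, B⁆ ≤ N → (∀ e ∈ ⁅A, B⁆, ∀ f ∈ ⁅C, B⁆, e * f * e⁻¹ * f⁻¹ ∈ zr R 1) →
      ∀ a ∈ A, ∀ f ∈ ⁅C, B⁆, a * f * a⁻¹ * f⁻¹ ∈ zr R 2 := by
    intro A' C' hAB' hCB' hAR' hFR' hAN' hEN' hFN' s1' a ha f hf
    have hc := h2 _ (cm_mem (hAN' ha) (hFN' hf))
    refine zr_succ (cmR (hAR' ha) (hFR' hf)) (fun y hy => one (hc y (hAN hy))) (fun b hb => ?_)
      (fun y hy => one (hc y (hCN hy)))
    have he := inv_mem (cm_mem ha hb)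
    have e1 := rcc_conj_eq hAB' ha hb
    set e := (a * b * a⁻¹ * b⁻¹)⁻¹
    have k2 : b * f * b⁻¹ = f := by rw [← rcc_comm_right hCB' f hf b hb]; group
    have k3 := h2 _ (cm_mem (hEN' he) (hFN' hf)) a (hAN' ha)
    have : a * f * a⁻¹ * f⁻¹ * b * (a * f * a⁻¹ * f⁻¹)⁻¹ * b⁻¹ = (e * f * e⁻¹ * f⁻¹)⁻¹ := by
      calc a * f * a⁻¹ * f⁻¹ * b * (a * f * a⁻¹ * f⁻¹)⁻¹ * b⁻¹
          = a * f * a⁻¹ * f⁻¹ * ((b * a * b⁻¹) * (b * f * b⁻¹) * (b * a * b⁻¹)⁻¹ * (b * f * b⁻¹)⁻¹)⁻¹ := by group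
        _ = a * f * a⁻¹ * f⁻¹ * (a * (e * f * e⁻¹ * f⁻¹) * (f * a⁻¹ * f⁻¹))⁻¹ := by rw [e1, k2]; group
        _ = _ := by rw [← k3]; group
    rw [this]; exact inv_mem (s1' e he f hf)
  have s2a := s2 hAB hCB hAR hFR hAN hEN hFN s1
  have s2c := s2 hCB hAB hCR hER hCN hFN hEN (fun f hf e he => inv (s1 e he f hf))
  have s3e : ⁅A, B⁆ ≤ zr R 3 := fun e he => zr_succ (hER he)
    (fun y hy => one (rcc_comm_left hAB e he y hy)) (fun y hy => one (rcc_comm_right hAB e he y hy))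
    (fun c hc => inv (s2c c hc e he))
  have s3f : ⁅C, B⁆ ≤ zr R 3 := fun f hf => zr_succ (hFR hf)
    (fun a ha => inv (s2a a ha f hf)) (fun y hy => one (rcc_comm_right hCB f hf y hy))
    (fun y hy => one (rcc_comm_left hCB f hf y hy))
  refine nilpotent_of_le_zr (n := 4) (sup_le (sup_le (fun a ha => ?_) fun b hb => ?_) fun c hc => ?_)
  · exact zr_succ (hAR ha) (fun y hy => one (hA a ha y hy)) (fun y hy => s3e (cm_mem ha hy))
      (fun y hy => one (hAC a ha y hy))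
  · exact zr_succ (hBR hb) (fun y hy => inv (s3e (cm_mem hy hb))) (fun y hy => one (hB b hb y hy))
      (fun y hy => inv (s3f (cm_mem hy hb)))
  · exact zr_succ (hCR hc) (fun y hy => one (hAC y hy c hc).symm) (fun y hy => s3f (cm_mem hc hy))
      (fun y hy => one (hC c hc y hy))

theorem class_two_sup {X Y : Subgroup G} (h : Comm X Y) (hX : Comm ⁅X, X⁆ X) (hY : Comm ⁅Y, Y⁆ Y) :
    Comm ⁅X ⊔ Y, X ⊔ Y⁆ (X ⊔ Y) := by
  have h1 : ⁅X ⊔ Y, X ⊔ Y⁆ ≤ ⁅X, X⁆ ⊔ ⁅Y, Y⁆ := by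
    rw [Subgroup.commutator_le]
    intro u hu v hv
    obtain ⟨x, hx, y, hy, rfl⟩ := (mem_sup_comm h).1 hu
    obtain ⟨x', hx', y', hy', rfl⟩ := (mem_sup_comm h).1 hv
    have k1 : Commute x y := h x hx y hy
    have k2 : Commute x y' := h x hx y' hy'
    have k3 : Commute x' y := h x' hx' y hy
    have k4 : Commute x' y' := h x' hx' y' hy'
    have : ⁅x * y, x' * y'⁆ = (x * x' * x⁻¹ * x'⁻¹) * (y * y' * y⁻¹ * y'⁻¹) := by
      have k5 : Commute (x⁻¹ * x'⁻¹) (y * y' * y⁻¹ * y'⁻¹) := by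
        refine Commute.mul_left ?_ ?_
        · exact (((k1.mul_right k2).mul_right k1.inv_right).mul_right k2.inv_right).inv_left
        · exact (((k3.mul_right k4).mul_right k3.inv_right).mul_right k4.inv_right).inv_left
      calc ⁅x * y, x' * y'⁆ = x * (y * x') * y' * y⁻¹ * (x⁻¹ * y'⁻¹) * x'⁻¹ := by
            rw [commutatorElement_def]; group
        _ = x * x' * ((y * y' * y⁻¹ * y'⁻¹) * (x⁻¹ * x'⁻¹)) := by
            rw [← k3.eq, k2.inv_inv.eq]; group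
        _ = _ := by rw [← k5.eq]; group
    rw [this]
    exact mul_mem (Subgroup.mem_sup_left (cm_mem hx hx')) (Subgroup.mem_sup_right (cm_mem hy hy'))
  have a1 : ⁅X, X⁆ ≤ X := (Subgroup.commutator_le_sup _ _).trans (sup_idem X).le
  have a2 : ⁅Y, Y⁆ ≤ Y := (Subgroup.commutator_le_sup _ _).trans (sup_idem Y).le
  exact ((hX.sup_right (h.mono a1 le_rfl)).sup_left ((h.symm.mono a2 le_rfl).sup_right hY)).mono h1 le_rfl

end Aux

/-- Let S be a set of abstract root subgroups of G and A, B, C ∈ S with ⁅A, B⁆ ∈ S and ⁅B, C⁆ ∈ S, where A and C are different and commute. For a non-identity b ∈ B put X = ⟨A, b⁻¹ C b⟩ and Y = ⟨b⁻¹ A b, C⟩ and R = ⟨A, B, C⟩. Then X and Y are either both abelian or both nilpotent of class exactly two; X and Y commute elementwise; XY is normal in R with R = (XY) B; and R is nilpotent. -/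
theorem result {G : Type*} [Group G] {S : Set (Subgroup G)} (hS : Cfsg.IsRootSubgroupSet S)
    {A B C : Subgroup G} (hA : A ∈ S) (hB : B ∈ S) (hC : C ∈ S) (hAB : ⁅A, B⁆ ∈ S) (hBC : ⁅B, C⁆ ∈ S)
    (hAC : C ∈ Cfsg.commutingPartners S A)
    {b : G} (hb : b ∈ B) (hb1 : b ≠ 1) :
    ((IsMulCommutative ↥(A ⊔ Cfsg.conjBy C b⁻¹) ∧ IsMulCommutative ↥(Cfsg.conjBy A b⁻¹ ⊔ C)) ∨
      ((¬ IsMulCommutative ↥(A ⊔ Cfsg.conjBy C b⁻¹) ∧
          ⁅⁅A ⊔ Cfsg.conjBy C b⁻¹, A ⊔ Cfsg.conjBy C b⁻¹⁆, A ⊔ Cfsg.conjBy C b⁻¹⁆ = ⊥) ∧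
        (¬ IsMulCommutative ↥(Cfsg.conjBy A b⁻¹ ⊔ C) ∧
          ⁅⁅Cfsg.conjBy A b⁻¹ ⊔ C, Cfsg.conjBy A b⁻¹ ⊔ C⁆, Cfsg.conjBy A b⁻¹ ⊔ C⁆ = ⊥))) ∧
    ⁅A ⊔ Cfsg.conjBy C b⁻¹, Cfsg.conjBy A b⁻¹ ⊔ C⁆ = ⊥ ∧
    (∀ r ∈ A ⊔ B ⊔ C, Cfsg.conjBy ((A ⊔ Cfsg.conjBy C b⁻¹) ⊔ (Cfsg.conjBy A b⁻¹ ⊔ C)) r =
      (A ⊔ Cfsg.conjBy C b⁻¹) ⊔ (Cfsg.conjBy A b⁻¹ ⊔ C)) ∧
    ((A ⊔ Cfsg.conjBy C b⁻¹) ⊔ (Cfsg.conjBy A b⁻¹ ⊔ C)) ⊔ B = A ⊔ B ⊔ C ∧
    Group.IsNilpotent ↥(A ⊔ B ⊔ C) := by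
  have h1 := rcc_of_mem hS hA hB hAB
  have h2 := rcc_symm (rcc_of_mem hS hB hC hBC)
  have hc : Comm A C := comm_iff.1 hAC.2.2
  have hb' := inv_mem hb
  have hb1' := inv_ne_one.2 hb1
  have hA' := hS.conj_mem A hA b⁻¹
  have hC' := hS.conj_mem C hC b⁻¹
  have hX := class_two' hS hA hC' (not_pair hS hA hC h2 hc hb')
  have hY := class_two' hS hA' hC (fun h => not_pair hS hC hA h1 hc.symm hb' (RankOnePair_symm h))
  have hXY : Comm (A ⊔ conjBy C b⁻¹) (conjBy A b⁻¹ ⊔ C) :=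
    ((rcc_comm_conjBy hS hA h1 hb').sup_right hc).sup_left
      ((hc.symm.conj b⁻¹).sup_right (rcc_comm_conjBy hS hC h2 hb').symm)
  have hiff : Comm A (conjBy C b⁻¹) ↔ Comm (conjBy A b⁻¹) C := by
    rw [comm_conj_iff h2 hc hb' hb1', ← comm_conj_iff h2 hc hb hb1]
    constructor
    · intro h
      have := h.conj b⁻¹
      rwa [conjBy_inv_conjBy] at this
    · intro h
      have := h.conj b
      rwa [conjBy_conjBy_inv] at this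
  have hN : (A ⊔ conjBy C b⁻¹) ⊔ (conjBy A b⁻¹ ⊔ C) = A ⊔ ⁅A, B⁆ ⊔ (C ⊔ ⁅C, B⁆) := by
    rw [← rcc_sup_conjBy h1 hb' hb1', ← rcc_sup_conjBy h2 hb' hb1']
    ac_rfl
  refine ⟨?_, comm_iff.2 hXY, ?_, ?_, ?_⟩
  · rw [isMulCommutative_sup_iff hS hA hC', isMulCommutative_sup_iff hS hA' hC, ← hiff]
    by_cases h : Comm A (conjBy C b⁻¹)
    · exact Or.inl ⟨h, h⟩
    · exact Or.inr ⟨⟨h, comm_iff.2 hX⟩, h, comm_iff.2 hY⟩
  · intro r hr
    have hm : ∀ x y : G, conjBy ((A ⊔ conjBy C b⁻¹) ⊔ (conjBy A b⁻¹ ⊔ C)) x =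
        (A ⊔ conjBy C b⁻¹) ⊔ (conjBy A b⁻¹ ⊔ C) → conjBy ((A ⊔ conjBy C b⁻¹) ⊔ (conjBy A b⁻¹ ⊔ C)) y =
        (A ⊔ conjBy C b⁻¹) ⊔ (conjBy A b⁻¹ ⊔ C) → conjBy ((A ⊔ conjBy C b⁻¹) ⊔ (conjBy A b⁻¹ ⊔ C)) (x * y) =
        (A ⊔ conjBy C b⁻¹) ⊔ (conjBy A b⁻¹ ⊔ C) := fun x y k1 k2 => by rw [← conjBy_conjBy, k2, k1]
    refine sup_induction hr (conjBy_one _) (fun r hr => ?_)
      (fun c hc => conjBy_of_mem (Subgroup.mem_sup_right (Subgroup.mem_sup_right hc))) (fun x y _ _ => hm x y)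
    refine sup_induction hr (conjBy_one _)
      (fun a ha => conjBy_of_mem (Subgroup.mem_sup_left (Subgroup.mem_sup_left ha))) (fun b' hb' => ?_)
      (fun x y _ _ => hm x y)
    rw [hN, conjBy_sup, rcc_conjBy_line h1 hb', rcc_conjBy_line h2 hb']
  · apply le_antisymm
    · refine sup_le (sup_le (sup_le (le_sup_left.trans le_sup_left) ?_) (sup_le ?_ le_sup_right))
        (le_sup_right.trans le_sup_left)
      · exact conjBy_le_of_mem le_sup_right (Subgroup.mem_sup_left (Subgroup.mem_sup_right hb'))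
      · exact conjBy_le_of_mem (le_sup_left.trans le_sup_left) (Subgroup.mem_sup_left (Subgroup.mem_sup_right hb'))
    · exact sup_le (sup_le ((le_sup_left.trans le_sup_left).trans le_sup_left) le_sup_right)
        ((le_sup_right.trans le_sup_right).trans le_sup_left)
  · exact nilpotent_aux h1 h2 (self_comm hS hA) (self_comm hS hB) (self_comm hS hC) hc hN.ge
      (class_two_sup hXY hX hY)

end Cfsg.Agent.S5030
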