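import Cfsg.Statements.S5033
import Cfsg.Agent.CHEV.RootSubGraph
import Cfsg.Agent.SIG.Quasisimple

set_option autoImplicit false
open Cfsg

namespace Cfsg.Agent.S5033

open CL.RankOne CL.RootSub

/-- Quasisimplicity criterion for groups generated by abstract root subgroups. Let S be a set of abstract root subgroups of G with more than one member such that: the graph of rank one pairs on S is connected; no two different members of S have the same set of commuting members of S; if S is degenerate then every member of S has more than three elements; and every rank one pair in S is special. Then for every A ∈ S one has G = G' A with A ∩ G' ≠ 1, and the commutator subgroup G' is quasisimple. Moreover G is perfect if S is non-degenerate, or if some rank one pair A, B in S generates a perfect group. -/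
theorem result {G : Type*} [Group G] {S : Set (Subgroup G)} (hS : Cfsg.IsRootSubgroupSet S) (h2 : ∃ A ∈ S, ∃ B ∈ S, A ≠ B)
    (h1 : Cfsg.IsConnectedFamily (Cfsg.FAdj S) S)
    (h2' : ∀ A ∈ S, ∀ C ∈ S, A ≠ C → Cfsg.centralizingMembers S A ≠ Cfsg.centralizingMembers S C)
    (h3 : Cfsg.IsDegenerateRootSet S → ∀ A ∈ S, 3 < ENat.card A)
    (h4 : ∀ A ∈ S, ∀ B ∈ Cfsg.rankOnePartners S A, Cfsg.IsSpecialRankOnePair A B) :
    (∀ A ∈ S, commutator G ⊔ A = ⊤ ∧ A ⊓ commutator G ≠ ⊥) ∧ Cfsg.IsQuasisimple ↥(commutator G) ∧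
    (Cfsg.IsNondegenerateRootSet S → commutator G = ⊤) ∧
    ((∃ A ∈ S, ∃ B ∈ Cfsg.rankOnePartners S A, Group.IsPerfect ↥(A ⊔ B)) → commutator G = ⊤) := by
  obtain ⟨A0, hA0, B0, hB0, hne0⟩ := h2
  have hc : IsConjClassOfSubgroups S := ⟨⟨A0, hA0⟩, fun C hC D hD => reach_conj (h1 C hC D hD)⟩
  have hO0 : HasOpp S A0 := hasOpp_of_reach (h1 A0 hA0 B0 hB0) hne0.symm
  have hO := fun {B : Subgroup G} (hB : B ∈ S) => hasOpp_of_class hS hc hA0 hO0 hB
  have top_of : ∀ N : Subgroup G, N.Normal → ∀ A ∈ S, A ≤ N → N = ⊤ := by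
    intro N hN A hA hle
    refine eq_top_of_forall_le hS fun B hB => ?_
    obtain ⟨g, rfl⟩ := hc.2 A hA B hB
    rw [← conjBy_normal N g]; exact conjBy_mono hle g
  have hnd : ¬ IsDegenerateRootSet S → IsNondegenerateRootSet S := by
    intro h
    simp only [IsDegenerateRootSet, not_forall, not_not] at h
    obtain ⟨A, hA, B, hB, h⟩ := h
    obtain ⟨D, hD, hp⟩ := hO hA
    exact ⟨⟨A, hA, _, h.1, rcc_ne hS h, comm_iff.2 (rcc_comm_left h).symm⟩, ⟨A, hA, D, hD, hp⟩, A, hA, B, hB, h⟩
  -- a normal subgroup containing `⟨A, D⟩'` for a rank one pair is everything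
  have key : ∀ (N : Subgroup G) (hN : N.Normal), ∀ A ∈ S, ∀ D ∈ S, IsRankOnePair A D →
      A.map (QuotientGroup.mk' N) = D.map (QuotientGroup.mk' N) → N = ⊤ := by
    intro N hN A hA D hD hp e
    have hk : ∀ X Y : Subgroup G, Comm (X.map (QuotientGroup.mk' N)) (Y.map (QuotientGroup.mk' N)) →
        ⁅X, Y⁆ ≤ N := by
      intro X Y h
      rw [← comm_iff, ← Subgroup.map_commutator, Subgroup.map_eq_bot_iff, QuotientGroup.ker_mk'] at h
      exact h
    have hm : ∀ X Y : Subgroup G, Comm X Y → Comm (X.map (QuotientGroup.mk' N)) (Y.map (QuotientGroup.mk' N)) := by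
      intro X Y h
      rw [← comm_iff, ← Subgroup.map_commutator, comm_iff.2 h, Subgroup.map_bot]
    by_cases hdeg : IsDegenerateRootSet S
    · refine top_of N hN A hA ?_
      rw [← commutator_diagonal_eq (h4 A hA D ⟨hD, hp⟩) (hS.commutative A hA) (h3 hdeg A hA)]
      refine (Subgroup.commutator_mono le_rfl (inf_le_left.trans inf_le_left)).trans (hk _ _ ?_)
      rw [Subgroup.map_sup, ← e, sup_idem]
      exact hm _ _ (self_comm hS hA)
    · obtain ⟨F, hF, k1, -, -⟩ := nondeg_exists_config hS hc (hnd hdeg) hA hD hp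
      exact top_of N hN _ k1.1 (hk _ _ (e ▸ hm _ _ (line_comm hF)))
  have hperf : commutator G = ⊤ := by
    obtain ⟨D, hD, hp⟩ := id hO0
    refine key _ inferInstance A0 hA0 D hD hp ?_
    obtain ⟨g, rfl⟩ := hc.2 A0 hA0 D hD
    rw [map_conjBy]
    refine (conjBy_eq_of_forall_comm fun a _ => ?_).symm
    obtain ⟨a, rfl⟩ := QuotientGroup.mk'_surjective _ a
    rw [← map_mul, ← map_mul, QuotientGroup.mk'_apply, QuotientGroup.mk'_apply, QuotientGroup.eq]
    have : g⁻¹ * a⁻¹ * g⁻¹⁻¹ * a⁻¹⁻¹ ∈ commutator G := cm_mem (Subgroup.mem_top g⁻¹) (Subgroup.mem_top a⁻¹)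
    convert this using 1
    group
  have hq : IsQuasisimple G := by
    refine CL.Comp.isQuasisimple_iff.2 ⟨⟨hperf⟩, ?_, fun N hN => ?_⟩
    · obtain ⟨a, -, ha1⟩ := exists_ne_one hS hA0
      exact ⟨a, 1, ha1⟩
    by_cases hn : ∀ A ∈ S, ∀ n ∈ N, conjBy A n = A
    · right
      intro n hnN
      have : Subgroup.centralizer ({n} : Set G) = ⊤ := by
        refine eq_top_of_forall_le hS fun A hA a ha => ?_
        obtain ⟨B, hB, hp⟩ := hO hA
        have k1 : n * a * n⁻¹ * a⁻¹ ∈ A := by
          refine mul_mem ?_ (inv_mem ha)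
          rw [← hn A hA n hnN]; exact conj_mem_conjBy ha n
        have k2 : n * a * n⁻¹ * a⁻¹ ∈ N := by
          have := mul_mem hnN (hN.conj_mem _ (inv_mem hnN) a)
          simpa only [mul_assoc] using this
        rw [Subgroup.mem_centralizer_singleton_iff]
        exact (comm_of_cm_eq_one (eq_one_of_conjBy_eq hp k1 (hn B hB _ k2))).symm
      rw [Subgroup.mem_center_iff]
      intro g
      have hg : g ∈ Subgroup.centralizer ({n} : Set G) := this ▸ Subgroup.mem_top g
      exact Subgroup.mem_centralizer_singleton_iff.1 hg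
    left
    push Not at hn
    obtain ⟨A, hA, n, hnN, hne⟩ := hn
    have k0 : ∀ {A C D : Subgroup G}, A ∈ S → D ∈ S → Comm C D → ¬ Comm A D →
        A.map (QuotientGroup.mk' N) = C.map (QuotientGroup.mk' N) → N = ⊤ := by
      intro A C D hA hD k1 k2 e
      have k3 : ⁅A.map (QuotientGroup.mk' N), D.map (QuotientGroup.mk' N)⁆ = ⊥ := by
        rw [e, ← Subgroup.map_commutator, comm_iff.2 k1, Subgroup.map_bot]
      rcases trichotomy hS hA hD with h | h | h
      · exact absurd h k2
      · refine key N hN A hA D hD h ?_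
        by_contra hne
        exact commutator_ne_bot (map_pair h _ hne) k3
      · refine top_of N hN _ h.1 ?_
        rwa [← Subgroup.map_commutator, Subgroup.map_eq_bot_iff, QuotientGroup.ker_mk'] at k3
    have e : A.map (QuotientGroup.mk' N) = (conjBy A n).map (QuotientGroup.mk' N) := by
      rw [map_conjBy, QuotientGroup.mk'_apply, (QuotientGroup.eq_one_iff n).2 hnN, conjBy_one]
    have hC := hS.conj_mem A hA n
    have h5 := h2' A hA _ hC hne.symm
    by_contra hNt
    refine h5 (Set.ext fun D => and_congr_right fun hD => ?_)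
    rw [← comm_iff_le, ← comm_iff_le]
    constructor
    · intro k
      by_contra k'
      exact hNt (k0 hC hD k.symm (fun h => k' h.symm) e.symm)
    · intro k
      by_contra k'
      exact hNt (k0 hA hD k.symm (fun h => k' h.symm) e)
  refine ⟨fun A hA => ?_, ?_, fun _ => hperf, fun _ => hperf⟩
  · rw [hperf, top_sup_eq, inf_top_eq]
    exact ⟨rfl, hS.ne_bot A hA⟩
  · rw [hperf]; exact hq.top

end Cfsg.Agent.S5033
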