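import Cfsg.Statements.S5035
import Cfsg.Agent.CHEV.RootSubGraph

set_option autoImplicit false
open Cfsg

namespace Cfsg.Agent.S5035

open CL.RankOne CL.RootSub

/-- Let S be a set of abstract root subgroups of G whose graph of rank one pairs is connected, and f a homomorphism from G onto a group H. Then either the images of the members of S form a set of abstract root subgroups of H whose graph of rank one pairs is again connected, or H equals the image of a member of S. -/
theorem result {G H : Type*} [Group G] [Group H] {S : Set (Subgroup G)} (hS : Cfsg.IsRootSubgroupSet S)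
    (hc : Cfsg.IsConnectedFamily (Cfsg.FAdj S) S) (f : G →* H) (hf : Function.Surjective f) :
    (Cfsg.IsRootSubgroupSet ((fun A : Subgroup G => A.map f) '' S) ∧
      Cfsg.IsConnectedFamily (Cfsg.FAdj ((fun A : Subgroup G => A.map f) '' S)) ((fun A : Subgroup G => A.map f) '' S)) ∨
    ∃ A ∈ S, A.map f = ⊤ := by
  by_cases h0 : ∃ A ∈ S, A.map f = ⊤
  · exact Or.inr h0
  left
  push Not at h0
  have hreach : ∀ {A B : Subgroup G}, Relation.ReflTransGen (FAdj S) A B →
      Relation.ReflTransGen (FAdj ((fun A : Subgroup G => A.map f) '' S)) (A.map f) (B.map f) := by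
    intro A B h
    induction h with
    | refl => exact .refl
    | @tail B C _ h2 ih =>
      by_cases e : B.map f = C.map f
      · exact e ▸ ih
      · exact ih.tail ⟨⟨B, h2.1, rfl⟩, ⟨C, h2.2.1, rfl⟩, map_pair h2.2.2 f e⟩
  have hgen : (⨆ A ∈ (fun A : Subgroup G => A.map f) '' S, A) = ⊤ := by
    rw [eq_top_iff, ← Subgroup.map_top_of_surjective f hf, ← hS.generates]
    simp only [Subgroup.map_iSup]
    exact iSup₂_le fun A hA => le_iSup₂_of_le (f := fun A (_ : A ∈ (fun A : Subgroup G => A.map f) '' S) => A)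
      (A.map f) ⟨A, hA, rfl⟩ le_rfl
  have hnb : ∀ A ∈ S, A.map f ≠ ⊥ := by
    intro A hA e
    apply h0 A hA
    rw [eq_top_iff, ← hgen]
    refine iSup₂_le ?_
    rintro _ ⟨B, hB, rfl⟩
    obtain ⟨g, rfl⟩ := reach_conj (hc A hA B hB)
    simp only [map_conjBy, e, conjBy_bot, le_refl]
  refine ⟨⟨?_, ?_, hgen, ?_, ?_⟩, ?_⟩
  · rintro _ ⟨A, hA, rfl⟩
    have := hS.commutative A hA
    infer_instance
  · rintro _ ⟨A, hA, rfl⟩
    exact hnb A hA
  · rintro _ ⟨A, hA, rfl⟩ g
    obtain ⟨g, rfl⟩ := hf g
    exact ⟨_, hS.conj_mem A hA g, map_conjBy f A g⟩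
  · rintro _ ⟨A, hA, rfl⟩ _ ⟨B, hB, rfl⟩
    dsimp only
    rcases hS.pair A hA B hB with h | h | h
    · left; rw [← Subgroup.map_commutator, h, Subgroup.map_bot]
    · by_cases e : A.map f = B.map f
      · left
        rw [← e, ← Subgroup.map_commutator, comm_iff.2 (self_comm hS hA), Subgroup.map_bot]
      · exact Or.inr (Or.inl (map_pair h f e))
    · right; right
      have key : ∀ {A B : Subgroup G}, RootCommutatorCase S A B → ∀ a ∈ A.map f, a ≠ 1 →
          Subgroup.closure ((fun b : H => a * b * a⁻¹ * b⁻¹) '' (B.map f : Set H)) = ⁅A.map f, B.map f⁆ := by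
        rintro A B h _ ⟨a, ha, rfl⟩ ha1
        rw [← Subgroup.map_commutator, ← h.2.2.1 a ha (fun e => ha1 (by rw [e, map_one])),
          MonoidHom.map_closure, Subgroup.coe_map, Set.image_image, Set.image_image]
        simp
      refine ⟨⟨_, h.1, Subgroup.map_commutator _ _ _⟩, ?_, key h, ?_⟩
      · rw [← Subgroup.map_commutator, ← Subgroup.map_sup]
        rintro _ ⟨c, hc, rfl⟩ _ ⟨x, hx, rfl⟩
        rw [← map_mul, ← map_mul, h.2.1 c hc x hx]
      · rintro _ ⟨b, hb, rfl⟩ hb1
        rw [← Subgroup.map_commutator, ← h.2.2.2 b hb (fun e => hb1 (by rw [e, map_one])),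
          MonoidHom.map_closure, Subgroup.coe_map, Set.image_image, Set.image_image]
        simp
  · rintro _ ⟨A, hA, rfl⟩ _ ⟨B, hB, rfl⟩
    exact hreach (hc A hA B hB)

end Cfsg.Agent.S5035
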