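import Cfsg.Statements.S5036
import Cfsg.Agent.CHEV.RootSubGraph

set_option autoImplicit false
open Cfsg

namespace Cfsg.Agent.S5036

open CL.RankOne CL.RootSub

/-- Let S be a set of abstract root subgroups of G, A, B ∈ S with C = ⁅A, B⁆ ∈ S, and D ∈ S with ⁅D, C⁆ = A. Put X = ⟨B, D⟩ and N = AC. Then B, D form a rank one pair; the conjugates of A under X are the conjugates of C under X, namely the conjugates of A by elements of B together with C, equally the conjugates of C by elements of D together with A, and they partition N; and the centralizer of N in X is central in X. -/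
theorem result {G : Type*} [Group G] {S : Set (Subgroup G)} (hS : Cfsg.IsRootSubgroupSet S)
    {A B D : Subgroup G} (hA : A ∈ S) (hB : B ∈ S) (hC : ⁅A, B⁆ ∈ S) (hD : D ∈ S) (hDC : ⁅D, ⁅A, B⁆⁆ = A) :
    Cfsg.IsRankOnePair B D ∧
    {E | ∃ x ∈ B ⊔ D, E = Cfsg.conjBy A x} = {E | ∃ x ∈ B ⊔ D, E = Cfsg.conjBy ⁅A, B⁆ x} ∧
    {E | ∃ x ∈ B ⊔ D, E = Cfsg.conjBy A x} = (fun b : G => Cfsg.conjBy A b) '' (B : Set G) ∪ {⁅A, B⁆} ∧
    {E | ∃ x ∈ B ⊔ D, E = Cfsg.conjBy A x} = (fun d : G => Cfsg.conjBy ⁅A, B⁆ d) '' (D : Set G) ∪ {A} ∧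
    Cfsg.IsSubgroupPartition (A ⊔ ⁅A, B⁆) {E | ∃ x ∈ B ⊔ D, E = Cfsg.conjBy A x} ∧
    ∀ x ∈ (B ⊔ D) ⊓ Subgroup.centralizer ((A ⊔ ⁅A, B⁆ : Subgroup G) : Set G), ∀ y ∈ B ⊔ D, x * y = y * x := by
  have hAB := rcc_of_mem hS hA hB hC
  have hp := hex_pair hS hA hB hD hAB hDC
  have h2 := hex_rcc hS hA hD hAB hDC
  have hAD : Comm A D := hDC ▸ rcc_comm_left h2
  have hCB : Comm ⁅A, B⁆ B := rcc_comm_right hAB
  have hOB : HasOpp S B := ⟨D, hD, hp⟩
  set C := ⁅A, B⁆ with hCdef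
  have e12 : (fun b : G => conjBy A b) '' (B : Set G) ∪ {C} = (fun d : G => conjBy C d) '' (D : Set G) ∪ {A} := by
    ext E
    constructor
    · rintro (⟨b, hb, rfl⟩ | rfl)
      · by_cases hb1 : b = 1
        · right; simp [hb1, conjBy_one]
        · obtain ⟨d, hd, -, e⟩ := conjBy_right_eq hp hb hb1
          exact Or.inl ⟨d, hd, (hex_conj hS hA hB hD hAB hDC hb hb1 hd e).symm⟩
      · exact Or.inl ⟨1, one_mem _, conjBy_one _⟩
    · rintro (⟨d, hd, rfl⟩ | rfl)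
      · by_cases hd1 : d = 1
        · right; simp [hd1, conjBy_one]
        · obtain ⟨b, hb, hb1, e⟩ := conjBy_right_eq (RankOnePair_symm hp) hd hd1
          exact Or.inl ⟨b, hb, hex_conj hS hA hB hD hAB hDC hb hb1 hd e.symm⟩
      · exact Or.inl ⟨1, one_mem _, conjBy_one _⟩
  have hinv : ∀ x ∈ B ⊔ D, ∀ E ∈ (fun b : G => conjBy A b) '' (B : Set G) ∪ {C},
      conjBy E x ∈ (fun b : G => conjBy A b) '' (B : Set G) ∪ {C} := by
    intro x hx
    refine sup_induction hx ?_ ?_ ?_ ?_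
    · intro E hE; rwa [conjBy_one]
    · rintro b hb E (⟨b', hb', rfl⟩ | rfl)
      · exact Or.inl ⟨b * b', mul_mem hb hb', (conjBy_conjBy _ _ _).symm⟩
      · exact Or.inr (hCB.conjBy_eq hb)
    · rw [e12]
      rintro d hd E (⟨d', hd', rfl⟩ | rfl)
      · exact Or.inl ⟨d * d', mul_mem hd hd', (conjBy_conjBy _ _ _).symm⟩
      · exact Or.inr (hAD.conjBy_eq hd)
    · intro x y _ _ hx hy E hE
      rw [← conjBy_conjBy]; exact hx _ (hy E hE)
  obtain ⟨b0, hb0, hb1⟩ := exists_ne_one hS hB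
  obtain ⟨d0, hd0, -, e0⟩ := conjBy_right_eq hp hb0 hb1
  have e1 := hex_conj hS hA hB hD hAB hDC hb0 hb1 hd0 e0
  have hx0 : d0⁻¹ * b0 ∈ B ⊔ D := mul_mem (Subgroup.mem_sup_right (inv_mem hd0)) (Subgroup.mem_sup_left hb0)
  have e2 : C = conjBy A (d0⁻¹ * b0) := by rw [← conjBy_conjBy, e1, conjBy_inv_conjBy]
  have e3 : {E | ∃ x ∈ B ⊔ D, E = conjBy A x} = (fun b : G => conjBy A b) '' (B : Set G) ∪ {C} := by
    ext E
    constructor
    · rintro ⟨x, hx, rfl⟩
      exact hinv x hx A (Or.inl ⟨1, one_mem _, conjBy_one _⟩)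
    · rintro (⟨b, hb, rfl⟩ | rfl)
      · exact ⟨b, Subgroup.mem_sup_left hb, rfl⟩
      · exact ⟨_, hx0, e2⟩
  have hcomm : ∀ a ∈ A, ∀ b ∈ B, b ≠ 1 → a * b = b * a → a = 1 := fun a ha b hb hb1 e =>
    rcc_inj_right hS hB hOB (rcc_symm hAB) hb hb1 ha e.symm
  have hAC : ∀ a ∈ A, a ∈ C → a = 1 := fun a ha hc => hcomm a ha b0 hb0 hb1 (hCB a hc b0 hb0)
  have hN : ∀ x ∈ B ⊔ D, conjBy (A ⊔ C) x = A ⊔ C := by
    intro x hx
    refine sup_induction hx (conjBy_one _) (fun b hb => rcc_conjBy_line hAB hb) (fun d hd => ?_) ?_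
    · have h3 := rcc_conjBy_line (rcc_symm h2) hd
      rwa [Subgroup.commutator_comm _ D, hDC, sup_comm] at h3
    · intro x y _ _ hx hy
      rw [← conjBy_conjBy, hy, hx]
  refine ⟨hp, ?_, e3, e3.trans e12, ?_, ?_⟩
  · ext E
    constructor
    · rintro ⟨x, hx, rfl⟩
      exact ⟨x * (d0⁻¹ * b0)⁻¹, mul_mem hx (inv_mem hx0), by rw [e2, conjBy_conjBy]; congr 1; group⟩
    · rintro ⟨x, hx, rfl⟩
      exact ⟨x * (d0⁻¹ * b0), mul_mem hx hx0, by rw [← conjBy_conjBy, ← e2]⟩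
  · rw [e3]
    refine ⟨?_, ?_, ?_⟩
    · rintro E (⟨b, hb, rfl⟩ | rfl)
      · exact rcc_conjBy_le hAB hb
      · exact le_sup_right
    · intro x hx hx1
      obtain ⟨a, ha, e, he, rfl⟩ := (mem_sup_comm (rcc_comm_left hAB).symm).1 hx
      by_cases ha1 : a = 1
      · exact ⟨C, Or.inr rfl, by simpa [ha1] using he⟩
      · obtain ⟨b, hb, e1⟩ := rcc_mul_eq_conj hAB ha ha1 he
        exact ⟨conjBy A b, Or.inl ⟨b, hb, rfl⟩, e1 ▸ conj_mem_conjBy ha b⟩
    · have k1 : ∀ b ∈ B, conjBy A b ⊓ C = ⊥ := by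
        intro b hb
        rw [← hCB.conjBy_eq hb, ← conjBy_inf, conjBy_eq_bot_iff, eq_bot_iff]
        exact fun a ha => hAC a ha.1 ha.2
      rintro E (⟨b, hb, rfl⟩ | rfl) F (⟨b', hb', rfl⟩ | rfl) hne
      · have hbb : b'⁻¹ * b ≠ 1 := fun e => hne (by rw [inv_mul_eq_one.1 e])
        have hb2 := mul_mem (inv_mem hb') hb
        have : conjBy A (b'⁻¹ * b) ⊓ A = ⊥ := by
          rw [eq_bot_iff]
          rintro _ ⟨⟨a, ha, rfl⟩, h3⟩
          simp only [MulEquiv.coe_toMonoidHom, MulAut.conj_apply, SetLike.mem_coe] at h3 ⊢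
          rw [rcc_conj_eq hAB ha hb2] at h3 ⊢
          have h4 := hAC _ ((Subgroup.mul_mem_cancel_left _ ha).1 h3) (inv_mem (cm_mem ha hb2))
          rw [h4, hcomm a ha _ hb2 hbb (comm_of_cm_eq_one (inv_eq_one.1 h4))]
          simp
        have h5 := congrArg (fun X => conjBy X b') this
        simp only [conjBy_inf, conjBy_conjBy, conjBy_bot, mul_inv_cancel_left] at h5
        exact h5
      · exact k1 b hb
      · rw [inf_comm]; exact k1 b' hb'
      · exact absurd rfl hne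
  · refine (normal_dichotomy hp inf_le_left fun x hx => ?_).resolve_left fun e => ?_
    · rw [conjBy_inf, conjBy_of_mem hx]
      congr 1
      ext y
      rw [mem_conjBy, Subgroup.mem_centralizer_iff, Subgroup.mem_centralizer_iff]
      constructor
      · intro h n hn
        have h3 : x⁻¹ * n * x ∈ A ⊔ C := by rw [← mem_conjBy, hN x hx]; exact hn
        have := h _ h3
        calc n * y = x * (x⁻¹ * n * x * (x⁻¹ * y * x)) * x⁻¹ := by group
          _ = _ := by rw [this]; group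
      · intro h n hn
        have h3 : x * n * x⁻¹ ∈ A ⊔ C := by rw [← hN x hx]; exact conj_mem_conjBy hn x
        have := h _ h3
        calc n * (x⁻¹ * y * x) = x⁻¹ * (x * n * x⁻¹ * y) * x := by group
          _ = _ := by rw [this]; group
    · apply rcc_not_comm hS h2
      refine Comm.mono (A := _ ⊔ B) (Comm.sup_left ?_ hCB.symm) (e.symm ▸ le_sup_right) le_rfl
      exact fun n hn c hc => (Subgroup.mem_centralizer_iff.1 hn.2 c (Subgroup.mem_sup_right hc)).symm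

end Cfsg.Agent.S5036
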