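import Cfsg.Statements.S5037
import Cfsg.Agent.CHEV.RootSubGraph

set_option autoImplicit false
open Cfsg

namespace Cfsg.Agent.S5037

open CL.RankOne CL.RootSub

/-- Let S be a class of abstract root subgroups of G that is either degenerate or non-degenerate (so either the commutator case never occurs, or all three cases occur), and A ≠ C members of S. If every member of S commuting with A commutes with C, then A and C have the same commuting members of S; and if every rank one partner of A is a rank one partner of C, then A and C commute and have the same rank one partners. -/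
theorem result {G : Type*} [Group G] {S : Set (Subgroup G)} (hS : Cfsg.IsRootSubgroupClass S)
    (hdn : Cfsg.IsDegenerateRootSet S ∨ Cfsg.IsNondegenerateRootSet S)
    {A C : Subgroup G} (hA : A ∈ S) (hC : C ∈ S) (hAC : A ≠ C) :
    (Cfsg.centralizingMembers S A ⊆ Cfsg.centralizingMembers S C →
      Cfsg.centralizingMembers S A = Cfsg.centralizingMembers S C) ∧
    (Cfsg.rankOnePartners S A ⊆ Cfsg.rankOnePartners S C →
      ⁅A, C⁆ = ⊥ ∧ Cfsg.rankOnePartners S A = Cfsg.rankOnePartners S C) := by
  obtain ⟨hS, hc⟩ := hS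
  have hOA : HasOpp S A := by
    rcases hdn with h | h
    · by_contra hno
      obtain ⟨g, rfl⟩ := hc.2 A hA C hC
      have : Subgroup.centralizer (A : Set G) = ⊤ := by
        refine eq_top_of_forall_le hS fun B hB => ?_
        rcases trichotomy hS hA hB with h' | h' | h'
        · exact comm_iff_le.1 h'.symm
        · exact absurd ⟨B, hB, h'⟩ hno
        · exact absurd h' (h A hA B hB)
      have hg : g ∈ Subgroup.centralizer (A : Set G) := this ▸ Subgroup.mem_top g
      exact hAC (conjBy_eq_of_forall_comm (Subgroup.mem_centralizer_iff.1 hg)).symm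
    · exact nondeg_hasOpp hS hc h hA
  have hO := fun {B : Subgroup G} (hB : B ∈ S) => hasOpp_of_class hS hc hA hOA hB
  have hm : ∀ {X Y : Subgroup G}, X ∈ centralizingMembers S Y ↔ X ∈ S ∧ Comm X Y :=
    and_congr_right fun _ => comm_iff_le.symm
  constructor
  · intro h
    have hcm : Comm A C := (hm.1 (h (hm.2 ⟨hA, self_comm hS hA⟩))).2
    obtain ⟨D, hD, hp⟩ := hO hC
    have hq : IsRankOnePair A D := by
      rcases trichotomy hS hA hD with h' | h' | h'
      · exact absurd hp (hm.1 (h (hm.2 ⟨hD, h'.symm⟩))).2.symm.not_pair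
      · exact h'
      · exfalso
        have h1 := l1_rcc hS hC hD hA hp hcm.symm (rcc_symm h')
        exact rcc_not_comm hS h1 (hm.1 (h (hm.2 ⟨(rcc_symm h').1, rcc_comm_right (rcc_symm h')⟩))).2.symm
    obtain ⟨g, e1, e2⟩ := exists_swap_of_comm hq hp hcm
    refine h.antisymm fun X hX => ?_
    obtain ⟨hX1, hX2⟩ := hm.1 hX
    have h1 := hX2.conj g
    rw [e2] at h1
    have h2 := (hm.1 (h (hm.2 ⟨hS.conj_mem X hX1 g, h1⟩))).2
    rw [← e1] at h2
    exact hm.2 ⟨hX1, h2.of_conj⟩
  · intro h
    have hcm : Comm A C := by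
      rcases trichotomy hS hA hC with h' | h' | h'
      · exact h'
      · exact absurd rfl (h ⟨hC, h'⟩).2.ne
      · obtain ⟨D, hD, hp, h2, -⟩ := exists_opp_line hS hA hC (hO hC) h' (hO h'.1)
        exact absurd (h ⟨hD, hp⟩).2 h2.not_pair
    refine ⟨comm_iff.2 hcm, h.antisymm fun X hX => ?_⟩
    obtain ⟨D, hD, hp⟩ := hOA
    obtain ⟨g, e1, e2⟩ := exists_swap_of_comm hp (h ⟨hD, hp⟩).2 hcm
    have h1 := conjBy_pair hX.2 g
    rw [e2] at h1
    have h2 := conjBy_pair (h ⟨hS.conj_mem X hX.1 g, h1⟩).2 g⁻¹
    rw [← e1, conjBy_inv_conjBy, conjBy_inv_conjBy] at h2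
    exact ⟨hX.1, h2⟩

end Cfsg.Agent.S5037
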