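import Cfsg.Statements.S5038
import Cfsg.Agent.CHEV.RootSubGraph

set_option autoImplicit false
open Cfsg

namespace Cfsg.Agent.S5038

open CL.RankOne CL.RootSub

/-- Let S be a set of abstract root subgroups of G in which every member has a rank one partner, A ∈ S and B a line partner of A. Then the subgroup generated by the members of S normalizing AB permutes the members of S inside AB doubly transitively by conjugation. -/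
theorem result {G : Type*} [Group G] {S : Set (Subgroup G)} (hS : Cfsg.IsRootSubgroupSet S)
    (hF : ∀ A ∈ S, ¬ Cfsg.IsIsolatedIn (Cfsg.FAdj S) S A) {A B : Subgroup G} (hA : A ∈ S) (hB : B ∈ Cfsg.linePartners S A) :
    ∀ C₁ ∈ Cfsg.membersIn S (A ⊔ B), ∀ C₂ ∈ Cfsg.membersIn S (A ⊔ B), ∀ D₁ ∈ Cfsg.membersIn S (A ⊔ B),
      ∀ D₂ ∈ Cfsg.membersIn S (A ⊔ B), C₁ ≠ C₂ → D₁ ≠ D₂ →
        ∃ x ∈ ⨆ E ∈ Cfsg.normalizingMembers S (A ⊔ B), E, Cfsg.conjBy C₁ x = D₁ ∧ Cfsg.conjBy C₂ x = D₂ := by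
  have hO : ∀ {A : Subgroup G}, A ∈ S → HasOpp S A := fun hA => (hasOpp_iff hA).1 (hF _ hA)
  set H := ⨆ E ∈ normalizingMembers S (A ⊔ B), E with hH
  have hHN : H ≤ Subgroup.normalizer ((A ⊔ B : Subgroup G) : Set G) := iSup₂_le fun E hE => hE.2
  have hHm : ∀ x ∈ H, ∀ E ∈ membersIn S (A ⊔ B), conjBy E x ∈ membersIn S (A ⊔ B) := by
    intro x hx E hE
    refine ⟨hS.conj_mem E hE.1 x, ?_⟩
    rw [← conjBy_eq_self_iff.2 (hHN hx)]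
    exact conjBy_mono hE.2 x
  have key : ∀ {A' B' : Subgroup G}, A' ∈ S → B' ∈ linePartners S A' → A' ⊔ B' = A ⊔ B →
      ∃ D ∈ S, D ≤ H ∧ RootCommutatorCase S A' D ∧ A' ⊔ ⁅A', D⁆ = A ⊔ B := by
    intro A' B' hA' hB' e
    obtain ⟨X, hX, hp⟩ := hO hA'
    obtain ⟨F, hF', h1, h2, h3, h4, -⟩ := line_normal_form hS hA' hX hp hB'
    have e' : A' ⊔ ⁅A', ⁅X, F⁆⁆ = A ⊔ B := by rw [h3, ← h4, e]
    refine ⟨_, h1.1, ?_, h2, e'⟩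
    refine le_iSup₂_of_le (f := fun E (_ : E ∈ normalizingMembers S (A ⊔ B)) => E) _ ⟨h1.1, fun d hd => ?_⟩ le_rfl
    rw [← conjBy_eq_self_iff, ← e']
    exact rcc_conjBy_line h2 hd
  obtain ⟨D, hD, hDH, h1, e1⟩ := key hA hB rfl
  obtain ⟨D', hD', hDH', h2, e2⟩ := key h1.1 (line_symm hA (rcc_line hS hA (hO hA) h1)) (by rw [sup_comm, e1])
  have k1 : ∀ E ∈ membersIn S (A ⊔ B), E ≠ ⁅A, D⁆ → ∃ d ∈ D, conjBy E d = A := by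
    intro E hE hne
    obtain ⟨d, hd, rfl⟩ := (rcc_members hS hA (hO hA) h1 hE.1 (e1 ▸ hE.2)).resolve_left hne
    exact ⟨d⁻¹, inv_mem hd, conjBy_inv_conjBy _ _⟩
  have hF0 : ⁅A, D⁆ ∈ membersIn S (A ⊔ B) := ⟨h1.1, e1 ▸ le_sup_right⟩
  have k2 : ∀ E ∈ membersIn S (A ⊔ B), ∃ x ∈ H, conjBy E x = ⁅A, D⁆ := by
    intro E hE
    by_cases hne : E = ⁅A, D⁆
    · exact ⟨1, one_mem _, by rw [conjBy_one, hne]⟩
    obtain ⟨d', hd', hd1⟩ := exists_ne_one hS hD'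
    obtain ⟨d, hd, e3⟩ := k1 E hE hne
    obtain ⟨c, hc, e4⟩ := k1 _ (hHm d' (hDH' hd') _ hF0) (rcc_conjBy_ne hS (hO h1.1) h2 hd' hd1)
    refine ⟨(c * d')⁻¹ * d, mul_mem (inv_mem (mul_mem (hDH hc) (hDH' hd'))) (hDH hd), ?_⟩
    rw [← conjBy_conjBy, e3, conjBy_eq_iff_eq_conjBy_inv, inv_inv, ← conjBy_conjBy, e4]
  have k3 : ∀ E₁ ∈ membersIn S (A ⊔ B), ∀ E₂ ∈ membersIn S (A ⊔ B), E₁ ≠ E₂ →
      ∃ x ∈ H, conjBy E₁ x = ⁅A, D⁆ ∧ conjBy E₂ x = A := by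
    intro E₁ h₁ E₂ h₂ hne
    obtain ⟨x, hx, e3⟩ := k2 E₁ h₁
    obtain ⟨d, hd, e4⟩ := k1 _ (hHm x hx E₂ h₂) (fun e => hne (conjBy_inj.1 (e3.trans e.symm)))
    exact ⟨d * x, mul_mem (hDH hd) hx, by rw [← conjBy_conjBy, e3, (rcc_comm_right h1).conjBy_eq hd],
      by rw [← conjBy_conjBy, e4]⟩
  intro C₁ hC₁ C₂ hC₂ D₁ hD₁ D₂ hD₂ hC hD
  obtain ⟨x, hx, a1, a2⟩ := k3 C₁ hC₁ C₂ hC₂ hC
  obtain ⟨y, hy, b1, b2⟩ := k3 D₁ hD₁ D₂ hD₂ hD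
  refine ⟨y⁻¹ * x, mul_mem (inv_mem hy) hx, ?_, ?_⟩
  · rw [← conjBy_conjBy, a1, ← b1, conjBy_inv_conjBy]
  · rw [← conjBy_conjBy, a2, ← b2, conjBy_inv_conjBy]

end Cfsg.Agent.S5038
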