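import Cfsg.Statements.S5039
import Cfsg.Agent.CHEV.RootSubGraph

set_option autoImplicit false
universe u
open Cfsg

namespace Cfsg.Agent.S5039

open CL.RankOne CL.RootSub CL.SL2Hom

section Aux

variable {G : Type*} [Group G] {S : Set (Subgroup G)}

/-- `[β, y]` -/
def ww (y β : G) : G := β * y * β⁻¹ * y⁻¹

section W

variable {A D : Subgroup G} {y : G} (hp : IsRankOnePair A D) (hA : Comm A A) (hD : Comm D D)
  (hy : ∀ a ∈ A, a * y = y * a) (hc : Comm D (conjBy D y))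

include hD hc in
theorem ww_mul {β γ : G} (hβ : β ∈ D) (hγ : γ ∈ D) : ww y (β * γ) = ww y β * ww y γ := by
  have h1 := hc γ hγ _ (conj_mem_conjBy (inv_mem hβ) y)
  have h2 := hD _ (inv_mem hγ) _ (inv_mem hβ)
  calc ww y (β * γ) = β * γ * y * (γ⁻¹ * β⁻¹) * y⁻¹ := by unfold ww; group
    _ = β * (γ * (y * β⁻¹ * y⁻¹)) * (y * γ⁻¹ * y⁻¹) := by rw [h2]; group
    _ = _ := by rw [h1]; unfold ww; group

theorem ww_one : ww y 1 = 1 := by simp [ww]

include hD hc in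
theorem ww_inv {β : G} (hβ : β ∈ D) : ww y β⁻¹ = (ww y β)⁻¹ := by
  rw [eq_inv_iff_mul_eq_one, ← ww_mul hD hc (inv_mem hβ) hβ, inv_mul_cancel, ww_one]

theorem ww_mem {β : G} (hβ : β ∈ D) : ww y β ∈ D ⊔ conjBy D y := by
  have := mul_mem (Subgroup.mem_sup_left hβ) (Subgroup.mem_sup_right (S := D) (conj_mem_conjBy (inv_mem hβ) y))
  simpa only [ww, mul_assoc] using this

include hD hc in
theorem sup_comm_self : Comm (D ⊔ conjBy D y) (D ⊔ conjBy D y) :=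
  (hD.sup_right hc).sup_left (hc.symm.sup_right (hD.conj y))

include hp hA hy hc in
theorem ww_comm {β : G} (hβ : β ∈ D) : Comm A (conjBy A (ww y β)) := by
  by_cases h1 : β = 1
  · rw [h1, ww_one, conjBy_one]; exact hA
  obtain ⟨a, ha, -, e⟩ := conjBy_right_eq (RankOnePair_symm hp) (inv_mem hβ) (inv_ne_one.2 h1)
  have hy' : conjBy A y⁻¹ = A := by
    rw [conjBy_eq_iff_eq_conjBy_inv, inv_inv, conjBy_eq_of_forall_comm hy]
  apply Comm.of_conj (g := β⁻¹)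
  have e2 : β⁻¹ * ww y β = y * β⁻¹ * y⁻¹ := by unfold ww; group
  rw [conjBy_conjBy, e2, ← conjBy_conjBy, hy', ← conjBy_conjBy, e, conjBy_conjBy, ← hy a ha, ← conjBy_conjBy]
  exact hc.conj a

include hp hy in
theorem ww_ne (hne : conjBy D y ≠ D) {β : G} (hβ : β ∈ D) (h1 : β ≠ 1) : conjBy A (ww y β) ≠ A := by
  intro e0
  obtain ⟨a, ha, -, e⟩ := conjBy_right_eq (RankOnePair_symm hp) (inv_mem hβ) (inv_ne_one.2 h1)
  have hy' : conjBy A y⁻¹ = A := by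
    rw [conjBy_eq_iff_eq_conjBy_inv, inv_inv, conjBy_eq_of_forall_comm hy]
  have e1 := congrArg (fun X => conjBy X β⁻¹) e0
  have e2 : β⁻¹ * ww y β = y * β⁻¹ * y⁻¹ := by unfold ww; group
  rw [conjBy_conjBy, e2, ← conjBy_conjBy, hy', ← conjBy_conjBy, e, conjBy_conjBy, ← hy a ha, ← conjBy_conjBy] at e1
  exact hne (conjBy_inj.1 e1)

include hp hA hD hy hc in
theorem ww_cross {β : G} (hβ : β ∈ D) {a : G} (ha : a ∈ A) :
    Comm (conjBy D (a⁻¹ * (ww y β * a * (ww y β)⁻¹))) (D ⊔ conjBy D y) := by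
  have hwD : ∀ d ∈ D, d * ww y β = ww y β * d := fun d hd =>
    sup_comm_self hD hc d (Subgroup.mem_sup_left hd) _ (ww_mem hβ)
  by_cases h1 : a = 1
  · simp only [h1, inv_one, mul_one, mul_inv_cancel, conjBy_one]; exact hD.sup_right hc
  obtain ⟨d, hd, -, e⟩ := conjBy_right_eq hp ha h1
  have e1 : conjBy D (ww y β)⁻¹ = D := by
    rw [conjBy_eq_iff_eq_conjBy_inv, inv_inv, conjBy_eq_of_forall_comm hwD]
  have key : ∀ γ ∈ D, Comm (conjBy A (ww y β)) (conjBy A (ww y γ)) := by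
    intro γ hγ
    have := (ww_comm hp hA hy hc (mul_mem (inv_mem hγ) hβ)).conj (ww y γ)
    rw [conjBy_conjBy, ← ww_mul hD hc hγ (mul_mem (inv_mem hγ) hβ), mul_inv_cancel_left] at this
    exact this.symm
  apply Comm.of_conj (g := d⁻¹ * a)
  have e2 : d⁻¹ * a * (a⁻¹ * (ww y β * a * (ww y β)⁻¹)) = ww y β * (d⁻¹ * a) * (ww y β)⁻¹ := by
    rw [← mul_assoc (ww y β), ← hwD _ (inv_mem hd)]; group
  have e3 : conjBy D (d⁻¹ * a) = A := by rw [← conjBy_conjBy, e, conjBy_inv_conjBy]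
  have hy' : conjBy A y⁻¹ = A := by
    rw [conjBy_eq_iff_eq_conjBy_inv, inv_inv, conjBy_eq_of_forall_comm hy]
  have e4 : conjBy D (d⁻¹ * a * y) = conjBy A (ww y d⁻¹) := by
    rw [mul_assoc, hy a ha, ← mul_assoc, ← conjBy_conjBy, e, conjBy_conjBy]
    unfold ww
    rw [← conjBy_conjBy A y⁻¹, hy', inv_inv]
  rw [conjBy_conjBy, e2, ← conjBy_conjBy, e1, ← conjBy_conjBy, e3, conjBy_sup, e3, conjBy_conjBy, e4]
  exact (ww_comm hp hA hy hc hβ).symm.sup_right (key _ (inv_mem hd))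

include hp hA hD hy hc in
theorem ww_cross' {β : G} (hβ : β ∈ D) {a : G} (ha : a ∈ A) :
    Comm (conjBy (D ⊔ conjBy D y) (a⁻¹ * (ww y β * a * (ww y β)⁻¹))) (D ⊔ conjBy D y) := by
  rw [conjBy_sup]
  refine (ww_cross hp hA hD hy hc hβ ha).sup_left ?_
  have hp' := conjBy_pair hp y
  rw [conjBy_eq_of_forall_comm hy] at hp'
  have := ww_cross hp' hA (hD.conj y) (y := y⁻¹) (fun a ha => ((Commute.inv_right (hy a ha)).eq))
    (by rw [conjBy_inv_conjBy]; exact hc.symm) (conj_mem_conjBy (inv_mem hβ) y) ha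
  have e : ww y⁻¹ (y * β⁻¹ * y⁻¹) = ww y β := by
    have h1 := hc β hβ _ (conj_mem_conjBy (inv_mem hβ) y)
    calc ww y⁻¹ (y * β⁻¹ * y⁻¹) = (y * β⁻¹ * y⁻¹) * β := by unfold ww; group
      _ = _ := by rw [← h1]; unfold ww; group
  rwa [e, conjBy_inv_conjBy, sup_comm] at this

include hp hA hD hy hc in
theorem small {B : Subgroup G} (hq : IsRankOnePair A B)
    (hΓ : ∀ δ ∈ D, δ ≠ 1 → Comm (conjBy A (ww y δ)) B) {β γ δ : G} (hβ : β ∈ D) (hγ : γ ∈ D) (hδ : δ ∈ D)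
    (h1 : β ≠ 1) (h2 : γ ≠ 1) (h3 : γ * β ≠ 1) : δ = 1 ∨ δ = β ∨ δ = γ ∨ δ = γ * β := by
  by_contra hne
  push Not at hne
  obtain ⟨k1, k2, k3, k4⟩ := hne
  obtain ⟨a, ha, ha1⟩ := exists_ne_one_left hp
  have P : ∀ ε ∈ D, ε ≠ 1 → ∀ x ∈ A, ww y ε * x * (ww y ε)⁻¹ ∈ Subgroup.normalizer (B : Set G) :=
    fun ε hε hε1 x hx => conjBy_eq_self_iff.1 ((hΓ ε hε hε1).symm.conjBy_eq (conj_mem_conjBy hx _))
  have hz := ww_cross' hp hA hD hy hc hβ ha _ (conj_mem_conjBy (ww_mem hγ) _) _ (ww_mem hδ)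
  have hu := sup_comm_self hD hc _ (ww_mem hγ) _ (ww_mem hδ)
  have hi := inv_mem hδ
  have m1 := P _ hi (inv_ne_one.2 k1) _ (inv_mem ha)
  have m2 := P _ (mul_mem hi hβ) (fun e => k2 (inv_mul_eq_one.1 e)) _ ha
  have m3 := P _ (mul_mem hi (mul_mem hγ hβ)) (fun e => k4 (inv_mul_eq_one.1 e)) _ (inv_mem ha)
  have m4 := P _ (mul_mem hi hγ) (fun e => k3 (inv_mul_eq_one.1 e)) _ ha
  have n2 := P _ hβ h1 _ ha
  have n3 := P _ (mul_mem hγ hβ) h3 _ (inv_mem ha)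
  have n4 := P _ hγ h2 _ ha
  rw [ww_mul hD hc hi hβ] at m2
  rw [ww_mul hD hc hi (mul_mem hγ hβ)] at m3
  rw [ww_mul hD hc hi hγ] at m4
  rw [ww_mul hD hc hγ hβ] at m3 n3
  rw [ww_inv hD hc hδ] at m1 m2 m3 m4
  set w := ww y β
  set u := ww y γ
  set t := ww y δ
  have hm := mul_mem (mul_mem (mul_mem m1 m2) m3) m4
  have e : t⁻¹ * a⁻¹ * t⁻¹⁻¹ * (t⁻¹ * w * a * (t⁻¹ * w)⁻¹) * (t⁻¹ * (u * w) * a⁻¹ * (t⁻¹ * (u * w))⁻¹) *
      (t⁻¹ * u * a * (t⁻¹ * u)⁻¹) = a⁻¹ * ((w * a * w⁻¹) * (u * w * a⁻¹ * (u * w)⁻¹) * (u * a * u⁻¹)) := by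
    have h4 : Commute u⁻¹ t := (show Commute u t from hu).inv_left
    calc _ = t⁻¹ * (a⁻¹ * (w * a * w⁻¹) * u * (a⁻¹ * (w * a * w⁻¹))⁻¹) * (u⁻¹ * t) := by group
      _ = t⁻¹ * (a⁻¹ * (w * a * w⁻¹) * u * (a⁻¹ * (w * a * w⁻¹))⁻¹ * t) * u⁻¹ := by rw [h4.eq]; group
      _ = _ := by rw [hz]; group
  rw [e, Subgroup.mul_mem_cancel_right _ (mul_mem (mul_mem n2 n3) n4)] at hm
  exact ha1 (inv_eq_one.1 (eq_one_of_mem_normalizer hq (inv_mem ha) hm))

end W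

/-- two different commuting members with a common opposite -/
theorem special_of_common (hS : IsRootSubgroupSet S) {A B C : Subgroup G} (hA : A ∈ S) (hB : B ∈ S)
    (hp : IsRankOnePair A B) (hq : IsRankOnePair C B) (hAC : Comm A C) (hne : A ≠ C) :
    IsSpecialRankOnePair A B := by
  refine special_of_pt hp fun a ha ha1 => ?_
  have ht := RankOnePair_symm hq
  have hb := pt_mem A B a
  have hb1 := pt_ne_one hp ha ha1
  have ea := pt_conj hp ha ha1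
  have hc := pt_mem B C (pt A B a)
  have hc1 := pt_ne_one ht hb hb1
  have ec := pt_conj ht hb hb1
  set b := pt A B a
  set c := pt B C b
  have hAA := self_comm hS hA
  have hBB := self_comm hS hB
  have hy : ∀ x ∈ A, x * (a * c⁻¹) = (a * c⁻¹) * x := fun x hx => by
    rw [← mul_assoc, hAA x hx a ha, mul_assoc, hAC x hx _ (inv_mem hc), mul_assoc]
  have g1 : conjBy A (a * b⁻¹) = B := by rw [← conjBy_conjBy, ea, conjBy_conjBy_inv]
  have g2 : conjBy C (a * b⁻¹) = conjBy B (a * c⁻¹) := by rw [← conjBy_conjBy, ← ec, conjBy_conjBy]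
  have hcm : Comm B (conjBy B (a * c⁻¹)) := by
    have := hAC.conj (a * b⁻¹)
    rwa [g1, g2] at this
  set y := a * c⁻¹ with hyd
  have hw : ∀ x ∈ B, x * ww y b⁻¹ = ww y b⁻¹ * x := fun x hx =>
    sup_comm_self hBB hcm x (Subgroup.mem_sup_left hx) _ (ww_mem (inv_mem hb))
  have hg : ∀ x ∈ B, x * (a * b⁻¹ * y * (a * b⁻¹)⁻¹) = (a * b⁻¹ * y * (a * b⁻¹)⁻¹) * x := by
    rw [← g1]
    rintro _ ⟨x, hx, rfl⟩
    simp only [MulEquiv.coe_toMonoidHom, MulAut.conj_apply]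
    calc _ = a * b⁻¹ * (x * y) * (a * b⁻¹)⁻¹ := by group
      _ = _ := by rw [hy x hx]; group
  have hC' : Comm A (conjBy A (ww y b)) := ww_comm hp hAA hy hcm hb
  rw [ww_inv hBB hcm hb] at hw
  set w := ww y b with hwd
  have e1 : a * b⁻¹ * y * (a * b⁻¹)⁻¹ = w⁻¹ * (w * a * w⁻¹ * c⁻¹) := by
    have e0 : b⁻¹ * y * b * y⁻¹ = w⁻¹ := by rw [hwd, ← ww_inv hBB hcm hb]; unfold ww; group
    have := hAC a ha _ (inv_mem hc)
    calc a * b⁻¹ * y * (a * b⁻¹)⁻¹ = a * (b⁻¹ * y * b * y⁻¹) * (y * a⁻¹) := by group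
      _ = a * (b⁻¹ * y * b * y⁻¹) * c⁻¹ := by rw [hyd, this]; group
      _ = _ := by rw [e0]; group
  have hu : ∀ x ∈ B, x * (w * a * w⁻¹ * c⁻¹) = (w * a * w⁻¹ * c⁻¹) * x := by
    intro x hx
    have := hg x hx
    rw [e1, ← mul_assoc, hw x hx, mul_assoc, mul_assoc w⁻¹, mul_right_inj] at this
    exact this
  have e2 : conjBy B (w * a * w⁻¹)⁻¹ = conjBy B c⁻¹ := by
    have := conjBy_eq_of_forall_comm hu
    rw [← conjBy_conjBy, conjBy_eq_iff_eq_conjBy_inv] at this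
    exact this.symm
  obtain ⟨-, h2⟩ := mem_unipotent_of_conj_eq hS hB (hS.conj_mem A hA w) ht (inv_mem hc) (inv_ne_one.2 hc1)
    (inv_mem (conj_mem_conjBy ha w)) e2
  have e3 : conjBy A w = C := by
    by_contra h3
    have h4 := sup_eq_of_mem_unipotent ht h2 (right_mem_unipotent ht) h3
    exact ((hC'.sup_right hAC).mono le_rfl (h4.symm ▸ le_sup_left)).not_pair hp
  have e4 : w * a * w⁻¹ * c⁻¹ = 1 :=
    eq_one_of_commute hq (mul_mem (e3 ▸ conj_mem_conjBy ha w) (inv_mem hc)) fun x hx => (hu x hx).symm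
  rw [e4, mul_one, hwd, ← ww_inv hBB hcm hb] at e1
  have m1 : b * (a * b⁻¹ * a * (a * b⁻¹)⁻¹) ∈ B := mul_mem hb (g1 ▸ conj_mem_conjBy ha _)
  have m2 : b * (a * b⁻¹ * a * (a * b⁻¹)⁻¹) ∈ conjBy B y := by
    have : b * (a * b⁻¹ * a * (a * b⁻¹)⁻¹) = (y * b * y⁻¹) * (a * b⁻¹ * c * (a * b⁻¹)⁻¹) := by
      calc b * (a * b⁻¹ * a * (a * b⁻¹)⁻¹) = b * (a * b⁻¹ * y * (a * b⁻¹)⁻¹) * (a * b⁻¹ * c * (a * b⁻¹)⁻¹) := by
            rw [hyd]; group
        _ = _ := by rw [e1]; unfold ww; group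
    rw [this]
    exact mul_mem (conj_mem_conjBy hb y) (g2 ▸ conj_mem_conjBy hc _)
  have e5 : b * (a * b⁻¹ * a * (a * b⁻¹)⁻¹) = 1 := by
    by_contra h5
    have := ti hS ⟨A, hA, RankOnePair_symm hp⟩ (hS.conj_mem B hB y) m1 m2 h5
    exact hne (conjBy_inj.1 (g1.trans (this.trans g2.symm)))
  calc b⁻¹ * a * b = a⁻¹ * b⁻¹ * (b * (a * b⁻¹ * a * (a * b⁻¹)⁻¹)) * a := by group
    _ = _ := by rw [e5, mul_one]

theorem surj_of_small {k : Type*} {X : Subgroup G} (hk : 3 < ENat.card k) (hX : ENat.card X ≤ 4) (f : k → G)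
    (hf : Function.Injective f) (hm : ∀ t, f t ∈ X) : ∀ g, g ∈ X ↔ ∃ t, g = f t := by
  have hfin : Finite X := ENat.card_lt_top.1 (hX.trans_lt (ENat.natCast_lt_top 4))
  let f' : k → X := fun t => ⟨f t, hm t⟩
  have hf' : Function.Injective f' := fun s t e => hf (congrArg Subtype.val e)
  have : Finite k := Finite.of_injective f' hf'
  rw [ENat.card_eq_coe_natCard] at hk hX
  have h1 : 3 < Nat.card k := by exact_mod_cast hk
  have h2 : Nat.card X ≤ 4 := by exact_mod_cast hX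
  have hb : Function.Bijective f' := hf'.bijective_of_nat_card_le (by omega)
  intro g
  refine ⟨fun hg => ?_, fun ⟨t, e⟩ => e ▸ hm t⟩
  obtain ⟨t, e⟩ := hb.2 ⟨g, hg⟩
  exact ⟨t, (congrArg Subtype.val e).symm⟩

theorem special_of_small {k : Type*} [Field k] {A B A₀ B₀ : Subgroup G} (hp : IsRankOnePair A B)
    (hA : ENat.card A ≤ 4) (hB : ENat.card B ≤ 4) (h1 : A₀ ≤ A) (h2 : B₀ ≤ B) (hk : 3 < ENat.card k)
    (h : IsPSL2PairOver k A₀ B₀) : IsSpecialRankOnePair A B := by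
  obtain ⟨φ, -, hker, hu, hl⟩ := h
  have R : Rel (fun t : k => φ (upper t)) (fun t => φ (lower t)) := by
    refine ⟨fun s t => by rw [upper_add, map_mul], fun s t => by rw [lower_add, map_mul], fun t ht u => ?_⟩
    rw [← rel_sl2.conj t ht u]
    simp only [nn, map_mul, map_inv]
  have n1 : ∀ t : k, t ≠ 0 → φ (upper t) ≠ 1 := fun t ht e =>
    upper_mul_lower_ne t 1 ht one_ne_zero (Subgroup.mem_center_iff.1 (hker e) _).symm
  have n2 : ∀ t : k, t ≠ 0 → φ (lower t) ≠ 1 := fun t ht e =>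
    upper_mul_lower_ne 1 t one_ne_zero ht (Subgroup.mem_center_iff.1 (hker e) _)
  have m1 : ∀ t : k, φ (upper t) ∈ A := fun t => h1 (hu ▸ ⟨_, mem_upperUnipotent.2 ⟨t, rfl⟩, rfl⟩)
  have m2 : ∀ t : k, φ (lower t) ∈ B := fun t => h2 (hl ▸ ⟨_, mem_lowerUnipotent.2 ⟨t, rfl⟩, rfl⟩)
  have i1 : Function.Injective fun t : k => φ (upper t) := fun s t e => by
    by_contra hne
    apply n1 (s - t) (sub_ne_zero.2 hne)
    have := R.x_add (s - t) t
    dsimp only at e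
    rw [sub_add_cancel, e] at this
    exact (mul_eq_right.1 this.symm)
  have i2 : Function.Injective fun t : k => φ (lower t) := fun s t e => by
    by_contra hne
    apply n2 (s - t) (sub_ne_zero.2 hne)
    have := R.y_add (s - t) t
    dsimp only at e
    rw [sub_add_cancel, e] at this
    exact (mul_eq_right.1 this.symm)
  exact (special_of_rel R (surj_of_small hk hA _ i1 m1) (surj_of_small hk hB _ i2 m2)
    fun s t hs ht => not_commute hp (m1 s) (m2 t) (n1 s hs) (n2 t ht)).1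

theorem card_le_of_small {D : Subgroup G} (h : ∀ β ∈ D, ∀ γ ∈ D, ∀ δ ∈ D, β ≠ 1 → γ ≠ 1 → γ * β ≠ 1 →
    δ = 1 ∨ δ = β ∨ δ = γ ∨ δ = γ * β) : ENat.card D ≤ 4 := by
  have key : ∀ a b c d : G, (D : Set G) ⊆ {a, b, c, d} → ENat.card D ≤ 4 := by
    intro a b c d hs
    have h1 : (D : Set G).encard ≤ 4 := by
      refine (Set.encard_le_encard hs).trans ?_
      refine (Set.encard_insert_le _ _).trans ?_
      have h2 : ({b, c, d} : Set G).encard ≤ 3 := by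
        refine (Set.encard_insert_le _ _).trans ?_
        have h3 : ({c, d} : Set G).encard ≤ 2 := by
          refine (Set.encard_insert_le _ _).trans ?_
          rw [Set.encard_singleton]; rfl
        exact add_le_add_left h3 1 |>.trans (by norm_num)
      exact add_le_add_left h2 1 |>.trans (by norm_num)
    exact h1
  by_cases h1 : ∃ β ∈ D, ∃ γ ∈ D, β ≠ 1 ∧ γ ≠ 1 ∧ γ * β ≠ 1
  · obtain ⟨β, hβ, γ, hγ, k1, k2, k3⟩ := h1
    exact key 1 β γ (γ * β) fun δ hδ => h β hβ γ hγ δ hδ k1 k2 k3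
  · push Not at h1
    by_cases h2 : ∃ β ∈ D, β ≠ 1
    · obtain ⟨β, hβ, k1⟩ := h2
      refine key 1 β⁻¹ 1 1 fun δ hδ => ?_
      by_cases k2 : δ = 1
      · exact Or.inl k2
      · exact Or.inr (Or.inl (eq_inv_of_mul_eq_one_left (h1 β hβ δ hδ k1 k2)))
    · push Not at h2
      exact key 1 1 1 1 fun δ hδ => Or.inl (h2 δ hδ)

theorem orderOf_of_small {D : Subgroup G} (h : ∀ β ∈ D, ∀ γ ∈ D, ∀ δ ∈ D, β ≠ 1 → γ ≠ 1 → γ * β ≠ 1 →
    δ = 1 ∨ δ = β ∨ δ = γ ∨ δ = γ * β) : ∀ a ∈ D, 0 < orderOf a ∧ orderOf a ≤ 3 := by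
  intro a ha
  have key : ∀ n : ℕ, 0 < n → n ≤ 3 → a ^ n = 1 → 0 < orderOf a ∧ orderOf a ≤ 3 := fun n h1 h2 h3 =>
    ⟨(isOfFinOrder_iff_pow_eq_one.2 ⟨n, h1, h3⟩).orderOf_pos, (orderOf_le_of_pow_eq_one h1 h3).trans h2⟩
  by_cases h1 : a = 1
  · exact key 1 (by norm_num) (by norm_num) (by simp [h1])
  by_cases h2 : a * a = 1
  · exact key 2 (by norm_num) (by norm_num) (by rw [sq, h2])
  rcases h a ha a ha _ (inv_mem ha) h1 h1 h2 with e | e | e | e
  · exact absurd (inv_eq_one.1 e) h1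
  · exact absurd (mul_eq_one_iff_inv_eq.2 e) h2
  · exact absurd (mul_eq_one_iff_inv_eq.2 e) h2
  · exact key 3 (by norm_num) le_rfl (by rw [pow_three, ← e, mul_inv_cancel])

end Aux

/-- Let S be a class of abstract root subgroups of G containing two different commuting members. Suppose that, in case S is degenerate and every element of every member of S has order at most 3, the following holds: for every A ∈ S and every rank one partner B of A there are subgroups A₀ ≤ A and B₀ ≤ B generating an image of SL₂(k) with central kernel, k a field with at least four elements, A₀ and B₀ being the images of the unitriangular subgroups. Then every rank one pair A, B in S is special. -/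
theorem result {G : Type u} [Group G] {S : Set (Subgroup G)} (hS : Cfsg.IsRootSubgroupClass S)
    (hcomm : ∃ A ∈ S, ∃ C ∈ S, A ≠ C ∧ ⁅A, C⁆ = ⊥)
    (hH : Cfsg.IsDegenerateRootSet S → (∀ A ∈ S, ∀ a ∈ A, 0 < orderOf a ∧ orderOf a ≤ 3) →
      ∀ A ∈ S, ∀ B ∈ Cfsg.rankOnePartners S A, ∃ A₀ B₀ : Subgroup G, A₀ ≤ A ∧ B₀ ≤ B ∧
        ∃ (k : Type u) (_ : Field k), 3 < ENat.card k ∧ Cfsg.IsPSL2PairOver k A₀ B₀)
    {A B : Subgroup G} (hA : A ∈ S) (hB : B ∈ Cfsg.rankOnePartners S A) : Cfsg.IsSpecialRankOnePair A B := by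
  obtain ⟨hS, hc⟩ := hS
  obtain ⟨hB, hp⟩ := hB
  by_cases hdeg : ¬ IsDegenerateRootSet S
  · simp only [IsDegenerateRootSet, not_forall, not_not] at hdeg
    obtain ⟨A', hA', B', hB', h⟩ := hdeg
    obtain ⟨F, hF, -⟩ := nondeg_exists_config hS hc ⟨hcomm, ⟨A, hA, B, hB, hp⟩, A', hA', B', hB', h⟩ hA hB hp
    exact special_of_line hS hA hB hp hF
  rw [not_not] at hdeg
  have hdi : ∀ {X Y : Subgroup G}, X ∈ S → Y ∈ S → ¬ IsRankOnePair X Y → Comm X Y := fun hX hY h =>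
    (trichotomy hS hX hY).elim id fun h' => (h'.elim h (hdeg _ hX _ hY)).elim
  by_cases h1 : ∃ C ∈ S, A ≠ C ∧ Comm A C ∧ IsRankOnePair C B
  · obtain ⟨C, -, k1, k2, k3⟩ := h1
    exact special_of_common hS hA hB hp k3 k2 k1
  -- a configuration of two commuting members with a common opposite
  have hconf : ∃ C ∈ S, ∃ D ∈ S, A ≠ C ∧ Comm A C ∧ IsRankOnePair A D ∧ IsRankOnePair C D := by
    by_contra hno
    have hno' : ∀ A' ∈ S, ∀ C ∈ S, ∀ D ∈ S, IsRankOnePair A' D → IsRankOnePair C D →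
        A' = C ∨ IsRankOnePair A' C := by
      intro A' hA' C hC D hD k1 k2
      by_contra k3
      push Not at k3
      obtain ⟨g, rfl⟩ := hc.2 A' hA' A hA
      exact hno ⟨_, hS.conj_mem C hC g, _, hS.conj_mem D hD g, fun e => k3.1 (conjBy_inj.1 e),
        (hdi hA' hC k3.2).conj g, conjBy_pair k1 g, conjBy_pair k2 g⟩
    obtain ⟨A0, hA0, C0, hC0, hne, hcm⟩ := hcomm
    have hr := connected_of_class hS hc hA ⟨B, hB, hp⟩ A0 hA0 C0 hC0
    have : A0 = C0 ∨ IsRankOnePair A0 C0 := by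
      clear hcm hne hC0
      induction hr with
      | refl => exact Or.inl rfl
      | tail _ h2 ih =>
        rcases ih with rfl | ih
        · exact Or.inr h2.2.2
        · exact hno' _ hA0 _ h2.2.1 _ h2.1 ih (RankOnePair_symm h2.2.2)
    exact this.elim hne (comm_iff.1 hcm).not_pair
  obtain ⟨C, hC, D, hD, hne, hAC, hq, hr⟩ := hconf
  obtain ⟨d, hd, hd1⟩ := exists_ne_one hS hD
  obtain ⟨a, ha, -, ea⟩ := conjBy_right_eq (RankOnePair_symm hq) hd hd1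
  obtain ⟨c, hcC, -, ec⟩ := conjBy_right_eq (RankOnePair_symm hr) hd hd1
  have hAA := self_comm hS hA
  have hy : ∀ x ∈ A, x * (a⁻¹ * c) = (a⁻¹ * c) * x := fun x hx => by
    rw [← mul_assoc, hAA x hx _ (inv_mem ha), mul_assoc, hAC x hx _ hcC, mul_assoc]
  have hcm : Comm D (conjBy D (a⁻¹ * c)) := by
    have := (hAC.conj d).conj a⁻¹
    rwa [ea, ec, conjBy_inv_conjBy, conjBy_conjBy] at this
  have hne' : conjBy D (a⁻¹ * c) ≠ D := by
    intro e
    rw [← conjBy_conjBy, conjBy_eq_iff_eq_conjBy_inv, inv_inv, ← ea, ← ec] at e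
    exact hne (conjBy_inj.1 e).symm
  have hsm : ∀ β ∈ D, ∀ γ ∈ D, ∀ δ ∈ D, β ≠ 1 → γ ≠ 1 → γ * β ≠ 1 → δ = 1 ∨ δ = β ∨ δ = γ ∨ δ = γ * β := by
    intro β hβ γ hγ δ hδ
    refine small hq hAA (self_comm hS hD) hy hcm hp (fun ε hε hε1 => ?_) hβ hγ hδ
    refine hdi (hS.conj_mem A hA _) hB fun k => h1 ⟨_, hS.conj_mem A hA _, (ww_ne hq hy hne' hε hε1).symm,
      ww_comm hq hAA hy hcm hε, k⟩
  have hcard : ∀ X ∈ S, ENat.card X ≤ 4 := by
    intro X hX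
    obtain ⟨g, rfl⟩ := hc.2 D hD X hX
    rw [card_conjBy]; exact card_le_of_small hsm
  obtain ⟨A₀, B₀, k1, k2, k, _, k3, k4⟩ := hH hdeg (by
    intro X hX x hx
    obtain ⟨g, rfl⟩ := hc.2 D hD X hX
    obtain ⟨x, hx, rfl⟩ := hx
    rw [MulEquiv.coe_toMonoidHom, MulEquiv.orderOf_eq]
    exact orderOf_of_small hsm x hx) A hA B ⟨hB, hp⟩
  exact special_of_small hp (hcard A hA) (hcard B hB) k1 k2 k3 k4

end Cfsg.Agent.S5039
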