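import Cfsg.Statements.S5040
import Cfsg.Agent.CHEV.RootSubGraph

set_option autoImplicit false
open Cfsg

namespace Cfsg.Agent.S5040

open CL.RankOne CL.RootSub

/-- Let S be a non-degenerate class of abstract root subgroups of G and Δ a weak TI-subset of S. Then the members of Δ commute with one another elementwise. -/
theorem result {G : Type*} [Group G] {S : Set (Subgroup G)} (hS : Cfsg.IsRootSubgroupClass S) (hnd : Cfsg.IsNondegenerateRootSet S)
    {Δ : Set (Subgroup G)} (hΔ : Cfsg.IsWeakTISubset S Δ) : Cfsg.IsAbelianFamily Δ := by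
  obtain ⟨hS, hc⟩ := hS
  obtain ⟨hsub, -, hne, hw⟩ := hΔ
  let N : Subgroup G :=
    { carrier := {g | (fun A => conjBy A g) '' Δ = Δ}
      one_mem' := by simp [conjBy_one]
      mul_mem' := fun {x y} hx hy => by
        simp only [Set.mem_setOf_eq] at hx hy ⊢
        conv_rhs => rw [← hx, ← hy, Set.image_image]
        simp only [conjBy_conjBy]
      inv_mem' := fun {x} hx => by
        simp only [Set.mem_setOf_eq] at hx ⊢
        conv_lhs => rw [← hx, Set.image_image]
        simp only [conjBy_inv_conjBy, Set.image_id'] }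
  have hN : ∀ A ∈ Δ, ∀ C ∈ S, Comm A C → C ≤ N := by
    intro A hA C hC h c hcC
    by_cases hc1 : c = 1
    · rw [hc1]; exact one_mem _
    refine (hw c ⟨hc1, C, hC, hcC⟩).resolve_right fun hd => ?_
    exact Set.disjoint_left.1 hd ⟨A, hA, h.conjBy_eq hcC⟩ hA
  have hO := fun {A : Subgroup G} (hA : A ∈ S) => nondeg_hasOpp hS hc hnd hA
  have key : ∀ A ∈ Δ, ∀ D ∈ S, IsRankOnePair A D → ¬ D ≤ N := by
    intro A hA D hD hp hle
    have h1 : N = ⊤ := by
      rw [eq_top_iff, ← nondeg_generate hS hc hnd (hsub hA) hD hp]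
      exact sup_le (iSup₂_le fun C hC => hN A hA C hC.1.1 (line_comm hC)) hle
    refine hne (hsub.antisymm fun E hE => ?_)
    obtain ⟨g, rfl⟩ := hc.2 A (hsub hA) E hE
    have hg : (fun A => conjBy A g) '' Δ = Δ := (h1 ▸ Subgroup.mem_top g : g ∈ N)
    rw [← hg]; exact ⟨A, hA, rfl⟩
  intro A hA B hB
  rcases trichotomy hS (hsub hA) (hsub hB) with h | h | h
  · exact h
  · exact absurd (hN B hB B (hsub hB) (self_comm hS (hsub hB))) (key A hA B (hsub hB) h)
  · obtain ⟨D, hD, hp, h2, -⟩ := exists_opp_line hS (hsub hA) (hsub hB) (hO (hsub hB)) h (hO h.1)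
    exact absurd (hN B hB D hD h2) (key A hA D hD hp)

end Cfsg.Agent.S5040
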