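import Cfsg.Statements.S5043
import Cfsg.Agent.CHEV.RootEx2

set_option autoImplicit false
open Matrix
open Cfsg

open CL.RootEx
namespace Cfsg.Agent.S5043



/-- Let k be a field and n a natural number. In SL_{n+3}(k) (so in every dimension at least 3) the conjugates of the root subgroup of elementary transvections 1 + c E₁₂ (c ∈ k) — that is, the groups of transvections attached to an incident point–hyperplane pair — form a non-degenerate class of abstract k-root subgroups of SL_{n+3}(k) whose graph of rank one pairs is connected. -/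
theorem result (k : Type*) [Field k] (n : ℕ) :
    Cfsg.IsRootSubgroupClass {A : Subgroup (Matrix.SpecialLinearGroup (Fin (n + 3)) k) |
        ∃ g : Matrix.SpecialLinearGroup (Fin (n + 3)) k,
          A = Cfsg.conjBy (Subgroup.closure {t : Matrix.SpecialLinearGroup (Fin (n + 3)) k |
            ∃ c : k, (t : Matrix (Fin (n + 3)) (Fin (n + 3)) k) = Matrix.transvection 0 1 c}) g} ∧
    Cfsg.IsNondegenerateRootSet {A : Subgroup (Matrix.SpecialLinearGroup (Fin (n + 3)) k) |
        ∃ g : Matrix.SpecialLinearGroup (Fin (n + 3)) k,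
          A = Cfsg.conjBy (Subgroup.closure {t : Matrix.SpecialLinearGroup (Fin (n + 3)) k |
            ∃ c : k, (t : Matrix (Fin (n + 3)) (Fin (n + 3)) k) = Matrix.transvection 0 1 c}) g} ∧
    Cfsg.IsKRootSubgroupSet k {A : Subgroup (Matrix.SpecialLinearGroup (Fin (n + 3)) k) |
        ∃ g : Matrix.SpecialLinearGroup (Fin (n + 3)) k,
          A = Cfsg.conjBy (Subgroup.closure {t : Matrix.SpecialLinearGroup (Fin (n + 3)) k |
            ∃ c : k, (t : Matrix (Fin (n + 3)) (Fin (n + 3)) k) = Matrix.transvection 0 1 c}) g} ∧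
    Cfsg.IsConnectedFamily (Cfsg.FAdj {A : Subgroup (Matrix.SpecialLinearGroup (Fin (n + 3)) k) |
        ∃ g : Matrix.SpecialLinearGroup (Fin (n + 3)) k,
          A = Cfsg.conjBy (Subgroup.closure {t : Matrix.SpecialLinearGroup (Fin (n + 3)) k |
            ∃ c : k, (t : Matrix (Fin (n + 3)) (Fin (n + 3)) k) = Matrix.transvection 0 1 c}) g})
      {A : Subgroup (Matrix.SpecialLinearGroup (Fin (n + 3)) k) |
        ∃ g : Matrix.SpecialLinearGroup (Fin (n + 3)) k,
          A = Cfsg.conjBy (Subgroup.closure {t : Matrix.SpecialLinearGroup (Fin (n + 3)) k |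
            ∃ c : k, (t : Matrix (Fin (n + 3)) (Fin (n + 3)) k) = Matrix.transvection 0 1 c}) g} := by
  have h01 : (0 : Fin (n + 3)) ≠ 1 := by simp
  have h02 : (0 : Fin (n + 3)) ≠ 2 := by simp [Fin.ext_iff, Nat.mod_eq_of_lt (show 2 < n + 3 by omega)]
  have h12 : (1 : Fin (n + 3)) ≠ 2 := by simp [Fin.ext_iff, Nat.mod_eq_of_lt (show 2 < n + 3 by omega)]
  rw [set_eqSL h01]
  have hc := (sysSL (ι := Fin (n + 3)) (F := k)).connected
    (path_of_common fun _ h1 _ h2 => tvs_common h1 h2)
  refine ⟨⟨sysSL.isRootSubgroupSet genSL,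
    isConjClass_of_connected ⟨_, _, single_mem h01, rfl⟩ hc⟩, ⟨?_, ?_, ?_⟩,
    sysSL.isKRootSubgroupSet genSL, hc⟩
  · refine ⟨_, ⟨_, single_mem h01, rfl⟩, _, ⟨_, single_mem h02, rfl⟩, fun e => ?_,
      CL.RootSub.comm_iff.2 (sysSL.comm (single_mem h01) (single_mem h02) ?_)⟩
    · obtain ⟨x, hx⟩ := (sysSL (F := k)).ex _ (single_mem h01) 1
      have h1 := e.le (Subgroup.subset_closure ⟨1, hx⟩)
      obtain ⟨c, hc⟩ := (mem_rg (sysSL.sq _ (single_mem h02))).1 h1
      have := congrFun (LinearMap.congr_fun (hx.symm.trans hc) (Pi.single 1 1)) 0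
      simp [h12.symm] at this
    · simp [r1_mul, h01.symm, h02.symm]
  · exact ⟨_, ⟨_, single_mem h01, rfl⟩, _, ⟨_, single_mem h01.symm, rfl⟩,
      (sysSL.psl2 (single_mem h01) (single_mem h01.symm) (opp_r1 (by simp) (by simp))).2⟩
  · refine ⟨_, ⟨_, single_mem h01, rfl⟩, _, ⟨_, single_mem h12, rfl⟩,
      sysSL.rcc (single_mem h01) (single_mem h12) ?_ ?_ ?_⟩
    · simp [r1_mul_mul, h02.symm]
    · simp [r1_mul_mul, h02.symm]
    · simpa [r1_mul, h02.symm] using single_mem h02
end Cfsg.Agent.S5043
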