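import Cfsg.Statements.S5045
import Cfsg.Agent.CHEV.RootInv1


set_option autoImplicit false
open Cfsg

open CL.RootInv

namespace Cfsg.Agent.S5045



/-- Let G be a finite group generated by a set D of root involutions, and W the set of members of D whose product with every other member of D has even order or is trivial (the isolated vertices of the odd-order-product graph on D). Then W is conjugation-invariant and generates a normal 2-subgroup of G meeting D in exactly W; the commutator of two members of D lying in different connected components of that graph, each with more than one member, lies in the subgroup generated by W; and for a in such a component, every member of D commuting with a, different from a and with product with a in D, lies in that component or in W. -/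
theorem result {G : Type*} [Group G] [Finite G] {D : Set G} (hD : Cfsg.IsRootInvolutionSet D) :
    (∀ w ∈ {w | Cfsg.IsIsolatedElem (Cfsg.OddAdj D) D w}, ∀ g : G, g * w * g⁻¹ ∈ {w | Cfsg.IsIsolatedElem (Cfsg.OddAdj D) D w}) ∧
    (Subgroup.closure {w | Cfsg.IsIsolatedElem (Cfsg.OddAdj D) D w}).Normal ∧
    IsPGroup 2 ↥(Subgroup.closure {w | Cfsg.IsIsolatedElem (Cfsg.OddAdj D) D w}) ∧
    (Subgroup.closure {w | Cfsg.IsIsolatedElem (Cfsg.OddAdj D) D w} : Set G) ∩ D = {w | Cfsg.IsIsolatedElem (Cfsg.OddAdj D) D w} ∧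
    (∀ a ∈ D, ∀ b ∈ D, (∃ a' ∈ Cfsg.elemComponentOf (Cfsg.OddAdj D) D a, a' ≠ a) →
      (∃ b' ∈ Cfsg.elemComponentOf (Cfsg.OddAdj D) D b, b' ≠ b) →
      Cfsg.elemComponentOf (Cfsg.OddAdj D) D a ≠ Cfsg.elemComponentOf (Cfsg.OddAdj D) D b →
        a * b * a⁻¹ * b⁻¹ ∈ Subgroup.closure {w | Cfsg.IsIsolatedElem (Cfsg.OddAdj D) D w}) ∧
    (∀ a ∈ D, (∃ a' ∈ Cfsg.elemComponentOf (Cfsg.OddAdj D) D a, a' ≠ a) →
      Cfsg.productPartners D a ⊆ Cfsg.elemComponentOf (Cfsg.OddAdj D) D a ∪ {w | Cfsg.IsIsolatedElem (Cfsg.OddAdj D) D w}) := by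
  set W : Set G := {w | Cfsg.IsIsolatedElem (Cfsg.OddAdj D) D w} with hW
  have hmem : ∀ w, w ∈ W ↔ w ∈ D ∧ ∀ b ∈ D, ¬ Od w b := fun w => isolated_iff
  have h1 : ∀ w ∈ W, ∀ g : G, g * w * g⁻¹ ∈ W := by
    intro w hw g
    rw [hmem] at hw ⊢
    refine ⟨conj hD hw.1 g, fun b hb ho => hw.2 _ (conj hD hb g⁻¹) ?_⟩
    simpa [mul_assoc] using ho.conj g⁻¹
  have h2 : (Subgroup.closure W).Normal := by
    refine ⟨fun n hn g => ?_⟩
    have : (Subgroup.closure W).map (MulAut.conj g).toMonoidHom ≤ Subgroup.closure W := by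
      rw [MonoidHom.map_closure, Subgroup.closure_le]
      rintro _ ⟨y, hy, rfl⟩
      exact Subgroup.subset_closure (h1 y hy g)
    exact this ⟨n, hn, rfl⟩
  have h3 : IsPGroup 2 (Subgroup.closure W) := by
    refine isPGroup_closure hD (fun w hw => ((hmem w).1 hw).1) (fun s hs t ht => ?_)
      (fun s hs t ht => ((hmem s).1 hs).2 t ((hmem t).1 ht).1)
    have := h1 t ht s
    rwa [inv hD ((hmem s).1 hs).1] at this
  have hnb : ∀ a ∈ D, (∃ a' ∈ Cfsg.elemComponentOf (Cfsg.OddAdj D) D a, a' ≠ a) →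
      ∃ x ∈ D, Od a x := by
    rintro a ha ⟨a', ⟨-, h⟩, hne⟩
    rcases h.cases_head with h | ⟨x, h, -⟩
    · exact absurd h.symm hne
    · exact ⟨x, h.2.1, h.2.2⟩
  have h6 : ∀ a ∈ D, (∃ a' ∈ Cfsg.elemComponentOf (Cfsg.OddAdj D) D a, a' ≠ a) →
      ∀ e, Xp D a e → e ∈ Cfsg.elemComponentOf (Cfsg.OddAdj D) D a ∪ W := by
    intro a ha h e he
    obtain ⟨x, hx, ho⟩ := hnb a ha h
    by_cases hw : e ∈ W
    · exact Or.inr hw
    refine Or.inl ⟨he.right, ?_⟩
    have p1 : Relation.ReflTransGen (OddAdj D) a x := .single ⟨ha, hx, ho⟩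
    rcases he.od_or_od hD hx ho with h1 | h1
    · exact p1.tail ⟨hx, he.right, h1.symm⟩
    · have p2 : Relation.ReflTransGen (OddAdj D) a (a * e) := p1.tail ⟨hx, he.mul, h1.symm⟩
      rw [hmem] at hw
      push Not at hw
      obtain ⟨y, hy, hy2⟩ := hw he.right
      rcases he.symm.od_or_od hD hy hy2 with h2 | h2
      · exact Relation.ReflTransGen.tail (.single ⟨ha, hy, h2⟩) ⟨hy, he.right, hy2.symm⟩
      · rw [← he.comm.eq] at h2
        exact (p2.tail ⟨he.mul, hy, h2⟩).tail ⟨hy, he.right, hy2.symm⟩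
  refine ⟨h1, h2, h3, ?_, ?_, fun a ha h e he => h6 a ha h e ((xp_iff hD ha).1 he)⟩
  · ext d
    refine ⟨fun ⟨hd, hdD⟩ => (hmem d).2 ⟨hdD, fun b hb ho => ?_⟩,
      fun hd => ⟨Subgroup.subset_closure hd, ((hmem d).1 hd).1⟩⟩
    have h4 : (d * b) ^ 2 ∈ Subgroup.closure W := by
      have := mul_mem hd (h2.conj_mem d hd b)
      rwa [inv hD hb, ← mul_assoc, ← mul_assoc, mul_assoc (d * b), ← pow_two] at this
    have h5 := mem_of_sq_mem_of_odd ho.2 h4
    obtain ⟨k, hk⟩ := h3 ⟨_, h5⟩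
    exact ho.mul_ne_one hD hdD (eq_one_of_odd_of_pow_two ho.2 (congrArg Subtype.val hk))
  · intro a ha b hb ha' hb' hne
    have hdis : ¬ Relation.ReflTransGen (OddAdj D) a b := fun p => hne (by
      ext y
      exact ⟨fun h => ⟨h.1, (oddPath_symm p).trans h.2⟩, fun h => ⟨h.1, p.trans h.2⟩⟩)
    rcases tri hD ha hb with h | h | h
    · rw [h.eq, mul_inv_cancel_right, mul_inv_cancel]; exact one_mem _
    · exact absurd (.single ⟨ha, hb, h⟩) hdis
    · rw [inv hD ha, inv hD hb, mul_assoc (a * b), ← pow_two]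
      rcases h6 a ha ha' _ (h.xp_left hD ha hb) with h7 | h7
      · rcases h6 b hb hb' _ (h.xp_right hD ha hb) with h8 | h8
        · exact absurd (h7.2.trans (oddPath_symm h8.2)) hdis
        · exact Subgroup.subset_closure h8
      · exact Subgroup.subset_closure h7

end Cfsg.Agent.S5045
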