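import Cfsg.Statements.S5046
import Cfsg.Agent.CHEV.RootInv1


set_option autoImplicit false
open Cfsg

open CL.RootInv

namespace Cfsg.Agent.S5046



/-- Let G be a finite group generated by a set D of root involutions whose odd-order-product graph is connected, and d ∈ D. Then the members e of D with the same commuting members as d are exactly those for which the union of the commuting members of d and the members whose product with d has order 4 equals the corresponding union for e. -/
theorem result {G : Type*} [Group G] [Finite G] {D : Set G} (hD : Cfsg.IsRootInvolutionSet D)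
    (hc : Cfsg.IsConnectedSet (Cfsg.OddAdj D) D) {d : G} (hd : d ∈ D) :
    Cfsg.sameCommutingClass D d =
      {e | e ∈ D ∧ Cfsg.commutingMembers D d ∪ Cfsg.fourPartners D d = Cfsg.commutingMembers D e ∪ Cfsg.fourPartners D e} := by
  have hcl : ∀ a ∈ D, ∀ b ∈ D, ∃ g : G, b = g * a * g⁻¹ := fun a ha b hb =>
    exists_conj_of_path hD (hc a ha b hb)
  have key : ∀ d ∈ D, ∀ x, x ∈ commutingMembers D d ∪ fourPartners D d ↔
      x ∈ D ∧ x ∉ oddPartners D d := by
    intro d hd x
    rw [mem_oddPartners]
    constructor
    · rintro (⟨hx, h⟩ | ⟨hx, h⟩)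
      · exact ⟨hx, fun ho => ho.2.not_commute hD hd hx (Commute.symm h)⟩
      · exact ⟨hx, fun ho => ho.2.not_fo h⟩
    · rintro ⟨hx, h⟩
      rcases tri hD hd hx with h1 | h1 | h1
      · exact Or.inl ⟨hx, h1.symm⟩
      · exact absurd ⟨hx, h1⟩ h
      · exact Or.inr ⟨hx, h1⟩
  ext e
  refine and_congr_right fun he => ?_
  rw [commuting_eq_iff hD hcl hd he]
  constructor
  · intro h
    ext x
    rw [key d hd, key e he, h]
  · intro h
    ext x
    have := Set.ext_iff.1 h x
    rw [key d hd, key e he] at this
    by_cases hx : x ∈ D
    · simpa [hx, not_iff_not] using this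
    · exact ⟨fun h => absurd h.1 hx, fun h => absurd h.1 hx⟩

end Cfsg.Agent.S5046
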