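import Cfsg.Statements.S5049


set_option autoImplicit false
open Cfsg

open scoped commutatorElement Pointwise
namespace Cfsg.Agent.S5049

lemma pCore_pow {G : Type*} [Group G] [Finite G] (p : ℕ) [Fact p.Prime] {x : G} (hx : x ∈ pCore p G) :
    ∃ k : ℕ, x ^ (p ^ k) = 1 := by
  obtain ⟨P⟩ : Nonempty (Sylow p G) := inferInstance
  have hle : pCore p G ≤ P := by
    refine sSup_le ?_
    rintro N ⟨hN, hp⟩
    obtain ⟨Q, hQ⟩ := hp.exists_le_sylow
    obtain ⟨g, rfl⟩ := MulAction.exists_smul_eq G P Q
    intro y hy
    have h1 : g * y * g⁻¹ ∈ N := hN.conj_mem y hy g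
    have h2 := hQ h1
    rw [Sylow.coe_subgroup_smul, Subgroup.mem_pointwise_smul_iff_inv_smul_mem] at h2
    simpa [mul_assoc] using h2
  obtain ⟨k, hk⟩ := P.isPGroup' ⟨x, hle hx⟩
  exact ⟨k, by simpa using congrArg Subtype.val hk⟩

lemma eq_one_of_odd {G : Type*} [Group G] {x : G} {k : ℕ} (h : x ^ (2 ^ k) = 1)
    (ho : Odd (orderOf x)) : x = 1 := by
  have h1 : orderOf x ∣ 2 ^ k := orderOf_dvd_of_pow_eq_one h
  have h2 : Nat.Coprime (orderOf x) (2 ^ k) :=
    Nat.Coprime.pow_right _ (Nat.coprime_two_right.2 ho)
  exact orderOf_eq_one_iff.1 (Nat.Coprime.eq_one_of_dvd h2 h1)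

lemma comm_of_two {G : Type*} [Group G] {D : Set G} (hD : Cfsg.IsOddTranspositionSet D) {a b : G}
    (ha : a ∈ D) (hb : b ∈ D) {k : ℕ} (h : (a * b) ^ (2 ^ k) = 1) : a * b = b * a := by
  rcases hD.1.pair a ha b hb with h1 | h1 | h1
  · exact h1
  · have := eq_one_of_odd h h1
    rw [this]
    exact (mul_eq_one_comm.1 this).symm
  · exact absurd h1.1 (hD.2 a ha b hb)


/-- Let G be a finite group generated by a set D of odd transpositions (root involutions with no product of order 4), Q = O₂(G), and for a ∈ D let Q_a be the commutator subgroup of Q with a. Then every member of D commuting with a centralizes Q_a; and for b ∈ D with ab of odd order greater than 1, the centralizer of ab in Q is the intersection of the centralizers of a and b in Q. -/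
theorem result {G : Type*} [Group G] [Finite G] {D : Set G} (hD : Cfsg.IsOddTranspositionSet D) {a : G} (ha : a ∈ D) :
    (∀ e ∈ Cfsg.commutingMembers D a, ∀ q ∈ ⁅Cfsg.pCore 2 G, Subgroup.zpowers a⁆, e * q = q * e) ∧
    (∀ b ∈ Cfsg.oddPartners D a,
      Cfsg.pCore 2 G ⊓ Subgroup.centralizer {a * b} = Cfsg.pCore 2 G ⊓ Subgroup.centralizer {a} ⊓ Subgroup.centralizer {b}) := by
  have hsq : ∀ d ∈ D, d * d = 1 := by
    intro d hd
    rw [← pow_two, ← hD.1.orderOf_eq d hd, pow_orderOf_eq_one]
  have hinv : ∀ d ∈ D, d⁻¹ = d := fun d hd => inv_eq_of_mul_eq_one_right (hsq d hd)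
  have key : ∀ e ∈ D, e * a = a * e → ∀ q ∈ pCore 2 G,
      e * (q * a * q⁻¹) = (q * a * q⁻¹) * e := by
    intro e he hea q hq
    have hmem : (e * (q * a * q⁻¹)) ^ 2 ∈ pCore 2 G := by
      rw [← QuotientGroup.eq_one_iff]
      have hq1 : (q : G ⧸ pCore 2 G) = 1 := (QuotientGroup.eq_one_iff _).2 hq
      have h3 : (e * a) ^ 2 = 1 := by
        rw [pow_two]
        calc e * a * (e * a) = e * a * (a * e) := by rw [hea]
          _ = e * (a * a) * e := by simp only [mul_assoc]
          _ = 1 := by rw [hsq a ha, mul_one, hsq e he]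
      have h4 : ((e : G ⧸ pCore 2 G) * a) ^ 2 = 1 := by
        rw [← QuotientGroup.mk_mul, ← QuotientGroup.mk_pow, h3, QuotientGroup.mk_one]
      simpa [hq1] using h4
    obtain ⟨k, hk⟩ := pCore_pow 2 hmem
    refine comm_of_two hD he (hD.1.conj_mem a ha q) (k := k + 1) ?_
    rw [pow_succ', pow_mul, hk]
  refine ⟨?_, ?_⟩
  · rintro e ⟨he, hea⟩
    have : ⁅Cfsg.pCore 2 G, Subgroup.zpowers a⁆ ≤ Subgroup.centralizer {e} := by
      rw [Subgroup.commutator_le]
      intro q hq y hy
      obtain ⟨n, rfl⟩ := hy
      have h1 : q * a * q⁻¹ ∈ Subgroup.centralizer ({e} : Set G) := by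
        rw [Subgroup.mem_centralizer_singleton_iff]
        exact (key e he hea q hq).symm
      have h2 : a ∈ Subgroup.centralizer ({e} : Set G) := by
        rw [Subgroup.mem_centralizer_singleton_iff]
        exact hea.symm
      have h3 : ⁅q, a ^ n⁆ = (q * a * q⁻¹) ^ n * (a ^ n)⁻¹ := by
        rw [conj_zpow, commutatorElement_def]
      show ⁅q, a ^ n⁆ ∈ _
      rw [h3]
      exact Subgroup.mul_mem _ (Subgroup.zpow_mem _ h1 n)
        (Subgroup.inv_mem _ (Subgroup.zpow_mem _ h2 n))
    intro q hq
    have := this hq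
    rw [Subgroup.mem_centralizer_singleton_iff] at this
    exact this.symm
  · rintro b ⟨hb, hba, hodd⟩
    ext q
    simp only [Subgroup.mem_inf, Subgroup.mem_centralizer_singleton_iff]
    constructor
    · rintro ⟨hq, hc⟩
      have hc' : Commute q (a * b) := hc
      -- z = a * a^q
      set z := a * (q * a * q⁻¹) with hz
      have haa := key a ha rfl q hq
      have hz2 : z * z = 1 := by
        have h5 : (q * a * q⁻¹) * (q * a * q⁻¹) = 1 := hsq _ (hD.1.conj_mem a ha q)
        calc z * z = a * (q * a * q⁻¹) * ((q * a * q⁻¹) * a) := by rw [← haa]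
          _ = a * ((q * a * q⁻¹) * (q * a * q⁻¹)) * a := by simp only [mul_assoc]
          _ = 1 := by rw [h5, mul_one, hsq a ha]
      have hxa : a * (a * b) * a = (a * b)⁻¹ := by
        rw [mul_inv_rev, hinv a ha, hinv b hb, ← mul_assoc, hsq a ha, one_mul]
      have hzx : Commute z (a * b) := by
        have h6 : Commute (a * q * a) (a * b) := by
          have h7 : Commute q (a * b)⁻¹ := hc'.inv_right
          rw [← hxa] at h7
          have h8 : a * (q * (a * (a * b) * a)) * a = a * (a * (a * b) * a * q) * a := by rw [h7.eq]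
          show a * q * a * (a * b) = a * b * (a * q * a)
          calc a * q * a * (a * b) = a * (q * (a * (a * b) * a)) * a := by
                simp only [mul_assoc, hsq a ha, mul_one]
            _ = a * (a * (a * b) * a * q) * a := h8
            _ = (a * a) * (a * b) * (a * q * a) := by simp only [mul_assoc]
            _ = a * b * (a * q * a) := by rw [hsq a ha, one_mul]
        have : z = (a * q * a) * q⁻¹ := by simp only [hz, mul_assoc]
        rw [this]
        exact h6.mul_left hc'.inv_left
      have hza : Commute z a := by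
        show z * a = a * z
        rw [hz, mul_assoc, ← haa]
      have hzb : Commute z b := by
        have : b = a * (a * b) := by rw [← mul_assoc, hsq a ha, one_mul]
        rw [this]
        exact hza.mul_right hzx
      have hprod : (q * a * q⁻¹) * b = (a * b) * z := by
        have : q * a * q⁻¹ = a * z := by rw [hz, ← mul_assoc a a, hsq a ha, one_mul]
        rw [this, mul_assoc, hzb.eq, mul_assoc]
      have hz1 : z = 1 := by
        rcases hD.1.pair _ (hD.1.conj_mem a ha q) b hb with h1 | h1 | h1
        · exfalso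
          have h9 : ((q * a * q⁻¹) * b) ^ 2 = 1 := by
            rw [pow_two]
            have h5 : (q * a * q⁻¹) * (q * a * q⁻¹) = 1 := hsq _ (hD.1.conj_mem a ha q)
            calc _ = (q * a * q⁻¹) * b * (b * (q * a * q⁻¹)) := by rw [h1]
              _ = (q * a * q⁻¹) * (b * b) * (q * a * q⁻¹) := by simp only [mul_assoc]
              _ = 1 := by rw [hsq b hb, mul_one, h5]
          rw [hprod, hzx.symm.mul_pow, pow_two z, hz2, mul_one] at h9
          have h10 : a * b = 1 := eq_one_of_odd (k := 1) (by simpa using h9) hodd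
          apply hba
          rw [← hinv a ha]
          exact (inv_eq_of_mul_eq_one_right h10).symm
        · rw [hprod] at h1
          -- raise to the power n = orderOf (a b), and then the order of the product
          have h11 : ((a * b) * z) ^ (orderOf (a * b) * orderOf (a * b * z)) = 1 := by
            rw [mul_comm, pow_mul, pow_orderOf_eq_one, one_pow]
          rw [hzx.symm.mul_pow, pow_mul, pow_orderOf_eq_one, one_pow, one_mul] at h11
          obtain ⟨m, hm⟩ := hodd.mul h1
          rw [hm, pow_succ, pow_mul, pow_two, hz2, one_pow, one_mul] at h11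
          exact h11
        · exact absurd h1.1 (hD.2 _ (hD.1.conj_mem a ha q) b hb)
      have hqa : q * a = a * q := by
        have h12 : q * a * q⁻¹ = a := by
          rw [← hinv a ha]
          conv_lhs => rw [hinv a ha]
          exact (inv_eq_of_mul_eq_one_right hz1).symm
        calc q * a = q * a * q⁻¹ * q := by simp
          _ = a * q := by rw [h12]
      refine ⟨⟨hq, hqa⟩, ?_⟩
      have : b = a * (a * b) := by rw [← mul_assoc, hsq a ha, one_mul]
      rw [this]
      exact (Commute.mul_right hqa hc').eq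
    · rintro ⟨⟨hq, h1⟩, h2⟩
      exact ⟨hq, (Commute.mul_right h1 h2).eq⟩

end Cfsg.Agent.S5049
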