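import Cfsg.Statements.S5059


set_option autoImplicit false
universe u
open Cfsg


namespace Cfsg.Agent.S5059

variable {k : Type u} [Field k] {M : Type u} [AddCommGroup M] [Module k M]

/-- the unit `1 + c α` for `α² = 0` -/
noncomputable def unitOf (α : M →ₗ[k] M) (h : α * α = 0) (c : k) : LinearMap.GeneralLinearGroup k M where
  val := 1 + c • α
  inv := 1 - c • α
  val_inv := by
    rw [add_mul, mul_sub, mul_sub, smul_mul_smul_comm, h]; simp
  inv_val := by
    rw [sub_mul, mul_add, mul_add, smul_mul_smul_comm, h]; simp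

lemma mul_zero_of {α β : M →ₗ[k] M} (h : LinearMap.range β ≤ LinearMap.ker α) : α * β = 0 := by
  ext m
  exact h (LinearMap.mem_range_self β m)

lemma comb [FiniteDimensional k M] {G : Subgroup (LinearMap.GeneralLinearGroup k M)}
    {σ : LinearMap.GeneralLinearGroup k M} (hσ : σ ∈ Cfsg.minimalQuadraticElements G)
    {τ₁ τ₂ : LinearMap.GeneralLinearGroup k M} (h₁ : τ₁ ∈ sameActionClass G σ)
    (h₂ : τ₂ ∈ sameActionClass G σ) (c₁ c₂ : k) {ρ : LinearMap.GeneralLinearGroup k M}
    (hρ : (ρ : M →ₗ[k] M) = 1 + (c₁ • ((τ₁ : M →ₗ[k] M) - 1) + c₂ • ((τ₂ : M →ₗ[k] M) - 1)))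
    (hρ1 : ρ ≠ 1) : ρ ∈ sameActionClass G σ := by
  obtain ⟨⟨⟨-, hq1, hs1⟩, -⟩, hk1, hr1⟩ := h₁
  obtain ⟨⟨⟨-, hq2, hs2⟩, -⟩, hk2, hr2⟩ := h₂
  set α := (σ : M →ₗ[k] M) - 1 with hα
  set α₁ := (τ₁ : M →ₗ[k] M) - 1 with hα₁
  set α₂ := (τ₂ : M →ₗ[k] M) - 1 with hα₂
  have hrk : LinearMap.range α ≤ LinearMap.ker α := by
    rintro _ ⟨m, rfl⟩
    exact congrArg (fun f : M →ₗ[k] M => f m) hσ.1.2.1.1
  have h11 : α₁ * α₁ = 0 := hq1.1
  have h22 : α₂ * α₂ = 0 := hq2.1
  have h12 : α₁ * α₂ = 0 := mul_zero_of (by rw [hr2, hk1]; exact hrk)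
  have h21 : α₂ * α₁ = 0 := mul_zero_of (by rw [hr1, hk2]; exact hrk)
  have hρ' : (ρ : M →ₗ[k] M) - 1 = c₁ • α₁ + c₂ • α₂ := by rw [hρ]; abel
  have hfam : scalarFamily ρ ⊆ (G : Set (LinearMap.GeneralLinearGroup k M)) := by
    rintro τ ⟨c, hc⟩
    have e : τ = unitOf α₁ h11 (c * c₁) * unitOf α₂ h22 (c * c₂) := by
      ext1
      rw [hc, hρ', Units.val_mul]
      show _ = (1 + (c * c₁) • α₁) * (1 + (c * c₂) • α₂)
      rw [add_mul, mul_add, mul_add, smul_mul_smul_comm, h12, smul_add, smul_smul, smul_smul]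
      simp only [one_mul, mul_one, smul_zero, add_zero]
      abel
    rw [e]
    exact G.mul_mem (hs1 ⟨_, rfl⟩) (hs2 ⟨_, rfl⟩)
  have hQ : ρ ∈ quadraticElements G := by
    refine ⟨hfam ⟨1, by simp⟩, ⟨?_, ?_⟩, hfam⟩
    · rw [hρ', add_mul, mul_add, mul_add]
      simp only [smul_mul_smul_comm, h11, h12, h21, h22, smul_zero, add_zero]
    · intro h
      apply hρ1
      ext1
      exact sub_eq_zero.1 h
  have hle : LinearMap.range ((ρ : M →ₗ[k] M) - 1) ≤ LinearMap.range α := by
    rintro _ ⟨m, rfl⟩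
    rw [hρ']
    refine Submodule.add_mem _ (Submodule.smul_mem _ _ ?_) (Submodule.smul_mem _ _ ?_)
    · rw [← hr1]; exact LinearMap.mem_range_self _ _
    · rw [← hr2]; exact LinearMap.mem_range_self _ _
  have hreq : LinearMap.range ((ρ : M →ₗ[k] M) - 1) = LinearMap.range α :=
    Submodule.eq_of_le_of_finrank_le hle (hσ.2 ρ hQ)
  have hkle : LinearMap.ker α ≤ LinearMap.ker ((ρ : M →ₗ[k] M) - 1) := by
    intro m hm
    have e1 : α₁ m = 0 := by rw [← hk1] at hm; exact hm
    have e2 : α₂ m = 0 := by rw [← hk2] at hm; exact hm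
    rw [LinearMap.mem_ker, hρ']
    simp [e1, e2]
  have hkeq : LinearMap.ker α = LinearMap.ker ((ρ : M →ₗ[k] M) - 1) := by
    apply Submodule.eq_of_le_of_finrank_le hkle
    have e1 := LinearMap.finrank_range_add_finrank_ker α
    have e2 := LinearMap.finrank_range_add_finrank_ker ((ρ : M →ₗ[k] M) - 1)
    rw [hreq] at e2
    omega
  refine ⟨⟨hQ, fun τ hτ => ?_⟩, hkeq.symm, hreq⟩
  have := hσ.2 τ hτ
  unfold commutatorRank at *
  rw [hreq]
  exact this

lemma mul_zero' {G : Subgroup (LinearMap.GeneralLinearGroup k M)}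
    {σ : LinearMap.GeneralLinearGroup k M} (hσ : σ ∈ Cfsg.minimalQuadraticElements G)
    {τ₁ τ₂ : LinearMap.GeneralLinearGroup k M} (h₁ : τ₁ ∈ sameActionClass G σ ∪ {1})
    (h₂ : τ₂ ∈ sameActionClass G σ ∪ {1}) :
    ((τ₁ : M →ₗ[k] M) - 1) * ((τ₂ : M →ₗ[k] M) - 1) = 0 := by
  rcases h₁ with h₁ | rfl
  · rcases h₂ with h₂ | rfl
    · apply mul_zero_of
      rw [h₁.2.1, h₂.2.2]
      rintro _ ⟨m, rfl⟩
      exact congrArg (fun f : M →ₗ[k] M => f m) hσ.1.2.1.1
    · simp
  · simp

lemma mul_val {τ₁ τ₂ : LinearMap.GeneralLinearGroup k M}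
    (h : ((τ₁ : M →ₗ[k] M) - 1) * ((τ₂ : M →ₗ[k] M) - 1) = 0) :
    ((τ₁ * τ₂ : LinearMap.GeneralLinearGroup k M) : M →ₗ[k] M) =
      1 + (((τ₁ : M →ₗ[k] M) - 1) + ((τ₂ : M →ₗ[k] M) - 1)) := by
  rw [Units.val_mul]
  have : (τ₁ : M →ₗ[k] M) * τ₂ = ((τ₁ : M →ₗ[k] M) - 1) * ((τ₂ : M →ₗ[k] M) - 1) +
    (1 + (((τ₁ : M →ₗ[k] M) - 1) + ((τ₂ : M →ₗ[k] M) - 1))) := by noncomm_ring
  rw [this, h, zero_add]


/-- Let k be a field of characteristic not 2 with k not of order 3, M a finite-dimensional k-vector space and G ≤ GL(M) such that (G, M) is a quadratic pair (M irreducible for G, and G generated by its quadratically acting elements σ whose scalar family 1 + c(σ − 1), c ∈ k, lies in G). Write 𝒬_d for the quadratic elements of G of minimal commutator rank, E(σ) for the subgroup generated by the members of 𝒬_d with the same fixed space and commutator space as σ, and Σ for the set of these subgroups. Then for σ ∈ 𝒬_d the subgroup E(σ) consists exactly of those members together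 with the identity, it is abelian, and if k has prime characteristic p every element of E(σ) has order dividing p. -/
theorem result {k : Type u} [Field k] (hk2 : ringChar k ≠ 2) (hk3 : Nat.card k ≠ 3)
    {M : Type u} [AddCommGroup M] [Module k M] [FiniteDimensional k M]
    {G : Subgroup (LinearMap.GeneralLinearGroup k M)} (hG : Cfsg.IsQuadraticPair G)
    {σ : LinearMap.GeneralLinearGroup k M} (hσ : σ ∈ Cfsg.minimalQuadraticElements G) :
    (Cfsg.sameActionSubgroup G σ : Set (LinearMap.GeneralLinearGroup k M)) = Cfsg.sameActionClass G σ ∪ {1} ∧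
    IsMulCommutative ↥(Cfsg.sameActionSubgroup G σ) ∧
    (∀ p : ℕ, p.Prime → ringChar k = p → ∀ x ∈ Cfsg.sameActionSubgroup G σ, x ^ p = 1) := by
  have hset : (Cfsg.sameActionSubgroup G σ : Set (LinearMap.GeneralLinearGroup k M)) =
      Cfsg.sameActionClass G σ ∪ {1} := by
    apply Set.Subset.antisymm
    · intro x hx
      induction hx using Subgroup.closure_induction with
      | mem x hx => exact Or.inl hx
      | one => exact Or.inr rfl
      | mul x y _ _ hx hy =>
        by_cases h1 : x * y = 1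
        · exact Or.inr h1
        have h0 := mul_zero' hσ hx hy
        rcases hx with hx | rfl
        · rcases hy with hy | rfl
          · left
            exact comb hσ hx hy 1 1 (by rw [mul_val h0]; simp) h1
          · left; simpa using hx
        · simpa using hy
      | inv x _ hx =>
        have h0 := mul_zero' hσ hx hx
        rcases hx with hx | rfl
        · left
          have hx1 : x⁻¹ ≠ 1 := by
            intro h
            apply hx.1.1.2.1.2
            rw [inv_eq_one.1 h]; simp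
          refine comb hσ hx hx (-1) 0 ?_ hx1
          have : x⁻¹ = unitOf _ h0 (-1) := by
            rw [inv_eq_iff_mul_eq_one]
            ext1
            show (x : M →ₗ[k] M) * (1 + (-1 : k) • ((x : M →ₗ[k] M) - 1)) = 1
            have : (x : M →ₗ[k] M) * (1 + (-1 : k) • ((x : M →ₗ[k] M) - 1)) =
                1 - ((x : M →ₗ[k] M) - 1) * ((x : M →ₗ[k] M) - 1) := by
              rw [neg_one_smul]; noncomm_ring
            rw [this, h0, sub_zero]
          rw [this]
          simp [unitOf]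
        · right; simp
    · rintro x (hx | rfl)
      · exact Subgroup.subset_closure hx
      · exact Subgroup.one_mem _
  have hmem : ∀ x ∈ Cfsg.sameActionSubgroup G σ, x ∈ Cfsg.sameActionClass G σ ∪ {1} := by
    intro x hx; rw [← hset]; exact hx
  refine ⟨hset, ⟨⟨fun x y => ?_⟩⟩, ?_⟩
  · ext1
    ext1
    show ((x.1 * y.1 : LinearMap.GeneralLinearGroup k M) : M →ₗ[k] M) = (y.1 * x.1 : LinearMap.GeneralLinearGroup k M)
    rw [mul_val (mul_zero' hσ (hmem _ x.2) (hmem _ y.2)),
      mul_val (mul_zero' hσ (hmem _ y.2) (hmem _ x.2)), add_comm ((x.1 : M →ₗ[k] M) - 1)]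
  · intro p hp hk x hx
    have h0 := mul_zero' hσ (hmem _ hx) (hmem _ hx)
    have hpow : ∀ n : ℕ, ((x ^ n : LinearMap.GeneralLinearGroup k M) : M →ₗ[k] M) =
        1 + (n : k) • ((x : M →ₗ[k] M) - 1) := by
      intro n
      induction n with
      | zero => simp
      | succ n ih =>
        rw [pow_succ, Units.val_mul, ih]
        have : (1 + (n : k) • ((x : M →ₗ[k] M) - 1)) * (x : M →ₗ[k] M) =
            (n : k) • (((x : M →ₗ[k] M) - 1) * ((x : M →ₗ[k] M) - 1)) +
            (1 + ((n : k) • ((x : M →ₗ[k] M) - 1) + ((x : M →ₗ[k] M) - 1))) := by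
          rw [← smul_mul_assoc]
          generalize (n : k) • ((x : M →ₗ[k] M) - 1) = y
          noncomm_ring
        rw [this, h0, Nat.cast_succ, add_smul]
        simp
    ext1
    rw [hpow, ← hk, ringChar.Nat.cast_ringChar]
    simp

end Cfsg.Agent.S5059
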