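import Cfsg.Statements.S5060
import Cfsg.Agent.CHEV.QuadDickson

set_option autoImplicit false
open Cfsg


namespace Cfsg.Agent.S5060

open CL.Quad in
/-- matrices with entries in a subfield -/
def subSL {K : Type*} [Field K] (L : Subfield K) : Subgroup (Matrix.SpecialLinearGroup (Fin 2) K) where
  carrier := {g | ∀ i j : Fin 2, g i j ∈ L}
  one_mem' := by
    intro i j
    fin_cases i <;> fin_cases j
    · exact L.one_mem
    · exact L.zero_mem
    · exact L.zero_mem
    · exact L.one_mem
  mul_mem' := fun {a b} ha hb i j => by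
    rw [mul_ent]
    exact L.add_mem (L.mul_mem (ha _ _) (hb _ _)) (L.mul_mem (ha _ _) (hb _ _))
  inv_mem' := fun {a} ha i j => by
    fin_cases i <;> fin_cases j
    · show (a⁻¹) 0 0 ∈ L
      rw [inv_00]; exact ha _ _
    · show (a⁻¹) 0 1 ∈ L
      rw [inv_01]; exact L.neg_mem (ha _ _)
    · show (a⁻¹) 1 0 ∈ L
      rw [inv_10]; exact L.neg_mem (ha _ _)
    · show (a⁻¹) 1 1 ∈ L
      rw [inv_11]; exact ha _ _


/-- Let k ⊆ K be fields with the characteristic of k not 2 and k not of order 3, and let α ∈ K be a non-zero element algebraic over k. Then the subgroup of SL₂(K) generated by the upper unitriangular matrices with entry c and the lower unitriangular matrices with entry cα, c ranging over k, is exactly the group of matrices of SL₂(K) with all entries in k(α). -/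
theorem result {k K : Type*} [Field k] [Field K] [Algebra k K] (hk2 : ringChar k ≠ 2) (hk3 : Nat.card k ≠ 3)
    (α : K) (hα : IsAlgebraic k α) (hα0 : α ≠ 0) :
    (Subgroup.closure ({g : Matrix.SpecialLinearGroup (Fin 2) K | ∃ c : k, (g : Matrix (Fin 2) (Fin 2) K) = !![1, algebraMap k K c; 0, 1]} ∪
        {g : Matrix.SpecialLinearGroup (Fin 2) K | ∃ c : k, (g : Matrix (Fin 2) (Fin 2) K) = !![1, 0; algebraMap k K c * α, 1]}) :
      Set (Matrix.SpecialLinearGroup (Fin 2) K)) =
    {g : Matrix.SpecialLinearGroup (Fin 2) K | ∀ i j : Fin 2, (g : Matrix (Fin 2) (Fin 2) K) i j ∈ IntermediateField.adjoin k ({α} : Set K)} := by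
  set L := IntermediateField.adjoin k ({α} : Set K) with hL
  have hαL : α ∈ L := IntermediateField.mem_adjoin_simple_self k α
  apply Set.Subset.antisymm
  · refine (Subgroup.closure_le (subSL L.toSubfield)).2 ?_
    rintro g (⟨c, hc⟩ | ⟨c, hc⟩) i j
    · show (g : Matrix (Fin 2) (Fin 2) K) i j ∈ L
      rw [hc]
      fin_cases i <;> fin_cases j
      · exact L.one_mem
      · exact L.algebraMap_mem c
      · exact L.zero_mem
      · exact L.one_mem
    · show (g : Matrix (Fin 2) (Fin 2) K) i j ∈ L
      rw [hc]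
      fin_cases i <;> fin_cases j
      · exact L.one_mem
      · exact L.zero_mem
      · exact L.mul_mem (L.algebraMap_mem c) hαL
      · exact L.one_mem
  · intro g hg
    haveI : FiniteDimensional k L := IntermediateField.adjoin.finiteDimensional hα.isIntegral
    have hk2' : (2 : k) ≠ 0 := Ring.two_ne_zero hk2
    let f : L →+* K := algebraMap L K
    let g' : Matrix.SpecialLinearGroup (Fin 2) L := ⟨Matrix.of fun i j => ⟨g i j, hg i j⟩, by
      apply Subtype.ext
      have := CL.Quad.det_ent g
      rw [Matrix.det_fin_two]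
      exact this⟩
    have hg' : Matrix.SpecialLinearGroup.map f g' = g := by
      ext i j; rfl
    have hgen : Algebra.adjoin k {(⟨α, hαL⟩ : L)} = ⊤ :=
      (IntermediateField.adjoin.powerBasis hα.isIntegral).adjoin_gen_eq_top
    have := CL.Quad.dickson_mem (k := k) (K := L) (α := ⟨α, hαL⟩)
      (H := (Subgroup.closure ({g : Matrix.SpecialLinearGroup (Fin 2) K | ∃ c : k, (g : Matrix (Fin 2) (Fin 2) K) = !![1, algebraMap k K c; 0, 1]} ∪
        {g : Matrix.SpecialLinearGroup (Fin 2) K | ∃ c : k, (g : Matrix (Fin 2) (Fin 2) K) = !![1, 0; algebraMap k K c * α, 1]})).comap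
          (Matrix.SpecialLinearGroup.map f)) hk2' hk3
      (fun h => hα0 (congrArg Subtype.val h)) hgen ?_ ?_ g'
    · rw [Subgroup.mem_comap, hg'] at this
      exact this
    · intro c
      rw [Subgroup.mem_comap, CL.Quad.map_E12]
      exact Subgroup.subset_closure (Or.inl ⟨c, rfl⟩)
    · intro c
      rw [Subgroup.mem_comap, CL.Quad.map_E21]
      exact Subgroup.subset_closure (Or.inr ⟨c, rfl⟩)

end Cfsg.Agent.S5060
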