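import Cfsg.Statements.S5062
import Cfsg.Agent.CHEV.QuadPair4

set_option autoImplicit false
universe u
open Cfsg

open CL.Quad
namespace Cfsg.Agent.S5062

/-- Let k be a field of characteristic not 2 with k not of order 3, M a finite-dimensional k-vector space and G ≤ GL(M) such that (G, M) is a quadratic pair (M irreducible for G, and G generated by its quadratically acting elements σ whose scalar family 1 + c(σ − 1), c ∈ k, lies in G). Write 𝒬_d for the quadratic elements of G of minimal commutator rank, E(σ) for the subgroup generated by the members of 𝒬_d with the same fixed space and commutator space as σ, and Σ for the set of these subgroups. Then, inside the subgroup G₀ generated by Σ, the members of Σ form a set of abstract root subgroups of G₀ in which every member has a rank one partner; and whenever a member A and a rank one partner B of A lie in a connected component of the rank-one-pair graph that is degenerate (no commutator case among its members), there are subgroups A₀ ≤ A, B₀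 ≤ B generating an image of SL₂(k₁) with central kernel on unitriangular subgroups, for some field k₁ with at least four elements. -/
theorem result {k : Type u} [Field k] (hk2 : ringChar k ≠ 2) (hk3 : Nat.card k ≠ 3)
    {M : Type u} [AddCommGroup M] [Module k M] [FiniteDimensional k M]
    {G : Subgroup (LinearMap.GeneralLinearGroup k M)} (hG : Cfsg.IsQuadraticPair G) :
    Cfsg.IsRootSubgroupSet ((fun A : Subgroup (LinearMap.GeneralLinearGroup k M) => A.subgroupOf (⨆ B ∈ Cfsg.quadraticRootSubgroups G, B)) ''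
      Cfsg.quadraticRootSubgroups G) ∧
    (∀ A ∈ Cfsg.quadraticRootSubgroups G, ¬ Cfsg.IsIsolatedIn (Cfsg.FAdj (Cfsg.quadraticRootSubgroups G)) (Cfsg.quadraticRootSubgroups G) A) ∧
    (∀ A ∈ Cfsg.quadraticRootSubgroups G, ∀ B ∈ Cfsg.rankOnePartners (Cfsg.quadraticRootSubgroups G) A,
      (∀ C ∈ Cfsg.componentOf (Cfsg.FAdj (Cfsg.quadraticRootSubgroups G)) (Cfsg.quadraticRootSubgroups G) A,
        ∀ D ∈ Cfsg.componentOf (Cfsg.FAdj (Cfsg.quadraticRootSubgroups G)) (Cfsg.quadraticRootSubgroups G) A,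
          ¬ Cfsg.RootCommutatorCase (Cfsg.quadraticRootSubgroups G) C D) →
      ∃ A₀ B₀ : Subgroup (LinearMap.GeneralLinearGroup k M), A₀ ≤ A ∧ B₀ ≤ B ∧
        ∃ (k₁ : Type u) (_ : Field k₁), 3 < ENat.card k₁ ∧ Cfsg.IsPSL2PairOver k₁ A₀ B₀) := by
  have hk2' : (2 : k) ≠ 0 := Ring.two_ne_zero hk2
  have hN := NU_of_irreducible hG.1
  refine ⟨isRootSubgroupSet_of ?_ ?_ ?_ ?_, ?_, ?_⟩
  · intro A hA
    obtain ⟨α, hα, rfl⟩ := mem_roots.1 hA
    exact rootGrp_isMulCommutative α
  · intro A hA
    obtain ⟨α, hα, rfl⟩ := mem_roots.1 hA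
    exact rootGrp_ne_bot hα
  · intro A hA g hg
    have hle : (⨆ B ∈ quadraticRootSubgroups G, B) ≤ G := iSup₂_le fun B hB => roots_le hB
    exact roots_conj hA (hle hg)
  · intro A hA B hB
    obtain ⟨α, hα, rfl⟩ := mem_roots.1 hA
    obtain ⟨β, hβ, rfl⟩ := mem_roots.1 hB
    rcases trichotomy hk2' hk3 hα hβ with h | h | h
    · exact Or.inr (Or.inl (h.rankOne hα hβ hk2' hk3))
    · exact Or.inl h
    · exact Or.inr (Or.inr (h.rootCommutatorCase hk2' hk3 hN (rootGrp_mem_roots (h.qd hk2' hk3))))
  · intro A hA hi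
    obtain ⟨α, hα, rfl⟩ := mem_roots.1 hA
    obtain ⟨β, hβ, h⟩ := exists_opp hk2' hk3 hN hα
    exact (hi.2 _).1 ⟨hA, rootGrp_mem_roots hβ, h.rankOne hα hβ hk2' hk3⟩
  · intro A hA B ⟨hB, hr⟩ _
    obtain ⟨α, hα, rfl⟩ := mem_roots.1 hA
    obtain ⟨β, hβ, rfl⟩ := mem_roots.1 hB
    have ho := (rankOne_iff hk2' hk3 hα hβ).1 hr
    obtain ⟨A₀, B₀, h1, h2, h3⟩ := ho.exists_psl2 hα hβ hk2' hk3
    exact ⟨A₀, B₀, h1, h2, k, inferInstance, three_lt_card hk2' hk3, h3⟩

end Cfsg.Agent.S5062
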