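import Cfsg.Statements.S5063
import Cfsg.Agent.CHEV.QuadPair6

set_option autoImplicit false
universe u
open Cfsg

open CL.Quad
namespace Cfsg.Agent.S5063



/-- Let k be a field of characteristic not 2 with k not of order 3, M a finite-dimensional k-vector space and G ≤ GL(M) such that (G, M) is a quadratic pair (M irreducible for G, and G generated by its quadratically acting elements σ whose scalar family 1 + c(σ − 1), c ∈ k, lies in G). Write 𝒬_d for the quadratic elements of G of minimal commutator rank, E(σ) for the subgroup generated by the members of 𝒬_d with the same fixed space and commutator space as σ, and Σ for the set of these subgroups. Then G is a central product of finitely many quasisimple normal subgroups G₁, …, G_s (pairwise commuting and together generating G), each generated by the quadratic elements of G it contains, and every quadratic element of G lies in one of them. -/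
theorem result {k : Type u} [Field k] (hk2 : ringChar k ≠ 2) (hk3 : Nat.card k ≠ 3)
    {M : Type u} [AddCommGroup M] [Module k M] [FiniteDimensional k M]
    {G : Subgroup (LinearMap.GeneralLinearGroup k M)} (hG : Cfsg.IsQuadraticPair G) :
    ∃ (s : ℕ) (Gi : Fin s → Subgroup (LinearMap.GeneralLinearGroup k M)),
      (∀ i, Gi i ≤ G ∧ ∀ g ∈ G, Cfsg.conjBy (Gi i) g = Gi i) ∧ (∀ i j, i ≠ j → ⁅Gi i, Gi j⁆ = ⊥) ∧ (⨆ i, Gi i) = G ∧
      (∀ i, Cfsg.IsQuasisimple ↥(Gi i) ∧ Subgroup.closure (Cfsg.quadraticElements G ∩ (Gi i : Set (LinearMap.GeneralLinearGroup k M))) = Gi i) ∧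
      Cfsg.quadraticElements G ⊆ ⋃ i, (Gi i : Set (LinearMap.GeneralLinearGroup k M)) := by
  have hk2' : (2 : k) ≠ 0 := Ring.two_ne_zero hk2
  obtain ⟨ι, hι, Gi, a1, a2, a3, a4⟩ :=
    central_product_aux hk2' hk3 _ G rfl (NU_of_irreducible hG.1) hG.2
  let e := (Finite.equivFin ι).symm
  have hsup : G ≤ ⨆ i, Gi i := by
    conv_lhs => rw [← hG.2]
    rw [Subgroup.closure_le]
    intro σ hσ
    have hα := (mem_quadraticElements.1 hσ).1
    refine Qe.mem' (lie.qe (α := (σ : M →ₗ[k] M) - 1) ?_) rfl
    exact SetLike.le_def.1 (iSup_le fun i => lie_mono (le_iSup Gi i) _) (a4 _ hα)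
  refine ⟨_, fun i => Gi (e i), fun i => ⟨(a1 _).1, fun g hg => ?_⟩,
    fun i j hij => a2 _ _ fun h => hij (e.injective h), ?_, fun i => a3 (e i), fun σ hσ => ?_⟩
  · ext x
    rw [mem_conjBy]
    constructor
    · intro h
      simpa [mul_assoc] using (a1 _).2 g hg _ h
    · intro h
      simpa using (a1 _).2 _ (G.inv_mem hg) _ h
  · rw [e.iSup_comp (g := Gi)]
    exact le_antisymm (iSup_le fun i => (a1 i).1) hsup
  · obtain ⟨h1, h2⟩ := mem_quadraticElements.1 hσ
    obtain ⟨i, hi⟩ := Qe_mem_of_irreducible hG.1 a2 hsup h2 (a4 _ h1)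
    refine Set.mem_iUnion.2 ⟨e.symm i, ?_⟩
    simp only [Equiv.apply_symm_apply]
    exact Qe.mem' hi rfl

end Cfsg.Agent.S5063
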