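import Cfsg.Statements.S5064
import Cfsg.Agent.CHEV.QuadPair4

set_option autoImplicit false
universe u
open Cfsg

open CL.Quad
namespace Cfsg.Agent.S5064



/-- Let k be a field of characteristic not 2 with k not of order 3, M a finite-dimensional k-vector space and G ≤ GL(M) such that (G, M) is a quadratic pair (M irreducible for G, and G generated by its quadratically acting elements σ whose scalar family 1 + c(σ − 1), c ∈ k, lies in G). Write 𝒬_d for the quadratic elements of G of minimal commutator rank, E(σ) for the subgroup generated by the members of 𝒬_d with the same fixed space and commutator space as σ, and Σ for the set of these subgroups. If σ, τ ∈ 𝒬_d and the subgroup H generated by their two scalar families does not act unipotently on M, then H is isomorphic to SL₂ over a simple algebraic extension k(λ) of k. -/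
theorem result {k : Type u} [Field k] (hk2 : ringChar k ≠ 2) (hk3 : Nat.card k ≠ 3)
    {M : Type u} [AddCommGroup M] [Module k M] [FiniteDimensional k M]
    {G : Subgroup (LinearMap.GeneralLinearGroup k M)} (hG : Cfsg.IsQuadraticPair G)
    {σ τ : LinearMap.GeneralLinearGroup k M} (hσ : σ ∈ Cfsg.minimalQuadraticElements G) (hτ : τ ∈ Cfsg.minimalQuadraticElements G)
    (hH : ¬ Cfsg.IsUnipotentOn (Subgroup.closure (Cfsg.scalarFamily σ ∪ Cfsg.scalarFamily τ))) :
    ∃ (K : Type u) (_ : Field K) (_ : Algebra k K) (lam : K), IsAlgebraic k lam ∧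
      IntermediateField.adjoin k ({lam} : Set K) = ⊤ ∧
      Nonempty (↥(Subgroup.closure (Cfsg.scalarFamily σ ∪ Cfsg.scalarFamily τ)) ≃* Matrix.SpecialLinearGroup (Fin 2) K) := by
  have hk2' : (2 : k) ≠ 0 := Ring.two_ne_zero hk2
  rw [mem_minimal] at hσ hτ
  have hfam : ∀ {ρ : LinearMap.GeneralLinearGroup k M}, (ρ : M →ₗ[k] M) - 1 ∈ Qd G →
      scalarFamily ρ ⊆ rootGrp G ((ρ : M →ₗ[k] M) - 1) := by
    rintro ρ hρ g ⟨c, hc⟩
    show (g : M →ₗ[k] M) - 1 ∈ lie G _
    rw [hc, add_sub_cancel_left]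
    exact Submodule.smul_mem _ c (self_mem_lie hρ.1)
  have ho : Opp ((σ : M →ₗ[k] M) - 1) ((τ : M →ₗ[k] M) - 1) := by
    by_contra h
    refine hH (isUnipotentOn_iff.2 ((unip_nonopp hσ hτ hk2' hk3 h).mono ?_))
    rw [Subgroup.closure_le]
    rintro g (hg | hg)
    · exact Subgroup.mem_sup_left (hfam hσ hg)
    · exact Subgroup.mem_sup_right (hfam hτ hg)
  refine opp_sl2 hk2' hk3 hσ hτ (ho.ne_zero hσ.2.1) (fun c => ?_) (fun c => ?_) (fun L h1 h2 => ?_)
  · exact ⟨un _ (Qe.smul hσ.1 c).1, Subgroup.subset_closure (Or.inl ⟨c, rfl⟩), rfl⟩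
  · exact ⟨un _ (Qe.smul hτ.1 c).1, Subgroup.subset_closure (Or.inr ⟨c, rfl⟩), rfl⟩
  · rw [Subgroup.closure_le]
    rintro g (⟨c, hc⟩ | ⟨c, hc⟩)
    · obtain ⟨g', hg', e⟩ := h1 c
      rwa [Units.ext (hc.trans e.symm)]
    · obtain ⟨g', hg', e⟩ := h2 c
      rwa [Units.ext (hc.trans e.symm)]

end Cfsg.Agent.S5064
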