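import Cfsg.Statements.S5066
import Cfsg.Agent.CHEV.QuadPair3

set_option autoImplicit false
universe u
open Cfsg

open CL.Quad
namespace Cfsg.Agent.S5066



/-- Let k be a field of characteristic not 2 with k not of order 3, M a finite-dimensional k-vector space and G ≤ GL(M) such that (G, M) is a quadratic pair (M irreducible for G, and G generated by its quadratically acting elements σ whose scalar family 1 + c(σ − 1), c ∈ k, lies in G). Write 𝒬_d for the quadratic elements of G of minimal commutator rank, E(σ) for the subgroup generated by the members of 𝒬_d with the same fixed space and commutator space as σ, and Σ for the set of these subgroups. Let E, F ∈ Σ generate a subgroup that is nilpotent of class exactly two. Then D = ⁅E, F⁆ belongs to Σ, equals the subgroup generated by the commutators of e with F, and also of E with f, for every non-identity e ∈ E, f ∈ F, and ⟨E, F⟩ lies in U(D), the set of elements g of G normalizing D with (g − 1)M inside the fixed space of D, (g − 1) mapping that fixed space into the commutator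 space of D, and g acting trivially on the commutator space of D. -/
theorem result {k : Type u} [Field k] (hk2 : ringChar k ≠ 2) (hk3 : Nat.card k ≠ 3)
    {M : Type u} [AddCommGroup M] [Module k M] [FiniteDimensional k M]
    {G : Subgroup (LinearMap.GeneralLinearGroup k M)} (hG : Cfsg.IsQuadraticPair G)
    {E F : Subgroup (LinearMap.GeneralLinearGroup k M)} (hE : E ∈ Cfsg.quadraticRootSubgroups G) (hF : F ∈ Cfsg.quadraticRootSubgroups G)
    (h2 : ⁅E ⊔ F, E ⊔ F⁆ ≠ ⊥ ∧ ⁅⁅E ⊔ F, E ⊔ F⁆, E ⊔ F⁆ = ⊥) :
    ⁅E, F⁆ ∈ Cfsg.quadraticRootSubgroups G ∧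
    (∀ e ∈ E, e ≠ 1 → Subgroup.closure ((fun f : LinearMap.GeneralLinearGroup k M => e * f * e⁻¹ * f⁻¹) '' (F : Set (LinearMap.GeneralLinearGroup k M))) = ⁅E, F⁆) ∧
    (∀ f ∈ F, f ≠ 1 → Subgroup.closure ((fun e : LinearMap.GeneralLinearGroup k M => e * f * e⁻¹ * f⁻¹) '' (E : Set (LinearMap.GeneralLinearGroup k M))) = ⁅E, F⁆) ∧
    ((E ⊔ F : Subgroup (LinearMap.GeneralLinearGroup k M)) : Set (LinearMap.GeneralLinearGroup k M)) ⊆ Cfsg.quadraticUnipotentCore G ⁅E, F⁆ := by
  have hk2' : (2 : k) ≠ 0 := Ring.two_ne_zero hk2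
  have hN := NU_of_irreducible hG.1
  obtain ⟨α, hα, rfl⟩ := mem_roots.1 hE
  obtain ⟨β, hβ, rfl⟩ := mem_roots.1 hF
  rcases trichotomy hk2' hk3 hα hβ with h | h | h
  · exfalso
    have h1 := (h.le_commutator hα hβ hk2' hk3).trans (Subgroup.commutator_mono le_rfl
      (le_sup_left (b := rootGrp G β)))
    apply CL.RankOne.commutator_ne_bot (h.rankOne hα hβ hk2' hk3)
    exact le_bot_iff.1 (h2.2 ▸ Subgroup.commutator_mono h1 le_sup_right)
  · exfalso
    apply h2.1
    rw [Subgroup.commutator_eq_bot_iff_le_centralizer] at h ⊢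
    have key : ∀ A : Subgroup (LinearMap.GeneralLinearGroup k M),
        rootGrp G α ≤ Subgroup.centralizer A → rootGrp G β ≤ Subgroup.centralizer A →
        A ≤ Subgroup.centralizer (rootGrp G α ⊔ rootGrp G β : Subgroup (LinearMap.GeneralLinearGroup k M)) :=
      fun A h1 h2 => Subgroup.le_centralizer_iff.1 (sup_le h1 h2)
    exact sup_le (key _ (fun x hx y hy => rootGrp_comm hy hx) (Subgroup.le_centralizer_iff.1 h))
      (key _ h (fun x hx y hy => rootGrp_comm hy hx))
  · exact ⟨h.commutator_mem_roots hk2' hk3 hN,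
      fun e he he1 => h.closure_left hk2' hk3 hN he he1,
      fun e he he1 => h.closure_right hk2' hk3 hN he he1, h.core hk2' hk3 hN⟩

end Cfsg.Agent.S5066
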