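import Cfsg.Statements.S5067


set_option autoImplicit false
open Cfsg
open scoped commutatorElement

namespace Cfsg.Agent.S5067

lemma aux {P : Type*} [Group P] [Group.IsNilpotent P]
    (hna : ¬ IsMulCommutative P) {E : Subgroup P} (hE : IsMulCommutative ↥E) :
    Group.nilpotencyClass ↥(Subgroup.normalClosure (E : Set P)) < Group.nilpotencyClass P := by
  set N := Subgroup.normalClosure (E : Set P) with hN
  have hc : 2 ≤ Group.nilpotencyClass P := by
    by_contra h
    exact hna (Group.IsNilpotent.nilpotencyClass_le_one_iff.1 (by omega))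
  have hle : N ≤ E ⊔ commutator P := by
    haveI : (E ⊔ commutator P).Normal := Subgroup.Normal.of_commutator_le _ le_sup_right
    exact Subgroup.normalClosure_le_normal (fun x hx => Subgroup.mem_sup_left hx)
  have hdec : ∀ x ∈ N, ∃ e ∈ E, ∃ c ∈ commutator P, x = e * c := by
    intro x hx
    have h1 : x ∈ ((E ⊔ commutator P : Subgroup P) : Set P) := hle hx
    rw [Subgroup.mul_normal] at h1
    obtain ⟨e, he, c, hc, rfl⟩ := h1
    exact ⟨e, he, c, hc, rfl⟩
  have h2 : ∀ n, N.lowerCentralSeries (n + 1) ≤ (⊤ : Subgroup P).lowerCentralSeries (n + 2) := by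
    intro n
    induction n with
    | zero =>
      show ⁅N, N⁆ ≤ ⁅commutator P, ⊤⁆
      rw [Subgroup.commutator_le]
      intro x hx y hy
      obtain ⟨e, he, c, hc, rfl⟩ := hdec x hx
      obtain ⟨f, hf, d, hd, rfl⟩ := hdec y hy
      set K : Subgroup P := ⁅commutator P, ⊤⁆ with hK
      haveI : K.Normal := inferInstance
      rw [← QuotientGroup.eq_one_iff (N := K)]
      have hef : e * f = f * e := congrArg Subtype.val (hE.is_comm.comm (⟨e, he⟩ : E) ⟨f, hf⟩)
      have hcen : ∀ c ∈ commutator P, ∀ z : P, (c : P ⧸ K) * z = z * c := by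
        intro c hc z
        rw [← commutatorElement_eq_one_iff_mul_comm]
        have : ((⁅c, z⁆ : P) : P ⧸ K) = 1 :=
          (QuotientGroup.eq_one_iff _).2 (Subgroup.commutator_mem_commutator hc (Subgroup.mem_top z))
        simpa [commutatorElement_def] using this
      have hef' : (e : P ⧸ K) * f = f * e := by
        rw [← QuotientGroup.mk_mul, hef, QuotientGroup.mk_mul]
      have : ⁅((e * c : P) : P ⧸ K), ((f * d : P) : P ⧸ K)⁆ = 1 := by
        rw [commutatorElement_eq_one_iff_commute, QuotientGroup.mk_mul, QuotientGroup.mk_mul]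
        exact Commute.mul_left (Commute.mul_right hef' (hcen d hd e).symm)
          (Commute.mul_right (hcen c hc f) (hcen c hc d))
      simpa [commutatorElement_def] using this
    | succ n ih =>
      rw [Subgroup.lowerCentralSeries_succ, Subgroup.lowerCentralSeries_succ ⊤ (n + 2)]
      exact Subgroup.commutator_mono ih le_top
  obtain ⟨m, hm⟩ : ∃ m, Group.nilpotencyClass P = m + 2 := ⟨_, (Nat.sub_add_cancel hc).symm⟩
  have h3 : N.lowerCentralSeries (m + 1) = ⊥ := by
    rw [eq_bot_iff]
    refine (h2 m).trans ?_
    rw [← hm, Subgroup.lowerCentralSeries_nilpotencyClass]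
  have h4 : Group.nilpotencyClass N ≤ m + 1 := by
    rw [← Subgroup.lowerCentralSeries_eq_bot_iff_nilpotencyClass_le, ← Subgroup.map_subtype_inj,
      Subgroup.map_bot, Subgroup.top_subtype_lowerCentralSeries, h3]
  omega


/-- Let P be a non-abelian nilpotent p-group (every element of p-power order; P possibly infinite) generated by two abelian subgroups E and F. Then the normal closure of E in P, and likewise that of F, has nilpotency class strictly smaller than that of P. -/
theorem result {P : Type*} [Group P] {p : ℕ} [Fact p.Prime] (hP : IsPGroup p P) [Group.IsNilpotent P]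
    (hna : ¬ IsMulCommutative P) {E F : Subgroup P} (hE : IsMulCommutative ↥E) (hF : IsMulCommutative ↥F) (hgen : E ⊔ F = ⊤) :
    Group.nilpotencyClass ↥(Subgroup.normalClosure (E : Set P)) < Group.nilpotencyClass P ∧
    Group.nilpotencyClass ↥(Subgroup.normalClosure (F : Set P)) < Group.nilpotencyClass P := by
  exact ⟨aux hna hE, aux hna hF⟩

end Cfsg.Agent.S5067
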