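import Cfsg.Statements.S5069
import Cfsg.Agent.CHEV.QuadPair5

set_option autoImplicit false
universe u
open Cfsg

open CL.Quad
namespace Cfsg.Agent.S5069



/-- Let k be a field of characteristic not 2 with k not of order 3, M a finite-dimensional k-vector space and G ≤ GL(M) such that (G, M) is a quadratic pair (M irreducible for G, and G generated by its quadratically acting elements σ whose scalar family 1 + c(σ − 1), c ∈ k, lies in G). Write 𝒬_d for the quadratic elements of G of minimal commutator rank, E(σ) for the subgroup generated by the members of 𝒬_d with the same fixed space and commutator space as σ, and Σ for the set of these subgroups. Then Σ is a disjoint union of finitely many parts Σ₁, …, Σ_r such that the subgroups G_i generated by the Σ_i commute pairwise, each G_i is quasisimple, and inside G_i the members of Σ_i form a class of abstract root subgroups in which every rank one pair A, B contains subgroups A₀ ≤ A, B₀ ≤ B generating an image of SL₂(k₁) with central kernel on unitriangular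 subgroups for some field k₁ with at least four elements. -/
theorem result {k : Type u} [Field k] (hk2 : ringChar k ≠ 2) (hk3 : Nat.card k ≠ 3)
    {M : Type u} [AddCommGroup M] [Module k M] [FiniteDimensional k M]
    {G : Subgroup (LinearMap.GeneralLinearGroup k M)} (hG : Cfsg.IsQuadraticPair G) :
    ∃ (r : ℕ) (part : Fin r → Set (Subgroup (LinearMap.GeneralLinearGroup k M))),
      (⋃ i, part i) = Cfsg.quadraticRootSubgroups G ∧ (∀ i j, i ≠ j → Disjoint (part i) (part j)) ∧ (∀ i, (part i).Nonempty) ∧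
      (∀ i j, i ≠ j → ⁅(⨆ A ∈ part i, A), (⨆ A ∈ part j, A)⁆ = ⊥) ∧
      (∀ i, Cfsg.IsQuasisimple ↥(⨆ A ∈ part i, A) ∧
        Cfsg.IsRootSubgroupClass ((fun A : Subgroup (LinearMap.GeneralLinearGroup k M) => A.subgroupOf (⨆ B ∈ part i, B)) '' (part i)) ∧
        ∀ A ∈ part i, ∀ B ∈ Cfsg.rankOnePartners (part i) A, ∃ A₀ B₀ : Subgroup (LinearMap.GeneralLinearGroup k M), A₀ ≤ A ∧ B₀ ≤ B ∧
          ∃ (k₁ : Type u) (_ : Field k₁), 3 < ENat.card k₁ ∧ Cfsg.IsPSL2PairOver k₁ A₀ B₀) := by
  have hk2' : (2 : k) ≠ 0 := Ring.two_ne_zero hk2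
  have hN := NU_of_irreducible hG.1
  have := finite_comps hk2' hk3 hN
  let e := (Finite.equivFin {S : Set (Subgroup (M →ₗ[k] M)ˣ) //
    ∃ A ∈ quadraticRootSubgroups G, S = comp G A}).symm
  refine ⟨_, fun i => (e i).1, ?_, fun i j hij => ?_, fun i => ?_, fun i j hij => ?_, fun i => ?_⟩
  · apply Set.Subset.antisymm
    · rintro B ⟨_, ⟨i, rfl⟩, hB⟩
      obtain ⟨A, -, h⟩ := (e i).2
      simp only [h] at hB
      exact hB.1
    · intro A hA
      refine Set.mem_iUnion.2 ⟨e.symm ⟨_, A, hA, rfl⟩, ?_⟩
      rw [Equiv.apply_symm_apply]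
      exact self_mem_comp hA
  · rw [Set.disjoint_left]
    intro C hi hj
    obtain ⟨A, hA, h⟩ := (e i).2
    obtain ⟨B, hB, h'⟩ := (e j).2
    apply hij
    apply e.injective
    apply Subtype.ext
    simp only [h, h'] at hi hj ⊢
    rw [← comp_eq hA hi, comp_eq hB hj]
  · obtain ⟨A, hA, h⟩ := (e i).2
    simp only [h]
    exact ⟨A, self_mem_comp hA⟩
  · obtain ⟨A, hA, h⟩ := (e i).2
    obtain ⟨B, hB, h'⟩ := (e j).2
    have hne : comp G A ≠ comp G B := fun h0 =>
      hij (e.injective (Subtype.ext (by rw [h, h', h0])))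
    simp only [h, h']
    exact gen_commutator_eq_bot (comp_commute hk2' hk3 hN hA hB hne)
  · beta_reduce
    generalize e i = x
    obtain ⟨S, A, hA, rfl⟩ := x
    refine ⟨gen_comp_quasisimple hk2' hk3 hN hA, comp_class hk2' hk3 hN hA, ?_⟩
    intro B hB C hC'
    have hC : C ∈ comp G A := hC'.1
    have hr : IsRankOnePair B C := hC'.2
    clear hC'
    obtain ⟨α, hα, rfl⟩ := mem_roots.1 (comp_subset hB)
    obtain ⟨β, hβ, rfl⟩ := mem_roots.1 (comp_subset hC)
    have ho := (rankOne_iff hk2' hk3 hα hβ).1 hr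
    obtain ⟨A₀, B₀, h1, h2, h3⟩ := ho.exists_psl2 hα hβ hk2' hk3
    exact ⟨A₀, B₀, h1, h2, k, inferInstance, three_lt_card hk2' hk3, h3⟩

end Cfsg.Agent.S5069
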