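import Cfsg.Statements.S5070
import Cfsg.Agent.CHEV.RootEx3

set_option autoImplicit false
open Matrix
open Cfsg

open CL.RootEx CL.Sp
namespace Cfsg.Agent.S5070

/-- the natural representation -/
def jSp (F : Type*) [Field F] (m : ℕ) :
    Matrix.symplecticGroup (Fin m) F →* Module.End F (Fin m ⊕ Fin m → F) :=
  (Matrix.toLinAlgEquiv' (R := F) (n := Fin m ⊕ Fin m)).toMonoidHom.comp
    (Matrix.symplecticGroup (Fin m) F).subtype

theorem jSp_apply {F : Type*} [Field F] {m : ℕ} (g : Matrix.symplecticGroup (Fin m) F)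
    (v : Fin m ⊕ Fin m → F) : jSp F m g v = g.1 *ᵥ v := rfl

theorem hpsi (F : Type*) [Field F] (m : ℕ) (x y : Fin m ⊕ Fin m → F) : ∃ l, RingHom.id F l =
    -1 * (spForm m F).B x y * (-1 * (spForm m F).B y x) := ⟨_, rfl⟩

theorem j_tv {F : Type*} [Field F] {m : ℕ} (p : Fin m ⊕ Fin m → F) (c : F) :
    jSp F m ⟨_, sympTransvection_mem p c⟩ = 1 + RingHom.id F c • r1 p ((-1 : F) • (spForm m F).B p) :=
  LinearMap.ext fun v => by
    rw [jSp_apply, sympTransvection_mulVec, CL.Witt.Form.tv_apply]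
    simp [smul_smul]

theorem sys (F : Type*) [Field F] (m : ℕ) :
    Sys (RingHom.id F) (jSp F m) (ftv (spForm m F) (-1)) :=
  sys_ftv (spForm_nondeg m F) (by simp) (hpsi F m)
    (fun _ _ e => Subtype.ext (Matrix.toLinAlgEquiv'.injective e))
    (fun g x y => by rw [spForm_B, spForm_B]; exact mem_symplecticGroup_iff.1 g.2 x y)
    (fun g x => by rw [(spForm m F).alt_q, (spForm m F).alt_q]) fun p _ c => ⟨_, j_tv p c⟩

theorem gen (F : Type*) [Field F] (m : ℕ) :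
    ⨆ α ∈ ftv (spForm m F) (-1), rg (RingHom.id F) (jSp F m) α = ⊤ := by
  refine eq_top_of_sympTransvection_mem fun p c => ?_
  by_cases hp : p = 0
  · have : (⟨_, sympTransvection_mem p c⟩ : Matrix.symplecticGroup (Fin m) F) = 1 := by
      apply (sys F m).inj
      rw [j_tv, hp, map_one]
      exact LinearMap.ext fun v => by simp
    rw [this]; exact one_mem _
  have hle : rg (RingHom.id F) (jSp F m) (r1 p ((-1 : F) • (spForm m F).B p)) ≤
      ⨆ α ∈ ftv (spForm m F) (-1), rg (RingHom.id F) (jSp F m) α :=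
    le_iSup₂ (f := fun α (_ : α ∈ ftv (spForm m F) (-1)) => rg (RingHom.id F) (jSp F m) α) _
      ⟨p, hp, (spForm m F).alt_q p, rfl⟩
  exact hle (Subgroup.subset_closure ⟨c, j_tv p c⟩)

theorem set_eq (F : Type*) [Field F] (m : ℕ) :
    {A : Subgroup ↥(Matrix.symplecticGroup (Fin m) F) | ∃ p : Fin m ⊕ Fin m → F, p ≠ 0 ∧
        A = Subgroup.closure {g : ↥(Matrix.symplecticGroup (Fin m) F) | ∃ c : F, ∀ v : Fin m ⊕ Fin m → F,
          (g : Matrix (Fin m ⊕ Fin m) (Fin m ⊕ Fin m) F) *ᵥ v =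
            v + (c * (v ⬝ᵥ (Matrix.J (Fin m) F *ᵥ p))) • p}} =
      rg (RingHom.id F) (jSp F m) '' ftv (spForm m F) (-1) := by
  have key : ∀ p : Fin m ⊕ Fin m → F, Subgroup.closure {g : ↥(Matrix.symplecticGroup (Fin m) F) |
      ∃ c : F, ∀ v : Fin m ⊕ Fin m → F, (g : Matrix (Fin m ⊕ Fin m) (Fin m ⊕ Fin m) F) *ᵥ v =
        v + (c * (v ⬝ᵥ (Matrix.J (Fin m) F *ᵥ p))) • p} =
      rg (RingHom.id F) (jSp F m) (r1 p ((-1 : F) • (spForm m F).B p)) := fun p => by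
    unfold rg
    congr 1
    ext g
    refine exists_congr fun c => ?_
    rw [LinearMap.ext_iff]
    refine forall_congr' fun v => ?_
    have : v ⬝ᵥ (Matrix.J (Fin m) F *ᵥ p) = -(spForm m F).B p v := by
      rw [← (spForm m F).alt_symm p v, spForm_B]; rfl
    rw [jSp_apply, this]
    simp [smul_smul]
  ext A
  constructor
  · rintro ⟨p, hp, rfl⟩
    exact ⟨_, ⟨p, hp, (spForm m F).alt_q p, rfl⟩, (key p).symm⟩
  · rintro ⟨_, ⟨p, hp, -, rfl⟩, rfl⟩
    exact ⟨p, hp, (key p).symm⟩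


/-- Let F be a field, m a natural number and V = F^{2(m+1)} with the standard non-degenerate alternating form f(u, v) = uᵀ J v. For a non-zero vector p let T(p) be the group of symplectic transvections v ↦ v + c f(v, p) p, c ∈ F. Then the subgroups T(p), p ≠ 0, generate the symplectic group Sp_{2(m+1)}(F) and form a degenerate class of abstract F-root subgroups of it (any two of them either commute elementwise or are the unipotent subgroups of a rank one group that is an image of SL₂(F) with central kernel, never the commutator case), and their graph of rank one pairs is connected. -/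
theorem result (F : Type*) [Field F] (m : ℕ) :
    Cfsg.IsRootSubgroupClass {A : Subgroup ↥(Matrix.symplecticGroup (Fin (m + 1)) F) | ∃ p : Fin (m + 1) ⊕ Fin (m + 1) → F, p ≠ 0 ∧
        A = Subgroup.closure {g : ↥(Matrix.symplecticGroup (Fin (m + 1)) F) | ∃ c : F, ∀ v : Fin (m + 1) ⊕ Fin (m + 1) → F,
          (g : Matrix (Fin (m + 1) ⊕ Fin (m + 1)) (Fin (m + 1) ⊕ Fin (m + 1)) F) *ᵥ v =
            v + (c * (v ⬝ᵥ (Matrix.J (Fin (m + 1)) F *ᵥ p))) • p}} ∧
    Cfsg.IsDegenerateRootSet {A : Subgroup ↥(Matrix.symplecticGroup (Fin (m + 1)) F) | ∃ p : Fin (m + 1) ⊕ Fin (m + 1) → F, p ≠ 0 ∧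
        A = Subgroup.closure {g : ↥(Matrix.symplecticGroup (Fin (m + 1)) F) | ∃ c : F, ∀ v : Fin (m + 1) ⊕ Fin (m + 1) → F,
          (g : Matrix (Fin (m + 1) ⊕ Fin (m + 1)) (Fin (m + 1) ⊕ Fin (m + 1)) F) *ᵥ v =
            v + (c * (v ⬝ᵥ (Matrix.J (Fin (m + 1)) F *ᵥ p))) • p}} ∧
    Cfsg.IsKRootSubgroupSet F {A : Subgroup ↥(Matrix.symplecticGroup (Fin (m + 1)) F) | ∃ p : Fin (m + 1) ⊕ Fin (m + 1) → F, p ≠ 0 ∧
        A = Subgroup.closure {g : ↥(Matrix.symplecticGroup (Fin (m + 1)) F) | ∃ c : F, ∀ v : Fin (m + 1) ⊕ Fin (m + 1) → F,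
          (g : Matrix (Fin (m + 1) ⊕ Fin (m + 1)) (Fin (m + 1) ⊕ Fin (m + 1)) F) *ᵥ v =
            v + (c * (v ⬝ᵥ (Matrix.J (Fin (m + 1)) F *ᵥ p))) • p}} ∧
    Cfsg.IsConnectedFamily (Cfsg.FAdj {A : Subgroup ↥(Matrix.symplecticGroup (Fin (m + 1)) F) | ∃ p : Fin (m + 1) ⊕ Fin (m + 1) → F, p ≠ 0 ∧
        A = Subgroup.closure {g : ↥(Matrix.symplecticGroup (Fin (m + 1)) F) | ∃ c : F, ∀ v : Fin (m + 1) ⊕ Fin (m + 1) → F,
          (g : Matrix (Fin (m + 1) ⊕ Fin (m + 1)) (Fin (m + 1) ⊕ Fin (m + 1)) F) *ᵥ v =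
            v + (c * (v ⬝ᵥ (Matrix.J (Fin (m + 1)) F *ᵥ p))) • p}})
      {A : Subgroup ↥(Matrix.symplecticGroup (Fin (m + 1)) F) | ∃ p : Fin (m + 1) ⊕ Fin (m + 1) → F, p ≠ 0 ∧
        A = Subgroup.closure {g : ↥(Matrix.symplecticGroup (Fin (m + 1)) F) | ∃ c : F, ∀ v : Fin (m + 1) ⊕ Fin (m + 1) → F,
          (g : Matrix (Fin (m + 1) ⊕ Fin (m + 1)) (Fin (m + 1) ⊕ Fin (m + 1)) F) *ᵥ v =
            v + (c * (v ⬝ᵥ (Matrix.J (Fin (m + 1)) F *ᵥ p))) • p}} := by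
  rw [set_eq]
  have h := sys F (m + 1)
  have hc := h.connected (path_of_common (ftv_common (spForm_nondeg (m + 1) F) (by simp)
    (Or.inl ⟨1, one_ne_zero, rfl⟩) (hpsi F (m + 1))))
  exact ⟨⟨h.isRootSubgroupSet (gen F _), isConjClass_of_connected
    ⟨_, _, ⟨1, one_ne_zero, (spForm (m + 1) F).alt_q _, rfl⟩, rfl⟩ hc⟩,
    h.degenerate (gen F _) (ftv_two (by simp) (hpsi F (m + 1))), h.isKRootSubgroupSet (gen F _), hc⟩
end Cfsg.Agent.S5070
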