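import Cfsg.Statements.S5071
import Cfsg.Agent.CHEV.RootEx3

set_option autoImplicit false
open Matrix
open Cfsg

open CL.RootEx CL.Uni CL.Witt CL.Witt.Form
namespace Cfsg.Agent.S5071

variable {F : Type*} [Field F] [Fintype F] {q : ℕ}

/-- the natural representation -/
def jU (F : Type*) [Field F] (q n : ℕ) : SU n F q →* Module.End F (Fin n → F) :=
  (jSL (Fin n) F).comp (SU n F q).subtype

theorem isom (hF : Fintype.card F = q ^ 2) {n : ℕ} (g : SU n F q) :
    IsIsom (std hF (Fin n)) (std hF (Fin n)) (jU F q n g) :=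
  ((mem_SO _).1 (suEquiv hF n g).2).1

section

variable (hF : Fintype.card F = q ^ 2) {L : Type} [Field L] {ψ : L →+* F}
  (hψ : ∀ x, x ^ q = x ↔ ∃ l, ψ l = x) {a : F} (ha0 : a ≠ 0) (ha : a + a ^ q = 0)
include hψ ha

theorem hpsi {n : ℕ} (x y : Fin n → F) :
    ∃ l, ψ l = a * (std hF (Fin n)).B x y * (a * (std hF (Fin n)).B y x) := by
  rw [← hψ, (std hF (Fin n)).symm x y, HT_ε, HT_σ, one_mul]
  simp only [mul_pow, CL.SqField.pow_q_pow_q hF, eq_neg_of_add_eq_zero_right ha]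
  ring

include ha0

theorem sys (n : ℕ) : Sys ψ (jU F q n) (ftv (std hF (Fin n)) a) := by
  refine sys_ftv (std_nondeg hF _) ha0 (hpsi hF hψ ha)
    ((sysSL (ι := Fin n) (F := F)).inj.comp Subtype.val_injective)
    (fun g => (isom hF g).B_eq) (fun g => (isom hF g).q_eq) fun p hp c => ?_
  have h1 : (HT hF).π (-(ψ c * a)) = 0 := by
    rw [map_neg, HT_π, mul_pow, (hψ _).2 ⟨c, rfl⟩, ← mul_add, ha]; simp
  refine ⟨(suEquiv hF n).symm ⟨_, (std hF (Fin n)).ei_mem_SO p 0 (-(ψ c * a))⟩,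
    LinearMap.ext fun v => ?_⟩
  have e : ∀ g : SU n F q, jU F q n g v = (suEquiv hF n g).1 v := fun g => rfl
  rw [e, MulEquiv.apply_symm_apply]
  refine (ei_zero_apply hp h1 v).trans ?_
  simp [HT_ε, smul_smul, mul_assoc]

theorem set_eq (n : ℕ) :
    {A : Subgroup ↥(Cfsg.SU n F q) | ∃ p : Fin n → F, p ≠ 0 ∧ Cfsg.hermForm n F q p p = 0 ∧
          A = Subgroup.closure {g : ↥(Cfsg.SU n F q) |
            (∀ v : Fin n → F, ∃ c : F, ((g : Matrix.SpecialLinearGroup (Fin n) F) : Matrix (Fin n) (Fin n) F) *ᵥ v = v + c • p) ∧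
            ∀ v : Fin n → F, Cfsg.hermForm n F q v p = 0 →
              ((g : Matrix.SpecialLinearGroup (Fin n) F) : Matrix (Fin n) (Fin n) F) *ᵥ v = v}} =
      rg ψ (jU F q n) '' ftv (std hF (Fin n)) a := by
  have key : ∀ p : Fin n → F, p ≠ 0 → (std hF (Fin n)).q p = 0 →
      Subgroup.closure {g : ↥(Cfsg.SU n F q) |
            (∀ v : Fin n → F, ∃ c : F, ((g : Matrix.SpecialLinearGroup (Fin n) F) : Matrix (Fin n) (Fin n) F) *ᵥ v = v + c • p) ∧
            ∀ v : Fin n → F, Cfsg.hermForm n F q v p = 0 →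
              ((g : Matrix.SpecialLinearGroup (Fin n) F) : Matrix (Fin n) (Fin n) F) *ᵥ v = v} =
      rg ψ (jU F q n) (r1 p (a • (std hF (Fin n)).B p)) := fun p hp0 hp => by
    unfold rg
    congr 1
    ext g
    constructor
    · rintro ⟨h1, h2⟩
      change ∀ v, ∃ c : F, jU F q n g v = v + c • p at h1
      change ∀ v, (std hF (Fin n)).B p v = 0 → jU F q n g v = v at h2
      obtain ⟨w, hw, hpw⟩ := (std_nondeg hF (Fin n)).exists_partner' hp hp0
      obtain ⟨c, hc⟩ := h1 w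
      have h3 := (isom hF g).q_eq w
      rw [hc, q_add_smul, hp, hw, (std hF (Fin n)).symm p w, hpw] at h3
      have h4 : c + c ^ q = 0 := by simpa [HT_ε, HT_π] using h3
      obtain ⟨l, hl⟩ := (hψ (c / a)).1 (by
        rw [div_pow, eq_neg_of_add_eq_zero_right ha, eq_neg_of_add_eq_zero_right h4, neg_div_neg_eq])
      refine ⟨l, LinearMap.ext fun v => ?_⟩
      have h5 := h2 (v - (std hF (Fin n)).B p v • w) (by simp [hpw])
      rw [map_sub, map_smul, hc] at h5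
      simp only [LinearMap.add_apply, Module.End.one_apply, LinearMap.smul_apply, r1_apply, hl,
        smul_smul, smul_eq_mul]
      rw [← mul_assoc, div_mul_cancel₀ _ ha0]
      linear_combination (norm := module) h5
    · rintro ⟨c, hc⟩
      have : ∀ v, ((g : Matrix.SpecialLinearGroup (Fin n) F) : Matrix (Fin n) (Fin n) F) *ᵥ v =
          v + (ψ c * (a * (std hF (Fin n)).B p v)) • p := fun v => by
        refine (LinearMap.congr_fun hc v).trans ?_
        simp [smul_smul]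
      refine ⟨fun v => ⟨_, this v⟩, fun v hv => ?_⟩
      rw [this, std_B_eq_hermForm, hv]; simp
  ext A
  constructor
  · rintro ⟨p, hp0, hp, rfl⟩
    exact ⟨_, ⟨p, hp0, hp, rfl⟩, (key p hp0 hp).symm⟩
  · rintro ⟨_, ⟨p, hp0, hp, rfl⟩, rfl⟩
    exact ⟨p, hp0, hp, (key p hp0 hp).symm⟩

end

theorem exists_L (hF : Fintype.card F = q ^ 2) : ∃ (L : Type) (_ : Field L) (_ : Fintype L)
    (ψ : L →+* F), Fintype.card L = q ∧ ∀ x, x ^ q = x ↔ ∃ l, ψ l = x := by
  obtain ⟨p, k, hp, -, hk, hq⟩ := CL.SqField.exists_char hF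
  have := Fact.mk hp
  have := Fintype.ofFinite (GaloisField p k)
  have := Fintype.ofFinite (CL.SqField.fixedSubfield hF)
  have h1 : Fintype.card (GaloisField p k) = q := by
    rw [← Nat.card_eq_fintype_card, GaloisField.card p k hk.ne', hq]
  have e := FiniteField.ringEquivOfCardEq (K := GaloisField p k) (K' := CL.SqField.fixedSubfield hF)
    (by rw [h1, ← Nat.card_eq_fintype_card, CL.SqField.card_fixedSubfield])
  refine ⟨GaloisField p k, inferInstance, inferInstance,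
    (CL.SqField.fixedSubfield hF).subtype.comp e.toRingHom, h1, fun x => ⟨fun hx => ?_, ?_⟩⟩
  · exact ⟨e.symm ⟨x, hx⟩, by simp⟩
  · rintro ⟨l, rfl⟩
    exact (e l).2


/-- Let F be a finite field with q² elements, n a natural number, and h the Hermitian form Σ uᵢ vᵢ^q on F^{n+2}. For a non-zero isotropic vector p let T(p) be the group of unitary transvections with centre ⟨p⟩: the elements of SU_{n+2}(q) moving every vector by a multiple of p and fixing every vector perpendicular to p. Let Σ be the set of these T(p) and G₀ the subgroup they generate. Then, viewed inside G₀, the members of Σ form a degenerate class of abstract k-root subgroups of G₀ for some field k with q elements (any two commute or are the unipotent subgroups of a rank one group that is an image of SL₂(k) with central kernel, never the commutator case), and their graph of rank one pairs is connected. -/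
theorem result (F : Type*) [Field F] [Fintype F] (q n : ℕ) (hF : Fintype.card F = q ^ 2) :
    Cfsg.IsRootSubgroupClass ((fun A : Subgroup ↥(Cfsg.SU (n + 2) F q) => A.subgroupOf (⨆ B ∈ {A : Subgroup ↥(Cfsg.SU (n + 2) F q) | ∃ p : Fin (n + 2) → F, p ≠ 0 ∧ Cfsg.hermForm (n + 2) F q p p = 0 ∧
          A = Subgroup.closure {g : ↥(Cfsg.SU (n + 2) F q) |
            (∀ v : Fin (n + 2) → F, ∃ c : F, ((g : Matrix.SpecialLinearGroup (Fin (n + 2)) F) : Matrix (Fin (n + 2)) (Fin (n + 2)) F) *ᵥ v = v + c • p) ∧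
            ∀ v : Fin (n + 2) → F, Cfsg.hermForm (n + 2) F q v p = 0 →
              ((g : Matrix.SpecialLinearGroup (Fin (n + 2)) F) : Matrix (Fin (n + 2)) (Fin (n + 2)) F) *ᵥ v = v}}, B)) ''
      {A : Subgroup ↥(Cfsg.SU (n + 2) F q) | ∃ p : Fin (n + 2) → F, p ≠ 0 ∧ Cfsg.hermForm (n + 2) F q p p = 0 ∧
          A = Subgroup.closure {g : ↥(Cfsg.SU (n + 2) F q) |
            (∀ v : Fin (n + 2) → F, ∃ c : F, ((g : Matrix.SpecialLinearGroup (Fin (n + 2)) F) : Matrix (Fin (n + 2)) (Fin (n + 2)) F) *ᵥ v = v + c • p) ∧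
            ∀ v : Fin (n + 2) → F, Cfsg.hermForm (n + 2) F q v p = 0 →
              ((g : Matrix.SpecialLinearGroup (Fin (n + 2)) F) : Matrix (Fin (n + 2)) (Fin (n + 2)) F) *ᵥ v = v}}) ∧
    Cfsg.IsDegenerateRootSet ((fun A : Subgroup ↥(Cfsg.SU (n + 2) F q) => A.subgroupOf (⨆ B ∈ {A : Subgroup ↥(Cfsg.SU (n + 2) F q) | ∃ p : Fin (n + 2) → F, p ≠ 0 ∧ Cfsg.hermForm (n + 2) F q p p = 0 ∧
          A = Subgroup.closure {g : ↥(Cfsg.SU (n + 2) F q) |
            (∀ v : Fin (n + 2) → F, ∃ c : F, ((g : Matrix.SpecialLinearGroup (Fin (n + 2)) F) : Matrix (Fin (n + 2)) (Fin (n + 2)) F) *ᵥ v = v + c • p) ∧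
            ∀ v : Fin (n + 2) → F, Cfsg.hermForm (n + 2) F q v p = 0 →
              ((g : Matrix.SpecialLinearGroup (Fin (n + 2)) F) : Matrix (Fin (n + 2)) (Fin (n + 2)) F) *ᵥ v = v}}, B)) ''
      {A : Subgroup ↥(Cfsg.SU (n + 2) F q) | ∃ p : Fin (n + 2) → F, p ≠ 0 ∧ Cfsg.hermForm (n + 2) F q p p = 0 ∧
          A = Subgroup.closure {g : ↥(Cfsg.SU (n + 2) F q) |
            (∀ v : Fin (n + 2) → F, ∃ c : F, ((g : Matrix.SpecialLinearGroup (Fin (n + 2)) F) : Matrix (Fin (n + 2)) (Fin (n + 2)) F) *ᵥ v = v + c • p) ∧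
            ∀ v : Fin (n + 2) → F, Cfsg.hermForm (n + 2) F q v p = 0 →
              ((g : Matrix.SpecialLinearGroup (Fin (n + 2)) F) : Matrix (Fin (n + 2)) (Fin (n + 2)) F) *ᵥ v = v}}) ∧
    (∃ (L : Type) (_ : Field L) (_ : Fintype L), Fintype.card L = q ∧ Cfsg.IsKRootSubgroupSet L ((fun A : Subgroup ↥(Cfsg.SU (n + 2) F q) => A.subgroupOf (⨆ B ∈ {A : Subgroup ↥(Cfsg.SU (n + 2) F q) | ∃ p : Fin (n + 2) → F, p ≠ 0 ∧ Cfsg.hermForm (n + 2) F q p p = 0 ∧
          A = Subgroup.closure {g : ↥(Cfsg.SU (n + 2) F q) |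
            (∀ v : Fin (n + 2) → F, ∃ c : F, ((g : Matrix.SpecialLinearGroup (Fin (n + 2)) F) : Matrix (Fin (n + 2)) (Fin (n + 2)) F) *ᵥ v = v + c • p) ∧
            ∀ v : Fin (n + 2) → F, Cfsg.hermForm (n + 2) F q v p = 0 →
              ((g : Matrix.SpecialLinearGroup (Fin (n + 2)) F) : Matrix (Fin (n + 2)) (Fin (n + 2)) F) *ᵥ v = v}}, B)) ''
      {A : Subgroup ↥(Cfsg.SU (n + 2) F q) | ∃ p : Fin (n + 2) → F, p ≠ 0 ∧ Cfsg.hermForm (n + 2) F q p p = 0 ∧
          A = Subgroup.closure {g : ↥(Cfsg.SU (n + 2) F q) |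
            (∀ v : Fin (n + 2) → F, ∃ c : F, ((g : Matrix.SpecialLinearGroup (Fin (n + 2)) F) : Matrix (Fin (n + 2)) (Fin (n + 2)) F) *ᵥ v = v + c • p) ∧
            ∀ v : Fin (n + 2) → F, Cfsg.hermForm (n + 2) F q v p = 0 →
              ((g : Matrix.SpecialLinearGroup (Fin (n + 2)) F) : Matrix (Fin (n + 2)) (Fin (n + 2)) F) *ᵥ v = v}})) ∧
    Cfsg.IsConnectedFamily (Cfsg.FAdj ((fun A : Subgroup ↥(Cfsg.SU (n + 2) F q) => A.subgroupOf (⨆ B ∈ {A : Subgroup ↥(Cfsg.SU (n + 2) F q) | ∃ p : Fin (n + 2) → F, p ≠ 0 ∧ Cfsg.hermForm (n + 2) F q p p = 0 ∧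
          A = Subgroup.closure {g : ↥(Cfsg.SU (n + 2) F q) |
            (∀ v : Fin (n + 2) → F, ∃ c : F, ((g : Matrix.SpecialLinearGroup (Fin (n + 2)) F) : Matrix (Fin (n + 2)) (Fin (n + 2)) F) *ᵥ v = v + c • p) ∧
            ∀ v : Fin (n + 2) → F, Cfsg.hermForm (n + 2) F q v p = 0 →
              ((g : Matrix.SpecialLinearGroup (Fin (n + 2)) F) : Matrix (Fin (n + 2)) (Fin (n + 2)) F) *ᵥ v = v}}, B)) ''
      {A : Subgroup ↥(Cfsg.SU (n + 2) F q) | ∃ p : Fin (n + 2) → F, p ≠ 0 ∧ Cfsg.hermForm (n + 2) F q p p = 0 ∧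
          A = Subgroup.closure {g : ↥(Cfsg.SU (n + 2) F q) |
            (∀ v : Fin (n + 2) → F, ∃ c : F, ((g : Matrix.SpecialLinearGroup (Fin (n + 2)) F) : Matrix (Fin (n + 2)) (Fin (n + 2)) F) *ᵥ v = v + c • p) ∧
            ∀ v : Fin (n + 2) → F, Cfsg.hermForm (n + 2) F q v p = 0 →
              ((g : Matrix.SpecialLinearGroup (Fin (n + 2)) F) : Matrix (Fin (n + 2)) (Fin (n + 2)) F) *ᵥ v = v}})) ((fun A : Subgroup ↥(Cfsg.SU (n + 2) F q) => A.subgroupOf (⨆ B ∈ {A : Subgroup ↥(Cfsg.SU (n + 2) F q) | ∃ p : Fin (n + 2) → F, p ≠ 0 ∧ Cfsg.hermForm (n + 2) F q p p = 0 ∧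
          A = Subgroup.closure {g : ↥(Cfsg.SU (n + 2) F q) |
            (∀ v : Fin (n + 2) → F, ∃ c : F, ((g : Matrix.SpecialLinearGroup (Fin (n + 2)) F) : Matrix (Fin (n + 2)) (Fin (n + 2)) F) *ᵥ v = v + c • p) ∧
            ∀ v : Fin (n + 2) → F, Cfsg.hermForm (n + 2) F q v p = 0 →
              ((g : Matrix.SpecialLinearGroup (Fin (n + 2)) F) : Matrix (Fin (n + 2)) (Fin (n + 2)) F) *ᵥ v = v}}, B)) ''
      {A : Subgroup ↥(Cfsg.SU (n + 2) F q) | ∃ p : Fin (n + 2) → F, p ≠ 0 ∧ Cfsg.hermForm (n + 2) F q p p = 0 ∧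
          A = Subgroup.closure {g : ↥(Cfsg.SU (n + 2) F q) |
            (∀ v : Fin (n + 2) → F, ∃ c : F, ((g : Matrix.SpecialLinearGroup (Fin (n + 2)) F) : Matrix (Fin (n + 2)) (Fin (n + 2)) F) *ᵥ v = v + c • p) ∧
            ∀ v : Fin (n + 2) → F, Cfsg.hermForm (n + 2) F q v p = 0 →
              ((g : Matrix.SpecialLinearGroup (Fin (n + 2)) F) : Matrix (Fin (n + 2)) (Fin (n + 2)) F) *ᵥ v = v}}) := by
  obtain ⟨L, _, _, ψ, hL, hψ⟩ := exists_L hF
  obtain ⟨a, ha0, ha⟩ := CL.SqField.exists_trace_zero hF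
  rw [set_eq hF hψ ha0 ha]
  have h := sys hF hψ ha0 ha (n + 2)
  rw [h.image_sub]
  have hc := h.sub'.connected (path_of_common (ftv_common (std_nondeg hF _) ha0
    (Or.inl ⟨a, ha0, ha⟩) (hpsi hF hψ ha)))
  obtain ⟨u, hu0, hu⟩ := exists_isotropic (sig_ne_id hF) (std_nondeg hF (Fin (n + 2))) (by simp)
  exact ⟨⟨h.sub'.isRootSubgroupSet h.sub_gen, isConjClass_of_connected
    ⟨_, _, ⟨u, hu0, hu, rfl⟩, rfl⟩ hc⟩, h.sub'.degenerate h.sub_gen (ftv_two ha0 (hpsi hF hψ ha)),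
    ⟨L, _, _, hL, h.sub'.isKRootSubgroupSet h.sub_gen⟩, hc⟩
end Cfsg.Agent.S5071
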