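import Cfsg.Statements.S5072
import Cfsg.Agent.CHEV.RootEx3

set_option autoImplicit false
open Matrix
open Cfsg

open CL.RootEx CL.Orth CL.Witt CL.Witt.Form
namespace Cfsg.Agent.S5072

/-- the natural representation -/
def jO (F : Type*) [Field F] (m : ℕ) :
    isometryGroup F (quadFormPlus m F) →* Module.End F (Fin m ⊕ Fin m → F) :=
  (Matrix.toLinAlgEquiv' (R := F) (n := Fin m ⊕ Fin m)).toMonoidHom.comp
    ((Units.coeHom _).comp (isometryGroup F (quadFormPlus m F)).subtype)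

theorem jO_apply {F : Type*} [Field F] {m : ℕ} (g : isometryGroup F (quadFormPlus m F))
    (v : Fin m ⊕ Fin m → F) : jO F m g v = g.1.1 *ᵥ v := rfl

theorem nd (F : Type*) [Field F] (m : ℕ) : (ofQuad (QPlus m F)).Nondeg :=
  (ofQuad_nondeg_iff _).2 (QPlus_nondeg m F)

theorem isom {F : Type*} [Field F] {m : ℕ} (g : isometryGroup F (quadFormPlus m F)) :
    IsIsom (ofQuad (QPlus m F)) (ofQuad (QPlus m F)) (jO F m g) :=
  (quad_isIsom_iff _ _ _).2 fun x => g.2 x x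

theorem sys (F : Type*) [Field F] (m : ℕ) :
    Sys (RingHom.id F) (jO F m) (sgs (ofQuad (QPlus m F))) :=
  sys_sgs (nd F m) (fun _ _ e => Subtype.ext (Units.ext (Matrix.toLinAlgEquiv'.injective e)))
    (fun g => (isom g).B_eq) (fun g => (isom g).q_eq) fun e he =>
      ⟨⟨(glEquiv _ F).symm e, (CL.FGL.mem_isometryGroup_iff_O (QPlus m F)).2 (by simpa using he)⟩,
        fun v => by rw [jO_apply, ← glEquiv_apply, MulEquiv.apply_symm_apply]⟩

theorem set_eq (F : Type*) [Field F] (m : ℕ) :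
    {A : Subgroup ↥(Cfsg.isometryGroup F (Cfsg.quadFormPlus m F)) | ∃ p r : Fin m ⊕ Fin m → F, LinearIndependent F ![p, r] ∧
          Cfsg.quadFormPlus m F p = 0 ∧ Cfsg.quadFormPlus m F r = 0 ∧
          Cfsg.quadFormPlus m F (p + r) = 0 ∧
          A = Subgroup.closure {σ : ↥(Cfsg.isometryGroup F (Cfsg.quadFormPlus m F)) | ∀ v : Fin m ⊕ Fin m → F,
            Cfsg.quadFormPlus m F (v + p) - Cfsg.quadFormPlus m F v - Cfsg.quadFormPlus m F p = 0 →
            Cfsg.quadFormPlus m F (v + r) - Cfsg.quadFormPlus m F v - Cfsg.quadFormPlus m F r = 0 →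
              ((σ : Matrix.GeneralLinearGroup (Fin m ⊕ Fin m) F) : Matrix (Fin m ⊕ Fin m) (Fin m ⊕ Fin m) F) *ᵥ v = v}} =
      rg (RingHom.id F) (jO F m) '' sgs (ofQuad (QPlus m F)) := by
  have hB : ∀ v p, Cfsg.quadFormPlus m F (v + p) - Cfsg.quadFormPlus m F v -
      Cfsg.quadFormPlus m F p = (ofQuad (QPlus m F)).B p v := fun v p =>
    (ofQuad (QPlus m F)).quad_symm p v
  have key : ∀ p r : Fin m ⊕ Fin m → F, SLine (ofQuad (QPlus m F)) p r →
      Subgroup.closure {σ : ↥(Cfsg.isometryGroup F (Cfsg.quadFormPlus m F)) | ∀ v : Fin m ⊕ Fin m → F,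
            Cfsg.quadFormPlus m F (v + p) - Cfsg.quadFormPlus m F v - Cfsg.quadFormPlus m F p = 0 →
            Cfsg.quadFormPlus m F (v + r) - Cfsg.quadFormPlus m F v - Cfsg.quadFormPlus m F r = 0 →
              ((σ : Matrix.GeneralLinearGroup (Fin m ⊕ Fin m) F) : Matrix (Fin m ⊕ Fin m) (Fin m ⊕ Fin m) F) *ᵥ v = v} =
      rg (RingHom.id F) (jO F m) (sg (ofQuad (QPlus m F)) p r) := fun p r h => by
    unfold rg
    congr 1
    ext g
    simp only [hB, Set.mem_ofPred_eq]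
    refine ⟨fun hg => h.eq_of_fix (nd F m) (isom g).B_eq (isom g).q_eq hg, ?_⟩
    rintro ⟨c, hc⟩ v h1 h2
    have := LinearMap.congr_fun hc v
    rw [jO_apply] at this
    simpa [sg_apply, h1, h2] using this
  ext A
  constructor
  · rintro ⟨p, r, h1, h2, h3, h4, rfl⟩
    have h : SLine (ofQuad (QPlus m F)) p r := ⟨h1, h2, h3, by
      rw [← hB, add_comm, h4, h2, h3]; simp⟩
    exact ⟨_, ⟨p, r, h, rfl⟩, (key p r h).symm⟩
  · rintro ⟨_, ⟨p, r, h, rfl⟩, rfl⟩
    refine ⟨p, r, h.li, h.qp, h.qr, ?_, (key p r h).symm⟩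
    have := (ofQuad (QPlus m F)).quad_q_add p r
    rw [h.qp, h.qr, h.pr, add_zero, add_zero] at this
    exact this


/-- Let F be a field, m a natural number and V = F^{2(m+3)} with the hyperbolic quadratic form q(x, y) = Σ xᵢ yᵢ (non-degenerate, Witt index m + 3 ≥ 3). For a singular line ℓ (a 2-dimensional subspace on which q vanishes) let T(ℓ) be the group of isometries of q fixing every vector of ℓ^⊥ (the Siegel transvection group of ℓ), let Σ be the set of these groups and G₀ the subgroup they generate. Then, viewed inside G₀, the members of Σ form a set of abstract F-root subgroups of G₀ (any two commute, or are the unipotent subgroups of a rank one group that is an image of SL₂(F) with central kernel, or satisfy the commutator case), and their graph of rank one pairs is connected. -/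
theorem result (F : Type*) [Field F] (m : ℕ) :
    Cfsg.IsKRootSubgroupSet F ((fun A : Subgroup ↥(Cfsg.isometryGroup F (Cfsg.quadFormPlus (m + 3) F)) => A.subgroupOf (⨆ B ∈ {A : Subgroup ↥(Cfsg.isometryGroup F (Cfsg.quadFormPlus (m + 3) F)) | ∃ p r : Fin (m + 3) ⊕ Fin (m + 3) → F, LinearIndependent F ![p, r] ∧
          Cfsg.quadFormPlus (m + 3) F p = 0 ∧ Cfsg.quadFormPlus (m + 3) F r = 0 ∧
          Cfsg.quadFormPlus (m + 3) F (p + r) = 0 ∧
          A = Subgroup.closure {σ : ↥(Cfsg.isometryGroup F (Cfsg.quadFormPlus (m + 3) F)) | ∀ v : Fin (m + 3) ⊕ Fin (m + 3) → F,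
            Cfsg.quadFormPlus (m + 3) F (v + p) - Cfsg.quadFormPlus (m + 3) F v - Cfsg.quadFormPlus (m + 3) F p = 0 →
            Cfsg.quadFormPlus (m + 3) F (v + r) - Cfsg.quadFormPlus (m + 3) F v - Cfsg.quadFormPlus (m + 3) F r = 0 →
              ((σ : Matrix.GeneralLinearGroup (Fin (m + 3) ⊕ Fin (m + 3)) F) : Matrix (Fin (m + 3) ⊕ Fin (m + 3)) (Fin (m + 3) ⊕ Fin (m + 3)) F) *ᵥ v = v}}, B)) ''
      {A : Subgroup ↥(Cfsg.isometryGroup F (Cfsg.quadFormPlus (m + 3) F)) | ∃ p r : Fin (m + 3) ⊕ Fin (m + 3) → F, LinearIndependent F ![p, r] ∧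
          Cfsg.quadFormPlus (m + 3) F p = 0 ∧ Cfsg.quadFormPlus (m + 3) F r = 0 ∧
          Cfsg.quadFormPlus (m + 3) F (p + r) = 0 ∧
          A = Subgroup.closure {σ : ↥(Cfsg.isometryGroup F (Cfsg.quadFormPlus (m + 3) F)) | ∀ v : Fin (m + 3) ⊕ Fin (m + 3) → F,
            Cfsg.quadFormPlus (m + 3) F (v + p) - Cfsg.quadFormPlus (m + 3) F v - Cfsg.quadFormPlus (m + 3) F p = 0 →
            Cfsg.quadFormPlus (m + 3) F (v + r) - Cfsg.quadFormPlus (m + 3) F v - Cfsg.quadFormPlus (m + 3) F r = 0 →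
              ((σ : Matrix.GeneralLinearGroup (Fin (m + 3) ⊕ Fin (m + 3)) F) : Matrix (Fin (m + 3) ⊕ Fin (m + 3)) (Fin (m + 3) ⊕ Fin (m + 3)) F) *ᵥ v = v}}) ∧
    Cfsg.IsConnectedFamily (Cfsg.FAdj {A : Subgroup ↥(Cfsg.isometryGroup F (Cfsg.quadFormPlus (m + 3) F)) | ∃ p r : Fin (m + 3) ⊕ Fin (m + 3) → F, LinearIndependent F ![p, r] ∧
          Cfsg.quadFormPlus (m + 3) F p = 0 ∧ Cfsg.quadFormPlus (m + 3) F r = 0 ∧
          Cfsg.quadFormPlus (m + 3) F (p + r) = 0 ∧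
          A = Subgroup.closure {σ : ↥(Cfsg.isometryGroup F (Cfsg.quadFormPlus (m + 3) F)) | ∀ v : Fin (m + 3) ⊕ Fin (m + 3) → F,
            Cfsg.quadFormPlus (m + 3) F (v + p) - Cfsg.quadFormPlus (m + 3) F v - Cfsg.quadFormPlus (m + 3) F p = 0 →
            Cfsg.quadFormPlus (m + 3) F (v + r) - Cfsg.quadFormPlus (m + 3) F v - Cfsg.quadFormPlus (m + 3) F r = 0 →
              ((σ : Matrix.GeneralLinearGroup (Fin (m + 3) ⊕ Fin (m + 3)) F) : Matrix (Fin (m + 3) ⊕ Fin (m + 3)) (Fin (m + 3) ⊕ Fin (m + 3)) F) *ᵥ v = v}})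
      {A : Subgroup ↥(Cfsg.isometryGroup F (Cfsg.quadFormPlus (m + 3) F)) | ∃ p r : Fin (m + 3) ⊕ Fin (m + 3) → F, LinearIndependent F ![p, r] ∧
          Cfsg.quadFormPlus (m + 3) F p = 0 ∧ Cfsg.quadFormPlus (m + 3) F r = 0 ∧
          Cfsg.quadFormPlus (m + 3) F (p + r) = 0 ∧
          A = Subgroup.closure {σ : ↥(Cfsg.isometryGroup F (Cfsg.quadFormPlus (m + 3) F)) | ∀ v : Fin (m + 3) ⊕ Fin (m + 3) → F,
            Cfsg.quadFormPlus (m + 3) F (v + p) - Cfsg.quadFormPlus (m + 3) F v - Cfsg.quadFormPlus (m + 3) F p = 0 →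
            Cfsg.quadFormPlus (m + 3) F (v + r) - Cfsg.quadFormPlus (m + 3) F v - Cfsg.quadFormPlus (m + 3) F r = 0 →
              ((σ : Matrix.GeneralLinearGroup (Fin (m + 3) ⊕ Fin (m + 3)) F) : Matrix (Fin (m + 3) ⊕ Fin (m + 3)) (Fin (m + 3) ⊕ Fin (m + 3)) F) *ᵥ v = v}} := by
  rw [set_eq]
  have h := sys F (m + 3)
  rw [h.image_sub]
  exact ⟨h.sub'.isKRootSubgroupSet h.sub_gen, h.connected (sgs_path (nd F _) (by simp; omega))⟩
end Cfsg.Agent.S5072
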