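import Cfsg.Statements.S5073
import Cfsg.Agent.CHEV.QuadPair3

set_option autoImplicit false
universe u
open Cfsg

open CL.Quad
open scoped commutatorElement
namespace Cfsg.Agent.S5073



/-- Let k be a field of characteristic not 2 with k not of order 3, M a finite-dimensional k-vector space and G ≤ GL(M) such that (G, M) is a quadratic pair (M irreducible for G, and G generated by its quadratically acting elements σ whose scalar family 1 + c(σ − 1), c ∈ k, lies in G). Write 𝒬_d for the quadratic elements of G of minimal commutator rank, E(σ) for the subgroup generated by the members of 𝒬_d with the same fixed space and commutator space as σ, and Σ for the set of these subgroups. Let E, F ∈ Σ. If some non-identity element of E commutes with some non-identity element of F, or some non-identity element of E normalizes F, then E and F commute elementwise. -/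
theorem result {k : Type u} [Field k] (hk2 : ringChar k ≠ 2) (hk3 : Nat.card k ≠ 3)
    {M : Type u} [AddCommGroup M] [Module k M] [FiniteDimensional k M]
    {G : Subgroup (LinearMap.GeneralLinearGroup k M)} (hG : Cfsg.IsQuadraticPair G)
    {E F : Subgroup (LinearMap.GeneralLinearGroup k M)} (hE : E ∈ Cfsg.quadraticRootSubgroups G) (hF : F ∈ Cfsg.quadraticRootSubgroups G)
    (h : (∃ e ∈ E, e ≠ 1 ∧ ∃ f ∈ F, f ≠ 1 ∧ e * f = f * e) ∨ E ⊓ Subgroup.normalizer (F : Set (LinearMap.GeneralLinearGroup k M)) ≠ ⊥) :
    ⁅E, F⁆ = ⊥ := by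
  have hk2' : (2 : k) ≠ 0 := Ring.two_ne_zero hk2
  obtain ⟨α, hα, rfl⟩ := mem_roots.1 hE
  obtain ⟨β, hβ, rfl⟩ := mem_roots.1 hF
  rcases trichotomy hk2' hk3 hα hβ with h' | h' | h'
  · exfalso
    have hr := h'.rankOne hα hβ hk2' hk3
    rcases h with ⟨e, he, he1, f, hf, hf1, h⟩ | h
    · exact CL.RankOne.not_commute hr he hf he1 hf1 h
    · exact h (CL.RankOne.inf_normalizer_eq_bot hr)
  · exact h'
  · exfalso
    rcases h with ⟨e, he, he1, f, hf, hf1, h⟩ | h
    · exact h'.not_commute hk2' hk3 he hf he1 hf1 h
    · obtain ⟨e, ⟨he, hn⟩, he1⟩ := (Subgroup.bot_or_exists_ne_one _).resolve_left h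
      obtain ⟨f, hf, hf1⟩ := (Subgroup.bot_or_exists_ne_one _).resolve_left (rootGrp_ne_bot hβ)
      have h1 : ⁅e, f⁆ ∈ rootGrp G β :=
        mul_mem ((Subgroup.mem_normalizer_iff.1 hn f).1 hf) (inv_mem hf)
      refine h'.not_commute hk2' hk3 he h1 he1 ?_ ?_
      · rw [Ne, commutatorElement_eq_one_iff_mul_comm]
        exact h'.not_commute hk2' hk3 he hf he1 hf1
      · exact comm_of_flagJ (aug_le.1 (h'.aug_sup_le' hk2' hk3) e (Subgroup.mem_sup_left he))
          (h'.commutator_mem hk2' hk3 he hf)

end Cfsg.Agent.S5073
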