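import Cfsg.Statements.S5085
import Cfsg.Agent.FUS.Aut

set_option autoImplicit false
open Cfsg

namespace Cfsg.Agent.S5085

open CL.Fus Cfsg.FusionSystem

/-- In any fusion system, a characteristic subgroup of a subgroup that is normal in the system is itself normal in the system. -/
theorem result {Ω : Type*} [Group Ω] {S : Subgroup Ω} (F : Cfsg.FusionSystem S) (Q U : Subgroup Ω) (hQ : F.IsNormal Q) (hUQ : U ≤ Q) (hU : (U.subgroupOf Q).Characteristic) : F.IsNormal U := by
  refine ⟨hUQ.trans hQ.1, fun P φ hφ => ?_⟩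
  obtain ⟨ψ, hψ, h1, h2⟩ := hQ.2 P φ hφ
  have hg := mor_toFn hψ
  have hle : P ⊔ U ≤ P ⊔ Q := sup_le_sup_left hUQ P
  have e2 : img (toFn ψ) Q = Q :=
    (map_subgroupOf_eq_img (fun x => (toFn_coe ψ x).symm) le_sup_right).symm.trans h2
  refine ⟨_, (hg.mono hle).toHom_mem, fun x => ?_, ?_⟩
  · rw [← h1 x]; exact toFn_of_mem ψ (Subgroup.mem_sup_left x.2)
  · rw [map_subgroupOf_eq_img (f := toFn ψ) (fun _ => rfl) le_sup_right]
    obtain ⟨α, -, eα⟩ := hg.exists_aut_restrict le_sup_right e2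
    have h3 := Subgroup.characteristic_iff_map_eq.1 hU α
    rw [← img_congr (eα.mono hUQ), ← map_subgroupOf_eq_img (φ := Q.subtype.comp α.toMonoidHom)
      (fun x => (autFun_coe α x).symm) hUQ, ← Subgroup.map_map, h3,
      Subgroup.map_subgroupOf_eq_of_le hUQ]

end Cfsg.Agent.S5085
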