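import Cfsg.Statements.S5087
import Mathlib
import Cfsg.Agent.FUS.NormalSub

set_option autoImplicit false
open Cfsg

namespace Cfsg.Agent.S5087

open CL.Fus

/-- In a saturated fusion system over a finite p-group S, a subgroup Q is normal in the system if and only if every subgroup P that equals S or is essential contains Q and every element of Aut_F(P) maps Q onto itself. -/
theorem result {Ω : Type*} [Group Ω] {S : Subgroup Ω} [Finite S] (p : ℕ) [Fact p.Prime] (hS : IsPGroup p S) (F : Cfsg.FusionSystem S) (hF : F.IsSaturated p) (Q : Subgroup Ω) : F.IsNormal Q ↔ ∀ P : Subgroup Ω, (P = S ∨ F.IsEssential p P) → (Q ≤ P ∧ ∀ α ∈ F.autGroup P, (Q.subgroupOf P).map α.toMonoidHom = Q.subgroupOf P) := by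
  have key : ∀ (P : Subgroup Ω) (α : MulAut P), Q ≤ P →
      ((Q.subgroupOf P).map α.toMonoidHom = Q.subgroupOf P ↔ img (autFun α) Q = Q) := fun P α hQP => by
    rw [← map_subgroupOf_eq_img (φ := P.subtype.comp α.toMonoidHom) (fun x => (autFun_coe α x).symm) hQP,
      ← Subgroup.map_map, ← (Subgroup.map_injective P.subtype_injective).eq_iff,
      Subgroup.map_subgroupOf_eq_of_le hQP]
  refine ⟨fun h P hP => ?_, fun h => normal_of_essential hS hF fun R hR => ⟨(h R hR).1, fun g hg e => ?_⟩⟩
  · have hQP := le_of_normal_of_essential hS hF h hP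
    exact ⟨hQP, fun α hα => (key P α hQP).2 (sc_img_eq (sc_of_normal h)
      (mor_autFun (frc_of_top_or_essential hS hF hP).1.1 hα) hQP)⟩
  · obtain ⟨α, hα, eα⟩ := hg.exists_aut e
    rw [← img_congr (eα.mono (h R hR).1), (key R α (h R hR).1).1 ((h R hR).2 α hα)]

end Cfsg.Agent.S5087
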