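import Cfsg.Statements.S5088
import Mathlib
import Cfsg.Agent.FUS.NormalSub

set_option autoImplicit false
open Cfsg

namespace Cfsg.Agent.S5088

open CL.Fus

/-- In a saturated fusion system over a finite p-group, a subgroup Q is normal in the system if and only if there is a chain of subgroups 1 = Q₀ ≤ Q₁ ≤ ⋯ ≤ Qₙ = Q such that each Qᵢ with i ≥ 1 is strongly closed in the system and [Q, Qᵢ] ≤ Qᵢ₋₁. -/
theorem result {Ω : Type*} [Group Ω] {S : Subgroup Ω} [Finite S] (p : ℕ) [Fact p.Prime] (hS : IsPGroup p S) (F : Cfsg.FusionSystem S) (hF : F.IsSaturated p) (Q : Subgroup Ω) : F.IsNormal Q ↔ ∃ (n : ℕ) (Qs : Fin (n + 1) → Subgroup Ω), Qs 0 = ⊥ ∧ Qs (Fin.last n) = Q ∧ Monotone Qs ∧ ∀ i : Fin n, F.StronglyClosed (Qs i.succ) ∧ ⁅Q, Qs i.succ⁆ ≤ Qs (Fin.castSucc i) := by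
  refine ⟨fun h => ?_, fun ⟨n, Qs, h0, hn, _, h⟩ => ?_⟩
  · obtain ⟨n, C, h0, hn, hm, h1, h2⟩ := exists_fin_chain hS h.1 h.1 Subgroup.le_normalizer
    refine ⟨n, C, h0, hn, hm, fun i => ⟨?_, by rw [Subgroup.commutator_comm, h2]⟩⟩
    obtain ⟨k, hk⟩ := h1 i.succ
    exact hk ▸ sc_of_normal (normal_itc h h k)
  · have hsc : ∀ i, F.StronglyClosed (Qs i) := fun i => by
      induction i using Fin.cases with
      | zero => exact h0 ▸ sc_bot F
      | succ i => exact (h i).1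
    have := reflTransGen_of_fin (r := SCStep F Q) Qs (fun i => ⟨hsc _, hsc _, (h i).2⟩) (Fin.last n)
    rw [h0, hn] at this
    exact normal_of_scChain hS hF (hn ▸ hsc _) this

end Cfsg.Agent.S5088
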