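import Cfsg.Statements.S5089
import Mathlib
import Cfsg.Agent.FUS.NormalSub

set_option autoImplicit false
open Cfsg

namespace Cfsg.Agent.S5089

open CL.Fus

/-- A saturated fusion system over a finite p-group has a nontrivial subgroup that is normal in the system (O_p(F) ≠ 1) if and only if some nontrivial abelian subgroup is strongly closed in the system. -/
theorem result {Ω : Type*} [Group Ω] {S : Subgroup Ω} [Finite S] (p : ℕ) [Fact p.Prime] (hS : IsPGroup p S) (F : Cfsg.FusionSystem S) (hF : F.IsSaturated p) : F.core ≠ ⊥ ↔ ∃ Q : Subgroup Ω, Q ≠ ⊥ ∧ IsMulCommutative Q ∧ F.StronglyClosed Q := by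
  refine ⟨fun h => ?_, fun ⟨Q, h1, h2, h3⟩ h => h1 (le_bot_iff.1 (h ▸ le_core (normal_of_sc_of_comm hS hF h3
    (Subgroup.le_centralizer Q))))⟩
  classical
  have hN := core_normal F
  have hex := exists_itc_eq_bot hS hN.1 hN.1
  obtain ⟨n, hn⟩ := Nat.exists_eq_succ_of_ne_zero (n := Nat.find hex) fun e => h (by
    have := Nat.find_spec hex
    rwa [e] at this)
  have h1 := Nat.find_spec hex
  rw [hn, itc_succ, Subgroup.commutator_eq_bot_iff_le_centralizer] at h1
  refine ⟨itc F.core F.core n, Nat.find_min hex (hn ▸ n.lt_succ_self), ⟨⟨fun a b => Subtype.ext ?_⟩⟩,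
    sc_of_normal (normal_itc hN hN n)⟩
  exact (h1 a.2 _ (itc_le Subgroup.le_normalizer n b.2)).symm

end Cfsg.Agent.S5089
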