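import Cfsg.Statements.S5104
import Cfsg.Agent.FUS.Basic

set_option autoImplicit false
open Cfsg

namespace Cfsg.Agent.S5104

/-- In a saturated fusion system over a finite p-group S, a fully centralized subgroup U with C_S(U) ≤ U is centric. -/
theorem result {Ω : Type*} [Group Ω] {S : Subgroup Ω} [Finite S] (p : ℕ) [Fact p.Prime] (hS : IsPGroup p S) (F : Cfsg.FusionSystem S) (hF : F.IsSaturated p) (U : Subgroup Ω) (hU : F.IsFullyCentralized U) (hC : Cfsg.FusionSystem.centralizerIn S U ≤ U) : F.IsCentric U := by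
  refine ⟨hU.1, ?_⟩
  rintro Q ⟨φ, hφ, rfl⟩
  have hf := CL.Fus.mor_toFn hφ
  have h1 := hU.2 _ ⟨φ, hφ, rfl⟩
  rw [← CL.Fus.img_toFn] at h1 ⊢
  have h2 : CL.Fus.img (CL.Fus.toFn φ) (Cfsg.FusionSystem.centralizerIn S U) =
      Cfsg.FusionSystem.centralizerIn S (CL.Fus.img (CL.Fus.toFn φ) U) := by
    refine (hf.mono hC).img_eq_of_le ?_ (CL.Fus.centralizerIn_le _ _) h1
    exact CL.Fus.img_le_iff.2 fun x hx => hf.map_mem_centralizerIn le_rfl (hC hx) hx.2
  rw [← h2]
  exact CL.Fus.img_mono _ hC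

end Cfsg.Agent.S5104
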