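import Cfsg.Statements.S5107
import Cfsg.Agent.FUS.GroupNormal

set_option autoImplicit false
open Cfsg

namespace Cfsg.Agent.S5107

/-- If a Sylow p-subgroup S of a finite group G has nilpotency class at most two and its centre is strongly closed in S with respect to G, then every map of the fusion system of G on S is conjugation by an element of N_G(S), and S is the largest subgroup normal in that fusion system. -/
theorem result {G : Type*} [Group G] [Finite G] (p : ℕ) [Fact p.Prime] (S : Sylow p G) (hcl : ⁅(S : Subgroup G), (S : Subgroup G)⁆ ≤ (S : Subgroup G) ⊓ Subgroup.centralizer ((S : Subgroup G) : Set G)) (hZ : Cfsg.IsStronglyClosed ((S : Subgroup G) ⊓ Subgroup.centralizer ((S : Subgroup G) : Set G)) (S : Subgroup G)) : (∀ (P : Subgroup G) (φ : P →* G), φ ∈ (Cfsg.groupFusionSystem (S : Subgroup G)).Hom P → ∃ g ∈ Subgroup.normalizer ((S : Subgroup G) : Set G), ∀ x : P, φ x = g * (x : G) * g⁻¹) ∧ (Cfsg.groupFusionSystem (S : Subgroup G)).core = S := by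
  have hF := CL.Fus.isSaturated_group_of_sylIn (CL.Fus.sylIn_top S)
  have hZ' := CL.Fus.stronglyClosed_group_iff.2 hZ
  have hn : (Cfsg.groupFusionSystem (S : Subgroup G)).IsNormal S :=
    CL.Fus.normal_of_scChain S.isPGroup' hF (CL.Fus.sc_top _) (Relation.ReflTransGen.tail
      (Relation.ReflTransGen.single ⟨CL.Fus.sc_bot _, hZ', by
        rw [Subgroup.commutator_comm]
        exact (Subgroup.commutator_eq_bot_iff_le_centralizer.2 inf_le_right).le⟩)
      ⟨hZ', CL.Fus.sc_top _, hcl⟩)
  refine ⟨fun P φ hφ => ?_, le_antisymm (CL.Fus.core_le _) (CL.Fus.le_core hn)⟩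
  obtain ⟨g, hg, e⟩ := CL.Fus.exists_normalizer_of_isNormal_group hn (CL.Fus.mor_toFn hφ)
  exact ⟨g, hg, fun x => (CL.Fus.toFn_coe φ x).symm.trans (e x.2)⟩

end Cfsg.Agent.S5107
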