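import Cfsg.Statements.S5112
import Cfsg.Agent.FUS.Alperin
import Cfsg.Agent.S3116
import Cfsg.Agent.PERM.SharpThree

set_option autoImplicit false
open Cfsg

namespace Cfsg.Agent.S5112

/-- If S is a dihedral or generalized quaternion 2-group of order at least 16, then in every saturated fusion system over S (at the prime 2) the automorphism group Aut_F(S) consists of the inner automorphisms of S. -/
theorem result {Ω : Type*} [Group Ω] {S : Subgroup Ω} [Finite S] (n : ℕ) (hn : 4 ≤ n) (hshape : Nonempty (S ≃* DihedralGroup (2 ^ (n - 1))) ∨ Nonempty (S ≃* QuaternionGroup (2 ^ (n - 2)))) (F : Cfsg.FusionSystem S) (hF : F.IsSaturated 2) : F.autGroup S = Cfsg.Inn S := by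
  have hS : IsPGroup 2 S := by
    rcases hshape with ⟨⟨e⟩⟩ | ⟨⟨e⟩⟩
    · exact IsPGroup.of_card (n := n - 1 + 1) (by
        rw [Nat.card_congr e.toEquiv, DihedralGroup.nat_card, pow_succ'])
    · exact IsPGroup.of_card (n := n - 2 + 2) (by
        rw [Nat.card_congr e.toEquiv, Nat.card_eq_fintype_card, QuaternionGroup.card]; ring)
  have hA : IsPGroup 2 (MulAut S) := by
    rcases hshape with ⟨⟨e⟩⟩ | ⟨⟨e⟩⟩
    · refine Cfsg.Agent.S3116.result hS (Or.inl ⟨_, ?_, ⟨e⟩⟩)
      calc 4 = 2 ^ 2 := rfl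
        _ ≤ 2 ^ (n - 1) := Nat.pow_le_pow_right (by norm_num) (by omega)
    · exact (CL.Zass.isPGroup_mulAut_quaternion (n := n - 2) (by omega)).of_equiv (MulAut.congr e).symm
  exact CL.Fus.autGroup_top_eq_inn hS hF (hA.to_subgroup _)

end Cfsg.Agent.S5112
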