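import Cfsg.Statements.S5119
import Mathlib
import Cfsg.Agent.FUS.Invariant

set_option autoImplicit false
open Cfsg

namespace Cfsg.Agent.S5119

open CL.Fus

/-- Let F be a saturated fusion system over a finite p-group S and E a subsystem of F over a subgroup T that is strongly closed in F. Then E is invariant in F (invariance under Aut_F(T) plus the Frattini condition) if and only if the strong invariance condition holds: for P ≤ Q ≤ T, every map φ of E from P into Q and every map ψ of F with source Q, the transported map ψ φ ψ⁻¹ on ψ(P) is a map of E. -/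
theorem result {Ω : Type*} [Group Ω] {S : Subgroup Ω} [Finite S] (p : ℕ) [Fact p.Prime] (hS : IsPGroup p S) (F : Cfsg.FusionSystem S) (hF : F.IsSaturated p) {T : Subgroup Ω} (E : Cfsg.FusionSystem T) (hE : E.IsSubsystemOf F) (hT : F.StronglyClosed T) : E.IsInvariantIn F ↔ ∀ (P Q : Subgroup Ω) (hPQ : P ≤ Q) (_ : Q ≤ T) (φ : P →* Ω) (_ : φ ∈ E.Hom P) (hφQ : ∀ x : P, φ x ∈ Q) (ψ : Q →* Ω) (_ : ψ ∈ F.Hom Q), ∃ χ ∈ E.Hom ((P.subgroupOf Q).map ψ), ∀ (x : P) (hx : ψ (Subgroup.inclusion hPQ x) ∈ (P.subgroupOf Q).map ψ), χ ⟨ψ (Subgroup.inclusion hPQ x), hx⟩ = ψ ⟨φ x, hφQ x⟩ := by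
  constructor
  · intro h P Q hPQ _ φ hφ hφQ ψ hψ
    obtain ⟨k, -, l, -⟩ := (mor_toFn hψ).exists_inv
    have hm : ∀ x ∈ P, toFn φ x ∈ Q := fun x hx => by rw [toFn_of_mem φ hx]; exact hφQ _
    have h1 := sInv_of_invariant h (g := toFn ψ ∘ toFn φ ∘ k) (mor_toFn hφ) (mor_toFn hψ) hPQ hm
      fun x hx => by simp only [Function.comp_apply]; rw [l x (hPQ hx)]
    rw [← map_subgroupOf_eq_img (fun x => (toFn_coe ψ x).symm) hPQ] at h1
    refine ⟨_, h1.toHom_mem, fun x hx => ?_⟩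
    rw [IsHomOn.toHom_apply]
    simp only [Function.comp_apply]
    rw [← toFn_coe ψ, l _ (Subgroup.inclusion hPQ x).2, Subgroup.coe_inclusion, toFn_coe φ, toFn_of_mem ψ (hφQ x)]
  · intro h
    refine SInv.isInvariantIn (fun P Q f ψ g hf hψ hP hm e => ?_) hS hF hE hT
    have hψ' := hψ.mono (inf_le_left : Q ⊓ T ≤ Q)
    obtain ⟨χ, hχ, H⟩ := h P (Q ⊓ T) (le_inf hP hf.le) inf_le_right _ hf.toHom_mem
      (fun x => ⟨hm x x.2, hf.map_mem x.2⟩) _ hψ'.toHom_mem
    have e1 := map_subgroupOf_eq_img (φ := hψ'.isHomOn.toHom) (f := ψ) (fun _ => rfl) (le_inf hP hf.le)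
    have h2 := mor_toFn hχ
    have h3 : Set.EqOn (toFn χ) g (img ψ P) := fun y hy => by
      obtain ⟨x, hx, rfl⟩ := (hψ.mono hP).mem_img.1 hy
      rw [toFn_of_mem χ (e1 ▸ hy), e x hx]
      exact H ⟨x, hx⟩ _
    generalize toFn χ = c at h2 h3
    rw [e1] at h2
    exact h2.congr h3

end Cfsg.Agent.S5119
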