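import Cfsg.Statements.S5129
import Mathlib
import Cfsg.Agent.FUS.Wedge

set_option autoImplicit false
open Cfsg

namespace Cfsg.Agent.S5129

open CL.Fus

/-- Let F be a saturated fusion system over a finite p-group S and E₁, E₂ normal subsystems over T₁, T₂. Then there is a normal subsystem of F over T₁ ∩ T₂ that is normal in E₁ and in E₂ and contains every other such subsystem. -/
theorem result {Ω : Type*} [Group Ω] {S : Subgroup Ω} [Finite S] (p : ℕ) [Fact p.Prime] (hS : IsPGroup p S) (F : Cfsg.FusionSystem S) (hF : F.IsSaturated p) {T₁ T₂ : Subgroup Ω} (E₁ : Cfsg.FusionSystem T₁) (E₂ : Cfsg.FusionSystem T₂) (h₁ : E₁.IsNormalIn F p) (h₂ : E₂.IsNormalIn F p) : ∃ D : Cfsg.FusionSystem (T₁ ⊓ T₂), (D.IsNormalIn F p ∧ D.IsNormalIn E₁ p ∧ D.IsNormalIn E₂ p) ∧ ∀ D' : Cfsg.FusionSystem (T₁ ⊓ T₂), D'.IsNormalIn F p → D'.IsNormalIn E₁ p → D'.IsNormalIn E₂ p → D'.IsSubsystemOf D := by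
  exact ⟨wedge hS h₁.1 h₂.1 rfl, ⟨wedge_isNormalIn hS h₁.1 h₂.1 rfl, wedge_isNormalIn_left hS h₁.1 h₂.1 rfl,
    wedge_isNormalIn_right hS h₁.1 h₂.1 rfl⟩, fun D' k k₁ k₂ => isSubsystemOf_wedge hS h₁.1 h₂.1 rfl k k₁ k₂⟩

end Cfsg.Agent.S5129
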