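import Cfsg.Statements.S5141
import Cfsg.Agent.FUS.OpPrimeNormal

set_option autoImplicit false
open Cfsg

namespace Cfsg.Agent.S5141

open CL.Fus Cfsg.FusionSystem

/-- Let F be a saturated fusion system over a finite p-group S and E a weakly normal subsystem of F over T. Then the p'-residual subsystem of E (the least saturated subsystem of E over T of index prime to p) is normal in F. -/
theorem result {Ω : Type*} [Group Ω] {S : Subgroup Ω} [Finite S] (p : ℕ) [Fact p.Prime] (hS : IsPGroup p S) (F : Cfsg.FusionSystem S) (hF : F.IsSaturated p) {T : Subgroup Ω} (E : Cfsg.FusionSystem T) (hE : E.IsWeaklyNormalIn F p) (D : Cfsg.FusionSystem T) (hD : E.IsPPrimeResidual p D) : D.IsNormalIn F p := by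
  exact isNormalIn_of_isPPrimeResidual_of_weaklyNormal hS hF hE hD

end Cfsg.Agent.S5141
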