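import Cfsg.Statements.S5143
import Mathlib
import Cfsg.Agent.FUS.MulSys

set_option autoImplicit false
open Cfsg

namespace Cfsg.Agent.S5143

open CL.Fus

/-- Let F be a saturated fusion system over a finite p-group S, E a normal subsystem over T, and R a subgroup with T ≤ R ≤ S. Then there is exactly one saturated subsystem D of F over R (exactly one family of map sets) whose p-residual subsystem is that of E: the hyperfocal subgroups of D and E coincide and the p-residual subsystems of D and of E have the same maps. -/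
theorem result {Ω : Type*} [Group Ω] {S : Subgroup Ω} [Finite S] (p : ℕ) [Fact p.Prime] (hS : IsPGroup p S) (F : Cfsg.FusionSystem S) (hF : F.IsSaturated p) {T : Subgroup Ω} (E : Cfsg.FusionSystem T) (hE : E.IsNormalIn F p) (R : Subgroup Ω) (hTR : T ≤ R) (hRS : R ≤ S) : ∃ D : Cfsg.FusionSystem R, (D.IsSaturated p ∧ D.IsSubsystemOf F ∧ D.hyperfocalSubgroup p = E.hyperfocalSubgroup p ∧ ∀ (D₁ : Cfsg.FusionSystem (D.hyperfocalSubgroup p)) (E₁ : Cfsg.FusionSystem (E.hyperfocalSubgroup p)), D.IsPResidual p D₁ → E.IsPResidual p E₁ → ∀ P : Subgroup Ω, D₁.Hom P = E₁.Hom P) ∧ ∀ D' : Cfsg.FusionSystem R, D'.IsSaturated p → D'.IsSubsystemOf F → D'.hyperfocalSubgroup p = E.hyperfocalSubgroup p → (∀ (D₁ : Cfsg.FusionSystem (D'.hyperfocalSubgroup p)) (E₁ : Cfsg.FusionSystem (E.hyperfocalSubgroup p)), D'.IsPResidual p D₁ → E.IsPResidual p E₁ → ∀ P : Subgroup Ω, D₁.Hom P = E₁.Hom P) → ∀ P : Subgroup Ω, D'.Hom P = D.Hom P := by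
  have hT := hS.to_le (hTR.trans hRS)
  have hR := hS.to_le hRS
  have : Finite R := finite_of_le hRS
  have : Finite T := finite_of_le (hTR.trans hRS)
  have hD := mulSys_saturated hS hE hRS hTR
  have hi := hasPPowerIndexIn_mulSys hS hE hRS hTR
  refine ⟨mulSys hS hE R hRS, ⟨hD, mulSys_isSubsystemOf hS hE hRS, hyperfocal_mulSys hS hE hRS hTR,
    fun D₁ E₁ h₁ h₂ P => ((corr_isPResidual_of_pPower hR hD hi h₁ h₂).hom_eq_of_id P).symm⟩,
    fun D' h1 h2 h3 h4 P => ?_⟩
  obtain ⟨E₁, hE₁⟩ := exists_isPResidual hT hE.1.1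
  obtain ⟨D₁, hD₁⟩ := exists_isPResidual hR h1
  have hn := isNormalIn_of_isPResidual_of_isNormalIn hS hE hE₁
  have k1 : E₁.HasPPowerIndexIn D' p :=
    (Corr.refl D').hasPPowerIndexIn (corr_id_of_hom_eq (h4 D₁ E₁ hD₁ hE₁)) hD₁.2
  have k2 := hasPPowerIndexIn_trans hR hD hE₁.2 hi
  rw [eq_mulSys_of_pPower hS hn hRS h1 h2 k1,
    ← eq_mulSys_of_pPower hS hn hRS hD (mulSys_isSubsystemOf hS hE hRS) k2]

end Cfsg.Agent.S5143
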