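import Cfsg.Statements.S5147
import Cfsg.Agent.FUS.PSolv

set_option autoImplicit false
open Cfsg

namespace Cfsg.Agent.S5147

/-- Let G be a finite group with Sylow 2-subgroup S whose 2-fusion system on S is constrained, and L a component of G (a subnormal quasisimple subgroup). Then the 2-fusion system of L/Z(L) on the image of S ∩ L is constrained. -/
theorem result {G : Type*} [Group G] [Finite G] (S : Sylow 2 G) (hF : (Cfsg.groupFusionSystem (S : Subgroup G)).IsConstrained 2) (L : Subgroup G) (hL : Cfsg.IsComponent L) : (Cfsg.groupFusionSystem (((S : Subgroup G).subgroupOf L).map (QuotientGroup.mk' (Subgroup.center L)))).IsConstrained 2 := by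
  have hT : CL.Fus.SylIn 2 ((S : Subgroup G).subgroupOf L) ⊤ := by
    have := (CL.Fus.isSubnormalIn_group (CL.Fus.sylIn_top S) hL.1).1.subgroupOf_top
    rwa [Subgroup.inf_subgroupOf_right] at this
  refine (CL.Fus.fac_group (QuotientGroup.mk' (Subgroup.center L)) (QuotientGroup.mk'_surjective _)
    hT).isConstrained_of_central hT.isPGroup
    (CL.Fus.isConstrained_group_of_isSubnormal (CL.Fus.sylIn_top S) hF hL.1) ?_
  rw [CL.Fus.groupFusionSystem_eq_ofSubgroup, QuotientGroup.ker_mk']
  refine CL.Fus.isCentral_ofSubgroup inf_le_left fun g _ => ?_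
  rw [Subgroup.mem_centralizer_iff]
  intro x hx
  exact (Subgroup.mem_center_iff.1 hx.2 g).symm

end Cfsg.Agent.S5147
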