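import Cfsg.Statements.S5160
import Cfsg.Agent.FUS.Simple

set_option autoImplicit false
open Cfsg

namespace Cfsg.Agent.S5160

open CL.Fus

/-- Let G be a finite group with nontrivial Sylow p-subgroup S and F its fusion system on S. Suppose (a) no nontrivial proper subgroup of S is strongly closed in F, and (b) the automorphisms of S induced by G are generated by those induced, for R running over the fully normalized radical centric subgroups of F, by the subgroup of N_G(R) generated by its elements of p-power order. Then F is simple. -/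
theorem result {G : Type*} [Group G] [Finite G] (p : ℕ) [Fact p.Prime] (S : Sylow p G) (hS1 : (S : Subgroup G) ≠ ⊥) (ha : ∀ T : Subgroup G, (Cfsg.groupFusionSystem (S : Subgroup G)).StronglyClosed T → T = ⊥ ∨ T = (S : Subgroup G)) (hb : Cfsg.autInducedBy ⊤ (S : Subgroup G) = ⨆ (R : Subgroup G) (_ : (Cfsg.groupFusionSystem (S : Subgroup G)).IsFullyNormalized R ∧ (Cfsg.groupFusionSystem (S : Subgroup G)).IsRadical p R ∧ (Cfsg.groupFusionSystem (S : Subgroup G)).IsCentric R), Cfsg.autInducedBy (Subgroup.closure {g : G | g ∈ Subgroup.normalizer (R : Set G) ∧ ∃ k : ℕ, orderOf g = p ^ k}) (S : Subgroup G)) : (Cfsg.groupFusionSystem (S : Subgroup G)).IsSimple p := by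
  refine isSimple_of_autZero S.isPGroup' (Grp.isSaturated S) hS1 ?_ ha
  rw [Grp.autGroup_eq le_rfl, hb]
  refine iSup_le fun R => iSup_le fun ⟨_, hr, hc⟩ α hα => ?_
  obtain ⟨g, hg, hn, rfl⟩ := mem_autInducedBy_iff_cjAut.mp hα
  have key : ∃ hR : g ∈ Subgroup.normalizer (R : Set G),
      cjAut R g hR ∈ Oupp p ((groupFusionSystem (S : Subgroup G)).autGroup R) := by
    clear hα hn
    induction hg using Subgroup.closure_induction with
    | mem x hx =>
      obtain ⟨h1, k, hk⟩ := hx
      refine ⟨h1, mem_Oupp ?_ (k := k) ?_⟩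
      · rw [Grp.autGroup_eq hc.1]
        exact cjAut_mem_autInducedBy (Subgroup.mem_top x) h1
      · change R.normalizerMonoidHom ⟨x, h1⟩ ^ p ^ k = 1
        rw [← map_pow, ← map_one R.normalizerMonoidHom]
        exact congrArg _ (Subtype.ext (by simp [← hk]))
    | one => exact ⟨one_mem _, by
        rw [(cjAut_eq_one_iff _).mpr (one_mem _)]; exact one_mem _⟩
    | mul x y _ _ h1 h2 =>
      obtain ⟨h1, h3⟩ := h1
      obtain ⟨h2, h4⟩ := h2
      exact ⟨mul_mem h1 h2, by rw [cjAut_mul h1 h2]; exact mul_mem h3 h4⟩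
    | inv x _ h1 =>
      obtain ⟨h1, h3⟩ := h1
      exact ⟨inv_mem h1, by rw [cjAut_inv h1]; exact inv_mem h3⟩
  obtain ⟨hR, h1⟩ := key
  refine mem_autZero_of_restrict _ _ ?_ hc hr h1 fun x hx => ?_
  · rw [Grp.autGroup_eq le_rfl]
    exact cjAut_mem_autInducedBy (Subgroup.mem_top g) hn
  · rw [autFun_cjAut hR hx, autFun_cjAut hn (hc.1 hx)]

end Cfsg.Agent.S5160
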