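import Cfsg.Agent.FUS.AltFus
import Cfsg.Statements.S5164

namespace Cfsg.Agent.S5164
open Equiv Equiv.Perm CL.Fus CL.AltWr

theorem comm_iff {G : Type*} [Group G] {p : ℕ} [Fact p.Prime] {A B H : Subgroup G} [Finite H] (hA : SylIn p A H)
    (hB : SylIn p B H) (h : ∀ x ∈ A, ∀ y ∈ A, x * y = y * x) : ∀ x ∈ B, ∀ y ∈ B, x * y = y * x := by
  obtain ⟨g, -, rfl⟩ := hB.exists_conj_eq hA
  rintro _ ⟨x, hx, rfl⟩ _ ⟨y, hy, rfl⟩
  rw [← map_mul, h x hx y hy, map_mul]

theorem main {α : Type*} [Fintype α] [DecidableEq α] {p : ℕ} [hp : Fact p.Prime] (h6 : 6 ≤ Nat.card α)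
    {A : Subgroup (Perm α)} (hA : SylIn p A (alternatingGroup α)) :
    (∀ x ∈ A, ∀ y ∈ A, x * y = y * x) ↔ Nat.card α < p ^ 2 := by
  obtain ⟨e⟩ := nonempty_equiv_blocks (p := p) α
  let φ : Perm (Fin (Nat.card α / p) × ZMod p) →* Perm α := e.symm.permCongrHom.toMonoidHom.comp (ex _ _)
  have hφ : Function.Injective φ := e.symm.permCongrHom.injective.comp ex_injective
  have hs : ∀ g, sign (φ g) = sign g := fun g => (sign_permCongr _ _).trans (sign_ex g)
  have key : ∀ P : Subgroup (Perm (Fin (Nat.card α / p))), SylIn p P ⊤ →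
      SylIn p ((wr p P).map φ ⊓ alternatingGroup α) (alternatingGroup α) := fun P hP => by
    have := sylIn_map_equiv e.symm.permCongrHom (sylIn_map_ex (Y := Fin (Nat.card α % p)) (by simp)
      (by rw [Nat.card_fin]; exact Nat.mod_lt _ hp.out.pos) (sylIn_wr hP))
    rw [Subgroup.map_map] at this
    exact this.inf_normal le_top (Subgroup.normalizer_eq_top _).ge
  constructor
  · intro h
    by_contra hlt
    have hle : p ≤ Nat.card α / p := (Nat.le_div_iff_mul_le hp.out.pos).2 (by rw [← sq]; omega)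
    have key2 : ∀ (π : Perm (Fin (Nat.card α / p))) (a : Fin (Nat.card α / p) → ZMod p), π ^ p = 1 →
        sign (bl p _ π) = 1 → sign (tr a) = 1 → a ∘ ⇑π⁻¹ = a := fun π a hπ h1 h2 => by
      obtain ⟨P, hP, hs'⟩ := exists_sylIn_ge (p := p) (B := ⊤) (C := Subgroup.zpowers π) le_top (by
        obtain ⟨k, -, hk⟩ := (Nat.dvd_prime_pow hp.out).1 (orderOf_dvd_of_pow_eq_one (by rwa [pow_one] : π ^ p ^ 1 = 1))
        exact IsPGroup.of_card (by rw [Nat.card_zpowers, hk]))
      have := comm_iff hA (key P hP) h _ ⟨⟨_, bl_mem_wr (hs' (Subgroup.mem_zpowers π)), rfl⟩, (hs _).trans h1⟩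
        _ ⟨⟨_, tr_mem_wr a, rfl⟩, (hs _).trans h2⟩
      rw [← map_mul, ← map_mul, hφ.eq_iff, bl_mul_tr, mul_left_inj] at this
      exact tr_injective this
    by_cases h2 : p = 2
    · subst h2
      obtain ⟨i, j, k, hij, hik, hjk⟩ := Fintype.two_lt_card_iff.1
        (show 2 < Fintype.card (Fin (Nat.card α / 2)) by rw [Fintype.card_fin]; omega)
      have := congrFun (key2 (swap i j) (Pi.single i 1 + Pi.single k 1) (by rw [sq, swap_mul_self])
        (by rw [sign_bl, Int.units_sq]) (by rw [tr_add, map_mul, sign_tr_single_two, sign_tr_single_two]; simp)) j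
      simp [hij.symm, hjk, hik] at this
    · obtain ⟨π, hπ⟩ := exists_prime_orderOf_dvd_card' (G := Perm (Fin (Nat.card α / p))) p (by
        rw [Nat.card_perm, Nat.card_fin]; exact Nat.dvd_factorial hp.out.pos hle)
      have h1 : π ^ p = 1 := orderOf_dvd_iff_pow_eq_one.1 hπ.dvd
      obtain ⟨i, hi⟩ : ∃ i, π i ≠ i := by
        by_contra! hc
        rw [show π = 1 from Equiv.ext hc, orderOf_one] at hπ
        exact hp.out.one_lt.ne hπ
      have := congrFun (key2 π (Pi.single i 1) h1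
        (sign_eq_one_of_pow h2 (k := 1) (by rw [pow_one, ← map_pow, h1, map_one]))
        (sign_eq_one_of_pow h2 (k := 1) (by rw [pow_one, tr_pow_p]))) (π i)
      simp [hi] at this
  · intro hlt
    have hlt' : Nat.card α / p < p := (Nat.div_lt_iff_lt_mul hp.out.pos).2 (by rwa [← sq])
    have hP : SylIn p (⊥ : Subgroup (Perm (Fin (Nat.card α / p)))) ⊤ := sylIn_top_of_card (by
      rw [factorization_card_perm, Nat.card_fin, padicValNat.eq_zero_of_not_dvd, Subgroup.card_bot, pow_zero]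
      rw [hp.out.dvd_factorial]; omega)
    refine comm_iff (key _ hP) hA ?_
    rintro _ ⟨⟨_, ⟨a, π, hπ, rfl⟩, rfl⟩, -⟩ _ ⟨⟨_, ⟨b, σ, hσ, rfl⟩, rfl⟩, -⟩
    rw [Subgroup.mem_bot] at hπ hσ
    rw [hπ, hσ, map_one, mul_one, mul_one, ← map_mul, ← map_mul, ← tr_add, ← tr_add, add_comm]

end Cfsg.Agent.S5164

-- Template for statement S5164 (row 5164; see /opt/grader/pristine/manifest.json for weights).
-- Copy to Cfsg/Agent/S5164.lean and replace the sorry. The statement below is byte-identical to the frozen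
-- statement Cfsg.CfsgFrozen.S5164 (Cfsg/Statements/S5164.lean; the theorem Cfsg.fus2_alternating_sylow_abelian_iff);
-- the grader kernel-checks Cfsg.Agent.S5164.result against that frozen type. Keep the theorem IN THIS FILE
-- (a `result` declared elsewhere and merely imported here is not credited); helpers may live anywhere
-- under Cfsg/Agent/.
-- import your own Cfsg.Agent.* helpers here

set_option autoImplicit false
open Cfsg

namespace Cfsg.Agent.S5164

/-- For n ≥ 6 and a prime p, a nontrivial Sylow p-subgroup of the alternating group of degree n is abelian if and only if n < p². -/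
theorem result (n p : ℕ) (hn : 6 ≤ n) [Fact p.Prime] (S : Sylow p (alternatingGroup (Fin n))) (hS : (S : Subgroup (alternatingGroup (Fin n))) ≠ ⊥) : IsMulCommutative S ↔ n < p ^ 2 := by
  have := main (α := Fin n) (by simpa using hn) (CL.Fus.sylIn_map_subtype S)
  rw [Nat.card_fin] at this
  rw [← this]
  constructor
  · rintro h _ ⟨x, hx, rfl⟩ _ ⟨y, hy, rfl⟩
    exact congrArg (fun z : S => ((z : alternatingGroup (Fin n)) : Equiv.Perm (Fin n))) (h.is_comm.comm ⟨x, hx⟩ ⟨y, hy⟩)
  · exact fun h => ⟨⟨fun x y => Subtype.ext (Subtype.ext (h _ ⟨_, x.2, rfl⟩ _ ⟨_, y.2, rfl⟩))⟩⟩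

end Cfsg.Agent.S5164
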