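import Cfsg.Statements.S5167
import Cfsg.Agent.FUS.PcMathieu

set_option autoImplicit false
open Cfsg

namespace Cfsg.Agent.S5167

def Hd : List ℕ := [435082565315350699714640274554913346, 838139441830840926294867946613654086, 476605613550237811194914545552736681]
def Tl : List ℕ := [486341047615751639994623457303282248, 297881989226228904925238124821430313, 860206566224218651291138930063716390]
def L : List ℕ := [435082565315350699714640274554913346, 838139441830840926294867946613654086, 476605613550237811194914545552736681, 486341047615751639994623457303282248, 297881989226228904925238124821430313, 860206566224218651291138930063716390]
def W : List (ℕ × List (List ℕ)) := [(486341047615751639994623457303282248, [[0, 1, 2, 3, 4]]), (297881989226228904925238124821430313, [[0, 1, 3]]), (860206566224218651291138930063716390, [[4, 5]])]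
def z : ℕ := 860206566224218651291138930063716390
def Cl : List (ℕ × ℕ × ℕ) := [(435082565315350699714640274554913346, 735580066416856050936209534472102019, 2707685248164858261307045101702230179137145581421695874189921465443966120903931272499975005961073806735733604598610863690088448), (838139441830840926294867946613654086, 838139441830840926294867946613654086, 24258095192198577111702804507226602425888844017448384549047688094157046135724638848919975137947601217976370792142673018846430938189293974866316988672518455300069609000325779774222895087993725700394734362401819824232700732090875904), (476605613550237811194914545552736681, 476605613550237811194914545552736681, 12129047596099288555851402253613301212944422008724192274523844047078523067862319424459987568973800608988185396071336509423215469094646987433158494336259227650034804500162889887111447543996862850197367181200909912260465554121293824)]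
def St : List (List ℕ × ℕ × List ℕ) := [([0], 849842673544407966701804143836744105, [1, 4, 5]), ([0, 1], 840469274863639369973733700775002372, [2, 3, 5]), ([1], 716116507194498028317023670179004493, [1, 3, 4]), ([0, 1], 636995982024256733472220687883114785, [0, 2, 3, 5])]
def W' : List (List ℕ) := [[0, 2], [2, 1, 2], [2, 1, 3], [1, 3], [1, 2, 3, 2], [4]]
open CL.K CL.Pc CL.Golay CL.MathMdl
theorem hL : lall (okc ok12) L = true := by decide +kernel
theorem hpc : pcB comp24 one24 L = true := by decide +kernel
theorem hfr : fratB comp24 one24 Hd Tl L W = true := by decide +kernel
theorem hz : centB comp24 one24 z Hd L = true := by decide +kernel
theorem hcl : classB comp24 one24 (w24 z) Hd Tl Cl = true := by decide +kernel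
theorem hst : stepsB comp24 one24 (okc ok12) L W' St [z] = true := by decide +kernel

/-- The 2-fusion system of the Mathieu group M₁₂ (as the explicit permutation group carved out of the automorphism group of the binary Golay code) on a Sylow 2-subgroup is simple: saturated, over a nontrivial 2-group, with no normal subsystem other than the trivial one and itself. -/
theorem result (S : Sylow 2 Cfsg.Spor.M12) : (Cfsg.groupFusionSystem (S : Subgroup Cfsg.Spor.M12)).IsSimple 2 := by
  exact isSimple_of_cert24 (fun _ => in12) hL rfl (m := 1485) (by decide) (by rw [CL.MathMdl.card_M12]; rfl)
    (by decide) hpc hfr hz hcl hst S

end Cfsg.Agent.S5167
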