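import Cfsg.Statements.S5168
import Cfsg.Agent.FUS.PcMathieu

set_option autoImplicit false
open Cfsg

namespace Cfsg.Agent.S5168

def Hd : List ℕ := [971260800556508387362606631018090656, 971298508216796828985340437265089632, 976523570717241266090133915763839040]
def Tl : List ℕ := [977656098061144236030882031709916384, 983991419431302060320892116034627232, 984365217902686453248235801272398976, 984159739662526352166722481920720096]
def L : List ℕ := [971260800556508387362606631018090656, 971298508216796828985340437265089632, 976523570717241266090133915763839040, 977656098061144236030882031709916384, 983991419431302060320892116034627232, 984365217902686453248235801272398976, 984159739662526352166722481920720096]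
def W : List (ℕ × List (List ℕ)) := [(977656098061144236030882031709916384, [[1]]), (983991419431302060320892116034627232, [[0, 2, 4, 5, 6]]), (984365217902686453248235801272398976, [[2]]), (984159739662526352166722481920720096, [[0, 1, 4]])]
def z : ℕ := 984106537951624291307853224808683840
def Cl : List (ℕ × ℕ × ℕ) := [(971260800556508387362606631018090656, 977779733608294288090356982430215808, 24258095192198577111702804507226602425888844017448384549047688094157046135724638848919975137947601217976370793433797957889885233017253560867822925837371351714681365415655458044546706096414323015217411002470735542184286718464622592), (971298508216796828985340437265089632, 971298508216796828985340437265089632, 1532495540865888858358347027150309183618739122183602176), (976523570717241266090133915763839040, 976523570717241266090133915763839040, 5415371787454655566068385031364046359780228327696288162991599346217610512131673553420547326744824253540382926860577337602211840)]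
def St : List (List ℕ × ℕ × List ℕ) := [([0], 973882300606618343516269957871805504, [6]), ([0, 1], 974940296467602182269103536480669216, [0, 3]), ([1, 2], 964030040522944616276847138937584128, [1, 2, 6]), ([1], 982211715465430980757818342581675360, [0, 2, 3, 4, 5])]
def W' : List (List ℕ) := [[1, 3, 2, 1], [0, 1, 2], [2, 0, 4], [1, 2, 1, 3, 2], [2, 3, 2, 3], [0, 2, 0, 2], [3]]
open CL.K CL.Pc CL.Golay CL.MathMdl
theorem hL : lall (okc ok22) L = true := by decide +kernel
theorem hpc : pcB comp24 one24 L = true := by decide +kernel
theorem hfr : fratB comp24 one24 Hd Tl L W = true := by decide +kernel
theorem hz : centB comp24 one24 z Hd L = true := by decide +kernel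
theorem hcl : classB comp24 one24 (w24 z) Hd Tl Cl = true := by decide +kernel
theorem hst : stepsB comp24 one24 (okc ok22) L W' St [z] = true := by decide +kernel

/-- The 2-fusion system of the Mathieu group M₂₂ (as the explicit permutation group carved out of the automorphism group of the binary Golay code) on a Sylow 2-subgroup is simple: saturated, over a nontrivial 2-group, with no normal subsystem other than the trivial one and itself. -/
theorem result (S : Sylow 2 Cfsg.Spor.M22) : (Cfsg.groupFusionSystem (S : Subgroup Cfsg.Spor.M22)).IsSimple 2 := by
  exact isSimple_of_cert24 (fun _ => in22) hL rfl (m := 3465) (by decide) (by rw [CL.MathMdl.card_M22]; rfl)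
    (by decide) hpc hfr hz hcl hst S

end Cfsg.Agent.S5168
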