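import Cfsg.Statements.S5171
import Cfsg.Agent.FUS.DefCharForm
import Cfsg.Agent.CLAS.SpForm

set_option autoImplicit false
open Cfsg

namespace Cfsg.Agent.S5171

/-- For a finite field K of characteristic p and m ≥ 2, excluding the case m = 2 with K of two elements, the p-fusion system of the projective symplectic group PSp_{2m}(K) on a Sylow p-subgroup is simple. -/
theorem result {K : Type*} [Field K] [Fintype K] (p : ℕ) [Fact p.Prime] [CharP K p] (m : ℕ) (hm : 2 ≤ m) (hex : m = 2 → 3 ≤ Fintype.card K) (S : Sylow p (Cfsg.PSp m K)) : (Cfsg.groupFusionSystem (S : Subgroup (Cfsg.PSp m K))).IsSimple p := by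
  have hf := CL.Sp.spForm_nondeg m K
  have hr := CL.Sp.finrank_sp m K
  obtain ⟨T, hT, h1, h2⟩ := CL.DefChar.isSimple_alt (p := p) hf (by omega) (by
    rw [Nat.card_eq_fintype_card]
    by_cases h : m = 2
    · exact Or.inr (hex h)
    · exact Or.inl (by omega))
  exact CL.Fus.isSimple_quot_center_of_equiv
    ((CL.Sp.spEquiv m K).trans (MulEquiv.subgroupCongr hf.alt_E_eq_O.symm)) hT h1 h2 S

end Cfsg.Agent.S5171
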