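import Cfsg.Statements.S5172
import Cfsg.Agent.FUS.DefCharForm

set_option autoImplicit false
open Cfsg

namespace Cfsg.Agent.S5172

/-- For a finite field K with q² elements of characteristic p and n ≥ 4, the p-fusion system of the projective special unitary group PSU_n(q) (realised over K) on a Sylow p-subgroup is simple. -/
theorem result {K : Type*} [Field K] [Fintype K] (p q : ℕ) [Fact p.Prime] [CharP K p] (hK : Fintype.card K = q ^ 2) (n : ℕ) (hn : 4 ≤ n) (S : Sylow p (Cfsg.PSU n K q)) : (Cfsg.groupFusionSystem (S : Subgroup (Cfsg.PSU n K q))).IsSimple p := by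
  have hf := CL.Uni.std_nondeg hK (Fin n)
  obtain ⟨T, hT, h1, h2⟩ := CL.DefChar.isSimple_herm (p := p) (CL.Uni.sig_ne_id hK) hf (by simpa using hn)
  exact CL.Fus.isSimple_quot_center_of_equiv
    ((CL.Uni.suEquiv hK n).trans (MulEquiv.subgroupCongr (CL.Uni.E_eq_SO (CL.Uni.sig_ne_id hK) hf).symm))
    hT h1 h2 S

end Cfsg.Agent.S5172
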