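import Cfsg.Statements.S5311
import Mathlib
import Cfsg.Agent.FUS.Component

set_option autoImplicit false
open Cfsg

namespace Cfsg.Agent.S5311

open CL.Fus

/-- The layer of a saturated fusion system F over a finite p-group S is characteristic in F: for every automorphism α of S that is an automorphism of F (α and its inverse are morphisms from F to F) and every layer E of F over T, α carries T onto T and, for every map φ of E with source P, the map induced by α on α(P) (that is, α ∘ φ ∘ α⁻¹) is a map of E. -/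
theorem result {Ω : Type*} [Group Ω] {S : Subgroup Ω} [Finite S] (p : ℕ) [Fact p.Prime] (hS : IsPGroup p S) (F : Cfsg.FusionSystem S) (hF : F.IsSaturated p)
    (α : ↥S ≃* ↥S) (hα : F.IsMorphism F (S.subtype.comp α.toMonoidHom))
    (hα' : F.IsMorphism F (S.subtype.comp α.symm.toMonoidHom))
    {T : Subgroup Ω} (E : Cfsg.FusionSystem T) (hE : E.IsLayerOf F p) :
    Cfsg.FusionSystem.imageAlong (S.subtype.comp α.toMonoidHom) T = T ∧
      ∀ (P : Subgroup Ω) (φ : ↥P →* Ω), φ ∈ E.Hom P →
        ∀ φ' : ↥(Cfsg.FusionSystem.imageAlong (S.subtype.comp α.toMonoidHom) P) →* Ω,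
          Cfsg.FusionSystem.InducedAlong (S.subtype.comp α.toMonoidHom) φ φ' →
            φ' ∈ E.Hom (Cfsg.FusionSystem.imageAlong (S.subtype.comp α.toMonoidHom) P) := by
  have e1 : ∀ (β : MulAut S) (x : S), (S.subtype.comp β.toMonoidHom) x = autFun β x := fun β x => (autFun_coe β x).symm
  have m1 := (isMorphism_iff (e1 α)).1 hα
  have m2 := (isMorphism_iff (e1 α.symm)).1 hα'
  have h1 : α ∈ fusAut F := by
    have key : ∀ β : MulAut S, Morph (autFun β) F F → ∀ {P f}, Mor F P f →
        Mor F (img (autFun β) P) (autFun β ∘ f ∘ autFun β⁻¹) := fun β m P f hf => m.mor_of hf fun x hx => by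
      rw [Function.comp_apply, Function.comp_apply, autFun_inv_autFun β (hf.le hx)]
    exact ⟨⟨isHomOn_autFun α, fun x hx => autFun_mem α hx, fun x hx => autFun_mem _ hx,
      fun x hx => autFun_inv_autFun α hx, fun x hx => autFun_autFun_inv α hx⟩, key α m1, fun hf => by
        simpa only [inv_inv] using key α⁻¹ m2 hf⟩
  have c := corr_of_fusAut h1
  have hT := hE.1.1.2.2.2.1.1
  obtain ⟨E', c'⟩ := c.exists_sub E hT
  have c₂ := isLayerOf_unique (c.isLayerOf c' hE) hE
  refine ⟨(imageAlong_eq_img (e1 α) hT).trans c₂.eq_of_id, fun P φ hφ φ' h => ?_⟩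
  obtain ⟨k1, -, -, k2⟩ := (inducedAlong_iff (e1 α)).1 h
  rw [mem_hom_iff_mor]
  exact ((c'.trans c₂).mor_of (mor_toFn hφ) k2).of_eq_dom (imageAlong_eq_img (e1 α) k1).symm

end Cfsg.Agent.S5311
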