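import Cfsg.Statements.S5344
import Cfsg.Agent.SPOR.ThreeTrans
import Cfsg.Agent.SPOR.SymmCoxeter

set_option autoImplicit false
open Cfsg

namespace Cfsg.Agent.S5344

theorem aux : ∀ σ : Equiv.Perm (Fin 4), σ ≠ 1 → ∃ τ ρ : Equiv.Perm (Fin 4),
    τ * σ * τ⁻¹ * (ρ * σ * ρ⁻¹) = Equiv.swap 0 1 * Equiv.swap 2 3 := by
  decide +kernel

/-- In a set of 3-transpositions, let a, b, c be members with a and c different and commuting, while neither a nor c commutes with b (a 3-string). Then there is an injective homomorphism from the symmetric group of degree 4 into the ambient group sending the transpositions (0 1), (1 2), (2 3) to a, b, c; so a, b, c generate a copy of the symmetric group of degree 4 in which they are transpositions. -/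
theorem result {G : Type*} [Group G] {D : Set G} (hD : Cfsg.IsThreeTranspositionSet D) {a b c : G} (ha : a ∈ D) (hb : b ∈ D) (hc : c ∈ D) (hac : a ≠ c) (hac' : Commute a c) (hab : ¬ Commute a b) (hbc : ¬ Commute b c) : ∃ φ : Equiv.Perm (Fin 4) →* G, Function.Injective φ ∧ φ (Equiv.swap 0 1) = a ∧ φ (Equiv.swap 1 2) = b ∧ φ (Equiv.swap 2 3) = c := by
  obtain ⟨φ, hφ⟩ := CL.exists_perm_hom_of_braid 3 ![a, b, c]
    (by
      intro i
      fin_cases i
      · exact CL.TT.mul_self hD ha
      · exact CL.TT.mul_self hD hb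
      · exact CL.TT.mul_self hD hc)
    (by
      intro i j hij
      fin_cases i <;> fin_cases j <;> simp at hij
      exact hac')
    (by
      intro i j hij
      fin_cases i <;> fin_cases j <;> simp at hij
      · exact CL.TT.braid hD ha hb hab
      · exact CL.TT.braid hD hb hc hbc)
  have e0 : φ (Equiv.swap 0 1) = a := hφ 0
  have e1 : φ (Equiv.swap 1 2) = b := hφ 1
  have e2 : φ (Equiv.swap 2 3) = c := hφ 2
  refine ⟨φ, ?_, e0, e1, e2⟩
  rw [injective_iff_map_eq_one]
  intro σ hσ
  by_contra h
  obtain ⟨τ, ρ, e⟩ := aux σ h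
  have := congrArg φ e
  simp only [map_mul, hσ, map_inv, mul_one, mul_inv_cancel, e0, e2] at this
  exact hac ((CL.TT.mul_eq_one_iff hD ha).1 this.symm)

end Cfsg.Agent.S5344
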