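import Cfsg.Statements.S5345
import Cfsg.Agent.SPOR.ThreeTrans

set_option autoImplicit false
open Cfsg

namespace Cfsg.Agent.S5345

/-- Let D be a conjugation-invariant generating set of 3-transpositions of a finite group G and T a Sylow 2-subgroup of G. Then the members of D lying in T generate an abelian subgroup, and their number is the width of D (the largest number of pairwise commuting members of D). -/
theorem result {G : Type*} [Group G] [Finite G] {D : Set G} (hD : Cfsg.IsThreeTranspositionGroup D) (T : Sylow 2 G) : IsMulCommutative (Subgroup.closure {d : G | d ∈ D ∧ d ∈ T}) ∧ {d : G | d ∈ D ∧ d ∈ T}.ncard = Cfsg.commutingWidth D := by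
  classical
  have : Fact (Nat.Prime 2) := ⟨Nat.prime_two⟩
  have hcomm : ∀ a ∈ {d : G | d ∈ D ∧ d ∈ T}, ∀ b ∈ {d : G | d ∈ D ∧ d ∈ T}, Commute a b := by
    rintro a ⟨ha, haT⟩ b ⟨hb, hbT⟩
    by_contra h
    have h3 := CL.TT.orderOf_mul_eq_three hD.1 ha hb h
    obtain ⟨k, hk⟩ := IsPGroup.iff_orderOf.1 T.isPGroup' ⟨a * b, T.1.mul_mem haT hbT⟩
    rw [← Subgroup.orderOf_coe] at hk
    have : (3 : ℕ) ∣ 2 ^ k := by rw [← hk]; exact h3.symm ▸ dvd_rfl
    have := Nat.Prime.dvd_of_dvd_pow Nat.prime_three this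
    omega
  refine ⟨Subgroup.isMulCommutative_closure fun a ha b hb => hcomm a ha b hb, ?_⟩
  have key : ∀ E : Set G, E ⊆ D → (∀ a ∈ E, ∀ b ∈ E, Commute a b) →
      E.ncard ≤ {d : G | d ∈ D ∧ d ∈ T}.ncard := by
    intro E hE hc
    have hP : IsPGroup 2 (Subgroup.closure E) := by
      rintro ⟨x, hx⟩
      refine ⟨1, Subtype.ext ?_⟩
      show x ^ 2 ^ 1 = 1
      rw [pow_one]
      induction hx using Subgroup.closure_induction with
      | mem y hy => rw [sq]; exact CL.TT.mul_self hD.1 (hE hy)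
      | one => simp
      | mul x y hx hy ihx ihy =>
        have : IsMulCommutative (Subgroup.closure E) :=
          Subgroup.isMulCommutative_closure fun a ha b hb => hc a ha b hb
        have hxy : Commute x y := setLike_mul_comm hx hy
        rw [hxy.mul_pow, ihx, ihy, one_mul]
      | inv x _ ih => rw [inv_pow, ih, inv_one]
    obtain ⟨Q, hQ⟩ := hP.exists_le_sylow
    obtain ⟨g, hg⟩ := MulAction.exists_smul_eq G Q T
    refine Set.ncard_le_ncard_of_injOn (fun x => g * x * g⁻¹) ?_ ?_ (Set.toFinite _)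
    · intro x hx
      refine ⟨hD.2.1 g x (hE hx), ?_⟩
      rw [← hg]
      exact Subgroup.smul_mem_pointwise_smul x (MulAut.conj g) _ (hQ (Subgroup.subset_closure hx))
    · intro x _ y _ hxy
      simpa using hxy
  apply le_antisymm
  · apply le_csSup
    · refine ⟨{d : G | d ∈ D ∧ d ∈ T}.ncard, ?_⟩
      rintro n ⟨E, hE, -, hc, rfl⟩
      exact key E hE hc
    · exact ⟨_, fun d hd => hd.1, Set.toFinite _, hcomm, rfl⟩
  · apply csSup_le
    · exact ⟨_, _, fun d hd => hd.1, Set.toFinite _, hcomm, rfl⟩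
    · rintro n ⟨E, hE, -, hc, rfl⟩
      exact key E hE hc

end Cfsg.Agent.S5345
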