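import Cfsg.Statements.S5346
import Cfsg.Agent.SPOR.TTBasic
import Cfsg.Agent.S5345

set_option autoImplicit false
open Cfsg

namespace Cfsg.Agent.S5346

/-- Let D be a conjugation-invariant generating set of 3-transpositions of a finite group G and d a member of D. Then D has width 1 (no two different members of D commute) if and only if G is the product of the subgroup generated by d with the largest normal 3-subgroup of G. -/
theorem result {G : Type*} [Group G] [Finite G] {D : Set G} (hD : Cfsg.IsThreeTranspositionGroup D) {d : G} (hd : d ∈ D) : Cfsg.commutingWidth D = 1 ↔ Subgroup.zpowers d ⊔ Cfsg.pCore 3 G = ⊤ := by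
  have : Fact (Nat.Prime 2) := ⟨Nat.prime_two⟩
  have hw : Cfsg.commutingWidth D = 1 ↔ ∀ a ∈ D, ∀ b ∈ D, Commute a b → a = b := by
    constructor
    · intro h a ha b hb hab
      obtain ⟨T, hT⟩ := (CL.TT.isPGroup_two_closure (S := {a, b})
        (by rintro x (rfl | rfl) <;> exact CL.TT.mul_self hD.1 ‹_›)
        (by rintro x (rfl | rfl) y (rfl | rfl) <;> first | exact Commute.refl _ | exact hab | exact hab.symm)).exists_le_sylow
      rw [← (S5345.result hD T).2, Set.ncard_eq_one] at h
      obtain ⟨x, hx⟩ := h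
      have h1 : a ∈ ({x} : Set G) := hx ▸ ⟨ha, hT (Subgroup.subset_closure (Or.inl rfl))⟩
      have h2 : b ∈ ({x} : Set G) := hx ▸ ⟨hb, hT (Subgroup.subset_closure (Or.inr rfl))⟩
      exact h1.trans h2.symm
    · intro h
      obtain ⟨T, hT⟩ := (CL.TT.isPGroup_two_closure (S := {d})
        (by rintro x rfl; exact CL.TT.mul_self hD.1 hd)
        (by rintro x rfl y rfl; exact Commute.refl _)).exists_le_sylow
      have hdT : d ∈ T := hT (Subgroup.subset_closure rfl)
      obtain ⟨h1, h2⟩ := S5345.result hD T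
      rw [← h2, Set.ncard_eq_one]
      refine ⟨d, Set.eq_singleton_iff_unique_mem.2 ⟨⟨hd, hdT⟩, fun x hx => h x hx.1 d hd ?_⟩⟩
      exact setLike_mul_comm (Subgroup.subset_closure hx)
        (Subgroup.subset_closure (show d ∈ {d : G | d ∈ D ∧ d ∈ T} from ⟨hd, hdT⟩))
  rw [hw]
  constructor
  · intro h
    rw [eq_top_iff, ← hD.2.2, Subgroup.closure_le]
    intro x hx
    rw [← CL.TT.mul_mul_cancel hD.1 hd x]
    exact Subgroup.mul_mem_sup (Subgroup.mem_zpowers d) (CL.TT.mul_mem_pCore_three hD.1 hD.2.1 h hd hx)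
  · intro h
    have key : ∀ a ∈ D, d⁻¹ * a ∈ pCore 3 G := by
      intro a ha
      have : a ∈ Subgroup.zpowers d ⊔ pCore 3 G := h ▸ Subgroup.mem_top a
      obtain ⟨y, hy, u, hu, rfl⟩ := Subgroup.mem_sup_of_normal_right.1 this
      have hy' : y = 1 ∨ y = d := by
        obtain ⟨k, rfl⟩ := hy
        rcases Int.even_or_odd' k with ⟨m, rfl | rfl⟩
        · left; show d ^ (2 * m) = 1
          rw [zpow_mul, zpow_two, CL.TT.mul_self hD.1 hd, one_zpow]
        · right; show d ^ (2 * m + 1) = d
          rw [zpow_add, zpow_mul, zpow_two, CL.TT.mul_self hD.1 hd, one_zpow, one_mul, zpow_one]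
      rcases hy' with rfl | rfl
      · rw [one_mul] at ha
        exact absurd hu (CL.TT.not_mem_of_orderOf Nat.prime_three Nat.prime_two (by norm_num)
          (CL.isPGroup_pCore 3 G) (hD.1.1 u ha))
      · simpa using hu
    intro a ha b hb hab
    have h1 := (CL.TT.theta_iff hD.1 hD.2.1 hd ha).2 (key a ha)
    have h2 := (CL.TT.theta_iff hD.1 hD.2.1 hd hb).2 (key b hb)
    exact (h1.symm.trans h2).eq_of_commute hb hab

end Cfsg.Agent.S5346
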