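import Cfsg.Statements.S5347
import Cfsg.Agent.SPOR.ThreeTrans

set_option autoImplicit false
open Cfsg

namespace Cfsg.Agent.S5347

/-- Let D be a conjugation-invariant generating set of 3-transpositions of a finite group G, p a prime bigger than 3, and P a p-subgroup of G. If a member d of D normalizes P then d centralizes P. -/
theorem result {G : Type*} [Group G] [Finite G] {D : Set G} (hD : Cfsg.IsThreeTranspositionGroup D) {p : ℕ} (hp : p.Prime) (hp3 : 3 < p) (P : Subgroup G) (hP : IsPGroup p P) {d : G} (hd : d ∈ D) (hnorm : d ∈ Subgroup.normalizer (P : Set G)) : ∀ x ∈ P, Commute d x := by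
  intro x hx
  have : Fact p.Prime := ⟨hp⟩
  have h1 : d * x * d⁻¹ ∈ P := (Subgroup.mem_normalizer_iff.1 hnorm x).1 hx
  have h2 : d * (x * d * x⁻¹) ∈ P := by
    have := P.mul_mem h1 (P.inv_mem hx)
    rwa [CL.TT.inv_eq hD.1 hd, mul_assoc, mul_assoc, ← mul_assoc x] at this
  have he := hD.2.1 x d hd
  obtain ⟨k, hk⟩ := IsPGroup.iff_orderOf.1 hP ⟨_, h2⟩
  rw [← Subgroup.orderOf_coe] at hk
  have h6 : (d * (x * d * x⁻¹)) ^ 6 = 1 := by
    rcases hD.1.2 d hd _ he with h | h
    · rw [show 6 = 2 * 3 from rfl, pow_mul, h, one_pow]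
    · rw [show 6 = 3 * 2 from rfl, pow_mul, h, one_pow]
  have hdvd : p ^ k ∣ 6 := hk ▸ orderOf_dvd_of_pow_eq_one h6
  have hk0 : k = 0 := by
    by_contra hk0
    have : p ∣ 6 := (dvd_pow_self p hk0).trans hdvd
    have hle := Nat.le_of_dvd (by norm_num) this
    interval_cases p
    · norm_num at hp
    · norm_num at this
    · norm_num at hp
  rw [hk0, pow_zero, orderOf_eq_one_iff] at hk
  have h3 : d = x * d * x⁻¹ := (CL.TT.mul_eq_one_iff hD.1 hd).1 hk
  show d * x = x * d
  conv_lhs => rw [h3]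
  rw [inv_mul_cancel_right]

end Cfsg.Agent.S5347
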