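import Cfsg.Statements.S5357
import Cfsg.Agent.SPOR.ReflClass
-- import your own Cfsg.Agent.* helpers here

set_option autoImplicit false
open scoped MatrixGroups
open Cfsg

namespace Cfsg.Agent.S5357

/-- Let Q be a non-degenerate quadratic form on the n-dimensional coordinate space over the field with three elements, n ≥ 5, and c a non-zero scalar. In the subgroup of the isometry group of Q generated by the reflections in vectors v with Q(v) = c, these reflections form a single conjugacy class of 3-transpositions generating that subgroup. -/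
theorem result (n : ℕ) (hn : 5 ≤ n) (Q : QuadraticForm (ZMod 3) (Fin n → ZMod 3)) (hQ : (QuadraticMap.polarBilin Q).Nondegenerate) (c : ZMod 3) (hc : c ≠ 0) : Cfsg.IsThreeTranspositionClass {g : ↥(Cfsg.reflectionSubgroup (⇑Q) c) | (g : ↥(Cfsg.isometryGroup (ZMod 3) (⇑Q))) ∈ Cfsg.reflectionsOfNorm (⇑Q) c} := by
  have h5 : 5 ≤ Module.finrank (ZMod 3) (Fin n → ZMod 3) := by simpa using hn
  exact CL.RC.isClass_of_iff (CL.RC.toR Q c)
    (D := {g : ↥(Cfsg.reflectionSubgroup (⇑Q) c) |
      (g : ↥(Cfsg.isometryGroup (ZMod 3) (⇑Q))) ∈ Cfsg.reflectionsOfNorm (⇑Q) c})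
    (D' := {g : CL.RC.R Q c | (g : CL.Orth.O Q) ∈ CL.RC.Rset Q c})
    (fun g => CL.RC.mem_reflectionsOfNorm_iff c g.1)
    (CL.RC.isClass_R CL.RC.sq_zmod3 hQ h5 hc)

end Cfsg.Agent.S5357
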