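import Cfsg.Statements.S5358

set_option autoImplicit false
open scoped MatrixGroups
open Cfsg

namespace Cfsg.Agent.S5358

/-- Let Q be a non-degenerate quadratic form on the n-dimensional coordinate space over the field with three elements and u, v vectors of the same non-zero norm Q(u) = Q(v) spanning different lines (v ≠ u and v ≠ −u). Then the reflection matrices of u and v commute if and only if u and v are orthogonal for the polar form of Q. -/
theorem result (n : ℕ) (Q : QuadraticForm (ZMod 3) (Fin n → ZMod 3)) (hQ : (QuadraticMap.polarBilin Q).Nondegenerate) (u v : Fin n → ZMod 3) (hu : Q u ≠ 0) (huv : Q u = Q v) (h1 : v ≠ u) (h2 : v ≠ -u) : Commute (Cfsg.reflectionMatrix (⇑Q) u) (Cfsg.reflectionMatrix (⇑Q) v) ↔ QuadraticMap.polar (⇑Q) u v = 0 := by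
  classical
  have hv : Q v ≠ 0 := huv ▸ hu
  have hdot : ∀ w x : Fin n → ZMod 3, Cfsg.polarVec (⇑Q) w ⬝ᵥ x = QuadraticMap.polar (⇑Q) w x := by
    intro w x
    have : x = ∑ j, x j • Pi.single j (1 : ZMod 3) := by
      ext i; simp [Pi.single_apply]
    conv_rhs => rw [this]
    rw [← QuadraticMap.polarBilin_apply_apply, map_sum]
    simp [dotProduct, Cfsg.polarVec, mul_comm]
  have hact : ∀ w x : Fin n → ZMod 3, (Cfsg.reflectionMatrix (⇑Q) w).mulVec x =
      x - ((Q w)⁻¹ * QuadraticMap.polar (⇑Q) w x) • w := by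
    intro w x
    rw [Cfsg.reflectionMatrix, Matrix.sub_mulVec, Matrix.one_mulVec, Matrix.smul_mulVec,
      Matrix.vecMulVec_mulVec, hdot]
    simp [mul_smul]
  have hself : ∀ w : Fin n → ZMod 3, QuadraticMap.polar (⇑Q) w w = 2 * Q w := fun w => by
    rw [QuadraticMap.polar_self]; simp [two_mul]
  constructor
  · intro h
    have e := congrArg (fun M => Matrix.mulVec M u) h.eq
    simp only [← Matrix.mulVec_mulVec, hact, QuadraticMap.polar_sub_right,
      QuadraticMap.polar_smul_right, hself, QuadraticMap.polar_comm (⇑Q) v u] at e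
    by_contra hp
    rw [← huv] at e
    generalize QuadraticMap.polar (⇑Q) u v = p at hp e
    generalize hq : Q u = q at hu e
    have e' : ∀ i, (u i - (q⁻¹ * p) * v i - (q⁻¹ * (2 * q - q⁻¹ * p * p)) * u i) =
        u i - (q⁻¹ * (2 * q)) * u i - (q⁻¹ * (p - q⁻¹ * (2 * q) * p)) * v i := by
      intro i
      have := congrFun e i
      simpa using this
    have c : ∀ q p : ZMod 3, q ≠ 0 → p ≠ 0 → (∀ a b : ZMod 3,
        (a - (q⁻¹ * p) * b - (q⁻¹ * (2 * q - q⁻¹ * p * p)) * a) =
        a - (q⁻¹ * (2 * q)) * a - (q⁻¹ * (p - q⁻¹ * (2 * q) * p)) * b → b = a) ∨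
        (∀ a b : ZMod 3, (a - (q⁻¹ * p) * b - (q⁻¹ * (2 * q - q⁻¹ * p * p)) * a) =
        a - (q⁻¹ * (2 * q)) * a - (q⁻¹ * (p - q⁻¹ * (2 * q) * p)) * b → b = -a) := by
      decide +kernel
    rcases c q p hu hp with c1 | c1
    · exact h1 (funext fun i => c1 _ _ (e' i))
    · exact h2 (funext fun i => c1 _ _ (e' i))
  · intro h
    have h' : QuadraticMap.polar (⇑Q) v u = 0 := by rw [QuadraticMap.polar_comm, h]
    apply Matrix.ext_of_mulVec_single
    intro i
    simp only [← Matrix.mulVec_mulVec, hact, QuadraticMap.polar_sub_right,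
      QuadraticMap.polar_smul_right, h, h', smul_zero, sub_zero]
    abel

end Cfsg.Agent.S5358
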