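import Cfsg.Statements.S5360
import Cfsg.Agent.SPOR.ReflClass
-- import your own Cfsg.Agent.* helpers here

set_option autoImplicit false
open scoped MatrixGroups
open Cfsg

namespace Cfsg.Agent.S5360

/-- Let Q be a non-degenerate quadratic form on the n-dimensional coordinate space over the field with three elements, n ≥ 5, c a non-zero scalar, and R the subgroup of the isometry group generated by the reflections of norm c. Then the commutator subgroup of R is quasisimple of index at most 2, the generalized Fitting subgroup of R is the product of the centre and the commutator subgroup, and R acts primitively by conjugation on its reflections of norm c. -/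
theorem result (n : ℕ) (hn : 5 ≤ n) (Q : QuadraticForm (ZMod 3) (Fin n → ZMod 3)) (hQ : (QuadraticMap.polarBilin Q).Nondegenerate) (c : ZMod 3) (hc : c ≠ 0) : Cfsg.IsQuasisimple (commutator ↥(Cfsg.reflectionSubgroup (⇑Q) c)) ∧ (commutator ↥(Cfsg.reflectionSubgroup (⇑Q) c)).index ≤ 2 ∧ Cfsg.generalizedFittingSubgroup ↥(Cfsg.reflectionSubgroup (⇑Q) c) = Subgroup.center ↥(Cfsg.reflectionSubgroup (⇑Q) c) ⊔ commutator ↥(Cfsg.reflectionSubgroup (⇑Q) c) ∧ Cfsg.IsPrimitiveUnderConj {g : ↥(Cfsg.reflectionSubgroup (⇑Q) c) | (g : ↥(Cfsg.isometryGroup (ZMod 3) (⇑Q))) ∈ Cfsg.reflectionsOfNorm (⇑Q) c} := by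
  have h5 : 5 ≤ Module.finrank (ZMod 3) (Fin n → ZMod 3) := by simpa using hn
  have hcl := CL.RC.isClass_of_iff (CL.RC.toR Q c)
    (D := {g : ↥(Cfsg.reflectionSubgroup (⇑Q) c) |
      (g : ↥(Cfsg.isometryGroup (ZMod 3) (⇑Q))) ∈ Cfsg.reflectionsOfNorm (⇑Q) c})
    (D' := {g : CL.RC.R Q c | (g : CL.Orth.O Q) ∈ CL.RC.Rset Q c})
    (fun g => CL.RC.mem_reflectionsOfNorm_iff c g.1)
    (CL.RC.isClass_R CL.RC.sq_zmod3 hQ h5 hc)
  have hq : Cfsg.IsQuasisimple (commutator ↥(Cfsg.reflectionSubgroup (⇑Q) c)) :=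
    CL.RC.isQuasisimple_congr (CL.OrthE.commutatorCongr (CL.RC.toR Q c))
      (CL.RC.isQuasisimple_commutator_R hQ h5 hc)
  have P := CL.TT.prim_of_isQuasisimple_commutator hcl hq
  refine ⟨hq, CL.TT.index_commutator_le_two hcl, ?_, P.prim⟩
  rw [CL.TT.fstar_eq_of_component hcl P.pCore_two P.pCore_three P.isComponent_commutator, sup_comm]

end Cfsg.Agent.S5360
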