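import Cfsg.Statements.S5361
import Cfsg.Agent.SPOR.TTPrim2

set_option autoImplicit false
open Cfsg

namespace Cfsg.Agent.S5361

/-- Let D be a conjugacy class of 3-transpositions generating the finite group G, and suppose the centre of G is trivial and some two different members of D commute. Then the following are equivalent: (1) the commutator subgroup of G is simple (possibly of prime order); (2) G acts primitively on D by conjugation; (3) the largest normal 2-subgroup and the largest normal 3-subgroup of G are trivial and the commuting graph of D is connected. -/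
theorem result {G : Type*} [Group G] [Finite G] {D : Set G} (hD : Cfsg.IsThreeTranspositionClass D) (hZ : Subgroup.center G = ⊥) (hw : ∃ a ∈ D, ∃ b ∈ D, a ≠ b ∧ Commute a b) : (IsSimpleGroup (commutator G) ↔ Cfsg.IsPrimitiveUnderConj D) ∧ (Cfsg.IsPrimitiveUnderConj D ↔ (Cfsg.pCore 2 G = ⊥ ∧ Cfsg.pCore 3 G = ⊥ ∧ (Cfsg.commutingGraph D).Connected)) := by
  have hG := CL.TT.isGroup_of_isClass hD
  have hD2 : ∃ a ∈ D, ∃ b ∈ D, a ≠ b := by
    obtain ⟨a, ha, b, hb, h, -⟩ := hw; exact ⟨a, ha, b, hb, h⟩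
  refine ⟨⟨fun hs => ?_, fun hp => (⟨hG, hp, hw⟩ : CL.TT.Prim D).isSimpleGroup_commutator hZ⟩,
    ⟨fun hp => ?_, fun ⟨h2, h3, hc⟩ => ?_⟩⟩
  · refine (CL.TT.prim_of_simple_commutator hD hs ?_).prim
    by_contra hn
    push Not at hn
    obtain ⟨a, ha, b, hb, hne, hab⟩ := hw
    obtain ⟨e, he, hae⟩ := CL.TT.exists_not_commute hD hD2 ha
    have h2 := CL.TT.orderOf_mul_eq_two hD.1 ha hb hne hab
    have h3 := CL.TT.orderOf_mul_eq_three hD.1 ha he hae
    let x : commutator G := ⟨a * b, CL.TT.mul_mem_commutator hD ha hb⟩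
    let y : commutator G := ⟨a * e, CL.TT.mul_mem_commutator hD ha he⟩
    have hx : orderOf x = 2 := by rw [← Subgroup.orderOf_coe]; exact h2
    have hy : orderOf y = 3 := by rw [← Subgroup.orderOf_coe]; exact h3
    have hN : (Subgroup.zpowers x).Normal := ⟨fun n hn' g => by rwa [hn g n, mul_inv_cancel_right]⟩
    rcases hs.eq_bot_or_eq_top_of_normal _ hN with h | h
    · rw [Subgroup.zpowers_eq_bot] at h
      rw [h, orderOf_one] at hx; omega
    · have := orderOf_dvd_of_mem_zpowers (h ▸ Subgroup.mem_top y : y ∈ Subgroup.zpowers x)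
      rw [hx, hy] at this; omega
  · have P : CL.TT.Prim D := ⟨hG, hp, hw⟩
    obtain ⟨a, ha, -⟩ := hw
    exact ⟨le_bot_iff.1 (hZ ▸ P.pCore_two), le_bot_iff.1 (hZ ▸ P.pCore_three),
      CL.TT.connected_iff.2 ⟨⟨a, ha⟩, P.cconn⟩⟩
  · obtain ⟨L, hL⟩ := CL.TT.exists_component hD hD2 (h2 ▸ bot_le) (h3 ▸ bot_le)
    exact (CL.TT.prim_of_component hD hL
      (CL.TT.index_le_two_of_cconn hD hL (CL.TT.connected_iff.1 hc).2)).prim

end Cfsg.Agent.S5361
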