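import Cfsg.Statements.S5363
import Cfsg.Agent.SPOR.ThreeTrans

set_option autoImplicit false
open Cfsg

namespace Cfsg.Agent.S5363

/-- Let D be a conjugation-invariant set of involutions of a finite group G. Then every product of two members of D has odd order or order 2 if and only if, for every a in D and every b in D different from a and commuting with a, the members of D commuting with a b are exactly those commuting with both a and b. -/
theorem result {G : Type*} [Group G] [Finite G] {D : Set G} (hinv : ∀ d ∈ D, orderOf d = 2) (hconj : ∀ g : G, ∀ d ∈ D, g * d * g⁻¹ ∈ D) : (∀ a ∈ D, ∀ b ∈ D, Odd (orderOf (a * b)) ∨ orderOf (a * b) = 2) ↔ ∀ a ∈ D, ∀ b ∈ D, b ≠ a → Commute a b → {y : G | y ∈ D ∧ Commute (a * b) y} = {y : G | y ∈ D ∧ Commute a y} ∩ {y : G | y ∈ D ∧ Commute b y} := by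
  have sq : ∀ d ∈ D, d * d = 1 := fun d hd => CL.TT.mul_self_of_orderOf (hinv d hd)
  have : Fact (Nat.Prime 2) := ⟨Nat.prime_two⟩
  constructor
  · intro h a ha b hb hba hab
    have key : ∀ a ∈ D, ∀ b ∈ D, b ≠ a → Commute a b → ∀ y ∈ D, Commute (a * b) y → Commute a y := by
      intro a ha b hb hba hab y hy hc
      have o2 : orderOf (a * b) = 2 := by
        apply orderOf_eq_prime ((CL.TT.commute_iff_sq (sq a ha) (sq b hb)).1 hab)
        intro h1
        apply hba
        rw [← CL.TT.inv_eq_of_orderOf (hinv a ha)]
        exact (inv_eq_of_mul_eq_one_right h1).symm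
      rcases h y hy a ha with h1 | h1
      · have hc2 : Commute (y * a) (a * b) :=
          hc.symm.mul_left ((Commute.refl a).mul_right hab)
        have e : y * b = (y * a) * (a * b) := by
          rw [mul_assoc, ← mul_assoc a, sq a ha, one_mul]
        have hco : (orderOf (y * a)).Coprime (orderOf (a * b)) := by
          rw [o2]; exact Nat.coprime_two_right.2 h1
        have ho := hc2.orderOf_mul_eq_mul_orderOf_of_coprime hco
        rw [← e, o2] at ho
        rcases h y hy b hb with h2 | h2
        · rw [ho] at h2
          exact absurd h2 (by simp)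
        · have : orderOf (y * a) = 1 := by omega
          rw [orderOf_eq_one_iff] at this
          apply Commute.symm
          rw [CL.TT.commute_iff_sq (sq y hy) (sq a ha), this, one_pow]
      · apply Commute.symm
        rw [CL.TT.commute_iff_sq (sq y hy) (sq a ha), ← h1, pow_orderOf_eq_one]
    ext y
    simp only [Set.mem_setOf_eq, Set.mem_inter_iff]
    constructor
    · rintro ⟨hy, hc⟩
      exact ⟨⟨hy, key a ha b hb hba hab y hy hc⟩,
        hy, key b hb a ha hba.symm hab.symm y hy (hab.eq ▸ hc)⟩
    · rintro ⟨⟨hy, h1⟩, -, h2⟩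
      exact ⟨hy, h1.mul_left h2⟩
  · intro h a ha b hb
    have mem : ∀ m : ℕ, a * (a * b) ^ m ∈ D ∧ a * (a * b) ^ (m + 1) ∈ D := by
      intro m
      induction m with
      | zero =>
        refine ⟨by simpa using ha, ?_⟩
        rw [zero_add, pow_one, ← mul_assoc, sq a ha, one_mul]; exact hb
      | succ m ih =>
        refine ⟨ih.2, ?_⟩
        have := hconj (a * b)⁻¹ _ ih.1
        convert this using 1
        rw [inv_inv, mul_inv_rev, CL.TT.inv_eq_of_orderOf (hinv a ha),
          CL.TT.inv_eq_of_orderOf (hinv b hb), pow_succ, pow_succ']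
        simp only [← mul_assoc]
        rw [sq a ha, one_mul, mul_assoc b a a, sq a ha, mul_one]
    rcases Nat.even_or_odd (orderOf (a * b)) with ⟨m, hm⟩ | ho
    · right
      have hpos := orderOf_pos (a * b)
      have hz1 : (a * b) ^ m ≠ 1 := by
        intro h1
        have := Nat.le_of_dvd (by omega) (orderOf_dvd_of_pow_eq_one h1)
        omega
      have hz2 : (a * b) ^ m * (a * b) ^ m = 1 := by rw [← pow_add, ← hm, pow_orderOf_eq_one]
      have ha' := (mem m).1
      have hza : Commute a ((a * b) ^ m) := by
        rw [CL.TT.commute_iff_sq (sq a ha) hz2, _root_.sq]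
        exact sq _ ha'
      have hzb : Commute ((a * b) ^ m) b := by
        have h1 : Commute ((a * b) ^ m) (a * (a * b)) :=
          hza.symm.mul_right ((Commute.refl (a * b)).pow_left m)
        rwa [← mul_assoc, sq a ha, one_mul] at h1
      have hne : a * (a * b) ^ m ≠ a := by
        intro h1
        exact hz1 (mul_eq_left.1 h1)
      have h3 := h a ha _ ha' hne ((Commute.refl a).mul_right hza)
      have h4 : b ∈ {y : G | y ∈ D ∧ Commute (a * (a * (a * b) ^ m)) y} := by
        refine ⟨hb, ?_⟩
        rw [← mul_assoc, sq a ha, one_mul]; exact hzb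
      rw [h3] at h4
      have h5 := (CL.TT.commute_iff_sq (sq a ha) (sq b hb)).1 h4.1.2
      have := Nat.le_of_dvd (by norm_num) (orderOf_dvd_of_pow_eq_one h5)
      omega
    · exact Or.inl ho

end Cfsg.Agent.S5363
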