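import Cfsg.Statements.S5364
import Cfsg.Agent.SPOR.ThreeTrans

set_option autoImplicit false
open Cfsg

namespace Cfsg.Agent.S5364

/-- Let D be a conjugation-invariant set of involutions of a finite group G and t an involution in the centre of G such that d t does not lie in D for any d in D. If the images of the members of D in G modulo the subgroup generated by t satisfy the 3-transposition order conditions (each has order 2 and any two have product of order at most 3), then so do the members of D. -/
theorem result {G : Type*} [Group G] [Finite G] {D : Set G} (hinv : ∀ d ∈ D, orderOf d = 2) (hconj : ∀ g : G, ∀ d ∈ D, g * d * g⁻¹ ∈ D) (t : G) (ht : orderOf t = 2) (htZ : t ∈ Subgroup.center G) (hDt : ∀ d ∈ D, d * t ∉ D) [(Subgroup.zpowers t).Normal] (himg : Cfsg.IsThreeTranspositionSet ((QuotientGroup.mk : G → G ⧸ Subgroup.zpowers t) '' D)) : Cfsg.IsThreeTranspositionSet D := by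
  refine ⟨hinv, fun d hd e he => ?_⟩
  have sq : ∀ d ∈ D, d * d = 1 := fun d hd => CL.TT.mul_self_of_orderOf (hinv d hd)
  have iv : ∀ d ∈ D, d⁻¹ = d := fun d hd => CL.TT.inv_eq_of_orderOf (hinv d hd)
  have hz : ∀ x ∈ Subgroup.zpowers t, x = 1 ∨ x = t := by
    intro x hx
    obtain ⟨k, rfl⟩ := Subgroup.mem_zpowers_iff.1 hx
    rw [← zpow_mod_orderOf, ht]
    rcases Int.emod_two_eq_zero_or_one k with h | h
    · left; simp [h]
    · right; simp [h]
  have hc : ∀ x, t * x = x * t := fun x => (Subgroup.mem_center_iff.1 htZ x).symm
  rcases himg.2 _ ⟨d, hd, rfl⟩ _ ⟨e, he, rfl⟩ with h | h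
  · left
    rw [← QuotientGroup.mk_mul, ← QuotientGroup.mk_pow, QuotientGroup.eq_one_iff] at h
    rcases hz _ h with h1 | h1
    · exact h1
    · exfalso
      apply hDt e he
      have := hconj d e he
      rw [iv d hd] at this
      convert this using 1
      rw [← hc, ← h1, _root_.sq]
      simp only [mul_assoc, sq e he, mul_one]
  · right
    rw [← QuotientGroup.mk_mul, ← QuotientGroup.mk_pow, QuotientGroup.eq_one_iff] at h
    rcases hz _ h with h1 | h1
    · exact h1
    · exfalso
      apply hDt e he
      have := hconj (d * e) d hd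
      rw [mul_inv_rev, iv d hd, iv e he] at this
      convert this using 1
      rw [← hc, ← h1]
      simp only [pow_succ, pow_zero, one_mul, mul_assoc, sq e he, mul_one]

end Cfsg.Agent.S5364
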