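import Cfsg.Statements.S5368
import Cfsg.Agent.SPOR.FT20
import Cfsg.Agent.SPOR.FiE8

set_option autoImplicit false
open scoped MatrixGroups
open Cfsg

namespace Cfsg.Agent.S5368

open CL.TT CL.TTU CL.FT Equiv in
theorem symM_three {G : Type*} [Group G] {D : Set G} (hD : IsThreeTranspositionClass D)
    (hs : IsSimpleGroup (commutator G)) (hc : ∀ x y : commutator G, x * y = y * x) : SymM D 3 := by
  have hE := fs_of_group (isGroup_of_isClass hD)
  have h2 := exists_ne_of_commutator_ne_bot hD ((Subgroup.nontrivial_iff_ne_bot _).1 hs.toNontrivial)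
  obtain ⟨d, hd, -⟩ := id h2
  obtain ⟨c, hc', n⟩ := exists_not_commute hD h2 hd
  have nd : d ≠ c := fun e => n (e ▸ Commute.refl _)
  obtain ⟨φ, i1, i2, -⟩ := exists_perm_hom_of_string hE.tt 2 ![d, c]
    (fun i => by fin_cases i <;> assumption) (fun i j => by
      fin_cases i <;> fin_cases j <;> simp [nd, nd.symm])
    (fun i j h => by fin_cases i <;> fin_cases j <;> simp_all)
    (fun i j h => by fin_cases i <;> fin_cases j <;> simp_all)
  refine ⟨φ, i1, Set.Subset.antisymm (fun x hx => ?_) ?_⟩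
  · let K := φ.range.subgroupOf (commutator G)
    have : K = ⊤ := (hs.eq_bot_or_eq_top_of_normal K ⟨fun a ha g => by
      rwa [hc g, mul_inv_cancel_right]⟩).resolve_left fun k => by
        have : (⟨d * c, mul_mem_commutator hD hd hc'⟩ : commutator G) ∈ K :=
          φ.range.mul_mem ⟨_, i2 0⟩ ⟨_, i2 1⟩
        rw [k] at this
        exact nd ((mul_eq_one_iff hD.1 hd).1 (congrArg Subtype.val this))
    have m : x * d ∈ φ.range :=
      (this ▸ Subgroup.mem_top _ : (⟨x * d, mul_mem_commutator hD hx hd⟩ : commutator G) ∈ K)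
    obtain ⟨σ, rfl⟩ := (mul_mem_cancel_right (show d ∈ φ.range from ⟨_, i2 0⟩)).1 m
    have k : ∀ σ : Perm (Fin 3), σ * σ = 1 → σ ≠ 1 → ∃ i j, i ≠ j ∧ σ = swap i j := by decide
    exact ⟨σ, k σ (i1 (by rw [map_mul, hE.sq hx, map_one])) fun e => hE.ne_one hx (by
      rw [e, map_one]), rfl⟩
  · rintro _ ⟨σ, hσ, rfl⟩
    exact swap_mem hE (fun i => by rw [i2]; fin_cases i <;> assumption) hσ

/-- Fischer's Theorem on 3-transposition groups. Let D be a conjugacy class of 3-transpositions generating the finite group G, and suppose the centre of G is trivial and the commutator subgroup of G is simple (possibly of prime order). Then one of the following holds: (1) G is isomorphic to a symmetric group with D going to the transpositions; (2) G is isomorphic to a symplectic group over the field with two elements with D going to the transvections (elements g with g − 1 of rank one); (3) G is isomorphic to a projective special unitary group over the field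 with four elements with D going to the images of the unitary transvections; (4) G is isomorphic to the full isometry group of a hyperbolic or elliptic quadratic form over the field with two elements with D going to the orthogonal transvections; (5) G is isomorphic to the subgroup of the isometry group of a non-degenerate quadratic form over the field with three elements generated by the reflections in vectors of a fixed non-zero norm, taken modulo its centre, with D going to the images of those reflections; (6) G with D is of type M(22), M(23) or M(24). -/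
theorem result {G : Type*} [Group G] [Finite G] {D : Set G} (hD : Cfsg.IsThreeTranspositionClass D) (hZ : Subgroup.center G = ⊥) (hsimple : IsSimpleGroup (commutator G)) : (∃ n : ℕ, ∃ e : G ≃* Equiv.Perm (Fin n), e '' D = {σ : Equiv.Perm (Fin n) | σ.IsSwap}) ∨ (∃ m : ℕ, ∃ e : G ≃* Matrix.symplecticGroup (Fin m) (ZMod 2), e '' D = {g : Matrix.symplecticGroup (Fin m) (ZMod 2) | ((g : Matrix (Fin m ⊕ Fin m) (Fin m ⊕ Fin m) (ZMod 2)) - 1).rank = 1}) ∨ (∃ (n : ℕ) (F : Type) (_ : Field F) (_ : Fintype F), Fintype.card F = 4 ∧ ∃ e : G ≃* Cfsg.PSU n F 2, e '' D = (QuotientGroup.mk : ↥(Cfsg.SU n F 2) → Cfsg.PSU n F 2) '' {g : ↥(Cfsg.SU n F 2) | (((g : Matrix.SpecialLinearGroup (Fin n) F) : Matrix (Fin n) (Fin n) F) - 1).rank = 1}) ∨ ((∃ m : ℕ, ∃ e : G ≃* ↥(Cfsg.isometryGroup (ZMod 2) (Cfsg.quadFormPlus m (ZMod 2))), e '' D = {g : ↥(Cfsg.isometryGroup (ZMod 2) (Cfsg.quadFormPlus m (ZMod 2))) | (((g : GL (Fin m ⊕ Fin m) (ZMod 2)) : Matrix (Fin m ⊕ Fin m)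 (Fin m ⊕ Fin m) (ZMod 2)) - 1).rank = 1}) ∨ (∃ m : ℕ, ∃ e : G ≃* ↥(Cfsg.isometryGroup (ZMod 2) (Cfsg.quadFormMinus m (ZMod 2) 1 1)), e '' D = {g : ↥(Cfsg.isometryGroup (ZMod 2) (Cfsg.quadFormMinus m (ZMod 2) 1 1)) | (((g : GL ((Fin m ⊕ Fin m) ⊕ Fin 2) (ZMod 2)) : Matrix ((Fin m ⊕ Fin m) ⊕ Fin 2) ((Fin m ⊕ Fin m) ⊕ Fin 2) (ZMod 2)) - 1).rank = 1})) ∨ (∃ n : ℕ, ∃ Q : QuadraticForm (ZMod 3) (Fin n → ZMod 3), (QuadraticMap.polarBilin Q).Nondegenerate ∧ ∃ c : ZMod 3, c ≠ 0 ∧ ∃ e : G ≃* ↥(Cfsg.reflectionSubgroup (⇑Q) c) ⧸ Subgroup.center ↥(Cfsg.reflectionSubgroup (⇑Q) c), e '' D = (QuotientGroup.mk : ↥(Cfsg.reflectionSubgroup (⇑Q) c) → _) '' {g : ↥(Cfsg.reflectionSubgroup (⇑Q) c) | (g : ↥(Cfsg.isometryGroup (ZMod 3) (⇑Q))) ∈ Cfsg.reflectionsOfNorm (⇑Q) c}) ∨ (Cfsg.IsOfTypeM22 G D ∨ Cfsg.IsOfTypeM23 G D ∨ Cfsg.IsOfTypeM24 G D) := by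
  have hG := CL.TT.isGroup_of_isClass hD
  by_cases hc : ∀ x y : commutator G, x * y = y * x
  · exact .inl ⟨3, (symM_three hD hsimple hc).equiv hD.2.2⟩
  push Not at hc
  have P := CL.FT.pr_of_prim (CL.TT.prim_of_simple_commutator hD hsimple hc)
  obtain ⟨d, hd, -⟩ := P.two
  rcases P.ty with ⟨n, hn, k⟩ | k | k | ⟨n, hn, k, -⟩ | k | k | k | k
  exacts [.inl ⟨n, k.equiv hn hG hZ⟩, .inr (.inl (k.equiv hG ⟨d, hd⟩ hZ)),
    .inr (.inr (.inr (.inl ((k.equiv hG hZ).imp (fun ⟨m, _, h⟩ => ⟨m, h⟩) fun ⟨m, _, h⟩ => ⟨m, h⟩)))),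
    .inr (.inr (.inl ⟨n, CL.F4, inferInstance, inferInstance, rfl,
      CL.FT.tvs_eq n ▸ k.equiv hn hG P hZ⟩)),
    .inr (.inr (.inr (.inr (.inl (let ⟨n, _, h⟩ := k.equiv hG hZ; ⟨n, h⟩))))),
    .inr (.inr (.inr (.inr (.inr (.inl (CL.FiL.type22 ⟨k, hD.2.2, hZ⟩)))))),
    .inr (.inr (.inr (.inr (.inr (.inr (.inl (CL.FiL.type23 ⟨k, hD.2.2, hZ⟩))))))),
    .inr (.inr (.inr (.inr (.inr (.inr (.inr (CL.FiE.type24 ⟨k, hD.2.2, hZ⟩)))))))]

end Cfsg.Agent.S5368
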