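import Cfsg.Statements.S5369
import Cfsg.Agent.SPOR.FT20
import Cfsg.Agent.SPOR.FiE8

set_option autoImplicit false
open scoped MatrixGroups
open Cfsg

namespace Cfsg.Agent.S5369

/-- Let D be a conjugation-invariant generating set of 3-transpositions of the finite group G on which G acts primitively by conjugation, with trivial centre; let d be a member of D commuting with some other member of D (width at least 2), and let H be the subgroup generated by the members of D other than d commuting with d; suppose the largest normal 3-subgroup and the largest normal 2-subgroup of H are central in H. Then one of the following holds: G is isomorphic to a symmetric group of degree at least 7 with D going to the transpositions; G is isomorphic to the full isometry group of a hyperbolic or elliptic quadratic form in dimension at least 6 over the field with two elements with D going to the orthogonal transvections; G is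 isomorphic to the reflection group of a non-degenerate quadratic form in dimension at least 5 over the field with three elements for one non-zero norm, modulo its centre, with D going to the images of those reflections; or G with D is of type M(22), M(23) or M(24). -/
theorem result {G : Type*} [Group G] [Finite G] {D : Set G} (hD : Cfsg.IsThreeTranspositionGroup D) (hprim : Cfsg.IsPrimitiveUnderConj D) (hZ : Subgroup.center G = ⊥) (d : G) (hd : d ∈ D) (hw : ∃ b ∈ D, b ≠ d ∧ Commute d b) (h3 : Cfsg.pCore 3 ↥(Subgroup.closure {y : G | y ∈ D ∧ y ≠ d ∧ Commute d y}) ≤ Subgroup.center ↥(Subgroup.closure {y : G | y ∈ D ∧ y ≠ d ∧ Commute d y})) (h2 : Cfsg.pCore 2 ↥(Subgroup.closure {y : G | y ∈ D ∧ y ≠ d ∧ Commute d y}) ≤ Subgroup.center ↥(Subgroup.closure {y : G | y ∈ D ∧ y ≠ d ∧ Commute d y})) : (∃ n : ℕ, 7 ≤ n ∧ ∃ e : G ≃* Equiv.Perm (Fin n), e '' D = {σ : Equiv.Perm (Fin n) | σ.IsSwap}) ∨ ((∃ m : ℕ, 3 ≤ m ∧ ∃ e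 : G ≃* ↥(Cfsg.isometryGroup (ZMod 2) (Cfsg.quadFormPlus m (ZMod 2))), e '' D = {g : ↥(Cfsg.isometryGroup (ZMod 2) (Cfsg.quadFormPlus m (ZMod 2))) | (((g : GL (Fin m ⊕ Fin m) (ZMod 2)) : Matrix (Fin m ⊕ Fin m) (Fin m ⊕ Fin m) (ZMod 2)) - 1).rank = 1}) ∨ (∃ m : ℕ, 2 ≤ m ∧ ∃ e : G ≃* ↥(Cfsg.isometryGroup (ZMod 2) (Cfsg.quadFormMinus m (ZMod 2) 1 1)), e '' D = {g : ↥(Cfsg.isometryGroup (ZMod 2) (Cfsg.quadFormMinus m (ZMod 2) 1 1)) | (((g : GL ((Fin m ⊕ Fin m) ⊕ Fin 2) (ZMod 2)) : Matrix ((Fin m ⊕ Fin m) ⊕ Fin 2) ((Fin m ⊕ Fin m) ⊕ Fin 2) (ZMod 2)) - 1).rank = 1})) ∨ (∃ n : ℕ, 5 ≤ n ∧ ∃ Q : QuadraticForm (ZMod 3) (Fin n → ZMod 3), (QuadraticMap.polarBilin Q).Nondegenerate ∧ ∃ c : ZMod 3, c ≠ 0 ∧ ∃ e : G ≃* ↥(Cfsg.reflectionSubgroup (⇑Q) c) ⧸ Subgroup.center ↥(Cfsg.reflectionSubgroup (⇑Q) c), e '' D = (QuotientGroup.mk : ↥(Cfsg.reflectionSubgroup (⇑Q) c) → _) '' {g : ↥(Cfsg.reflectionSubgroup (⇑Q) c) | (g : ↥(Cfsg.isometryGroup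 (ZMod 3) (⇑Q))) ∈ Cfsg.reflectionsOfNorm (⇑Q) c}) ∨ (Cfsg.IsOfTypeM22 G D ∨ Cfsg.IsOfTypeM23 G D ∨ Cfsg.IsOfTypeM24 G D) := by
  obtain ⟨b, hb, n, c⟩ := hw
  have P := CL.FT.pr_of_prim ⟨hD, hprim, d, hd, b, hb, n.symm, c⟩
  obtain ⟨z, hz, k⟩ := P.far_nb hd ⟨hb, n, c⟩
  have N := P.nb hd (CL.FT.not_allTw_of_pCore (P.fs.nb d) (P.r3.nb d hd) ⟨b, ⟨hb, n, c⟩, z, hz, k⟩ h2)
    (CL.FT.not_allTh_of_pCore (P.fs.nb d) (P.r3.nb d hd) ⟨b, hb, n, c⟩ h3)
  rcases P.master hd N with ⟨n, hn, k⟩ | k | k | k | k | k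
  exacts [.inl ⟨n, hn, k.equiv (by omega) hD hZ⟩, .inr (.inl (k.equiv hD hZ)),
    .inr (.inr (.inl (k.equiv hD hZ))), .inr (.inr (.inr (.inl (CL.FiL.type22 ⟨k, hD.2.2, hZ⟩)))),
    .inr (.inr (.inr (.inr (.inl (CL.FiL.type23 ⟨k, hD.2.2, hZ⟩))))),
    .inr (.inr (.inr (.inr (.inr (CL.FiE.type24 ⟨k, hD.2.2, hZ⟩)))))]

end Cfsg.Agent.S5369
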