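import Cfsg.Statements.S5387
import Mathlib
import Cfsg.Agent.S2088
import Cfsg.Agent.FGS.SchurCover

set_option autoImplicit false
open Cfsg

namespace Cfsg.Agent.S5387

open CL.Schur

abbrev AA := Multiplicative (ZMod 3 × ZMod 4 × ZMod 4)

theorem card_sq : Nat.card (powMonoidHom 2 : AA →* AA).range = 12 := by
  have : Nat.card (powMonoidHom 2 : AA →* AA).range =
      (Finset.univ.image fun a : ZMod 3 × ZMod 4 × ZMod 4 => a + a).card := by
    rw [← Nat.card_eq_finsetCard]
    refine Nat.card_congr (Equiv.subtypeEquiv Multiplicative.toAdd ?_)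
    intro a
    simp only [MonoidHom.mem_range, powMonoidHom_apply, Finset.mem_image, Finset.mem_univ, true_and]
    constructor
    · rintro ⟨x, rfl⟩
      exact ⟨x.toAdd, by rw [pow_two, toAdd_mul]⟩
    · rintro ⟨x, hx⟩
      refine ⟨Multiplicative.ofAdd x, ?_⟩
      apply Multiplicative.toAdd.injective
      rw [pow_two, toAdd_mul, toAdd_ofAdd, hx]
  rw [this]; decide

theorem key {Γ Q L : Type*} [Group Γ] [Group Q] [Finite Q] [Group L] [Finite L] {σ : Γ →* Q}
    (h : IsCover σ) (e : σ.ker ≃* AA) (h₁ : Cfsg.IsQuasisimple L)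
    (hc₁ : Nat.card (Subgroup.center L) = 4) (he₁ : ∀ x ∈ Subgroup.center L, x * x = 1)
    (e₁ : L ⧸ Subgroup.center L ≃* Q) :
    ∃ η : Γ →* L, Function.Surjective η ∧
      η.ker = (powMonoidHom 2 : AA →* AA).range.map (σ.ker.subtype.comp e.symm.toMonoidHom) := by
  have := h.finite
  let ξ : L →* Q := e₁.toMonoidHom.comp (QuotientGroup.mk' _)
  have hker : ξ.ker = Subgroup.center L := by
    ext x
    simp [ξ, MonoidHom.mem_ker]
  have hsurj : Function.Surjective ξ := e₁.surjective.comp (QuotientGroup.mk'_surjective _)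
  have hξ : IsCentralExt ξ := ⟨hsurj, hker.le⟩
  have hst := hξ.isStem_of_perfect h₁.1
  have hQ : Group.IsPerfect Q := by
    have := h₁.1
    exact Group.IsPerfect.ofSurjective hsurj
  obtain ⟨η, hη⟩ := h.exists_lift_of_perfect hQ (MonoidHom.id Q) hξ
  rw [MonoidHom.id_comp] at hη
  have hs := surjective_of_over_stem h.stem.1 hst η hη
  refine ⟨η, hs, ?_⟩
  symm
  apply Subgroup.eq_of_le_of_card_ge
  · rintro _ ⟨_, ⟨a, rfl⟩, rfl⟩
    rw [MonoidHom.mem_ker, powMonoidHom_apply, map_pow, map_pow, pow_two]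
    apply he₁
    rw [← hker, MonoidHom.mem_ker, ← MonoidHom.comp_apply, hη]
    exact (e.symm a).2
  · have hinj : Function.Injective (σ.ker.subtype.comp e.symm.toMonoidHom) :=
      Subtype.val_injective.comp e.symm.injective
    rw [Subgroup.card_map_of_injective hinj, card_sq]
    have a1 := card_eq_card_ker_mul hs
    have a2 := card_eq_card_ker_mul h.stem.1
    have a3 := card_eq_card_ker_mul hsurj
    rw [hker, hc₁] at a3
    have a4 : Nat.card σ.ker = 48 := by
      rw [Nat.card_congr e.toEquiv]; simp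
    rw [a4] at a2
    have hp : 0 < Nat.card Q := Nat.card_pos
    rw [a3, a2] at a1
    have : Nat.card η.ker = 12 := by
      apply Nat.eq_of_mul_eq_mul_right hp
      apply Nat.eq_of_mul_eq_mul_left (show 0 < 4 by norm_num)
      linarith
    omega

/-- Up to isomorphism there is at most one quasisimple group whose centre is elementary abelian of order 4 and whose central quotient is isomorphic to the projective special linear group of dimension 3 over the field with four elements: any two such groups are isomorphic. -/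
theorem result {L₁ L₂ : Type*} [Group L₁] [Finite L₁] [Group L₂] [Finite L₂] (F : Type) [Field F] [Fintype F] (hF : Fintype.card F = 4) (h₁ : Cfsg.IsQuasisimple L₁) (h₂ : Cfsg.IsQuasisimple L₂) (hc₁ : Nat.card (Subgroup.center L₁) = 4) (hc₂ : Nat.card (Subgroup.center L₂) = 4) (he₁ : ∀ x ∈ Subgroup.center L₁, x * x = 1) (he₂ : ∀ x ∈ Subgroup.center L₂, x * x = 1) (e₁ : L₁ ⧸ Subgroup.center L₁ ≃* Matrix.ProjectiveSpecialLinearGroup (Fin 3) F) (e₂ : L₂ ⧸ Subgroup.center L₂ ≃* Matrix.ProjectiveSpecialLinearGroup (Fin 3) F) : Nonempty (L₁ ≃* L₂) := by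
  have hA := Cfsg.Agent.S2088.result hF
  have : Finite (Matrix.ProjectiveSpecialLinearGroup (Fin 3) F) := Finite.of_equiv _ e₁.toEquiv
  obtain ⟨Γ, _, _, σ, h⟩ := exists_cover (Matrix.ProjectiveSpecialLinearGroup (Fin 3) F)
  obtain ⟨e⟩ := h.nonempty_equiv hA
  obtain ⟨η₁, s₁, k₁⟩ := key h e h₁ hc₁ he₁ e₁
  obtain ⟨η₂, s₂, k₂⟩ := key h e h₂ hc₂ he₂ e₂
  exact ⟨(QuotientGroup.quotientKerEquivOfSurjective η₁ s₁).symm.trans
    ((QuotientGroup.quotientMulEquivOfEq (k₁.trans k₂.symm)).trans
      (QuotientGroup.quotientKerEquivOfSurjective η₂ s₂))⟩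

end Cfsg.Agent.S5387
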