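import Cfsg.Statements.S5394
import Mathlib
import Cfsg.Agent.SPOR.GolayClasses

set_option autoImplicit false
open Cfsg

namespace Cfsg.Agent.S5394

open CL CL.K CL.Orb CL.Enc CL.Golay MulAction

/-- The automorphism group of the length-24 code built from the squares modulo 23 has exactly two conjugacy classes of involutions: an involution either fixes exactly the eight points of an octad or has no fixed points, both kinds occur, and any two involutions of the same kind are conjugate in the group. -/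
theorem result : (∀ g ∈ Cfsg.M24, orderOf g = 2 → (Finset.univ.filter fun p => g p = p) ∈ Cfsg.octads ∨ ∀ p, g p ≠ p) ∧ (∃ g ∈ Cfsg.M24, orderOf g = 2 ∧ (Finset.univ.filter fun p => g p = p) ∈ Cfsg.octads) ∧ (∃ g ∈ Cfsg.M24, orderOf g = 2 ∧ ∀ p, g p ≠ p) ∧ ∀ g ∈ Cfsg.M24, ∀ h ∈ Cfsg.M24, orderOf g = 2 → orderOf h = 2 → ((∀ p, g p ≠ p) ↔ (∀ p, h p ≠ p)) → ∃ k ∈ Cfsg.M24, k * g * k⁻¹ = h := by
  have hA : fixS (pm c2A) ∈ octads := R_2A.setOf_fixM ▸ setOf_mem_of_isOct (by decide +kernel)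
  refine ⟨fun g hg h2 => ?_, ⟨_, mem_2A, orderOf_2A, hA⟩,
    ⟨_, mem_2B, orderOf_2B, card_fixS_eq_zero.1 card_fixS_2B⟩, fun g hg h hh h2 h2' e => ?_⟩
  · rcases invol_class hg h2 with ⟨c, hc, rfl⟩ | h
    · left
      show fixS _ ∈ octads
      rw [fixS_conj, smul_mem_octads hc]
      exact hA
    · exact Or.inr (card_fixS_eq_zero.1 (h.card_fixS.trans card_fixS_2B))
  · rw [← card_fixS_eq_zero, ← card_fixS_eq_zero] at e
    by_cases h0 : (fixS g).card = 0
    · exact (conjTo_2B hg h2 h0).symm.trans (conjTo_2B hh h2' (e.1 h0))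
    · exact (conjTo_2A hg h2 h0).symm.trans (conjTo_2A hh h2' (mt e.2 h0))

end Cfsg.Agent.S5394
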