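import Cfsg.Statements.S5395
import Cfsg.Agent.CHAR.Linear

set_option autoImplicit false
open Cfsg

namespace Cfsg.Agent.S5395

/-- For a finite extraspecial 2-group E, an automorphism of E that induces the identity on E modulo its centre is inner (so these automorphisms form exactly the inner automorphism group, an elementary abelian 2-group of order |E|/2). -/
theorem result {E : Type*} [Group E] [Finite E] (hE : Cfsg.IsExtraspecial 2 E) (φ : E ≃* E) (hφ : ∀ x : E, φ x * x⁻¹ ∈ Subgroup.center E) : ∃ g : E, ∀ x : E, φ x = g * x * g⁻¹ := by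
  classical
  obtain ⟨⟨-, -, hc⟩, h2⟩ := hE
  have : Fact (Nat.Prime 2) := ⟨Nat.prime_two⟩
  have hcyc : IsCyclic (Subgroup.center E) := isCyclic_of_prime_card h2
  -- an injective character of the centre
  obtain ⟨ι, hι⟩ : ∃ ι : Subgroup.center E →* ℂˣ, Function.Injective ι := by
    exact CL.Char.exists_injective_hom_of_isCyclic
  have hcomm : ∀ x y : E, x * y * x⁻¹ * y⁻¹ ∈ Subgroup.center E := fun x y => by
    rw [← hc]
    exact Subgroup.commutator_mem_commutator (Subgroup.mem_top x) (Subgroup.mem_top y)
  -- a map `E → centre` of the form `x ↦ ψ x * x⁻¹` gives a character of the abelianization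
  let F : (ψ : E ≃* E) → (∀ x : E, ψ x * x⁻¹ ∈ Subgroup.center E) → (Abelianization E →* ℂˣ) :=
    fun ψ hψ => Abelianization.lift (ι.comp
      { toFun := fun x => ⟨ψ x * x⁻¹, hψ x⟩
        map_one' := by ext; simp
        map_mul' := fun x y => by
          ext
          have := Subgroup.mem_center_iff.1 (hψ y) x⁻¹
          simp only [map_mul, mul_inv_rev, Subgroup.coe_mul]
          rw [mul_assoc (ψ x) x⁻¹, this]
          simp only [mul_assoc] })
  have hF : ∀ ψ hψ ψ' hψ', F ψ hψ = F ψ' hψ' → ∀ x, ψ x = ψ' x := by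
    intro ψ hψ ψ' hψ' h x
    have h1 := DFunLike.congr_fun h (Abelianization.of x)
    simp only [F, Abelianization.lift_apply_of, MonoidHom.comp_apply] at h1
    have h3 := congrArg Subtype.val (hι h1)
    exact mul_right_cancel h3
  let c : E → (Abelianization E →* ℂˣ) := fun g => F (MulAut.conj g) (fun x => hcomm g x)
  have hcc : ∀ g g' : E, c g = c g' ↔ (g : E ⧸ Subgroup.center E) = g' := by
    intro g g'
    rw [QuotientGroup.eq, Subgroup.mem_center_iff]
    constructor
    · intro h x
      have := hF _ _ _ _ h x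
      simp only [MulAut.conj_apply] at this
      calc x * (g⁻¹ * g') = g⁻¹ * (g * x * g⁻¹) * g' := by group
        _ = g⁻¹ * (g' * x * g'⁻¹) * g' := by rw [this]
        _ = _ := by group
    · intro h
      have : MulAut.conj g = MulAut.conj g' := by
        ext x
        simp only [MulAut.conj_apply]
        calc g * x * g⁻¹ = g * (x * (g⁻¹ * g')) * g'⁻¹ := by group
          _ = g * (g⁻¹ * g' * x) * g'⁻¹ := by rw [h x]
          _ = _ := by group
      simp only [c]
      congr 1
  let c' : E ⧸ Subgroup.center E → (Abelianization E →* ℂˣ) :=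
    Quotient.lift c fun a b hab => (hcc a b).2 (Quotient.sound hab)
  have hinj : Function.Injective c' := by
    rintro ⟨a⟩ ⟨b⟩ hab
    exact (hcc a b).1 hab
  have hcard : Nat.card (Abelianization E →* ℂˣ) = Nat.card (E ⧸ Subgroup.center E) := by
    have : NeZero (Monoid.exponent (Abelianization E)) := ⟨Monoid.exponent_ne_zero_of_finite⟩
    rw [CommGroup.card_monoidHom_of_hasEnoughRootsOfUnity, ← hc]
    rfl
  have hfin : Finite (Abelianization E →* ℂˣ) :=
    Nat.finite_of_card_ne_zero (by rw [hcard]; exact Nat.card_pos.ne')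
  have hbij := (Nat.bijective_iff_injective_and_card c').2 ⟨hinj, hcard.symm⟩
  obtain ⟨⟨g⟩, hg⟩ := hbij.2 (F φ hφ)
  exact ⟨g, fun x => (hF _ _ _ _ hg x).symm⟩

end Cfsg.Agent.S5395
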