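import Cfsg.Statements.S5396
import Cfsg.Agent.PLOC.ESClass

set_option autoImplicit false
open Cfsg

namespace Cfsg.Agent.S5396

theorem sSup_eq {E : Type*} [Group E] [Finite E] {r : ℕ}
    (h : ∀ k, Cfsg.PRankLE 2 k E ↔ r ≤ k) (hr : 1 ≤ r) :
    sSup {k : ℕ | ∃ A : Subgroup E, Cfsg.IsElementaryAbelian 2 A ∧ Nat.card A = 2 ^ k} = r := by
  refine IsGreatest.csSup_eq ⟨?_, ?_⟩
  · have h1 : ¬ Cfsg.PRankLE 2 (r - 1) E := by rw [h]; omega
    simp only [Cfsg.PRankLE, not_forall, not_le] at h1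
    obtain ⟨A, hA1, hA2, hA3⟩ := h1
    refine ⟨A, ⟨hA1, hA2⟩, ?_⟩
    have hp : IsPGroup 2 A := fun a => ⟨1, Subtype.ext (by simpa using hA2 a a.2)⟩
    obtain ⟨k, hk⟩ := IsPGroup.iff_card.mp hp
    have h2 := (h r).mpr le_rfl A hA1 hA2
    rw [hk, Nat.pow_le_pow_iff_right (by norm_num)] at h2
    rw [hk, Nat.pow_lt_pow_iff_right (by norm_num)] at hA3
    rw [hk, show k = r by omega]
  · rintro k ⟨A, hA, hk⟩
    have h2 := (h r).mpr le_rfl A hA.1 hA.2
    rwa [hk, Nat.pow_le_pow_iff_right (by norm_num)] at h2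

theorem aux {V : Type} [AddCommGroup V] [Module (ZMod 2) V] [Finite V]
    (Q : QuadraticForm (ZMod 2) V) (hQ : (QuadraticMap.polarBilin Q).Nondegenerate) {n : ℕ}
    (hn : 1 ≤ n) (hd : Module.finrank (ZMod 2) V = 2 * n) {r : ℕ}
    (hr : (CL.Orth.IsPlus Q ∧ r = n + 1) ∨ (¬ CL.Orth.IsPlus Q ∧ r = n)) :
    ∃ (E : Type) (_ : Group E) (_ : Finite E), Cfsg.IsExtraspecial 2 E ∧
      Nat.card E = 2 ^ (2 * n + 1) ∧ sSup {k : ℕ | ∃ A : Subgroup E,
        Cfsg.IsElementaryAbelian 2 A ∧ Nat.card A = 2 ^ k} = r := by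
  obtain ⟨E, _, _, z, h, e, he⟩ := CL.ES.exists_zdata_of_quadraticForm Q
  have hc := h.center_eq_of_isometry hQ e he
  have hd' : Module.finrank (ZMod 2) h.V = 2 * n := e.finrank_eq.symm.trans hd
  have hcard : Nat.card E = 2 ^ (2 * n + 1) := by rw [h.card_eq_pow, hd']
  refine ⟨E, inferInstance, inferInstance, h.isExtraspecial hc fun hcomm => ?_, hcard, ?_⟩
  · have h1 : Nat.card (Subgroup.center E) = 2 := hc ▸ h.card_zpowers
    rw [Subgroup.center_eq_top_iff.mpr hcomm, Subgroup.card_top, hcard] at h1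
    have := Nat.pow_right_injective (le_refl 2) (h1.trans (pow_one 2).symm)
    omega
  · rcases hr with ⟨h1, rfl⟩ | ⟨h1, rfl⟩
    · exact sSup_eq (fun k => h.pRankLE_iff_of_isPlus hc hd'
        ((CL.Orth.isPlus_congr e he).mp h1)) (by omega)
    · exact sSup_eq (fun k => h.pRankLE_iff_of_not_isPlus hc hd'
        fun h2 => h1 ((CL.Orth.isPlus_congr e he).mpr h2)) hn

/-- For every n ≥ 1 there exist finite extraspecial 2-groups of order 2^(2n+1) whose 2-rank (the largest rank of an elementary abelian subgroup) is n, and ones whose 2-rank is n + 1 (so for each such order there are two non-isomorphic extraspecial 2-groups, told apart by their 2-rank). -/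
theorem result (n : ℕ) (hn : 1 ≤ n) : ∀ r ∈ ({n, n + 1} : Set ℕ), ∃ (E : Type) (_ : Group E) (_ : Finite E), Cfsg.IsExtraspecial 2 E ∧ Nat.card E = 2 ^ (2 * n + 1) ∧ sSup {k : ℕ | ∃ A : Subgroup E, Cfsg.IsElementaryAbelian 2 A ∧ Nat.card A = 2 ^ k} = r := by
  rintro r (rfl | rfl)
  · obtain ⟨m, rfl⟩ : ∃ m, r = m + 1 := ⟨r - 1, by omega⟩
    exact aux (CL.Orth.QMinus m (ZMod 2) 1 1) (CL.Orth.QMinus_nondeg m _ CL.ES.aniso_two) hn
      (by simp; ring) (Or.inr ⟨CL.Orth.not_isPlus_QMinus CL.ES.aniso_two, rfl⟩)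
  · exact aux (CL.Orth.QPlus n (ZMod 2)) (CL.Orth.QPlus_nondeg n _) hn (by simp; ring)
      (Or.inl ⟨CL.Orth.isPlus_QPlus n, rfl⟩)

end Cfsg.Agent.S5396
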