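import Cfsg.Statements.S5401
import Cfsg.Agent.SPOR.FiL4
import Cfsg.Agent.SPOR.FiA10

set_option autoImplicit false
open Cfsg

namespace Cfsg.Agent.S5401

/-- Existence of the Fischer 3-transposition groups: there exist finite groups generated by a conjugacy class of 3-transpositions on which they act primitively that are of type M(22), of type M(23), and of type M(24) respectively. -/
theorem result : (∃ (X : Type) (_ : Group X) (_ : Finite X) (E : Set X), Cfsg.IsThreeTranspositionClass E ∧ Cfsg.IsPrimitiveUnderConj E ∧ Cfsg.IsOfTypeM22 X E) ∧ (∃ (X : Type) (_ : Group X) (_ : Finite X) (E : Set X), Cfsg.IsThreeTranspositionClass E ∧ Cfsg.IsPrimitiveUnderConj E ∧ Cfsg.IsOfTypeM23 X E) ∧ (∃ (X : Type) (_ : Group X) (_ : Finite X) (E : Set X), Cfsg.IsThreeTranspositionClass E ∧ Cfsg.IsPrimitiveUnderConj E ∧ Cfsg.IsOfTypeM24 X E) := by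
  have g := CL.FiA.gp24
  obtain ⟨p, R⟩ := CL.Fi.D24.exists_real CL.Fi.D24.is24
  exact ⟨⟨Spor.Fi22, inferInstance, CL.FiA.gp22.finite, _, CL.Fi22.isThreeTranspositionClass,
      CL.Fi22.isPrimitiveUnderConj, CL.FiL.type22 CL.FiL.fi_22⟩,
    ⟨Spor.Fi23, inferInstance, CL.FiA.gp23.finite, _, CL.Fi23.isThreeTranspositionClass,
      CL.Fi23.isPrimitiveUnderConj, CL.FiL.type23 CL.FiL.fi_23⟩,
    ⟨Spor.Fi24, inferInstance, g.finite, _, CL.Fi24.isThreeTranspositionClass,
      CL.Fi24.isPrimitiveUnderConj,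
      CL.FiL.type24_of CL.Fi.D24.mod R ⟨CL.Fi.D24.is24, g.gen, g.cen⟩⟩⟩

end Cfsg.Agent.S5401
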