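import Cfsg.Statements.S5405
import Cfsg.Agent.INV.Rep.OrthH1
import Cfsg.Agent.KSG.OrthF2

set_option autoImplicit false
open Cfsg

namespace Cfsg.Agent.S5405

open CL.Orth CL.OrthH1 QuadraticMap

/-- vector with given binary code -/
def dec0 (c : ℕ) : (Fin 1 ⊕ Fin 1) ⊕ Fin 2 → ZMod 2 := fun k => if c.testBit ((Sum.elim (Sum.elim (fun i => i.val) (fun i => 1 + i.val)) (fun i => 2 + i.val) : (Fin 1 ⊕ Fin 1) ⊕ Fin 2 → ℕ) k) then 1 else 0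
/-- basis -/
def u0 (i : Fin 4) : (Fin 1 ⊕ Fin 1) ⊕ Fin 2 → ZMod 2 := dec0 (([5, 12, 6, 8] : List ℕ).getD i 0)
/-- dual basis -/
def d0 (i : Fin 4) : (Fin 1 ⊕ Fin 1) ⊕ Fin 2 → ZMod 2 := dec0 (([2, 11, 1, 15] : List ℕ).getD i 0)
/-- height -/
def ht0 (w : (Fin 1 ⊕ Fin 1) ⊕ Fin 2 → ZMod 2) : ℕ := ([0, 0, 0, 1, 1, 0, 0, 0, 0, 1, 1, 0, 0, 1, 1, 0] : List ℕ).getD (1 * (w (.inl (.inl 0))).val + 2 * (w (.inl (.inr 0))).val + 4 * (w (.inr 0)).val + 8 * (w (.inr 1)).val) 0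
/-- vector from coordinates -/
def mk0 (a0 a1 a2 a3 : ZMod 2) : (Fin 1 ⊕ Fin 1) ⊕ Fin 2 → ZMod 2 := Sum.elim (Sum.elim ![a0] ![a1]) ![a2, a3]

theorem gen0 : ∀ a0 a1 a2 a3 : ZMod 2, QMinus 1 (ZMod 2) 1 1 (mk0 a0 a1 a2 a3) = 1 →
    (∃ i, mk0 a0 a1 a2 a3 = u0 i) ∨ ∃ i, polar (QMinus 1 (ZMod 2) 1 1) (u0 i) (mk0 a0 a1 a2 a3) = 1 ∧
      ht0 (mk0 a0 a1 a2 a3 + u0 i) < ht0 (mk0 a0 a1 a2 a3) := by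
  decide +kernel

theorem main0 (f : commutator (O (QMinus 1 (ZMod 2) 1 1)) → ((Fin 1 ⊕ Fin 1) ⊕ Fin 2 → ZMod 2))
    (hf : ∀ g h, f (g * h) = f g + g.1.1 (f h)) : ∃ v, ∀ g, f g = g.1.1 v - v := by
  have hQ : (polarBilin (QMinus 1 (ZMod 2) 1 1)).Nondegenerate := QMinus_nondeg _ _ zmod2_aniso
  refine h1_vanish hQ (reflGroup_eq_top' hQ (Or.inr (Or.inr (not_isPlus_QMinus zmod2_aniso)))) u0 d0 0 1 (by decide) (by decide +kernel) (by decide +kernel)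
    (by decide +kernel) (by decide +kernel) ht0 (fun w => ?_) f hf
  have : w = mk0 (w (.inl (.inl 0))) (w (.inl (.inr 0))) (w (.inr 0)) (w (.inr 1)) := by
    funext k; revert k; rintro ((k | k) | k) <;> fin_cases k <;> rfl
  rw [this]
  exact gen0 _ _ _ _

/-- vector with given binary code -/
def dec1 (c : ℕ) : (Fin 2 ⊕ Fin 2) ⊕ Fin 2 → ZMod 2 := fun k => if c.testBit ((Sum.elim (Sum.elim (fun i => i.val) (fun i => 2 + i.val)) (fun i => 4 + i.val) : (Fin 2 ⊕ Fin 2) ⊕ Fin 2 → ℕ) k) then 1 else 0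
/-- basis -/
def u1 (i : Fin 6) : (Fin 2 ⊕ Fin 2) ⊕ Fin 2 → ZMod 2 := dec1 (([50, 38, 35, 18, 10, 57] : List ℕ).getD i 0)
/-- dual basis -/
def d1 (i : Fin 6) : (Fin 2 ⊕ Fin 2) ⊕ Fin 2 → ZMod 2 := dec1 (([21, 1, 43, 26, 45, 47] : List ℕ).getD i 0)
/-- height -/
def ht1 (w : (Fin 2 ⊕ Fin 2) ⊕ Fin 2 → ZMod 2) : ℕ := ([0, 0, 0, 0, 0, 1, 0, 3, 0, 0, 0, 1, 0, 2, 3, 0, 2, 1, 0, 3, 1, 0, 5, 0, 1, 2, 0, 0, 4, 0, 0, 1, 1, 2, 3, 0, 4, 0, 0, 0, 2, 1, 0, 0, 1, 0, 0, 6, 4, 1, 0, 1, 1, 0, 3, 0, 1, 0, 0, 0, 2, 0, 0, 3] : List ℕ).getD (1 * (w (.inl (.inl 0))).val + 2 * (w (.inl (.inl 1))).val + 4 * (w (.inl (.inr 0))).val + 8 * (w (.inl (.inr 1))).val + 16 * (w (.inr 0)).val + 32 * (w (.inr 1)).val) 0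
/-- vector from coordinates -/
def mk1 (a0 a1 a2 a3 a4 a5 : ZMod 2) : (Fin 2 ⊕ Fin 2) ⊕ Fin 2 → ZMod 2 := Sum.elim (Sum.elim ![a0, a1] ![a2, a3]) ![a4, a5]

theorem gen1 : ∀ a0 a1 a2 a3 a4 a5 : ZMod 2, QMinus 2 (ZMod 2) 1 1 (mk1 a0 a1 a2 a3 a4 a5) = 1 →
    (∃ i, mk1 a0 a1 a2 a3 a4 a5 = u1 i) ∨ ∃ i, polar (QMinus 2 (ZMod 2) 1 1) (u1 i) (mk1 a0 a1 a2 a3 a4 a5) = 1 ∧
      ht1 (mk1 a0 a1 a2 a3 a4 a5 + u1 i) < ht1 (mk1 a0 a1 a2 a3 a4 a5) := by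
  decide +kernel

theorem main1 (f : commutator (O (QMinus 2 (ZMod 2) 1 1)) → ((Fin 2 ⊕ Fin 2) ⊕ Fin 2 → ZMod 2))
    (hf : ∀ g h, f (g * h) = f g + g.1.1 (f h)) : ∃ v, ∀ g, f g = g.1.1 v - v := by
  have hQ : (polarBilin (QMinus 2 (ZMod 2) 1 1)).Nondegenerate := QMinus_nondeg _ _ zmod2_aniso
  refine h1_vanish hQ (reflGroup_eq_top' hQ (Or.inr (Or.inr (not_isPlus_QMinus zmod2_aniso)))) u1 d1 0 1 (by decide) (by decide +kernel) (by decide +kernel)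
    (by decide +kernel) (by decide +kernel) ht1 (fun w => ?_) f hf
  have : w = mk1 (w (.inl (.inl 0))) (w (.inl (.inl 1))) (w (.inl (.inr 0))) (w (.inl (.inr 1))) (w (.inr 0)) (w (.inr 1)) := by
    funext k; revert k; rintro ((k | k) | k) <;> fin_cases k <;> rfl
  rw [this]
  exact gen1 _ _ _ _ _ _

/-- vector with given binary code -/
def dec2 (c : ℕ) : Fin 4 ⊕ Fin 4 → ZMod 2 := fun k => if c.testBit ((Sum.elim (fun i => i.val) (fun i => 4 + i.val) : Fin 4 ⊕ Fin 4 → ℕ) k) then 1 else 0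
/-- basis -/
def u2 (i : Fin 8) : Fin 4 ⊕ Fin 4 → ZMod 2 := dec2 (([21, 39, 200, 178, 54, 143, 211, 91] : List ℕ).getD i 0)
/-- dual basis -/
def d2 (i : Fin 8) : Fin 4 ⊕ Fin 4 → ZMod 2 := dec2 (([232, 218, 53, 185, 97, 19, 151, 166] : List ℕ).getD i 0)
/-- height -/
def ht2 (w : Fin 4 ⊕ Fin 4 → ZMod 2) : ℕ := ([0, 0, 0, 0, 0, 0, 0, 0, 0, 0, 0, 0, 0, 0, 0, 0, 0, 1, 0, 8, 0, 0, 0, 3, 0, 4, 0, 1, 0, 3, 0, 6, 0, 0, 6, 1, 0, 0, 3, 0, 0, 0, 3, 4, 0, 0, 8, 3, 0, 3, 1, 0, 0, 10, 0, 0, 0, 4, 2, 0, 0, 1, 5, 0, 0, 0, 0, 0, 7, 4, 2, 1, 0, 0, 0, 0, 2, 3, 1, 8, 0, 6, 0, 3, 6, 0, 3, 0, 0, 3, 0, 0, 1, 0, 6, 0, 0, 0, 5, 6, 3, 4, 0, 0, 0, 0, 2, 3, 6, 1, 0, 0, 0, 2, 8, 0, 2, 0, 0, 4, 0, 7, 1, 0, 1, 0, 0, 3, 0, 0, 0, 0, 0, 0, 0, 0, 1, 6, 4, 3, 6, 5, 3, 0, 0, 2, 0, 1, 0, 1, 0, 8, 4, 0, 1,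 0, 7, 0, 2, 0, 0, 0, 3, 2, 0, 0, 10, 1, 1, 2, 0, 0, 2, 5, 0, 0, 0, 6, 0, 0, 0, 3, 3, 0, 4, 0, 0, 6, 3, 0, 0, 5, 0, 0, 0, 0, 4, 3, 1, 6, 0, 3, 3, 8, 0, 0, 0, 0, 0, 5, 0, 0, 1, 0, 4, 0, 3, 0, 10, 0, 0, 1, 0, 2, 0, 0, 2, 5, 4, 1, 0, 0, 10, 1, 0, 0, 0, 0, 2, 1, 0, 5, 3, 0, 1, 0, 0, 3, 3, 0, 0, 3, 0, 9, 1, 0] : List ℕ).getD (1 * (w (.inl 0)).val + 2 * (w (.inl 1)).val + 4 * (w (.inl 2)).val + 8 * (w (.inl 3)).val + 16 * (w (.inr 0)).val + 32 * (w (.inr 1)).val + 64 * (w (.inr 2)).val + 128 * (w (.inr 3)).val) 0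
/-- vector from coordinates -/
def mk2 (a0 a1 a2 a3 a4 a5 a6 a7 : ZMod 2) : Fin 4 ⊕ Fin 4 → ZMod 2 := Sum.elim ![a0, a1, a2, a3] ![a4, a5, a6, a7]

theorem gen2 : ∀ a0 a1 a2 a3 a4 a5 a6 a7 : ZMod 2, QPlus 4 (ZMod 2) (mk2 a0 a1 a2 a3 a4 a5 a6 a7) = 1 →
    (∃ i, mk2 a0 a1 a2 a3 a4 a5 a6 a7 = u2 i) ∨ ∃ i, polar (QPlus 4 (ZMod 2)) (u2 i) (mk2 a0 a1 a2 a3 a4 a5 a6 a7) = 1 ∧
      ht2 (mk2 a0 a1 a2 a3 a4 a5 a6 a7 + u2 i) < ht2 (mk2 a0 a1 a2 a3 a4 a5 a6 a7) := by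
  decide +kernel

theorem main2 (f : commutator (O (QPlus 4 (ZMod 2))) → (Fin 4 ⊕ Fin 4 → ZMod 2))
    (hf : ∀ g h, f (g * h) = f g + g.1.1 (f h)) : ∃ v, ∀ g, f g = g.1.1 v - v := by
  have hQ : (polarBilin (QPlus 4 (ZMod 2))).Nondegenerate := QPlus_nondeg _ _
  refine h1_vanish hQ (reflGroup_eq_top' hQ (Or.inr (Or.inl (by simp)))) u2 d2 0 1 (by decide) (by decide +kernel) (by decide +kernel)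
    (by decide +kernel) (by decide +kernel) ht2 (fun w => ?_) f hf
  have : w = mk2 (w (.inl 0)) (w (.inl 1)) (w (.inl 2)) (w (.inl 3)) (w (.inr 0)) (w (.inr 1)) (w (.inr 2)) (w (.inr 3)) := by
    funext k; revert k; rintro (k | k) <;> fin_cases k <;> rfl
  rw [this]
  exact gen2 _ _ _ _ _ _ _ _

/-- Vanishing of first cohomology on the natural module for three small orthogonal groups over the field with two elements: for the commutator subgroup of the isometry group of the elliptic quadratic form in dimension 4, of the elliptic form in dimension 6, and of the hyperbolic form in dimension 8, every crossed homomorphism into the natural module (a map f with f(gh) = f(g) + g·f(h)) is principal (of the form g ↦ g·v − v). -/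
theorem result : (∀ f : ↥(Cfsg.Omega (ZMod 2) (Cfsg.quadFormMinus 1 (ZMod 2) 1 1)) → ((Fin 1 ⊕ Fin 1) ⊕ Fin 2 → ZMod 2), (∀ g h : ↥(Cfsg.Omega (ZMod 2) (Cfsg.quadFormMinus 1 (ZMod 2) 1 1)), f (g * h) = f g + Matrix.mulVec (((g : ↥(Cfsg.isometryGroup (ZMod 2) (Cfsg.quadFormMinus 1 (ZMod 2) 1 1))) : GL ((Fin 1 ⊕ Fin 1) ⊕ Fin 2) (ZMod 2)) : Matrix ((Fin 1 ⊕ Fin 1) ⊕ Fin 2) ((Fin 1 ⊕ Fin 1) ⊕ Fin 2) (ZMod 2)) (f h)) → ∃ v : (Fin 1 ⊕ Fin 1) ⊕ Fin 2 → ZMod 2, ∀ g : ↥(Cfsg.Omega (ZMod 2) (Cfsg.quadFormMinus 1 (ZMod 2) 1 1)), f g = Matrix.mulVec (((g : ↥(Cfsg.isometryGroup (ZMod 2) (Cfsg.quadFormMinus 1 (ZMod 2) 1 1))) : GL ((Fin 1 ⊕ Fin 1) ⊕ Fin 2) (ZMod 2)) : Matrix ((Fin 1 ⊕ Fin 1) ⊕ Fin 2) ((Fin 1 ⊕ Fin 1) ⊕ Fin 2) (ZMod 2)) v - v) ∧ (∀ f : ↥(Cfsg.Omega (ZMod 2) (Cfsg.quadFormMinus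 2 (ZMod 2) 1 1)) → ((Fin 2 ⊕ Fin 2) ⊕ Fin 2 → ZMod 2), (∀ g h : ↥(Cfsg.Omega (ZMod 2) (Cfsg.quadFormMinus 2 (ZMod 2) 1 1)), f (g * h) = f g + Matrix.mulVec (((g : ↥(Cfsg.isometryGroup (ZMod 2) (Cfsg.quadFormMinus 2 (ZMod 2) 1 1))) : GL ((Fin 2 ⊕ Fin 2) ⊕ Fin 2) (ZMod 2)) : Matrix ((Fin 2 ⊕ Fin 2) ⊕ Fin 2) ((Fin 2 ⊕ Fin 2) ⊕ Fin 2) (ZMod 2)) (f h)) → ∃ v : (Fin 2 ⊕ Fin 2) ⊕ Fin 2 → ZMod 2, ∀ g : ↥(Cfsg.Omega (ZMod 2) (Cfsg.quadFormMinus 2 (ZMod 2) 1 1)), f g = Matrix.mulVec (((g : ↥(Cfsg.isometryGroup (ZMod 2) (Cfsg.quadFormMinus 2 (ZMod 2) 1 1))) : GL ((Fin 2 ⊕ Fin 2) ⊕ Fin 2) (ZMod 2)) : Matrix ((Fin 2 ⊕ Fin 2) ⊕ Fin 2) ((Fin 2 ⊕ Fin 2) ⊕ Fin 2) (ZMod 2)) v - v) ∧ (∀ f : ↥(Cfsg.Omega (ZMod 2) (Cfsg.quadFormPlus 4 (ZMod 2))) → (Fin 4 ⊕ Fin 4 → ZMod 2), (∀ g h : ↥(Cfsg.Omega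 (ZMod 2) (Cfsg.quadFormPlus 4 (ZMod 2))), f (g * h) = f g + Matrix.mulVec (((g : ↥(Cfsg.isometryGroup (ZMod 2) (Cfsg.quadFormPlus 4 (ZMod 2)))) : GL (Fin 4 ⊕ Fin 4) (ZMod 2)) : Matrix (Fin 4 ⊕ Fin 4) (Fin 4 ⊕ Fin 4) (ZMod 2)) (f h)) → ∃ v : Fin 4 ⊕ Fin 4 → ZMod 2, ∀ g : ↥(Cfsg.Omega (ZMod 2) (Cfsg.quadFormPlus 4 (ZMod 2))), f g = Matrix.mulVec (((g : ↥(Cfsg.isometryGroup (ZMod 2) (Cfsg.quadFormPlus 4 (ZMod 2)))) : GL (Fin 4 ⊕ Fin 4) (ZMod 2)) : Matrix (Fin 4 ⊕ Fin 4) (Fin 4 ⊕ Fin 4) (ZMod 2)) v - v) := by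
  exact ⟨h1_vanish_matrix (Q := QMinus 1 (ZMod 2) 1 1) main0,
    h1_vanish_matrix (Q := QMinus 2 (ZMod 2) 1 1) main1,
    h1_vanish_matrix (Q := QPlus 4 (ZMod 2)) main2⟩

end Cfsg.Agent.S5405
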