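import Cfsg.Statements.S5407
import Cfsg.Agent.SPOR.MonType

set_option autoImplicit false
open Cfsg

namespace Cfsg.Agent.S5407

open CL CL.LX CL.MSS CL.MT CL.Leech


/-- Let G be a finite group of Monster type at the involution z with Q the extraspecial normal subgroup of order 2^25 of C = C_G(z) (so C/Q is identified with the first Conway group with Q modulo its centre the Leech lattice modulo 2, and z is not weakly closed in Q). Then under any such identification ψ of the Leech lattice modulo 2 with Q modulo its centre, an element x of Q is a conjugate of z other than z exactly when x modulo the centre is the image under ψ of a lattice vector of squared length 64 in the coordinates used here, that is, of norm 8 in the customary normalisation in which the minimal vectors have norm 4 (twice the minimal norm). -/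
theorem result {G : Type*} [Group G] [Finite G] (z : G) (Q : Subgroup (Subgroup.centralizer ({z} : Set G))) [Q.Normal] (hM : Cfsg.IsOfMonsterType z Q) (e : (Subgroup.centralizer ({z} : Set G)) ⧸ Q ≃* Cfsg.Spor.Co1) (ψ : Cfsg.leechLattice → Q ⧸ Subgroup.center Q) (hψ : Cfsg.IsLeechModTwoIso Q e ψ) (x : Q) : (IsConj z ((x : Subgroup.centralizer ({z} : Set G)) : G) ∧ ((x : Subgroup.centralizer ({z} : Set G)) : G) ≠ z) ↔ ∃ v : Cfsg.leechLattice, Cfsg.sqNorm (v : Cfsg.GolayPt → ℤ) = 64 ∧ ψ v = QuotientGroup.mk x := by
  have h := mt_of Q e ψ hM.1 hψ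
  constructor
  · rintro ⟨h1, h2⟩
    obtain ⟨v, ⟨q, hq, hq'⟩, e1⟩ := h.norm_of_conj ⟨_, x.2, rfl⟩ h1 h2
    have : q = x := Subtype.ext (Subtype.ext hq)
    exact ⟨v, e1, this ▸ hq'⟩
  · rintro ⟨v, e1, hv⟩
    have hR : RR Q ψ v ((x : Subgroup.centralizer ({z} : Set G)) : G) := ⟨x, rfl, hv⟩
    exact ⟨h.conj_of_64 hR e1, (h.ne_of_norm hR (by omega) (by omega)).2⟩

end Cfsg.Agent.S5407
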