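import Cfsg.Statements.S5408
import Cfsg.Agent.SPOR.MonType

set_option autoImplicit false
open Cfsg

namespace Cfsg.Agent.S5408

open CL CL.LX CL.MSS CL.MT CL.Leech


/-- Let G be a finite group of Monster type at the involution z with Q the extraspecial normal subgroup of order 2^25 of C = C_G(z) (so C/Q is identified with the first Conway group with Q modulo its centre the Leech lattice modulo 2, and z is not weakly closed in Q). Then Q is of plus type: it contains an elementary abelian subgroup of order 2^13. -/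
theorem result {G : Type*} [Group G] [Finite G] (z : G) (Q : Subgroup (Subgroup.centralizer ({z} : Set G))) [Q.Normal] (hM : Cfsg.IsOfMonsterType z Q) : ∃ E : Subgroup Q, Cfsg.IsElementaryAbelian 2 E ∧ Nat.card E = 2 ^ 13 := by
  obtain ⟨h0, e, ψ, hψ⟩ := hM
  have h := mt_of Q e ψ h0 hψ
  obtain ⟨g, hg, hne⟩ := h.nwc
  obtain ⟨v, hv, e1⟩ := h.norm_of_conj hg (isConj_iff.2 ⟨g, rfl⟩) hne
  obtain ⟨A, K, hF⟩ := exists_frame e1
  have h2 := (pair_main h hv hne hF).2
  have hP := (h.lx.conj g).toES
  generalize g •ᶜ Q.map (Subgroup.centralizer ({z} : Set G)).subtype = P at *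
  set f : Q →* G := (Subgroup.centralizer ({z} : Set G)).subtype.comp Q.subtype with hf
  have hinj : Function.Injective f := fun a b e => Subtype.ext (Subtype.ext e)
  have hmem : ∀ a : Q, a ∈ P.comap f → f a ∈ Q.map (Subgroup.centralizer ({z} : Set G)).subtype ⊓ P :=
    fun a ha => ⟨⟨_, a.2, rfl⟩, ha⟩
  refine ⟨P.comap f, ⟨⟨⟨fun a b => Subtype.ext (hinj ?_)⟩⟩, fun a ha => hinj ?_⟩, ?_⟩
  · simp only [Subgroup.coe_mul, map_mul]
    exact MT.inf_comm h.lx.toES hP hne (hmem _ a.2) (hmem _ b.2)
  · rw [map_pow, map_one, pow_two]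
    exact MT.inf_sq h.lx.toES hP hne (hmem _ ha)
  · rw [← h2, ← Subgroup.card_map_of_injective hinj, Subgroup.map_comap_eq, hf,
      MonoidHom.range_comp, Subgroup.range_subtype]

end Cfsg.Agent.S5408
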