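import Cfsg.Statements.S5410
import Cfsg.Agent.SPOR.MonType

set_option autoImplicit false
open Cfsg

namespace Cfsg.Agent.S5410

open CL CL.LX CL.MSS CL.MT CL.Leech


/-- Let G be a finite group of Monster type at the involution z with Q the extraspecial normal subgroup of order 2^25 of C = C_G(z) (so C/Q is identified with the first Conway group with Q modulo its centre the Leech lattice modulo 2, and z is not weakly closed in Q). Let g in G with s = g z g⁻¹ a member of Q other than z, let X be the image in C/Q of the centralizer of s in C, and let E be the image in C/Q of the intersection of g Q g⁻¹ with C. Then E is a normal subgroup of X, elementary abelian of order 2^11, and it has a complement in X isomorphic to the Mathieu group of degree 24 (the automorphism group of the length-24 binary Golay code). -/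
theorem result {G : Type*} [Group G] [Finite G] (z : G) (Q : Subgroup (Subgroup.centralizer ({z} : Set G))) [Q.Normal] (hM : Cfsg.IsOfMonsterType z Q) (s : G) (hsQ : ∃ hsc : s ∈ Subgroup.centralizer ({z} : Set G), (⟨s, hsc⟩ : Subgroup.centralizer ({z} : Set G)) ∈ Q) (hs : IsConj z s) (hs1 : s ≠ z) (g : G) (hg : g * z * g⁻¹ = s) (X E : Subgroup ((Subgroup.centralizer ({z} : Set G)) ⧸ Q)) (hX : X = ((Subgroup.centralizer ({z} : Set G) ⊓ Subgroup.centralizer ({s} : Set G)).subgroupOf (Subgroup.centralizer ({z} : Set G))).map (QuotientGroup.mk' Q)) (hE : E = (((Q.map (Subgroup.centralizer ({z} : Set G)).subtype).map (MulAut.conj g).toMonoidHom ⊓ Subgroup.centralizer ({z} : Set G)).subgroupOf (Subgroup.centralizer ({z} : Set G))).map (QuotientGroup.mk' Q)) : E ≤ X ∧ (∀ x ∈ X, ∀ y ∈ E, x * y * x⁻¹ ∈ E) ∧ Cfsg.IsElementaryAbelian 2 E ∧ Nat.card E = 2 ^ 11 ∧ ∃ K : Subgroup ((Subgroup.centralizer ({z} : Set G)) ⧸ Q), K ≤ X ∧ E ⊓ K = ⊥ ∧ E ⊔ K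 = X ∧ Nonempty (K ≃* Cfsg.M24) := by
  obtain ⟨h0, e, ψ, hψ⟩ := hM
  have h := mt_of Q e ψ h0 hψ
  obtain ⟨hsc, hsQ⟩ := hsQ
  obtain ⟨v, hv, e1⟩ := h.norm_of_conj (s := s) ⟨_, hsQ, rfl⟩ hs hs1
  obtain ⟨A, K, hF⟩ := exists_frame e1
  subst hg
  have h1 := (pair_main h hv hs1 hF).1
  rw [lifts_eq h] at h1
  have hsurj := ff_surjective Q e
  have hEA : E = A.map (ff Q e) := by rw [← h1, Subgroup.map_comap_eq_self_of_surjective hsurj, hE]
  have hXS : X = (St v).map (ff Q e) := by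
    rw [hX]
    apply le_antisymm
    · rintro _ ⟨c, hc, rfl⟩
      obtain ⟨k, hk⟩ := hsurj (QuotientGroup.mk' Q c)
      refine ⟨k, ?_, hk⟩
      have := h.R_conj (c := c) ⟨c.2, hk⟩ hv
      have hc2 : (c : G) * (g * z * g⁻¹) = (g * z * g⁻¹) * c :=
        Subgroup.mem_centralizer_singleton_iff.1 hc.2
      rw [hc2, mul_inv_cancel_right] at this
      exact h.cong_of this hv
    · rintro _ ⟨k, hk, rfl⟩
      obtain ⟨c, ⟨hc, hc'⟩, e2⟩ := h.exists_conj_eq hv hv hk (h.lx.conj g).z_ne hs1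
      exact ⟨⟨c, hc⟩, ⟨hc, Subgroup.mem_centralizer_singleton_iff.2 (mul_inv_eq_iff_eq_mul.1 e2)⟩,
        hc'.symm⟩
  have hker : (ff Q e).ker ≤ A := by
    rw [ff_ker]
    intro k hk
    rcases CL.MT.mem_center_iff.1 hk with rfl | rfl
    · exact one_mem _
    · exact hF.neg
  rw [hEA, hXS]
  refine ⟨Subgroup.map_mono hF.A_le, ?_, ⟨⟨⟨?_⟩⟩, ?_⟩, ?_, K.map (ff Q e), Subgroup.map_mono hF.K_le,
    ?_, by rw [← Subgroup.map_sup, hF.sup], ?_⟩
  · rintro _ ⟨x, hx, rfl⟩ _ ⟨y, hy, rfl⟩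
    exact ⟨_, hF.norm x hx y hy, by simp⟩
  · rintro ⟨_, a, ha, rfl⟩ ⟨_, b, hb, rfl⟩
    apply Subtype.ext
    show ff Q e a * ff Q e b = ff Q e b * ff Q e a
    rw [← map_mul, ← map_mul, ← inv_eq_of_mul_eq_one_right (hF.sq _ (mul_mem ha hb)), mul_inv_rev,
      inv_eq_of_mul_eq_one_right (hF.sq _ ha), inv_eq_of_mul_eq_one_right (hF.sq _ hb)]
  · rintro _ ⟨a, ha, rfl⟩
    rw [pow_two, ← map_mul, hF.sq a ha, map_one]
  · have := card_map_mul_card_inf_ker A (ff Q e)
    rw [inf_eq_right.2 hker, card_ker_ff, hF.card] at this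
    omega
  · rw [eq_bot_iff]
    rintro _ ⟨⟨a, ha, rfl⟩, k, hk, e2⟩
    have : k * a⁻¹ ∈ A := hker (by rw [MonoidHom.mem_ker, map_mul, map_inv, e2, mul_inv_cancel])
    have hkA : k ∈ A := by simpa using A.mul_mem this ha
    have : k ∈ (⊥ : Subgroup Cfsg.Co0) := hF.inf ▸ ⟨hkA, hk⟩
    rw [← e2, Subgroup.mem_bot.1 this, map_one]; exact one_mem _
  · refine ⟨(MulEquiv.ofBijective ((ff Q e).subgroupMap K) ⟨?_, (ff Q e).subgroupMap_surjective K⟩).symm.trans
      hF.iso.some⟩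
    rw [injective_iff_map_eq_one]
    intro a ha
    have : (a : Cfsg.Co0) ∈ (⊥ : Subgroup Cfsg.Co0) := hF.inf ▸ ⟨hker (congrArg Subtype.val ha), a.2⟩
    exact Subtype.ext this

end Cfsg.Agent.S5410
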