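import Cfsg.Statements.S5413
import Cfsg.Agent.SPOR.Cent5

set_option autoImplicit false
open Cfsg

namespace Cfsg.Agent.S5413

open CL CL.LX CL.MSS CL.MT CL.Leech


/-- Let G be a finite group of Monster type at the involution z with Q the extraspecial normal subgroup of order 2^25 of C = C_G(z) (so C/Q is identified with the first Conway group with Q modulo its centre the Leech lattice modulo 2, and z is not weakly closed in Q). Let s be a conjugate of z in Q other than z and let B be a Sylow 5-subgroup of the joint centralizer of z and s. Then the centralizer of B modulo B is a group of Harada–Norton type (an involution whose centralizer D has generalized Fitting subgroup R extraspecial of order 2^9 with D/R the wreath product of the alternating group of degree 5 by a group of order 2, the involution not weakly closed in R). -/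
theorem result {G : Type*} [Group G] [Finite G] (z : G) (Q : Subgroup (Subgroup.centralizer ({z} : Set G))) [Q.Normal] (hM : Cfsg.IsOfMonsterType z Q) (s : G) (hsQ : ∃ hsc : s ∈ Subgroup.centralizer ({z} : Set G), (⟨s, hsc⟩ : Subgroup.centralizer ({z} : Set G)) ∈ Q) (hs : IsConj z s) (hs1 : s ≠ z) (B : Subgroup G) (hB : B ≤ Subgroup.centralizer ({z, s} : Set G)) (hBp : Nat.card B = 5 ^ (Nat.card ↥(Subgroup.centralizer ({z, s} : Set G))).factorization 5) [hn : (B.subgroupOf (Subgroup.centralizer (B : Set G))).Normal] : Cfsg.IsOfHaradaNortonType (↥(Subgroup.centralizer (B : Set G)) ⧸ B.subgroupOf (Subgroup.centralizer (B : Set G))) := by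
  obtain ⟨Q1, R, A, b, h, hF, hs', hb, rfl, hsb, hA⟩ := setup_sylow hM hsQ hs hs1 (p := 5) (by norm_num)
    (by decide) (by decide +kernel) C5.orderOf_s0 hB hBp
  obtain ⟨y, -, P, -, -, -, hn', h1, ⟨e, -⟩, -⟩ := h.odd_main hF (n := 5) (by decide)
    (hb ▸ pow_orderOf_eq_one b) C5.σ_pow hA (w := 4) (by norm_num) C5.tab.1 C5.cdata.2 C5.cdata.1
    (h.R_mem hs') hsb hs hs1
  exact ⟨y, _, hn', h1, ⟨e⟩⟩

end Cfsg.Agent.S5413
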