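import Cfsg.Statements.S5418
import Cfsg.Agent.SPOR.Cent7
import Cfsg.Agent.SPOR.MonAut

set_option autoImplicit false
open Cfsg

namespace Cfsg.Agent.S5418

open CL CL.LX CL.MSS CL.MT CL.Leech


/-- Let G be a finite group of Monster type at the involution z with Q the extraspecial normal subgroup of order 2^25 of C = C_G(z) (so C/Q is identified with the first Conway group with Q modulo its centre the Leech lattice modulo 2, and z is not weakly closed in Q). Let s be a conjugate of z in Q other than z and let B be a Sylow 7-subgroup of the joint centralizer of z and s. Then the centralizer of B has index 6 in the normalizer of B; and some involution inverting B induces, by conjugation, a non-inner automorphism of the layer of the centralizer of B. -/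
theorem result {G : Type*} [Group G] [Finite G] (z : G) (Q : Subgroup (Subgroup.centralizer ({z} : Set G))) [Q.Normal] (hM : Cfsg.IsOfMonsterType z Q) (s : G) (hsQ : ∃ hsc : s ∈ Subgroup.centralizer ({z} : Set G), (⟨s, hsc⟩ : Subgroup.centralizer ({z} : Set G)) ∈ Q) (hs : IsConj z s) (hs1 : s ≠ z) (B : Subgroup G) (hB : B ≤ Subgroup.centralizer ({z, s} : Set G)) (hBp : Nat.card B = 7 ^ (Nat.card ↥(Subgroup.centralizer ({z, s} : Set G))).factorization 7) : (Subgroup.centralizer (B : Set G)).relIndex (Subgroup.normalizer (B : Set G)) = 6 ∧ ∃ t : G, orderOf t = 2 ∧ (∀ b ∈ B, t * b * t⁻¹ = b⁻¹) ∧ (∀ x ∈ (Cfsg.layer ↥(Subgroup.centralizer (B : Set G))).map (Subgroup.centralizer (B : Set G)).subtype, t * x * t⁻¹ ∈ (Cfsg.layer ↥(Subgroup.centralizer (B : Set G))).map (Subgroup.centralizer (B : Set G)).subtype) ∧ ¬ ∃ l ∈ (Cfsg.layer ↥(Subgroup.centralizer (B : Set G))).map (Subgroup.centralizer (B : Set G)).subtype, ∀ x ∈ (Cfsg.layer ↥(Subgroup.centralizer (B : Set G))).map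 (Subgroup.centralizer (B : Set G)).subtype, t * x * t⁻¹ = l * x * l⁻¹ := by
  obtain ⟨Q1, R, A, b, h, hF, hs', hb, rfl, hsb, hA⟩ := setup_sylow hM hsQ hs hs1 (p := 7) (by norm_num)
    (by decide) (by decide +kernel) C7.orderOf_s0 hB hBp
  have hb7 : b ^ 7 = 1 := hb ▸ pow_orderOf_eq_one b
  have ho : Odd 7 := by decide
  constructor
  · obtain ⟨c, -, hc⟩ := h.exists_lift (k := aut C7.c3) (b' := b ^ 3) ho hb7
      (by rw [← pow_mul, mul_comm, pow_mul, hb7, one_pow]) hA (C7.cube ▸ h.A_pow hA 3)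
    exact relIndex_eq_six hb hc
  obtain ⟨x, hx, hx2⟩ := h.exists_invol_over_sgn C7.re.2 fun e => C7.not_real_NN (one_mem _) (by
    rw [← C7.inverts, Subgroup.mem_center_iff.1 e, mul_inv_cancel_right,
      ← Subgroup.mem_center_iff.1 e]
    group)
  obtain ⟨c, hc⟩ := h.ex_c (aut C7.ck)
  obtain ⟨t, ht2, ht⟩ := h.exists_invol_inverting ho hb7 C7.σ_pow hA
    (h.A_mul (h.A_mul hc hx) (h.A_inv hc)) (by
      calc _ = c * (x * x) * c⁻¹ := by group
        _ = 1 := by rw [hx2]; group) C7.inverts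
  rw [pow_succ, hb7, one_mul] at ht
  have hinv : ∀ a ∈ Subgroup.zpowers b, t * a * t⁻¹ = a⁻¹ := by
    rintro _ ⟨i, rfl⟩
    show t * b ^ i * t⁻¹ = (b ^ i)⁻¹
    rw [← conj_zpow, ht, inv_zpow]
  obtain ⟨hz, hsL⟩ := h.mem_layer hF ho hb7 C7.σ_pow hA (w := 3) (by norm_num) C7.tab.1 C7.cdata.2
    C7.cdata.1 hs' hsb (by norm_num) C7.norm_j.1 C7.norm_j.2
  have key : ∀ u : G, u * z = z * u → u * s = s * u → u * b * u⁻¹ ≠ b⁻¹ := fun u h1 h2 h3 => by
    obtain ⟨k, hk⟩ := h.ex_g u h1
    have h4 := h.R_conj hk hs'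
    rw [h2, mul_inv_cancel_right] at h4
    exact C7.not_real_NN (St_e8 none ▸ h.cong_of h4 hs')
      (h.lift_conj ho C7.σ_pow (by rw [inv_pow, C7.σ_pow, inv_one]) hA (h3 ▸ h.A_inv hA) hk)
  refine ⟨t, orderOf_eq_two_of (fun e => ?_) ht2, hinv, fun y hy => ?_, ?_⟩
  · subst e
    exact key 1 (by simp) (by simp) ht
  · have h1 : t •ᶜ Subgroup.centralizer (Subgroup.zpowers b : Set G) =
        Subgroup.centralizer (Subgroup.zpowers b : Set G) := by
      rw [cj_centralizer, mem_normalizer_iff_cj.1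
        (Subgroup.mem_normalizer_fintype fun a ha => by rw [hinv a ha]; exact inv_mem ha)]
    have h2 := CL.Comp.map_conj_layerOf (Subgroup.centralizer (Subgroup.zpowers b : Set G)) t
    rw [h1] at h2
    exact h2.le ⟨y, hy, rfl⟩
  · rintro ⟨l, hl, e⟩
    have h1 : ∀ {y}, y ∈ CL.Comp.layerOf (Subgroup.centralizer (Subgroup.zpowers b : Set G)) →
        l⁻¹ * t * y = y * (l⁻¹ * t) := fun {y} hy => by
      calc _ = l⁻¹ * (t * y * t⁻¹) * t := by group
        _ = _ := by rw [e y hy]; group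
    refine key _ (h1 hz) (h1 hsL) ?_
    calc _ = l⁻¹ * (t * b * t⁻¹) * l := by group
      _ = _ := by
        rw [ht, mul_assoc, CL.Comp.layerOf_le _ hl _ (inv_mem (Subgroup.mem_zpowers b))]; group

end Cfsg.Agent.S5418
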