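import Cfsg.Statements.S5420


set_option autoImplicit false
open Cfsg

namespace Cfsg.Agent.S5420

theorem pCore_pgroup {G : Type*} [Group G] [Finite G] (p : ℕ) [Fact p.Prime] :
    IsPGroup p (Cfsg.pCore p G) := by
  obtain ⟨P⟩ : Nonempty (Sylow p G) := inferInstance
  refine IsPGroup.to_le P.isPGroup' (sSup_le ?_)
  rintro N ⟨hN, hp⟩
  exact hp.le_sylow_of_normal P

theorem pCore_norm {G : Type*} [Group G] (p : ℕ) : (Cfsg.pCore p G).Normal :=
  Subgroup.sSup_normal _ (fun _ h => h.1)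

theorem eq_one_of_mem {G : Type*} [Group G] [Finite G] {K P : Subgroup G} (hK : Odd (Nat.card K))
    (hP : IsPGroup 2 P) {x : G} (h1 : x ∈ K) (h2 : x ∈ P) : x = 1 := by
  obtain ⟨k, hk⟩ := hP ⟨x, h2⟩
  have h3 : x ^ 2 ^ k = 1 := congrArg Subtype.val hk
  have h4 : x ^ Nat.card K = 1 := congrArg Subtype.val (pow_card_eq_one' (x := (⟨x, h1⟩ : K)))
  have h5 := orderOf_dvd_of_pow_eq_one h3
  have h6 := orderOf_dvd_of_pow_eq_one h4
  have : Nat.Coprime (2 ^ k) (Nat.card K) := (Nat.coprime_two_left.2 hK).pow_left k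
  exact orderOf_eq_one_iff.1 (Nat.eq_one_of_dvd_coprimes this h5 h6)


/-- Let Q be an extraspecial 2-subgroup of the finite group G whose centralizer in G is its centre Z and which is normal in the centralizer of Z. If Z lies in the largest normal 2-subgroup of G, then Q is a large extraspecial 2-subgroup of G: it normalizes no non-trivial subgroup of G of odd order. -/
theorem result {G : Type*} [Group G] [Finite G] (Q : Subgroup G) (hL1 : Cfsg.IsExtraspecial 2 ↥Q) (hL2 : Subgroup.centralizer (Q : Set G) = ((Subgroup.center ↥Q).map Q.subtype)) (hL3 : Subgroup.centralizer (((Subgroup.center ↥Q).map Q.subtype) : Set G) ≤ Subgroup.normalizer (Q : Set G)) (hZ : ((Subgroup.center ↥Q).map Q.subtype) ≤ Cfsg.pCore 2 G) : Cfsg.IsLargeExtraspecial Q := by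
  refine ⟨hL1, hL2, hL3, ?_⟩
  intro K hK hQK
  have : Fact (Nat.Prime 2) := ⟨Nat.prime_two⟩
  have hQ2 : IsPGroup 2 Q := hL1.1.1
  have hZQ : (Subgroup.center ↥Q).map Q.subtype ≤ Q := Subgroup.map_subtype_le _
  have h1 : K ≤ Subgroup.centralizer (((Subgroup.center ↥Q).map Q.subtype) : Set G) := by
    intro k hk
    rw [Subgroup.mem_centralizer_iff]
    intro z hz
    have hz' : z ∈ (Subgroup.center ↥Q).map Q.subtype := hz
    have a1 : z * k * z⁻¹ * k⁻¹ ∈ K :=
      K.mul_mem ((Subgroup.mem_normalizer_iff.1 (hQK (hZQ hz')) k).1 hk) (K.inv_mem hk)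
    have a2 : z * k * z⁻¹ * k⁻¹ ∈ Cfsg.pCore 2 G := by
      have := (Cfsg.pCore 2 G).mul_mem (hZ hz')
        ((pCore_norm 2).conj_mem _ ((Cfsg.pCore 2 G).inv_mem (hZ hz')) k)
      simpa [mul_assoc] using this
    have := eq_one_of_mem hK (pCore_pgroup 2) a1 a2
    calc z * k = (z * k * z⁻¹ * k⁻¹) * (k * z) := by group
      _ = k * z := by rw [this, one_mul]
  have h2 : K ≤ Subgroup.centralizer (Q : Set G) := by
    intro k hk
    rw [Subgroup.mem_centralizer_iff]
    intro z hz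
    have a1 : z * k * z⁻¹ * k⁻¹ ∈ K :=
      K.mul_mem ((Subgroup.mem_normalizer_iff.1 (hQK hz) k).1 hk) (K.inv_mem hk)
    have a2 : z * k * z⁻¹ * k⁻¹ ∈ Q := by
      have := Q.mul_mem hz ((Subgroup.mem_normalizer_iff.1 (hL3 (h1 hk)) _).1 (Q.inv_mem hz))
      simpa [mul_assoc] using this
    have := eq_one_of_mem hK hQ2 a1 a2
    calc z * k = (z * k * z⁻¹ * k⁻¹) * (k * z) := by group
      _ = k * z := by rw [this, one_mul]
  rw [eq_bot_iff]
  intro k hk
  have := h2 hk
  rw [hL2] at this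
  exact eq_one_of_mem hK hQ2 hk (hZQ this)

end Cfsg.Agent.S5420
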