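import Cfsg.Statements.S5422
import Cfsg.Agent.SPOR.LXV

set_option autoImplicit false
open Cfsg

namespace Cfsg.Agent.S5422

open CL CL.LX CL.MSS


/-- Let Q be an extraspecial 2-subgroup of the finite group G whose centralizer in G is its centre Z and which is normal in the centralizer of Z; suppose Q has width at least 2 (order 2^(2w+1) with w ≥ 2) and g is an element of G not normalizing Z with g Z g⁻¹ inside Q. Then Z lies inside g Q g⁻¹; writing V for the subgroup generated by Z and g Z g⁻¹ (a four-group), the normalizer of V induces on V its full automorphism group, that is, the centralizer of V has index 6 in the normalizer of V; and Q is a large extraspecial 2-subgroup of G. -/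
theorem result {G : Type*} [Group G] [Finite G] (Q : Subgroup G) (hL1 : Cfsg.IsExtraspecial 2 ↥Q) (hL2 : Subgroup.centralizer (Q : Set G) = ((Subgroup.center ↥Q).map Q.subtype)) (hL3 : Subgroup.centralizer (((Subgroup.center ↥Q).map Q.subtype) : Set G) ≤ Subgroup.normalizer (Q : Set G)) (w : ℕ) (hw : 2 ≤ w) (hcard : Nat.card ↥Q = 2 ^ (2 * w + 1)) (g : G) (hg : g ∉ Subgroup.normalizer (((Subgroup.center ↥Q).map Q.subtype) : Set G)) (hZg : (((Subgroup.center ↥Q).map Q.subtype)).map (MulAut.conj g).toMonoidHom ≤ Q) : ((Subgroup.center ↥Q).map Q.subtype) ≤ (Q).map (MulAut.conj g).toMonoidHom ∧ (Subgroup.centralizer ((((Subgroup.center ↥Q).map Q.subtype) ⊔ (((Subgroup.center ↥Q).map Q.subtype)).map (MulAut.conj g).toMonoidHom : Subgroup G) : Set G)).relIndex (Subgroup.normalizer ((((Subgroup.center ↥Q).map Q.subtype) ⊔ (((Subgroup.center ↥Q).map Q.subtype)).map (MulAut.conj g).toMonoidHom : Subgroup G) : Set G)) = 6 ∧ Cfsg.IsLargeExtraspecial Q := by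
  obtain ⟨z, hz⟩ := exists_es_of_isExtraspecial hL1
  have h := lx_of_L123 hz hL2 hL3
  rw [hz.center_eq] at hg hZg ⊢
  rw [cj_zpowers] at hZg ⊢
  have hs : g * z * g⁻¹ ∈ Q := hZg (Subgroup.mem_zpowers _)
  have hne : g * z * g⁻¹ ≠ z := by
    intro e
    apply hg
    rw [mem_normalizer_iff_cj, cj_zpowers, e]
  have hz' := h.symm_of_card (eight_lt_of_width hw hcard) hs
  refine ⟨(Subgroup.zpowers_le (G := G)).2 hz', ?_, h.large_of_conj hs hne hz'⟩
  have := (h.pair hs hz' hne).relIndex_eq_six
  rwa [Set.insert_eq, Subgroup.closure_union, ← Subgroup.zpowers_eq_closure,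
    ← Subgroup.zpowers_eq_closure] at this

end Cfsg.Agent.S5422
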