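import Cfsg.Statements.S5423
import Cfsg.Agent.SPOR.LXHol

set_option autoImplicit false
open Cfsg

namespace Cfsg.Agent.S5423

open Matrix CL.LXHol CL.LX

instance act (n : ℕ) : MulDistribMulAction (H n) (Multiplicative (ZMod 2 × (Fin n → ZMod 2))) where
  smul x v := .ofAdd (v.toAdd.1 + x.a ⬝ᵥ v.toAdd.2, x.A.1 *ᵥ v.toAdd.2)
  one_smul v := by change Multiplicative.ofAdd _ = _; simp [one_def]
  mul_smul x y v := by
    change Multiplicative.ofAdd _ = Multiplicative.ofAdd (_ + _ + x.a ⬝ᵥ (y.A.1 *ᵥ _), x.A.1 *ᵥ (y.A.1 *ᵥ _))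
    simp [mul_def, dotProduct_mulVec, add_assoc]
  smul_mul x v w := by
    change Multiplicative.ofAdd _ = Multiplicative.ofAdd ((_, _) + (_, _))
    simp [mulVec_add, add_add_add_comm]
  smul_one x := by change Multiplicative.ofAdd _ = _; simp

theorem smul_def {n : ℕ} (x : H n) (v : Multiplicative (ZMod 2 × (Fin n → ZMod 2))) :
    x • v = .ofAdd (v.toAdd.1 + x.a ⬝ᵥ v.toAdd.2, x.A.1 *ᵥ v.toAdd.2) := rfl

theorem exists_smul {n : ℕ} (φ : MulAut (Multiplicative (ZMod 2 × (Fin n → ZMod 2))))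
    (h : φ (.ofAdd (1, 0)) = .ofAdd (1, 0)) (c b) : ∃ x : H n, x.c = c ∧ x.b = b ∧ ∀ v, x • v = φ v := by
  let β := (AddEquiv.toMultiplicative.symm φ).toAddMonoidHom.toZModLinearMap 2
  have hβ : ∀ c b, β (c, b) = (c, 0) + β (0, b) := fun c b => by
    have : β (c • (1, 0)) = c • (1, 0) := by rw [map_smul]; exact congrArg _ h
    simp only [Prod.smul_mk, smul_eq_mul, mul_one, smul_zero] at this
    rw [← this, ← map_add, Prod.mk_add_mk, add_zero, zero_add]
  obtain ⟨a, ha⟩ := (dotProductEquiv (ZMod 2) (Fin n)).surjective (.fst _ _ _ ∘ₗ β ∘ₗ .inr _ _ _)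
  obtain ⟨A, hA⟩ := (mulVec_injective_iff_isUnit (A := LinearMap.toMatrix' (.snd _ _ _ ∘ₗ β ∘ₗ .inr _ _ _))).1 (by
    intro v w e
    have : β ((β (0, w)).1, v) = β ((β (0, v)).1, w) := by
      rw [hβ (β (0, w)).1, hβ (β (0, v)).1]; exact Prod.ext (add_comm _ _) (by simpa using e)
    exact congrArg Prod.snd ((AddEquiv.toMultiplicative.symm φ).injective this))
  refine ⟨⟨a, b, c, A⟩, rfl, rfl, fun v => ?_⟩
  refine congrArg Multiplicative.ofAdd (Eq.trans ?_ (hβ v.toAdd.1 v.toAdd.2).symm)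
  exact Prod.ext (congrArg (_ + ·) (DFunLike.congr_fun ha _)) (by simp [hA])

theorem exists_coord {U : Type*} [Group U] [IsMulCommutative U] (h : ∀ u : U, u ^ 2 = 1) {n : ℕ}
    (hc : Nat.card U = 2 ^ (n + 1)) {z : U} (hz : z ≠ 1) :
    ∃ e : Multiplicative (ZMod 2 × (Fin n → ZMod 2)) ≃* U, e (.ofAdd (1, 0)) = z := by
  let _ : CommGroup U := IsMulCommutative.instCommGroup
  let _ := AddCommGroup.zmodModule (n := 2) (G := Additive U) h
  have : Finite U := Nat.finite_of_card_ne_zero (by simp [hc])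
  obtain ⟨W, hW⟩ := (Submodule.span (ZMod 2) {Additive.ofMul z}).exists_isCompl
  have h1 := Submodule.finrank_add_eq_of_isCompl hW
  have h2 := Module.natCard_eq_pow_finrank (K := ZMod 2) (V := Additive U)
  rw [finrank_span_singleton (by simpa using hz)] at h1
  rw [Nat.card_zmod, ← h1, show Nat.card (Additive U) = _ from hc, Nat.pow_right_inj one_lt_two] at h2
  exact ⟨AddEquiv.toMultiplicativeLeft (((LinearEquiv.toSpanNonzeroSingleton _ _ (Additive.ofMul z)
    (by simpa using hz)).prodCongr (LinearEquiv.ofFinrankEq _ W (by simp; omega))).trans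
    (Submodule.prodEquivOfIsCompl _ _ hW)).toAddEquiv, by simp⟩

/-- Let G be a finite group that is the split extension of an elementary abelian normal subgroup U of order 2^(n+1), n ≥ 1, by its full automorphism group: U has a complement M in G whose conjugation action on U is faithful and realizes every automorphism of U. Let Z be a subgroup of U of order 2 and Q the largest normal 2-subgroup of the centralizer C of Z. Then Q is extraspecial of order 2^(2n+1) with an elementary abelian subgroup of order 2^(n+1) (plus type), Q is a large extraspecial 2-subgroup of G, and C is the split extension of Q by the general linear group of degree n over the field with two elements. -/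
theorem result {G : Type*} [Group G] [Finite G] (n : ℕ) (hn : 1 ≤ n) (U M : Subgroup G) [U.Normal] (hU : Cfsg.IsElementaryAbelian 2 U) (hUcard : Nat.card ↥U = 2 ^ (n + 1)) (hUM : U ⊓ M = ⊥) (hUM' : U ⊔ M = ⊤) (hfaith : ∀ m ∈ M, (∀ u ∈ U, m * u * m⁻¹ = u) → m = 1) (hfull : ∀ φ : ↥U ≃* ↥U, ∃ m ∈ M, ∀ u : ↥U, ((φ u : ↥U) : G) = m * u * m⁻¹) (Z : Subgroup G) (hZU : Z ≤ U) (hZ : Nat.card ↥Z = 2) (Q : Subgroup G) (hQ : Q = (Cfsg.pCore 2 ↥(Subgroup.centralizer (Z : Set G))).map (Subgroup.centralizer (Z : Set G)).subtype) : Cfsg.IsExtraspecial 2 ↥Q ∧ Nat.card ↥Q = 2 ^ (2 * n + 1) ∧ (∃ E : Subgroup G, E ≤ Q ∧ Cfsg.IsElementaryAbelian 2 E ∧ Nat.card ↥E = 2 ^ (n + 1)) ∧ Cfsg.IsLargeExtraspecial Q ∧ ∃ K : Subgroup G, K ≤ Subgroup.centralizer (Z : Set G) ∧ Q ⊓ K = ⊥ ∧ Q ⊔ K = Subgroup.centralizer (Z : Set G) ∧ Nonempty (↥K ≃* Matrix.GeneralLinearGroup (Fin n) (ZMod 2)) := by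
  obtain ⟨z, hz1, hz⟩ := (Nat.card_eq_two_iff' (1 : Z)).1 hZ
  have := hU.1
  obtain ⟨e, he⟩ := exists_coord (U := U) (fun u => Subtype.ext (hU.2 _ u.2)) hUcard (z := ⟨z, hZU z.2⟩)
    fun h => hz1 (Subtype.ext (congrArg Subtype.val h :))
  choose m hm hm' using hfull
  have uq : ∀ x ∈ M, ∀ φ : MulAut U, (∀ u : U, (φ u : G) = x * u * x⁻¹) → m φ = x := fun x hx φ h =>
    inv_mul_eq_one.1 (hfaith _ (mul_mem (inv_mem (hm φ)) hx) fun u hu => by
      have := (h ⟨u, hu⟩).symm.trans (hm' φ ⟨u, hu⟩)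
      rw [_root_.mul_inv_rev, inv_inv, ← mul_assoc, mul_assoc _ x, mul_assoc _ _ x⁻¹, this]
      group)
  let μ : H n →* G := (MonoidHom.mk' (M := MulAut U) m fun φ φ' => uq _ (mul_mem (hm _) (hm _)) _ fun u => by
    rw [MulAut.mul_apply, hm', hm']; group).comp ((MulAut.congr e).toMonoidHom.comp (MulDistribMulAction.toMulAut _ _))
  have hμ : ∀ x v, μ x * e v = e (x • v) * μ x := fun x v => by
    rw [← mul_inv_eq_iff_eq_mul]
    exact (hm' _ _).symm.trans (by simp)
  let ψ : H n →* G := MonoidHom.mk' (fun x => e (.ofAdd (x.c, x.b)) * μ x) fun x y => by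
    rw [mul_assoc, ← mul_assoc (μ x), hμ, map_mul, ← mul_assoc, ← mul_assoc, ← mul_assoc, ← Subgroup.coe_mul, ← map_mul]
    congr 4
    simp [mul_def, smul_def, add_assoc, ← ofAdd_add]
  have hz' : ψ (z0 n) = z := by
    change e _ * μ _ = _
    rw [show μ (z0 n) = 1 from uq 1 M.one_mem _ fun u => by simp [z0, smul_def], mul_one]
    exact congrArg Subtype.val he
  have hZ' : Z = Subgroup.zpowers (ψ (z0 n)) := by
    rw [hz']
    refine le_antisymm (fun x hx => ?_) (Subgroup.zpowers_le.2 z.2)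
    by_cases h : x = 1
    · exact h ▸ one_mem _
    · exact (congrArg Subtype.val (hz ⟨x, hx⟩ fun e => h (congrArg Subtype.val e)) :) ▸ Subgroup.mem_zpowers _
  have hi : Function.Injective ψ := (injective_iff_map_eq_one _).2 fun x hx => by
    have h1 : (e (.ofAdd (x.c, x.b)) : G) = 1 := Subgroup.mem_bot.1 (hUM ▸ ⟨Subtype.prop _,
      (eq_inv_of_mul_eq_one_left hx :) ▸ M.inv_mem (hm _)⟩)
    have h2 : μ x = 1 := by rw [← hx]; exact (one_mul _).symm.trans (congrArg (· * _) h1.symm)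
    have h3 : ∀ b, x • Multiplicative.ofAdd ((0 : ZMod 2), b) = .ofAdd (0, b) := fun b =>
      e.injective (Subtype.ext (by simpa [h2] using (hμ x _).symm))
    simp only [OneMemClass.coe_eq_one, EmbeddingLike.map_eq_one_iff, ofAdd_eq_one, Prod.mk_eq_zero] at h1
    simp only [smul_def, toAdd_ofAdd, zero_add, EmbeddingLike.apply_eq_iff_eq, Prod.mk.injEq] at h3
    exact H.ext (dotProduct_eq_zero _ fun b => (h3 b).1) h1.2 h1.1
      (Units.ext (ext_iff_mulVec.2 fun b => (h3 b).2.trans (one_mulVec b).symm))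
  have hC : Subgroup.centralizer (Z : Set G) = Subgroup.centralizer {ψ (z0 n)} := by
    conv_lhs => rw [hZ', centralizer_zpowers]
  have hr : Subgroup.centralizer (Z : Set G) ≤ ψ.range := fun g hg => by
    obtain ⟨u, hu, k, hk, rfl⟩ := Subgroup.mem_sup_of_normal_left.1 (hUM'.ge (Subgroup.mem_top g))
    obtain ⟨v, hv⟩ := e.surjective ⟨u, hu⟩
    obtain ⟨x, h1, h2, h3⟩ := exists_smul ((MulAut.congr e).symm (MulAut.conjNormal k)) (e.injective (Subtype.ext (by
      have := hg z z.2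
      rw [← mul_assoc, setLike_mul_comm (hZU z.2) hu, mul_assoc, mul_assoc,
        mul_right_inj] at this
      simp [he, mul_inv_eq_iff_eq_mul, this]))) v.toAdd.1 v.toAdd.2
    refine ⟨x, congrArg₂ _ (by rw [h1, h2]; exact congrArg Subtype.val hv) (uq k hk _ fun u => ?_)⟩
    simp [h3]
  obtain ⟨h1, h2, h3, h4, h5⟩ := main hn ψ hi hC hr hQ
  have hp : IsPGroup 2 U := .of_card hUcard
  refine ⟨h1.isExtraspecial, h3, h4, h1.large_of (h2 (.ofAdd (0, Pi.single ⟨0, hn⟩ 1))) (fun h => ?_) (fun h => ?_) ?_ hp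
    (hz' ▸ hZU z.2) fun c _ y hy => Subgroup.Normal.conj_mem inferInstance y hy c, h5⟩
  · simpa [tr, one_def] using congrFun (congrArg H.b (hi (h.trans ψ.map_one.symm))) ⟨0, hn⟩
  · simpa [tr, z0] using congrArg H.c (hi h)
  · rw [← map_mul, ← ψ.map_one]; simp [tr, mul_def, one_def, add_self, -mulVec_single]

end Cfsg.Agent.S5423
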