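import Cfsg.Statements.S5424
import Cfsg.Agent.SPOR.LXHol

set_option autoImplicit false
open Cfsg

namespace Cfsg.Agent.S5424

open Matrix CL.LXHol CL.LX

theorem det_eq_one {m : Type*} [Fintype m] [DecidableEq m] (A : GL m (ZMod 2)) : A.1.det = 1 :=
  (by decide : ∀ x : ZMod 2, x ≠ 0 → x = 1) _ A.det_ne_zero

def mt (n : ℕ) : H n →* Matrix (Fin (n + 2)) (Fin (n + 2)) (ZMod 2) where
  toFun x := of (vecCons (vecCons 1 (vecCons x.c x.a)) (vecCons (vecCons 0 (vecCons 1 0))
    fun i => vecCons 0 (vecCons (x.b i) (x.A.1 i))))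
  map_one' := by
    ext i j
    refine Fin.cases ?_ (Fin.cases ?_ fun i => ?_) i <;> refine Fin.cases ?_ (Fin.cases ?_ fun j => ?_) j <;>
      simp [one_def, one_apply, Fin.ext_iff]
  map_mul' x y := by
    ext i j
    refine Fin.cases ?_ (Fin.cases ?_ fun i => ?_) i <;> refine Fin.cases ?_ (Fin.cases ?_ fun j => ?_) j <;>
      simp [mul_def, mul_apply, Fin.sum_univ_succ, vecMul, mulVec, dotProduct, add_comm, add_left_comm, add_assoc]

def ps (n : ℕ) : H n →* Matrix.SpecialLinearGroup (Fin (n + 2)) (ZMod 2) :=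
  MonoidHom.mk' (fun x => ⟨mt n x, det_eq_one ((mt n).toHomUnits x)⟩) fun x y => Subtype.ext ((mt n).map_mul x y)

theorem ps_val {n : ℕ} (x : H n) : (ps n x).1 = mt n x := rfl

theorem shape {n : ℕ} {g : Matrix (Fin (n + 2)) (Fin (n + 2)) (ZMod 2)}
    (h : g * transvection 0 1 1 = transvection 0 1 1 * g) :
    (∀ i : Fin (n + 1), g i.succ 0 = 0) ∧ (∀ j : Fin n, g 1 j.succ.succ = 0) ∧ g 1 1 = g 0 0 := by
  simp only [transvection, mul_add, add_mul, mul_one, one_mul, add_right_inj] at h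
  refine ⟨fun i => ?_, fun j => ?_, ?_⟩
  · simpa [i.succ_ne_zero] using congrFun (congrFun h i.succ) 1
  · simpa [Fin.ext_iff] using (congrFun (congrFun h 0) j.succ.succ).symm
  · simpa using (congrFun (congrFun h 0) 1).symm

/-- Let G be the special linear group of degree n + 2 over the field with two elements, n ≥ 2, let z be a transvection, and let Q be the largest normal 2-subgroup of the centralizer C of z. Then Q is extraspecial of order 2^(2n+1) with an elementary abelian subgroup of order 2^(n+1) (plus type), Q is a large extraspecial 2-subgroup of G, and C is the split extension of Q by the special linear group of degree n over the field with two elements. -/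
theorem result (n : ℕ) (hn : 2 ≤ n) (z : Matrix.SpecialLinearGroup (Fin (n + 2)) (ZMod 2)) (hz : (z : Matrix (Fin (n + 2)) (Fin (n + 2)) (ZMod 2)) = Matrix.transvection 0 1 1) (Q : Subgroup (Matrix.SpecialLinearGroup (Fin (n + 2)) (ZMod 2))) (hQ : Q = (Cfsg.pCore 2 ↥(Subgroup.centralizer ({z} : Set (Matrix.SpecialLinearGroup (Fin (n + 2)) (ZMod 2))))).map (Subgroup.centralizer ({z} : Set (Matrix.SpecialLinearGroup (Fin (n + 2)) (ZMod 2)))).subtype) : Cfsg.IsExtraspecial 2 ↥Q ∧ Nat.card ↥Q = 2 ^ (2 * n + 1) ∧ (∃ E : Subgroup (Matrix.SpecialLinearGroup (Fin (n + 2)) (ZMod 2)), E ≤ Q ∧ Cfsg.IsElementaryAbelian 2 E ∧ Nat.card ↥E = 2 ^ (n + 1)) ∧ Cfsg.IsLargeExtraspecial Q ∧ ∃ K : Subgroup (Matrix.SpecialLinearGroup (Fin (n + 2)) (ZMod 2)), K ≤ Subgroup.centralizer ({z} : Set (Matrix.SpecialLinearGroup (Fin (n + 2)) (ZMod 2))) ∧ Q ⊓ K = ⊥ ∧ Q ⊔ K = Subgroup.centralizer ({z} : Set (Matrix.SpecialLinearGroup (Fin (n + 2)) (ZMod 2))) ∧ Nonempty (↥K ≃* Matrix.SpecialLinearGroup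 (Fin n) (ZMod 2)) := by
  have hi : Function.Injective (ps n) := fun x y h => by
    have e : ∀ i j, mt n x i j = mt n y i j := fun i j => congrFun (congrFun (congrArg Subtype.val h) i) j
    exact H.ext (funext fun j => by simpa [mt] using e 0 j.succ.succ) (funext fun i => by simpa [mt] using e i.succ.succ 1)
      (by simpa [mt] using e 0 1) (Units.ext (ext fun i j => by simpa [mt] using e i.succ.succ j.succ.succ))
  obtain rfl : z = ps n (z0 n) := Subtype.ext (hz.trans (by
    ext i j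
    refine Fin.cases ?_ (Fin.cases ?_ fun i => ?_) i <;> refine Fin.cases ?_ (Fin.cases ?_ fun j => ?_) j <;>
      simp [ps_val, mt, z0, transvection, one_apply, Fin.ext_iff]))
  have hr : Subgroup.centralizer {ps n (z0 n)} ≤ (ps n).range := fun g hg => by
    have s := fun (g : Matrix.SpecialLinearGroup (Fin (n + 2)) (ZMod 2)) (hg : g ∈ Subgroup.centralizer {ps n (z0 n)}) => shape (g := g.1) (by
      rw [Subgroup.mem_centralizer_singleton_iff] at hg; rw [← hz]; exact congrArg Subtype.val hg)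
    obtain ⟨a1, a2, a3⟩ := s g hg
    obtain ⟨b1, b2, -⟩ := s _ (inv_mem hg)
    have e : ∀ i j, (g.1 * g⁻¹.1) i j = (1 : Matrix _ _ _) i j := fun i j =>
      congrFun (congrFun (congrArg Subtype.val (mul_inv_cancel g)) i) j
    have a0 : g.1 0 0 = 1 := (by decide : ∀ x y : ZMod 2, x * y = 1 → x = 1) _ (g⁻¹.1 0 0) (by
      have := e 0 0
      rw [mul_apply, Fin.sum_univ_succ] at this
      simpa only [b1, mul_zero, Finset.sum_const_zero, add_zero, one_apply_eq] using this)
    have e' : (of fun i j : Fin n => g.1 i.succ.succ j.succ.succ) * (of fun i j : Fin n => g⁻¹.1 i.succ.succ j.succ.succ) =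
        1 := ext fun i j => by
      have := e i.succ.succ j.succ.succ
      rw [mul_apply, Fin.sum_univ_succ, Fin.sum_univ_succ, a1, Fin.succ_zero_eq_one, b2] at this
      simpa [mul_apply, one_apply] using this
    refine ⟨⟨fun j => g.1 0 j.succ.succ, fun i => g.1 i.succ.succ 1, g.1 0 1, ⟨_, _, e', mul_eq_one_comm.1 e'⟩⟩,
      Subtype.ext (ext fun i j => ?_)⟩
    have a4 := a1 0
    refine Fin.cases ?_ (Fin.cases ?_ fun i => ?_) i <;> refine Fin.cases ?_ (Fin.cases ?_ fun j => ?_) j <;>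
      simp_all [ps_val, mt]
  obtain ⟨h1, h2, h3, h4, K, k1, k2, k3, ⟨e⟩⟩ := main (by omega) (ps n) hi rfl hr hQ
  refine ⟨h1.isExtraspecial, h3, h4, ?_, K, k1, k2, k3, ⟨e.trans (MulEquiv.ofBijective Matrix.SpecialLinearGroup.toGL
    ⟨Matrix.SpecialLinearGroup.toGL_injective, fun A => ⟨⟨A.1, det_eq_one A⟩, Units.ext rfl⟩⟩).symm⟩⟩
  obtain ⟨k⟩ : Nonempty (Fin n) := ⟨⟨0, by omega⟩⟩
  obtain ⟨g, e⟩ : ∃ g, g * ps n (z0 n) * g⁻¹ = ps n (tr n (.ofAdd (1, Pi.single k 1))) := by
    refine ⟨.transvection k.succ.succ_ne_zero 1, ?_⟩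
    rw [mul_inv_eq_iff_eq_mul]
    have : mt n (tr n (.ofAdd (1, Pi.single k 1))) = 1 + single 0 1 1 + single k.succ.succ 1 1 := by
      ext i j
      refine Fin.cases ?_ (Fin.cases ?_ fun i => ?_) i <;> refine Fin.cases ?_ (Fin.cases ?_ fun j => ?_) j <;>
        simp [mt, tr, one_apply, single_apply, Pi.single_apply, Fin.ext_iff, eq_comm]
    refine Subtype.ext (show transvection _ _ _ * mt _ _ = mt _ _ * transvection _ _ _ from ?_)
    rw [show mt _ _ = _ from hz, this]
    have : 1 ≠ k.succ.succ := by simp [Fin.ext_iff]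
    simp [transvection, mul_add, add_mul, single_mul_single_of_ne, this]
    abel
  refine h1.large_of_conj (e ▸ h2 _) (fun h => ?_) (h1.symm_of_card (eight_lt_of_width hn h3) (e ▸ h2 _))
  simpa [tr, z0] using congrFun (congrArg H.b (hi (e.symm.trans h))) k

end Cfsg.Agent.S5424
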