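import Cfsg.Statements.S5430
import Cfsg.Agent.SPOR.LXV

set_option autoImplicit false
open Cfsg

namespace Cfsg.Agent.S5430

open CL CL.LX CL.MSS


/-- Let Q be a large extraspecial 2-subgroup of the finite group G (extraspecial; centralizer equal to its centre; normal in the centralizer of its centre; normalizing no non-trivial subgroup of odd order) with centre generated by z, an involution, of width w ≥ 2 (order 2^(2w+1)); let g be an element outside the centralizer H of z with g z g⁻¹ in Q; write V for the subgroup generated by z and g z g⁻¹, X for the subgroup generated by Q and g Q g⁻¹, R for the subgroup generated by the centralizer of z in g Q g⁻¹ and the centralizer of g z g⁻¹ in Q, and E for the intersection of Q and g Q g⁻¹. Then R is the centralizer of V in X and is the largest normal 2-subgroup of X, and X/R is isomorphic to the symmetric group of degree 3; moreover the normalizer of V is the product of X and the centralizer of V in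 H, X is normal in it, and modulo R it is the direct product of X/R and of the centralizer of V in H modulo R. -/
theorem result {G : Type*} [Group G] [Finite G] (Q : Subgroup G) (hQ : Cfsg.IsLargeExtraspecial Q) (z : G) (hz : ((Subgroup.center ↥Q).map Q.subtype) = Subgroup.zpowers z) (hz2 : orderOf z = 2) (w : ℕ) (hw : 2 ≤ w) (hcard : Nat.card ↥Q = 2 ^ (2 * w + 1)) (g : G) (hgH : g ∉ Subgroup.centralizer ({z} : Set G)) (hgQ : g * z * g⁻¹ ∈ Q) (V X R E : Subgroup G) (hV : V = Subgroup.closure ({z, g * z * g⁻¹} : Set G)) (hX : X = Q ⊔ (Q).map (MulAut.conj g).toMonoidHom) (hR : R = ((Q).map (MulAut.conj g).toMonoidHom ⊓ Subgroup.centralizer ({z} : Set G)) ⊔ (Q ⊓ Subgroup.centralizer ({g * z * g⁻¹} : Set G))) (hE : E = Q ⊓ (Q).map (MulAut.conj g).toMonoidHom) : R = X ⊓ Subgroup.centralizer (V : Set G) ∧ R = (Cfsg.pCore 2 ↥X).map X.subtype ∧ (∃ h : (R.subgroupOf X).Normal, Nonempty (↥X ⧸ R.subgroupOf X ≃* Equiv.Perm (Fin 3))) ∧ Subgroup.normalizer (V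 : Set G) = X ⊔ (Subgroup.centralizer ({z} : Set G) ⊓ Subgroup.centralizer (V : Set G)) ∧ (∀ y ∈ Subgroup.normalizer (V : Set G), ∀ x ∈ X, y * x * y⁻¹ ∈ X) ∧ R ≤ Subgroup.centralizer ({z} : Set G) ⊓ Subgroup.centralizer (V : Set G) ∧ (∀ x ∈ X, ∀ c ∈ Subgroup.centralizer ({z} : Set G) ⊓ Subgroup.centralizer (V : Set G), x * c * x⁻¹ * c⁻¹ ∈ R) ∧ X ⊓ (Subgroup.centralizer ({z} : Set G) ⊓ Subgroup.centralizer (V : Set G)) = R := by
  have h := lx_of_large (es_of_center_eq hQ.1 hz) hQ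
  have hne : g * z * g⁻¹ ≠ z := fun e =>
    hgH (Subgroup.mem_centralizer_singleton_iff.2 (mul_inv_eq_iff_eq_mul.1 e))
  have hp := h.pair hgQ (h.symm_of_card (eight_lt_of_width hw hcard) hgQ) hne
  subst hV hX hR hE
  set s := g * z * g⁻¹
  set P := g •ᶜ Q
  have hC : ∀ c, c ∈ Subgroup.centralizer ({z} : Set G) ⊓ Subgroup.centralizer
      ((Subgroup.closure ({z, s} : Set G) : Subgroup G) : Set G) ↔ c * z = z * c ∧ c * s = s * c := by
    intro c
    rw [Subgroup.mem_inf, mem_centralizer_closure_pair, Subgroup.mem_centralizer_singleton_iff]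
    tauto
  obtain ⟨ψ, hψ, hk⟩ := hp.exists_hom_X
  refine ⟨hp.R_eq, le_antisymm (le_map_pCore Pair.R_le_X hp.X_le_normalizer_R hp.isPGroup_R) ?_,
    ⟨hk ▸ inferInstance, ?_⟩, ?_, ?_, fun x hx => (hC x).2 (hp.R_comm hx),
    fun x hx c hc => hp.commutator_mem_R hx ((hC c).1 hc).1 ((hC c).1 hc).2, ?_⟩
  · rintro _ ⟨x, hx, rfl⟩
    have h1 : ψ x ∈ Cfsg.pCore 2 (Equiv.Perm (Fin 3)) := map_pCore_le hψ ⟨x, hx, rfl⟩
    have h2 : ∀ σ ∈ Cfsg.pCore 2 (Equiv.Perm (Fin 3)), σ = 1 := by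
      intro σ hσ
      have : Fact (Nat.Prime 2) := ⟨Nat.prime_two⟩
      have key : ∀ τ ∈ Cfsg.pCore 2 (Equiv.Perm (Fin 3)), τ ^ 3 = 1 → τ = 1 := by
        intro τ hτ h3
        obtain ⟨k, hk⟩ := isPGroup_pCore 2 (Equiv.Perm (Fin 3)) ⟨τ, hτ⟩
        have h4 : τ ^ 2 ^ k = 1 := congrArg Subtype.val hk
        exact orderOf_eq_one_iff.1 (Nat.eq_one_of_dvd_coprimes
          (Nat.Coprime.pow_left k (by norm_num : Nat.Coprime 2 3))
          (orderOf_dvd_of_pow_eq_one h4) (orderOf_dvd_of_pow_eq_one h3))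
      rcases (by decide +kernel : ∀ σ : Equiv.Perm (Fin 3), σ ^ 3 = 1 ∨ ∃ ρ : Equiv.Perm (Fin 3),
        (σ * (ρ * σ * ρ⁻¹)) ^ 3 = 1 ∧ σ * (ρ * σ * ρ⁻¹) ≠ 1) σ with e | ⟨ρ, e1, e2⟩
      · exact key σ hσ e
      · exact absurd (key _ (Subgroup.mul_mem _ hσ
          ((inferInstance : (Cfsg.pCore 2 (Equiv.Perm (Fin 3))).Normal).conj_mem σ hσ ρ)) e1) e2
    have h3 : x ∈ ψ.ker := h2 _ h1
    rw [hk] at h3
    exact h3
  · have : ((Pair.RR Q P z s).subgroupOf (Q ⊔ P)).Normal := hk ▸ inferInstance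
    exact ⟨(QuotientGroup.quotientMulEquivOfEq hk.symm).trans
      (QuotientGroup.quotientKerEquivOfSurjective ψ hψ)⟩
  · apply le_antisymm
    · intro n hn
      obtain ⟨x, hx, c, c1, c2, rfl⟩ := hp.exists_X_mul hn
      exact Subgroup.mul_mem_sup hx ((hC c).2 ⟨c1, c2⟩)
    · exact sup_le hp.X_le_normalizer (inf_le_right.trans (Subgroup.centralizer_le_normalizer _))
  · intro n hn y hy
    obtain ⟨x, hx, c, c1, c2, rfl⟩ := hp.exists_X_mul hn
    have h1 : c * y * c⁻¹ ∈ Q ⊔ P := by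
      have := Subgroup.mul_mem _ (Subgroup.inv_mem _ (Pair.R_le_X (hp.commutator_mem_R hy c1 c2))) hy
      convert this using 1; group
    have := Subgroup.mul_mem _ (Subgroup.mul_mem _ hx h1) (Subgroup.inv_mem _ hx)
    convert this using 1; group
  · apply le_antisymm
    · intro x hx
      exact hp.mem_R_of_mem_X hx.1 ((hC x).1 hx.2).1 ((hC x).1 hx.2).2
    · exact fun x hx => ⟨Pair.R_le_X hx, (hC x).2 (hp.R_comm hx)⟩

end Cfsg.Agent.S5430
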