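import Cfsg.Statements.S5434
import Cfsg.Agent.SPOR.LXStruct

set_option autoImplicit false
open Cfsg

namespace Cfsg.Agent.S5434

open CL CL.LX CL.MSS


/-- Let Q be a large extraspecial 2-subgroup of the finite group G (extraspecial; centralizer equal to its centre; normal in the centralizer of its centre; normalizing no non-trivial subgroup of odd order), and A a non-trivial subgroup of odd order of the normalizer of Q. Then Q is the central product of the centralizer of A in Q and the commutator subgroup [Q, A] (they generate Q and commute elementwise), [Q, A] is extraspecial, and the centralizer of A in Q is either the centre of Q or extraspecial. -/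
theorem result {G : Type*} [Group G] [Finite G] (Q : Subgroup G) (hQ : Cfsg.IsLargeExtraspecial Q) (A : Subgroup G) (hA : A ≤ Subgroup.normalizer (Q : Set G)) (hAodd : Odd (Nat.card ↥A)) (hA1 : A ≠ ⊥) : (Q ⊓ Subgroup.centralizer (A : Set G)) ⊔ ⁅Q, A⁆ = Q ∧ (∀ x ∈ Q ⊓ Subgroup.centralizer (A : Set G), ∀ y ∈ ⁅Q, A⁆, x * y = y * x) ∧ Cfsg.IsExtraspecial 2 ↥⁅Q, A⁆ ∧ (Q ⊓ Subgroup.centralizer (A : Set G) = ((Subgroup.center ↥Q).map Q.subtype) ∨ Cfsg.IsExtraspecial 2 ↥(Q ⊓ Subgroup.centralizer (A : Set G))) := by
  obtain ⟨z, hz⟩ := exists_es_of_isExtraspecial hQ.1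
  have h := lx_of_large hz hQ
  have hd := hz.decomp hA hAodd
  have hDQ : ⁅Q, A⁆ ≤ Q := commutator_le_left_of_normalizes hA
  have hc := hz.comm_centralizer_commutator hA
  refine ⟨le_antisymm (sup_le inf_le_left hDQ) (fun k hk => ?_), hc, ?_, ?_⟩
  · obtain ⟨s, hs, c, hc', rfl⟩ := hd k hk
    exact Subgroup.mul_mem _ (Subgroup.mem_sup_right hs) (Subgroup.mem_sup_left hc')
  · have hne : ∃ x ∈ ⁅Q, A⁆, x ≠ 1 ∧ x ≠ z := by
      by_contra hn
      push Not at hn
      apply hA1
      rw [eq_bot_iff]
      intro a ha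
      have : ∀ y ∈ Q, a * y = y * a := by
        intro y hy
        obtain ⟨s, hs, c, hc', rfl⟩ := hd y hy
        have e1 : a * c = c * a := hc'.2 a ha
        have e2 : a * s = s * a := by
          by_cases e : s = 1
          · simp [e]
          · rw [hn s hs e]; exact LX.comm_of_mem_normalizer hz (hA ha)
        rw [← mul_assoc, e2, mul_assoc, e1, mul_assoc]
      rcases h.self_cent a this with e | e
      · exact e
      · exact eq_one_of_odd_of_pgroup hAodd hz.isPGroup ha (e ▸ hz.z_mem)
    refine (hz.of_le hDQ (h.mem_of_two_subgroup (hz.isPGroup.to_le hDQ)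
      (Subgroup.normalizer_commutator_ge_left Q A) ?_) ?_ hne).isExtraspecial
    · obtain ⟨x, hx, h1, -⟩ := hne
      exact fun e => h1 (by rwa [e] at hx)
    · intro x hx hxc
      refine hz.cent x (hDQ hx) (fun k hk => ?_)
      obtain ⟨s, hs, c, hc', rfl⟩ := hd k hk
      rw [← mul_assoc, hxc s hs, mul_assoc, ← hc c hc' x hx, mul_assoc]
  · by_cases hne : ∃ x ∈ Q ⊓ Subgroup.centralizer (A : Set G), x ≠ 1 ∧ x ≠ z
    · exact Or.inr (hz.of_le inf_le_left (hz.z_mem_centralizer hA)
        (hz.cent_centralizer hA hAodd) hne).isExtraspecial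
    · left
      push Not at hne
      ext x
      rw [hz.mem_center_iff]
      constructor
      · intro hx
        by_cases e : x = 1
        · exact Or.inl e
        · exact Or.inr (hne x hx e)
      · rintro (rfl | rfl)
        · exact Subgroup.one_mem _
        · exact hz.z_mem_centralizer hA

end Cfsg.Agent.S5434
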