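import Cfsg.Statements.S5438


set_option autoImplicit false
open Cfsg

namespace Cfsg.Agent.S5438

/-- two involutions with unique fixed points inside a finite group `K`: the points are in one `K`-orbit -/
theorem orbit_of_unique_fixed {G : Type*} [Group G] [Finite G] {X : Type*} [MulAction G X]
    (K : Subgroup G) (a b : G) (ha : a ∈ K) (hb : b ∈ K) (ha2 : a * a = 1) (hb2 : b * b = 1)
    (α β : X) (hα : ∀ x, a • x = x ↔ x = α) (hβ : ∀ x, b • x = x → x = β) :
    ∃ k ∈ K, k • α = β := by
  classical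
  haveI : Finite (MulAction.orbit K α) := Finite.finite_mulAction_orbit α
  haveI : Fintype (MulAction.orbit K α) := Fintype.ofFinite _
  let fa : MulAction.orbit K α → MulAction.orbit K α := fun x => (⟨a, ha⟩ : K) • x
  let fb : MulAction.orbit K α → MulAction.orbit K α := fun x => (⟨b, hb⟩ : K) • x
  have hfa : Function.Involutive fa := by
    intro x
    simp only [fa, smul_smul]
    have : (⟨a, ha⟩ : K) * ⟨a, ha⟩ = 1 := Subtype.ext ha2
    rw [this, one_smul]
  have hfb : Function.Involutive fb := by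
    intro x
    simp only [fb, smul_smul]
    have : (⟨b, hb⟩ : K) * ⟨b, hb⟩ = 1 := Subtype.ext hb2
    rw [this, one_smul]
  haveI : Fact (Nat.Prime 2) := ⟨Nat.prime_two⟩
  have h1 := Equiv.Perm.card_fixedPoints_modEq (p := 2) (n := 1) (f := fa) (by
    funext x; exact hfa x)
  have h2 := Equiv.Perm.card_fixedPoints_modEq (p := 2) (n := 1) (f := fb) (by
    funext x; exact hfb x)
  have h3 : Fintype.card (Function.fixedPoints fa) = 1 := by
    rw [Fintype.card_eq_one_iff]
    refine ⟨⟨⟨α, MulAction.mem_orbit_self α⟩, ?_⟩, ?_⟩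
    · apply Subtype.ext
      exact (hα α).2 rfl
    · rintro ⟨⟨x, hx⟩, hx'⟩
      apply Subtype.ext; apply Subtype.ext
      exact (hα x).1 (congrArg Subtype.val hx')
  have h4 : Fintype.card (Function.fixedPoints fb) ≠ 0 := by
    intro h0
    rw [h3] at h1; rw [h0] at h2
    have := h1.symm.trans h2
    exact absurd this (by decide)
  obtain ⟨⟨⟨x, hx⟩, hx'⟩⟩ := Fintype.card_pos_iff.1 (Nat.pos_of_ne_zero h4)
  have hxβ : x = β := hβ x (congrArg Subtype.val hx')
  obtain ⟨k, hk⟩ := hx
  exact ⟨k, k.2, by rw [← hxβ, ← hk]; rfl⟩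


/-- Let z be a 2-central involution of the finite group G (an involution central in some Sylow 2-subgroup) and H a subgroup containing z such that the coset H is the only coset of H fixed by z (in the action of G on the cosets of H). Then H has odd index in G, and for every 2-element x of H the conjugates of x lying in H form a single H-class. -/
theorem result {G : Type*} [Group G] [Finite G] (z : G) (hz : Cfsg.IsTwoCentralInvolution z) (H : Subgroup G) (hzH : z ∈ H) (hfix : ∀ g : G, g⁻¹ * z * g ∈ H → g ∈ H) : Odd H.index ∧ ∀ x ∈ H, (∃ k : ℕ, orderOf x = 2 ^ k) → ∀ g : G, g * x * g⁻¹ ∈ H → ∃ h ∈ H, h * x * h⁻¹ = g * x * g⁻¹ := by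
  obtain ⟨hz2, P, hzP, hP⟩ := hz
  haveI : Fact (Nat.Prime 2) := ⟨Nat.prime_two⟩
  have hzz : z * z = 1 := by rw [← pow_two, ← hz2, pow_orderOf_eq_one]
  have hPH : (P : Subgroup G) ≤ H := by
    intro x hx
    apply hfix
    rw [mul_assoc, ← hP x hx]; simpa using hzH
  have hsm : ∀ (g x : G), x • (g : G ⧸ H) = g ↔ g⁻¹ * x * g ∈ H := by
    intro g x
    rw [MulAction.Quotient.smul_coe, smul_eq_mul, eq_comm, QuotientGroup.eq, mul_assoc]
  refine ⟨?_, ?_⟩
  · have h1 : H.index ∣ (P : Subgroup G).index := Subgroup.index_dvd_of_le hPH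
    have h2 : ¬ 2 ∣ (P : Subgroup G).index := P.not_dvd_index
    rw [← Nat.not_even_iff_odd, even_iff_two_dvd]
    exact fun h => h2 (h.trans h1)
  · -- every 2-element of `H` centralizes an `H`-conjugate of `z`
    have hA : ∀ x ∈ H, (∃ k : ℕ, orderOf x = 2 ^ k) → ∃ h ∈ H, x * (h * z * h⁻¹) = (h * z * h⁻¹) * x := by
      rintro x hx ⟨k, hk⟩
      have hp : IsPGroup 2 (Subgroup.zpowers (⟨x, hx⟩ : H)) := by
        apply IsPGroup.of_card (n := k)
        rw [Nat.card_zpowers, ← hk]
        exact (Subgroup.orderOf_mk x hx)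
      obtain ⟨Q, hQ⟩ := hp.exists_le_sylow
      obtain ⟨h, hh⟩ := MulAction.exists_smul_eq H (P.subtype hPH) Q
      have hxQ : (⟨x, hx⟩ : H) ∈ Q := hQ (Subgroup.mem_zpowers _)
      rw [← hh] at hxQ
      have : h⁻¹ * ⟨x, hx⟩ * h ∈ (P : Subgroup G).subgroupOf H := by
        have h' := hxQ
        rw [Sylow.smul_def, ← SetLike.mem_coe, ← Sylow.coe_coe, Sylow.pointwise_smul_def,
          SetLike.mem_coe, Subgroup.mem_pointwise_smul_iff_inv_smul_mem] at h'
        simpa using h'
      have h2 : (h : G)⁻¹ * x * h ∈ P := this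
      refine ⟨h, h.2, ?_⟩
      have := hP _ h2
      calc x * (h * z * (h : G)⁻¹) = h * ((h : G)⁻¹ * x * h * z) * (h : G)⁻¹ := by group
        _ = h * (z * ((h : G)⁻¹ * x * h)) * (h : G)⁻¹ := by rw [this]
        _ = _ := by group
    intro x hx hk g hg
    obtain ⟨h1, hh1, e1⟩ := hA x hx hk
    obtain ⟨h2, hh2, e2⟩ := hA _ hg (by
      obtain ⟨k, hk⟩ := hk
      refine ⟨k, ?_⟩
      rw [← hk]
      exact (MulAut.conj g).orderOf_eq x)
    obtain ⟨c, hc, hc'⟩ := orbit_of_unique_fixed (X := G ⧸ H) (Subgroup.centralizer ({x} : Set G))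
      (h1 * z * h1⁻¹) (g⁻¹ * (h2 * z * h2⁻¹) * g)
      (by rw [Subgroup.mem_centralizer_singleton_iff]; exact e1.symm)
      (by
        rw [Subgroup.mem_centralizer_singleton_iff]
        calc g⁻¹ * (h2 * z * h2⁻¹) * g * x = g⁻¹ * ((h2 * z * h2⁻¹) * (g * x * g⁻¹)) * g := by group
          _ = g⁻¹ * ((g * x * g⁻¹) * (h2 * z * h2⁻¹)) * g := by rw [e2]
          _ = _ := by group)
      (by calc h1 * z * h1⁻¹ * (h1 * z * h1⁻¹) = h1 * (z * z) * h1⁻¹ := by group
          _ = 1 := by rw [hzz]; group)
      (by calc g⁻¹ * (h2 * z * h2⁻¹) * g * (g⁻¹ * (h2 * z * h2⁻¹) * g)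
            = g⁻¹ * h2 * (z * z) * h2⁻¹ * g := by group
          _ = 1 := by rw [hzz]; group)
      ((1 : G) : G ⧸ H) ((g⁻¹ : G) : G ⧸ H)
      (by
        intro c
        induction c using QuotientGroup.induction_on with
        | H u =>
          rw [hsm, QuotientGroup.eq]
          constructor
          · intro h
            have := hfix (h1⁻¹ * u) (by convert h using 1; group)
            simpa using H.mul_mem hh1 this
          · intro h
            have hu : u ∈ H := by simpa using h
            exact H.mul_mem (H.mul_mem (H.inv_mem hu) (H.mul_mem (H.mul_mem hh1 hzH) (H.inv_mem hh1))) hu)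
      (by
        intro c
        induction c using QuotientGroup.induction_on with
        | H u =>
          rw [hsm, QuotientGroup.eq]
          intro h
          have := hfix (h2⁻¹ * g * u) (by convert h using 1; group)
          have h3 := H.inv_mem (H.mul_mem hh2 this)
          convert h3 using 1; group)
    rw [MulAction.Quotient.smul_coe, smul_eq_mul, eq_comm, QuotientGroup.eq] at hc'
    rw [Subgroup.mem_centralizer_singleton_iff] at hc
    refine ⟨g * c, by simpa using hc', ?_⟩
    calc g * c * x * (g * c)⁻¹ = g * (c * x) * c⁻¹ * g⁻¹ := by group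
      _ = _ := by rw [hc]; group

end Cfsg.Agent.S5438
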