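import Cfsg.Statements.S5435
import Cfsg.Agent.SPOR.LXStruct
import Cfsg.Agent.S5438
import Cfsg.Agent.PLOC.PFrattini
import Cfsg.Agent.TECH.SylIn
import Cfsg.Agent.INV.TwoInv

set_option autoImplicit false
open Cfsg

namespace Cfsg.Agent.S5435

open CL CL.LX CL.MSS
open scoped commutatorElement

/-- local data at an involution `z` -/
structure Loc {G : Type*} [Group G] (z : G) : Prop where
  ne : z ≠ 1
  sq : z * z = 1
  S : ∀ x, x * z = z * x → x * x = 1 ∨ x * x = z
  C : ∀ x y, x * z = z * x → y * z = z * y → x * y = y * x ∨ x * y = y * x * z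
  X : ∃ x, x * z = z * x ∧ x * x = z

section
variable {G : Type*} [Group G]

theorem comm_conj {z x g : G} : x * (g * z * g⁻¹) = (g * z * g⁻¹) * x ↔
    (g⁻¹ * x * g) * z = z * (g⁻¹ * x * g) := by
  constructor
  · intro e
    calc (g⁻¹ * x * g) * z = g⁻¹ * (x * (g * z * g⁻¹)) * g := by group
      _ = _ := by rw [e]; group
  · intro e
    calc x * (g * z * g⁻¹) = g * ((g⁻¹ * x * g) * z) * g⁻¹ := by group
      _ = _ := by rw [e]; group

theorem Loc.conj {z : G} (h : Loc z) (g : G) : Loc (g * z * g⁻¹) where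
  ne := by simpa using h.ne
  sq := by rw [show g * z * g⁻¹ * (g * z * g⁻¹) = g * (z * z) * g⁻¹ by group, h.sq]; group
  S := by
    intro x hx
    rcases h.S _ (comm_conj.1 hx) with e | e
    · left
      calc x * x = g * (g⁻¹ * x * g * (g⁻¹ * x * g)) * g⁻¹ := by group
        _ = _ := by rw [e]; group
    · right
      calc x * x = g * (g⁻¹ * x * g * (g⁻¹ * x * g)) * g⁻¹ := by group
        _ = _ := by rw [e]
  C := by
    intro x y hx hy
    rcases h.C _ _ (comm_conj.1 hx) (comm_conj.1 hy) with e | e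
    · left
      calc x * y = g * (g⁻¹ * x * g * (g⁻¹ * y * g)) * g⁻¹ := by group
        _ = _ := by rw [e]; group
    · right
      calc x * y = g * (g⁻¹ * x * g * (g⁻¹ * y * g)) * g⁻¹ := by group
        _ = _ := by rw [e]; group
  X := by
    obtain ⟨x, hx, hx'⟩ := h.X
    refine ⟨g * x * g⁻¹, comm_conj.2 (by simpa [mul_assoc] using hx), ?_⟩
    rw [← hx']; group

theorem Loc.of_isConj {z s : G} (h : Loc z) (hs : IsConj z s) : Loc s := by
  obtain ⟨g, rfl⟩ := isConj_iff.1 hs
  exact h.conj g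

theorem Loc.NC {z s : G} (h : Loc z) (h' : Loc s) (hne : s ≠ z) {x : G} (hx : x * x = z) :
    x * s ≠ s * x := by
  intro e
  rcases h'.S x e with e' | e'
  · exact h.ne (hx.symm.trans e')
  · exact hne (e'.symm.trans hx)

theorem Loc.A_sq {z s : G} (h : Loc z) (h' : Loc s) (hne : s ≠ z) {x : G} (hx : x * z = z * x)
    (hx' : x * s = s * x) : x * x = 1 := by
  rcases h.S x hx with e | e
  · exact e
  · exact absurd hx' (h.NC h' hne e)

theorem Loc.A_comm {z s : G} (h : Loc z) (h' : Loc s) (hne : s ≠ z) {x y : G} (hx : x * z = z * x)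
    (hx' : x * s = s * x) (hy : y * z = z * y) (hy' : y * s = s * y) : x * y = y * x := by
  rcases h.C x y hx hy with e | e
  · exact e
  · rcases h'.C x y hx' hy' with e' | e'
    · exact e'
    · exact absurd (mul_left_cancel (e'.symm.trans e)) hne

theorem Loc.mul_comm {z : G} (h : Loc z) {b x y : G} (hb : b * z = z * b) (hx : x * z = z * x)
    (hy : y * z = z * y) (h1 : x * b ≠ b * x) (h2 : y * b ≠ b * y) : (x * y) * b = b * (x * y) := by
  have e1 := (h.C x b hx hb).resolve_left h1
  have e2 := (h.C y b hy hb).resolve_left h2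
  calc (x * y) * b = x * (y * b) := by group
    _ = (x * b) * (y * z) := by rw [e2]; group
    _ = b * x * (z * z) * y := by rw [e1, hy]; group
    _ = _ := by rw [h.sq]; group

theorem Loc.conj_eq {z : G} (h : Loc z) {a r : G} (ha : a * z = z * a) (hr : r * z = z * r)
    (h1 : r * a ≠ a * r) : r * a * r⁻¹ = a * z := by
  rw [(h.C r a hr ha).resolve_left h1, mul_assoc a, hr]; group

theorem Loc.T {z s : G} (h : Loc z) (h' : Loc s) (hne : s ≠ z) (hsz : s * z = z * s) {a : G}
    (ha : a * z = z * a) (ha' : a * s = s * a) :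
    ∃ t, IsConj a t ∧ (∀ x, x * z = z * x → x * t = t * x) ∧ (t = a ∨ t = a * s ∨ t = a * z * s) := by
  by_cases hc : ∀ x, x * z = z * x → x * a = a * x
  · exact ⟨a, IsConj.refl _, hc, Or.inl rfl⟩
  push Not at hc
  obtain ⟨r, hr, hra⟩ := hc
  have hrs : r * s ≠ s * r := fun e => hra (h.A_comm h' hne hr e ha ha')
  have hcen : ∀ x, x * z = z * x → x * (a * s) = (a * s) * x := by
    intro x hx
    by_cases hxs : x * s = s * x
    · exact ((show Commute x a from h.A_comm h' hne hx hxs ha ha').mul_right hxs).eq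
    · have hxa : x * a ≠ a * x := by
        intro e
        have h1 := h.mul_comm hsz hx hr hxs hrs
        have h2 := h.A_comm h' hne ((show Commute x z from hx).mul_left hr).eq h1 ha ha'
        apply hra
        have : x * (r * a) = x * (a * r) := by rw [← mul_assoc, h2, ← mul_assoc, ← mul_assoc, e]
        exact mul_left_cancel this
      exact (h.mul_comm hx ha hsz (Ne.symm hxa) (Ne.symm hxs)).symm
  by_cases hc' : ∀ x, x * s = s * x → x * a = a * x
  · obtain ⟨x, hx, hx'⟩ := h'.X
    have h1 := h'.NC h hne.symm hx'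
    have h2 : x * (a * z) ≠ (a * z) * x := by
      intro e
      apply h1
      rw [← mul_assoc, hc' x hx, mul_assoc, mul_assoc] at e
      exact mul_left_cancel e
    have h3 := h'.conj_eq ((show Commute a s from ha').mul_left hsz.symm).eq hx h2
    refine ⟨a * z * s, (isConj_iff.2 ⟨r, h.conj_eq ha hr hra⟩).trans (isConj_iff.2 ⟨x, h3⟩), ?_,
      Or.inr (Or.inr rfl)⟩
    intro y hy
    rw [mul_assoc a z s, ← hsz, ← mul_assoc a s z]
    exact ((show Commute y (a * s) from hcen y hy).mul_right hy).eq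
  · push Not at hc'
    obtain ⟨x, hx, hxa⟩ := hc'
    exact ⟨a * s, isConj_iff.2 ⟨x, h'.conj_eq ha' hx hxa⟩, hcen, Or.inr (Or.inl rfl)⟩

theorem extremal [Finite G] {z : G} (R : Sylow 2 G)
    (hR : (R : Subgroup G) = Subgroup.centralizer ({z} : Set G)) {t y : G}
    (ht : ∀ x, x * z = z * x → x * t = t * x) (hy : IsConj t y) :
    ∃ k : G, k * t * k⁻¹ = y ∧ ∀ x, x * z = z * x → x * y = y * x →
      x * (k * z * k⁻¹) = (k * z * k⁻¹) * x := by
  obtain ⟨g, rfl⟩ := isConj_iff.1 hy
  have h1 : SylIn 2 (g •ᶜ (R : Subgroup G)) (Subgroup.centralizer ({g * t * g⁻¹} : Set G)) := by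
    refine ((sylIn_top R).cj_of_mem (Subgroup.mem_top g)).of_le ?_ le_top
    intro x hx
    rw [mem_cj, hR] at hx
    exact Subgroup.mem_centralizer_singleton_iff.2
      (comm_conj.2 (ht _ (Subgroup.mem_centralizer_singleton_iff.1 hx)))
  obtain ⟨c, hc, hc'⟩ := h1.exists_le_conj
    (R := (R : Subgroup G) ⊓ Subgroup.centralizer ({g * t * g⁻¹} : Set G))
    (R.isPGroup'.to_le inf_le_left) inf_le_right
  refine ⟨c * g, ?_, fun x hx hx' => ?_⟩
  · have := Subgroup.mem_centralizer_singleton_iff.1 hc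
    calc c * g * t * (c * g)⁻¹ = c * (g * t * g⁻¹) * c⁻¹ := by group
      _ = _ := by rw [this]; group
  · have := hc' ⟨hR ▸ Subgroup.mem_centralizer_singleton_iff.2 hx,
      Subgroup.mem_centralizer_singleton_iff.2 hx'⟩
    rw [← cj_mul, mem_cj, hR] at this
    exact comm_conj.2 (Subgroup.mem_centralizer_singleton_iff.1 this)

end


/-- Let L be a finite non-abelian simple group with an involution z whose centralizer R is a Sylow 2-subgroup of L whose Frattini subgroup is the subgroup generated by z. Then R is dihedral of order 8. -/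
theorem result {L : Type*} [Group L] [Finite L] [IsSimpleGroup L] (hL : ¬ IsMulCommutative L) (z : L) (hz : orderOf z = 2) (R : Sylow 2 L) (hR : (R : Subgroup L) = Subgroup.centralizer ({z} : Set L)) (hΦ : (frattini ↥(R : Subgroup L)).map (R : Subgroup L).subtype = Subgroup.zpowers z) : Nonempty (↥(R : Subgroup L) ≃* DihedralGroup 4) := by
  have hz2 := sq_of_orderOf hz
  have mem : ∀ x, x ∈ (R : Subgroup L) ↔ x * z = z * x := fun x => by
    rw [hR, Subgroup.mem_centralizer_singleton_iff]
  have hΦ' := (CL.PG.frattini_map_subtype_le_iff (p := 2) R.isPGroup').1 hΦ.le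
  have hS : ∀ x, x * z = z * x → x * x = 1 ∨ x * x = z := fun x hx => by
    rw [← mem_zpowers_of_sq hz2, ← pow_two]; exact hΦ'.2 x ((mem x).2 hx)
  have hC : ∀ x y, x * z = z * x → y * z = z * y → ⁅x, y⁆ = 1 ∨ ⁅x, y⁆ = z := fun x y hx hy => by
    rw [← mem_zpowers_of_sq hz2]
    exact hΦ'.1 (Subgroup.commutator_mem_commutator ((mem x).2 hx) ((mem y).2 hy))
  have h : Loc z := by
    refine ⟨ne_one_of_orderOf hz, hz2, hS, fun x y hx hy => ?_, ?_⟩
    · rcases hC x y hx hy with e | e
      · exact Or.inl (commutatorElement_eq_one_iff_mul_comm.1 e)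
      · right
        rw [((show Commute y z from hy).mul_left hx).eq, ← e, commutatorElement_def]; group
    · by_contra hcon
      push Not at hcon
      have h1 : ∀ x ∈ (R : Subgroup L), x * x = 1 := fun x hx =>
        (hS x ((mem x).1 hx)).resolve_right (hcon x ((mem x).1 hx))
      have : (frattini ↥(R : Subgroup L)).map (R : Subgroup L).subtype ≤ ⊥ := by
        refine (CL.PG.frattini_map_subtype_le_iff (p := 2) R.isPGroup').2 ⟨?_, fun g hg => ?_⟩
        · rw [Subgroup.commutator_le]
          intro x hx y hy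
          rw [Subgroup.mem_bot, commutatorElement_def, inv_eq_of_mul_eq_one_right (h1 x hx),
            inv_eq_of_mul_eq_one_right (h1 y hy), mul_assoc (x * y)]
          exact h1 _ (mul_mem hx hy)
        · rw [pow_two]; exact h1 g hg
      exact ne_one_of_orderOf hz (this (hΦ ▸ Subgroup.mem_zpowers z))
  have hperf : commutator L = ⊤ := by
    rcases (inferInstance : (commutator L).Normal).eq_bot_or_eq_top with e | e
    · exact absurd ⟨⟨fun a b => commutatorElement_eq_one_iff_mul_comm.1 (by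
        rw [← Subgroup.mem_bot, ← e]
        exact Subgroup.commutator_mem_commutator (Subgroup.mem_top a) (Subgroup.mem_top b))⟩⟩ hL
    · exact e
  have hfoc : ∀ K : Subgroup L, z ∈ K → (∀ x x', x * z = z * x → x' * z = z * x' → x * x = 1 →
      IsConj x x' → x * x' ∈ K) → (R : Subgroup L) ≤ K := by
    intro K hzK hK
    have := Subgroup.commutator_inf_eq_focalSubgroup R
    rw [hperf, top_inf_eq] at this
    rw [this, Subgroup.focalSubgroup_def, Subgroup.closure_le]
    rintro _ ⟨hg, x, hx, u, rfl⟩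
    have hx' : u * x⁻¹ * u⁻¹ ∈ (R : Subgroup L) := by
      have := mul_mem (inv_mem hx) hg
      rwa [commutatorElement_def, show x⁻¹ * (x * u * x⁻¹ * u⁻¹) = u * x⁻¹ * u⁻¹ by group] at this
    rcases hS x ((mem x).1 hx) with e | e
    · have := hK x _ ((mem x).1 hx) ((mem _).1 hx') e
        (isConj_iff.2 ⟨u, by rw [inv_eq_of_mul_eq_one_right e]⟩)
      rwa [show x * (u * x⁻¹ * u⁻¹) = ⁅x, u⁆ by rw [commutatorElement_def]; group] at this
    · have e1 : (u * x⁻¹ * u⁻¹) * (u * x⁻¹ * u⁻¹) = u * z * u⁻¹ := by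
        rw [← inv_eq_of_mul_eq_one_right hz2, ← e]; group
      have hu : u * z = z * u := by
        rcases hS _ ((mem _).1 hx') with e2 | e2
        · exact absurd (e1.symm.trans e2) (h.conj u).ne
        · rw [← mul_inv_eq_iff_eq_mul, ← e1, e2]
      rcases hC x u ((mem x).1 hx) hu with e2 | e2
      · rw [e2]; exact K.one_mem
      · rw [e2]; exact hzK
  obtain ⟨x0, hx0, hx0'⟩ := h.X
  by_cases hiso : ∀ s, IsConj z s → s * z = z * s → s = z
  · exfalso
    have h38 := (Cfsg.Agent.S5438.result z ⟨hz, R, (mem z).2 rfl, fun x hx => (mem x).1 hx⟩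
      (R : Subgroup L) ((mem z).2 rfl) (fun g hg => by
        have := hiso (g⁻¹ * z * g) (isConj_iff.2 ⟨g⁻¹, by simp⟩) ((mem _).1 hg)
        rw [mem, ← mul_left_cancel_iff (a := g⁻¹), ← mul_assoc, ← mul_assoc, this]; simp)).2
    have := hfoc (Subgroup.zpowers z) (Subgroup.mem_zpowers z) (fun x x' hx hx' e hc => by
      obtain ⟨u, rfl⟩ := isConj_iff.1 hc
      obtain ⟨k, -, hk⟩ := (Nat.dvd_prime_pow Nat.prime_two (m := 1)).1
        (orderOf_dvd_of_pow_eq_one (x := x) (n := 2 ^ 1) (by rw [pow_one, pow_two, e]))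
      obtain ⟨r, hr, hr'⟩ := h38 x ((mem x).2 hx) ⟨k, hk⟩ u ((mem _).2 hx')
      rw [← hr', mem_zpowers_of_sq hz2]
      have := hC x r hx ((mem r).1 hr)
      rwa [commutatorElement_def, inv_eq_of_mul_eq_one_right e, mul_assoc, mul_assoc,
        ← mul_assoc r] at this)
    rcases (mem_zpowers_of_sq hz2).1 (this ((mem x0).2 hx0)) with e | e
    · exact h.ne (by rw [← hx0', e, one_mul])
    · exact h.ne (by rw [← hx0', e, hz2])
  push Not at hiso
  obtain ⟨s, hs, hsz, hne⟩ := hiso
  have h' := h.of_isConj hs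
  have huniq : ∀ t t', (∀ x, x * z = z * x → x * t = t * x) → (∀ x, x * z = z * x → x * t' = t' * x) →
      IsConj t t' → t = t' := by
    intro t t' ht ht' hc
    obtain ⟨k, hk, hk'⟩ := extremal R hR ht hc
    have : k * z * k⁻¹ = z := by
      by_contra hne'
      exact h.NC (h.conj k) hne' hx0' (hk' x0 hx0 (ht' x0 hx0))
    rw [← hk, ht k (mul_inv_eq_iff_eq_mul.1 this)]; group
  by_cases hy : ∀ y, IsConj z y → y * z = z * y → y * s = s * y
  · exfalso
    have hCl : ∀ x y, x * z = z * x → x * s = s * x → y * z = z * y → IsConj x y → y * s = s * y := by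
      intro x y hx hx' hyz hc
      by_contra hys
      obtain ⟨t, ht, ht', -⟩ := h.T h' hne hsz hx hx'
      obtain ⟨k, hk, hk'⟩ := extremal R hR ht' (ht.symm.trans hc)
      have hne' : k * z * k⁻¹ ≠ z := by
        intro e
        apply hys
        rw [← hk, ht' k (mul_inv_eq_iff_eq_mul.1 e), mul_inv_cancel_right, ht' s hsz]
      have a1 := (hk' z rfl hyz.symm).symm
      have a2 := hy _ (isConj_iff.2 ⟨k, rfl⟩) a1
      have a3 := hk' y hyz rfl
      apply h.NC (h.conj k) hne' hx0'
      have a4 := h.mul_comm hsz hx0 hyz (h.NC h' hne hx0') hys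
      have a5 := h.A_comm h' hne ((show Commute x0 z from hx0).mul_left hyz).eq a4 a1 a2
      have : (x0 * (k * z * k⁻¹)) * y = (k * z * k⁻¹ * x0) * y := by
        rw [mul_assoc, ← a3, ← mul_assoc, a5, mul_assoc (k * z * k⁻¹)]
      exact mul_right_cancel this
    have := hfoc (Subgroup.centralizer {s}) (Subgroup.mem_centralizer_singleton_iff.2 hsz.symm)
      (fun x x' hx hx' e hc => by
        rw [Subgroup.mem_centralizer_singleton_iff]
        by_cases h1 : x * s = s * x
        · exact ((show Commute x s from h1).mul_left (hCl x x' hx h1 hx' hc)).eq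
        · exact h.mul_comm hsz hx hx' h1 (fun h2 => h1 (hCl x' x hx' h2 hx hc.symm)))
    exact h.NC h' hne hx0' (Subgroup.mem_centralizer_singleton_iff.1 (this ((mem x0).2 hx0)))
  push Not at hy
  obtain ⟨y, hy, hyz, hys⟩ := hy
  have h'' := h.of_isConj hy
  have hne' : y ≠ z := fun e => hys (e ▸ hsz.symm)
  have hsy : s * y * (s * y) = z := by
    have e := (h.C y s hyz hsz).resolve_left hys
    calc s * y * (s * y) = s * (y * s) * y := by group
      _ = (s * s) * (y * z) * y := by rw [e]; group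
      _ = z := by rw [h'.sq, hyz, one_mul, mul_assoc, h''.sq, mul_one]
  set K := Subgroup.closure ({s * y, s} : Set L) with hK
  have hsK : s ∈ K := Subgroup.subset_closure (by simp)
  have hsyK : s * y ∈ K := Subgroup.subset_closure (by simp)
  have hyK : y ∈ K := by simpa using K.mul_mem (K.inv_mem hsK) hsyK
  have hzK : z ∈ K := hsy ▸ K.mul_mem hsyK hsyK
  have hT : ∀ x, x * z = z * x → x * x = 1 →
      ∃ t, IsConj x t ∧ (∀ w, w * z = z * w → w * t = t * w) ∧ x⁻¹ * t ∈ K := by
    intro x hx e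
    by_cases h1 : x * s = s * x
    · obtain ⟨t, a1, a2, a3⟩ := h.T h' hne hsz hx h1
      refine ⟨t, a1, a2, ?_⟩
      rcases a3 with rfl | rfl | rfl
      · simp
      · simpa using hsK
      · simpa [mul_assoc] using K.mul_mem hzK hsK
    by_cases h2 : x * y = y * x
    · obtain ⟨t, a1, a2, a3⟩ := h.T h'' hne' hyz hx h2
      refine ⟨t, a1, a2, ?_⟩
      rcases a3 with rfl | rfl | rfl
      · simp
      · simpa using hyK
      · simpa [mul_assoc] using K.mul_mem hzK hyK
    exfalso
    have a1 := h.A_sq h' hne ((show Commute x z from hx).mul_left hyz).eq (h.mul_comm hsz hx hyz h1 hys)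
    have a2 := (h.C y x hyz hx).resolve_left (Ne.symm h2)
    apply h.ne
    calc z = (x * x) * z * (y * y) := by rw [e, h''.sq]; group
      _ = x * (x * (z * y)) * y := by group
      _ = x * (y * x) * y := by rw [a2, ← hyz]; group
      _ = 1 := by rw [← a1]; group
  have hRK := hfoc K hzK (fun x x' hx hx' e hc => by
    have e' : x' * x' = 1 := by
      obtain ⟨u, rfl⟩ := isConj_iff.1 hc
      rw [show u * x * u⁻¹ * (u * x * u⁻¹) = u * (x * x) * u⁻¹ by group, e]; group
    obtain ⟨t, a1, a2, a3⟩ := hT x hx e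
    obtain ⟨t', b1, b2, b3⟩ := hT x' hx' e'
    have := huniq t t' a2 b2 (a1.symm.trans (hc.trans b1))
    subst this
    have := K.mul_mem a3 (K.inv_mem b3)
    rwa [show x⁻¹ * t * (x'⁻¹ * t)⁻¹ = x⁻¹ * x' by group, inv_eq_of_mul_eq_one_right e] at this)
  have hKR : K ≤ (R : Subgroup L) := by
    rw [hK, Subgroup.closure_le]
    rintro _ (rfl | rfl)
    · exact mul_mem ((mem _).2 hsz) ((mem _).2 hyz)
    · exact (mem _).2 hsz
  rw [le_antisymm hRK hKR]
  refine CL.TwoInv.nonempty_closure_mulEquiv_dihedral ?_ h'.sq (CL.TwoInv.conj_mul_left h'.sq h''.sq)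
    (CL.TwoInv.not_mem_zpowers_mul (orderOf_eq_two_of h'.ne h'.sq) (orderOf_eq_two_of h''.ne h''.sq))
  refine orderOf_eq_prime_pow (p := 2) (n := 1) ?_ ?_
  · rw [pow_one, pow_two, hsy]; exact h.ne
  · rw [show 2 ^ (1 + 1) = 2 * 2 from rfl, pow_mul, pow_two, pow_two, hsy, hz2]

end Cfsg.Agent.S5435
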