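import Cfsg.Statements.S5436
import Cfsg.Agent.SPOR.LXStruct

set_option autoImplicit false
open Cfsg

namespace Cfsg.Agent.S5436

open CL CL.LX CL.MSS


/-- Let z be an involution of the finite group G with centralizer H whose generalized Fitting subgroup Q is extraspecial of width at least 2 (order 2^(2w+1), w ≥ 2); suppose some conjugate of z other than z lies in Q, H/Q is a non-abelian simple group, H acts irreducibly by conjugation on Q modulo the subgroup generated by z (the only H-invariant subgroups of Q containing z are that subgroup and Q), and Q is not the subgroup generated by the conjugates of z lying in H. Then G is simple. -/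
theorem result {G : Type*} [Group G] [Finite G] (z : G) (hz : orderOf z = 2) (Q : Subgroup (Subgroup.centralizer ({z} : Set G))) [Q.Normal] (hF : Cfsg.generalizedFittingSubgroup ↥(Subgroup.centralizer ({z} : Set G)) = Q) (hQ : Cfsg.IsExtraspecial 2 ↥Q) (w : ℕ) (hw : 2 ≤ w) (hcard : Nat.card ↥Q = 2 ^ (2 * w + 1)) (hnwc : ∃ g : G, (∃ hq : g * z * g⁻¹ ∈ Subgroup.centralizer ({z} : Set G), (⟨g * z * g⁻¹, hq⟩ : Subgroup.centralizer ({z} : Set G)) ∈ Q) ∧ g * z * g⁻¹ ≠ z) (hsimp : IsSimpleGroup (↥(Subgroup.centralizer ({z} : Set G)) ⧸ Q)) (hna : ¬ IsMulCommutative (↥(Subgroup.centralizer ({z} : Set G)) ⧸ Q)) (hirr : ∀ W : Subgroup (Subgroup.centralizer ({z} : Set G)), W.Normal → W ≤ Q → (W = Q ∨ ∀ x ∈ W, (x : G) ∈ Subgroup.zpowers z)) (hwcl : Subgroup.closure {x : Subgroup.centralizer ({z} : Set G) | IsConj z (x : G)} ≠ Q) : IsSimpleGroup G := by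
  have hQ' : Cfsg.IsExtraspecial 2 ↥(Q.map (Subgroup.centralizer ({z} : Set G)).subtype) := by
    obtain ⟨w, hw⟩ := exists_es_of_isExtraspecial hQ
    exact (hw.map _ (fun x _ e => Subtype.ext e)).isExtraspecial
  have h := lx_of_fstar hz (congrArg _ hF) hQ'
  obtain ⟨g, ⟨hq, hq'⟩, hne⟩ := hnwc
  have hs : g * z * g⁻¹ ∈ Q.map (Subgroup.centralizer ({z} : Set G)).subtype := ⟨_, hq', rfl⟩
  have hlarge := h.large_of_conj hs hne (h.symm_of_card (eight_lt_of_width hw (by
    rw [Subgroup.card_map_of_injective (Subgroup.subtype_injective _), hcard])) hs)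
  refine h.isSimpleGroup hlarge ?_
  set W := Subgroup.closure {x : Subgroup.centralizer ({z} : Set G) | IsConj z (x : G)} with hW
  have hWn : W.Normal := by
    refine ⟨fun x hx c => ?_⟩
    have : W ≤ W.comap (MulAut.conj c).toMonoidHom := by
      rw [hW, Subgroup.closure_le]
      intro y hy
      exact Subgroup.subset_closure (IsConj.trans hy (isConj_iff.2 ⟨c, rfl⟩))
    exact this hx
  have h1 : Q ≤ W := by
    rcases hirr (W ⊓ Q) inferInstance inf_le_right with e | e
    · exact inf_eq_right.1 e
    · exfalso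
      rcases h.mem_zpowers_iff.1 (e ⟨_, hq⟩ ⟨Subgroup.subset_closure (isConj_iff.2 ⟨g, rfl⟩), hq'⟩)
        with e' | e'
      · exact (h.conj g).z_ne e'
      · exact hne e'
  have h2 : W = ⊤ := by
    rcases (hWn.map (QuotientGroup.mk' Q) (QuotientGroup.mk'_surjective Q)).eq_bot_or_eq_top with e | e
    · exfalso
      rw [Subgroup.map_eq_bot_iff, QuotientGroup.ker_mk'] at e
      exact hwcl (le_antisymm e h1)
    · have := congrArg (Subgroup.comap (QuotientGroup.mk' Q)) e
      rwa [Subgroup.comap_map_eq, QuotientGroup.ker_mk', sup_eq_left.2 h1, Subgroup.comap_top] at this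
  intro c hc
  have : W ≤ (Subgroup.normalClosure ({z} : Set G)).comap (Subgroup.centralizer ({z} : Set G)).subtype := by
    rw [hW, Subgroup.closure_le]
    intro y hy
    obtain ⟨k, hk⟩ := isConj_iff.1 hy
    show (y : G) ∈ Subgroup.normalClosure ({z} : Set G)
    rw [← hk]
    exact (Subgroup.normalClosure_normal (s := {z})).conj_mem z (Subgroup.subset_normalClosure (Set.mem_singleton z)) k
  exact this (h2 ▸ Subgroup.mem_top (⟨c, hc⟩ : Subgroup.centralizer ({z} : Set G)))

end Cfsg.Agent.S5436
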