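import Cfsg.Statements.S5437


set_option autoImplicit false
open Cfsg

namespace Cfsg.Agent.S5437


/-- Let I be a set of involutions of the finite group G closed under conjugation, and H a subgroup of G. The following are equivalent: (1) for every member x of I lying in H, the conjugates of x lying in H form a single H-class and the centralizer of x lies in H; (2) for every g outside H, no member of I lies in both H and g H g⁻¹; (3) every member of I lying in H fixes exactly one coset in the action of G on the cosets of H. -/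
theorem result {G : Type*} [Group G] [Finite G] (I : Set G) (hI : ∀ x ∈ I, orderOf x = 2) (hIc : ∀ g : G, ∀ x ∈ I, g * x * g⁻¹ ∈ I) (H : Subgroup G) : ((∀ x ∈ I, x ∈ H → (∀ g : G, g * x * g⁻¹ ∈ H → ∃ h ∈ H, h * x * h⁻¹ = g * x * g⁻¹) ∧ Subgroup.centralizer ({x} : Set G) ≤ H) ↔ (∀ g : G, g ∉ H → ∀ x ∈ I, ¬ (x ∈ H ∧ x ∈ (H : Subgroup G).map (MulAut.conj g).toMonoidHom))) ∧ ((∀ g : G, g ∉ H → ∀ x ∈ I, ¬ (x ∈ H ∧ x ∈ (H : Subgroup G).map (MulAut.conj g).toMonoidHom)) ↔ ∀ x ∈ I, x ∈ H → ∃! c : G ⧸ H, x • c = c) := by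
  have key : ∀ (g x : G), x ∈ (H : Subgroup G).map (MulAut.conj g).toMonoidHom ↔ g⁻¹ * x * g ∈ H := by
    intro g x
    constructor
    · rintro ⟨y, hy, rfl⟩
      simpa [mul_assoc] using hy
    · intro h
      exact ⟨g⁻¹ * x * g, h, by simp [mul_assoc]⟩
  have hfix : ∀ (g x : G), x • (g : G ⧸ H) = g ↔ g⁻¹ * x * g ∈ H := by
    intro g x
    rw [MulAction.Quotient.smul_coe, smul_eq_mul, eq_comm, QuotientGroup.eq, mul_assoc]
  constructor
  · constructor
    · rintro h g hg x hx ⟨hxH, hx'⟩
      rw [key] at hx'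
      obtain ⟨h1, h2⟩ := h x hx hxH
      obtain ⟨k, hk, hk'⟩ := h1 g⁻¹ (by simpa using hx')
      have : g * k ∈ Subgroup.centralizer ({x} : Set G) := by
        rw [Subgroup.mem_centralizer_singleton_iff]
        have : k * x = g⁻¹ * x * g * k := by
          rw [inv_inv] at hk'
          rw [← hk']; group
        rw [mul_assoc, this]; group
      exact hg (by simpa using H.mul_mem (h2 this) (H.inv_mem hk))
    · intro h x hx hxH
      have h' : ∀ g : G, g⁻¹ * x * g ∈ H → g ∈ H := by
        intro g hg
        by_contra hgH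
        exact h g hgH x hx ⟨hxH, (key g x).2 hg⟩
      refine ⟨fun g hg => ⟨g, ?_, rfl⟩, fun g hg => h' g ?_⟩
      · have := h' g⁻¹ (by simpa using hg)
        simpa using this
      · rw [Subgroup.mem_centralizer_singleton_iff] at hg
        rw [mul_assoc, ← hg]; simpa using hxH
  · constructor
    · intro h x hx hxH
      refine ⟨((1 : G) : G ⧸ H), (hfix 1 x).2 (by simpa using hxH), ?_⟩
      intro c hc
      induction c using QuotientGroup.induction_on with
      | H g =>
        by_contra hne
        refine h g ?_ x hx ⟨hxH, (key g x).2 ((hfix g x).1 hc)⟩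
        intro hg
        exact hne (QuotientGroup.eq.2 (by simpa using hg))
    · rintro h g hg x hx ⟨hxH, hx'⟩
      rw [key] at hx'
      obtain ⟨c, -, hc⟩ := h x hx hxH
      have h1 := hc ((1 : G) : G ⧸ H) ((hfix 1 x).2 (by simpa using hxH))
      have h2 := hc (g : G ⧸ H) ((hfix g x).2 hx')
      have h3 : ((1 : G) : G ⧸ H) = g := h1.trans h2.symm
      exact hg (by simpa using QuotientGroup.eq.1 h3)

end Cfsg.Agent.S5437
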