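import Cfsg.Statements.S5439


set_option autoImplicit false
open Cfsg

namespace Cfsg.Agent.S5439


/-- Let I and J be two different conjugacy classes of involutions of the finite group G and H a subgroup such that every member of I ∪ J fixes exactly one coset in the action on the cosets of H, and such that for every a in I ∩ H and every b in (I ∪ J) ∩ H different from a and commuting with it, the centralizer of a b lies in H. Then H = G. -/
theorem result {G : Type*} [Group G] [Finite G] (I J : Set G) (a₀ b₀ : G) (ha₀ : orderOf a₀ = 2) (hb₀ : orderOf b₀ = 2) (hI : I = {x | IsConj a₀ x}) (hJ : J = {x | IsConj b₀ x}) (hIJ : I ≠ J) (H : Subgroup G) (hfix : ∀ x ∈ I ∪ J, ∃! c : G ⧸ H, x • c = c) (hcent : ∀ a ∈ I, a ∈ H → ∀ b ∈ I ∪ J, b ∈ H → a ≠ b → a * b = b * a → Subgroup.centralizer ({a * b} : Set G) ≤ H) : H = ⊤ := by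
  have hsm : ∀ (g x : G), x • (g : G ⧸ H) = g ↔ g⁻¹ * x * g ∈ H := by
    intro g x
    rw [MulAction.Quotient.smul_coe, smul_eq_mul, eq_comm, QuotientGroup.eq, mul_assoc]
  have hfix' : ∀ x ∈ I ∪ J, x ∈ H → ∀ g : G, g⁻¹ * x * g ∈ H → g ∈ H := by
    intro x hx hxH g hg
    obtain ⟨c, -, hc⟩ := hfix x hx
    have h1 := hc ((1 : G) : G ⧸ H) ((hsm 1 x).2 (by simpa using hxH))
    have h2 := hc (g : G ⧸ H) ((hsm g x).2 hg)
    have h3 : ((1 : G) : G ⧸ H) = g := h1.trans h2.symm
    simpa using QuotientGroup.eq.1 h3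
  have hIc : ∀ x ∈ I, ∀ y, IsConj x y → y ∈ I := by
    intro x hx y hy; rw [hI] at hx ⊢; exact hx.trans hy
  have hJc : ∀ x ∈ J, ∀ y, IsConj x y → y ∈ J := by
    intro x hx y hy; rw [hJ] at hx ⊢; exact hx.trans hy
  have hord : ∀ x y : G, IsConj x y → orderOf x = 2 → orderOf y = 2 := by
    intro x y h hx
    obtain ⟨c, rfl⟩ := isConj_iff.1 h
    rw [← hx]; exact (MulAut.conj c).orderOf_eq x
  have hsq : ∀ x : G, orderOf x = 2 → x * x = 1 := by
    intro x hx; rw [← pow_two, ← hx, pow_orderOf_eq_one]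
  -- an element of `I ∩ H`
  obtain ⟨a, haI, haH⟩ : ∃ a ∈ I, a ∈ H := by
    obtain ⟨c, hc, -⟩ := hfix a₀ (Or.inl (by rw [hI]; exact IsConj.refl a₀))
    induction c using QuotientGroup.induction_on with
    | H u =>
      refine ⟨u⁻¹ * a₀ * u, ?_, (hsm u a₀).1 hc⟩
      rw [hI]; exact isConj_iff.2 ⟨u⁻¹, by simp⟩
  have ha2 : orderOf a = 2 := hord a₀ a (by rw [hI] at haI; exact haI) ha₀
  have haa := hsq a ha2
  have hJH : ∀ b ∈ J, b ∈ H := by
    intro b hb
    have hb2 : orderOf b = 2 := hord b₀ b (by rw [hJ] at hb; exact hb) hb₀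
    have hbb := hsq b hb2
    have hnc : ¬ IsConj a b := by
      intro h
      apply hIJ
      have h1 : IsConj a₀ a := by rw [hI] at haI; exact haI
      have h2 : IsConj b₀ b := by rw [hJ] at hb; exact hb
      have h3 : IsConj a₀ b₀ := (h1.trans h).trans h2.symm
      rw [hI, hJ]
      ext y
      exact ⟨fun h => h3.symm.trans h, fun h => h3.trans h⟩
    have hai : a⁻¹ = a := inv_eq_of_mul_eq_one_right haa
    have hbi : b⁻¹ = b := inv_eq_of_mul_eq_one_right hbb
    set r := a * b with hr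
    have hra : a * r * a⁻¹ = r⁻¹ := by
      rw [hr, mul_inv_rev, hai, hbi, ← mul_assoc, haa, one_mul]
    have hrk : ∀ k : ℕ, a * r ^ k = (r ^ k)⁻¹ * a := by
      intro k
      have := congrArg (· ^ k) hra
      simp only [conj_pow, inv_pow] at this
      rw [← this]; group
    have hrk' : ∀ k : ℕ, a * (r ^ k)⁻¹ = (r ^ k) * a := by
      intro k
      have := hrk k
      calc a * (r ^ k)⁻¹ = r ^ k * ((r ^ k)⁻¹ * a) * (r ^ k)⁻¹ := by group
        _ = _ := by rw [← this]; group
    -- `r ^ m * a` is conjugate to `a` or to `b`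
    have hev : ∀ k : ℕ, IsConj a (r ^ (2 * k) * a) := by
      intro k
      refine isConj_iff.2 ⟨r ^ k, ?_⟩
      rw [mul_assoc, hrk', two_mul, pow_add, mul_assoc]
    have hod : ∀ k : ℕ, IsConj b (r ^ (2 * k + 1) * a) := by
      intro k
      refine isConj_iff.2 ⟨r ^ k * a, ?_⟩
      have : r * a = a * b * a⁻¹ := by rw [hai]
      calc r ^ k * a * b * (r ^ k * a)⁻¹ = r ^ k * (a * b * a⁻¹) * (r ^ k)⁻¹ := by group
        _ = r ^ k * r * (a * (r ^ k)⁻¹) := by rw [← this]; group
        _ = r ^ (2 * k + 1) * a := by rw [hrk']; group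
    have hn : orderOf r ≠ 0 := (orderOf_pos r).ne'
    rcases Nat.even_or_odd' (orderOf r) with ⟨m, hm | hm⟩
    · have hw2 : r ^ m * r ^ m = 1 := by rw [← pow_add, ← two_mul, ← hm, pow_orderOf_eq_one]
      have hw1 : r ^ m ≠ 1 := pow_ne_one_of_lt_orderOf (by omega) (by omega)
      have hwi : (r ^ m)⁻¹ = r ^ m := inv_eq_of_mul_eq_one_right hw2
      have hwa : a * r ^ m = r ^ m * a := by rw [hrk, hwi]
      have hwH : r ^ m ∈ H := hfix' a (Or.inl haI) haH _ (by rw [mul_assoc, hwa]; simpa using haH)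
      have hmem : r ^ m * a ∈ I ∪ J := by
        rcases Nat.even_or_odd' m with ⟨k, hk | hk⟩
        · rw [hk]; exact Or.inl (hIc a haI _ (hev k))
        · rw [hk]; exact Or.inr (hJc b hb _ (hod k))
      have := hcent a haI haH (r ^ m * a) hmem (H.mul_mem hwH haH)
        (by intro h; exact hw1 (by simpa using h.symm)) (by rw [← mul_assoc, hwa])
      apply this
      rw [Subgroup.mem_centralizer_singleton_iff, ← mul_assoc a, hwa, mul_assoc (r ^ m), haa, mul_one]
      have hb' : b = a * r := by rw [hr, ← mul_assoc, haa, one_mul]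
      rw [hb', mul_assoc, ← pow_succ', pow_succ, ← mul_assoc, hwa, mul_assoc]
    · exfalso
      apply hnc
      have := hod m
      rw [← hm, pow_orderOf_eq_one, one_mul] at this
      exact this.symm
  rw [eq_top_iff]
  intro g _
  have hb : b₀ ∈ J := by rw [hJ]; exact IsConj.refl b₀
  exact hfix' b₀ (Or.inr hb) (hJH _ hb) g (hJH _ (hJc b₀ hb _ (isConj_iff.2 ⟨g⁻¹, by simp⟩)))

end Cfsg.Agent.S5439
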