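import Cfsg.Statements.S5440
import Cfsg.Agent.SPOR.F24.Pair

set_option autoImplicit false
open Cfsg

namespace Cfsg.Agent.S5440

open CL.F24 CL.LX CL.MSS MulAction in

/-- Let G be a finite group of large Fischer type at the involution z: the generalized Fitting subgroup Q of H = C_G(z) is extraspecial of order 2^13, H has normal subgroups Q ≤ H₁ ≤ H₂ with H₁/Q of order 3, H₂/H₁ the projective special unitary group of dimension 4 over the field with nine elements and H₂ of index 2 in H, and some conjugate of z other than z lies in Q. Then H has exactly two orbits, under conjugation, on the involutions of Q other than z. -/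
theorem result {G : Type*} [Group G] [Finite G] (z : G) (Q : Subgroup (Subgroup.centralizer ({z} : Set G))) [Q.Normal] (hF : Cfsg.IsOfLargeFischerTypeAt z Q) : ∃ s t : Subgroup.centralizer ({z} : Set G), s ∈ Q ∧ t ∈ Q ∧ orderOf s = 2 ∧ orderOf t = 2 ∧ (s : G) ≠ z ∧ (t : G) ≠ z ∧ (¬ ∃ h : Subgroup.centralizer ({z} : Set G), h * s * h⁻¹ = t) ∧ ∀ x : Subgroup.centralizer ({z} : Set G), x ∈ Q → orderOf x = 2 → (x : G) ≠ z → (∃ h : Subgroup.centralizer ({z} : Set G), h * s * h⁻¹ = x) ∨ ∃ h : Subgroup.centralizer ({z} : Set G), h * t * h⁻¹ = x := by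
  obtain ⟨κ, ρ, F, -⟩ := exists_ft hF
  have key : ∀ w : W, w ≠ 0 → qf w = 0 → ∃ s : Subgroup.centralizer ({z} : Set G), s ∈ Q ∧
      orderOf s = 2 ∧ (s : G) ≠ z ∧ κ s = w := fun w hw hq => by
    obtain ⟨_, ⟨s, hs, rfl⟩, rfl⟩ := F.κ_surj w
    have h1 := (F.κ_zero s ⟨s, hs, rfl⟩).not.1 hw
    exact ⟨s, hs, orderOf_eq_two_of (fun e => h1 (Or.inl (congrArg Subtype.val e)))
      (Subtype.ext ((F.sq_iff ⟨s, hs, rfl⟩).2 hq)), fun e => h1 (Or.inr e), rfl⟩
  obtain ⟨s, hs, hs2, hsz, es⟩ := key r0 r0_ne qf_r0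
  obtain ⟨t, ht, ht2, htz, et⟩ := key s0 s0_ne qf_s0
  refine ⟨s, t, hs, ht, hs2, ht2, hsz, htz, ?_, fun x hx h2 hz => ?_⟩
  · rintro ⟨h, rfl⟩
    have := F.smul_mem_orbit (γ := ρ h) ⟨h, rfl⟩ (Or.inl rfl) (mem_orbit_self r0)
    rw [← es, ← F.κ_conj h s ⟨s, hs, rfl⟩, es] at this
    exact not_mem_both this (by rw [← Subgroup.coe_inv, ← Subgroup.coe_mul, ← Subgroup.coe_mul, et]; exact mem_orbit_self s0)
  · refine (F.invol_cases ⟨x, hx, rfl⟩ (congrArg Subtype.val (sq_of_orderOf h2))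
      (fun e => ne_one_of_orderOf h2 (Subtype.ext e)) hz).imp (fun e => ?_) fun e => ?_
    · obtain ⟨c, hc, e1⟩ := F.conj_of_orbit ⟨s, hs, rfl⟩ ⟨x, hx, rfl⟩ r0_ne
        (by rw [Subgroup.coe_subtype, es]; exact mem_orbit_self r0) e
      exact ⟨⟨c, Subgroup.mem_centralizer_singleton_iff.2 hc⟩, Subtype.ext e1⟩
    · obtain ⟨c, hc, e1⟩ := F.conj_of_orbit ⟨t, ht, rfl⟩ ⟨x, hx, rfl⟩ s0_ne
        (by rw [Subgroup.coe_subtype, et]; exact mem_orbit_self s0) e
      exact ⟨⟨c, Subgroup.mem_centralizer_singleton_iff.2 hc⟩, Subtype.ext e1⟩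
end Cfsg.Agent.S5440
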