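import Cfsg.Statements.S5442
import Cfsg.Agent.SPOR.F24.Pair

set_option autoImplicit false
open Cfsg

namespace Cfsg.Agent.S5442

open CL.F24 CL.LX CL.MSS MulAction in

/-- Let G be a finite group of large Fischer type at the involution z: the generalized Fitting subgroup Q of H = C_G(z) is extraspecial of order 2^13, H has normal subgroups Q ≤ H₁ ≤ H₂ with H₁/Q of order 3, H₂/H₁ the projective special unitary group of dimension 4 over the field with nine elements and H₂ of index 2 in H, and some conjugate of z other than z lies in Q. Let s = g z g⁻¹ be a conjugate of z lying in Q and different from z. Then the intersection of Q and g Q g⁻¹ (as subgroups of G) is elementary abelian of order 2^7; and in H/Q, writing X for the image of the centralizer of s in H and E for the image of the intersection of g Q g⁻¹ with H, E is a normal subgroup of X, elementary abelian of order 32, with X/E isomorphic to the alternating group of degree 6. -/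
theorem result {G : Type*} [Group G] [Finite G] (z : G) (Q : Subgroup (Subgroup.centralizer ({z} : Set G))) [Q.Normal] (hF : Cfsg.IsOfLargeFischerTypeAt z Q) (s : G) (hsQ : ∃ hsc : s ∈ Subgroup.centralizer ({z} : Set G), (⟨s, hsc⟩ : Subgroup.centralizer ({z} : Set G)) ∈ Q) (hs : IsConj z s) (hs1 : s ≠ z) (g : G) (hg : g * z * g⁻¹ = s) (X E : Subgroup ((Subgroup.centralizer ({z} : Set G)) ⧸ Q)) (hX : X = ((Subgroup.centralizer ({z} : Set G) ⊓ Subgroup.centralizer ({s} : Set G)).subgroupOf (Subgroup.centralizer ({z} : Set G))).map (QuotientGroup.mk' Q)) (hE : E = ((((Q.map (Subgroup.centralizer ({z} : Set G)).subtype)).map (MulAut.conj g).toMonoidHom ⊓ Subgroup.centralizer ({z} : Set G)).subgroupOf (Subgroup.centralizer ({z} : Set G))).map (QuotientGroup.mk' Q)) : Cfsg.IsElementaryAbelian 2 ((Q.map (Subgroup.centralizer ({z} : Set G)).subtype) ⊓ ((Q.map (Subgroup.centralizer ({z} : Set G)).subtype)).map (MulAut.conj g).toMonoidHom) ∧ Nat.card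 ↥((Q.map (Subgroup.centralizer ({z} : Set G)).subtype) ⊓ ((Q.map (Subgroup.centralizer ({z} : Set G)).subtype)).map (MulAut.conj g).toMonoidHom) = 2 ^ 7 ∧ E ≤ X ∧ (∀ x ∈ X, ∀ y ∈ E, x * y * x⁻¹ ∈ E) ∧ Cfsg.IsElementaryAbelian 2 E ∧ Nat.card E = 32 ∧ ∃ _ : (E.subgroupOf X).Normal, Nonempty (↥X ⧸ E.subgroupOf X ≃* alternatingGroup (Fin 6)) := by
  obtain ⟨κ0, ρ0, F0, hk0⟩ := exists_ft hF
  subst hg
  have hQ : g * z * g⁻¹ ∈ Q.map (Subgroup.centralizer ({z} : Set G)).subtype := ⟨_, hsQ.2, rfl⟩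
  obtain ⟨γ, hγ, e⟩ := F0.exists_twist hQ hs1
  have F := F0.twist (F0.le hγ)
  have hk : ((MulAut.conj γ).toMonoidHom.comp ρ0).ker = Q := by
    rw [← hk0, ← MonoidHom.comap_ker, (MonoidHom.ker_eq_bot_iff _).2 (MulAut.conj γ).injective]; rfl
  generalize (MulAut.conj γ).toMonoidHom.comp ρ0 = ρ at F hk
  have h := F.pair hQ hs1
  obtain ⟨h1, h2⟩ := F.Eb_eq h e
  obtain ⟨θ, hθ, hθ'⟩ := exists_theta ρ hk
  obtain ⟨h3, φ, hφ, hφ'⟩ := stab1_s0 F.card1
  have hE' : E.map θ = E0 := by rw [hE, hθ', Subgroup.inf_subgroupOf_right, ← h1]; rfl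
  have hX' : X.map θ = X0 := by
    rw [hX, hθ', ← h3, ← F.range_eq]
    ext δ
    constructor
    · rintro ⟨c, hc, rfl⟩
      refine ⟨⟨c, rfl⟩, ?_⟩
      have := F.κ_conj c _ hQ
      rw [show (c : G) * _ = _ from Subgroup.mem_centralizer_singleton_iff.1 hc.2,
        mul_inv_cancel_right, e] at this
      exact this.symm
    · rintro ⟨h4, h5⟩
      obtain ⟨c, ⟨hc, rfl⟩, e1⟩ := F.exists_conj h4 hQ hQ (e.trans_ne s0_ne) (by rw [e]; exact h5)
      exact ⟨⟨c, hc⟩, ⟨hc, Subgroup.mem_centralizer_singleton_iff.2 (mul_inv_eq_iff_eq_mul.1 e1)⟩, rfl⟩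
  obtain ⟨hn, h4⟩ := quot_of_map θ hθ hX' hE' φ hφ hφ'
  have h5 : E ≤ X := (Subgroup.map_le_map_iff_of_injective hθ).1 (hE' ▸ hX' ▸ E0_le)
  refine ⟨CL.FiRec.ea_iff.1 (pair_ea F.lx.toES h.hP.toES hs1), h2, h5,
    fun x hx y hy => hn.conj_mem ⟨y, h5 hy⟩ hy ⟨x, hx⟩, CL.FiRec.ea_iff.1 fun a ha => hθ ?_, ?_, hn, h4⟩
  · rw [map_mul, map_one]
    exact F.Eb_ea h _ (h1.ge (hE'.le ⟨a, ha, rfl⟩))
  · rw [← Subgroup.card_map_of_injective hθ, hE', E0_spec.2]; rfl
end Cfsg.Agent.S5442
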