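import Cfsg.Statements.S5443
import Cfsg.Agent.SPOR.F24.Pair

set_option autoImplicit false
open Cfsg

namespace Cfsg.Agent.S5443

open CL.F24 CL.LX CL.MSS MulAction in

/-- Let G be a finite group of large Fischer type at the involution z: the generalized Fitting subgroup Q of H = C_G(z) is extraspecial of order 2^13, H has normal subgroups Q ≤ H₁ ≤ H₂ with H₁/Q of order 3, H₂/H₁ the projective special unitary group of dimension 4 over the field with nine elements and H₂ of index 2 in H, and some conjugate of z other than z lies in Q. Let t be an involution of Q not conjugate to z in G, and S the set of elements of H conjugating t to t or to t z (the stabilizer of the image of t in Q modulo its centre). Then the image of S in H/Q is isomorphic to the full isometry group of the elliptic quadratic form in dimension 6 over the field with two elements. -/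
theorem result {G : Type*} [Group G] [Finite G] (z : G) (Q : Subgroup (Subgroup.centralizer ({z} : Set G))) [Q.Normal] (hF : Cfsg.IsOfLargeFischerTypeAt z Q) (t : Subgroup.centralizer ({z} : Set G)) (htQ : t ∈ Q) (ht2 : orderOf t = 2) (ht : ¬ IsConj z (t : G)) (S : Subgroup (Subgroup.centralizer ({z} : Set G))) (hS : ∀ h : Subgroup.centralizer ({z} : Set G), h ∈ S ↔ (h * t * h⁻¹ = t ∨ ((h * t * h⁻¹ : Subgroup.centralizer ({z} : Set G)) : G) = t * z)) : Nonempty (↥(S.map (QuotientGroup.mk' Q)) ≃* Cfsg.isometryGroup (ZMod 2) (Cfsg.quadFormMinus 2 (ZMod 2) 1 1)) := by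
  obtain ⟨κ0, ρ0, F0, hk0⟩ := exists_ft hF
  have hQ : (t : G) ∈ Q.map (Subgroup.centralizer ({z} : Set G)).subtype := ⟨_, htQ, rfl⟩
  have hz : (t : G) ≠ z := fun e => ht (by rw [e])
  obtain ⟨γ, hγ, e⟩ := CL.Orb.exists_smul_of_mem_orbit ((F0.invol_cases hQ
    (congrArg Subtype.val (sq_of_orderOf ht2)) (fun e => ne_one_of_orderOf ht2 (Subtype.ext e))
    hz).resolve_right fun h => ht ((F0.isConj_iff_orbit hQ hz).2 h)) (mem_orbit_self r0)
  have F := F0.twist (F0.le hγ)
  have hk : ((MulAut.conj γ).toMonoidHom.comp ρ0).ker = Q := by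
    rw [← hk0, ← MonoidHom.comap_ker, (MonoidHom.ker_eq_bot_iff _).2 (MulAut.conj γ).injective]; rfl
  generalize (MulAut.conj γ).toMonoidHom.comp ρ0 = ρ at F hk
  obtain ⟨θ, hθ, hθ'⟩ := exists_theta ρ hk
  obtain ⟨φ⟩ := stab1_r0 F.card1
  have key : ∀ c : Subgroup.centralizer ({z} : Set G), c ∈ S ↔ ρ c • r0 = r0 := fun c => by
    have h1 := F.κ_conj c _ hQ
    have h2 := F.κ_eq_iff (F.conj_mem (ov_coe c) hQ) hQ
    rw [h1, e] at h2
    rw [hS, h2, Subtype.ext_iff]; rfl
  have h1 : (S.map (QuotientGroup.mk' Q)).map θ = Γ1 ⊓ stabilizer GL12 r0 := by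
    rw [hθ', ← F.range_eq]
    ext δ
    exact ⟨by rintro ⟨c, hc, rfl⟩; exact ⟨⟨c, rfl⟩, (key c).1 hc⟩,
      by rintro ⟨⟨c, rfl⟩, hc⟩; exact ⟨c, (key c).2 hc, rfl⟩⟩
  exact ⟨(Subgroup.equivMapOfInjective _ θ hθ).trans ((MulEquiv.subgroupCongr h1).trans φ)⟩
end Cfsg.Agent.S5443
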