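import Cfsg.Statements.S5444
import Cfsg.Agent.SPOR.F24.Big

set_option autoImplicit false
open Cfsg

namespace Cfsg.Agent.S5444

open CL.F24 CL.LX CL.MSS CL.FiRec CL.Misc MulAction in

/-- Let G be a finite group of large Fischer type at the involution z: the generalized Fitting subgroup Q of H = C_G(z) is extraspecial of order 2^13, H has normal subgroups Q ≤ H₁ ≤ H₂ with H₁/Q of order 3, H₂/H₁ the projective special unitary group of dimension 4 over the field with nine elements and H₂ of index 2 in H, and some conjugate of z other than z lies in Q. Let T be a Sylow 2-subgroup of H. Then T has exactly one elementary abelian subgroup A of largest order; A has order 2^11, it meets Q in a subgroup of order 2^7, and its image in H/Q has order 16. -/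
theorem result {G : Type*} [Group G] [Finite G] (z : G) (Q : Subgroup (Subgroup.centralizer ({z} : Set G))) [Q.Normal] (hF : Cfsg.IsOfLargeFischerTypeAt z Q) (T : Sylow 2 ↥(Subgroup.centralizer ({z} : Set G))) : ∃ A : Subgroup ↥(T : Subgroup (Subgroup.centralizer ({z} : Set G))), Cfsg.maxElementaryAbelianSubgroups 2 ↥(T : Subgroup (Subgroup.centralizer ({z} : Set G))) = {A} ∧ Nat.card A = 2 ^ 11 ∧ Nat.card ↥(A.map (T : Subgroup (Subgroup.centralizer ({z} : Set G))).subtype ⊓ Q) = 2 ^ 7 ∧ Nat.card ↥((A.map (T : Subgroup (Subgroup.centralizer ({z} : Set G))).subtype).map (QuotientGroup.mk' Q)) = 16 := by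
  obtain ⟨κ, ρ, F, hk⟩ := exists_ft hF
  obtain ⟨θ, hθ, hθ'⟩ := exists_theta ρ hk
  have hQ : ∀ c : Subgroup.centralizer ({z} : Set G),
      (c : G) ∈ Q.map (Subgroup.centralizer ({z} : Set G)).subtype ↔ c ∈ Q := fun c =>
    Subgroup.mem_map_iff_mem (Subgroup.subtype_injective _)
  generalize Q.map (Subgroup.centralizer ({z} : Set G)).subtype = Q' at F hQ
  obtain ⟨S, hS⟩ := (F.ea_AA.isPGroup.comap_subtype
    (K := Subgroup.centralizer ({z} : Set G))).exists_le_sylow
  obtain ⟨h, hh⟩ := MulAction.exists_smul_eq (Subgroup.centralizer ({z} : Set G)) S T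
  let f : T →* G := (Subgroup.centralizer ({z} : Set G)).subtype.comp
    (T : Subgroup (Subgroup.centralizer ({z} : Set G))).subtype
  have hf : Function.Injective f := fun a b e => Subtype.ext (Subtype.ext e)
  have h1 : (h : G) •ᶜ AA Q' κ ≤ f.range := by
    rintro _ ⟨a, ha, rfl⟩
    exact ⟨⟨h * ⟨a, F.AA_le ha⟩ * h⁻¹, hh ▸ ⟨⟨a, F.AA_le ha⟩, hS ha, rfl⟩⟩, rfl⟩
  have hJ : JP ⊤ ((h : G) •ᶜ AA Q' κ) := (F.jp_AA.conj h).mono fun x _ =>
    ⟨(h : G)⁻¹ * x * h, trivial, by simp [mul_assoc]⟩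
  have hE := F.ea_AA.conj (h : G)
  have hc : Nat.card ((h : G) •ᶜ AA Q' κ) = 2 ^ 11 := (card_map_conj _ _).trans F.card_AA
  have hc7 : Nat.card ↥(Q' ⊓ (h : G) •ᶜ AA Q' κ) = 2 ^ 7 := by
    rw [← F.card_WS, ← card_map_conj (Q' ⊓ AA Q' κ) (h : G),
      Subgroup.map_inf_eq _ _ _ (MulAut.conj (h : G)).injective,
      F.lx.cj_eq (g := h) (g' := 1) (by rw [(ov_coe (ρ := ρ) h).comm]; simp)]
    congr 3; ext; simp
  generalize (h : G) •ᶜ AA Q' κ = A at h1 hJ hE hc hc7
  have h2 : (A.comap f).map f = A := Subgroup.map_comap_eq_self h1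
  have h3 : Nat.card (A.comap f) = 2 ^ 11 := by rw [← Subgroup.card_map_of_injective hf, h2, hc]
  have h4 : EA (A.comap f) := fun a ha => hf (by rw [map_mul, hE _ ha, map_one])
  have h5 : ∀ B : Subgroup T, IsElementaryAbelian 2 B → Nat.card (A.comap f) ≤ Nat.card B →
      B = A.comap f := fun B hB hcB => Subgroup.map_injective hf (h2.symm ▸ hJ.eq_of_le hE
    (T.isPGroup'.of_surjective _ f.rangeRestrict_surjective) le_top h1 (Subgroup.map_le_range _ _)
    (by rintro _ ⟨b, hb, rfl⟩; rw [← map_mul, ea_iff.2 hB b hb, map_one])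
    (by rwa [Subgroup.card_map_of_injective hf, hc, ← h3]))
  have h6 : (A.comap f).map (T : Subgroup (Subgroup.centralizer ({z} : Set G))).subtype =
      A.subgroupOf _ := by
    ext c
    refine ⟨by rintro ⟨a, ha, rfl⟩; exact ha, fun hc => ?_⟩
    obtain ⟨t, ht⟩ := h1 hc
    exact ⟨t, (ht ▸ hc : f t ∈ A), Subtype.ext ht⟩
  have h7 : A ≤ Subgroup.centralizer ({z} : Set G) := fun a ha => by
    obtain ⟨t, rfl⟩ := h1 ha; exact t.1.2
  refine ⟨A.comap f, Set.ext fun B => ⟨fun hB => h5 B hB.1 (hB.2 _ (ea_iff.1 h4)), ?_⟩, h3, ?_, ?_⟩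
  · rintro rfl
    exact ⟨ea_iff.1 h4, fun B hB => (le_total _ _).elim id fun e => (h5 B hB e).symm ▸ le_rfl⟩
  · rw [h6, ← hc7, ← Nat.card_congr (Subgroup.subgroupOfEquivOfLe (inf_le_right.trans h7)).toEquiv]
    congr 3; ext c
    simp only [Subgroup.mem_inf, Subgroup.mem_subgroupOf, hQ, and_comm]
  · have := F.card_Eb A
    rw [inf_eq_left.2 h7, hc, hc7] at this
    rw [h6, ← Subgroup.card_map_of_injective hθ, hθ', ← Eb]
    omega
end Cfsg.Agent.S5444
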