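import Cfsg.Statements.S5447
import Cfsg.Agent.SPOR.F24.Pk

set_option autoImplicit false
open Cfsg

namespace Cfsg.Agent.S5447

open CL.F24 CL.FiRec CL.CoRec CL.Golay MulAction in

/-- Let G be a finite group of large Fischer type at the involution z: the generalized Fitting subgroup Q of H = C_G(z) is extraspecial of order 2^13, H has normal subgroups Q ≤ H₁ ≤ H₂ with H₁/Q of order 3, H₂/H₁ the projective special unitary group of dimension 4 over the field with nine elements and H₂ of index 2 in H, and some conjugate of z other than z lies in Q. Let T be a Sylow 2-subgroup of G, A its Thompson subgroup and M = N_G(A) its normalizer. Then M controls fusion in A (elements of A conjugate in G are conjugate in M), and M has exactly two orbits on the non-identity elements of A: those conjugate to z in G and those not. -/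
theorem result {G : Type*} [Group G] [Finite G] (z : G) (Q : Subgroup (Subgroup.centralizer ({z} : Set G))) [Q.Normal] (hF : Cfsg.IsOfLargeFischerTypeAt z Q) (T : Sylow 2 G) (A M : Subgroup G) (hA : A = Cfsg.thompsonSubgroupOf 2 (T : Subgroup G)) (hM : M = Subgroup.normalizer (A : Set G)) : (∀ a ∈ A, ∀ g : G, g * a * g⁻¹ ∈ A → ∃ m ∈ M, m * a * m⁻¹ = g * a * g⁻¹) ∧ (∃ a ∈ A, a ≠ 1 ∧ IsConj z a) ∧ (∃ a ∈ A, a ≠ 1 ∧ ¬ IsConj z a) ∧ ∀ a ∈ A, ∀ b ∈ A, a ≠ 1 → b ≠ 1 → (IsConj z a ↔ IsConj z b) → ∃ m ∈ M, m * a * m⁻¹ = b := by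
  obtain ⟨ι, P⟩ := exists_pk_sylow hF T
  subst hM
  rw [← hA] at P
  have h1 : ∀ v, ι v = 1 → v = 0 := fun v e => P.inj (e.trans P.ι_zero.symm)
  refine ⟨fun a ha g hg => (P.jp.mono le_top).fusion P.ea ha hg, ?_, ?_, fun a ha b hb ha1 hb1 h => ?_⟩
  · obtain ⟨h2, h3⟩ := co_pp.tetrad_not_mem card_T4
    exact ⟨_, (P.mem _).2 ⟨_, rfl⟩, mt (h1 _) h2, not_not.1 fun e => h3 ((P.du _).2 ⟨h2, e⟩)⟩
  · obtain ⟨h2, h3⟩ := (P.du _).1 ⟨none, some 0, by simp, rfl⟩
    exact ⟨_, (P.mem _).2 ⟨_, rfl⟩, mt (h1 _) h2, h3⟩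
  · by_cases hz : IsConj z a
    · obtain ⟨s, hs, rfl⟩ := P.exists_tetrad ha ha1 hz
      obtain ⟨t, ht, rfl⟩ := P.exists_tetrad hb hb1 (h.1 hz)
      exact P.exists_conj_set (by rw [hs]; decide) (hs.trans ht.symm) (by omega)
    · obtain ⟨s, hs, rfl⟩ := P.exists_duad ha ha1 hz
      obtain ⟨t, ht, rfl⟩ := P.exists_duad hb hb1 (mt h.2 hz)
      exact P.exists_conj_set (by rw [hs]; decide) (hs.trans ht.symm) (by omega)

end Cfsg.Agent.S5447
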