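import Cfsg.Statements.S5448
import Cfsg.Agent.SPOR.F24.Pk

set_option autoImplicit false
open scoped Pointwise
open Cfsg

namespace Cfsg.Agent.S5448

open CL.F24 CL.FiRec CL.CoRec CL.Golay MulAction in

/-- Let G be a finite group of large Fischer type at the involution z: the generalized Fitting subgroup Q of H = C_G(z) is extraspecial of order 2^13, H has normal subgroups Q ≤ H₁ ≤ H₂ with H₁/Q of order 3, H₂/H₁ the projective special unitary group of dimension 4 over the field with nine elements and H₂ of index 2 in H, and some conjugate of z other than z lies in Q. Let T be a Sylow 2-subgroup of G, A its Thompson subgroup, M = N_G(A) its normalizer, and t an involution of A not conjugate to z in G. Then the centralizer of t in M, modulo A, is isomorphic to the setwise stabilizer of a two-element subset of the 24 points in the Mathieu group of degree 24 (the automorphism group of the smaller Mathieu group on 22 points). -/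
theorem result {G : Type*} [Group G] [Finite G] (z : G) (Q : Subgroup (Subgroup.centralizer ({z} : Set G))) [Q.Normal] (hF : Cfsg.IsOfLargeFischerTypeAt z Q) (T : Sylow 2 G) (A M : Subgroup G) (hA : A = Cfsg.thompsonSubgroupOf 2 (T : Subgroup G)) (hM : M = Subgroup.normalizer (A : Set G)) (t : G) (htA : t ∈ A) (ht2 : orderOf t = 2) (ht : ¬ IsConj z t) : ∃ _ : (A.subgroupOf (M ⊓ Subgroup.centralizer ({t} : Set G))).Normal, Nonempty (↥(M ⊓ Subgroup.centralizer ({t} : Set G)) ⧸ A.subgroupOf (M ⊓ Subgroup.centralizer ({t} : Set G)) ≃* ↥(Cfsg.M24 ⊓ MulAction.stabilizer (Equiv.Perm Cfsg.GolayPt) ({none, some 0} : Set Cfsg.GolayPt))) := by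
  obtain ⟨ι, P⟩ := exists_pk_sylow hF T
  subst hM
  rw [← hA] at P
  obtain ⟨ψ, h1, h2, h3⟩ := P.exists_ψ
  obtain ⟨s, hs, rfl⟩ := P.exists_duad htA (by rintro rfl; simp at ht2) ht
  obtain ⟨σ, hσ, e⟩ := exists_smul_eq_of_card_eq (s := s) (t := {none, some 0})
    (by rw [hs, Finset.card_pair (by simp)]) (by omega)
  have hs' : Even s.card := by rw [hs]; decide
  have key : ∀ g : Subgroup.normalizer (A : Set G),
      (g : G) ∈ Subgroup.centralizer ({ι (∑ a ∈ s, pp a)} : Set G) ↔
      σ * ψ g * σ⁻¹ ∈ stabilizer (Equiv.Perm GolayPt) ({none, some 0} : Set GolayPt) := fun g => by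
    have h4 : ((({none, some 0} : Finset GolayPt) : Set GolayPt)) = {none, some 0} := by simp
    rw [Subgroup.mem_centralizer_singleton_iff, ← mul_inv_eq_iff_eq_mul, h3 g s hs', P.inj.eq_iff,
      mem_stabilizer_iff, ← h4, ← Finset.coe_smul_finset, Finset.coe_inj, ← e, mul_smul, mul_smul,
      inv_smul_smul, smul_left_cancel_iff]
    exact ⟨co_pp.eq_of_sum (by rwa [Finset.card_smul_finset]) hs'
      (by rw [Finset.card_smul_finset, hs]; decide), fun e => by rw [e]⟩
  let φ : ↥(Subgroup.normalizer (A : Set G) ⊓ Subgroup.centralizer ({ι (∑ a ∈ s, pp a)} : Set G)) →*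
      ↥(M24 ⊓ stabilizer (Equiv.Perm GolayPt) ({none, some 0} : Set GolayPt)) :=
    ((MulAut.conj σ).toMonoidHom.comp (M24.subtype.comp
      (ψ.comp (Subgroup.inclusion inf_le_left)))).codRestrict _ fun g =>
        ⟨M24.mul_mem (M24.mul_mem hσ (ψ _).2) (M24.inv_mem hσ), (key ⟨g, g.2.1⟩).1 g.2.2⟩
  refine quot_of_map (MonoidHom.id G) Function.injective_id (Subgroup.map_id _) (Subgroup.map_id _)
    φ (fun τ => ?_) fun g => ?_
  · obtain ⟨g, hg⟩ := h1 ⟨σ⁻¹ * τ * σ, mul_mem (mul_mem (inv_mem hσ) τ.2.1) hσ⟩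
    have h5 : σ * ψ g * σ⁻¹ = τ := by rw [hg]; group
    exact ⟨⟨g, g.2, (key g).2 (h5 ▸ τ.2.2)⟩, Subtype.ext h5⟩
  · rw [Subtype.ext_iff]
    change σ * ψ ⟨g, g.2.1⟩ * σ⁻¹ = 1 ↔ _
    rw [mul_inv_eq_one, mul_eq_left, OneMemClass.coe_eq_one, ← MonoidHom.mem_ker, h2]
    rfl

end Cfsg.Agent.S5448
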