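import Cfsg.Statements.S5449
import Cfsg.Agent.SPOR.F24P.Onto
import Cfsg.Agent.SPOR.FiQ6

set_option autoImplicit false
open Cfsg

namespace Cfsg.Agent.S5449

/-- Let G be a finite group of large Fischer type at the involution z: the generalized Fitting subgroup Q of H = C_G(z) is extraspecial of order 2^13, H has normal subgroups Q ≤ H₁ ≤ H₂ with H₁/Q of order 3, H₂/H₁ the projective special unitary group of dimension 4 over the field with nine elements and H₂ of index 2 in H, and some conjugate of z other than z lies in Q. Then Q contains a four-group E, not containing z and containing an involution not conjugate to z in G, whose centralizer in G is quasisimple with quotient by E isomorphic to the projective special unitary group of dimension 6 over the field with four elements. -/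
theorem result {G : Type*} [Group G] [Finite G] (z : G) (Q : Subgroup (Subgroup.centralizer ({z} : Set G))) [Q.Normal] (hF : Cfsg.IsOfLargeFischerTypeAt z Q) : ∃ E : Subgroup G, E ≤ (Q.map (Subgroup.centralizer ({z} : Set G)).subtype) ∧ Cfsg.IsElementaryAbelian 2 E ∧ Nat.card E = 4 ∧ z ∉ E ∧ (∃ t ∈ E, orderOf t = 2 ∧ ¬ IsConj z t) ∧ Cfsg.IsQuasisimple ↥(Subgroup.centralizer (E : Set G)) ∧ ∃ (_ : (E.subgroupOf (Subgroup.centralizer (E : Set G))).Normal) (K : Type) (_ : Field K) (_ : Fintype K), Fintype.card K = 4 ∧ Nonempty (↥(Subgroup.centralizer (E : Set G)) ⧸ E.subgroupOf (Subgroup.centralizer (E : Set G)) ≃* Cfsg.PSU 6 K 2) := by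
  open _root_.CL.FiA _root_.CL.FiQ _root_.CL.TTU _root_.CL.TTU.U6 in
  obtain ⟨ψ, a, b, c, d, P, hl, hz⟩ := CL.F24P.exists_ps hF
  have h := CL.Fi.D24.is24
  have g := gp24
  have s := sg24
  have h3 : Fr CL.Fi24.D [a, b, c] := hl.sublist (by simp)
  have S := T24.sit3 h g s h3
  obtain ⟨u, hu⟩ := P.exists_pre (g.mul_mem_comm (h3.mem a (by simp)) (h3.mem b (by simp)))
  obtain ⟨w, hw⟩ := P.exists_pre (g.mul_mem_comm (h3.mem a (by simp)) (h3.mem c (by simp)))
  have tu : Ty CL.Fi24.D 2 (ψ u) := ⟨[a, b], hl.sublist (by simp), rfl, by simp [hu]⟩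
  have tw : Ty CL.Fi24.D 2 (ψ w) := ⟨[a, c], hl.sublist (by simp), rfl, by simp [hw]⟩
  have tz : Ty CL.Fi24.D 4 (ψ z) := ⟨_, hl, rfl, by rw [prod_four, hz]⟩
  have sq : ∀ {x}, Ty CL.Fi24.D 2 (ψ x) → x * x = 1 ∧ x ≠ 1 := fun {x} t =>
    ⟨P.inj (by rw [map_mul, Ty.sq g t, map_one]),
      fun e => Ty.ne_one S.mw t (by omega) (by rw [e, map_one])⟩
  have cuw : Commute u w := by
    have q := h3.com
    simp only [List.mem_cons, List.not_mem_nil, or_false, forall_eq_or_imp, forall_eq] at q
    rw [← P.commute_iff, hu, hw]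
    exact (q.1.1.mul_right q.1.2.2).mul_left (q.2.1.1.mul_right q.2.1.2.2)
  have ne : u ≠ w := fun e => by
    have q := h3.nd
    rw [e, hw] at hu
    simp at q hu
    exact q.2 hu.symm
  have ea := CL.FiRec.ea_closure (S := {u, w})
    (by rintro _ (rfl | rfl); exacts [(sq tu).1, (sq tw).1])
    (by rintro _ (rfl | rfl) _ (rfl | rfl); exacts [rfl, cuw, cuw.symm, rfl])
  have mE : ∀ x, x ∈ Subgroup.closure {u, w} ↔ ψ x ∈ Subgroup.closure {x | x ∈ [a, b, c]} := by
    intro x
    rw [T24.mem_V3 h g s h3 (P.mem x), ← Subgroup.mem_map_iff_mem P.inj, MonoidHom.map_closure,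
      Set.image_pair, hu, hw]
  have hK : (Subgroup.centralizer (Subgroup.closure {u, w} : Subgroup G)).map ψ = KK [a, b, c] := by
    rw [Subgroup.centralizer_closure, P.map_cent, Set.image_pair, hu, hw]
    ext x
    rw [mem_KK, Subgroup.mem_inf, _root_.CL.FiC.mem_centralizer_iff']
    simp only [List.mem_cons, List.not_mem_nil, or_false, forall_eq_or_imp, forall_eq,
      Set.mem_insert_iff, Set.mem_singleton_iff]
    exact and_congr_right fun _ => ⟨fun c => g.com_three S.mw h3 c.1 c.2,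
      fun c => ⟨c.1.mul_right c.2.1, c.1.mul_right c.2.2⟩⟩
  obtain ⟨ε, hε⟩ := exists_equiv_map P.inj hK
  obtain ⟨π, p1, p2⟩ := S.exists_proj (gl_TV card_F4 (RingEquiv.refl _))
    (T21.exists_isoOn (T24.is_NB3 h h3) (is21_TV card_F4 (RingEquiv.refl _)))
  have hk : (Subgroup.closure {u, w}).subgroupOf _ = (π.comp ε.toMonoidHom).ker := by
    ext x
    rw [Subgroup.mem_subgroupOf, mE, ← hε, ← Subgroup.mem_subgroupOf, ← p2]
    rfl
  have hn : ((Subgroup.closure {u, w}).subgroupOf
      (Subgroup.centralizer (Subgroup.closure {u, w} : Subgroup G))).Normal := hk ▸ inferInstance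
  have hQ : Q.map (Subgroup.subtype _) = CL.Comp.fstarOf (Subgroup.centralizer {z}) := by
    rw [← hF.1.2.1]; rfl
  refine ⟨Subgroup.closure {u, w}, ?_, CL.FiRec.ea_iff.1 ea,
    card_closure_four (sq tu).1 (sq tw).1 cuw (sq tu).2 (sq tw).2 ne, fun m => ?_,
    ⟨u, Subgroup.subset_closure (by simp), orderOf_eq_prime (by rw [pow_two, (sq tu).1]) (sq tu).2,
      P.not_isConj h g tz tu⟩, S.quasi.of_mulEquiv ε.symm, hn, _, _, _, card_F4,
    ⟨(QuotientGroup.quotientMulEquivOfEq hk).trans
      (QuotientGroup.quotientKerEquivOfSurjective _ (p1.comp ε.surjective))⟩⟩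
  · rw [hQ, Subgroup.closure_le]
    rintro _ (rfl | rfl)
    · exact (P.mem_fstar h g hl hz).2 (by rw [hu]; exact Subgroup.subset_closure (mul_mem_tp h g hl).1)
    · exact (P.mem_fstar h g hl hz).2 (by rw [hw]; exact Subgroup.subset_closure (mul_mem_tp h g hl).2.1)
  · obtain ⟨t, ht, e, rfl | t2⟩ := Sit.exists_sub S (P.mem z) ((mE z).1 m)
    · exact Ty.ne_one S.mw tz (by omega) e
    · exact not_ty4_ty2 h g tz ⟨t, h3.sublist ht, t2, e.symm⟩

end Cfsg.Agent.S5449
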