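import Cfsg.Statements.S5450
import Cfsg.Agent.SPOR.F24P.Onto
import Cfsg.Agent.SPOR.FiQ6

set_option autoImplicit false
open Cfsg

namespace Cfsg.Agent.S5450

/-- Let G be a finite group of large Fischer type at the involution z: the generalized Fitting subgroup Q of H = C_G(z) is extraspecial of order 2^13, H has normal subgroups Q ≤ H₁ ≤ H₂ with H₁/Q of order 3, H₂/H₁ the projective special unitary group of dimension 4 over the field with nine elements and H₂ of index 2 in H, and some conjugate of z other than z lies in Q. Let t be an involution of Q not conjugate to z in G, and K the generalized Fitting subgroup of the centralizer of t. Then K is quasisimple of index 2 in the centralizer of t, contains t, and the centralizer of t modulo the subgroup generated by t is isomorphic to the full automorphism group of the Fischer group Fi₂₂ (as presented). -/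
theorem result {G : Type*} [Group G] [Finite G] (z : G) (Q : Subgroup (Subgroup.centralizer ({z} : Set G))) [Q.Normal] (hF : Cfsg.IsOfLargeFischerTypeAt z Q) (t : G) (htQ : ∃ htc : t ∈ Subgroup.centralizer ({z} : Set G), (⟨t, htc⟩ : Subgroup.centralizer ({z} : Set G)) ∈ Q) (ht2 : orderOf t = 2) (ht : ¬ IsConj z t) (K : Subgroup ↥(Subgroup.centralizer ({t} : Set G))) (hK : K = Cfsg.generalizedFittingSubgroup ↥(Subgroup.centralizer ({t} : Set G))) [hn : ((Subgroup.zpowers t).subgroupOf (Subgroup.centralizer ({t} : Set G))).Normal] : Cfsg.IsQuasisimple ↥K ∧ K.index = 2 ∧ (∃ htc : t ∈ Subgroup.centralizer ({t} : Set G), (⟨t, htc⟩ : ↥(Subgroup.centralizer ({t} : Set G))) ∈ K) ∧ Nonempty (↥(Subgroup.centralizer ({t} : Set G)) ⧸ (Subgroup.zpowers t).subgroupOf (Subgroup.centralizer ({t} : Set G)) ≃* MulAut Cfsg.Spor.Fi22) := by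
  open _root_.CL.FiA _root_.CL.FiQ in
  obtain ⟨ψ, a', b', c, d, P, hl', hz⟩ := CL.F24P.exists_ps hF
  have h := CL.Fi.D24.is24
  have g := gp24
  have s := sg24
  have tz : Ty CL.Fi24.D 4 (ψ z) := ⟨_, hl', rfl, by rw [prod_four, hz]⟩
  have o := (orderOf_injective ψ P.inj t).trans ht2
  obtain ⟨a, b, hl, e⟩ := ty_two.1 ((T24.ty_of_sq h g s (P.mem t)
    (by rw [← pow_two, ← o, pow_orderOf_eq_one]) (by rintro e; simp [e] at o)).resolve_right
      fun q => ht (P.isConj_of_ty4 h g tz q))
  obtain ⟨D', h', g'⟩ := ex22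
  have S := T24.sit2 h g s hl
  have hC : (Subgroup.centralizer {t}).map ψ = CC [a, b] := by simp [P.map_cent1, e, CC]
  obtain ⟨ε, hε⟩ := exists_equiv_map P.inj hC
  have hK' : K = ((KK [a, b]).subgroupOf (CC [a, b])).comap ε.toMonoidHom := by
    rw [hK, ← S.fstar, CL.Comp.fstarOf_subgroupOf, ← CL.Comp.fstar_map_equiv ε,
      Subgroup.comap_map_eq_self_of_injective ε.injective]
  obtain ⟨-, ρ, h1, h2⟩ := S.exists_aut g' ((T24.is_NB2 h hl).exists_isoOn h') (T22.card_aut h' g')
  have hm : K.map ε.toMonoidHom = (KK [a, b]).subgroupOf (CC [a, b]) := by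
    rw [hK', Subgroup.map_comap_eq_self_of_surjective ε.surjective]
  refine ⟨S.quasi.of_mulEquiv (((K.equivMapOfInjective ε.toMonoidHom ε.injective).trans
      (MulEquiv.subgroupCongr hm)).trans (Subgroup.subgroupOfEquivOfLe (KK_le _))).symm,
    by rw [hK', Subgroup.index_comap_of_surjective _ ε.surjective, S.index]; rfl,
    ⟨Subgroup.mem_centralizer_singleton_iff.2 rfl, ?_⟩,
    ⟨(QuotientGroup.quotientMulEquivOfEq ?_).trans
      (QuotientGroup.quotientKerEquivOfSurjective (ρ.comp ε.toMonoidHom) (h1.comp ε.surjective))⟩⟩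
  · rw [hK', Subgroup.mem_comap, Subgroup.mem_subgroupOf, MulEquiv.coe_toMonoidHom, hε, e, S.KK_eq]
    exact T24.mem_comm2 h hl g
  · ext x
    rw [Subgroup.mem_subgroupOf, ← Subgroup.mem_map_iff_mem P.inj, MonoidHom.map_zpowers, e,
      ← T24.mem_V2 h g s hl (P.mem _), ← hε, ← Subgroup.mem_subgroupOf, ← h2]
    rfl

end Cfsg.Agent.S5450
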