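import Cfsg.Statements.S5451
import Cfsg.Agent.SPOR.F24.Cent3

set_option autoImplicit false
open Cfsg

namespace Cfsg.Agent.S5451

open CL.F24 CL.FiRec MulAction in

/-- Let G be a finite group of large Fischer type at the involution z: the generalized Fitting subgroup Q of H = C_G(z) is extraspecial of order 2^13, H has normal subgroups Q ≤ H₁ ≤ H₂ with H₁/Q of order 3, H₂/H₁ the projective special unitary group of dimension 4 over the field with nine elements and H₂ of index 2 in H, and some conjugate of z other than z lies in Q. Let X be a subgroup of H of order 3 whose product with Q is normal in H (X maps onto the normal subgroup of order 3 of H/Q). Then the centralizer of X in H is quasisimple with cyclic centre of order 6 and central quotient isomorphic to the projective special unitary group of dimension 4 over the field with nine elements. -/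
theorem result {G : Type*} [Group G] [Finite G] (z : G) (Q : Subgroup (Subgroup.centralizer ({z} : Set G))) [Q.Normal] (hF : Cfsg.IsOfLargeFischerTypeAt z Q) (X : Subgroup (Subgroup.centralizer ({z} : Set G))) (hX : Nat.card X = 3) (hXQ : (X ⊔ Q).Normal) : Cfsg.IsQuasisimple ↥(Subgroup.centralizer ((X : Subgroup (Subgroup.centralizer ({z} : Set G))) : Set (Subgroup.centralizer ({z} : Set G)))) ∧ IsCyclic ↥(Subgroup.center ↥(Subgroup.centralizer ((X : Subgroup (Subgroup.centralizer ({z} : Set G))) : Set (Subgroup.centralizer ({z} : Set G))))) ∧ Nat.card ↥(Subgroup.center ↥(Subgroup.centralizer ((X : Subgroup (Subgroup.centralizer ({z} : Set G))) : Set (Subgroup.centralizer ({z} : Set G))))) = 6 ∧ ∃ (K : Type) (_ : Field K) (_ : Fintype K), Fintype.card K = 9 ∧ Nonempty (↥(Subgroup.centralizer ((X : Subgroup (Subgroup.centralizer ({z} : Set G))) : Set (Subgroup.centralizer ({z} : Set G)))) ⧸ Subgroup.center ↥(Subgroup.centralizer ((X : Subgroup (Subgroup.centralizer ({z} : Set G))) : Set (Subgroup.centralizer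 ({z} : Set G)))) ≃* Cfsg.PSU 4 K 3) := by
  obtain ⟨κ, ρ, F, hk⟩ := exists_ft hF
  have : Fact (Nat.Prime 3) := ⟨by norm_num⟩
  obtain ⟨y, hy⟩ := (Subgroup.isCyclic_iff_exists_zpowers_eq_top X).1 (isCyclic_of_prime_card hX)
  have ho : orderOf y = 3 := by rw [← Nat.card_zpowers, hy, hX]
  have h3 : (y : G) ^ 3 = 1 := congrArg Subtype.val (ho ▸ pow_orderOf_eq_one y)
  have hm : (X ⊔ Q).map ρ = Subgroup.zpowers (ρ y) := by
    rw [Subgroup.map_sup, ← hk, (Subgroup.map_eq_bot_iff _).2 le_rfl, sup_bot_eq, ← hy,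
      MonoidHom.map_zpowers]
  have h4 := F.exists_gen (ov_coe y) (fun e => by
    rw [show y = 1 from Subtype.ext e, orderOf_one] at ho; omega) h3 fun δ hδ => by
      obtain ⟨c, rfl⟩ := F.le hδ
      rw [← hm, ← map_inv, ← map_mul, ← map_mul]
      exact ⟨_, hXQ.conj_mem _ (Subgroup.mem_sup_left (hy ▸ Subgroup.mem_zpowers y)) c, rfl⟩
  obtain ⟨x, hx, hx3, e⟩ : ∃ x : Subgroup.centralizer ({z} : Set G), ρ x = Z0 ∧ (x : G) ^ 3 = 1 ∧
      Subgroup.zpowers x = X := by
    rcases h4 with e | e
    · exact ⟨y, e, h3, hy⟩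
    · exact ⟨y⁻¹, by rw [map_inv, e, inv_inv], by rw [Subgroup.coe_inv, inv_pow, h3, inv_one],
        by rw [Subgroup.zpowers_inv, hy]⟩
  have hc : ∀ c, c ∈ Subgroup.centralizer (X : Set (Subgroup.centralizer ({z} : Set G))) ↔
      (c : G) * x = x * c := fun c => by
    rw [← e, Subgroup.zpowers_eq_closure, Subgroup.centralizer_closure,
      Subgroup.mem_centralizer_singleton_iff, Subtype.ext_iff]
    rfl
  obtain ⟨h5, h6, h7, h8⟩ := F.cent3 (hx ▸ ov_coe x) hx3
    ((Subgroup.subtype _).comp (Subgroup.centralizer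
      (X : Set (Subgroup.centralizer ({z} : Set G)))).subtype)
    (fun a b e => Subtype.ext (Subtype.ext e)) fun c => ⟨by
      rintro ⟨d, rfl⟩
      exact ⟨Subgroup.mem_centralizer_singleton_iff.1 d.1.2, (hc _).1 d.2⟩, fun h =>
      ⟨⟨⟨c, Subgroup.mem_centralizer_singleton_iff.2 h.1⟩, (hc _).2 h.2⟩, rfl⟩⟩
  exact ⟨h5, h6, h7, F9, inferInstance, inferInstance, card_F9, h8⟩

end Cfsg.Agent.S5451
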