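import Cfsg.Statements.S5459


set_option autoImplicit false
open Cfsg

namespace Cfsg.Agent.S5459


/-- Let G be a finite group with a quasisimple normal subgroup L and an involution d such that G is generated by L and d, the centre of L has odd order, and d inverts every element of the centre of L. If the commuting graph on the conjugacy class of the image of d in G modulo the centre of L is connected, then the commuting graph on the conjugacy class of d is connected. -/
theorem result {G : Type*} [Group G] [Finite G] (L : Subgroup G) [L.Normal] (hL : Cfsg.IsQuasisimple ↥L) (d : G) (hd : orderOf d = 2) (hgen : L ⊔ Subgroup.zpowers d = ⊤) (hodd : Odd (Nat.card ↥(Subgroup.center ↥L))) (hinv : ∀ c ∈ (Subgroup.center ↥L).map L.subtype, d * c * d⁻¹ = c⁻¹) [hn : ((Subgroup.center ↥L).map L.subtype).Normal] (hconn : (Cfsg.commutingGraph (conjugatesOf (QuotientGroup.mk d : G ⧸ (Subgroup.center ↥L).map L.subtype))).Connected) : (Cfsg.commutingGraph (conjugatesOf d)).Connected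 := by
  set Z := (Subgroup.center ↥L).map L.subtype with hZ
  have hZc : Nat.card Z = Nat.card (Subgroup.center L) := by
    rw [hZ, Subgroup.card_map_of_injective L.subtype_injective]
  have hdd : d * d = 1 := by rw [← pow_two, ← hd, pow_orderOf_eq_one]
  have hZL : Z ≤ L := Subgroup.map_subtype_le _
  have hZcomm : ∀ z ∈ Z, ∀ l ∈ L, l * z = z * l := by
    rintro _ ⟨z, hz, rfl⟩ l hl
    exact congrArg Subtype.val (Subgroup.mem_center_iff.1 hz ⟨l, hl⟩)
  have hroot : ∀ c ∈ Z, ∃ w ∈ Z, w * w = c := by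
    intro c hc
    obtain ⟨k, hk⟩ := hodd
    have h1 : c ^ Nat.card Z = 1 := congrArg Subtype.val (pow_card_eq_one' (x := (⟨c, hc⟩ : Z)))
    refine ⟨c ^ (k + 1), Z.pow_mem hc _, ?_⟩
    rw [hZc, hk] at h1
    rw [← pow_add, show k + 1 + (k + 1) = 2 * k + 1 + 1 by ring, pow_succ, h1, one_mul]
  have hsq : ∀ a ∈ conjugatesOf d, a * a = 1 := by
    intro a ha
    obtain ⟨c, rfl⟩ := isConj_iff.1 ha
    calc c * d * c⁻¹ * (c * d * c⁻¹) = c * (d * d) * c⁻¹ := by group
      _ = 1 := by rw [hdd]; group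
  have hcl : ∀ a ∈ conjugatesOf d, ∀ g : G, g * a * g⁻¹ ∈ conjugatesOf d := fun a ha g =>
    IsConj.trans ha (isConj_iff.2 ⟨g, rfl⟩)
  have hinv' : ∀ a ∈ conjugatesOf d, ∀ c ∈ Z, a * c = c⁻¹ * a := by
    intro a ha c hc
    obtain ⟨g, rfl⟩ := isConj_iff.1 ha
    have := hinv (g⁻¹ * c * g) (by simpa using hn.conj_mem c hc g⁻¹)
    calc g * d * g⁻¹ * c = g * (d * (g⁻¹ * c * g) * d⁻¹) * d * g⁻¹ := by group
      _ = _ := by rw [this]; group
  let Γ := Cfsg.commutingGraph (conjugatesOf d)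
  let d₀ : conjugatesOf d := ⟨d, IsConj.refl d⟩
  let π : conjugatesOf d → conjugatesOf (QuotientGroup.mk d : G ⧸ Z) := fun a =>
    ⟨QuotientGroup.mk a, (QuotientGroup.mk' Z).map_isConj a.2⟩
  have hstep : ∀ a b : conjugatesOf d, Commute (a : G) b → Γ.Reachable a b := by
    intro a b h
    by_cases hab : a = b
    · rw [hab]
    · exact SimpleGraph.Adj.reachable (by
        simp only [Γ, Cfsg.commutingGraph, SimpleGraph.fromRel_adj]; exact ⟨hab, Or.inl h⟩)
  -- lifting edges
  have hlift : ∀ (a : conjugatesOf d) (y : conjugatesOf (QuotientGroup.mk d : G ⧸ Z)),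
      Commute ((π a : _) : G ⧸ Z) y → ∃ b : conjugatesOf d, π b = y ∧ Commute (a : G) b := by
    rintro ⟨a, ha⟩ ⟨y, hy⟩ hc
    obtain ⟨g, rfl⟩ := isConj_iff.1 hy
    induction g using QuotientGroup.induction_on with
    | H g =>
      set b := g * d * g⁻¹ with hb
      have hbD : b ∈ conjugatesOf d := hcl d (IsConj.refl d) g
      have hc' : (QuotientGroup.mk (a * b) : G ⧸ Z) = QuotientGroup.mk (b * a) := hc
      have hc2 : a * b * (b * a)⁻¹ ∈ Z := by
        rw [← QuotientGroup.eq_one_iff, QuotientGroup.mk_mul, QuotientGroup.mk_inv, hc', mul_inv_cancel]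
      obtain ⟨w1, hw1, e1⟩ := hroot _ hc2
      obtain ⟨w, hw, e2⟩ := hroot _ hw1
      have hbw : w * b * w⁻¹ = w1 * b := by
        rw [mul_assoc, hinv' b hbD _ (Z.inv_mem hw), inv_inv, ← mul_assoc, e2]
      refine ⟨⟨w * b * w⁻¹, hcl b hbD w⟩, ?_, ?_⟩
      · apply Subtype.ext
        show (QuotientGroup.mk (w * b * w⁻¹) : G ⧸ Z) = QuotientGroup.mk b
        rw [hbw, QuotientGroup.mk_mul, (QuotientGroup.eq_one_iff w1).2 hw1, one_mul]
      · show a * (w * b * w⁻¹) = (w * b * w⁻¹) * a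
        rw [hbw, ← mul_assoc, hinv' a ha _ hw1]
        calc w1⁻¹ * a * b = w1⁻¹ * (a * b * (b * a)⁻¹) * (b * a) := by group
          _ = _ := by rw [← e1]; group
  have hreach : ∀ y : conjugatesOf (QuotientGroup.mk d : G ⧸ Z),
      ∃ b : conjugatesOf d, π b = y ∧ Γ.Reachable d₀ b := by
    intro y
    have h := (hconn.preconnected (π d₀) y)
    rw [SimpleGraph.reachable_iff_reflTransGen] at h
    induction h with
    | refl => exact ⟨d₀, rfl, SimpleGraph.Reachable.refl _⟩
    | tail _ hadj ih =>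
      obtain ⟨b, rfl, hb⟩ := ih
      simp only [Cfsg.commutingGraph, SimpleGraph.fromRel_adj] at hadj
      obtain ⟨c, hc, hbc⟩ := hlift b _ (hadj.2.elim id Commute.symm)
      exact ⟨c, hc, hb.trans (hstep _ _ hbc)⟩
  let cj : G → conjugatesOf d → conjugatesOf d := fun g a => ⟨g * a * g⁻¹, hcl a a.2 g⟩
  have hcj : ∀ g a b, Γ.Reachable a b → Γ.Reachable (cj g a) (cj g b) := by
    intro g a b h
    rw [SimpleGraph.reachable_iff_reflTransGen] at h
    induction h with
    | refl => exact SimpleGraph.Reachable.refl _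
    | tail _ hadj ih =>
      simp only [Γ, Cfsg.commutingGraph, SimpleGraph.fromRel_adj] at hadj
      refine ih.trans (hstep _ _ ?_)
      exact (hadj.2.elim id Commute.symm).map (MulAut.conj g)
  let S : Subgroup G :=
    { carrier := {g | Γ.Reachable d₀ (cj g d₀)}
      one_mem' := by
        show Γ.Reachable d₀ (cj 1 d₀)
        have : cj 1 d₀ = d₀ := Subtype.ext (by simp [cj])
        rw [this]
      mul_mem' := by
        intro g h hg hh
        have : cj (g * h) d₀ = cj g (cj h d₀) := Subtype.ext (by simp [cj, mul_assoc])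
        show Γ.Reachable d₀ (cj (g * h) d₀)
        rw [this]
        exact SimpleGraph.Reachable.trans hg (hcj g _ _ hh)
      inv_mem' := by
        intro g hg
        have h := hcj g⁻¹ _ _ hg
        have : cj g⁻¹ (cj g d₀) = d₀ := Subtype.ext (by simp [cj, mul_assoc])
        rw [this] at h
        exact h.symm }
  have hSZ : ∀ g : G, ∃ w ∈ Z, w * g ∈ S := by
    intro g
    obtain ⟨b, hb, hr⟩ := hreach (π (cj g d₀))
    have h1 : (QuotientGroup.mk (b : G) : G ⧸ Z) = QuotientGroup.mk (g * d * g⁻¹) :=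
      congrArg Subtype.val hb
    have h2 : (b : G) * (g * d * g⁻¹)⁻¹ ∈ Z := by
      rw [← QuotientGroup.eq_one_iff, QuotientGroup.mk_mul, QuotientGroup.mk_inv, h1, mul_inv_cancel]
    obtain ⟨w, hw, e⟩ := hroot _ h2
    refine ⟨w, hw, ?_⟩
    show Γ.Reachable d₀ (cj (w * g) d₀)
    have : cj (w * g) d₀ = b := by
      apply Subtype.ext
      show w * g * d * (w * g)⁻¹ = b
      have h3 := hinv' _ (hcl d (IsConj.refl d) g) _ (Z.inv_mem hw)
      calc w * g * d * (w * g)⁻¹ = w * (g * d * g⁻¹ * w⁻¹) := by group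
        _ = (w * w) * (g * d * g⁻¹) := by rw [h3]; group
        _ = b := by rw [e]; group
    rw [this]; exact hr
  have hLS : L ≤ S := by
    have hp : commutator L = ⊤ := hL.1.commutator_eq_top
    have h1 : commutator L ≤ S.subgroupOf L := by
      rw [commutator_def, Subgroup.commutator_le]
      rintro ⟨x, hx⟩ - ⟨y, hy⟩ -
      obtain ⟨u, hu, hux⟩ := hSZ x
      obtain ⟨v, hv, hvy⟩ := hSZ y
      rw [Subgroup.mem_subgroupOf]
      have hS := S.mul_mem (S.mul_mem (S.mul_mem hux hvy) (S.inv_mem hux)) (S.inv_mem hvy)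
      have e : u * x * (v * y) * (u * x)⁻¹ * (v * y)⁻¹ = x * y * x⁻¹ * y⁻¹ := by
        have a1 := hZcomm u hu (x * (v * y) * x⁻¹)
          (L.mul_mem (L.mul_mem hx (L.mul_mem (hZL hv) hy)) (L.inv_mem hx))
        have a2 := hZcomm v hv x hx
        have a3 := hZcomm v hv (x * y * x⁻¹ * y⁻¹)
          (L.mul_mem (L.mul_mem (L.mul_mem hx hy) (L.inv_mem hx)) (L.inv_mem hy))
        calc u * x * (v * y) * (u * x)⁻¹ * (v * y)⁻¹
            = u * (x * (v * y) * x⁻¹) * u⁻¹ * (v * y)⁻¹ := by group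
          _ = (x * v) * y * x⁻¹ * y⁻¹ * v⁻¹ := by rw [← a1]; group
          _ = v * (x * y * x⁻¹ * y⁻¹) * v⁻¹ := by rw [a2]; group
          _ = _ := by rw [← a3]; group
      rw [e] at hS
      exact hS
    intro x hx
    rw [hp] at h1
    exact h1 (Subgroup.mem_top ⟨x, hx⟩)
  have hS : ∀ g : G, g ∈ S := by
    intro g
    obtain ⟨w, hw, h⟩ := hSZ g
    simpa using S.mul_mem (S.inv_mem (hLS (hZL hw))) h
  have hall : ∀ a : conjugatesOf d, Γ.Reachable d₀ a := by
    rintro ⟨a, ha⟩
    obtain ⟨g, rfl⟩ := isConj_iff.1 ha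
    exact hS g
  haveI : Nonempty (conjugatesOf d) := ⟨d₀⟩
  exact ⟨fun a b => (hall a).symm.trans (hall b)⟩

end Cfsg.Agent.S5459
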