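import Cfsg.Statements.S5460
import Cfsg.Agent.SPOR.F24P.Onto
import Cfsg.Agent.SPOR.FiQ7

set_option autoImplicit false
open Cfsg

namespace Cfsg.Agent.S5460

/-- Let X be a finite group with a subgroup G₀ of index 2 that is of large Fischer type at an involution z central in some Sylow 2-subgroup of G₀ (the generalized Fitting subgroup Q of the centralizer C of z in G₀ is extraspecial of order 2^13, C has normal subgroups Q ≤ H₁ ≤ H₂ with H₁/Q of order 3, H₂/H₁ isomorphic to the projective special unitary group of dimension 4 over the field with nine elements and H₂ of index 2 in C, and some G₀-conjugate of z other than z lies in Q), and suppose the generalized Fitting subgroup of the centralizer of z in X is Q as well. Then there is an involution d of X outside G₀ commuting with z, and an involution t of the centralizer Y of d in G₀, such that: the centralizer of t in Y is quasisimple; its quotient by the subgroup generated by t is of type M(22)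 for some generating conjugacy class of 3-transpositions and has an involution whose own centralizer is quasisimple, with quotient by it the projective special unitary group of dimension 6 over the field with four elements, and which is not weakly closed in that centralizer; t is not weakly closed in its centralizer in Y; and the conjugacy class of t in Y is a class of 3-transpositions generating Y with respect to which Y is of type M(23). -/
theorem result {X : Type*} [Group X] [Finite X] (G₀ : Subgroup X) (hidx : G₀.index = 2) (z : ↥G₀) (Q : Subgroup (Subgroup.centralizer ({z} : Set ↥G₀))) [Q.Normal] (hF : Cfsg.IsOfLargeFischerTypeAt z Q) (hcentral : ∃ P : Sylow 2 ↥G₀, z ∈ (P : Subgroup ↥G₀) ∧ ∀ x ∈ (P : Subgroup ↥G₀), Commute x z) (hFX : (Cfsg.generalizedFittingSubgroup ↥(Subgroup.centralizer ({(z : X)} : Set X))).map (Subgroup.subtype _) = ((Q.map (Subgroup.subtype _)).map G₀.subtype)) : ∃ d : X, orderOf d = 2 ∧ d ∉ G₀ ∧ Commute d (z : X) ∧ ∃ t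 : ↥(G₀ ⊓ Subgroup.centralizer ({d} : Set X)), orderOf t = 2 ∧ Cfsg.IsQuasisimple ↥(Subgroup.centralizer ({t} : Set ↥(G₀ ⊓ Subgroup.centralizer ({d} : Set X)))) ∧ (∃ (_ : ((Subgroup.zpowers t).subgroupOf (Subgroup.centralizer ({t} : Set ↥(G₀ ⊓ Subgroup.centralizer ({d} : Set X))))).Normal), (∃ E : Set (↥(Subgroup.centralizer ({t} : Set ↥(G₀ ⊓ Subgroup.centralizer ({d} : Set X)))) ⧸ (Subgroup.zpowers t).subgroupOf (Subgroup.centralizer ({t} : Set ↥(G₀ ⊓ Subgroup.centralizer ({d} : Set X))))), Cfsg.IsThreeTranspositionClass E ∧ Cfsg.IsOfTypeM22 _ E) ∧ ∃ d' : ↥(Subgroup.centralizer ({t} : Set ↥(G₀ ⊓ Subgroup.centralizer ({d} : Set X)))) ⧸ (Subgroup.zpowers t).subgroupOf (Subgroup.centralizer ({t} : Set ↥(G₀ ⊓ Subgroup.centralizer ({d} : Set X)))), orderOf d' = 2 ∧ Cfsg.IsQuasisimple ↥(Subgroup.centralizer ({d'} : Set _)) ∧ (∃ (K : Type) (_ : Field K) (_ : Fintype K), Fintype.card K = 4 ∧ ∃ _ : ((Subgroup.zpowers d').subgroupOf (Subgroup.centralizer ({d'}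 : Set _))).Normal, Nonempty (↥(Subgroup.centralizer ({d'} : Set _)) ⧸ (Subgroup.zpowers d').subgroupOf (Subgroup.centralizer ({d'} : Set _)) ≃* Cfsg.PSU 6 K 2)) ∧ ∃ g, g * d' * g⁻¹ ∈ Subgroup.centralizer ({d'} : Set _) ∧ g * d' * g⁻¹ ≠ d') ∧ (∃ g : ↥(G₀ ⊓ Subgroup.centralizer ({d} : Set X)), g * t * g⁻¹ ∈ Subgroup.centralizer ({t} : Set ↥(G₀ ⊓ Subgroup.centralizer ({d} : Set X))) ∧ g * t * g⁻¹ ≠ t) ∧ Cfsg.IsThreeTranspositionClass (conjugatesOf t) ∧ Cfsg.IsOfTypeM23 ↥(G₀ ⊓ Subgroup.centralizer ({d} : Set X)) (conjugatesOf t) := by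
  open _root_.CL.FiA _root_.CL.FiQ _root_.CL.FiC _root_.CL.FiL _root_.CL.TTU.U6 in
  obtain ⟨ψ, a, b, c, d, P, hl, hz⟩ := CL.F24P.exists_ps hF
  obtain ⟨θ, hθ⟩ := exists_ext CL.Fi.D24.is24 gp24 hidx P (z := z)
    (hFX.le.trans (Subgroup.map_subtype_le _))
  have h3 := fi_map CL.FiE.fi_24 θ.symm
  have ha := hl.mem a (by simp)
  have ma : θ.symm a ∈ θ.symm '' CL.Fi24.D := ⟨a, ha, rfl⟩
  have hn : θ.symm a ∉ G₀ := fun m => sg24 a ha (by
    have := P.mem ⟨_, m⟩
    rwa [← hθ, θ.apply_symm_apply] at this)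
  obtain ⟨E2, h2⟩ := fi_inf_cent h3 ma hidx hn
  obtain ⟨t, ht⟩ := h2.lv.ne
  obtain ⟨n1, E1, h1⟩ := fi_quot_cent h2 ht
  obtain ⟨s, hs⟩ := h1.lv.ne
  obtain ⟨n0, E0, h0⟩ := fi_quot_cent h1 hs
  have g0 := gl_TV card_F4 (RingEquiv.refl _)
  obtain ⟨e0, -⟩ := h0.exists_equiv (D' := TV card_F4 (RingEquiv.refl _))
    ⟨is21_TV _ _, g0.gen, g0.cen⟩
  refine ⟨θ.symm a, h3.fs.tt.1 _ ma, hn, ?_, t, h2.fs.tt.1 _ ht,
    h2.closure_nb ht ▸ T23.quasi_nb h2.is (gp_of_fi h2) ht,
    ⟨n1, ⟨E1, (gp_of_fi h1).cls, type22 h1⟩, s, h1.fs.tt.1 _ hs,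
      h1.closure_nb hs ▸ T22.quasi_nb h1.is (gp_of_fi h1) hs, ⟨_, _, _, card_F4, n0, ⟨e0⟩⟩,
      not_closed h1 hs⟩, not_closed h2 ht, ?_⟩
  · refine θ.injective ?_
    rw [map_mul, map_mul, θ.apply_symm_apply, hθ, hz, ← prod_four]
    exact hl.commute_prod (by simp)
  · rw [← (gp_of_fi h2).eq_conjugatesOf ht]
    exact ⟨(gp_of_fi h2).cls, type23 h2⟩

end Cfsg.Agent.S5460
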