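import Cfsg.Statements.S5461
import Cfsg.Agent.SPOR.F24P.Mon3

set_option autoImplicit false
open Cfsg

namespace Cfsg.Agent.S5461

/-- Let G be a finite group of Monster type at the involution z with Q the extraspecial normal subgroup of order 2^25 of C_G(z) (C_G(z)/Q identified with the first Conway group with Q modulo its centre the Leech lattice modulo 2, z not weakly closed in Q). Let s be a conjugate of z (in G) lying in Q and other than z, and Y a subgroup of order 3 of the joint centralizer of z and s lying in the centre of some Sylow 3-subgroup of it. Then the centralizer of Y is quasisimple, its quotient by Y is isomorphic to the commutator subgroup of the presented Fischer group Fi₂₄, and the normalizer of Y modulo Y is generated by a conjugacy class of 3-transpositions with respect to which it is of type M(24). -/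
theorem result {G : Type*} [Group G] [Finite G] (z : G) (Q : Subgroup (Subgroup.centralizer ({z} : Set G))) [Q.Normal] (hM : Cfsg.IsOfMonsterType z Q) (s : G) (hsQ : ∃ hsc : s ∈ Subgroup.centralizer ({z} : Set G), (⟨s, hsc⟩ : Subgroup.centralizer ({z} : Set G)) ∈ Q) (hs : IsConj z s) (hs1 : s ≠ z) (Y : Subgroup G) (hY : Y ≤ Subgroup.centralizer ({z, s} : Set G)) (hY3 : Nat.card Y = 3) (hc : ∃ P : Sylow 3 ↥(Subgroup.centralizer ({z, s} : Set G)), Y.subgroupOf (Subgroup.centralizer ({z, s} : Set G)) ≤ (Subgroup.center ↥(P : Subgroup ↥(Subgroup.centralizer ({z, s} : Set G)))).map (P : Subgroup ↥(Subgroup.centralizer ({z, s} : Set G))).subtype) [hn : (Y.subgroupOf (Subgroup.centralizer (Y : Set G))).Normal] [hn' : (Y.subgroupOf (Subgroup.normalizer (Y : Set G))).Normal] : Cfsg.IsQuasisimple ↥(Subgroup.centralizer (Y : Set G)) ∧ Cfsg.Spor.IsoFi24' (↥(Subgroup.centralizer (Y : Set G)) ⧸ Y.subgroupOf (Subgroup.centralizer (Y : Set G))) ∧ ∃ E : Set (↥(Subgroup.normalizer (Y : Set G)) ⧸ Y.subgroupOf (Subgroup.normalizer (Y : Set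 G))), Cfsg.IsThreeTranspositionClass E ∧ Cfsg.IsOfTypeM24 _ E := by
  obtain ⟨h1, ψ, θ, P, -⟩ := CL.F24P.mon3 hM hsQ hs hs1 hY hY3 hc
  have h := CL.FiQ.fi_map CL.FiE.fi_24 θ.symm
  exact ⟨h1, ⟨(MonoidHom.ofInjective P.inj).trans (MulEquiv.subgroupCongr P.range)⟩, _,
    (CL.FiL.gp_of_fi h).cls, CL.FiE.type24 h⟩

end Cfsg.Agent.S5461
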