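import Cfsg.Statements.S5466
import Cfsg.Agent.SPOR.FiA10
-- import your own Cfsg.Agent.* helpers here

set_option autoImplicit false
open Cfsg

namespace Cfsg.Agent.S5466

/-- Let G be a finite group with trivial centre generated by a conjugation-invariant set D of 3-transpositions on which it acts primitively, such that for some d in D the subgroup generated by the members of D other than d commuting with d has central largest normal 2- and 3-subgroups, and suppose G with D is of type M(24), and let L be the commutator subgroup of G. Let d₁, d₂, d₃ be distinct pairwise commuting members of D, j their product, E the subgroup generated by d₁ d₂ and d₁ d₃ (a four-group lying in L), CL the centralizer of j in L and K its generalized Fitting subgroup. Then K is quasisimple with centre E, K is the centralizer of E in L, K modulo E is isomorphic to the projective special unitary group of dimension 6 over the field with four elements, CL/K is isomorphic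 to the symmetric group of degree 3, and CL modulo E is isomorphic to the full automorphism group of that unitary group. -/
theorem result {G : Type*} [Group G] [Finite G] {D : Set G} (hD : Cfsg.IsThreeTranspositionGroup D) (hprim : Cfsg.IsPrimitiveUnderConj D) (d₀ : G) (hd₀ : d₀ ∈ D) (h3 : Cfsg.pCore 3 ↥(Subgroup.closure {y : G | y ∈ D ∧ y ≠ d₀ ∧ Commute d₀ y}) ≤ Subgroup.center ↥(Subgroup.closure {y : G | y ∈ D ∧ y ≠ d₀ ∧ Commute d₀ y})) (h2 : Cfsg.pCore 2 ↥(Subgroup.closure {y : G | y ∈ D ∧ y ≠ d₀ ∧ Commute d₀ y}) ≤ Subgroup.center ↥(Subgroup.closure {y : G | y ∈ D ∧ y ≠ d₀ ∧ Commute d₀ y})) (h24 : Cfsg.IsOfTypeM24 G D) (L : Subgroup G) (hL : L = commutator G) (d₁ d₂ d₃ : G) (h₁ : d₁ ∈ D) (h₂ : d₂ ∈ D) (h₃ : d₃ ∈ D) (h12 : d₁ ≠ d₂) (h13 : d₁ ≠ d₃) (h23 : d₂ ≠ d₃) (c12 : Commute d₁ d₂) (c13 : Commute d₁ d₃) (c23 : Commute d₂ d₃) (E CL K : Subgroup G) (hE : E = Subgroup.closure ({d₁ * d₂, d₁ * d₃} : Set G)) (hCL : CL = L ⊓ Subgroup.centralizer ({d₁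 * d₂ * d₃} : Set G)) (hK : K = (Cfsg.generalizedFittingSubgroup ↥CL).map CL.subtype) : Cfsg.IsQuasisimple ↥K ∧ (Subgroup.center ↥K).map K.subtype = E ∧ K = L ⊓ Subgroup.centralizer (E : Set G) ∧ (∃ (_ : (E.subgroupOf K).Normal) (F : Type) (_ : Field F) (_ : Fintype F), Fintype.card F = 4 ∧ Nonempty (↥K ⧸ E.subgroupOf K ≃* Cfsg.PSU 6 F 2)) ∧ ∃ _ : (K.subgroupOf CL).Normal, Nonempty (↥CL ⧸ K.subgroupOf CL ≃* Equiv.Perm (Fin 3)) ∧ E ≤ CL ∧ ∃ (_ : (E.subgroupOf CL).Normal) (F : Type) (_ : Field F) (_ : Fintype F), Fintype.card F = 4 ∧ Nonempty (↥CL ⧸ E.subgroupOf CL ≃* MulAut (Cfsg.PSU 6 F 2)) := by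
  open _root_.CL.FiA _root_.CL.TTU _root_.CL.TTU.U6 in
  obtain ⟨h, g⟩ := of_type24 hD hprim h24
  have s := T24.sg h g
  have hl := fr_three.2 ⟨h₁, ⟨h₂, h12.symm, c12⟩, ⟨h₃, h13.symm, c13⟩, h23.symm, c23⟩
  have S := T24.sit3 h g s hl
  obtain rfl : CL = CC [d₁, d₂, d₃] := by simp [hCL, hL, CC, mul_assoc]
  obtain rfl : K = KK [d₁, d₂, d₃] := hK.trans S.fstar
  have g' := gl_TV card_F4 (RingEquiv.refl _)
  have hφ := T21.exists_isoOn (T24.is_NB3 h hl) (is21_TV card_F4 (RingEquiv.refl _))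
  obtain ⟨π, p1, p2⟩ := S.exists_proj g' hφ
  obtain ⟨σ, s1, s2⟩ := S.exists_perm
  obtain ⟨-, ρ, r1, r2⟩ := S.exists_aut g' hφ (T21.card_aut (is21_TV _ _) g' (ch_TV _ _))
  have e : ∀ X ≤ commutator G, (Subgroup.closure {x | x ∈ [d₁, d₂, d₃]}).subgroupOf X =
      E.subgroupOf X := fun X hX => by
    ext x
    exact hE ▸ T24.mem_V3 h g s hl (hX x.2)
  replace p2 := p2.trans (e _ inf_le_left)
  replace r2 := r2.trans (e _ inf_le_left)
  have hEL : E ≤ commutator G := by
    rw [hE, Subgroup.closure_le]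
    rintro _ (rfl | rfl)
    exacts [g.mul_mem_comm h₁ h₂, g.mul_mem_comm h₁ h₃]
  have hc : (Subgroup.center (KK [d₁, d₂, d₃])).map (KK [d₁, d₂, d₃]).subtype = E := by
    rw [S.center_KK]
    ext x
    exact ⟨fun m => hE ▸ (T24.mem_V3 h g s hl m.1).1 m.2,
      fun m => ⟨hEL m, (T24.mem_V3 h g s hl (hEL m)).2 (hE ▸ m)⟩⟩
  have n1 : (E.subgroupOf _).Normal := p2 ▸ π.normal_ker
  have n2 : (Subgroup.subgroupOf _ _).Normal := s2 ▸ σ.normal_ker
  have n3 : (E.subgroupOf _).Normal := r2 ▸ ρ.normal_ker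
  refine ⟨S.quasi, hc, ?_, ⟨n1, _, _, _, card_F4,
    ⟨(QuotientGroup.quotientMulEquivOfEq p2.symm).trans
      (QuotientGroup.quotientKerEquivOfSurjective π p1)⟩⟩, n2,
    ⟨(QuotientGroup.quotientMulEquivOfEq s2.symm).trans
      (QuotientGroup.quotientKerEquivOfSurjective σ s1)⟩,
    (hc ▸ Subgroup.map_subtype_le _).trans (KK_le _), n3, _, _, _, card_F4,
    ⟨(QuotientGroup.quotientMulEquivOfEq r2.symm).trans
      (QuotientGroup.quotientKerEquivOfSurjective ρ r1)⟩⟩
  rw [hE, Subgroup.centralizer_closure, hL]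
  ext x
  rw [mem_KK, Subgroup.mem_inf, _root_.CL.FiC.mem_centralizer_iff']
  simp only [List.mem_cons, List.not_mem_nil, or_false, forall_eq_or_imp, forall_eq,
    Set.mem_insert_iff, Set.mem_singleton_iff]
  exact and_congr_right fun _ => ⟨fun c => ⟨c.1.mul_right c.2.1, c.1.mul_right c.2.2⟩,
    fun c => g.com_three S.mw hl c.1 c.2⟩

end Cfsg.Agent.S5466
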