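import Cfsg.Statements.S5468
import Cfsg.Agent.SPOR.FiA6
-- import your own Cfsg.Agent.* helpers here

set_option autoImplicit false
open Cfsg

namespace Cfsg.Agent.S5468

/-- Let G be a finite group with trivial centre generated by a conjugation-invariant set D of 3-transpositions on which it acts primitively, such that for some d in D the subgroup generated by the members of D other than d commuting with d has central largest normal 2- and 3-subgroups, and suppose G with D is of type M(23). Let d₁, d₂ be distinct commuting members of D, j = d₁ d₂, K the joint centralizer of d₁ and d₂ and C the centralizer of j. Then K has index 2 in C, the centre of K is the subgroup generated by d₁ and d₂, K is quasisimple with K modulo its centre isomorphic to the projective special unitary group of dimension 6 over the field with four elements, and C modulo the subgroup generated by d₁ and d₂ has trivial centre (so it is that unitary group extended by an outer involution).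 -/
theorem result {G : Type*} [Group G] [Finite G] {D : Set G} (hD : Cfsg.IsThreeTranspositionGroup D) (hprim : Cfsg.IsPrimitiveUnderConj D) (d₀ : G) (hd₀ : d₀ ∈ D) (h3 : Cfsg.pCore 3 ↥(Subgroup.closure {y : G | y ∈ D ∧ y ≠ d₀ ∧ Commute d₀ y}) ≤ Subgroup.center ↥(Subgroup.closure {y : G | y ∈ D ∧ y ≠ d₀ ∧ Commute d₀ y})) (h2 : Cfsg.pCore 2 ↥(Subgroup.closure {y : G | y ∈ D ∧ y ≠ d₀ ∧ Commute d₀ y}) ≤ Subgroup.center ↥(Subgroup.closure {y : G | y ∈ D ∧ y ≠ d₀ ∧ Commute d₀ y})) (h23 : Cfsg.IsOfTypeM23 G D) (d₁ d₂ : G) (h₁ : d₁ ∈ D) (h₂ : d₂ ∈ D) (hne : d₁ ≠ d₂) (hc : Commute d₁ d₂) (K C V : Subgroup G) (hK : K = Subgroup.centralizer ({d₁, d₂} : Set G)) (hC : C = Subgroup.centralizer ({d₁ * d₂} : Set G)) (hV : V = Subgroup.closure ({d₁, d₂} : Set G)) [hn : (V.subgroupOf C).Normal] : K ≤ C ∧ (K.subgroupOf C).index = 2 ∧ (Subgroup.center ↥K).map K.subtype = V ∧ Cfsg.IsQuasisimple ↥K ∧ (∃ (F : Type) (_ : Field F) (_ : Fintype F), Fintype.card F = 4 ∧ Nonempty (↥K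 ⧸ Subgroup.center ↥K ≃* Cfsg.PSU 6 F 2)) ∧ Subgroup.center (↥C ⧸ V.subgroupOf C) = ⊥ := by
  obtain ⟨h, g⟩ := CL.FiA.of_type23 hD hprim h23
  have hl : CL.FiA.Fr D [d₁, d₂] := CL.FiA.fr_two.2 ⟨h₁, h₂, hne.symm, hc⟩
  have m : ∀ x, x ∈ C ↔ Commute x [d₁, d₂].prod := fun x => by
    rw [hC, Subgroup.mem_centralizer_singleton_iff]; simp [commute_iff_eq]
  have t := CL.FiA.T23.tw2 h hl
  have hin := CL.FiA.T23.mem_closure2 h hl g
  have hU := CL.FiA.T23.is_NB2 h hl
  rw [← CL.FiA.set_two] at hK hV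
  obtain ⟨ρ, h4, h5⟩ := g.exists_perm (CL.FiA.T23.mw h) hl (by simp) (CL.FiA.T23.tf2 h) C
    (fun x => (m x).1) fun x hx => ⟨x, (m x).2 hx, fun _ _ => rfl⟩
  have hKC : K ≤ C := fun x hx => (m x).2 (Commute.list_prod_right _ _
    (CL.FiC.mem_centralizer_iff'.1 (hK ▸ hx)))
  rw [← hK] at h5
  rw [← g.closure_NB t hl hin] at hK
  subst hK
  refine ⟨hKC, ?_, hV ▸ g.center_NB t hl hin, CL.FiA.T23.quasi2 h hl g,
    ⟨_, _, _, CL.TTU.U6.card_F4, CL.FiA.T21.nonempty_qt hU⟩, eq_bot_iff.2 fun x hx => ?_⟩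
  · rw [← h5, Subgroup.index_ker, MonoidHom.range_eq_top.2 h4, Subgroup.card_top, Nat.card_perm,
      Nat.card_fin]
    rfl
  · obtain ⟨x, rfl⟩ := QuotientGroup.mk_surjective x
    refine (QuotientGroup.eq_one_iff _).2 (Subgroup.mem_subgroupOf.2 ?_)
    rw [hV, ← g.eqv_one_NB t hl hin]
    intro y hy
    have := QuotientGroup.eq.1 (Subgroup.mem_center_iff.1 hx
      (QuotientGroup.mk ⟨y, hKC (Subgroup.subset_closure hy)⟩))
    rw [Subgroup.mem_subgroupOf, hV, ← g.eqv_one_NB t hl hin] at this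
    have n := g.nm_NB (CL.FiA.T23.mw h) hl (by simp) ((m _).1 x.2)
    have := (CL.FiA.eqv_iff_inv_mul.2 this).mul_right (n.inv hU.finite)
    simpa using (CL.FiA.lv21 hU).eq_of_eqv (n y hy) hy (by simpa using this.symm)

end Cfsg.Agent.S5468
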