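import Cfsg.Statements.S5469
import Cfsg.Agent.SPOR.FiP4

set_option autoImplicit false
open Cfsg

namespace Cfsg.Agent.S5469

/-- Let G be a finite group with trivial centre generated by a conjugation-invariant set D of 3-transpositions on which it acts primitively, such that for some d in D the subgroup generated by the members of D other than d commuting with d has central largest normal 2- and 3-subgroups, and suppose G with D is of type M(22). Let d₁, d₂ be distinct commuting members of D, j = d₁ d₂, K the joint centralizer of d₁ and d₂, C the centralizer of j and V the subgroup generated by d₁ and d₂. Then K has index 2 in C, V is the centre of K, and C has a normal subgroup E containing V with E/V elementary abelian of order 2^8 and C/E isomorphic to the full automorphism group of the projective special unitary group of dimension 4 over the field with four elements. -/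
theorem result {G : Type*} [Group G] [Finite G] {D : Set G} (hD : Cfsg.IsThreeTranspositionGroup D) (hprim : Cfsg.IsPrimitiveUnderConj D) (d₀ : G) (hd₀ : d₀ ∈ D) (h3 : Cfsg.pCore 3 ↥(Subgroup.closure {y : G | y ∈ D ∧ y ≠ d₀ ∧ Commute d₀ y}) ≤ Subgroup.center ↥(Subgroup.closure {y : G | y ∈ D ∧ y ≠ d₀ ∧ Commute d₀ y})) (h2 : Cfsg.pCore 2 ↥(Subgroup.closure {y : G | y ∈ D ∧ y ≠ d₀ ∧ Commute d₀ y}) ≤ Subgroup.center ↥(Subgroup.closure {y : G | y ∈ D ∧ y ≠ d₀ ∧ Commute d₀ y})) (h22 : Cfsg.IsOfTypeM22 G D) (d₁ d₂ : G) (h₁ : d₁ ∈ D) (h₂ : d₂ ∈ D) (hne : d₁ ≠ d₂) (hc : Commute d₁ d₂) (K C V : Subgroup G) (hK : K = Subgroup.centralizer ({d₁, d₂} : Set G)) (hC : C = Subgroup.centralizer ({d₁ * d₂} : Set G)) (hV : V = Subgroup.closure ({d₁, d₂} : Set G)) : K ≤ C ∧ (K.subgroupOf C).index = 2 ∧ (Subgroup.center ↥K).map K.subtype = V ∧ ∃ E : Subgroup G, V ≤ E ∧ E ≤ C ∧ (∀ c ∈ C, ∀ x ∈ E, c * x * c⁻¹ ∈ E) ∧ Nat.card E = 2 ^ 10 ∧ (∀ x ∈ E,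 ∀ y ∈ E, x * y * x⁻¹ * y⁻¹ ∈ V ∧ x ^ 2 ∈ V) ∧ ∃ (_ : (E.subgroupOf C).Normal) (F : Type) (_ : Field F) (_ : Fintype F), Fintype.card F = 4 ∧ Nonempty (↥C ⧸ E.subgroupOf C ≃* MulAut (Cfsg.PSU 4 F 2)) := by
  have h := CL.FiP.amb_of_type hD hprim h22
  have hb : d₂ ∈ CL.TTU.nb D d₁ := ⟨h₂, hne.symm, hc⟩
  subst hK hC hV
  have mK : ∀ {g : G}, g ∈ Subgroup.centralizer ({d₁, d₂} : Set G) ↔ Commute g d₁ ∧ Commute g d₂ :=
    CL.FiC.mem_centralizer_pair
  have m1 : d₁ ∈ Subgroup.closure ({d₁, d₂} : Set G) := Subgroup.subset_closure (by simp)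
  have m2 : d₂ ∈ Subgroup.closure ({d₁, d₂} : Set G) := Subgroup.subset_closure (by simp)
  have hKC : Subgroup.centralizer ({d₁, d₂} : Set G) ≤ Subgroup.centralizer ({d₁ * d₂} : Set G) :=
    fun g hg => Subgroup.mem_centralizer_singleton_iff.2 ((mK.1 hg).1.mul_right (mK.1 hg).2)
  have hq := h.QK_comm_sq h₁ hb
  have ka := h.a_mem_QK h₁ hb
  have kb := h.b_mem_QK h₁ hb
  rw [h.QK_eq hD.2.2 h₁ hb] at hq ka kb
  refine ⟨hKC, ?_, ?_, CL.FiP.QQ D d₁ d₂, ?_, h.QQ_le h₁ hb,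
    fun c hc x hx => h.cj_mem_QQ h₁ hb (Subgroup.mem_centralizer_singleton_iff.1 hc) hx,
    h.card_QQ hD.2.2 h₁ hb, fun x hx y hy => ⟨?_, ?_⟩, h.normal_QQ h₁ hb, CL.F4, inferInstance,
    inferInstance, rfl, @CL.FiP.Amb.nonempty_quot _ _ _ h _ _ h₁ hb _ (h.normal_QQ h₁ hb) rfl⟩
  · obtain ⟨w, -, s1, s2, -⟩ := h.exists_swap h₁ hb
    have h3 := h.card_swap h₁ hb le_rfl
      (Subgroup.mem_centralizer_singleton_iff.2 (CL.FiP.Amb.commute_mul_of_swap hc s1 s2)) s1
    have h4 : Subgroup.centralizer ({d₁ * d₂} : Set G) ⊓ Subgroup.centralizer {d₁} =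
        Subgroup.centralizer ({d₁, d₂} : Set G) := by
      refine le_antisymm (fun g hg => ?_) fun g hg =>
        ⟨hKC hg, Subgroup.mem_centralizer_singleton_iff.2 (mK.1 hg).1⟩
      have k1 : Commute g d₁ := Subgroup.mem_centralizer_singleton_iff.1 hg.2
      have k2 : Commute g (d₁ * d₂) := Subgroup.mem_centralizer_singleton_iff.1 hg.1
      exact mK.2 ⟨k1, by simpa [h.fs.cancel_left h₁] using k1.mul_right k2⟩
    have h5 := ((Subgroup.centralizer ({d₁, d₂} : Set G)).subgroupOf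
      (Subgroup.centralizer ({d₁ * d₂} : Set G))).card_mul_index
    rw [Nat.card_congr (Subgroup.subgroupOfEquivOfLe hKC).toEquiv, h3, h4, mul_comm] at h5
    exact Nat.eq_of_mul_eq_mul_right Nat.card_pos h5
  · refine le_antisymm (fun g hg => ?_) ?_
    · obtain ⟨k1, k2⟩ := CL.LX.mem_center_map_iff.1 hg
      rcases h.fix_T h₁ hb (mK.1 k1).1 (mK.1 k1).2
        (fun y hy => k2 y (mK.2 ⟨hy.1.2.2.symm, hy.2.2.2.symm⟩)) with e | e | e | e <;> rw [e]
      exacts [one_mem _, m1, m2, mul_mem m1 m2]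
    · rw [Subgroup.closure_le]
      rintro x (rfl | rfl)
      · exact CL.LX.mem_center_map_iff.2 ⟨mK.2 ⟨rfl, hc⟩, fun y hy => (mK.1 hy).1.symm⟩
      · exact CL.LX.mem_center_map_iff.2 ⟨mK.2 ⟨hc.symm, rfl⟩, fun y hy => (mK.1 hy).2.symm⟩
  · rw [Subgroup.closure_le]
    rintro x (rfl | rfl)
    exacts [ka, kb]
  · rcases hq.1 x hx y hy with e | e <;> rw [e]
    · simp [mul_assoc]
    · rw [mul_assoc (y * x), ← hx.1.inv_left.eq, mul_assoc, mul_assoc, mul_assoc,
        ← hy.1.inv_left.eq]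
      simpa using mul_mem m1 m2
  · rw [sq]
    rcases hq.2 x hx with e | e <;> rw [e]
    exacts [one_mem _, mul_mem m1 m2]

end Cfsg.Agent.S5469
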