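import Cfsg.Statements.S5471
import Cfsg.Agent.SPOR.FiA6
-- import your own Cfsg.Agent.* helpers here

set_option autoImplicit false
open Cfsg

namespace Cfsg.Agent.S5471

/-- Let G be a finite group with trivial centre generated by a conjugation-invariant set D of 3-transpositions on which it acts primitively, such that for some d in D the subgroup generated by the members of D other than d commuting with d has central largest normal 2- and 3-subgroups, and suppose G with D is of type M(23). Let d₁, d₂, d₃ be distinct pairwise commuting members of D and j their product. Then the joint centralizer of d₁, d₂, d₃ is normal in the centralizer of j with quotient isomorphic to the symmetric group of degree 3. -/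
theorem result {G : Type*} [Group G] [Finite G] {D : Set G} (hD : Cfsg.IsThreeTranspositionGroup D) (hprim : Cfsg.IsPrimitiveUnderConj D) (d₀ : G) (hd₀ : d₀ ∈ D) (h3 : Cfsg.pCore 3 ↥(Subgroup.closure {y : G | y ∈ D ∧ y ≠ d₀ ∧ Commute d₀ y}) ≤ Subgroup.center ↥(Subgroup.closure {y : G | y ∈ D ∧ y ≠ d₀ ∧ Commute d₀ y})) (h2 : Cfsg.pCore 2 ↥(Subgroup.closure {y : G | y ∈ D ∧ y ≠ d₀ ∧ Commute d₀ y}) ≤ Subgroup.center ↥(Subgroup.closure {y : G | y ∈ D ∧ y ≠ d₀ ∧ Commute d₀ y})) (h23 : Cfsg.IsOfTypeM23 G D) (d₁ d₂ d₃ : G) (h₁ : d₁ ∈ D) (h₂ : d₂ ∈ D) (h₃ : d₃ ∈ D) (h12 : d₁ ≠ d₂) (h13 : d₁ ≠ d₃) (h23 : d₂ ≠ d₃) (c12 : Commute d₁ d₂) (c13 : Commute d₁ d₃) (c23 : Commute d₂ d₃) (K C : Subgroup G) (hK : K = Subgroup.centralizer ({d₁, d₂, d₃} : Set G)) (hC : C = Subgroup.centralizer ({d₁ * d₂ * d₃} : Set G)) : K ≤ C ∧ ∃ _ : (K.subgroupOf C).Normal, Nonempty (↥C ⧸ K.subgroupOf C ≃* Equiv.Perm (Fin 3)) := by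
  rename_i ht
  obtain ⟨h, g⟩ := CL.FiA.of_type23 hD hprim ht
  have hl : CL.FiA.Fr D [d₁, d₂, d₃] :=
    CL.FiA.fr_three.2 ⟨h₁, ⟨h₂, h12.symm, c12⟩, ⟨h₃, h13.symm, c13⟩, h23.symm, c23⟩
  have m : ∀ x, x ∈ C ↔ Commute x [d₁, d₂, d₃].prod := fun x => by
    rw [hC, Subgroup.mem_centralizer_singleton_iff]; simp [mul_assoc, commute_iff_eq]
  obtain ⟨ρ, h4, h5⟩ := g.exists_perm (CL.FiA.T23.mw h) hl le_rfl (CL.FiA.T23.tf3 h) C
    (fun x => (m x).1) fun x hx => ⟨x, (m x).2 hx, fun _ _ => rfl⟩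
  rw [CL.FiA.set_three, ← hK] at h5
  have hn : (K.subgroupOf C).Normal := h5 ▸ inferInstance
  refine ⟨fun x hx => (m x).2 (Commute.list_prod_right _ _ fun a ha => ?_), hn,
    ⟨(QuotientGroup.quotientMulEquivOfEq h5.symm).trans
      (QuotientGroup.quotientKerEquivOfSurjective ρ h4)⟩⟩
  rw [hK, ← CL.FiA.set_three] at hx
  exact CL.FiC.mem_centralizer_iff'.1 hx a ha

end Cfsg.Agent.S5471
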