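import Cfsg.Statements.S5473
import Cfsg.Agent.SPOR.FiP5

set_option autoImplicit false
open Cfsg

namespace Cfsg.Agent.S5473

/-- Let G be a finite group with trivial centre generated by a conjugation-invariant set D of 3-transpositions on which it acts primitively, such that for some d in D the subgroup generated by the members of D other than d commuting with d has central largest normal 2- and 3-subgroups, and suppose G with D is of type M(22), and let A be the automorphism group of G. Let d₁, d₂ be distinct commuting members of D and j the inner automorphism of their product. Then the generalized Fitting subgroup Q of the centralizer of j in A is a large extraspecial 2-subgroup of A of order 2^11 (extraspecial; centralizer equal to its centre; normal in the centralizer of its centre; normalizing no non-trivial odd-order subgroup), and the centralizer of j modulo Q is isomorphic to the full automorphism group of the projective special unitary group of dimension 4 over the field with four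 elements. -/
theorem result {G : Type*} [Group G] [Finite G] {D : Set G} (hD : Cfsg.IsThreeTranspositionGroup D) (hprim : Cfsg.IsPrimitiveUnderConj D) (d₀ : G) (hd₀ : d₀ ∈ D) (h3 : Cfsg.pCore 3 ↥(Subgroup.closure {y : G | y ∈ D ∧ y ≠ d₀ ∧ Commute d₀ y}) ≤ Subgroup.center ↥(Subgroup.closure {y : G | y ∈ D ∧ y ≠ d₀ ∧ Commute d₀ y})) (h2 : Cfsg.pCore 2 ↥(Subgroup.closure {y : G | y ∈ D ∧ y ≠ d₀ ∧ Commute d₀ y}) ≤ Subgroup.center ↥(Subgroup.closure {y : G | y ∈ D ∧ y ≠ d₀ ∧ Commute d₀ y})) (h22 : Cfsg.IsOfTypeM22 G D) (d₁ d₂ : G) (h₁ : d₁ ∈ D) (h₂ : d₂ ∈ D) (hne : d₁ ≠ d₂) (hc : Commute d₁ d₂) (j : MulAut G) (hj : j = MulAut.conj (d₁ * d₂)) (Q : Subgroup (MulAut G)) (hQ : Q = (Cfsg.generalizedFittingSubgroup ↥(Subgroup.centralizer ({j} : Set (MulAut G)))).map (Subgroup.centralizer ({j} : Set (MulAut G))).subtype) : Cfsg.IsLargeExtraspecial Q ∧ Nat.card Q = 2 ^ 11 ∧ Q ≤ Subgroup.centralizer ({j} : Set (MulAut G)) ∧ ∃ (_ : (Q.subgroupOf (Subgroup.centralizer ({j} : Set (MulAut G)))).Normal) (F : Type)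 (_ : Field F) (_ : Fintype F), Fintype.card F = 4 ∧ Nonempty (↥(Subgroup.centralizer ({j} : Set (MulAut G))) ⧸ Q.subgroupOf (Subgroup.centralizer ({j} : Set (MulAut G))) ≃* MulAut (Cfsg.PSU 4 F 2)) := by
  have h₀ := CL.FiP.amb_of_type hD hprim h22
  have h := h₀.aut hD.2.2 fun φ d hd => h₀.aut_mem hD.2.2 φ hd
  have hf := CL.FiP.full_aut h₀.fs hD.2.2 h22.1
  have ha : MulAut.conj d₁ ∈ (MulAut.conj : G →* MulAut G) '' D := ⟨_, h₁, rfl⟩
  have hb : MulAut.conj d₂ ∈ CL.TTU.nb ((MulAut.conj : G →* MulAut G) '' D) (MulAut.conj d₁) :=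
    ⟨⟨_, h₂, rfl⟩, fun e => hne (CL.FiP.conj_injective' h22.1 e).symm, hc.map _⟩
  rw [map_mul] at hj
  subst hj
  have hc11 := h.card_QQ_full hf ha hb
  rw [h.fstar_eq ha hb hc11, Subgroup.map_subgroupOf_eq_of_le (h.QQ_le ha hb)] at hQ
  subst hQ
  exact ⟨h.large_QQ hf ha hb, hc11, h.QQ_le ha hb, h.normal_QQ ha hb, CL.F4, inferInstance,
    inferInstance, rfl, @CL.FiP.Amb.nonempty_quot _ _ _ h _ _ ha hb _ (h.normal_QQ ha hb) rfl⟩

end Cfsg.Agent.S5473
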