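import Cfsg.Statements.S5515
import Cfsg.Agent.SPOR.FiE4
import Cfsg.Agent.SPOR.FiP1
import Cfsg.Agent.SIG.FStar
import Cfsg.Agent.S2608

set_option autoImplicit false
open Cfsg

namespace Cfsg.Agent.S5515

open CL.FiC CL

theorem exists_stab (K : Subgroup (Equiv.Perm (Fin 4))) (h : Nat.card K = 6) :
    ∃ i : Fin 4, K = MulAction.stabilizer (Equiv.Perm (Fin 4)) i := by
  haveI : Fact (Nat.Prime 3) := ⟨Nat.prime_three⟩
  obtain ⟨x, hx⟩ := exists_prime_orderOf_dvd_card' (G := K) 3 (by rw [h]; decide)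
  have o : FiE.O3 x := FiE.o3_of_orderOf hx
  have x3 : x.1 ^ 3 = 1 := congrArg Subtype.val o.1
  have x1 : x.1 ≠ 1 := fun e => o.2 (Subtype.ext e)
  obtain ⟨i, hi⟩ := (by decide +kernel : ∀ x : Equiv.Perm (Fin 4), x ^ 3 = 1 → ∃ i, x i = i) _ x3
  have hn := Subgroup.normal_of_index_eq_two (H := Subgroup.zpowers x) (by
    have := (Subgroup.zpowers x).card_mul_index
    rw [o.card, h] at this; omega)
  refine ⟨i, Subgroup.eq_of_le_of_card_ge (fun y hy => ?_) ?_⟩
  · have := o.mem_NZ.1 ((Subgroup.normalizer_eq_top (H := Subgroup.zpowers x)).ge (Subgroup.mem_top ⟨y, hy⟩))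
    exact (by decide +kernel : ∀ x y : Equiv.Perm (Fin 4), x ^ 3 = 1 → x ≠ 1 →
      (y * x * y⁻¹ = x ∨ y * x * y⁻¹ = x⁻¹) → ∀ i, x i = i → y i = i) _ y x3 x1
      (this.imp (congrArg Subtype.val) (congrArg Subtype.val)) i hi
  · have := (MulAction.stabilizer (Equiv.Perm (Fin 4)) i).card_mul_index
    rw [MulAction.index_stabilizer_of_transitive, Nat.card_perm] at this
    simp only [Nat.card_eq_fintype_card, Fintype.card_fin, Nat.factorial] at this h ⊢
    omega

theorem exists_emb {L : Type*} [Group L] (hZ : Subgroup.center L = ⊥)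
    (Φ : MulAut L →* Equiv.Perm (Fin 4)) (hΦ : ∀ α, Φ α = 1 ↔ ∃ x, MulAut.conj x = α)
    {G : Type*} [Group G] [Finite G] (hF : Nonempty (generalizedFittingSubgroup G ≃* L))
    [hn : (generalizedFittingSubgroup G).Normal]
    (hq : Nonempty (G ⧸ generalizedFittingSubgroup G ≃* Equiv.Perm (Fin 3))) :
    ∃ i : Fin 4, Nonempty (G ≃* (MulAction.stabilizer (Equiv.Perm (Fin 4)) i).comap Φ) := by
  obtain ⟨e⟩ := hF
  obtain ⟨q⟩ := hq
  let θ := (MulAut.congr e).toMonoidHom.comp (MulAut.conjNormal (H := generalizedFittingSubgroup G))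
  have h1 : ∀ x, θ (e.symm x) = MulAut.conj x := fun x => by
    ext y
    show e (MulAut.conjNormal _ (e.symm y)) = _
    rw [MulAut.conjNormal_val, MulAut.conj_apply, map_mul, map_mul, map_inv]
    simp
  have h2 : Function.Injective θ := (injective_iff_map_eq_one _).2 fun g hg => by
    have c : ∀ y : generalizedFittingSubgroup G, g * y * g⁻¹ = y := fun y =>
      congrArg (fun α : MulAut (generalizedFittingSubgroup G) => (α y : G)) ((MulAut.congr e).map_eq_one_iff.1 hg)
    have m : g ∈ generalizedFittingSubgroup G := Comp.centralizer_fstar_le fun y hy =>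
      (mul_inv_eq_iff_eq_mul.1 (c ⟨y, hy⟩)).symm
    have : e ⟨g, m⟩ ∈ Subgroup.center L := Subgroup.mem_center_iff.2 fun y => by
      obtain ⟨y, rfl⟩ := e.surjective y
      rw [← map_mul, ← map_mul]
      exact congrArg e (Subtype.ext (mul_inv_eq_iff_eq_mul.1 (c y)).symm)
    rw [hZ] at this
    exact congrArg Subtype.val (e.map_eq_one_iff.1 this)
  have h3 : (Φ.comp θ).ker = generalizedFittingSubgroup G := Subgroup.ext fun g =>
    (hΦ _).trans ⟨fun ⟨x, hx⟩ => h2 ((h1 x).trans hx) ▸ (e.symm x).2,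
      fun hg => ⟨e ⟨g, hg⟩, by rw [← h1, e.symm_apply_apply]⟩⟩
  obtain ⟨i, hi⟩ := exists_stab (Φ.comp θ).range (by
    rw [← Subgroup.index_ker, h3, Subgroup.index_eq_card, Nat.card_congr q.toEquiv, Nat.card_perm]
    simp [Nat.factorial])
  refine ⟨i, ⟨(MonoidHom.ofInjective h2).trans (MulEquiv.subgroupCongr ?_)⟩⟩
  rw [← hi, MonoidHom.range_comp Φ θ, Subgroup.comap_map_eq_self]
  intro α hα
  obtain ⟨x, rfl⟩ := (hΦ α).1 hα
  exact ⟨_, h1 x⟩


/-- Let G and G′ be finite groups whose generalized Fitting subgroups are isomorphic to PΩ⁺(8, 3) (the commutator subgroup of the isometry group of the hyperbolic quadratic form in dimension 8 over the field with three elements, modulo its centre) with quotients isomorphic to the symmetric group of degree 3. Then G and G′ are isomorphic. -/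
theorem result {G G' : Type*} [Group G] [Finite G] [Group G'] [Finite G'] (hF : Nonempty (↥(Cfsg.generalizedFittingSubgroup G) ≃* Cfsg.POmega (ZMod 3) (Cfsg.quadFormPlus 4 (ZMod 3)))) (hF' : Nonempty (↥(Cfsg.generalizedFittingSubgroup G') ≃* Cfsg.POmega (ZMod 3) (Cfsg.quadFormPlus 4 (ZMod 3)))) [hn : (Cfsg.generalizedFittingSubgroup G).Normal] [hn' : (Cfsg.generalizedFittingSubgroup G').Normal] (hq : Nonempty (G ⧸ Cfsg.generalizedFittingSubgroup G ≃* Equiv.Perm (Fin 3))) (hq' : Nonempty (G' ⧸ Cfsg.generalizedFittingSubgroup G' ≃* Equiv.Perm (Fin 3))) : Nonempty (G ≃* G') := by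
  have o := S2608.result (F := ZMod 3) (p := 3) (f := 1) (m := 4) le_rfl (by simp) (by decide) le_rfl
  rw [if_pos rfl] at o
  obtain ⟨o⟩ := o
  haveI := isSimpleGroup_POmega8
  obtain ⟨x, y, e⟩ := not_comm_of_simple (X := POmega (ZMod 3) (quadFormPlus 4 (ZMod 3))) (by
    rw [card_POmega8]; norm_num)
  let Φ := ((MonoidHom.fst _ _).comp o.toMonoidHom).comp (QuotientGroup.mk' _)
  have hΦ : ∀ α, Φ α = 1 ↔ ∃ x, MulAut.conj x = α := fun α =>
    ⟨fun h => (QuotientGroup.eq_one_iff α).1 (o.map_eq_one_iff.1 (Prod.ext h (Subsingleton.elim _ _))),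
      fun h => congrArg Prod.fst (o.map_eq_one_iff.2 ((QuotientGroup.eq_one_iff α).2 h))⟩
  obtain ⟨i, ⟨e1⟩⟩ := exists_emb (FiP.center_eq_bot_of_simple e) Φ hΦ hF hq
  obtain ⟨j, ⟨e2⟩⟩ := exists_emb (FiP.center_eq_bot_of_simple e) Φ hΦ hF' hq'
  obtain ⟨a, ha⟩ := o.surjective (Equiv.swap i j, 1)
  obtain ⟨a, rfl⟩ := QuotientGroup.mk'_surjective _ a
  have ha : Φ a = Equiv.swap i j := congrArg Prod.fst ha
  refine ⟨e1.trans ((((MulAut.conj a).subgroupMap _).trans (MulEquiv.subgroupCongr ?_)).trans e2.symm)⟩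
  ext b
  refine (Subgroup.mem_map_equiv (f := MulAut.conj a)).trans ?_
  simp only [Subgroup.mem_comap, MulAction.mem_stabilizer_iff,
    MulAut.conj_symm_apply, map_mul, map_inv, ha, Equiv.Perm.smul_def, Equiv.Perm.mul_apply,
    Equiv.swap_inv, Equiv.swap_apply_left, Equiv.swap_apply_eq_iff]

end Cfsg.Agent.S5515
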