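import Cfsg.Statements.S5516
import Cfsg.Agent.SPOR.FiT5
import Cfsg.Agent.SPOR.FiT6
import Cfsg.Agent.S5515
-- import your own Cfsg.Agent.* helpers here

set_option autoImplicit false
open Cfsg

namespace Cfsg.Agent.S5516

open CL.FiT CL.OutOrth CL.Orth

/-- The group `PΩ₈⁺(3)`. -/
abbrev P8 : Type := POmega F3 (QPlus 4 F3)

theorem exists_out : ∃ o : Out P8 ≃* P4, o (ok4 F3).r = Equiv.swap 0 1 ∧
    o (ok4 F3).z = Equiv.swap 0 1 * Equiv.swap 2 3 := by
  have h0 := out_QPlus_odd (F := F3) (p := 3) (f := 1) (by simp) (by decide) (m := 4) le_rfl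
  rw [if_pos rfl] at h0
  obtain ⟨o₁⟩ := h0
  letI : Unique (Multiplicative (ZMod 1)) := inferInstanceAs (Unique (Fin 1))
  let o : Out P8 ≃* P4 := o₁.trans MulEquiv.prodUnique
  obtain ⟨k, hk⟩ := (by decide +kernel : ∀ r T : P4, r * r = 1 → T ^ 3 = 1 → T ≠ 1 →
    T * r * T = r → ∃ k : P4, k * r * k⁻¹ = Equiv.swap 0 1) (o (ok4 F3).r) (o (T4 F3))
    (by rw [← map_mul, (ok4 F3).r_mul_r, map_one]) (by rw [← map_pow, T4_pow_three, map_one])
    (fun e => T4_not_mem F3 (by rw [o.map_eq_one_iff.1 e]; exact one_mem _))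
    (by rw [← map_mul, ← map_mul, T4_r])
  let o' : Out P8 ≃* P4 := o.trans (MulAut.conj k)
  have hr : o' (ok4 F3).r = Equiv.swap 0 1 := hk
  obtain ⟨δ, -, hδ⟩ := (ok4 F3).exists_delta two_ne (by decide)
  refine ⟨o', hr, (by decide +kernel : ∀ z d : P4, z * z = 1 → z ≠ 1 →
    z * Equiv.swap 0 1 = Equiv.swap 0 1 * z → d * Equiv.swap 0 1 * d⁻¹ = Equiv.swap 0 1 * z →
    z = Equiv.swap 0 1 * Equiv.swap 2 3) _ (o' ((ok4 F3).θ δ))
    (by rw [← map_mul, (ok4 F3).z_mul_z, map_one]) (fun e => ?_)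
    (by rw [← hr, ← map_mul, ← map_mul, (ok4 F3).commute_z_r.eq])
    (by rw [← hr, ← map_inv, ← map_mul, ← map_mul, ← map_mul, (ok4 F3).conj_r_of_ms_neg hδ])⟩
  have := (((ok4 F3).z_eq_one_iff two_ne).1 (o'.map_eq_one_iff.1 e)).2
  rw [dsc_QPlus, sqSign_neg_one] at this
  exact absurd this (by decide)

/-- PΩ⁺(8, 3) (the commutator subgroup of the isometry group of the hyperbolic quadratic form in dimension 8 over the field with three elements, modulo its centre) has exactly 13 conjugacy classes of subgroups of order 3; and a finite group G whose generalized Fitting subgroup L is isomorphic to PΩ⁺(8, 3) with G/L the symmetric group of degree 3 has exactly 7 orbits, under conjugation, on the subgroups of L of order 3. -/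
theorem result {G : Type*} [Group G] [Finite G] (L : Subgroup G) (hL : L = Cfsg.generalizedFittingSubgroup G) (hF : Nonempty (↥L ≃* Cfsg.POmega (ZMod 3) (Cfsg.quadFormPlus 4 (ZMod 3)))) [hn : L.Normal] (hq : Nonempty (G ⧸ L ≃* Equiv.Perm (Fin 3))) : (∃ Y : Fin 13 → Subgroup (Cfsg.POmega (ZMod 3) (Cfsg.quadFormPlus 4 (ZMod 3))), (∀ i, Nat.card (Y i) = 3) ∧ (∀ i j, (∃ g : Cfsg.POmega (ZMod 3) (Cfsg.quadFormPlus 4 (ZMod 3)), (Y i).map (MulAut.conj g).toMonoidHom = Y j) → i = j) ∧ (∀ X : Subgroup (Cfsg.POmega (ZMod 3) (Cfsg.quadFormPlus 4 (ZMod 3))), Nat.card X = 3 → ∃ i, ∃ g : Cfsg.POmega (ZMod 3) (Cfsg.quadFormPlus 4 (ZMod 3)), X.map (MulAut.conj g).toMonoidHom = Y i)) ∧ ∃ Y : Fin 7 → Subgroup G, (∀ i, Y i ≤ L ∧ Nat.card (Y i) = 3) ∧ (∀ i j, (∃ g : G, (Y i).map (MulAut.conj g).toMonoidHom = Y j) → i = j) ∧ ∀ X : Subgroup G, X ≤ L → Nat.card X = 3 → ∃ i, ∃ g : G, X.map (MulAut.conj g).toMonoidHom = Y i := by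
  refine ⟨exists_reps card_cl_eight (by omega), ?_⟩
  subst hL
  obtain ⟨o, hr, hz⟩ := exists_out
  obtain ⟨e⟩ : Nonempty (generalizedFittingSubgroup G ≃* P8) := hF
  obtain ⟨q⟩ := hq
  have : Finite (Cl P8) := Nat.finite_of_card_ne_zero (by rw [card_cl_eight]; omega)
  have := Fintype.ofFinite (Cl P8)
  letI : MulAction P4 (Cl P8) := MulAction.compHom _ ((outAct P8).comp o.symm.toMonoidHom)
  have hs : ∀ (a : MulAut P8) (c : Cl P8), o (QuotientGroup.mk a) • c = a • c := fun a c => by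
    change outAct P8 (o.symm (o _)) c = _
    rw [o.symm_apply_apply, outAct_mk]
  have hF : ∀ (s : P4) (a : ℤˣ × ℤˣ), (∀ g, ds (ok4 F3).nd g = a → o ((ok4 F3).θ (oo _ g)) = s) →
      ∀ c, c ∈ Fx (Cl P8) s ↔ ∀ g, ds (ok4 F3).nd g = a → al (ok4 F3) g • c = c := by
    intro s a h c
    obtain ⟨g, hg⟩ := (cover (ok4 F3)).surj a
    rw [mem_Fx]
    exact ⟨fun hc g hg => by rwa [← h g hg, θ_oo, hs] at hc,
      fun hc => by rw [← h g hg, θ_oo, hs, hc g hg]⟩
  have fz := hF _ (1, -1) fun g hg => by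
    rw [(ok4 F3).θ_oo_eq_z (congrArg Prod.fst hg) (congrArg Prod.snd hg), hz]
  have fr := hF _ (-1, 1) fun g hg => by
    rw [(ok4 F3).θ_oo_eq_r (congrArg Prod.fst hg) (congrArg Prod.snd hg), hr]
  have cz : (Fx (Cl P8) (Equiv.swap 0 1 * Equiv.swap 2 3)).card = 5 := by
    rw [← Nat.card_eq_finsetCard, ← card_fix_z]
    exact Nat.card_congr (Equiv.subtypeEquivRight fz)
  have cr : (Fx (Cl P8) (Equiv.swap 0 1)).card = 7 := by
    rw [← Nat.card_eq_finsetCard, ← card_fix_r]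
    exact Nat.card_congr (Equiv.subtypeEquivRight fr)
  have sub : Fx (Cl P8) (Equiv.swap 0 1 * Equiv.swap 2 3) ⊆ Fx (Cl P8) (Equiv.swap 0 1) := by
    classical
    have h1 : (Finset.univ.filter fun c : Cl P8 => ∀ g, al (ok4 F3) g • c = c) =
        Fx (Cl P8) (Equiv.swap 0 1 * Equiv.swap 2 3) := by
      refine Finset.eq_of_subset_of_card_le
        (fun c hc => (fz c).2 fun g _ => (Finset.mem_filter.1 hc).2 g) ?_
      rw [cz, ← Nat.card_eq_finsetCard, ← card_fix_all]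
      exact (Nat.card_congr (Equiv.subtypeEquivRight (by simp))).le
    intro c hc
    rw [← h1] at hc
    exact (fr c).2 fun g _ => (Finset.mem_filter.1 hc).2 g
  let β : G →* MulAut P8 :=
    (MulAut.congr e).toMonoidHom.comp (MulAut.conjNormal (H := generalizedFittingSubgroup G))
  let j : P8 →* G := (generalizedFittingSubgroup G).subtype.comp e.symm.toMonoidHom
  have hj : Function.Injective j := Subtype.val_injective.comp e.symm.injective
  have hβ : ∀ g p, j (β g p) = g * j p * g⁻¹ := fun g p => by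
    change (e.symm (e (MulAut.conjNormal g (e.symm p))) : G) = _
    rw [e.symm_apply_apply]; rfl
  have hjr : j.range = generalizedFittingSubgroup G := by
    rw [MonoidHom.range_comp, MonoidHom.range_eq_top.2 e.symm.surjective,
      ← MonoidHom.range_eq_map, Subgroup.range_subtype]
  let Φ : G →* P4 := (o.toMonoidHom.comp (QuotientGroup.mk' _)).comp β
  have h3 : Φ.ker = generalizedFittingSubgroup G := Subgroup.ext fun g => by
    refine (o.map_eq_one_iff.trans (QuotientGroup.eq_one_iff _)).trans ⟨fun ⟨x, hx⟩ => ?_,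
      fun hg => ⟨e ⟨g, hg⟩, MulEquiv.ext fun p => hj ?_⟩⟩
    · have m : (j x)⁻¹ * g ∈ generalizedFittingSubgroup G :=
        CL.Comp.centralizer_fstar_le fun y hy => by
          obtain ⟨p, rfl⟩ := hjr.ge hy
          have := hβ g p
          rw [← hx, MulAut.conj_apply, map_mul, map_mul, map_inv] at this
          calc j p * ((j x)⁻¹ * g) = (j x)⁻¹ * (j x * j p * (j x)⁻¹) * g := by group
            _ = _ := by rw [this]; group
      simpa using mul_mem (hjr.le ⟨x, rfl⟩) m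
    · rw [hβ, MulAut.conj_apply, map_mul, map_mul, map_inv]
      simp [j]
  obtain ⟨i, hi⟩ := S5515.exists_stab Φ.range (by
    rw [← Subgroup.index_ker, h3, Subgroup.index_eq_card, Nat.card_congr q.toEquiv, Nat.card_perm]
    simp [Nat.factorial])
  rw [← hjr]
  refine exists_reps' j hj β hβ (MulAction.orbitRel (MulAction.stabilizer P4 i) (Cl P8))
    (fun c c' => ?_) (card_orbits (by rw [← Nat.card_eq_fintype_card, card_cl_eight]) cz sub cr i)
    (by omega)
  rw [Setoid.comm', MulAction.orbitRel_apply, MulAction.mem_orbit_iff]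
  constructor
  · rintro ⟨⟨k, hk⟩, h⟩
    obtain ⟨g, rfl⟩ := hi.ge hk
    exact ⟨g, (hs _ _).symm.trans h⟩
  · rintro ⟨g, h⟩
    exact ⟨⟨Φ g, hi.le ⟨g, rfl⟩⟩, (hs _ _).trans h⟩

end Cfsg.Agent.S5516
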