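import Cfsg.Statements.S5517
import Cfsg.Agent.SPOR.FiL3

set_option autoImplicit false
open Cfsg

namespace Cfsg.Agent.S5517

/-- Let G be a finite group with trivial centre generated by a conjugation-invariant set D of 3-transpositions on which it acts primitively, such that for some d in D the subgroup generated by the members of D other than d commuting with d has central largest normal 2- and 3-subgroups, and suppose G with D is of type M(22). Then G has a subgroup L generated by the members of D it contains and isomorphic to Ω(7, 3) (the commutator subgroup of the isometry group of a non-degenerate 7-dimensional quadratic form over the field with three elements, modulo its centre), and every Sylow 3-subgroup of L is a Sylow 3-subgroup of G. -/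
theorem result {G : Type*} [Group G] [Finite G] {D : Set G} (hD : Cfsg.IsThreeTranspositionGroup D) (hprim : Cfsg.IsPrimitiveUnderConj D) (d₀ : G) (hd₀ : d₀ ∈ D) (h3 : Cfsg.pCore 3 ↥(Subgroup.closure {y : G | y ∈ D ∧ y ≠ d₀ ∧ Commute d₀ y}) ≤ Subgroup.center ↥(Subgroup.closure {y : G | y ∈ D ∧ y ≠ d₀ ∧ Commute d₀ y})) (h2 : Cfsg.pCore 2 ↥(Subgroup.closure {y : G | y ∈ D ∧ y ≠ d₀ ∧ Commute d₀ y}) ≤ Subgroup.center ↥(Subgroup.closure {y : G | y ∈ D ∧ y ≠ d₀ ∧ Commute d₀ y})) (h22 : Cfsg.IsOfTypeM22 G D) : ∃ L : Subgroup G, Cfsg.IsDSubgroup D L ∧ Nonempty (↥L ≃* Cfsg.POmega (ZMod 3) (Cfsg.quadFormOdd 3 (ZMod 3))) ∧ ∀ P : Sylow 3 ↥L, ∃ P' : Sylow 3 G, (P : Subgroup ↥L).map L.subtype = (P' : Subgroup G) := by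
  have h := CL.FiC.fi22 hD hprim h22
  obtain ⟨e, h1, -⟩ := CL.FiL.fi_22.exists_equiv h
  obtain ⟨X, hX, -, h2⟩ := CL.FiL.exists_o22
  obtain ⟨ε⟩ := CL.FiL.nonempty_o22
  rw [← h2] at ε
  have h3 : (Subgroup.closure X).map e.toMonoidHom = Subgroup.closure (e '' X) :=
    MonoidHom.map_closure _ _
  have η : Subgroup.closure (e '' X) ≃* POmega (ZMod 3) (quadFormOdd 3 (ZMod 3)) :=
    ((MulEquiv.subgroupCongr h3).symm.trans (e.subgroupMap _).symm).trans ε
  refine ⟨Subgroup.closure (e '' X), le_antisymm ((Subgroup.closure_le _).2 fun _ h => h.2)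
    (Subgroup.closure_mono ?_), ⟨η⟩, fun P => ?_⟩
  · rintro _ ⟨x, hx, rfl⟩
    exact ⟨h1 x (hX hx), Subgroup.subset_closure ⟨x, hx, rfl⟩⟩
  haveI : Fact (Nat.Prime 3) := ⟨by norm_num⟩
  refine ⟨Sylow.ofCard _ ?_, (Sylow.coe_ofCard _ _).symm⟩
  rw [Subgroup.card_map_of_injective (Subgroup.subtype_injective _), P.card_eq_multiplicity,
    Nat.card_congr η.toEquiv, CL.FiC.card_POmega7, h.card]
  congr 1
  rw [show 4585351680 = 3 ^ 9 * 232960 from rfl,
    Nat.factorization_eq_of_coprime_left (p := 3) (a := 3 ^ 9) (b := 232960) (by norm_num) (by simp),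
    show CL.FiC.ord 1 = 3 ^ 9 * 3280076800 from rfl,
    Nat.factorization_eq_of_coprime_left (p := 3) (a := 3 ^ 9) (b := 3280076800) (by norm_num) (by simp)]

end Cfsg.Agent.S5517
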