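import Cfsg.Statements.S5518
import Cfsg.Agent.SPOR.FiB24d

set_option autoImplicit false
open Cfsg

namespace Cfsg.Agent.S5518

/-- Let G be a finite group with trivial centre generated by a conjugation-invariant set D of 3-transpositions on which it acts primitively, such that for some d in D the subgroup generated by the members of D other than d commuting with d has central largest normal 2- and 3-subgroups, and suppose G with D is of type M(24). Then any two subgroups of order 13 are conjugate; and there are members a, b, c, d of D generating the direct product T of two symmetric groups of degree 3 (a, d non-commuting; b, c non-commuting; b and c commuting with a and d) whose centralizer K is isomorphic to the Chevalley group G₂(3), such that for every subgroup B of K of order 13: the normalizer of B lies in the normalizer of K, the normalizer F of B in K is a Frobenius group of order 78 with kernel B (order 78, centralizer of B in it equal to B), and the subgroup generated by F and T has index 2 in the normalizer of B. -/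
theorem result {G : Type*} [Group G] [Finite G] {D : Set G} (hD : Cfsg.IsThreeTranspositionGroup D) (hprim : Cfsg.IsPrimitiveUnderConj D) (d₀ : G) (hd₀ : d₀ ∈ D) (h3 : Cfsg.pCore 3 ↥(Subgroup.closure {y : G | y ∈ D ∧ y ≠ d₀ ∧ Commute d₀ y}) ≤ Subgroup.center ↥(Subgroup.closure {y : G | y ∈ D ∧ y ≠ d₀ ∧ Commute d₀ y})) (h2 : Cfsg.pCore 2 ↥(Subgroup.closure {y : G | y ∈ D ∧ y ≠ d₀ ∧ Commute d₀ y}) ≤ Subgroup.center ↥(Subgroup.closure {y : G | y ∈ D ∧ y ≠ d₀ ∧ Commute d₀ y})) (h24 : Cfsg.IsOfTypeM24 G D) : (∀ X Y : Subgroup G, Nat.card X = 13 → Nat.card Y = 13 → ∃ g : G, X.map (MulAut.conj g).toMonoidHom = Y) ∧ ∃ (a b c d : G) (T K : Subgroup G), (∀ x ∈ [a, b, c, d], x ∈ D) ∧ ¬ Commute a d ∧ ¬ Commute b c ∧ Commute a b ∧ Commute a c ∧ Commute d b ∧ Commute d c ∧ T = Subgroup.closure ({a, b, c, d} : Set G) ∧ K = Subgroup.centralizer (T : Set G) ∧ Nonempty (↥K ≃* ↥(Cfsg.Lie.chevG2.group (ZMod 3))) ∧ ∀ B : Subgroup G, B ≤ K → Nat.card B = 13 → Subgroup.normalizer ((B : Subgroup G) : Set G) ≤ Subgroup.normalizer ((K : Subgroup G) : Set G) ∧ Nat.card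 ↥(K ⊓ Subgroup.normalizer ((B : Subgroup G) : Set G)) = 78 ∧ K ⊓ Subgroup.centralizer ((B : Subgroup G) : Set G) = B ∧ (((K ⊓ Subgroup.normalizer ((B : Subgroup G) : Set G)) ⊔ T).subgroupOf (Subgroup.normalizer ((B : Subgroup G) : Set G))).index = 2 := by
  obtain ⟨h, gp⟩ := CL.FiA.of_type24 hD hprim h24
  exact CL.Fi.D24.thirteen h gp

end Cfsg.Agent.S5518
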