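import Cfsg.Statements.S5519
import Cfsg.Agent.SPOR.FiP4

set_option autoImplicit false
open Cfsg

namespace Cfsg.Agent.S5519

/-- Let G be a finite group with trivial centre generated by a conjugation-invariant set D of 3-transpositions on which it acts primitively, such that for some d in D the subgroup generated by the members of D other than d commuting with d has central largest normal 2- and 3-subgroups, and suppose G with D is of type M(22). Let d₁, d₂ be distinct commuting members of D and C the centralizer of their product. Then the generalized Fitting subgroup of C is the direct product of a group of order 2 and an extraspecial 2-group of order 2^9, and C modulo it is isomorphic to the full isometry group of the elliptic quadratic form in dimension 6 over the field with two elements. -/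
theorem result {G : Type*} [Group G] [Finite G] {D : Set G} (hD : Cfsg.IsThreeTranspositionGroup D) (hprim : Cfsg.IsPrimitiveUnderConj D) (d₀ : G) (hd₀ : d₀ ∈ D) (h3 : Cfsg.pCore 3 ↥(Subgroup.closure {y : G | y ∈ D ∧ y ≠ d₀ ∧ Commute d₀ y}) ≤ Subgroup.center ↥(Subgroup.closure {y : G | y ∈ D ∧ y ≠ d₀ ∧ Commute d₀ y})) (h2 : Cfsg.pCore 2 ↥(Subgroup.closure {y : G | y ∈ D ∧ y ≠ d₀ ∧ Commute d₀ y}) ≤ Subgroup.center ↥(Subgroup.closure {y : G | y ∈ D ∧ y ≠ d₀ ∧ Commute d₀ y})) (h22 : Cfsg.IsOfTypeM22 G D) (d₁ d₂ : G) (h₁ : d₁ ∈ D) (h₂ : d₂ ∈ D) (hne : d₁ ≠ d₂) (hc : Commute d₁ d₂) (C : Subgroup G) (hC : C = Subgroup.centralizer ({d₁ * d₂} : Set G)) [hn : (Cfsg.generalizedFittingSubgroup ↥C).Normal] : (∃ (E : Type) (_ : Group E) (_ : Finite E), Cfsg.IsExtraspecial 2 E ∧ Nat.card E = 2 ^ 9 ∧ Nonempty (↥(Cfsg.generalizedFittingSubgroup ↥C) ≃* Multiplicative (ZMod 2) × E)) ∧ Nonempty (↥C ⧸ Cfsg.generalizedFittingSubgroup ↥C ≃* Cfsg.isometryGroup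 (ZMod 2) (Cfsg.quadFormMinus 2 (ZMod 2) 1 1)) := by
  have h := CL.FiP.amb_of_type hD hprim h22
  have hb : d₂ ∈ CL.TTU.nb D d₁ := ⟨h₂, hne.symm, hc⟩
  subst hC
  have hF := h.fstar_eq h₁ hb (h.card_QQ hD.2.2 h₁ hb)
  obtain ⟨e₁⟩ := h.nonempty_quot h₁ hb hF
  obtain ⟨e₂⟩ := h.nonempty_O6m_equiv hD.2.2
  obtain ⟨M, hM, hcM, ⟨e₃⟩⟩ := h.exists_prod hD.2.2 h₁ hb
  refine ⟨?_, ⟨e₁.trans e₂⟩⟩
  obtain ⟨E, _, _, ⟨e₄⟩⟩ : ∃ (E : Type) (_ : Group E) (_ : Finite E), Nonempty (M ≃* E) :=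
    ⟨Shrink.{0} M, inferInstance, inferInstance, ⟨(equivShrink.{0} M).symm.mulEquiv.symm⟩⟩
  refine ⟨E, inferInstance, inferInstance, ?_, by rw [← hcM, Nat.card_congr e₄.toEquiv],
    ⟨((MulEquiv.subgroupCongr hF).trans (Subgroup.subgroupOfEquivOfLe (h.QQ_le h₁ hb))).trans
      (e₃.trans (MulEquiv.prodCongr (MulEquiv.refl _) e₄))⟩⟩
  exact CL.FiP.isExtraspecial_congr e₄ hM.isExtraspecial

end Cfsg.Agent.S5519
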