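import Cfsg.Statements.S5541


set_option autoImplicit false
open Cfsg

namespace Cfsg.Agent.S5541


/-- Let ρ be a representation of a group H on a finite-dimensional real vector space U whose only ρ-invariant subspaces are the zero subspace and U, and suppose U carries a non-zero ρ-invariant symmetric bilinear form. Then the following are equivalent: (1) there is a non-zero ρ-equivariant commutative bilinear product on U of which every ρ-equivariant bilinear product is a scalar multiple; (2) there is a non-zero ρ-invariant trilinear form on U that is symmetric under all permutations of its arguments and of which every ρ-invariant trilinear form is a scalar multiple. -/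
theorem result {H : Type*} [Group H] {U : Type*} [AddCommGroup U] [Module ℝ U] [FiniteDimensional ℝ U] (ρ : Representation ℝ H U) (hirr : ∀ W : Submodule ℝ U, (∀ g : H, W.map (ρ g) ≤ W) → W = ⊥ ∨ W = ⊤) (B : LinearMap.BilinForm ℝ U) (hB0 : B ≠ 0) (hBs : ∀ u v, B u v = B v u) (hBi : ∀ (g : H) (u v : U), B (ρ g u) (ρ g v) = B u v) : (∃ m : U →ₗ[ℝ] U →ₗ[ℝ] U, m ≠ 0 ∧ (∀ u v, m u v = m v u) ∧ (∀ (g : H) (u v : U), m (ρ g u) (ρ g v) = ρ g (m u v)) ∧ ∀ m' : U →ₗ[ℝ] U →ₗ[ℝ] U, (∀ (g : H) (u v : U), m' (ρ g u) (ρ g v) = ρ g (m' u v)) → ∃ c : ℝ, m' = c • m) ↔ (∃ t : U →ₗ[ℝ] U →ₗ[ℝ] U →ₗ[ℝ] ℝ, t ≠ 0 ∧ (∀ u v w, t u v w = t v u w ∧ t u v w = t u w v) ∧ (∀ (g : H) (u v w : U), t (ρ g u) (ρ g v) (ρ g w) = t u v w) ∧ ∀ t' : U →ₗ[ℝ] U →ₗ[ℝ] U →ₗ[ℝ] ℝ, (∀ (g : H) (u v w : U), t' (ρ g u) (ρ g v) (ρ g w) = t' u v w) → ∃ c : ℝ, t' = c • t) := by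
  -- `B` is nondegenerate
  have hnd : ∀ u, (∀ v, B u v = 0) → u = 0 := by
    have h := hirr (LinearMap.ker B) (by
      rintro g _ ⟨u, hu, rfl⟩
      rw [LinearMap.mem_ker]
      ext v
      have : v = ρ g (ρ g⁻¹ v) := by
        rw [← Module.End.mul_apply, ← map_mul, mul_inv_cancel, map_one, Module.End.one_apply]
      rw [this, hBi, LinearMap.mem_ker.1 hu]; rfl)
    rcases h with h | h
    · intro u hu
      have : u ∈ LinearMap.ker B := by rw [LinearMap.mem_ker]; ext v; exact hu v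
      rwa [h] at this
    · exact absurd (LinearMap.ker_eq_top.1 h) hB0
  have hinj : Function.Injective (B : U →ₗ[ℝ] Module.Dual ℝ U) := by
    rw [← LinearMap.ker_eq_bot, eq_bot_iff]
    intro u hu
    exact hnd u (fun v => by rw [LinearMap.mem_ker.1 hu]; rfl)
  have hbij : Function.Bijective (B : U →ₗ[ℝ] Module.Dual ℝ U) :=
    ⟨hinj, (LinearMap.injective_iff_surjective_of_finrank_eq_finrank
      (Subspace.dual_finrank_eq).symm).1 hinj⟩
  let e : U ≃ₗ[ℝ] Module.Dual ℝ U := LinearEquiv.ofBijective (B : U →ₗ[ℝ] Module.Dual ℝ U) hbij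
  have hsurj : ∀ (g : H) (v : U), ∃ w, v = ρ g w := fun g v => ⟨ρ g⁻¹ v, by
    rw [← Module.End.mul_apply, ← map_mul, mul_inv_cancel, map_one, Module.End.one_apply]⟩
  have toT : ∀ m : U →ₗ[ℝ] U →ₗ[ℝ] U, ∃ t : U →ₗ[ℝ] U →ₗ[ℝ] U →ₗ[ℝ] ℝ,
      ∀ u v w, t u v w = B (m u v) w := fun m => ⟨m.compr₂ B, fun _ _ _ => rfl⟩
  have toM : ∀ t : U →ₗ[ℝ] U →ₗ[ℝ] U →ₗ[ℝ] ℝ, ∃ m : U →ₗ[ℝ] U →ₗ[ℝ] U,
      ∀ u v w, t u v w = B (m u v) w := fun t => ⟨t.compr₂ (e.symm : Module.Dual ℝ U →ₗ[ℝ] U),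
        fun u v w => by
          have : B (e.symm (t u v)) = t u v := e.apply_symm_apply (t u v)
          exact (congrArg (fun f => f w) this).symm⟩
  have hext : ∀ a b : U, (∀ w, B a w = B b w) → a = b := fun a b h => hinj (LinearMap.ext h)
  have hinv : ∀ (m : U →ₗ[ℝ] U →ₗ[ℝ] U) (t : U →ₗ[ℝ] U →ₗ[ℝ] U →ₗ[ℝ] ℝ),
      (∀ u v w, t u v w = B (m u v) w) →
      ((∀ (g : H) (u v : U), m (ρ g u) (ρ g v) = ρ g (m u v)) ↔
        ∀ (g : H) (u v w : U), t (ρ g u) (ρ g v) (ρ g w) = t u v w) := by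
    intro m t h
    constructor
    · intro hm g u v w
      rw [h, h, hm, hBi]
    · intro ht g u v
      apply hext
      intro w
      obtain ⟨w, rfl⟩ := hsurj g w
      rw [← h, ht, hBi, h]
  constructor
  · rintro ⟨m, hm0, hms, hmi, hmu⟩
    obtain ⟨t, ht⟩ := toT m
    have hti := (hinv m t ht).1 hmi
    have htu : ∀ t' : U →ₗ[ℝ] U →ₗ[ℝ] U →ₗ[ℝ] ℝ,
        (∀ (g : H) (u v w : U), t' (ρ g u) (ρ g v) (ρ g w) = t' u v w) → ∃ c : ℝ, t' = c • t := by
      intro t' ht'
      obtain ⟨m', hm'⟩ := toM t'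
      obtain ⟨c, hc⟩ := hmu m' ((hinv m' t' hm').2 ht')
      refine ⟨c, ?_⟩
      ext u v w
      simp [hm', hc, ht]
    have ht0 : t ≠ 0 := by
      intro h0
      apply hm0
      ext u v
      apply hnd
      intro w
      rw [← ht, h0]; rfl
    have hs1 : ∀ u v w, t u v w = t v u w := fun u v w => by rw [ht, ht, hms]
    refine ⟨t, ht0, fun u v w => ⟨hs1 u v w, ?_⟩, hti, htu⟩
    obtain ⟨c, hc⟩ := htu (t.compr₂ LinearMap.id |>.flip.flip |> fun _ =>
      (LinearMap.lflip (R := ℝ) (M := U) (N := U) (P := ℝ)).toLinearMap.comp t) (by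
        intro g u v w
        exact hti g u w v)
    have hc' : ∀ u v w, t u w v = c * t u v w := by
      intro u v w
      exact congrArg (fun f => f u v w) hc
    have hc1 : c = 1 := by
      by_contra hne
      apply ht0
      ext u v w
      have a1 : t u v w = c * c * c * t u v w := by
        calc t u v w = t v u w := hs1 _ _ _
          _ = c * t v w u := hc' _ _ _
          _ = c * t w v u := by rw [hs1]
          _ = c * (c * t w u v) := by rw [hc' w u v]
          _ = c * (c * t u w v) := by rw [hs1 w u v]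
          _ = _ := by rw [hc' u v w]; ring
      have a2 : t u v w = c * c * t u v w := by
        calc t u v w = c * t u w v := hc' _ _ _
          _ = _ := by rw [hc' u v w]; ring
      have a3 : (c - 1) * t u v w = 0 := by linear_combination c * a2 - a1
      rcases mul_eq_zero.1 a3 with h | h
      · exact absurd (sub_eq_zero.1 h) hne
      · exact h
    rw [hc' u w v, hc1, one_mul]
  · rintro ⟨t, ht0, hts, hti, htu⟩
    obtain ⟨m, hm⟩ := toM t
    refine ⟨m, ?_, ?_, (hinv m t hm).2 hti, ?_⟩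
    · rintro rfl
      apply ht0
      ext u v w
      simp [hm]
    · intro u v
      apply hext
      intro w
      rw [← hm, ← hm, (hts u v w).1]
    · intro m' hm'
      obtain ⟨t', ht'⟩ := toT m'
      obtain ⟨c, hc⟩ := htu t' ((hinv m' t' ht').1 hm')
      refine ⟨c, ?_⟩
      ext u v
      apply hext
      intro w
      rw [← ht', hc]
      simp [hm]

end Cfsg.Agent.S5541
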