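import Cfsg.Statements.S5543


set_option autoImplicit false
open Cfsg

namespace Cfsg.Agent.S5543

open Cfsg.Axial in
theorem sq_of_mem {V : Type*} [AddCommGroup V] [Module ℝ V] (mul : V →ₗ[ℝ] V →ₗ[ℝ] V) (a v : V)
    (hv : v ∈ eigenSum mul a ({1, 0} : Set ℝ)) : mul a (mul a v) = mul a v := by
  have : eigenSum mul a ({1, 0} : Set ℝ) ≤ LinearMap.ker ((mul a).comp (mul a) - mul a) := by
    refine iSup₂_le ?_
    intro c hc w hw
    have hw' : mul a w = c • w := Module.End.mem_eigenspace_iff.1 hw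
    rw [LinearMap.mem_ker]
    rcases hc with rfl | rfl
    · simp [hw']
    · simp [hw']
  have h := this hv
  rw [LinearMap.mem_ker] at h
  simpa [sub_eq_zero] using h


/-- Let V be a finite-dimensional real vector space with a commutative bilinear product and a positive-definite symmetric bilinear form that associates with the product and satisfies the Norton inequality (the Majorana setting of the definitions). Let X be a group of linear automorphisms of V in which every element squares to the identity, and suppose every non-identity element x of X is a Majorana involution with an axial vector a(x) of squared length 1, such that for any two distinct non-identity x, y the product a(x) ∘ a(y) equals (1/8)(a(x) + a(y) − a(xy)) (the dihedral subalgebra of type 2A whose third axis belongs to the involution xy). Then X has order at most 4. -/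
theorem result {V : Type*} [AddCommGroup V] [Module ℝ V] [FiniteDimensional ℝ V] (mul : V →ₗ[ℝ] V →ₗ[ℝ] V) (B : LinearMap.BilinForm ℝ V) (hV : Cfsg.Axial.IsMajoranaAmbient mul B) (X : Subgroup (V ≃ₗ[ℝ] V)) (hX : ∀ x ∈ X, x * x = 1) (ax : (V ≃ₗ[ℝ] V) → V) (hax : ∀ x ∈ X, x ≠ 1 → Cfsg.Axial.IsMajoranaPair mul B x (ax x)) (h1 : ∀ x ∈ X, x ≠ 1 → B (ax x) (ax x) = 1) (h2A : ∀ x ∈ X, ∀ y ∈ X, x ≠ 1 → y ≠ 1 → x ≠ y → mul (ax x) (ax y) = (1 / 8 : ℝ) • (ax x + ax y - ax (x * y))) : Nat.card ↥X ≤ 4 := by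
  by_contra hlt
  push Not at hlt
  have hfin : Finite X := Nat.finite_of_card_ne_zero (by omega)
  have hinv : ∀ x ∈ X, x⁻¹ = x := fun x hx => inv_eq_of_mul_eq_one_right (hX x hx)
  have hcomm : ∀ x ∈ X, ∀ y ∈ X, x * y = y * x := by
    intro x hx y hy
    rw [← hinv _ (X.mul_mem hx hy), mul_inv_rev, hinv x hx, hinv y hy]
  classical
  have hex : ∀ s : Finset X, s.card ≤ 4 → ∃ x : X, x ∉ s := by
    intro s hs
    by_contra h
    push Not at h
    have : Fintype X := Fintype.ofFinite X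
    have h2 : s = Finset.univ := Finset.eq_univ_iff_forall.2 h
    rw [h2, Finset.card_univ, ← Nat.card_eq_fintype_card] at hs
    omega
  obtain ⟨⟨x, hx⟩, hx'⟩ := hex {1} (by simp)
  obtain ⟨⟨y, hy⟩, hy'⟩ := hex {1, ⟨x, hx⟩} (Finset.card_le_two.trans (by norm_num))
  obtain ⟨⟨z, hz⟩, hz'⟩ := hex {1, ⟨x, hx⟩, ⟨y, hy⟩, ⟨x * y, X.mul_mem hx hy⟩} Finset.card_le_four
  simp only [Finset.mem_insert, Finset.mem_singleton, not_or, Subtype.ext_iff, OneMemClass.coe_one]
    at hx' hy' hz'
  obtain ⟨hy1, hyx⟩ := hy'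
  obtain ⟨hz1, hzx, hzy, hzxy⟩ := hz'
  have hne : ∀ u ∈ X, ∀ v ∈ X, u ≠ v → u * v ≠ 1 := by
    intro u hu v hv huv h
    exact huv (by rw [← hinv v hv]; exact eq_inv_of_mul_eq_one_left h)
  -- the eigenvector `β u = a u - a (x u)`
  have hβ : ∀ u ∈ X, u ≠ 1 → u ≠ x →
      mul (ax x) (ax u - ax (x * u)) = (1 / 4 : ℝ) • (ax u - ax (x * u)) := by
    intro u hu hu1 hux
    have e1 := h2A x hx u hu hx' hu1 (Ne.symm hux)
    have e2 := h2A x hx (x * u) (X.mul_mem hx hu) hx' (hne x hx u hu (Ne.symm hux))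
      (by intro h; exact hu1 (by simpa using h.symm))
    rw [← mul_assoc, hX x hx, one_mul] at e2
    rw [map_sub, e1, e2]; module
  have hxy := X.mul_mem hx hy
  have hxz := X.mul_mem hx hz
  have hyz := X.mul_mem hy hz
  have hxy1 := hne x hx y hy (Ne.symm hyx)
  have hxz1 := hne x hx z hz (Ne.symm hzx)
  have hyz1 := hne y hy z hz (Ne.symm hzy)
  have hyzx : y * z ≠ x := by
    intro h; apply hzxy
    rw [← h, hcomm y hy z hz, mul_assoc, hX y hy, mul_one]
  have hprod : mul (ax y - ax (x * y)) (ax z - ax (x * z))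
      = (-1 / 4 : ℝ) • (ax (y * z) - ax (x * (y * z))) := by
    have e1 := h2A y hy z hz hy1 hz1 (Ne.symm hzy)
    have e2 := h2A y hy (x * z) hxz hy1 hxz1 (by
      intro h; apply hzxy; rw [h, ← mul_assoc, hX x hx, one_mul])
    have e3 := h2A (x * y) hxy z hz hxy1 hz1 (Ne.symm hzxy)
    have e4 := h2A (x * y) hxy (x * z) hxz hxy1 hxz1 (by
      intro h; exact hzy (mul_left_cancel h).symm)
    have r2 : y * (x * z) = x * (y * z) := by rw [← mul_assoc, hcomm y hy x hx, mul_assoc]
    have r4 : x * y * (x * z) = y * z := by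
      rw [mul_assoc, r2, ← mul_assoc, hX x hx, one_mul]
    rw [r2] at e2; rw [mul_assoc] at e3; rw [r4] at e4
    simp only [map_sub, LinearMap.sub_apply]
    rw [e1, e2, e3, e4]; module
  obtain ⟨-, -, ⟨⟨hax0, hidem, -, hfus⟩, -⟩, -⟩ := hax x hx hx'
  have hmem := hfus (1 / 4) (by simp [Cfsg.Axial.majoranaSpectrum]) (1 / 4)
    (by simp [Cfsg.Axial.majoranaSpectrum]) _
    (Module.End.mem_eigenspace_iff.2 (hβ y hy hy1 hyx)) _
    (Module.End.mem_eigenspace_iff.2 (hβ z hz hz1 hzx))
  have hlaw : Cfsg.Axial.monsterLaw (1 / 4 : ℝ) (1 / 32) (1 / 4) (1 / 4) = {1, 0} := by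
    unfold Cfsg.Axial.monsterLaw
    rw [if_neg (by norm_num), if_neg (by norm_num), if_pos ⟨rfl, rfl⟩]
  rw [hlaw, hprod] at hmem
  have h3 := sq_of_mem mul _ _ hmem
  have hb := hβ (y * z) hyz hyz1 hyzx
  simp only [map_smul, hb] at h3
  have h4 : ax (y * z) - ax (x * (y * z)) = 0 := by
    have : (3 / 64 : ℝ) • (ax (y * z) - ax (x * (y * z))) = 0 := by
      linear_combination (norm := module) h3
    simpa using this
  have h5 : ax (x * (y * z)) = ax (y * z) := (sub_eq_zero.1 h4).symm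
  obtain ⟨-, -, ⟨⟨hb0, hidem', -, -⟩, -⟩, -⟩ := hax (y * z) hyz hyz1
  have e5 := h2A (y * z) hyz (x * (y * z)) (X.mul_mem hx hyz) hyz1 (hne x hx _ hyz (Ne.symm hyzx))
    (by intro h; exact hx' (by simpa using h.symm))
  rw [hcomm (y * z) hyz _ (X.mul_mem hx hyz), mul_assoc x, hX _ hyz, mul_one, h5, hidem'] at e5
  have e6 : ax x = (-6 : ℝ) • ax (y * z) := by
    linear_combination (norm := module) (8 : ℝ) • e5
  rw [e6] at hidem
  simp only [map_smul, LinearMap.smul_apply, hidem'] at hidem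
  apply hb0
  have : (42 : ℝ) • ax (y * z) = 0 := by
    linear_combination (norm := module) hidem
  simpa using this

end Cfsg.Agent.S5543
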