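import Cfsg.Statements.S5545
import Cfsg.Agent.SPOR.Majorana

set_option autoImplicit false
open Cfsg

namespace Cfsg.Agent.S5545

open CL.Maj Cfsg.Axial


/-- Let V be a finite-dimensional real vector space with a commutative bilinear product and a positive-definite symmetric bilinear form that associates with the product and satisfies the Norton inequality (the Majorana setting of the definitions). Let μ₀, μ₁ be commuting Majorana involutions with distinct axial vectors a₀ ≠ a₁ of squared length 1, each involution having no other axial vector. Then either a₀ and a₁ are orthogonal with a₀ ∘ a₁ = 0 (type 2B), or their inner product is 1/8 and, with a₂ = a₀ + a₁ − 8 a₀ ∘ a₁, the vector a₂ is an idempotent and a₀ ∘ a₂ = (1/8)(a₀ + a₂ − a₁), a₁ ∘ a₂ = (1/8)(a₁ + a₂ − a₀) (type 2A: the three idempotents span a subalgebra with aᵢ ∘ aⱼ = (1/8)(aᵢ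 + aⱼ − aₖ)). -/
theorem result {V : Type*} [AddCommGroup V] [Module ℝ V] [FiniteDimensional ℝ V] (mul : V →ₗ[ℝ] V →ₗ[ℝ] V) (B : LinearMap.BilinForm ℝ V) (hV : Cfsg.Axial.IsMajoranaAmbient mul B) (μ₀ μ₁ : V ≃ₗ[ℝ] V) (a₀ a₁ : V) (h₀ : Cfsg.Axial.IsMajoranaPair mul B μ₀ a₀) (h₁ : Cfsg.Axial.IsMajoranaPair mul B μ₁ a₁) (hu₀ : ∀ a : V, Cfsg.Axial.IsMajoranaPair mul B μ₀ a → a = a₀) (hu₁ : ∀ a : V, Cfsg.Axial.IsMajoranaPair mul B μ₁ a → a = a₁) (hn₀ : B a₀ a₀ = 1) (hn₁ : B a₁ a₁ = 1) (hc : μ₀ * μ₁ = μ₁ * μ₀) (hne : a₀ ≠ a₁) : (B a₀ a₁ = 0 ∧ mul a₀ a₁ = 0) ∨ (B a₀ a₁ = 1 / 8 ∧ mul (a₀ + a₁ - (8 : ℝ) • mul a₀ a₁) (a₀ + a₁ - (8 : ℝ) • mul a₀ a₁) = a₀ + a₁ - (8 : ℝ) • mul a₀ a₁ ∧ mul a₀ (a₀ + a₁ - (8 : ℝ) • mul a₀ a₁) = (1 / 8 : ℝ) • (a₀ + (a₀ + a₁ - (8 : ℝ) • mul a₀ a₁) - a₁) ∧ mul a₁ (a₀ + a₁ - (8 : ℝ) • mul a₀ a₁) = (1 / 8 : ℝ) • (a₁ + (a₀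 + a₁ - (8 : ℝ) • mul a₀ a₁) - a₀)) := by
  have f0 : μ₁ a₀ = a₀ := by
    have := pair_conj h₀ μ₁ h₁.1 h₁.2.1
    rw [← hc, mul_inv_cancel_right] at this
    exact hu₀ _ this
  have f1 : μ₀ a₁ = a₁ := by
    have := pair_conj h₁ μ₀ h₀.1 h₀.2.1
    rw [hc, mul_inv_cancel_right] at this
    exact hu₁ _ this
  obtain ⟨σ, hσ⟩ : ∃ σ, mul a₀ a₁ = σ + (1 / 32 : ℝ) • (a₀ + a₁) :=
    ⟨mul a₀ a₁ - (1 / 32 : ℝ) • (a₀ + a₁), by abel⟩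
  have hσ' : mul a₁ a₀ = σ + (1 / 32 : ℝ) • (a₁ + a₀) := by rw [hV.1, hσ, add_comm a₀]
  have k0 := sigma_sq hV h₀ h₁ hn₀ hn₁ hσ (e := (15 / 16 : ℝ) • a₀) (o := (15 / 16 : ℝ) • a₁)
    (by rw [f0, idem h₀]; module) (by rw [f1, idem h₁]; module)
  have k1 := sigma_sq hV h₁ h₀ hn₁ hn₀ hσ' (e := (15 / 16 : ℝ) • a₁) (o := (15 / 16 : ℝ) • a₀)
    (by rw [f1, idem h₁]; module) (by rw [f0, idem h₀]; module)
  obtain ⟨-, -, p0, -⟩ := sigma_spec hV h₀ hn₀ hσ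
  obtain ⟨-, -, p1, -⟩ := sigma_spec hV h₁ hn₁ hσ'
  simp only [f0, f1, fix_self h₀, fix_self h₁, hn₀, hn₁, hV.2.1 a₁ a₀] at k0 k1 p0 p1
  have hl : (B a₀ a₁ * (8 * B a₀ a₁ - 1)) • (a₀ - a₁) = 0 := by
    linear_combination (norm := module) (48 / 7 : ℝ) • (k1 - k0)
  rcases mul_eq_zero.1 ((smul_eq_zero.1 hl).resolve_right (sub_ne_zero.2 hne)) with e | e
  · left
    refine ⟨e, eq_zero_of hV ?_⟩
    have := hV.2.2.2.2 a₀ a₁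
    rwa [idem h₀, idem h₁, e] at this
  · right
    have e' : B a₀ a₁ = 1 / 8 := by linarith
    rw [e'] at k0 p0 p1
    rw [hσ]
    simp only [map_add, map_sub, map_smul, LinearMap.add_apply, LinearMap.sub_apply,
      LinearMap.smul_apply, hV.1 σ a₀, hV.1 σ a₁, hσ, hσ', idem h₀, idem h₁, k0, p0, p1]
    refine ⟨e', ?_, ?_, ?_⟩ <;> module

end Cfsg.Agent.S5545
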