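import Cfsg.Statements.S5546
import Mathlib
import Cfsg.Agent.SPOR.LeechRep

set_option autoImplicit false
open Cfsg

namespace Cfsg.Agent.S5546

open CL.Leech Cfsg Cfsg.Spor MulAction

instance inv8 : Invertible (8 : ZMod 13) := ⟨5, by decide, by decide⟩
instance fact13 : Fact (Nat.Prime 13) := ⟨by norm_num⟩

/-- the inner product with the fixed vector -/
noncomputable def phi : (GolayPt → ZMod 13) →ₗ[ZMod 13] ZMod 13 :=
  dotProductBilin (ZMod 13) (ZMod 13) (castV (ZMod 13) leechU)

theorem phi_U : phi (castV (ZMod 13) leechU) = 6 := by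
  show castV _ leechU ⬝ᵥ castV _ leechU = 6
  rw [castV_dot, ← sqNorm_eq_dot, sqNorm_U]; decide

theorem finrank_ker : Module.finrank (ZMod 13) (LinearMap.ker phi) = 23 := by
  have h := LinearMap.finrank_range_add_finrank_ker phi
  have h2 : LinearMap.range phi = ⊤ := by
    rw [LinearMap.range_eq_top]
    intro a
    refine ⟨(a * 11) • castV (ZMod 13) leechU, ?_⟩
    rw [map_smul, phi_U, smul_eq_mul, mul_assoc, show (11 : ZMod 13) * 6 = 1 by decide, mul_one]
  rw [h2, finrank_top, Module.finrank_self, Module.finrank_fintype_fun_eq_card, card_pt] at h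
  omega

theorem phi_rho (g : stabilizer Co0 leechU) (x : GolayPt → ZMod 13) :
    phi (rhoR (ZMod 13) g x) = phi x := by
  have := dot_rhoR_castV (ZMod 13) g leechU x
  rw [show (g : Co0) • leechU = leechU from g.2] at this
  exact this

/-- the restriction to the hyperplane -/
noncomputable def res : stabilizer Co0 leechU →* Module.End (ZMod 13) (LinearMap.ker phi) where
  toFun g := (rhoR (ZMod 13) g).restrict fun x hx => by
    rw [LinearMap.mem_ker] at hx ⊢
    rw [phi_rho, hx]
  map_one' := by ext x; simp
  map_mul' g h := by ext x; simp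

theorem res_val (g : stabilizer Co0 leechU) (x : LinearMap.ker phi) :
    (res g x : GolayPt → ZMod 13) = rhoR (ZMod 13) g x := rfl

theorem fix_all {g : Co0} (hg : g • leechU = leechU)
    (h4 : ∀ y, phi y = 0 → rhoR (ZMod 13) g y = y) (x : GolayPt → ZMod 13) :
    rhoR (ZMod 13) g x = x := by
  have hx : phi (x - (phi x * 11) • castV (ZMod 13) leechU) = 0 := by
    rw [map_sub, map_smul, phi_U, smul_eq_mul, mul_assoc,
      show (11 : ZMod 13) * 6 = 1 by decide, mul_one, sub_self]
  have h3 := h4 _ hx
  have h5 := rhoR_castV (ZMod 13) g leechU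
  rw [hg] at h5
  generalize rhoR (ZMod 13) g = f at *
  rw [map_sub, map_smul, h5] at h3
  exact sub_left_injective h3

theorem res_inj : Function.Injective res := by
  rw [injective_iff_map_eq_one]
  intro g hg
  have h1 : ∀ x, rhoR (ZMod 13) g x = x := fix_all g.2 fun y hy => by
    have h5 := res_val g ⟨y, hy⟩
    rw [hg] at h5
    exact h5.symm
  apply Subtype.ext
  apply co_ext_e8
  intro i
  have h2 := h1 (castV _ (e8 i))
  rw [rhoR_castV] at h2
  have hn : sqNorm (((g : Co0) • e8 i : leechLattice) : GolayPt → ℤ) = 64 := by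
    rw [sqNorm_smul, sqNorm_e8]
  have hb := abs_le_of_sqNorm_le (hn.le.trans (by norm_num))
  have hc : ∀ j, (13 : ℤ) ∣ (e8 i : GolayPt → ℤ) j - (((g : Co0) • e8 i : leechLattice) : GolayPt → ℤ) j :=
    fun j => (ZMod.intCast_eq_intCast_iff_dvd_sub _ _ 13).1 (congrFun h2 j)
  rw [OneMemClass.coe_one, one_smul]
  generalize ((g : Co0) • e8 i : leechLattice) = y at *
  have h0 : ∀ j, j ≠ i → (y : GolayPt → ℤ) j = 0 := fun j hj => by
    have := hc j
    have := hb j
    rw [coe_e8, Pi.single_eq_of_ne hj] at *
    omega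
  have hy : (y : GolayPt → ℤ) = Pi.single i ((y : GolayPt → ℤ) i) := by
    funext j
    by_cases hj : j = i
    · subst hj; simp
    · rw [h0 j hj, Pi.single_eq_of_ne hj]
  rw [hy, sqNorm_single] at hn
  have h3 := hc i
  have h4 := hb i
  rw [coe_e8, Pi.single_eq_same] at h3
  have h5 : (y : GolayPt → ℤ) i = 8 ∨ (y : GolayPt → ℤ) i = -5 := by omega
  apply Subtype.ext
  rcases h5 with h5 | h5
  · rw [hy, h5, coe_e8]
  · rw [h5] at hn; norm_num at hn

/-- The second Conway group (the stabilizer in the Leech lattice automorphism group of the short vector fixed in the definitions) is isomorphic to a subgroup of the general linear group of degree 23 over the field with 13 elements: there is an injective homomorphism into it. -/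
theorem result : ∃ f : ↥Cfsg.Spor.Co2 →* GL (Fin 23) (ZMod 13), Function.Injective f := by
  let b := Module.finBasisOfFinrankEq (ZMod 13) (LinearMap.ker phi) finrank_ker
  let f : Co2 →* Matrix (Fin 23) (Fin 23) (ZMod 13) :=
    ((LinearMap.toMatrixAlgEquiv b).toMulEquiv.toMonoidHom.comp res).comp eqCo2.toMonoidHom
  have hf : Function.Injective f :=
    ((LinearMap.toMatrixAlgEquiv b).injective.comp res_inj).comp eqCo2.injective
  exact ⟨f.toHomUnits, fun x y h => hf (congrArg Units.val h)⟩

end Cfsg.Agent.S5546
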