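import Cfsg.Statements.S5548
import Mathlib
import Cfsg.Agent.SPOR.GolayMod

set_option autoImplicit false
open Cfsg

namespace Cfsg.Agent.S5548

open CL CL.K CL.Orb CL.Enc CL.Golay MulAction
open scoped Pointwise

set_option maxHeartbeats 400000

/-- For the automorphism group of the length-24 binary Golay code of the definitions (the Mathieu group of degree 24) acting on binary words of length 24 by permuting coordinates, the only invariant subspaces of the space of all words are: zero, the span of the all-ones word, the code itself, the even-weight words, and the whole space. (So the permutation module has a unique composition series.) -/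
theorem result (W : Submodule (ZMod 2) (Cfsg.GolayPt → ZMod 2)) (hW : ∀ σ ∈ Cfsg.M24, ∀ w ∈ W, (fun p => w (σ.symm p)) ∈ W) : W = ⊥ ∨ W = Submodule.span (ZMod 2) {fun _ => (1 : ZMod 2)} ∨ W = Cfsg.golayCode ∨ (W : Set (Cfsg.GolayPt → ZMod 2)) = {w | ∑ p, w p = 0} ∨ W = ⊤ := by
  by_cases hle : W ≤ golayCode
  · rcases eq_of_le_code hW hle with h | h
    · by_cases h1 : (fun _ => (1 : ZMod 2)) ∈ W
      · exact Or.inr (Or.inl (le_antisymm h ((Submodule.span_singleton_le_iff_mem _ _).2 h1)))
      · refine Or.inl ((Submodule.eq_bot_iff _).2 fun w hw => ?_)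
        obtain ⟨a, rfl⟩ := Submodule.mem_span_singleton.1 (h hw)
        by_cases ha : a = 0
        · rw [ha, zero_smul]
        · rw [zmod2_ne_zero_iff.1 ha, one_smul] at hw
          exact absurd hw h1
    · exact Or.inr (Or.inr (Or.inl h))
  · obtain ⟨w, hw, hn⟩ := SetLike.not_le_iff_exists.1 hle
    have hev := (InvFam.of_submodule hW).even_of_notMem (mt mem_golayCode_iff.2 hn) ⟨w, hw, rfl⟩
    have hev' : ∀ v : GolayPt → ZMod 2, ∑ p, v p = 0 → v ∈ W := fun v hv =>
      support₂_mem_supports_iff.1 (hev _ ((sum_eq_zero_iff_even v).1 hv))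
    by_cases h : ∀ v ∈ W, ∑ p, v p = 0
    · exact Or.inr (Or.inr (Or.inr (Or.inl (Set.ext fun v => ⟨h v, hev' v⟩))))
    · push Not at h
      obtain ⟨u, hu, hu1⟩ := h
      refine Or.inr (Or.inr (Or.inr (Or.inr (Submodule.eq_top_iff'.2 fun v => ?_))))
      by_cases hv : ∑ p, v p = 0
      · exact hev' v hv
      · have := W.add_mem (hev' (v - u) (by
          simp only [Pi.sub_apply, Finset.sum_sub_distrib, zmod2_ne_zero_iff.1 hv, zmod2_ne_zero_iff.1 hu1,
            sub_self])) hu
        rwa [sub_add_cancel] at this

end Cfsg.Agent.S5548
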