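import Cfsg.Statements.S5549
import Cfsg.Agent.SPOR.GolayLoc

set_option autoImplicit false
open Cfsg

namespace Cfsg.Agent.S5549

open CL CL.K CL.Orb CL.Golay Finset
open scoped Pointwise

/-- number of dodecads meeting `T` evenly -/
noncomputable def cn (T : Finset GolayPt) : ℕ := {s | s ∈ Code ∧ s.card = 12 ∧ (s ∩ T).card % 2 = 0}.ncard

theorem cn_eq {T : Finset GolayPt} (h : T.card ≤ 4) : cn T = 1232 ↔ T.card = 2 := by
  have h1 : ∀ k ≤ 4, (E.setOf (2 ^ k - 1)).card = k := fun k hk => by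
    rw [card_setOf]; revert k; decide +kernel
  obtain ⟨g, hg, e⟩ := exists_smul_eq_of_card_eq ((h1 _ h).trans rfl).symm (by omega)
  have h2 : cn T = cn (g • T) := by
    rw [cn, ← Set.ncard_image_of_injective _ (MulAction.injective g)]
    refine congrArg _ (Set.ext fun s => ?_)
    obtain ⟨s, rfl⟩ := MulAction.surjective g s
    simp [smul_mem_code hg, ← smul_finset_inter]
  rw [h2, e, cn, ncard_code_sep _ (fun k => when (Nat.beq (pc24 (cw k)) 12 &&
    Nat.beq (pc24 (Nat.land (cw k) (2 ^ T.card - 1)) % 2) 0) 1) fun k _ => when_spec (by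
      rw [card_setOf, card_inter_setOf, Bool.and_eq_true, Nat.beq_eq, Nat.beq_eq])]
  generalize T.card = k at h
  revert k
  decide +kernel

theorem cn_eq' (T : Finset GolayPt) : cn T =
    {c : golayCode | (support₂ c.1).card = 12 ∧ ∑ i, c.1 i * indic T i = 0}.ncard := by
  rw [← Set.ncard_image_of_injective _ (support₂_injective.comp Subtype.val_injective)]
  refine congrArg Set.ncard (Set.ext fun s => ⟨fun ⟨⟨c, a, e⟩, b, d⟩ => ⟨⟨c, a⟩, ⟨e ▸ b, ?_⟩, e⟩,
    fun ⟨c, ⟨a, b⟩, e⟩ => e ▸ ⟨⟨c, c.2, rfl⟩, a, ?_⟩⟩)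
  · rwa [dot_eq_card_inter, support₂_indic, ZMod.natCast_eq_zero_iff, e, Nat.dvd_iff_mod_eq_zero]
  · rwa [dot_eq_card_inter, support₂_indic, ZMod.natCast_eq_zero_iff, Nat.dvd_iff_mod_eq_zero] at b

theorem exists_T (φ : golayCode →ₗ[ZMod 2] ZMod 2) :
    ∃ T : Finset GolayPt, T.card ≤ 4 ∧ ∀ c : golayCode, φ c = ∑ i, c.1 i * indic T i := by
  obtain ⟨ψ, h⟩ := φ.exists_extend
  obtain ⟨T, h1, h2⟩ := exists_small_Syn (support₂ fun i => ψ fun j => if i = j then 1 else 0)
  refine ⟨T, h1, fun c => ?_⟩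
  have := dot_eq_zero c.2 (sub_mem_golayCode_iff.2 ((congrArg Syn (support₂_indic T)).trans h2))
  simp only [Pi.sub_apply, mul_sub, sum_sub_distrib, sub_eq_zero] at this
  rw [← this, ← h]
  exact ψ.pi_apply_eq_sum_univ c

theorem whit {α : Type*} [DecidableEq α] {A B C D : Finset α} {p : α} (a : A.card = 2) (b : B.card = 2)
    (c : C.card = 2) (d : D.card = 2) (ab : (A ∩ B).card = 1) (ca : (C ∩ A).card = 1) (cb : (C ∩ B).card = 1)
    (da : (D ∩ A).card = 1) (db : (D ∩ B).card = 1) (dc : (D ∩ C).card = 1) (pa : p ∈ A) (pb : p ∈ B) : p ∈ C := by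
  have k : ∀ {a b c d : α}, a ≠ b → (({a, b} : Finset α) ∩ {c, d}).card = 1 →
      (a = c ∨ a = d ∨ b = c ∨ b = d) ∧ ¬((a = c ∨ a = d) ∧ (b = c ∨ b = d)) := fun {a b c d} h1 h => by
    obtain ⟨z, hz⟩ := card_eq_one.1 h
    have h3 := Finset.ext_iff.1 hz
    have := h3 a
    have := h3 b
    have := h3 z
    simp only [mem_inter, mem_insert, mem_singleton] at *
    grind
  obtain ⟨_, _, a', rfl⟩ := card_eq_two.1 a
  obtain ⟨_, _, b', rfl⟩ := card_eq_two.1 b
  obtain ⟨_, _, c', rfl⟩ := card_eq_two.1 c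
  obtain ⟨_, _, d', rfl⟩ := card_eq_two.1 d
  have := k a' ab
  have := k c' ca
  have := k c' cb
  have := k d' da
  have := k d' db
  have := k d' dc
  simp only [mem_insert, mem_singleton] at pa pb ⊢
  clear k a b c d ab ca cb da db dc
  grind (splits := 30)

/-- Let X be a group of linear automorphisms of the length-24 binary Golay code of the definitions that fix the all-ones word, containing the coordinate-permutation action of every element of the code's automorphism group (the Mathieu group of degree 24), and such that every element of X sends each codeword into its orbit under that Mathieu group up to adding the all-ones word (X has the same orbits as the Mathieu group on the code modulo the all-ones word). Then every element of X agrees, modulo the all-ones word, with the action of a single element of the Mathieu group: X induces exactly the Mathieu group on the code modulo the all-ones word. -/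
theorem result (X : Subgroup (↥Cfsg.golayCode ≃ₗ[ZMod 2] ↥Cfsg.golayCode)) (h1 : ∀ x ∈ X, ∀ e : ↥Cfsg.golayCode, (e : (Cfsg.GolayPt → ZMod 2)) = (fun _ => (1 : ZMod 2)) → x e = e) (hM : ∀ σ ∈ Cfsg.M24, ∃ x ∈ X, ∀ c : ↥Cfsg.golayCode, ((x c : ↥Cfsg.golayCode) : (Cfsg.GolayPt → ZMod 2)) = fun p => (c : (Cfsg.GolayPt → ZMod 2)) (σ.symm p)) (horb : ∀ x ∈ X, ∀ c : ↥Cfsg.golayCode, ∃ σ ∈ Cfsg.M24, ((x c : ↥Cfsg.golayCode) : (Cfsg.GolayPt → ZMod 2)) = (fun p => (c : (Cfsg.GolayPt → ZMod 2)) (σ.symm p)) ∨ ((x c : ↥Cfsg.golayCode) : (Cfsg.GolayPt → ZMod 2)) = (fun p => (c : (Cfsg.GolayPt → ZMod 2)) (σ.symm p)) + fun _ => (1 : ZMod 2)) (x : ↥Cfsg.golayCode ≃ₗ[ZMod 2] ↥Cfsg.golayCode) (hx : x ∈ X) : ∃ σ ∈ Cfsg.M24, ∀ c : ↥Cfsg.golayCode, ((x c : ↥Cfsg.golayCode) : (Cfsg.GolayPt → ZMod 2)) = (fun p => (c : (Cfsg.GolayPt → ZMod 2)) (σ.symm p)) ∨ ((x c : ↥Cfsg.golayCode) : (Cfsg.GolayPt → ZMod 2)) = (fun p => (c : (Cfsg.GolayPt → ZMod 2)) (σ.symm p)) + fun _ => (1 : ZMod 2) :=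 by
  have wt : ∀ c, (support₂ (x c).1).card = 12 ↔ (support₂ c.1).card = 12 := fun c => by
    obtain ⟨σ, -, h⟩ := horb x hx c
    have e : support₂ (fun p => c.1 (σ.symm p)) = σ • support₂ c.1 := by
      ext p; rw [← inv_smul_mem_iff, mem_support₂, mem_support₂]; rfl
    have := card_smul_finset σ (support₂ c.1)
    rcases h with h | h <;> rw [h]
    · rw [e, this]
    · rw [support₂_add, e, show support₂ (fun _ => 1) = univ from support₂_one,
        show symmDiff (σ • support₂ c.1) univ = (σ • support₂ c.1)ᶜ from symmDiff_top _, card_compl, card_pt]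
      omega
  have dp : ∀ a b : GolayPt, a ≠ b → ∀ c : GolayPt → ZMod 2, ∑ i, c i * indic {a, b} i = c a + c b := fun a b h c => by
    simp only [indic, mul_ite, mul_one, mul_zero, sum_ite_mem, univ_inter, sum_pair h]
  have key : ∀ a b, a ≠ b → ∀ T : Finset GolayPt, T.card ≤ 4 →
      (∀ c, (x c).1 a + (x c).1 b = ∑ i, c.1 i * indic T i) → T.card = 2 := fun a b h T h4 e => by
    rw [← cn_eq h4, ← (cn_eq (T := {a, b}) (by rw [card_pair h]; omega)).2 (card_pair h), cn_eq', cn_eq',
      ← Set.ncard_image_of_injective _ x.injective]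
    refine congrArg _ (Set.ext fun c => ?_)
    obtain ⟨c, rfl⟩ := x.surjective c
    rw [x.injective.mem_set_image, Set.mem_ofPred_eq, Set.mem_ofPred_eq, wt, dp a b h, e]
  choose T h4 hT using fun i => exists_T ⟨⟨fun c => (x c).1 none + (x c).1 i, fun a b => by
    rw [map_add]; exact add_add_add_comm _ _ _ _⟩, fun a b => by simp [mul_add]⟩
  replace hT : ∀ i c, (x c).1 none + (x c).1 i = ∑ j, c.1 j * indic (T i) j := hT
  have h2 : ∀ i, (T (some i)).card = 2 := fun i => key _ _ (by simp) _ (h4 _) (hT _)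
  have h3 : ∀ i j, i ≠ j → (T (some i) ∩ T (some j)).card = 1 := fun i j h => by
    have e := card_symmDiff_add (T (some i)) (T (some j))
    rw [h2, h2, key (some i) (some j) (by simpa) _ (by omega) fun c => by
      rw [← support₂_indic (T _), ← support₂_indic (T (some j)), ← support₂_add, indic_support₂]
      simp only [Pi.add_apply, mul_add, sum_add_distrib, ← hT]
      grind] at e
    omega
  obtain ⟨p, hp⟩ := card_pos.1 ((h3 0 1 (by decide)).symm ▸ one_pos)
  replace hp : ∀ i, p ∈ T (some i) := fun i => by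
    obtain ⟨a, b⟩ := mem_inter.1 hp
    by_cases e : i = 0
    · rwa [e]
    by_cases f : i = 1
    · rwa [f]
    obtain ⟨d, d0, d1, d2⟩ : ∃ d, d ≠ 0 ∧ d ≠ 1 ∧ d ≠ i := by revert i; decide
    exact whit (h2 0) (h2 1) (h2 i) (h2 d) (h3 _ _ (by decide)) (h3 _ _ e) (h3 _ _ f) (h3 _ _ d0) (h3 _ _ d1)
      (h3 _ _ d2) a b
  have h5 : ∀ i, ∃ q, p ≠ q ∧ T (some i) = {p, q} := fun i => by
    obtain ⟨a, b, c, d⟩ := card_eq_two.1 (h2 i)
    rcases mem_insert.1 (d ▸ hp i) with e | e
    · exact ⟨b, e ▸ c, e ▸ d⟩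
    · exact ⟨a, mem_singleton.1 e ▸ c.symm, mem_singleton.1 e ▸ d.trans (pair_comm _ _)⟩
  choose t ht et using h5
  let τ : GolayPt → GolayPt := fun i => i.elim p t
  have hτ : Function.Injective τ := by
    rintro (_ | i) (_ | j) e
    · rfl
    · exact absurd e (ht j)
    · exact absurd e.symm (ht i)
    · by_contra h
      have := h3 i j fun a => h (congrArg _ a)
      rw [et, et, show t i = t j from e, inter_self, card_pair (ht j)] at this
      omega
  have h6 : ∀ c : golayCode, (x c).1 = (fun i => c.1 (τ i)) ∨ (x c).1 = (fun i => c.1 (τ i)) + fun _ => 1 :=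
    fun c => by
    have e : ∀ i, (x c).1 i = c.1 (τ i) + ((x c).1 none + c.1 p) := by
      rintro (_ | i)
      · show _ = c.1 p + _
        grind
      · have := hT (some i) c
        rw [et, dp _ _ (ht i)] at this
        show _ = c.1 (t i) + _
        grind
    generalize (x c).1 none + c.1 p = u at e
    revert e
    refine (by decide : ∀ u : ZMod 2, u = 0 ∨ u = 1) u |>.elim (fun a e => .inl ?_) fun a e => .inr ?_ <;>
      exact funext fun i => by simp [e, a]
  refine ⟨(Equiv.ofBijective τ (Finite.injective_iff_bijective.1 hτ)).symm, mem_M24_iff.2 ?_, h6⟩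
  rintro _ ⟨c, hc, rfl⟩
  refine ⟨fun i => c (τ i), ?_, Finset.ext fun i => by rw [← inv_smul_mem_iff, mem_support₂, mem_support₂]; rfl⟩
  rcases h6 ⟨c, hc⟩ with e | e
  · exact e ▸ (x _).2
  · exact eq_sub_iff_add_eq.2 e.symm ▸ sub_mem (x _).2
      (support₂_mem_supports_iff.1 (support₂_one (α := GolayPt) ▸ univ_mem_code :))

end Cfsg.Agent.S5549
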