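import Cfsg.Statements.S5550
import Mathlib
import Cfsg.Agent.SPOR.GolayMod

set_option autoImplicit false
open Cfsg

namespace Cfsg.Agent.S5550

open CL CL.K CL.Orb CL.Enc CL.Golay MulAction
open scoped Pointwise

set_option maxHeartbeats 400000

/-- Let u be a word of the length-24 binary Golay code of the definitions (possibly zero or all-ones) and w any binary word of length 24 outside the code. Then some automorphism of the code (a coordinate permutation preserving it) fixes u but moves w to a word not congruent to w modulo the code: the stabilizer of a codeword fixes no non-zero element of the quotient of the space of all words by the code. -/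
theorem result (u : (Cfsg.GolayPt → ZMod 2)) (hu : u ∈ Cfsg.golayCode) (w : (Cfsg.GolayPt → ZMod 2)) (hw : w ∉ Cfsg.golayCode) : ∃ σ ∈ Cfsg.M24, (fun p => u (σ.symm p)) = u ∧ (fun p => w (σ.symm p)) - w ∉ Cfsg.golayCode := by
  have key : ∀ (n : ℕ) (L : List ℕ), AllI (M24 ⊓ stabilizer (Equiv.Perm GolayPt) (E.setOf n)) L →
      allLt2 (fun s => Nat.beq s 0 || lany (fun P => !Nat.beq (syn (img24 P (s <<< 12))) s) L) 64 64 = true →
      ∀ g ∈ M24, ∀ t ∉ Code, ∃ σ ∈ M24, σ • g • E.setOf n = g • E.setOf n ∧ Syn t ≠ Syn (σ • t) := by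
    intro n L hL H g hg t ht
    obtain ⟨t, rfl⟩ := MulAction.surjective g t
    rw [smul_mem_code hg] at ht
    have hlt : Syn t <<< 12 < 2 ^ 24 := by
      have := Syn_lt t
      rw [Nat.shiftLeft_eq]
      omega
    have e : Syn (E.setOf (Syn t <<< 12)) = Syn t := by rw [Syn_setOf hlt, syn_shiftLeft]
    have h := allLt2_iff.1 H _ (Syn_lt t)
    rw [Bool.or_eq_true, Nat.beq_eq, lany_iff] at h
    rcases h with h | ⟨P, hP, h⟩
    · refine absurd ?_ ht
      have := setOf_mem_of_isCw (syn_eq_zero_iff.1 h)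
      rwa [E.setOf_maskOf] at this
    · obtain ⟨a, ⟨ha, ea⟩, hr⟩ := hL P hP
      rw [Bool.not_eq_true', ← Bool.not_eq_true, Nat.beq_eq, ← Syn_setOf (R.img_lt hr _), R.setOf_img hr,
        (Syn_smul_eq_iff ha).2 e] at h
      refine ⟨g * a * g⁻¹, conj_mem hg ha, ?_, ?_⟩
      · rw [mul_smul, inv_smul_smul, mul_smul, show a • E.setOf n = E.setOf n from ea]
      · rw [mul_smul, inv_smul_smul, mul_smul, Ne, Syn_smul_eq_iff hg]
        exact fun e => h e.symm
  have kO := key O0 gOct gOct_in (by decide +kernel)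
  have kD := key D0 [927295892292645096679487632013623881, 486438670238343750194058373417667654]
    ((AllI.ofM (by decide +kernel)).set D0 (by decide +kernel)) (by decide +kernel)
  rw [mem_golayCode_iff] at hu hw
  have : ∃ σ ∈ M24, σ • support₂ u = support₂ u ∧ Syn (support₂ w) ≠ Syn (σ • support₂ w) := by
    rcases card_of_mem_code hu with e | e | e | e | e
    · obtain ⟨σ, hσ, -, h⟩ := kO 1 M24.one_mem _ hw
      exact ⟨σ, hσ, by rw [Finset.card_eq_zero.1 e, Finset.smul_finset_empty], h⟩
    · obtain ⟨g, hg, e⟩ := exists_smul_octad O0_mem ⟨hu, e⟩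
      exact e ▸ kO g hg _ hw
    · obtain ⟨g, hg, e⟩ := exists_smul_dodecad D0_mem ⟨hu, e⟩
      exact e ▸ kD g hg _ hw
    · obtain ⟨g, hg, e⟩ := exists_smul_octad (o' := (support₂ u)ᶜ) O0_mem
        ⟨compl_mem_code hu, by rw [Finset.card_compl, card_pt, e]⟩
      obtain ⟨σ, hσ, h1, h⟩ := kO g hg _ hw
      rw [e, smul_finset_compl', compl_inj_iff] at h1
      exact ⟨σ, hσ, h1, h⟩
    · obtain ⟨σ, hσ, -, h⟩ := kO 1 M24.one_mem _ hw
      exact ⟨σ, hσ, by rw [Finset.eq_univ_of_card _ (e.trans card_pt.symm), Finset.smul_finset_univ], h⟩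
  obtain ⟨σ, hσ, h1, h2⟩ := this
  exact ⟨σ, hσ, support₂_injective ((support₂_perm σ u).trans h1), by
    rwa [sub_mem_golayCode_iff, support₂_perm]⟩

end Cfsg.Agent.S5550
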