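import Cfsg.Statements.S5553
import Mathlib
import Cfsg.Agent.SPOR.LeechDual

set_option autoImplicit false
open Cfsg

namespace Cfsg.Agent.S5553

open CL.Leech Cfsg

/-- the span of the all-one word -/
def oneSpan : Submodule (ZMod 2) (GolayPt → ZMod 2) := Submodule.span (ZMod 2) {1}

theorem card_oneSpan : Nat.card oneSpan = 2 := by
  rw [Module.natCard_eq_pow_finrank (K := ZMod 2), oneSpan, finrank_span_singleton one_ne_zero]
  simp

theorem index_oneSpan : oneSpan.toAddSubgroup.index = 2 ^ 23 := by
  have h := oneSpan.toAddSubgroup.card_mul_index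
  have h1 : Nat.card oneSpan.toAddSubgroup = 2 := card_oneSpan
  have h2 : Nat.card (GolayPt → ZMod 2) = 2 * 2 ^ 23 := by
    rw [Nat.card_fun, Nat.card_eq_fintype_card (α := GolayPt), card_pt]; simp
  rw [h1, h2] at h
  omega

theorem oneSpan_le : oneSpan ≤ golayCode := by
  rw [oneSpan, Submodule.span_le]
  rintro _ rfl
  exact one_mem_code

theorem mem_oneSpan (c : GolayPt → ℤ) : red c ∈ oneSpan ↔ ∃ m : ℤ, ∀ i, c i % 2 = m % 2 := by
  rw [oneSpan, Submodule.mem_span_singleton]
  constructor
  · rintro ⟨a, ha⟩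
    rcases zmod2_cases a with rfl | rfl
    · refine ⟨0, fun i => ?_⟩
      have := congrFun ha i
      simp only [zero_smul, Pi.zero_apply] at this
      exact (red_apply_eq_zero c i).1 this.symm
    · refine ⟨1, fun i => ?_⟩
      have := congrFun ha i
      simp only [one_smul, Pi.one_apply] at this
      exact (red_apply_ne_zero c i).1 (by rw [← this]; exact one_ne_zero)
  · rintro ⟨m, hm⟩
    refine ⟨(m : ZMod 2), ?_⟩
    rw [red_congr (b := fun _ => m) hm]
    funext i; simp [red]

/-- constant parity vectors -/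
def cA : AddSubgroup (GolayPt → ℤ) := oneSpan.toAddSubgroup.comap redHom

/-- constant parity vectors with sum divisible by four -/
def cB : AddSubgroup (GolayPt → ℤ) where
  carrier := {c | red c ∈ oneSpan ∧ (∑ i, c i) % 4 = 0}
  zero_mem' := ⟨by rw [red_zero]; exact oneSpan.zero_mem, by simp⟩
  add_mem' := by
    rintro a b ⟨ha, ha'⟩ ⟨hb, hb'⟩
    refine ⟨by rw [red_add]; exact oneSpan.add_mem ha hb, ?_⟩
    simp only [Pi.add_apply, Finset.sum_add_distrib]; omega
  neg_mem' := by
    rintro a ⟨ha, ha'⟩
    refine ⟨by rwa [red_neg], ?_⟩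
    simp only [Pi.neg_apply, Finset.sum_neg_distrib]; omega

theorem index_cA : cA.index = 2 ^ 23 := by
  unfold cA
  rw [AddSubgroup.index_comap_of_surjective _ (fun w => ⟨lift w, red_lift w⟩), index_oneSpan]

theorem index_cB : cB.index = 2 ^ 24 := by
  have hle : cB ≤ cA := fun c hc => hc.1
  have h2 : cB.relIndex cA = 2 := by
    rw [AddSubgroup.relIndex_eq_two_iff]
    have hr : red (Pi.single none 2) = 0 := by
      rw [← red_zero]; apply red_congr; intro i
      by_cases h : i = none <;> simp [Pi.single_apply, h]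
    refine ⟨Pi.single none 2, ?_, fun b hb => ?_⟩
    · show red _ ∈ oneSpan
      rw [hr]; exact oneSpan.zero_mem
    · have hb' : red b ∈ oneSpan := hb
      have hs := sum_even_of_red_mem (oneSpan_le hb')
      have e1 : b + Pi.single none 2 ∈ cB ↔ (∑ i, b i + 2) % 4 = 0 := by
        show red _ ∈ oneSpan ∧ _ ↔ _
        rw [red_add, hr, add_zero]
        simp [hb', Finset.sum_add_distrib]
      have e2 : b ∈ cB ↔ (∑ i, b i) % 4 = 0 := by
        show red _ ∈ oneSpan ∧ _ ↔ _
        simp [hb']
      rw [e1, e2]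
      unfold Xor
      omega
  rw [← AddSubgroup.relIndex_mul_index hle, h2, index_cA]; norm_num

/-- The Leech lattice of the definitions has an additive subgroup A containing twice the lattice, of index 2^12 in the lattice, all of whose vectors have squared length divisible by 32: the invariant quadratic form 'squared length over 16 modulo 2' on the lattice modulo twice the lattice (a 24-dimensional space over the field with two elements) vanishes on a 12-dimensional subspace, so it is of plus type. -/
theorem result : ∃ A : AddSubgroup (Cfsg.GolayPt → ℤ), A ≤ Cfsg.leechLattice ∧ (∀ v ∈ Cfsg.leechLattice, (2 : ℤ) • v ∈ A) ∧ (A.addSubgroupOf Cfsg.leechLattice).index = 2 ^ 12 ∧ ∀ v ∈ A, (32 : ℤ) ∣ Cfsg.sqNorm v := by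
  have hle : cB.map (nsmulAddMonoidHom 2) ≤ leechLattice := by
    rintro _ ⟨c, ⟨hc, hs⟩, rfl⟩
    exact (mem_iff _).2 ⟨0, c, fun i => by simp, oneSpan_le hc, by omega⟩
  refine ⟨cB.map (nsmulAddMonoidHom 2), hle, ?_, ?_, ?_⟩
  · intro v hv
    obtain ⟨m, hm, h2, -, hs⟩ := (mem_iff' v).1 hv
    refine ⟨v, ⟨(mem_oneSpan v).2 ⟨m, fun i => by rw [h2]; omega⟩, by omega⟩, ?_⟩
    funext i; simp
  · have h3 := AddSubgroup.relIndex_mul_index hle
    rw [AddSubgroup.index_map_of_injective _ nsmul_two_injective, index_cB, index_nsmul_two,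
      index_eq] at h3
    show (cB.map (nsmulAddMonoidHom 2)).relIndex leechLattice = _
    exact Nat.eq_of_mul_eq_mul_right (by positivity) (h3.trans (by norm_num))
  · rintro _ ⟨c, ⟨hc, hs⟩, rfl⟩
    obtain ⟨m, hm⟩ := (mem_oneSpan c).1 hc
    show (32 : ℤ) ∣ sqNorm (2 • c)
    rw [sqNorm_two_nsmul]
    have hx : ∀ i, c i = m % 2 + 2 * (c i / 2) := fun i => by have := hm i; omega
    rw [sum_param hx] at hs
    rw [sqNorm_param hx]
    have h5 := sum_sq_mod_two (fun i => c i / 2)
    rcases Int.emod_two_eq_zero_or_one m with h | h <;> rw [h] at hs ⊢ <;> omega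

end Cfsg.Agent.S5553
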