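import Cfsg.Statements.S5599
import Mathlib
import Cfsg.Agent.SPOR.GolayRes

set_option autoImplicit false
open scoped Pointwise
open Cfsg

namespace Cfsg.Agent.S5599

open CL CL.K CL.Orb CL.Enc CL.Golay MulAction

/-- In the automorphism group of the length-24 code, the two-point Mathieu group (permutations of the code's group fixing the extra point and the residue 0) has index 2 in the setwise stabiliser of that pair of points, and an element of the code's group interchanging the two points normalises the two-point group and induces on it, by conjugation, an automorphism that is not inner. -/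
theorem result (g : Equiv.Perm Cfsg.GolayPt) (hg : g ∈ Cfsg.M24) (h₁ : g none = some 0) (h₂ : g (some 0) = none) : Cfsg.Spor.M22.relIndex (Cfsg.M24 ⊓ MulAction.stabilizer (Equiv.Perm Cfsg.GolayPt) ({none, some 0} : Finset Cfsg.GolayPt)) = 2 ∧ (∀ x ∈ Cfsg.Spor.M22, g * x * g⁻¹ ∈ Cfsg.Spor.M22) ∧ ¬ ∃ h ∈ Cfsg.Spor.M22, ∀ x ∈ Cfsg.Spor.M22, g * x * g⁻¹ = h * x * h⁻¹ := by
  have hinv : ∀ x ∈ Spor.M22, g * x * g⁻¹ ∈ Spor.M22 := fun x hx => by
    refine ⟨⟨conj_mem hg hx.1.1, ?_⟩, ?_⟩
    · show (g * x * g⁻¹) none = none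
      rw [← h₂, conj_apply, show x (some 0) = some 0 from hx.2]
    · show (g * x * g⁻¹) (some 0) = some 0
      rw [← h₁, conj_apply, show x none = none from hx.1.2]
  refine ⟨?_, hinv, ?_⟩
  · have hle : Spor.M22 ≤ M24 ⊓ stabilizer (Equiv.Perm GolayPt) ({none, some 0} : Finset GolayPt) :=
      fun x hx => ⟨hx.1.1, smul_eq_self_of_fix (by
        simp only [Finset.mem_insert, Finset.mem_singleton, forall_eq_or_imp, forall_eq]
        exact ⟨hx.1.2, hx.2⟩)⟩
    have h := Subgroup.index_mul_card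
      (Spor.M22.subgroupOf (M24 ⊓ stabilizer (Equiv.Perm GolayPt) ({none, some 0} : Finset GolayPt)))
    rw [Nat.card_congr (Subgroup.subgroupOfEquivOfLe hle).toEquiv, card_M22,
      card_stab_small (k := 887040) (by decide) (by decide +kernel)] at h
    exact Nat.eq_of_mul_eq_mul_right (by norm_num : 0 < 443520) (h.trans (by norm_num))
  · rintro ⟨h, hh, e⟩
    have hcomm : ∀ x ∈ Spor.M22, h⁻¹ * g * x = x * (h⁻¹ * g) := fun x hx => by
      calc h⁻¹ * g * x = h⁻¹ * (g * x * g⁻¹) * g := by group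
        _ = x * (h⁻¹ * g) := by rw [e x hx]; group
    have hA := g22_in (lget g22 0) (lget_mem (by decide))
    have hB := g22_in (lget g22 1) (lget_mem (by decide))
    obtain ⟨P, hP, h1⟩ := lvl0.all1 (φ := fun u => u * _ = _ * u ∧ u * _ = _ * u)
      (((Snd.cConj hA.rep hA.rep).mono fun _ h => h.1).cAnd ((Snd.cConj hB.rep hB.rep).mono fun _ h => h.2))
      (p := fun P => !Nat.beq (comp24 P (lget g22 0)) (comp24 (lget g22 0) P) ||
        !Nat.beq (comp24 P (lget g22 1)) (comp24 (lget g22 1) P) || Nat.beq (app24 P 23) 23)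
      (by decide +kernel) (h⁻¹ * g) (M24.mul_mem (M24.inv_mem hh.1.1) hg) (by simp)
      ⟨hcomm _ hA.permOf_mem, hcomm _ hB.permOf_mem⟩
    rw [(hP.comp24_eq_iff hA.rep hA.rep hP).2 (hcomm _ hA.permOf_mem),
      (hP.comp24_eq_iff hB.rep hB.rep hP).2 (hcomm _ hB.permOf_mem), Nat.beq_refl, Nat.beq_refl,
      Bool.not_true, Bool.false_or, Bool.false_or, Nat.beq_eq, app24_eq, hP.fld_eq (by norm_num),
      enc_eq_iff (by norm_num), dec_23, Equiv.Perm.mul_apply, h₁, Equiv.Perm.inv_eq_iff_eq,
      show h none = none from hh.1.2] at h1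
    exact absurd h1 (by decide)

end Cfsg.Agent.S5599
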