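import Cfsg.Statements.S5600
import Mathlib
import Cfsg.Agent.SPOR.GolayRes

set_option autoImplicit false
open scoped Pointwise
open Cfsg

namespace Cfsg.Agent.S5600

open CL CL.K CL.Orb CL.Enc MulAction
open CL.Golay hiding E

/-- Although the group of the length-24 code is only 5-transitive on the 24 points, it induces the full symmetric group on every 6-element subset: every permutation of a 6-set E is the restriction of an element of the group mapping E to itself. The pointwise stabiliser of E has order 16 when E lies in an octad and order 3 otherwise; in the latter case the setwise stabiliser of E has order 2160. -/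
theorem result (E : Finset Cfsg.GolayPt) (hE : E.card = 6) : (∀ σ : Equiv.Perm ↥E, ∃ g ∈ Cfsg.M24, ∀ p : ↥E, g p = σ p) ∧ ((∃ o ∈ Cfsg.octads, E ⊆ o) → Nat.card {g : Equiv.Perm Cfsg.GolayPt // g ∈ Cfsg.M24 ∧ ∀ p ∈ E, g p = p} = 16) ∧ ((¬ ∃ o ∈ Cfsg.octads, E ⊆ o) → Nat.card {g : Equiv.Perm Cfsg.GolayPt // g ∈ Cfsg.M24 ∧ ∀ p ∈ E, g p = p} = 3 ∧ Nat.card ↥(MulAction.stabilizer Cfsg.M24 E) = 2160) := by
  have hF := card_Fix_six hE
  have hS : 720 * Nat.card (Golay.Fix E) ≤ Nat.card ↥(M24 ⊓ stabilizer (Equiv.Perm GolayPt) E) := by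
    rw [hF]
    obtain ⟨g, hg, rfl | rfl⟩ := exists_smul_six hE
    · rw [card_stabilizer_smul hg, inOct_smul hg, inOct_H5]
      exact ((AllI.ofM (L := [220213109803259289183002082616117280, 984202951082164080105044112956360736, 971592882964418941354553515258775584, 228760755363458369175263076247735328, 232810704660132470506646479046794336, 99322065345720262656822591217589409]) (by decide +kernel)).set H5
        (by decide +kernel)).card_ge (B := [(0, 6), (1, 5), (2, 4), (4, 16), (3, 3), (5, 2)]) (by decide +kernel)
    · rw [card_stabilizer_smul hg, inOct_smul hg, inOct_H4]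
      exact ((AllI.ofM (L := [972606645568131968584696805283956768, 195060547441476976679033738498246688, 131972112176651842330290877965142048, 180014644313279119706936946341940256, 111864191458606176235165966692091008, 13532973782731666739192332766906465]) (by decide +kernel)).set H4
        (by decide +kernel)).card_ge (B := [(0, 6), (1, 5), (2, 4), (3, 3), (5, 6)]) (by decide +kernel)
  have hc : Nat.card {g : Equiv.Perm GolayPt // g ∈ M24 ∧ ∀ p ∈ E, g p = p} = Nat.card (Golay.Fix E) :=
    Nat.card_congr (Equiv.subtypeEquivRight fun _ => mem_Fix.symm)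
  refine ⟨fun σ => ?_, fun h => ?_, fun h => ?_⟩
  · obtain ⟨g, rfl⟩ := actHom_surjective (H := M24 ⊓ stabilizer (Equiv.Perm GolayPt) E) (S := E)
      (fun _ h => h.2) (K := Golay.Fix E) (fun _ => mem_Fix_iff_stab) (by rw [hE]; exact hS) σ
    exact ⟨g, g.2.1, fun _ => rfl⟩
  · rw [hc, hF, inOct_iff.2 h]; rfl
  · rw [inOct_eq_false_iff.2 h] at hF
    have h2 := card_le_factorial_mul (H := M24 ⊓ stabilizer (Equiv.Perm GolayPt) E) (S := E)
      (fun _ h => h.2) (K := Golay.Fix E) (fun _ => mem_Fix_iff_stab)
    rw [hE, hF] at h2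
    rw [hF] at hS
    exact ⟨hc.trans hF, (card_stabilizer_eq _ _).trans (le_antisymm h2 hS)⟩

end Cfsg.Agent.S5600
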