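import Cfsg.Statements.S5601
import Mathlib
import Cfsg.Agent.SPOR.GolayClasses

set_option autoImplicit false
open scoped Pointwise
open Cfsg

namespace Cfsg.Agent.S5601

open CL CL.K CL.Orb CL.Enc CL.Golay MulAction

/-- The group of the length-24 code has exactly two conjugacy classes of subgroups of order 3: a subgroup of order 3 fixes either exactly 6 of the 24 points or none of them, both cases occur, and two subgroups of order 3 with the same number of fixed points are conjugate. -/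
theorem result : (∀ X : Subgroup ↥Cfsg.M24, Nat.card X = 3 → {p : Cfsg.GolayPt | ∀ x ∈ X, ((x : ↥Cfsg.M24) : Equiv.Perm Cfsg.GolayPt) p = p}.ncard = 6 ∨ {p : Cfsg.GolayPt | ∀ x ∈ X, ((x : ↥Cfsg.M24) : Equiv.Perm Cfsg.GolayPt) p = p}.ncard = 0) ∧ (∃ X : Subgroup ↥Cfsg.M24, Nat.card X = 3 ∧ {p : Cfsg.GolayPt | ∀ x ∈ X, ((x : ↥Cfsg.M24) : Equiv.Perm Cfsg.GolayPt) p = p}.ncard = 6) ∧ (∃ X : Subgroup ↥Cfsg.M24, Nat.card X = 3 ∧ {p : Cfsg.GolayPt | ∀ x ∈ X, ((x : ↥Cfsg.M24) : Equiv.Perm Cfsg.GolayPt) p = p}.ncard = 0) ∧ ∀ X Y : Subgroup ↥Cfsg.M24, Nat.card X = 3 → Nat.card Y = 3 → {p : Cfsg.GolayPt | ∀ x ∈ X, ((x : ↥Cfsg.M24) : Equiv.Perm Cfsg.GolayPt) p = p}.ncard = {p : Cfsg.GolayPt | ∀ x ∈ Y, ((x : ↥Cfsg.M24) : Equiv.Perm Cfsg.GolayPt) p = p}.ncard → ∃ k : ↥Cfsg.M24, MulAut.conj k • X = Y := by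
  have : Fact (Nat.Prime 3) := ⟨by norm_num⟩
  have gen : ∀ X : Subgroup M24, Nat.card X = 3 → ∃ x : M24, orderOf (x : Equiv.Perm GolayPt) = 3 ∧
      Subgroup.zpowers x = X := fun X hX => by
    obtain ⟨x, hx⟩ := (Subgroup.isCyclic_iff_exists_zpowers_eq_top X).1 (isCyclic_of_prime_card hX)
    exact ⟨x, by rw [Subgroup.orderOf_coe, ← Nat.card_zpowers, hx, hX], hx⟩
  have fx : ∀ x : M24, {p : GolayPt | ∀ y ∈ Subgroup.zpowers x, ((y : M24) : Equiv.Perm GolayPt) p = p}.ncard =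
      (fixS x).card := fun x => by
    rw [← Set.ncard_coe_finset]
    refine congrArg Set.ncard (Set.ext fun p => ?_)
    rw [Finset.mem_coe, mem_fixS]
    refine ⟨fun h => h x (Subgroup.mem_zpowers x), fun h => ?_⟩
    rintro _ ⟨n, rfl⟩
    exact Equiv.Perm.zpow_apply_eq_self_of_apply_eq_self h n
  have cd : ∀ x : M24, orderOf (x : Equiv.Perm GolayPt) = 3 → Nat.card (Subgroup.zpowers x) = 3 :=
    fun x hx => by rw [Nat.card_zpowers, ← Subgroup.orderOf_coe, hx]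
  refine ⟨fun X hX => ?_, ⟨Subgroup.zpowers ⟨_, mem_3A⟩, cd _ orderOf_3A, (fx _).trans card_fixS_3A⟩,
    ⟨Subgroup.zpowers ⟨_, mem_3B⟩, cd _ orderOf_3B, (fx _).trans card_fixS_3B⟩, fun X Y hX hY h => ?_⟩
  · obtain ⟨x, hx, rfl⟩ := gen X hX
    rw [fx]
    exact (ord3_class x.2 hx).imp (fun h => h.card_fixS.trans card_fixS_3A)
      (fun h => h.card_fixS.trans card_fixS_3B)
  · obtain ⟨x, hx, rfl⟩ := gen X hX
    obtain ⟨y, hy, rfl⟩ := gen Y hY
    rw [fx, fx] at h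
    have : ConjTo x y := by
      by_cases h0 : (fixS x).card = 0
      · exact (conjTo_3B x.2 hx h0).symm.trans (conjTo_3B y.2 hy (h ▸ h0))
      · exact (conjTo_3A x.2 hx h0).symm.trans (conjTo_3A y.2 hy (h ▸ h0))
    obtain ⟨k, hk, e⟩ := this
    refine ⟨⟨k, hk⟩, ?_⟩
    exact (MonoidHom.map_zpowers (MulAut.conj (⟨k, hk⟩ : M24)).toMonoidHom x).trans
      (congrArg Subgroup.zpowers (Subtype.ext e))

end Cfsg.Agent.S5601
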