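import Cfsg.Statements.S5602
import Mathlib
import Cfsg.Agent.SPOR.GolayClasses

set_option autoImplicit false
open scoped Pointwise
open Cfsg

namespace Cfsg.Agent.S5602

open CL CL.K CL.Orb CL.Enc CL.Golay MulAction

theorem dod {g : Equiv.Perm GolayPt} {P : ℕ} (hP : R g P) :
    {o | o ∈ dodecads ∧ g • o = o}.ncard =
      sumLt2 (fun k => when (Nat.beq (pc24 (cw k)) 12) (ind (img24 P (cw k)) (cw k))) 64 64 := by
  rw [← ncard_code_sep (fun s => s.card = 12 ∧ g • s = s) _ fun k hk => ?_]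
  · exact congrArg Set.ncard (Set.ext fun s => and_assoc)
  · rw [CL.Golay.card_setOf, ind_eq, ← hP.setOf_img, E.setOf_inj (hP.img_lt _) (cw_lt hk)]
    cases hb : Nat.beq (pc24 (cw k)) 12 with
    | false =>
      have : pc24 (cw k) ≠ 12 := Nat.ne_of_beq_eq_false hb
      exact ⟨fun h => absurd h.1 this, fun _ => rfl⟩
    | true =>
      have e : pc24 (cw k) = 12 := Nat.eq_of_beq_eq_true hb
      exact ⟨fun h => if_pos h.2, fun h => if_neg fun h' => h ⟨e, h'⟩⟩

/-- An element of order 3 of the group of the length-24 code having exactly 6 fixed points maps to themselves exactly 21 octads, exactly 15 trios, exactly 16 sextets and exactly 20 dodecads. -/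
theorem result (g : Equiv.Perm Cfsg.GolayPt) (hg : g ∈ Cfsg.M24) (h₃ : orderOf g = 3) (h₆ : (Finset.univ.filter fun p => g p = p).card = 6) : {o : Finset Cfsg.GolayPt | o ∈ Cfsg.octads ∧ g • o = o}.ncard = 21 ∧ {T : Finset (Finset Cfsg.GolayPt) | T ∈ Cfsg.trios ∧ g • T = T}.ncard = 15 ∧ {S : Finset (Finset Cfsg.GolayPt) | S ∈ Cfsg.sextets ∧ g • S = S}.ncard = 16 ∧ {d : Finset Cfsg.GolayPt | d ∈ Cfsg.dodecads ∧ g • d = d}.ncard = 20 := by
  have hc := conjTo_3A hg h₃ (by rw [fixS, h₆]; norm_num)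
  exact ⟨(hc.ncard_fixed fun _ ha _ => smul_mem_octads ha).trans ((R.ncard_fixed_octads R_3A).trans (by decide +kernel)),
    (hc.ncard_fixed fun _ ha _ => smul_mem_trios ha).trans ((R.ncard_fixed_trios R_3A mem_3A).trans (by decide +kernel)),
    (hc.ncard_fixed fun _ ha _ => smul_mem_sextets ha).trans ((R.ncard_fixed_sextets R_3A mem_3A).trans (by decide +kernel)),
    (hc.ncard_fixed fun _ ha _ => smul_mem_dodecads ha).trans ((dod R_3A).trans (by decide +kernel))⟩

end Cfsg.Agent.S5602
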