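import Cfsg.Statements.S5603
import Mathlib
import Cfsg.Agent.SPOR.GolayClasses

set_option autoImplicit false
open scoped Pointwise
open Cfsg

namespace Cfsg.Agent.S5603

open CL CL.K CL.Orb CL.Enc CL.Golay MulAction

/-- A fixed-point-free element of order 3 of the group of the length-24 code maps to themselves exactly 7 sextets and exactly 15 trios. -/
theorem result (g : Equiv.Perm Cfsg.GolayPt) (hg : g ∈ Cfsg.M24) (h₃ : orderOf g = 3) (h₀ : ∀ p, g p ≠ p) : {S : Finset (Finset Cfsg.GolayPt) | S ∈ Cfsg.sextets ∧ g • S = S}.ncard = 7 ∧ {T : Finset (Finset Cfsg.GolayPt) | T ∈ Cfsg.trios ∧ g • T = T}.ncard = 15 := by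
  have hc := conjTo_3B hg h₃ (card_fixS_eq_zero.2 h₀)
  exact ⟨(hc.ncard_fixed fun _ ha _ => smul_mem_sextets ha).trans ((R.ncard_fixed_sextets R_3B mem_3B).trans (by decide +kernel)),
    (hc.ncard_fixed fun _ ha _ => smul_mem_trios ha).trans ((R.ncard_fixed_trios R_3B mem_3B).trans (by decide +kernel))⟩

end Cfsg.Agent.S5603
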