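import Cfsg.Statements.S5607
import Mathlib
import Cfsg.Agent.SPOR.GolayClasses

set_option autoImplicit false
open scoped Pointwise
open Cfsg

namespace Cfsg.Agent.S5607

open CL CL.K CL.Orb CL.Enc CL.Golay MulAction

/-- For a fixed-point-free involution t of the group of the length-24 code: its centraliser in that group has order 7680, is transitive on the 24 points, and is contained, together with t, in the stabiliser of some sextet. -/
theorem result (t : Equiv.Perm Cfsg.GolayPt) (ht : t ∈ Cfsg.M24) (h₂ : orderOf t = 2) (h₀ : ∀ p, t p ≠ p) : Nat.card {c : Equiv.Perm Cfsg.GolayPt // c ∈ Cfsg.M24 ∧ c * t = t * c} = 7680 ∧ (∀ p q : Cfsg.GolayPt, ∃ c ∈ Cfsg.M24, c * t = t * c ∧ c p = q) ∧ ∃ S ∈ Cfsg.sextets, t • S = S ∧ ∀ c ∈ Cfsg.M24, c * t = t * c → c • S = S := by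
  obtain ⟨k, hk, rfl⟩ := conjTo_2B ht h₂ (card_fixS_eq_zero.2 h₀)
  have hS : grp gC2B ≤ M24 ⊓ stabilizer (Equiv.Perm GolayPt) (sex 8388801) :=
    ((gC2B_in.mono (Cent_le _)).sex le_rfl 8388801 (by decide +kernel)).grp_le
  rw [← Cent_2B_eq.1] at hS
  have htr : orbit (Cent (pm c2B)) (E.dec 0) = Set.univ :=
    ((coded_pt gC2B_in).orbit_eq_of_count (N := 24) (fuel := 25) gC2B_in.mem (by norm_num) (Set.toFinite _)
      (Set.subset_univ _) (by rw [Set.ncard_univ, Nat.card_eq_fintype_card, card_pt]) (by decide +kernel)).1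
  refine ⟨?_, fun p q => ?_, k • sex 8388801, (smul_mem_sextets hk).2 (sex_mem (by decide +kernel)), ?_, ?_⟩
  · exact (Nat.card_congr (Equiv.subtypeEquivRight fun _ => mem_Cent.symm)).trans
      ((ConjTo.card_Cent ⟨k, hk, rfl⟩).trans Cent_2B_eq.2)
  · obtain ⟨a, ha, e⟩ := exists_smul_of_mem_orbit (H := Cent (pm c2B)) (r := E.dec 0) (x := k⁻¹ p) (y := k⁻¹ q)
      (htr ▸ Set.mem_univ _) (htr ▸ Set.mem_univ _)
    have h := mem_Cent.1 ((mem_Cent_conj (g := k * a * k⁻¹) hk).2 (by simpa [mul_assoc] using ha))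
    refine ⟨k * a * k⁻¹, h.1, h.2, ?_⟩
    have e' : a (k⁻¹ p) = k⁻¹ q := e
    rw [Equiv.Perm.mul_apply, Equiv.Perm.mul_apply, e']
    simp
  · have : pm c2B • sex 8388801 = sex 8388801 := (hS (mem_Cent.2 ⟨mem_2B, rfl⟩)).2
    rw [mul_smul, inv_smul_smul, mul_smul, this]
  · intro c hc e
    have : (k⁻¹ * c * k) • sex 8388801 = sex 8388801 := (hS ((mem_Cent_conj hk).1 (mem_Cent.2 ⟨hc, e⟩))).2
    rwa [mul_smul, mul_smul, inv_smul_eq_iff] at this

end Cfsg.Agent.S5607
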