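import Cfsg.Statements.S5608
import Mathlib
import Cfsg.Agent.SPOR.GolayClasses

set_option autoImplicit false
open scoped Pointwise
open Cfsg

namespace Cfsg.Agent.S5608

open CL CL.K CL.Orb CL.Enc CL.Golay MulAction

/-- If an element of order 3 and an involution of the group of the length-24 code commute, then either the element of order 3 has exactly 6 fixed points and the involution exactly 8, or both are fixed-point-free. -/
theorem result (x s : Equiv.Perm Cfsg.GolayPt) (hx : x ∈ Cfsg.M24) (hs : s ∈ Cfsg.M24) (h₃ : orderOf x = 3) (h₂ : orderOf s = 2) (hc : Commute x s) : ((Finset.univ.filter fun p => x p = p).card = 6 ∧ (Finset.univ.filter fun p => s p = p).card = 8) ∨ ((Finset.univ.filter fun p => x p = p).card = 0 ∧ (Finset.univ.filter fun p => s p = p).card = 0) := by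
  have hsq : s * s = 1 := by rw [← pow_two, ← h₂, pow_orderOf_eq_one]
  have hne : s ≠ 1 := by rintro rfl; simp at h₂
  have key : ∀ {t : Equiv.Perm GolayPt} {T n : ℕ}, R t T → ConjTo t x →
      allP24 (PC.cAnd (PC.cConj 5 31 T T) (PC.cInv 5 31)) (fun P => !Nat.beq (comp24 P T) (comp24 T P) ||
        !Nat.beq (comp24 P P) one24 || Nat.beq P one24 || Nat.beq (pc24 (fixM P)) n) lv0 [] one24 = true →
      (fixS s).card = n := by
    intro t T n ht ⟨k, hk, e⟩ H
    have h1 : k⁻¹ * s * k ∈ Cent t := (mem_Cent_conj hk).1 (mem_Cent.2 ⟨hs, e ▸ hc.symm.eq⟩)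
    have h2 : (k⁻¹ * s * k) * (k⁻¹ * s * k) = 1 := by
      calc _ = k⁻¹ * (s * s) * k := by group
        _ = 1 := by rw [hsq]; group
    obtain ⟨P, hP, h⟩ := lvl0.all1 (φ := fun g => g * t = t * g ∧ g * g = 1)
      (((Snd.cConj ht ht).mono fun _ h => h.1).cAnd (Snd.cInv.mono fun _ h => h.2)) H _ (Cent_le _ h1)
      (by simp) ⟨(mem_Cent.1 h1).2, h2⟩
    rw [(hP.comp24_eq_iff ht ht hP).2 (mem_Cent.1 h1).2, (hP.comp24_eq_one_iff hP).2 h2, Nat.beq_refl,
      Nat.beq_refl, Bool.not_true, Bool.false_or, Bool.false_or, Bool.or_eq_true, Nat.beq_eq, Nat.beq_eq,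
      ← hP.card_fixS] at h
    rcases h with rfl | h
    · refine absurd ?_ hne
      calc s = k * (k⁻¹ * s * k) * k⁻¹ := by group
        _ = 1 := by rw [hP.eq_one]; group
    · rw [← h, ← card_fixS_conj k⁻¹ s, inv_inv]
  rcases ord3_class hx h₃ with h | h
  · exact Or.inl ⟨h.card_fixS.trans card_fixS_3A, key R_3A h (by decide +kernel)⟩
  · exact Or.inr ⟨h.card_fixS.trans card_fixS_3B, key R_3B h (by decide +kernel)⟩

end Cfsg.Agent.S5608
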