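import Cfsg.Statements.S5609
import Mathlib
import Cfsg.Agent.SPOR.GolayMod

set_option autoImplicit false
open scoped Pointwise
open Cfsg

namespace Cfsg.Agent.S5609

open CL CL.K CL.Orb CL.Enc CL.Golay MulAction
open scoped Pointwise

set_option maxHeartbeats 400000

/-- In the graph on the 759 octads of the length-24 code in which two octads are adjacent when they are disjoint, the graph is connected (of diameter 3) and two distinct octads are at distance 1, 2 or 3 exactly when they meet in 0, 4 or 2 points respectively. -/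
theorem result (o o' : Finset Cfsg.GolayPt) (ho : o ∈ Cfsg.octads) (ho' : o' ∈ Cfsg.octads) (hne : o ≠ o') : (Cfsg.blockGraph Cfsg.octads).Connected ∧ ((Cfsg.blockGraph Cfsg.octads).dist ⟨o, ho⟩ ⟨o', ho'⟩ = 1 ↔ (o ∩ o').card = 0) ∧ ((Cfsg.blockGraph Cfsg.octads).dist ⟨o, ho⟩ ⟨o', ho'⟩ = 2 ↔ (o ∩ o').card = 4) ∧ ((Cfsg.blockGraph Cfsg.octads).dist ⟨o, ho⟩ ⟨o', ho'⟩ = 3 ↔ (o ∩ o').card = 2) := by
  have adj : ∀ a b : ↥octads, (blockGraph octads).Adj a b ↔ ((a : Finset GolayPt) ∩ b).card = 0 := by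
    intro a b
    rw [blockGraph, SimpleGraph.fromRel_adj, Finset.card_eq_zero, ← Finset.disjoint_iff_inter_eq_empty]
    exact ⟨fun h => h.2.elim id fun h => h.symm,
      fun h => ⟨fun e => ne_of_disjoint_octads a.2 h (congrArg _ e), Or.inl h⟩⟩
  have z : ∀ (g : Equiv.Perm GolayPt) (a b : ℕ), pc24 (Nat.land a b) = 0 →
      (g • E.setOf a ∩ g • E.setOf b).card = 0 := fun g a b h => by rwa [card_inter_smul, card_inter_setOf]
  have u4 : ∀ a ∈ octads, ∀ b ∈ octads, (a ∩ b).card = 4 →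
      ∃ c ∈ octads, (a ∩ c).card = 0 ∧ (c ∩ b).card = 0 := by
    intro a ha b hb h
    obtain ⟨g, hg, e1, e2⟩ := exists_map_octad_pair O0_mem (setOf_mem_of_isOct (n := 5279) (by decide +kernel))
      ha hb (((card_inter_setOf _ _).trans (by decide +kernel)).trans h.symm)
    rw [← e1, ← e2]
    exact ⟨g • E.setOf 4038912, (smul_mem_octads hg).2 (setOf_mem_of_isOct (by decide +kernel)),
      z g O0 4038912 (by decide +kernel), z g 4038912 5279 (by decide +kernel)⟩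
  have u2 : ∀ a ∈ octads, ∀ b ∈ octads, (a ∩ b).card = 2 →
      ∃ c ∈ octads, ∃ d ∈ octads, (a ∩ c).card = 0 ∧ (c ∩ d).card = 0 ∧ (d ∩ b).card = 0 := by
    intro a ha b hb h
    obtain ⟨g, hg, e1, e2⟩ := exists_map_octad_pair O0_mem (setOf_mem_of_isOct (n := 15777) (by decide +kernel))
      ha hb (((card_inter_setOf _ _).trans (by decide +kernel)).trans h.symm)
    rw [← e1, ← e2]
    exact ⟨g • E.setOf 5780352, (smul_mem_octads hg).2 (setOf_mem_of_isOct (by decide +kernel)),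
      g • E.setOf 2605066, (smul_mem_octads hg).2 (setOf_mem_of_isOct (by decide +kernel)),
      z g O0 5780352 (by decide +kernel), z g 5780352 2605066 (by decide +kernel), z g 2605066 15777 (by decide +kernel)⟩
  have w4 : ∀ a b : ↥octads, ((a : Finset GolayPt) ∩ b).card = 4 →
      ∃ w : (blockGraph octads).Walk a b, w.length = 2 := by
    intro a b h
    obtain ⟨c, hc, h1, h2⟩ := u4 _ a.2 _ b.2 h
    exact ⟨.cons ((adj a ⟨c, hc⟩).2 h1) (.cons ((adj ⟨c, hc⟩ b).2 h2) .nil), rfl⟩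
  have w2 : ∀ a b : ↥octads, ((a : Finset GolayPt) ∩ b).card = 2 →
      ∃ w : (blockGraph octads).Walk a b, w.length = 3 := by
    intro a b h
    obtain ⟨c, hc, d, hd, h1, h2, h3⟩ := u2 _ a.2 _ b.2 h
    exact ⟨.cons ((adj a ⟨c, hc⟩).2 h1) (.cons ((adj ⟨c, hc⟩ ⟨d, hd⟩).2 h2) (.cons ((adj ⟨d, hd⟩ b).2 h3) .nil)), rfl⟩
  have hconn : (blockGraph octads).Connected := by
    have : Nonempty ↥octads := ⟨⟨o, ho⟩⟩
    refine ⟨fun a b => ?_⟩
    by_cases e : a = b
    · exact e ▸ SimpleGraph.Reachable.refl a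
    rcases card_inter_octads a.2 b.2 (fun h => e (Subtype.ext h)) with h | h | h
    · exact ((adj _ _).2 h).reachable
    · exact ⟨(w2 _ _ h).choose⟩
    · exact ⟨(w4 _ _ h).choose⟩
  have hpos : 0 < (blockGraph octads).dist ⟨o, ho⟩ ⟨o', ho'⟩ :=
    hconn.pos_dist_of_ne fun h => hne (congrArg Subtype.val h)
  have h1 : (blockGraph octads).dist ⟨o, ho⟩ ⟨o', ho'⟩ = 1 ↔ (o ∩ o').card = 0 :=
    SimpleGraph.dist_eq_one_iff_adj.trans (adj _ _)
  have h4 : (o ∩ o').card = 4 → (blockGraph octads).dist ⟨o, ho⟩ ⟨o', ho'⟩ ≤ 2 := fun h => by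
    obtain ⟨w, hw⟩ := w4 ⟨o, ho⟩ ⟨o', ho'⟩ h
    exact hw ▸ SimpleGraph.dist_le w
  have h2 : (o ∩ o').card = 2 → (blockGraph octads).dist ⟨o, ho⟩ ⟨o', ho'⟩ ≤ 3 := fun h => by
    obtain ⟨w, hw⟩ := w2 ⟨o, ho⟩ ⟨o', ho'⟩ h
    exact hw ▸ SimpleGraph.dist_le w
  have h3 : (o ∩ o').card = 2 → (blockGraph octads).dist ⟨o, ho⟩ ⟨o', ho'⟩ ≠ 2 := fun h e => by
    obtain ⟨w, hw⟩ := hconn.exists_walk_length_eq_dist ⟨o, ho⟩ ⟨o', ho'⟩
    rw [e] at hw
    have a1 := (adj _ _).1 (w.adj_getVert_succ (i := 0) (by omega))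
    have a2 := (adj _ _).1 (w.adj_getVert_succ (i := 1) (by omega))
    rw [w.getVert_zero] at a1
    rw [show 1 + 1 = w.length from hw.symm, w.getVert_length] at a2
    rw [Finset.card_eq_zero, ← Finset.disjoint_iff_inter_eq_empty] at a1 a2
    rw [zero_add] at a1
    generalize w.getVert 1 = c at a1 a2
    obtain ⟨c, hc⟩ := c
    have hd : Disjoint (symmDiff o o') c :=
      (Finset.disjoint_union_left.2 ⟨a1, a2.symm⟩).mono_left symmDiff_le_sup
    have k1 := card_of_mem_code (symmDiff_mem_code (symmDiff_mem_code ho.1 ho'.1) hc.1)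
    have k2 := card_symmDiff_add o o'
    rw [hd.symmDiff_eq_sup, Finset.sup_eq_union, Finset.card_union_of_disjoint hd, hc.2] at k1
    rw [ho.2, ho'.2, h] at k2
    omega
  have := card_inter_octads ho ho' hne
  exact ⟨hconn, h1, by omega, by omega⟩

end Cfsg.Agent.S5609
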