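import Cfsg.Statements.S5614
import Mathlib
import Cfsg.Agent.SPOR.GolayRes
import Cfsg.Agent.S5613

set_option autoImplicit false
open scoped Pointwise
open Cfsg

namespace Cfsg.Agent.S5614

open CL CL.K CL.Orb CL.Enc CL.Golay MulAction

/-- In the group of the length-24 code, the joint stabiliser of two octads meeting in exactly two points is isomorphic to the symmetric group of degree 6. -/
theorem result (o o' : Finset Cfsg.GolayPt) (ho : o ∈ Cfsg.octads) (ho' : o' ∈ Cfsg.octads) (h₂ : (o ∩ o').card = 2) : Nonempty (↥(MulAction.stabilizer Cfsg.M24 o ⊓ MulAction.stabilizer Cfsg.M24 o') ≃* Equiv.Perm (Fin 6)) := by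
  have hcd := (Cfsg.Agent.S5613.result o o' ho ho').2.2 h₂
  let H := M24 ⊓ stabilizer (Equiv.Perm GolayPt) o ⊓ stabilizer (Equiv.Perm GolayPt) o'
  have hH : ∀ g ∈ H, g • (o \ o') = o \ o' := fun g hg => by
    rw [Finset.smul_finset_sdiff, show g • o = o from hg.1.2, show g • o' = o' from hg.2]
  have hcard : (o \ o').card = 6 := by
    have := Finset.card_sdiff_add_card_inter o o'
    rw [ho.2, h₂] at this
    omega
  have hinj : ∀ g ∈ M24, (∀ p ∈ o \ o', g p = p) → g • o' = o' → g = 1 := by
    obtain ⟨c, hc, rfl, rfl⟩ := exists_map_octad_pair O0_mem (setOf_mem_of_isOct (n := 252432) (by decide +kernel))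
      ho ho' (((card_inter_setOf _ _).trans (by decide +kernel)).trans h₂.symm)
    intro g hg h1 h2
    rw [← Finset.smul_finset_sdiff, fix_smul_iff] at h1
    have h3 : (c⁻¹ * g * c) • E.setOf 252432 = E.setOf 252432 := (mem_stabilizer_smul_iff c g _).1 h2
    obtain ⟨P, hP, h⟩ := lvl6.all1 (Snd.cTrue fun _ => True)
      (p := fun P => !Nat.beq (img24 P 252432) 252432 || Nat.beq P one24)
      (by decide +kernel) _ ((mem_conj_iff hc g).2 hg) (fun j hj => h1 _ (by revert j; decide +kernel)) trivial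
    rw [← hP.setOf_img, E.setOf_inj (hP.img_lt _) (by norm_num)] at h3
    rw [h3, Nat.beq_refl, Bool.not_true, Bool.false_or, Nat.beq_eq] at h
    subst h
    calc g = c * (c⁻¹ * g * c) * c⁻¹ := by group
      _ = 1 := by rw [hP.eq_one]; group
  let f : ↥(stabilizer M24 o ⊓ stabilizer M24 o') →* Equiv.Perm ↥(o \ o') :=
    (actHom H _ hH).comp ((M24.subtype.comp (Subgroup.subtype _)).codRestrict H
      fun x => ⟨⟨x.1.2, x.2.1⟩, x.2.2⟩)
  have hf : Function.Injective f := (injective_iff_map_eq_one f).2 fun g hg =>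
    Subtype.ext (Subtype.ext (hinj _ g.1.2 ((mem_ker_actHom hH).1 hg) g.2.2))
  have hb : Function.Bijective f := (Nat.bijective_iff_injective_and_card f).2
    ⟨hf, by rw [hcd, card_perm_finset, hcard]; rfl⟩
  exact ⟨(MulEquiv.ofBijective f hb).trans (Equiv.permCongrHom (Finset.equivFinOfCardEq hcard))⟩

end Cfsg.Agent.S5614
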