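import Cfsg.Statements.S5615
import Mathlib
import Cfsg.Agent.SPOR.GolayLoc

set_option autoImplicit false
open scoped Pointwise
open Cfsg

namespace Cfsg.Agent.S5615

open CL CL.K CL.Orb CL.Enc CL.Golay MulAction

set_option maxHeartbeats 400000

theorem gens_in : AllI (M24 ⊓ stabilizer (Equiv.Perm GolayPt) (E.setOf O0, E.setOf 337856))
    [28049760517327540172050355087522533, 607071700218496678662697108781110817] :=
  (((AllI.ofM (by decide +kernel)).set O0 (by decide +kernel)).set 337856 (by decide +kernel)).stab2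

theorem key {g : Equiv.Perm GolayPt} (hg : g ∈ M24) (b : ℕ × ℕ) (n : ℕ)
    (hb : List.filter (fun v => decide (v.1 = b)) [((0, 8), 1), ((0, 0), 1), ((8, 0), 1), ((4, 4), 28), ((0, 4), 28), ((4, 0), 28), ((4, 2), 224), ((2, 4), 224), ((2, 2), 224)] = [(b, n)]) :
    Fib (M24 ⊓ stabilizer (Equiv.Perm GolayPt) (g • (E.setOf O0, E.setOf 337856))) octads
      ((fun (x : Finset GolayPt × Finset GolayPt) y => ((x.1 ∩ y).card, (x.2 ∩ y).card))
        (g • (E.setOf O0, E.setOf 337856))) b n :=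
  (decomp_oct gens_in.toGrp rfl gens_in.le_M24 (reps := [(337856, 1), (7903248, 1), (8536111, 1), (18147, 28), (628112, 28), (692282, 28), (5279, 224), (15777, 224), (39257, 224)]) (by decide +kernel)
    (by decide +kernel) (by decide +kernel)).fib gens_in.grp_le (fun _ ha _ => smul_mem_octads ha)
    (fun (x : Finset GolayPt × Finset GolayPt) y => ((x.1 ∩ y).card, (x.2 ∩ y).card))
    (fun a _ x y => by simp only [Prod.smul_fst, Prod.smul_snd, card_inter_smul])
    (fun c => (pc24 (Nat.land O0 c), pc24 (Nat.land 337856 c)))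
    (fun c => by rw [card_inter_setOf, card_inter_setOf]) (by decide +kernel) hg b n hb

/-- An octad of the length-24 code lies in exactly 15 trios; the stabiliser of the octad in the code's group acts doubly transitively on these 15 trios, and the kernel of this action is the pointwise stabiliser of the octad. -/
theorem result (o : Finset Cfsg.GolayPt) (ho : o ∈ Cfsg.octads) : {T : Finset (Finset Cfsg.GolayPt) | T ∈ Cfsg.trios ∧ o ∈ T}.ncard = 15 ∧ (∀ T₁ T₂ T₁' T₂' : Finset (Finset Cfsg.GolayPt), T₁ ∈ Cfsg.trios → T₂ ∈ Cfsg.trios → T₁' ∈ Cfsg.trios → T₂' ∈ Cfsg.trios → o ∈ T₁ → o ∈ T₂ → o ∈ T₁' → o ∈ T₂' → T₁ ≠ T₂ → T₁' ≠ T₂' → ∃ g ∈ Cfsg.M24, g • o = o ∧ g • T₁ = T₁' ∧ g • T₂ = T₂') ∧ ∀ g ∈ Cfsg.M24, g • o = o → ((∀ T ∈ Cfsg.trios, o ∈ T → g • T = T) ↔ ∀ p ∈ o, g p = p) := by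
  have hfix : ∀ g ∈ Golay.Fix o, ∀ T ∈ trios, o ∈ T → g • T = T := by
    intro g hg T hT hoT
    obtain ⟨a, ha, hne⟩ := Finset.exists_mem_ne (show 1 < T.card by rw [hT.1]; norm_num) o
    obtain ⟨c, hc, e1, e2⟩ := exists_map_octad_pair O0_mem (setOf_mem_of_isOct (n := 337856) (by decide +kernel))
      ho (hT.2.1 a ha) (((card_inter_setOf _ _).trans (by decide +kernel)).trans
        (Finset.card_eq_zero.2 (Finset.disjoint_iff_inter_eq_empty.1 (hT.2.2 o hoT a ha hne.symm))).symm)
    have e3 : T = c • tri Tr0 := by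
      rw [eq_trioOf hT hoT ha hne.symm, ← e1, ← e2, ← smul_trioOf]
      rfl
    rw [← e1, mem_Fix_smul hc, Fix_O0_eq, Fix_eq_fixP (prev := [5, 3, 2, 1, 0, 23]) (by decide +kernel),
      mem_fixP] at hg
    obtain ⟨P, hP, h⟩ := lvl6.all1 (Snd.cTrue fun _ => True)
      (p := fun P => Nat.beq (triHash (triImg P Tr0)) (triHash Tr0)) (by decide +kernel) _ hg.1 hg.2 trivial
    rw [Nat.beq_eq, ← hP.smul_tri_eq_iff hg.1 isTri_Tr0] at h
    rw [e3]
    exact (mem_stabilizer_smul_iff c g _).2 h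
  refine ⟨?_, fun T₁ T₂ T₁' T₂' h1 h2 h1' h2' o1 o2 o1' o2' hne hne' => ?_, fun g hg hgo => ⟨fun h => ?_,
    fun h => hfix g (mem_Fix.2 ⟨hg, h⟩)⟩⟩
  · obtain ⟨g, hg, rfl⟩ := exists_smul_octad O0_mem ho
    rw [ncard_sep_smul g (p := fun T => T ∈ trios ∧ E.setOf O0 ∈ T) fun T => by
      rw [smul_mem_trios hg, Finset.smul_mem_smul_finset_iff], triTab_table.ncard_sep _
      (fun c => when (Nat.beq O0 (tA c) || Nat.beq O0 (tB c) || Nat.beq O0 (tC c)) 1) fun c _ => when_spec (by
        rw [tri_eq, Finset.mem_insert, Finset.mem_insert, Finset.mem_singleton,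
          E.setOf_inj (by decide) (tA_lt c), E.setOf_inj (by decide) (tB_lt c), E.setOf_inj (by decide) (tC_lt c),
          Bool.or_eq_true, Bool.or_eq_true, Nat.beq_eq, Nat.beq_eq, Nat.beq_eq, or_assoc])]
    decide +kernel
  · have pick : ∀ T ∈ trios, o ∈ T → ∃ a ∈ octads, a ∈ T ∧ Disjoint o a ∧ T = trioOf o a := fun T hT hoT => by
      obtain ⟨a, ha, hne⟩ := Finset.exists_mem_ne (show 1 < T.card by rw [hT.1]; norm_num) o
      exact ⟨a, hT.2.1 a ha, ha, hT.2.2 o hoT a ha hne.symm, eq_trioOf hT hoT ha hne.symm⟩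
    have four : ∀ a ∈ octads, ∀ b ∈ octads, Disjoint o a → Disjoint o b → trioOf o a ≠ trioOf o b →
        (a ∩ b).card = 4 := fun a ha b hb da db hne => by
      have h2 := card_inter_ne_two ho ha hb da.symm db.symm
      rcases card_inter_octads ha hb (fun e => hne (e ▸ rfl)) with h | h | h
      · refine absurd ?_ hne
        have : b = (o ∪ a)ᶜ := Finset.eq_of_subset_of_card_le (Finset.subset_compl_iff_disjoint_left.2
          (Finset.disjoint_union_left.2 ⟨db, Finset.disjoint_iff_inter_eq_empty.2 (Finset.card_eq_zero.1 h)⟩))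
          (by rw [(compl_union_mem_octads ho ha da).2, hb.2])
        exact eq_trioOf (trioOf_mem ho ha da) (by simp [trioOf]) (by simp [trioOf, this]) (ne_of_disjoint_octads ho db)
      · exact absurd h h2
      · exact h
    obtain ⟨a, ha, -, da, rfl⟩ := pick _ h1 o1
    obtain ⟨b, hb, -, db, rfl⟩ := pick _ h2 o2
    obtain ⟨a', ha', -, da', rfl⟩ := pick _ h1' o1'
    obtain ⟨b', hb', -, db', rfl⟩ := pick _ h2' o2'
    have z : ∀ {x}, Disjoint o x → (o ∩ x).card = 0 := fun h =>
      Finset.card_eq_zero.2 (Finset.disjoint_iff_inter_eq_empty.1 h)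
    obtain ⟨g, hg, e1, rfl⟩ := exists_smul_octad_pair ho ha ha' ((z da).trans (z da').symm)
    obtain ⟨c, hc, e2, e3⟩ := exists_map_octad_pair O0_mem (setOf_mem_of_isOct (n := 337856) (by decide +kernel))
      ho ha' (((card_inter_setOf _ _).trans (by decide +kernel)).trans (z da').symm)
    have K := key hc (0, 4) 28 (by decide)
    rw [Prod.smul_mk, e2, e3] at K
    obtain ⟨k, ⟨hk, e4⟩, e5⟩ := K.2 (g • b) ((smul_mem_octads hg).2 hb) b' hb'
      (Prod.ext (by rw [← z db, ← card_inter_smul g o b, e1]) ((card_inter_smul g a b).trans (four a ha b hb da db hne)))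
      (Prod.ext (z db') (four _ ha' b' hb' da' db' hne'))
    have e6 : k • o = o := congrArg Prod.fst e4
    have e7 : k • g • a = g • a := congrArg Prod.snd e4
    exact ⟨k * g, M24.mul_mem hk hg, by rw [mul_smul, e1, e6], by rw [smul_trioOf, mul_smul, mul_smul, e1, e6, e7],
      by rw [smul_trioOf, mul_smul, mul_smul, e1, e6, e5]⟩
  · obtain ⟨p, -, hp⟩ := Finset.exists_mem_notMem_of_card_lt_card (s := o) (t := Finset.univ)
      (by rw [Finset.card_univ, card_pt, ho.2]; norm_num)
    have : g p ∈ orbit (Golay.Fix o) p := by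
      rw [orbit_Fix_octad ho hp]
      exact Finset.mem_coe.2 (Finset.mem_compl.2 (apply_notMem_of_smul_eq hgo hp))
    obtain ⟨⟨n, hn⟩, e⟩ := this
    have e' : n p = g p := e
    have hu : n⁻¹ * g ∈ M24 := M24.mul_mem (M24.inv_mem (Fix_le _ hn)) hg
    have hup : (n⁻¹ * g) p = p := by rw [Equiv.Perm.mul_apply, ← e']; simp
    have hua : ∀ a ∈ octads, Disjoint o a → p ∈ a → (n⁻¹ * g) • a = a := fun a ha da hpa => by
      have hT := trioOf_mem ho ha da
      have hoT : o ∈ trioOf o a := by simp [trioOf]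
      have haT : a ∈ trioOf o a := by simp [trioOf]
      have e1 : (n⁻¹ * g) • trioOf o a = trioOf o a := by
        rw [mul_smul, h _ hT hoT, hfix _ (Subgroup.inv_mem _ hn) _ hT hoT]
      by_contra hne
      exact Finset.disjoint_left.1 (hT.2.2 _ (e1.le (Finset.smul_mem_smul_finset haT)) _ haT hne)
        (by have := (mem_smul_iff (n⁻¹ * g) p a).2 hpa; rwa [Equiv.Perm.smul_def, hup] at this) hpa
    obtain ⟨c, hc, ec⟩ := exists_map_flag (p := none) (p' := p) (setOf_mem_of_isOct (n := 84464) (by decide +kernel)) ho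
      (iff_of_false (by decide +kernel) hp)
    obtain ⟨rfl, rfl⟩ : c • none = p ∧ c • E.setOf 84464 = o := Prod.ext_iff.1 ec
    have hL : ∀ X ∈ [9347075, 13938692, 14716939, 12325377], (c⁻¹ * (n⁻¹ * g) * c) • E.setOf X = E.setOf X := fun X hX => by
      have : isOct X = true ∧ Disjoint (E.setOf 84464) (E.setOf X) ∧ none ∈ E.setOf X := by
        revert X; decide +kernel
      exact (mem_stabilizer_smul_iff c _ _).1 (hua _ ((smul_mem_octads hc).2 (setOf_mem_of_isOct this.1))
        ((disjoint_smul_iff c).2 this.2.1) ((mem_smul_iff c _ _).2 this.2.2))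
    obtain ⟨P, hP, h1⟩ := lvl1.all1 (sn_cSets [9347075, 13938692, 14716939, 12325377])
      (p := fun P => !fixSets [9347075, 13938692, 14716939, 12325377] P || Nat.beq P one24) (by decide +kernel) _
      ((mem_conj_iff hc _).2 hu) (by
        simp only [List.mem_singleton, forall_eq, dec_23]
        exact (mem_stabilizer_smul_iff c (n⁻¹ * g) (none : GolayPt)).1 (mem_stabilizer_iff.2 hup)) hL
    rw [(hP.fixSets_iff (by decide)).2 hL, Bool.not_true, Bool.false_or, Nat.beq_eq] at h1
    subst h1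
    have e2 : g = n := by
      calc g = n * c * (c⁻¹ * (n⁻¹ * g) * c) * c⁻¹ := by group
        _ = n := by rw [hP.eq_one]; group
    exact e2 ▸ (mem_Fix.1 hn).2

end Cfsg.Agent.S5615
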