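import Cfsg.Statements.S5616
import Mathlib
import Cfsg.Agent.SPOR.GolayFib
import Cfsg.Agent.SPOR.GolayCoset

set_option autoImplicit false
open scoped Pointwise
open Cfsg

namespace Cfsg.Agent.S5616

open CL.K CL.Orb CL.Enc CL.Golay MulAction

theorem aux (y m : ℕ) : ((E.setOf m).card = 4 ∧ (E.setOf m ∩ E.setOf y).Nonempty →
      when (Nat.beq (pc24 m) 4) (1 - ind (pc24 (Nat.land m y)) 0) = 1) ∧
    (¬ ((E.setOf m).card = 4 ∧ (E.setOf m ∩ E.setOf y).Nonempty) →
      when (Nat.beq (pc24 m) 4) (1 - ind (pc24 (Nat.land m y)) 0) = 0) := by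
  rw [CL.Golay.card_setOf, ← Finset.card_pos, card_inter_setOf, ind_eq]
  generalize pc24 (Nat.land m y) = a
  generalize pc24 m = b
  cases hb : Nat.beq b 4 with
  | false =>
    have : b ≠ 4 := Nat.ne_of_beq_eq_false hb
    simp [when_false, this]
  | true =>
    have e : b = 4 := Nat.eq_of_beq_eq_true hb
    rw [when_true]
    split_ifs with h <;> simp [e, h, Nat.pos_iff_ne_zero]

theorem card_meet (y c : ℕ) : ((sex c).filter fun t => (t ∩ E.setOf y).Nonempty).card =
    sumLt2 (fun k => when (Nat.beq (pc24 (c ^^^ cw k)) 4)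
      (1 - ind (pc24 (Nat.land (c ^^^ cw k) y)) 0)) 64 64 := by
  rw [← ncard_coset_sep c (fun t => t.card = 4 ∧ (t ∩ E.setOf y).Nonempty) _ fun k _ => aux y _,
    ← Set.ncard_coe_finset]
  refine congrArg Set.ncard (Set.ext fun t => ?_)
  rw [Finset.mem_coe, Finset.mem_filter, sex, mem_sextetOf, Set.mem_ofPred_eq, ← Syn_eq_iff]
  exact ⟨fun h => ⟨h.1.2.symm, h.1.1, h.2⟩, fun h => ⟨⟨h.2.1, h.1.symm⟩, h.2.2⟩⟩

theorem card_meet_smul (a : Equiv.Perm GolayPt) (Y : Finset GolayPt) (S : Finset (Finset GolayPt)) :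
    ((a • S).filter fun t => (t ∩ a • Y).Nonempty).card = (S.filter fun t => (t ∩ Y).Nonempty).card := by
  rw [← Finset.card_smul_finset a (S.filter _)]
  congr 1
  ext t
  obtain ⟨t, rfl⟩ := MulAction.surjective a t
  rw [Finset.smul_mem_smul_finset_iff, Finset.mem_filter, Finset.mem_filter,
    Finset.smul_mem_smul_finset_iff, ← Finset.smul_finset_inter, Finset.smul_finset_nonempty]

/-- Let Y be a set of 3 of the 24 points. The sextets of the length-24 code whose tetrads meeting Y number 1, 2 or 3 are respectively 21, 630 and 1120 in number, and two sextets with the same number of tetrads meeting Y are conjugate under the setwise stabiliser of Y in the code's group. -/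
theorem result (Y : Finset Cfsg.GolayPt) (hY : Y.card = 3) : {S : Finset (Finset Cfsg.GolayPt) | S ∈ Cfsg.sextets ∧ (S.filter fun t => (t ∩ Y).Nonempty).card = 1}.ncard = 21 ∧ {S : Finset (Finset Cfsg.GolayPt) | S ∈ Cfsg.sextets ∧ (S.filter fun t => (t ∩ Y).Nonempty).card = 2}.ncard = 630 ∧ {S : Finset (Finset Cfsg.GolayPt) | S ∈ Cfsg.sextets ∧ (S.filter fun t => (t ∩ Y).Nonempty).card = 3}.ncard = 1120 ∧ ∀ S S' : Finset (Finset Cfsg.GolayPt), S ∈ Cfsg.sextets → S' ∈ Cfsg.sextets → (S.filter fun t => (t ∩ Y).Nonempty).card = (S'.filter fun t => (t ∩ Y).Nonempty).card → ∃ g ∈ Cfsg.M24, g • Y = Y ∧ g • S = S' := by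
  obtain ⟨g, hg, rfl⟩ := exists_smul_eq_of_card_eq (card_D3.trans hY.symm) (by rw [card_D3]; norm_num)
  have D := decomp_sex gTriad_in stab_triad_eq inf_le_left (reps := [(8912899, 21), (8389377, 630), (2361345, 1120)])
    (by decide +kernel) (by decide +kernel) (by decide +kernel)
  have K := D.fib le_rfl (fun _ ha _ => smul_mem_sextets ha)
    (fun Y S => (S.filter fun t => (t ∩ Y).Nonempty).card) (fun a _ => card_meet_smul a) _
    (card_meet D3) (V := [(1, 21), (2, 630), (3, 1120)]) (by decide +kernel) hg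
  generalize g • E.setOf D3 = Y at *
  have k1 := K 1 21 (by decide)
  have k2 := K 2 630 (by decide)
  have k3 := K 3 1120 (by decide)
  refine ⟨k1.1, k2.1, k3.1, fun S S' hS hS' h => ?_⟩
  have : ∃ a ∈ M24 ⊓ stabilizer (Equiv.Perm GolayPt) Y, a • S = S' := by
    have h1 : (S'.filter fun t => (t ∩ Y).Nonempty).card ≤ 3 := by
      rw [← hY]
      refine Finset.card_le_card_of_surjOn (fun p => if h : ∃ t ∈ S', p ∈ t then h.choose else ∅) ?_
      intro t ht
      simp only [Finset.coe_filter, Set.mem_ofPred_eq] at ht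
      obtain ⟨ht, p, hp⟩ := ht
      rw [Finset.mem_inter] at hp
      have hex : ∃ t ∈ S', p ∈ t := ⟨t, ht, hp.1⟩
      refine ⟨p, hp.2, ?_⟩
      simp only [dif_pos hex]
      by_contra hne
      exact Finset.disjoint_left.1 (disjoint_of_mem_sextet hS' hex.choose_spec.1 ht hne) hex.choose_spec.2 hp.1
    have h0 : 0 < (S'.filter fun t => (t ∩ Y).Nonempty).card := by
      obtain ⟨p, hp⟩ := Finset.card_pos.1 (show 0 < Y.card by omega)
      obtain ⟨t, ht, hpt⟩ := exists_tetrad_mem hS' p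
      exact Finset.card_pos.2 ⟨t, Finset.mem_filter.2 ⟨ht, p, Finset.mem_inter.2 ⟨hpt, hp⟩⟩⟩
    obtain e | e | e : (S'.filter fun t => (t ∩ Y).Nonempty).card = 1 ∨
      (S'.filter fun t => (t ∩ Y).Nonempty).card = 2 ∨ (S'.filter fun t => (t ∩ Y).Nonempty).card = 3 := by omega
    exacts [k1.2 _ hS _ hS' (h.trans e) e, k2.2 _ hS _ hS' (h.trans e) e, k3.2 _ hS _ hS' (h.trans e) e]
  obtain ⟨a, ⟨ha, e1⟩, e2⟩ := this
  exact ⟨a, ha, e1, e2⟩

end Cfsg.Agent.S5616
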