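import Cfsg.Statements.S5617
import Mathlib
import Cfsg.Agent.SPOR.M12b
import Cfsg.Agent.SPOR.SimpleOn

set_option autoImplicit false
open scoped Pointwise
open Cfsg

namespace Cfsg.Agent.S5617

open CL CL.K CL.Orb CL.Enc CL.Golay CL.M12 MulAction
open scoped Pointwise

/-- The setwise stabiliser, in the group of the length-24 code, of a complementary pair of dodecads has exactly three orbits on the 1771 sextets, of sizes 396, 495 and 880. -/
theorem result (d : Finset Cfsg.GolayPt) (hd : d ∈ Cfsg.dodecads) : ∃ X₁ ∈ Cfsg.sextets, ∃ X₂ ∈ Cfsg.sextets, ∃ X₃ ∈ Cfsg.sextets, (MulAction.orbit ↥(MulAction.stabilizer Cfsg.M24 ({d, Finset.univ \ d} : Finset (Finset Cfsg.GolayPt))) X₁).ncard = 396 ∧ (MulAction.orbit ↥(MulAction.stabilizer Cfsg.M24 ({d, Finset.univ \ d} : Finset (Finset Cfsg.GolayPt))) X₂).ncard = 495 ∧ (MulAction.orbit ↥(MulAction.stabilizer Cfsg.M24 ({d, Finset.univ \ d} : Finset (Finset Cfsg.GolayPt))) X₃).ncard = 880 ∧ Cfsg.sextets = MulAction.orbit ↥(MulAction.stabilizer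 Cfsg.M24 ({d, Finset.univ \ d} : Finset (Finset Cfsg.GolayPt))) X₁ ∪ MulAction.orbit ↥(MulAction.stabilizer Cfsg.M24 ({d, Finset.univ \ d} : Finset (Finset Cfsg.GolayPt))) X₂ ∪ MulAction.orbit ↥(MulAction.stabilizer Cfsg.M24 ({d, Finset.univ \ d} : Finset (Finset Cfsg.GolayPt))) X₃ := by
  obtain ⟨a, ha, rfl⟩ := exists_smul_dodecad D0_mem hd
  obtain ⟨h1, h2⟩ := (coded_sex inf_le_left sgsDu_in).orbs_spec (H := Du (E.setOf D0)) Du_eq_gen
    (F := Cfsg.sextets) (Set.toFinite _) (fun y hy x hx => (smul_mem_sextets hy.1).2 hx)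
    sexHash_injOn (fuel := 900) (reps := [(163, 396), (15, 495), (39, 880)])
    (fun cn hcn => by
      have := (by decide +kernel : ∀ cn ∈ [(163, 396), (15, 495), (39, 880)], isTet cn.1 = true) cn hcn
      exact ⟨this, sex_mem this⟩) ncard_sextets.le (by decide +kernel)
  have key : ∀ X : Finset (Finset Cfsg.GolayPt), orbit (stabilizer Cfsg.M24
      ({a • E.setOf D0, Finset.univ \ a • E.setOf D0} : Finset (Finset Cfsg.GolayPt))) (a • X) =
      a • orbit (Du (E.setOf D0)) X := fun X => by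
    rw [orbit_stabilizer_eq, ← Finset.compl_eq_univ_sdiff, ← smul_pair, orbit_stabilizer_smul ha]
  have hs : ∀ c, isTet c = true → a • sex c ∈ Cfsg.sextets := fun c hc =>
    (smul_mem_sextets ha).2 (sex_mem hc)
  refine ⟨_, hs 163 (by decide +kernel), _, hs 15 (by decide +kernel), _, hs 39 (by decide +kernel), ?_⟩
  simp only [key, Set.ncard_smul_set]
  refine ⟨h1 (163, 396) (by simp), h1 (15, 495) (by simp), h1 (39, 880) (by simp), ?_⟩
  rw [← Set.smul_set_union, ← Set.smul_set_union]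
  ext X
  rw [Set.mem_smul_set_iff_inv_smul_mem, ← smul_mem_sextets (Cfsg.M24.inv_mem ha)]
  constructor
  · intro hX
    simpa only [List.mem_cons, List.not_mem_nil, or_false, exists_eq_or_imp, exists_eq_left,
      Set.mem_union, or_assoc] using h2 _ hX
  · have : ∀ c, isTet c = true → ∀ Y ∈ orbit (Du (E.setOf D0)) (sex c), Y ∈ Cfsg.sextets := by
      rintro c hc _ ⟨g, rfl⟩
      exact (smul_mem_sextets g.2.1).2 (sex_mem hc)
    rintro ((h | h) | h)
    exacts [this _ (by decide +kernel) _ h, this _ (by decide +kernel) _ h,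
      this _ (by decide +kernel) _ h]

end Cfsg.Agent.S5617
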