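import Cfsg.Statements.S5618
import Mathlib
import Cfsg.Agent.SPOR.M12b
import Cfsg.Agent.SPOR.SimpleOn

set_option autoImplicit false
open scoped Pointwise
open Cfsg

namespace Cfsg.Agent.S5618

open CL CL.K CL.Orb CL.Enc CL.Golay CL.M12 MulAction
open scoped Pointwise

/-- For a dodecad d of the length-24 code and a hexad C on it (a 6-point intersection of d with an octad): the joint stabiliser of d and C in the code's group is isomorphic to the symmetric group of degree 6, and it acts faithfully both on the six points of C and on the six points of d outside C. -/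
theorem result (d : Finset Cfsg.GolayPt) (hd : d ∈ Cfsg.dodecads) (C : Finset Cfsg.GolayPt) (hC : C ∈ Cfsg.hexadsOn d) : Nonempty (↥(MulAction.stabilizer Cfsg.M24 d ⊓ MulAction.stabilizer Cfsg.M24 C) ≃* Equiv.Perm (Fin 6)) ∧ (∀ g ∈ MulAction.stabilizer Cfsg.M24 d ⊓ MulAction.stabilizer Cfsg.M24 C, (∀ p ∈ C, ((g : ↥Cfsg.M24) : Equiv.Perm Cfsg.GolayPt) p = p) → g = 1) ∧ ∀ g ∈ MulAction.stabilizer Cfsg.M24 d ⊓ MulAction.stabilizer Cfsg.M24 C, (∀ p ∈ d \ C, ((g : ↥Cfsg.M24) : Equiv.Perm Cfsg.GolayPt) p = p) → g = 1 := by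
  have h1 : ∀ g ∈ stabilizer Cfsg.M24 d ⊓ stabilizer Cfsg.M24 C,
      (∀ p ∈ C, (g : Equiv.Perm Cfsg.GolayPt) p = p) → g = 1 := fun g hg h =>
    Subtype.ext (eq_one_of_fix hd (hexad_subset hC) (by rw [hC.1]; norm_num) ⟨g.2, hg.1⟩ h)
  refine ⟨?_, h1, fun g hg h => Subtype.ext (eq_one_of_fix hd Finset.sdiff_subset
    (by rw [Finset.card_sdiff_of_subset (hexad_subset hC), hC.1, hd.2]; norm_num) ⟨g.2, hg.1⟩ h)⟩
  let e := (C.equivFinOfCardEq hC.1).symm
  refine Graph.nonempty_equiv_perm (fun i => (e i : Cfsg.GolayPt))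
    (Subtype.val_injective.comp e.injective) _ (fun g hg b => ?_) (fun g hg h => h1 g hg fun p hp => ?_) ?_
  · exact ⟨e.symm ⟨_, apply_mem_of_smul_eq hg.2 (e b).2⟩, by simp; rfl⟩
  · have := h (e.symm ⟨p, hp⟩)
    simp only [Equiv.apply_symm_apply] at this
    exact this
  · have h2 := card_eq_orbit_mul (stabilizer Cfsg.M24 d) C
    rw [card_stabilizer_eq, card_St hd] at h2
    have h3 : (orbit (stabilizer Cfsg.M24 d) C).ncard ≤ 132 := by
      refine le_trans (Set.ncard_le_ncard ?_ (Set.toFinite _)) (ncard_hexadsOn_le hd)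
      rintro _ ⟨⟨g, hg⟩, rfl⟩
      have := smul_mem_hexadsOn g.2 hC
      rwa [show (g : Equiv.Perm Cfsg.GolayPt) • d = d from hg] at this
    have h4 := Nat.mul_le_mul_right
      (Nat.card ↥(stabilizer Cfsg.M24 d ⊓ stabilizer Cfsg.M24 C)) h3
    rw [Nat.card_eq_fintype_card (α := Fin 6), Fintype.card_fin]
    show 720 ≤ _
    omega

end Cfsg.Agent.S5618
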