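import Cfsg.Statements.S5619
import Mathlib
import Cfsg.Agent.SPOR.M12b
import Cfsg.Agent.SPOR.SimpleOn

set_option autoImplicit false
open scoped Pointwise
open Cfsg

namespace Cfsg.Agent.S5619

open CL CL.K CL.Orb CL.Enc CL.Golay CL.M12 MulAction
open scoped Pointwise

theorem sylow3 {G : Type*} [Group G] (hG : Nat.card G = 72) (h9 : {x : G | x ^ 9 = 1}.ncard ≤ 9)
    (h3 : ∀ x : G, x ^ 9 = 1 → x ^ 3 = 1) (Q : Sylow 3 G) :
    (Q : Subgroup G).Normal ∧ Nat.card Q = 9 ∧ ∀ x ∈ (Q : Subgroup G), x ^ 3 = 1 := by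
  have : Finite G := Nat.finite_of_card_ne_zero (by omega)
  have hQ : Nat.card Q = 9 := by
    rw [Q.card_eq_multiplicity, hG, show 72 = 3 ^ 2 * 8 from rfl,
      Nat.factorization_mul (by norm_num) (by norm_num), Nat.prime_three.factorization_pow]
    simp [Nat.factorization_eq_zero_of_not_dvd (show ¬ 3 ∣ 8 by norm_num)]
  have h1 : ∀ x ∈ (Q : Subgroup G), x ^ 9 = 1 := fun x hx => by
    have := pow_card_eq_one' (x := (⟨x, hx⟩ : (Q : Subgroup G)))
    rw [hQ] at this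
    exact congrArg Subtype.val this
  have h2 : ((Q : Subgroup G) : Set G) = {x : G | x ^ 9 = 1} :=
    Set.eq_of_subset_of_ncard_le h1 (h9.trans_eq hQ.symm) (Set.toFinite _)
  refine ⟨⟨fun x hx g => ?_⟩, hQ, fun x hx => h3 x (h1 x hx)⟩
  rw [← SetLike.mem_coe, h2, Set.mem_ofPred_eq, conj_pow, h1 x hx, mul_one, mul_inv_cancel]

theorem sylow2 {G Q : Type*} [Group G] [Group Q] (hG : Nat.card G = 72) (hQ : Nat.card Q = 8)
    (f : Q →* G) (hf : Function.Injective f) (P : Sylow 2 G) : Nonempty (P ≃* Q) := by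
  have : Finite G := Nat.finite_of_card_ne_zero (by omega)
  have h1 : Nat.card f.range = 2 ^ (Nat.card G).factorization 2 := by
    rw [← Nat.card_congr (f.ofInjective hf).toEquiv, hQ, hG, show 72 = 2 ^ 3 * 9 from rfl,
      Nat.factorization_mul (by norm_num) (by norm_num), Nat.prime_two.factorization_pow]
    simp [Nat.factorization_eq_zero_of_not_dvd (show ¬ 2 ∣ 9 by norm_num)]
  exact ⟨(Sylow.equiv P (Sylow.ofCard f.range h1)).trans (f.ofInjective hf).symm⟩

def cube (P : ℕ) : ℕ := comp24 (comp24 P P) P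

theorem R_cube {g : Equiv.Perm Cfsg.GolayPt} {P : ℕ} (h : R g P) : R (g ^ 3) (cube P) := by
  rw [pow_succ, pow_two]
  exact (h.mul h).mul h

theorem cube_eq_one_iff {g : Equiv.Perm Cfsg.GolayPt} {P : ℕ} (h : R g P) :
    cube P = one24 ↔ g ^ 3 = 1 := by
  rw [pow_succ, pow_two]
  exact R.comp24_eq_one_iff (h.mul h) h

theorem pow9_iff {g : Equiv.Perm Cfsg.GolayPt} {P : ℕ} (h : R g P) :
    cube (cube P) = one24 ↔ g ^ 9 = 1 := by
  rw [cube_eq_one_iff (R_cube h), ← pow_mul]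

theorem h9 : {g | g ∈ G9 ∧ g ^ 9 = 1}.ncard = 9 := by
  rw [ncard_eq_sumElts fmt rmul24 (q := fun P => ind (force (cube P) cube) one24)
    (fun g P hP => by
      rw [force_eq, ind_eq, ← pow9_iff hP]
      exact ⟨fun h => if_pos h, fun h => if_neg h⟩) tr9_in tr9_ok card_G9.le]
  decide +kernel

theorem h3 : ∀ g ∈ G9, g ^ 9 = 1 → g ^ 3 = 1 := fun g hg h => by
  obtain ⟨P, hP, h1⟩ := forall_G9 (p := fun P => force (cube P) fun Q =>
    !Nat.beq (cube Q) one24 || Nat.beq Q one24) (by decide +kernel) g hg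
  simp only [force_eq, Bool.or_eq_true, Bool.not_eq_true', ← Bool.not_eq_true, Nat.beq_eq,
    pow9_iff hP, cube_eq_one_iff hP] at h1
  exact h1.resolve_left (not_not.2 h)

def lab : QuaternionGroup 2 → Cfsg.GolayPt
  | .a i => E.dec (fld 5 31 307396 i.val)
  | .xa i => E.dec (fld 5 31 442952 i.val)

def L : List ℕ := [719923664328491199848526586197411872, 608405391266436187982588441666881568]

theorem L_in : ∀ P ∈ L, I G8 P := In.fixL_all (in_St_of_lall (by decide +kernel)) (by decide +kernel)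

theorem nonempty_equiv : Nonempty (G8 ≃* QuaternionGroup 2) := by
  have hinj : Function.Injective lab := by decide +kernel
  refine Graph.nonempty_equiv (Graph.smul lab) (fun k hk => ?_) G8 (fun g hg h => ?_)
    (exists_act_of_chain (B := [(4, 8)]) L_in (by decide +kernel) card_G8.le ?_) ?_
  · have : lab 1 = lab (k * 1) := hk 1
    simpa using (hinj this).symm
  · refine eq_one_of_chain (B := [(4, 8)]) L_in (by decide +kernel) card_G8.le hg ?_
    simp only [List.forall_mem_cons, List.not_mem_nil, false_imp_iff, implies_true, and_true]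
    exact h 1
  · simp only [L, List.forall_mem_cons, List.not_mem_nil, false_imp_iff, implies_true, and_true]
    exact ⟨⟨.a 1, by decide +kernel⟩, ⟨.xa 0, by decide +kernel⟩⟩
  · rw [card_G8, Nat.card_eq_fintype_card, QuaternionGroup.card]

theorem G8_le : G8 ≤ G9 := fun _ hg => ⟨hg.1, fun bn h => hg.2 bn (by
  simp only [List.mem_cons] at h ⊢
  tauto)⟩

theorem main {G : Type*} [Group G] (e : G ≃* G9) : (∀ Q : Sylow 3 G,
    (Q : Subgroup G).Normal ∧ Nat.card Q = 9 ∧ ∀ x ∈ (Q : Subgroup G), x ^ 3 = 1) ∧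
    ∀ P : Sylow 2 G, Nonempty (P ≃* QuaternionGroup 2) := by
  have hG : Nat.card G = 72 := (Nat.card_congr e.toEquiv).trans card_G9
  have hp : ∀ (x : G) (n : ℕ), x ^ n = 1 ↔ (e x : Equiv.Perm Cfsg.GolayPt) ^ n = 1 := fun x n => by
    rw [← Subgroup.coe_pow, ← map_pow, OneMemClass.coe_eq_one, map_eq_one_iff e e.injective]
  obtain ⟨f⟩ := nonempty_equiv
  refine ⟨sylow3 hG ?_ fun x hx => (hp x 3).2 (h3 _ (e x).2 ((hp x 9).1 hx)),
    sylow2 hG (by rw [Nat.card_eq_fintype_card, QuaternionGroup.card])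
      (e.symm.toMonoidHom.comp ((Subgroup.inclusion G8_le).comp f.symm.toMonoidHom))
      (e.symm.injective.comp ((Subgroup.inclusion_injective G8_le).comp f.symm.injective))⟩
  refine le_trans ?_ h9.le
  exact Set.ncard_le_ncard_of_injOn (fun x => (e x : Equiv.Perm Cfsg.GolayPt))
    (fun x hx => ⟨(e x).2, (hp x 9).1 hx⟩) (Subtype.val_injective.comp e.injective).injOn

/-- In the group of the length-24 code, the subgroup fixing a dodecad setwise and three of its points individually (a group of order 72) has a normal Sylow 3-subgroup that is elementary abelian of order 9, and its Sylow 2-subgroups are quaternion of order 8. -/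
theorem result (d : Finset Cfsg.GolayPt) (hd : d ∈ Cfsg.dodecads) (p q r : Cfsg.GolayPt) (hp : p ∈ d) (hq : q ∈ d) (hr : r ∈ d) (hpq : p ≠ q) (hpr : p ≠ r) (hqr : q ≠ r) : (∀ Q : Sylow 3 ↥(MulAction.stabilizer Cfsg.M24 d ⊓ MulAction.stabilizer Cfsg.M24 p ⊓ MulAction.stabilizer Cfsg.M24 q ⊓ MulAction.stabilizer Cfsg.M24 r), (Q : Subgroup ↥(MulAction.stabilizer Cfsg.M24 d ⊓ MulAction.stabilizer Cfsg.M24 p ⊓ MulAction.stabilizer Cfsg.M24 q ⊓ MulAction.stabilizer Cfsg.M24 r)).Normal ∧ Nat.card ↥Q = 9 ∧ ∀ x ∈ (Q : Subgroup ↥(MulAction.stabilizer Cfsg.M24 d ⊓ MulAction.stabilizer Cfsg.M24 p ⊓ MulAction.stabilizer Cfsg.M24 q ⊓ MulAction.stabilizer Cfsg.M24 r)), x ^ 3 = 1) ∧ ∀ P : Sylow 2 ↥(MulAction.stabilizer Cfsg.M24 d ⊓ MulAction.stabilizer Cfsg.M24 p ⊓ MulAction.stabilizer Cfsg.M24 q ⊓ MulAction.stabilizer Cfsg.M24 r), Nonempty (↥P ≃* QuaternionGroup 2) := by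
  obtain ⟨a, ha, rfl, e⟩ := exists_smul_tuple D0_mem hd (k := 3) (by norm_num)
    ![E.dec 0, E.dec 1, E.dec 2] ![p, q, r] (by decide +kernel) (by decide +kernel)
    (SimpleCrit.inj3 hpq hpr hqr) (by simp [Fin.forall_fin_succ, *])
  obtain rfl : (⟨a, ha⟩ : Cfsg.M24) • E.dec 0 = p := e 0
  obtain rfl : (⟨a, ha⟩ : Cfsg.M24) • E.dec 1 = q := e 1
  obtain rfl : (⟨a, ha⟩ : Cfsg.M24) • E.dec 2 = r := e 2
  refine main (Graph.conjLiftIso (H := G9) (fun g hg => hg.1.1) ⟨a, ha⟩ fun g => ?_)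
  change _ ∈ stabilizer Cfsg.M24 ((⟨a, ha⟩ : Cfsg.M24) • E.setOf D0) ⊓ _ ⊓ _ ⊓ _ ↔ _
  simp only [Subgroup.mem_inf, Graph.conj_mem_stabilizer, Enc.mem_fixL, List.forall_mem_cons,
    List.not_mem_nil, false_imp_iff, implies_true, and_true, g.2, true_and, and_assoc]
  rfl

end Cfsg.Agent.S5619
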