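import Cfsg.Statements.S5620
import Mathlib
import Cfsg.Agent.SPOR.M12b
import Cfsg.Agent.SPOR.SimpleOn

set_option autoImplicit false
open scoped Pointwise
open Cfsg

namespace Cfsg.Agent.S5620

open CL CL.K CL.Orb CL.Enc CL.Golay CL.M12 MulAction
open scoped Pointwise

/-- Inside the stabiliser of the dodecad of squares (a Mathieu group of degree 12), the stabiliser of the residue 0 (a point of the dodecad) and the stabiliser of the extra point (a point outside the dodecad) are isomorphic but not conjugate; conjugation by a suitable element of the code's group that maps the dodecad of squares onto its complement carries the first onto the second. -/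
theorem result : Nonempty (↥(Cfsg.Spor.M12 ⊓ MulAction.stabilizer (Equiv.Perm Cfsg.GolayPt) (none : Cfsg.GolayPt)) ≃* ↥Cfsg.Spor.M11) ∧ (¬ ∃ k ∈ Cfsg.Spor.M12, MulAut.conj k • Cfsg.Spor.M11 = Cfsg.Spor.M12 ⊓ MulAction.stabilizer (Equiv.Perm Cfsg.GolayPt) (none : Cfsg.GolayPt)) ∧ ∃ g ∈ Cfsg.M24, g • Cfsg.Spor.squareDodecad = Finset.univ \ Cfsg.Spor.squareDodecad ∧ MulAut.conj g • Cfsg.Spor.M11 = Cfsg.Spor.M12 ⊓ MulAction.stabilizer (Equiv.Perm Cfsg.GolayPt) (none : Cfsg.GolayPt) := by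
  have key : ∀ (g : Equiv.Perm Cfsg.GolayPt), g ∈ Cfsg.M24 → ∀ x, x ∈ MulAut.conj g • Cfsg.Spor.M11 ↔
      x ∈ St (g • E.setOf D0) ⊓ stabilizer (Equiv.Perm Cfsg.GolayPt) (g • E.dec 0) := by
    intro g hg x
    rw [Subgroup.mem_pointwise_smul_iff_inv_smul_mem, M11_eq, mem_G11, Subgroup.mem_inf,
      Subgroup.mem_inf, mem_stabilizer_smul_iff, mem_stabilizer_smul_iff, ← mem_conj_iff hg x]
    rfl
  have h3 : MulAut.conj (pm cSwap) • Cfsg.Spor.M11 =
      Cfsg.Spor.M12 ⊓ stabilizer (Equiv.Perm Cfsg.GolayPt) (none : Cfsg.GolayPt) := by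
    ext x
    rw [key _ cSwap_in.permOf_mem, cSwap_smul, St_compl, M12_eq, Equiv.Perm.smul_def, cSwap_zero]
    rfl
  refine ⟨⟨h3 ▸ (Subgroup.equivSMul (MulAut.conj (pm cSwap)) Cfsg.Spor.M11).symm⟩, ?_,
    pm cSwap, cSwap_in.permOf_mem, ?_, h3⟩
  · rintro ⟨k, hk, h⟩
    rw [M12_eq] at hk
    obtain ⟨g, hg, hg1, h1, h2⟩ := exists_smul_flag3 D0_mem D0_mem (p := k (E.dec 0)) (p' := k (E.dec 0))
      (apply_mem_of_smul_eq hk.2 (by decide +kernel)) (apply_mem_of_smul_eq hk.2 (by decide +kernel))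
      (k := 1) (by norm_num) ![none] ![some 5] (Function.injective_of_subsingleton _)
      (by decide +kernel) (Function.injective_of_subsingleton _) (by decide +kernel)
    have h4 : g ∈ MulAut.conj k • Cfsg.Spor.M11 :=
      (key k hk.1 g).2 ⟨by rw [show k • E.setOf D0 = E.setOf D0 from hk.2]; exact ⟨hg, hg1⟩, h1⟩
    rw [h] at h4
    have h5 : g none = none := h4.2
    exact absurd (h5.symm.trans (h2 0)) (by decide)
  · rw [squareDodecad_eq, cSwap_smul, Finset.compl_eq_univ_sdiff]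

end Cfsg.Agent.S5620
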