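import Cfsg.Statements.S5623
import Cfsg.Agent.SPOR.AbsGolay

set_option autoImplicit false
open Cfsg

namespace Cfsg.Agent.S5623

open CL.AbsGolay CL.Golay

/-- Let C be a self-dual binary code of length 24 with minimum weight at least 8 (a 12-dimensional subspace of the 24-dimensional space over the field with two elements, any two of whose words have dot product zero, with no non-zero word of weight below 8 — an abstract extended binary Golay code). Then every coset w + C of C in the ambient space contains either exactly one word of weight at most 4, which then has weight at most 3, or exactly six words of weight at most 4, all of weight exactly 4 and with pairwise disjoint supports (a sextet). -/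
theorem result (C : Submodule (ZMod 2) (Fin 24 → ZMod 2)) (hdim : Module.finrank (ZMod 2) C = 12) (horth : ∀ v ∈ C, ∀ w ∈ C, ∑ i, v i * w i = 0) (hmin : ∀ w ∈ C, w ≠ 0 → 8 ≤ hammingNorm w) (w : Fin 24 → ZMod 2) : (∃ u : Fin 24 → ZMod 2, {u : Fin 24 → ZMod 2 | u - w ∈ C ∧ hammingNorm u ≤ 4} = {u} ∧ hammingNorm u ≤ 3) ∨ ({u : Fin 24 → ZMod 2 | u - w ∈ C ∧ hammingNorm u ≤ 4}.ncard = 6 ∧ ∀ u ∈ {u : Fin 24 → ZMod 2 | u - w ∈ C ∧ hammingNorm u ≤ 4}, hammingNorm u = 4 ∧ ∀ u' ∈ {u : Fin 24 → ZMod 2 | u - w ∈ C ∧ hammingNorm u ≤ 4}, u ≠ u' → Disjoint (Finset.univ.filter fun i => u i ≠ 0) (Finset.univ.filter fun i => u' i ≠ 0)) := by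
  have h : IsAG C := ⟨Fintype.card_fin 24, hdim, hmin⟩
  have hm : ∀ u : Fin 24 → ZMod 2, u - w ∈ C ↔ cos C (support₂ u) = cos C (support₂ w) := by
    intro u
    rw [cos, cos, indic_support₂, indic_support₂, Submodule.Quotient.eq]
  rcases h.coset_cases (cos C (support₂ w)) with ⟨s, hs, e⟩ | h6
  · left
    refine ⟨indic s, ?_, by rw [← card_support₂, support₂_indic]; exact hs⟩
    ext u
    simp only [Set.mem_ofPred_eq, Set.mem_singleton_iff, hm, ← card_support₂]
    constructor
    · rintro ⟨h1, h2⟩
      rw [← (h.eq_or_le (h1.trans e.symm)).resolve_right (by omega), indic_support₂]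
    · rintro rfl
      rw [support₂_indic]
      exact ⟨e, by omega⟩
  · right
    obtain ⟨T, hT⟩ : {s : Finset (Fin 24) | s.card = 4 ∧ cos C s = cos C (support₂ w)}.Nonempty :=
      Set.nonempty_of_ncard_ne_zero (by omega)
    have h4 : ∀ u : Fin 24 → ZMod 2, u - w ∈ C → hammingNorm u ≤ 4 → hammingNorm u = 4 := by
      intro u h1 h2
      rw [hm] at h1
      rw [← card_support₂] at h2 ⊢
      have h3 := hT.1
      rcases h.eq_or_le (h1.trans hT.2.symm) with h' | h'
      · rw [h', h3]
      · omega
    refine ⟨?_, fun u hu => ⟨h4 u hu.1 hu.2, fun u' hu' hne => ?_⟩⟩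
    · rw [← h6, ← Set.ncard_image_of_injective _ support₂_injective]
      congr 1
      ext s
      constructor
      · rintro ⟨u, hu, rfl⟩
        exact ⟨by rw [card_support₂, h4 u hu.1 hu.2], (hm u).1 hu.1⟩
      · rintro ⟨h1, h2⟩
        refine ⟨indic s, ⟨(hm _).2 ?_, ?_⟩, support₂_indic s⟩
        · rw [support₂_indic, h2]
        · rw [← card_support₂, support₂_indic, h1]
    · have h1 := (h.eq_or_le (((hm u).1 hu.1).trans ((hm u').1 hu'.1).symm)).resolve_left
        fun e => hne (support₂_injective e)
      have h2 := hu.2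
      have h3 := hu'.2
      rw [← card_support₂] at h2 h3
      show Disjoint (support₂ u) (support₂ u')
      rw [Finset.disjoint_iff_inter_eq_empty, ← Finset.card_eq_zero]
      omega

end Cfsg.Agent.S5623
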