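import Cfsg.Statements.S5627
import Cfsg.Agent.SPOR.SteinerAut
import Cfsg.Agent.SPOR.SteinerU21q
import Cfsg.Agent.SPOR.Steiner22

set_option autoImplicit false
open Cfsg

namespace Cfsg.Agent.S5627

open CL CL.K CL.Steiner Finset

theorem chk1 : subs (fun m => bor (Nat.beq m 1081359)
    (anyL (fun l => Nat.ble 3 (pc24 (Nat.land l m))) F21q)) 21 2 2097136 15 = true := by
  decide +kernel

theorem chk2 : allL (fun l => Nat.ble (pc24 (Nat.land l 1081359)) 2) F21q = true := by
  decide +kernel

theorem pc_and {α : Type*} [Fintype α] [DecidableEq α] (E : Enc α 21) (l : ℕ) {m : ℕ}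
    (hm : m < 2 ^ 21) : (E.setOf l ∩ E.setOf m).card = pc24 (Nat.land l m) := by
  rw [← E.setOf_and, card_setOf_eq_pc24 E (by norm_num) (Nat.and_lt_two_pow _ hm)]
  rfl

theorem part3 {α : Type*} [Fintype α] [DecidableEq α] (hα : Fintype.card α = 21)
    (L : Set (Finset α)) (hL : Cfsg.IsSteinerSystem 2 5 L) (S : Finset α)
    (hS : S.card = 4 ∧ ∀ l ∈ L, (l ∩ S).card ≤ 2) :
    ∃! H : Finset α, (H.card = 6 ∧ ∀ l ∈ L, (l ∩ H).card ≤ 2) ∧ S ⊆ H := by
  have : Nonempty α := Fintype.card_pos_iff.1 (by omega)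
  let e : Fin 4 ≃ S := (Fintype.equivFinOfCardEq (by rw [Fintype.card_coe, hS.1])).symm
  obtain ⟨y, hy, hy'⟩ := exists_seq_of_embedding
    (e.toEmbedding.trans (Function.Embedding.subtype _))
  have hsub : (range 4).image y ⊆ S := by
    intro a ha
    obtain ⟨i, hi, rfl⟩ := mem_image.1 ha
    rw [hy ⟨i, mem_range.1 hi⟩]
    exact Subtype.prop _
  obtain ⟨E, hE, hLE⟩ := exists_enc21q hα hL y hy' (fun b hb =>
    le_trans (card_le_card (inter_subset_inter_left hsub)) (hS.2 b hb))
  have hSE : S = E.setOf 15 := by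
    symm
    apply eq_of_subset_of_card_le
    · intro a ha
      apply hsub
      rw [Enc.mem_setOf, show (15 : ℕ) = 2 ^ 4 - 1 by norm_num, Nat.testBit_two_pow_sub_one,
        decide_eq_true_iff] at ha
      exact mem_image.2 ⟨E.enc a, mem_range.2 ha, by rw [← hE _ ha, E.dec_enc]⟩
    · rw [hS.1, card_setOf_eq_pc24 E (by norm_num) (by norm_num)]
      decide +kernel
  refine ⟨E.setOf 1081359, ⟨⟨?_, ?_⟩, ?_⟩, ?_⟩
  · rw [card_setOf_eq_pc24 E (by norm_num) (by norm_num)]
    decide +kernel
  · rw [hLE]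
    rintro _ ⟨l, hl, rfl⟩
    rw [pc_and E l (by norm_num)]
    exact Nat.le_of_ble_eq_true (allL_iff.1 chk2 l hl)
  · rw [hSE, E.setOf_subset_iff (by norm_num)]
    decide +kernel
  · rintro H ⟨⟨h6, hH⟩, hSH⟩
    obtain ⟨m, hm, e1, h⟩ := subs_sound E _ _ _ _ _ chk1 (by norm_num) (by norm_num) (by norm_num)
      (H \ S) (by
        intro a ha
        rw [show (2097136 : ℕ) = 15 ^^^ (2 ^ 21 - 1) by decide +kernel, E.setOf_compl, mem_compl,
          ← hSE]
        exact (mem_sdiff.1 ha).2)
      (by rw [card_sdiff_of_subset hSH, h6, hS.1])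
    rw [← hSE, union_sdiff_of_subset hSH] at e1
    rcases bor_iff.1 h with h | h
    · rw [← e1, Nat.eq_of_beq_eq_true h]
    · obtain ⟨l, hl, h⟩ := anyL_iff.1 h
      have h1 := hH (E.setOf l) (hLE ▸ ⟨l, hl, rfl⟩)
      rw [← e1, pc_and E l hm] at h1
      have h2 := Nat.le_of_ble_eq_true h
      omega

theorem count_dep {α : Type*} [Fintype α] [DecidableEq α] (hα : Fintype.card α = 21)
    (l : Finset α) (hl : l.card = 5) :
    (((univ : Finset α).powersetCard 4).filter fun S => ¬ (l ∩ S).card ≤ 2).card = 165 := by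
  have hst : Cfsg.IsSteinerSystem 4 4 {S : Finset α | S.card = 4} :=
    ⟨fun _ h => h, fun s hs => ⟨s, ⟨hs, subset_rfl⟩, fun t ht =>
      (eq_of_subset_of_card_le ht.2 (by rw [hs]; exact ht.1.le)).symm⟩⟩
  have h := ncard_card_inter_eq (B := {S : Finset α | S.card = 4}) (Y := l)
    (lam := fun i => if i ≤ 4 then lam 4 4 21 i else 0) (fun A _ => by
      split_ifs with hA
      · rw [cnt_eq_lam_of_le hst le_rfl hA, hα]
      · rw [cnt_empty_right, Nat.cast_eq_zero, Set.ncard_eq_zero, Set.eq_empty_iff_forall_notMem]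
        rintro c ⟨h1, h2⟩
        exact hA (h1 ▸ card_le_card h2))
  have h3 := h 3
  have h4 := h 4
  rw [hl, ncard_eq_card_filter] at h3 h4
  rw [show ((Nat.choose 5 3 : ℕ) : ℤ) * tri (fun i => if i ≤ 4 then lam 4 4 21 i else 0) 3 (5 - 3)
    = 160 by decide +kernel] at h3
  rw [show ((Nat.choose 5 4 : ℕ) : ℤ) * tri (fun i => if i ≤ 4 then lam 4 4 21 i else 0) 4 (5 - 4)
    = 5 by decide +kernel] at h4
  have e : (((univ : Finset α).powersetCard 4).filter fun S => ¬ (l ∩ S).card ≤ 2) =
      (univ.filter fun c : Finset α => c ∈ {S : Finset α | S.card = 4} ∧ (l ∩ c).card = 3) ∪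
      (univ.filter fun c : Finset α => c ∈ {S : Finset α | S.card = 4} ∧ (l ∩ c).card = 4) := by
    ext S
    simp only [mem_filter, mem_powersetCard_univ, mem_union, mem_univ, true_and, Set.mem_ofPred_eq]
    have : (l ∩ S).card ≤ S.card := card_le_card inter_subset_right
    omega
  rw [e, card_union_of_disjoint]
  · omega
  · rw [disjoint_filter]
    intro x _ h1 h2
    omega

theorem part1 {α : Type*} [Fintype α] [DecidableEq α] (hα : Fintype.card α = 21)
    (L : Set (Finset α)) (hL : Cfsg.IsSteinerSystem 2 5 L) :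
    {S : Finset α | (S.card = 4 ∧ ∀ l ∈ L, (l ∩ S).card ≤ 2)}.ncard = 2520 := by
  classical
  let L' := univ.filter fun l => l ∈ L
  have hL' : L'.card = 21 := by rw [← ncard21 hα hL, ← ncard_eq_card_filter]; rfl
  have h1 := card_filter_add_card_filter_not (s := (univ : Finset α).powersetCard 4)
    (fun S => ∀ l ∈ L, (l ∩ S).card ≤ 2)
  have h2 : (((univ : Finset α).powersetCard 4).filter fun S => ¬ ∀ l ∈ L, (l ∩ S).card ≤ 2) =
      L'.biUnion fun l => ((univ : Finset α).powersetCard 4).filter fun S => ¬ (l ∩ S).card ≤ 2 := by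
    ext S
    simp only [L', mem_filter, mem_biUnion, mem_univ, true_and, not_forall, exists_prop]
    tauto
  rw [h2, card_biUnion, sum_congr rfl (g := fun _ => 165), sum_const, hL', card_powersetCard,
    card_univ, hα, show Nat.choose 21 4 = 5985 by decide +kernel, smul_eq_mul] at h1
  · rw [ncard_eq_card_filter]
    have : (univ.filter fun S : Finset α => S.card = 4 ∧ ∀ l ∈ L, (l ∩ S).card ≤ 2) =
        ((univ : Finset α).powersetCard 4).filter fun S => ∀ l ∈ L, (l ∩ S).card ≤ 2 := by
      ext S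
      simp
    rw [this]
    omega
  · intro l hl
    exact count_dep hα l (hL.1 l (mem_filter.1 hl).2)
  · intro l hl l' hl' hne
    rw [Function.onFun, disjoint_filter]
    intro S hS h1 h2
    rw [mem_powersetCard_univ] at hS
    have h3 := (inter21 hα hL (mem_filter.1 hl).2 (mem_filter.1 hl').2).resolve_right hne
    have h4 := card_union_add_card_inter (l ∩ S) (l' ∩ S)
    have h5 : (l ∩ S ∪ l' ∩ S).card ≤ S.card :=
      card_le_card (union_subset inter_subset_right inter_subset_right)
    have h6 : (l ∩ S ∩ (l' ∩ S)).card ≤ (l ∩ l').card :=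
      card_le_card (inter_subset_inter inter_subset_left inter_subset_left)
    omega

/-- In a projective plane of order 4 (a Steiner system S(2, 5, 21)), call a set of points independent when no line meets it in more than two points. There are exactly 2520 independent 4-sets and exactly 168 independent 6-sets (hyperovals), and every independent 4-set lies in exactly one hyperoval. -/
theorem result {α : Type*} [Fintype α] [DecidableEq α] (hα : Fintype.card α = 21) (L : Set (Finset α)) (hL : Cfsg.IsSteinerSystem 2 5 L) : {S : Finset α | (S.card = 4 ∧ ∀ l ∈ L, (l ∩ S).card ≤ 2)}.ncard = 2520 ∧ {H : Finset α | (H.card = 6 ∧ ∀ l ∈ L, (l ∩ H).card ≤ 2)}.ncard = 168 ∧ ∀ S : Finset α, (S.card = 4 ∧ ∀ l ∈ L, (l ∩ S).card ≤ 2) → ∃! H : Finset α, (H.card = 6 ∧ ∀ l ∈ L, (l ∩ H).card ≤ 2) ∧ S ⊆ H := by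
  classical
  refine ⟨part1 hα L hL, ?_, part3 hα L hL⟩
  have h1 := part1 hα L hL
  rw [ncard_eq_card_filter] at h1 ⊢
  have h2 := card_mul_eq_card_mul
    (s := univ.filter fun H : Finset α => H.card = 6 ∧ ∀ l ∈ L, (l ∩ H).card ≤ 2)
    (t := univ.filter fun S : Finset α => S.card = 4 ∧ ∀ l ∈ L, (l ∩ S).card ≤ 2)
    (fun H S => S ⊆ H) (m := 15) (n := 1) (by
      intro H hH
      simp only [mem_filter, mem_univ, true_and] at hH
      have : H.card.choose 4 = 15 := by rw [hH.1]; rfl
      rw [← this, ← card_powersetCard]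
      congr 1
      ext S
      simp only [mem_bipartiteAbove, mem_filter, mem_univ, true_and, mem_powersetCard]
      exact ⟨fun h => ⟨h.2, h.1.1⟩, fun h => ⟨⟨h.2, fun l hl =>
        le_trans (card_le_card (inter_subset_inter_left h.1)) (hH.2 l hl)⟩, h.1⟩⟩)
    (by
      intro S hS
      simp only [mem_filter, mem_univ, true_and] at hS
      obtain ⟨H, hH, hu⟩ := part3 hα L hL S hS
      rw [card_eq_one]
      refine ⟨H, ?_⟩
      ext K
      simp only [mem_bipartiteBelow, mem_filter, mem_univ, true_and, mem_singleton]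
      exact ⟨hu K, fun h => h ▸ hH⟩)
  omega

end Cfsg.Agent.S5627
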