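import Cfsg.Statements.S5628
import Cfsg.Agent.SPOR.SteinerAut
import Cfsg.Agent.SPOR.SteinerU21h

set_option autoImplicit false
open Cfsg

namespace Cfsg.Agent.S5628

open CL CL.Steiner Finset

theorem autGo21h : autGo (prune 2 F21h) (Nat.beq (PC.one 5 21)) 21 (21 - 6) 6 (2 ^ 6 - 1)
    (PC.one 5 6) = true := by decide +kernel

/-- In a projective plane of order 4 (a Steiner system S(2, 5, 21)), every permutation of the six points of a hyperoval (a 6-set met by no line in more than two points) is the restriction of exactly one automorphism of the plane. In particular the stabiliser of a hyperoval in the automorphism group is isomorphic to the symmetric group of degree 6 acting faithfully on the hyperoval. -/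
theorem result {α : Type*} [Fintype α] [DecidableEq α] (hα : Fintype.card α = 21) (L : Set (Finset α)) (hL : Cfsg.IsSteinerSystem 2 5 L) (H : Finset α) (hH : (H.card = 6 ∧ ∀ l ∈ L, (l ∩ H).card ≤ 2)) (σ : Equiv.Perm ↥H) : ∃! g : Equiv.Perm α, g ∈ Cfsg.setSystemAut L ∧ ∀ p : ↥H, g p = σ p := by
  have : Nonempty α := Fintype.card_pos_iff.1 (by omega)
  let e : Fin 6 ≃ H := (Fintype.equivFinOfCardEq (by rw [Fintype.card_coe, hH.1])).symm
  have key : ∀ τ : Equiv.Perm H, ∃ E : Enc α 21, (∀ i : Fin 6, E.dec i = τ (e i)) ∧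
      L = E.setOf '' {m | m ∈ F21h} := by
    intro τ
    obtain ⟨y, hy, hy'⟩ := exists_seq_of_embedding
      ((e.trans τ).toEmbedding.trans (Function.Embedding.subtype _))
    obtain ⟨E, hE, hLE⟩ := exists_enc21h hα hL y hy' (fun b hb => by
      refine le_trans (card_le_card (inter_subset_inter_left ?_)) (hH.2 b hb)
      intro a ha
      obtain ⟨i, hi, rfl⟩ := mem_image.1 ha
      rw [hy ⟨i, mem_range.1 hi⟩]
      exact Subtype.prop _)
    exact ⟨E, fun i => (hE i i.2).trans (hy i), hLE⟩
  obtain ⟨E, hE, hLE⟩ := key 1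
  obtain ⟨E', hE', hLE'⟩ := key σ
  have h0 : ∀ p : H, encEquiv E E' p = σ p := by
    intro p
    obtain ⟨i, rfl⟩ := e.surjective p
    have h1 : E.dec i = e i := hE i
    rw [← h1, encEquiv_dec _ _ (by omega), hE']
  refine ⟨encEquiv E E', ⟨encEquiv_mem_aut hLE hLE', h0⟩, ?_⟩
  rintro g ⟨hg, hg'⟩
  have h1 : (encEquiv E E')⁻¹ * g = 1 := by
    refine eq_one_of_autGo E (by norm_num) (by norm_num) autGo21h
      (hLE ▸ mul_mem (inv_mem (encEquiv_mem_aut hLE hLE')) hg) fun i hi => ?_
    have h1 : E.dec i = e ⟨i, hi⟩ := hE ⟨i, hi⟩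
    rw [Equiv.Perm.mul_apply, Equiv.Perm.inv_eq_iff_eq, h1, hg', h0]
  rw [inv_mul_eq_one] at h1
  exact h1.symm

end Cfsg.Agent.S5628
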