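import Cfsg.Statements.S5630
import Cfsg.Agent.CLAS.AschLin
set_option autoImplicit false
open Cfsg

namespace Cfsg.Agent.S5630

/-- Subgroup structure of the finite linear groups in dimension at least 3. Let F be a finite field, n ≥ 3, and let H be a subgroup of SL_n(F) (the kernel of the determinant inside GL_n(F)) whose product with the scalar matrices of determinant one is not all of SL_n(F), i.e. H does not cover PSL_n(F). Then either H is contained in a member of one of the eight geometric classes of subgroups of GL_n(F) (reducible, imprimitive, extension field, tensor product, subfield, symplectic-type normaliser, tensor wreath, similarity group of a form, with the conditions built into InLinearClass), or H is in the residual class: modulo scalars it is almost simple, and the perfect preimage of its socle acts absolutely irreducibly, is realisable over no proper subfield, and fixes no non-degenerate quadratic, symplectic or unitary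 form. (Dimension 2, where the linear and symplectic groups coincide, is left to the classical list of subgroups of PSL_2.) -/
theorem result {F : Type*} [Field F] [Fintype F] (n : ℕ) (hn : 3 ≤ n) (H : Subgroup (Matrix.GeneralLinearGroup (Fin n) F)) (hH : H ≤ Cfsg.Geo.specialLinear (Fin n) F) (hproper : H ⊔ (Cfsg.Geo.scalars (Fin n) F ⊓ Cfsg.Geo.specialLinear (Fin n) F) ≠ Cfsg.Geo.specialLinear (Fin n) F) : (∃ M : Subgroup (Matrix.GeneralLinearGroup (Fin n) F), Cfsg.Geo.InLinearClass n F M ∧ H ≤ M) ∨ Cfsg.Geo.InLinearResidualClass H := by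
  have hc : Fintype.card (Fin n) = n := Fintype.card_fin n
  rcases CL.Asch.linear_cases (by rw [hc]; exact hn) H with ⟨W, h1, h2, h⟩ | ⟨t, m, D, h1, h⟩ |
    ⟨r, K, h1, h2, h⟩ | ⟨n₁, n₂, e, P, h1, h2, h⟩ | ⟨F₀, r, P, h1, h2, h⟩ | ⟨r, k, R, h1, -, -, -, -, h⟩ |
    ⟨m, t, e, P, h1, h2, h⟩ | ⟨f, h1, h2, h⟩ | ⟨σ, f, h1, h⟩ | ⟨Q, h1, h2, h⟩ | h
  · exact Or.inl ⟨_, Or.inl ⟨W, h1, h2, rfl⟩, h⟩
  · exact Or.inl ⟨_, Or.inr (Or.inr (Or.inr (Or.inl ⟨t, m, D, h1, rfl⟩))), h⟩
  · exact Or.inl ⟨_, Or.inr (Or.inr (Or.inr (Or.inr (Or.inl ⟨r, K, h1, h2, rfl⟩)))), h⟩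
  · exact Or.inl ⟨_, Or.inr (Or.inr (Or.inr (Or.inr (Or.inr (Or.inl ⟨n₁, n₂, e, P, h1, h2, rfl⟩))))), h⟩
  · exact Or.inl ⟨_, Or.inr (Or.inr (Or.inr (Or.inr (Or.inr (Or.inr (Or.inl
      ⟨F₀, r, P, h1, h2, rfl⟩)))))), h⟩
  · exact Or.inl ⟨_, Or.inr (Or.inr (Or.inr (Or.inr (Or.inr (Or.inr (Or.inr (Or.inl
      ⟨r, R, h1, rfl⟩))))))), h⟩
  · exact Or.inl ⟨_, Or.inr (Or.inr (Or.inr (Or.inr (Or.inr (Or.inr (Or.inr (Or.inr (Or.inl
      ⟨m, t, e, P, h1, h2, rfl⟩)))))))), h⟩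
  · rw [hc] at h2
    refine Or.inl ⟨_, Or.inr (Or.inr (Or.inr (Or.inr (Or.inr (Or.inr (Or.inr (Or.inr (Or.inr (Or.inl
      ⟨f, h1, h2, ?_, rfl⟩))))))))), h⟩
    obtain ⟨j, hj⟩ := h2
    omega
  · exact Or.inl ⟨_, Or.inr (Or.inr (Or.inr (Or.inr (Or.inr (Or.inr (Or.inr (Or.inr (Or.inr (Or.inr
      (Or.inl ⟨σ, f, h1, hn, rfl⟩)))))))))), h⟩
  · exact Or.inl ⟨_, Or.inr (Or.inr (Or.inr (Or.inr (Or.inr (Or.inr (Or.inr (Or.inr (Or.inr (Or.inr
      (Or.inr ⟨Q, h1, h2, hn, rfl⟩)))))))))), h⟩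
  · exact Or.inr h

end Cfsg.Agent.S5630
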