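import Cfsg.Statements.S5632
import Cfsg.Agent.CLAS.TvStab

set_option autoImplicit false
open Cfsg

namespace Cfsg.Agent.S5632

/-- For a finite field F and subspaces 0 < W < U of F^n with dim W + dim U = n, the elements of SL_n(F) stabilising both W and U form a subgroup that is not maximal in SL_n(F): some subgroup lies strictly between it and SL_n(F). -/
theorem result {F : Type*} [Field F] [Fintype F] (n : ℕ) (W U : Submodule F (Fin n → F)) (hW0 : W ≠ ⊥) (hWU : W < U) (hdim : Module.finrank F W + Module.finrank F U = n) : ∃ K : Subgroup (Matrix.GeneralLinearGroup (Fin n) F), Cfsg.Geo.subspaceStabilizer W ⊓ Cfsg.Geo.subspaceStabilizer U ⊓ Cfsg.Geo.specialLinear (Fin n) F < K ∧ K < Cfsg.Geo.specialLinear (Fin n) F := by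
  have hW1 : W ≠ ⊤ := ne_top_of_lt hWU
  have hpos : 0 < Module.finrank F W := by
    rw [Nat.pos_iff_ne_zero]
    intro h
    exact hW0 (Submodule.finrank_eq_zero.1 h)
  have hU1 : U ≠ ⊤ := by
    rintro rfl
    rw [finrank_top, Module.finrank_fin_fun] at hdim
    omega
  obtain ⟨x, hx⟩ : ∃ x, x ∉ U := by
    by_contra! h
    exact hU1 (eq_top_iff.2 fun v _ => h v)
  obtain ⟨u, hu, huW⟩ := SetLike.exists_of_lt hWU
  have hu' : u ∉ W ⊔ Submodule.span F {x} := by
    intro h
    obtain ⟨w, hw, y, hy, e⟩ := Submodule.mem_sup.1 h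
    obtain ⟨c, rfl⟩ := Submodule.mem_span_singleton.1 hy
    have hc : c ≠ 0 := by
      rintro rfl
      apply huW
      rw [← e]; simpa using hw
    apply hx
    rw [← U.smul_mem_iff hc]
    have : c • x = u - w := by rw [← e]; abel
    rw [this]
    exact U.sub_mem hu (hWU.le hw)
  obtain ⟨φ, h1, h0⟩ := CL.Tv.exists_dual_one _ hu'
  exact CL.Tv.stab_inf_stab_lt hW0 hW1
    (h0 x (Submodule.mem_sup_right (Submodule.mem_span_singleton_self x))) hx hu (by simp [h1])
    (Or.inr fun w hw => h0 w (Submodule.mem_sup_left hw))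

end Cfsg.Agent.S5632
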