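import Cfsg.Statements.S5633
import Cfsg.Agent.CLAS.TvStab

set_option autoImplicit false
open Cfsg

namespace Cfsg.Agent.S5633

/-- For a finite field F and complementary non-zero subspaces W ⊕ U = F^n with dim W < dim U, the elements of SL_n(F) stabilising both W and U form a subgroup that is not maximal in SL_n(F): some subgroup lies strictly between it and SL_n(F). -/
theorem result {F : Type*} [Field F] [Fintype F] (n : ℕ) (W U : Submodule F (Fin n → F)) (hW0 : W ≠ ⊥) (hWU : W ⊓ U = ⊥) (hWU' : W ⊔ U = ⊤) (hdim : Module.finrank F W < Module.finrank F U) : ∃ K : Subgroup (Matrix.GeneralLinearGroup (Fin n) F), Cfsg.Geo.subspaceStabilizer W ⊓ Cfsg.Geo.subspaceStabilizer U ⊓ Cfsg.Geo.specialLinear (Fin n) F < K ∧ K < Cfsg.Geo.specialLinear (Fin n) F := by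
  have hU0 : U ≠ ⊥ := by
    rintro rfl
    simp at hdim
  have hW1 : W ≠ ⊤ := by
    rintro rfl
    exact hU0 (by simpa using hWU)
  obtain ⟨x, hx, hx0⟩ := Submodule.exists_mem_ne_zero_of_ne_bot hW0
  obtain ⟨u, hu, hu0⟩ := Submodule.exists_mem_ne_zero_of_ne_bot hU0
  have hxU : x ∉ U := fun h => hx0 (by
    have : x ∈ W ⊓ U := ⟨hx, h⟩
    rwa [hWU] at this)
  have huW : u ∉ W := fun h => hu0 (by
    have : u ∈ W ⊓ U := ⟨h, hu⟩
    rwa [hWU] at this)
  obtain ⟨φ, h1, h0⟩ := CL.Tv.exists_dual_one _ huW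
  exact CL.Tv.stab_inf_stab_lt hW0 hW1 (h0 x hx) hxU hu (by simp [h1]) (Or.inl hx)

end Cfsg.Agent.S5633
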