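import Cfsg.Statements.S5635
import Cfsg.Agent.CLAS.Dec
import Cfsg.Agent.CLAS.RootGeo

set_option autoImplicit false
open Cfsg

namespace Cfsg.Agent.S5635

open CL.Dec CL.Tv Module Cfsg.Geo

open Classical in
/-- The number of non-zero components, in the field. -/
noncomputable def nu {F V : Type*} [Field F] [AddCommGroup V] (w : V) : F := if w = 0 then 0 else 1

section
variable {F : Type*} [Field F] {n t : ℕ} {D : Fin t → Submodule F (Fin n → F)} (P : Proj D)

theorem between {e : Fin t → Fin n → F} (he : ∀ i, e i ∈ D i) (he0 : ∀ i, e i ≠ 0) {i j : Fin t}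
    (hij : i ≠ j) (g : (Fin n → F) ≃ₗ[F] (Fin n → F)) (hd : LinearMap.det g.toLinearMap = 1)
    (hg : ∀ v, ∑ i, nu (F := F) (P.p i (g v)) = ∑ i, nu (P.p i v)) {k : Fin t} {x : Fin n → F}
    (hx : x ∈ D k) (hk : ∀ l, g x ∉ D l) : ∃ K : Subgroup (GL (Fin n) F),
      decompositionStabilizer D ⊓ specialLinear (Fin n) F < K ∧ K < specialLinear (Fin n) F := by
  let K : Subgroup (GL (Fin n) F) :=
    { carrier := {g | ∀ v, ∑ i, nu (F := F) (P.p i (act g v)) = ∑ i, nu (P.p i v)}
      mul_mem' := fun ha hb v => by rw [act_mul, ha, hb]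
      one_mem' := fun v => by rw [act_one]
      inv_mem' := fun {a} ha v => by rw [← ha, act_act_inv] }
  refine ⟨K ⊓ specialLinear _ F, lt_of_le_not_ge (inf_le_inf_right _ fun a ha v => ?_) fun h => ?_,
    lt_of_le_not_ge inf_le_right fun h => ?_⟩
  · obtain ⟨σ, hσ⟩ := mem_decomp_iff.1 ha
    rw [← Equiv.sum_comp σ]
    refine Finset.sum_congr rfl fun l _ => ?_
    have := P.map_eq_of_sum (A := P.p (σ l) ∘ₗ (act a).toLinearMap)
      (B := (act a).toLinearMap ∘ₗ P.p l) (fun i v hv => by
        have h1 : act a v ∈ D (σ i) := hσ i ▸ ⟨v, hv, rfl⟩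
        rcases eq_or_ne l i with rfl | h
        · simp [P.of_mem hv, P.of_mem h1]
        · simp [P.of_ne h hv, P.of_ne (σ.injective.ne h) h1]) v
    simp only [LinearMap.comp_apply, LinearEquiv.coe_coe] at this
    rw [this]
    by_cases h0 : P.p l v = 0 <;> simp [nu, h0]
  · obtain ⟨σ, hσ⟩ := mem_decomp_iff.1 (h (show ofLin g ∈ K ⊓ _ from
      ⟨fun v => by rw [act_ofLin, hg], mem_SL_iff_act.2 (by rwa [act_ofLin])⟩)).1
    exact hk (σ k) (hσ k ▸ ⟨x, hx, by simp [act_ofLin]⟩)
  · obtain ⟨φ, h1⟩ := Module.Projective.exists_dual_eq_one F (he0 i)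
    have := (h (tv_mem_SL (e j) (φ ∘ₗ P.p i) (by simp [P.of_ne hij (he j)]))).1 (e i)
    rw [act_tv, LinearMap.comp_apply, P.of_mem (he i), h1, one_smul,
      Finset.sum_eq_add_of_mem i j (by simp) (by simp) hij fun c _ hc => by
        simp [nu, P.of_ne hc.1 (he i), P.of_ne hc.2 (he j)],
      Finset.sum_eq_single i (fun c _ hc => by simp [nu, P.of_ne hc (he i)]) (by simp)] at this
    simp [nu, P.of_mem (he i), P.of_mem (he j), P.of_ne hij (he j), P.of_ne hij.symm (he i),
      he0] at this

theorem p_sum {e : Fin t → Fin n → F} (he : ∀ i, e i ∈ D i) (A : Finset (Fin t)) (i : Fin t) :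
    P.p i (∑ a ∈ A, e a) = if i ∈ A then e i else 0 := by
  rw [map_sum, Finset.sum_eq_ite i fun b _ h => P.of_ne h.symm (he b), P.of_mem (he i)]

theorem sum_nu {e : Fin t → Fin n → F} (he : ∀ i, e i ∈ D i) (A : Finset (Fin t)) (s : F)
    (x : Fin n → F) (h : ∑ i ∈ A, (nu (F := F) (P.p i x + s • e i) - nu (P.p i x)) = 0) :
    ∑ i, nu (F := F) (P.p i (x + s • ∑ a ∈ A, e a)) = ∑ i, nu (P.p i x) := by
  rw [← sub_eq_zero, ← Finset.sum_sub_distrib, ← h, eq_comm]
  refine Finset.sum_subset_zero_on_sdiff (Finset.subset_univ _) (fun i hi => ?_) fun i hi => ?_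
  · simp [p_sum P he, (Finset.mem_sdiff.1 hi).2]
  · simp [p_sum P he, hi]

end

/-- For a finite field F with q elements and n ≥ 13, let D be a decomposition of F^n into t ≥ 2 independent subspaces of equal dimension m spanning F^n, where m = 1 and q ≤ 4, or m = 2 and q = 2. Then the elements of SL_n(F) permuting the members of D form a subgroup that is not maximal: some subgroup lies strictly between it and SL_n(F). -/
theorem result {F : Type*} [Field F] [Fintype F] (n : ℕ) (hn : 13 ≤ n) {t : ℕ} (m : ℕ) (D : Fin t → Submodule F (Fin n → F)) (hD : Cfsg.Geo.IsMDecomposition m D) (h : (m = 1 ∧ Fintype.card F ≤ 4) ∨ (m = 2 ∧ Fintype.card F = 2)) : ∃ K : Subgroup (Matrix.GeneralLinearGroup (Fin n) F), Cfsg.Geo.decompositionStabilizer D ⊓ Cfsg.Geo.specialLinear (Fin n) F < K ∧ K < Cfsg.Geo.specialLinear (Fin n) F := by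
  obtain ⟨P⟩ := nonempty_proj hD.indep hD.iSup_eq_top
  choose e he he0 using Proj.exists_ne hD.finrank_eq hD.pos
  have hn' : n = t * m := by
    have := Module.finrank_directSum (R := F) fun i => D i
    rw [(LinearEquiv.ofBijective (DirectSum.coeLinearMap D) (DirectSum.isInternal_submodule_of_iSupIndep_of_iSup_eq_top
      hD.indep hD.iSup_eq_top)).finrank_eq] at this
    simpa [hD.finrank_eq] using this
  have ht : 5 ≤ t := by rcases h with ⟨rfl, -⟩ | ⟨rfl, -⟩ <;> omega
  let a : Fin 5 ↪ Fin t := Fin.castLEEmb ht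
  have hne : ∀ x ∈ D (a 0), ∀ (A : Finset (Fin t)), a 1 ∈ A → a 2 ∈ A →
      ∀ l, x + ∑ i ∈ A, e i ∉ D l := fun x hx A h1 h2 l hl => by
    have key : ∀ i ∈ A, i ≠ a 0 → i = l := fun i hi h0 => by
      by_contra h3
      have := P.of_ne h3 hl
      rw [map_add, p_sum P he, P.of_ne h0 hx] at this
      simp [hi, he0] at this
    have := (key _ h1 (by simp)).trans (key _ h2 (by simp)).symm
    simp at this
  rcases h with ⟨rfl, hq⟩ | ⟨rfl, hq⟩
  · choose φ hφ using fun i => Module.Projective.exists_dual_eq_one F (he0 i)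
    have hp : ∀ i x, P.p i x = φ i (P.p i x) • e i := fun i x => by
      obtain ⟨c, hc⟩ := (finrank_eq_one_iff_of_nonzero' (⟨e i, he i⟩ : D i)
        (by simpa using he0 i)).1 (hD.finrank_eq i) ⟨_, P.mem i x⟩
      have hc' : c • e i = P.p i x := congrArg Subtype.val hc
      rw [← hc', map_smul, hφ, smul_eq_mul, mul_one]
    have hnu : ∀ i (c : F), nu (c • e i) = c ^ (Fintype.card F - 1) := fun i c => by
      rcases eq_or_ne c 0 with rfl | h0
      · simp [nu, Nat.sub_ne_zero_of_lt Fintype.one_lt_card]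
      · simp [nu, h0, he0, FiniteField.pow_card_sub_one_eq_one c h0]
    let A : Finset (Fin t) := ({0, 1, 2, 3} : Finset (Fin 5)).map a
    let s : Dual F (Fin n → F) := ∑ i ∈ A, φ i ∘ₗ P.p i
    have hA : ∀ f : Fin t → F, ∑ i ∈ A, f i = f (a 0) + f (a 1) + f (a 2) + f (a 3) := fun f => by
      simp [A, add_assoc]
    have hc : ((Fintype.card F : ℕ) : F) = 0 := FiniteField.cast_card_eq_zero F
    have h2 : 2 ≤ Fintype.card F := Fintype.one_lt_card
    have h24 : (5 : F) * 5 = 1 := by
      interval_cases Fintype.card F <;> push_cast at hc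
      · linear_combination 12 * hc
      · linear_combination 8 * hc
      · linear_combination 6 * hc
    have h5 : (5 : F) ≠ 0 := left_ne_zero_of_mul_eq_one h24
    have hs : s (∑ i ∈ A, e i) = 4 := by
      simp only [s, LinearMap.sum_apply, LinearMap.comp_apply]
      rw [Finset.sum_congr rfl fun i hi => by rw [p_sum P he, if_pos hi, hφ], hA]; norm_num
    have d1 : LinearMap.det (LinearMap.transvection s (∑ i ∈ A, e i)) = 5 := by
      rw [LinearMap.transvection.det, hs]; norm_num
    have d2 : LinearMap.det (LinearMap.transvection ((4 : F) • φ (a 4) ∘ₗ P.p (a 4)) (e (a 4))) =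
        5 := by
      rw [LinearMap.transvection.det]; simp [P.of_mem (he _), hφ]; norm_num
    refine between P he he0 (i := a 0) (j := a 1) (by simp)
      (LinearMap.equivOfDetNeZero _ (d2 ▸ h5) ≪≫ₗ LinearMap.equivOfDetNeZero _ (d1 ▸ h5))
      (by
        change LinearMap.det (LinearMap.transvection _ _ ∘ₗ LinearMap.transvection _ _) = 1
        rw [LinearMap.det_comp, d1, d2, h24]) (fun v => ?_) (he (a 0)) fun l => ?_
    · change ∑ i, nu (P.p i (_ + s _ • _)) = _
      rw [sum_nu P he]
      · refine (Finset.sum_singleton e (a 4) ▸ sum_nu P he {a 4}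
          (((4 : F) • φ (a 4) ∘ₗ P.p (a 4)) v) v ?_ :)
        rw [Finset.sum_singleton, hp (a 4) v, ← add_smul, hnu, hnu]
        simp only [LinearMap.smul_apply, LinearMap.comp_apply, smul_eq_mul]
        rw [show ∀ x : F, x + 4 * x = 5 * x from fun x => by ring, mul_pow,
          FiniteField.pow_card_sub_one_eq_one _ h5, one_mul, sub_self]
      · generalize (LinearMap.equivOfDetNeZero _ (d2 ▸ h5)).toLinearMap v = x
        rw [Finset.sum_congr rfl fun i _ => by rw [hp i x, ← add_smul, hnu, hnu], hA]
        simp only [s, LinearMap.sum_apply, LinearMap.comp_apply, hA]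
        generalize φ (a 0) _ = x0, φ (a 1) _ = x1, φ (a 2) _ = x2, φ (a 3) _ = x3
        interval_cases Fintype.card F <;> push_cast at hc ⊢
        · linear_combination 2 * (x0 + x1 + x2 + x3) * hc
        · linear_combination 2 * (x0 + x1 + x2 + x3) ^ 2 * hc
        · have h2 : (2 : F) = 0 := pow_eq_zero_iff (n := 2) two_ne_zero |>.1 (by
            linear_combination hc)
          linear_combination (x0 + x1 + x2 + x3) * (5 * (x0 + x1 + x2 + x3) ^ 2 -
            3 * (x0 * x1 + x0 * x2 + x0 * x3 + x1 * x2 + x1 * x3 + x2 * x3)) * h2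
    · have : s (e (a 0)) = 1 := by
        simp only [s, LinearMap.sum_apply, LinearMap.comp_apply, hA]
        simp [P.of_mem (he _), hφ, P.of_ne (i := a 1) (j := a 0) (by simp) (he _),
          P.of_ne (i := a 2) (j := a 0) (by simp) (he _),
          P.of_ne (i := a 3) (j := a 0) (by simp) (he _)]
      convert hne _ (he _) A (by simp [A]) (by simp [A]) l using 2
      simp [LinearMap.transvection.apply, P.of_ne (i := a 4) (j := a 0) (by simp) (he _), this]
  · have hF : ∀ c : F, c = 0 ∨ c = 1 := fun c => by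
      have := FiniteField.pow_card c
      rw [hq] at this
      rw [← sub_eq_zero (b := 1), ← mul_eq_zero]
      linear_combination this
    have h2 : (2 : F) = 0 := by simpa [hq] using FiniteField.cast_card_eq_zero F
    have : ∀ i, ∃ φ : Dual F (Fin n → F), ∀ w ∈ D i, φ w = 0 ↔ w ∈ F ∙ e i := fun i => by
      obtain ⟨w, hw, hw'⟩ : ∃ w ∈ D i, w ∉ F ∙ e i := by
        by_contra! hc
        have := Submodule.finrank_mono hc
        rw [hD.finrank_eq, finrank_span_singleton (he0 i)] at this
        omega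
      obtain ⟨φ, h1, h3⟩ := exists_dual_one_zero hw'
      refine ⟨φ, fun x hx => ⟨fun h0 => ?_, fun hx => ?_⟩⟩
      · have : Submodule.span F {w, e i} = D i := Submodule.eq_of_le_of_finrank_eq
          (Submodule.span_le.2 (by rintro _ (rfl | rfl); exacts [hw, he i]))
          (by
            have := finrank_span_eq_card (li2 (he0 i) hw')
            rw [Matrix.range_cons_cons_empty] at this
            simpa [hD.finrank_eq] using this)
        obtain ⟨c, d, rfl⟩ := Submodule.mem_span_pair.1 (this ▸ hx : x ∈ _)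
        simp only [map_add, map_smul, h1, h3, smul_eq_mul, mul_one, mul_zero, add_zero] at h0
        simp [h0, Submodule.smul_mem, Submodule.mem_span_singleton_self]
      · obtain ⟨c, rfl⟩ := Submodule.mem_span_singleton.1 hx
        simp [h3]
    choose φ hφ using this
    have hφ0 : ∀ i, φ i (e i) = 0 := fun i => (hφ i _ (he i)).2 (Submodule.mem_span_singleton_self _)
    have hnu : ∀ i, ∀ w ∈ D i, nu (w + e i) - nu w = 1 + φ i w := fun i w hw => by
      rcases hF (φ i w) with h0 | h0
      · obtain ⟨c, rfl⟩ := Submodule.mem_span_singleton.1 ((hφ i w hw).1 h0)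
        rcases hF c with rfl | rfl
        · simp [nu, he0]
        · simp [nu, he0, ← two_smul F, h2, hφ0]
          linear_combination -h2
      · have h3 : w ≠ 0 := by rintro rfl; simp at h0
        have h4 : w + e i ≠ 0 := fun h => by simpa [h0, hφ0] using congrArg (φ i) h
        simp [nu, h3, h4, h0, one_add_one_eq_two, h2]
    let A : Finset (Fin t) := ({0, 1, 2} : Finset (Fin 5)).map a
    let s : Dual F (Fin n → F) := ∑ i ∈ A, φ i ∘ₗ P.p i
    have hA : ∀ f : Fin t → F, ∑ i ∈ A, f i = f (a 0) + f (a 1) + f (a 2) := fun f => by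
      simp [A, add_assoc]
    have hs : s (∑ i ∈ A, e i) = 0 := by
      simp only [s, LinearMap.sum_apply, LinearMap.comp_apply]
      exact Finset.sum_eq_zero fun i hi => by rw [p_sum P he, if_pos hi, hφ0]
    obtain ⟨w, hw, hw'⟩ : ∃ w ∈ D (a 0), φ (a 0) w = 1 := by
      by_contra! hc
      have := Submodule.finrank_mono (s := D (a 0)) fun w hw =>
        (hφ _ w hw).1 ((hF _).resolve_right (hc w hw))
      rw [hD.finrank_eq, finrank_span_singleton (he0 _)] at this
      omega
    refine between P he he0 (i := a 0) (j := a 1) (by simp) (LinearEquiv.transvection hs)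
      (by rw [LinearEquiv.transvection.coe_toLinearMap, LinearMap.transvection.det, hs, add_zero])
      (fun x => ?_) hw fun l => ?_
    · refine sum_nu P he _ _ _ ?_
      rcases hF (s x) with h0 | h0
      · simp [h0]
      rw [h0, Finset.sum_congr rfl fun i _ => by rw [one_smul, hnu i _ (P.mem i x)], hA]
      simp only [s, LinearMap.sum_apply, LinearMap.comp_apply, hA] at h0
      linear_combination h0 + 2 * h2
    · have : s w = 1 := by
        simp only [s, LinearMap.sum_apply, LinearMap.comp_apply, hA]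
        simp [P.of_mem hw, hw', P.of_ne (i := a 1) (j := a 0) (by simp) hw,
          P.of_ne (i := a 2) (j := a 0) (by simp) hw]
      convert hne _ hw A (by simp [A]) (by simp [A]) l using 2
      rw [LinearEquiv.transvection.apply, this, one_smul]

end Cfsg.Agent.S5635
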