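import Cfsg.Statements.S5642
import Cfsg.Agent.CLAS.TvSp

set_option autoImplicit false
open Cfsg

namespace Cfsg.Agent.S5642

/-- For a finite field F and n ≥ 13, let f be a non-degenerate symplectic form on F^n (so n is even). Then the elements of SL_n(F) that are similarities of f (f(gu, gv) = c f(u, v) for a non-zero scalar c depending on g) form a maximal subgroup of SL_n(F). -/
theorem result {F : Type*} [Field F] [Fintype F] (n : ℕ) (hn : 13 ≤ n) (f : (Fin n → F) → (Fin n → F) → F) (hf : Cfsg.Geo.IsSymplecticForm f) : Cfsg.Geo.IsMaximalIn (Cfsg.Geo.specialLinear (Fin n) F) (Cfsg.Geo.similarityGroup f ⊓ Cfsg.Geo.specialLinear (Fin n) F) := by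
  open CL.Tv in
  have hB : ∀ x, (∀ y, bilin hf.bilinear x y = 0) → x = 0 := by
    intro x hx
    by_contra h
    obtain ⟨y, hy⟩ := (hf.nondegenerate x h).2
    exact hy (hx y)
  open CL.Tv in
  refine isMaximalIn_of inf_le_right (fun h => not_SL_le_sp (B := bilin hf.bilinear)
    hf.alternating hB (by simp; omega) (h.trans inf_le_left)) ?_
  rintro K h1 h2 ⟨g, hg, hg'⟩
  open CL.Tv in
  refine SL_le_of_sp_lt (B := bilin hf.bilinear) hf.alternating hB ?_ hg fun h => hg' ⟨h, h2 hg⟩
  intro x c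
  have h0 : (c • CL.Tv.bilin hf.bilinear x) x = 0 := by
    simp [CL.Tv.bilin_apply, hf.alternating]
  refine (CL.Tv.hasTv_iff h0).2 (h1 ⟨⟨1, fun u v => ?_⟩, CL.Tv.tv_mem_SL _ _ _⟩)
  change CL.Tv.bilin hf.bilinear (CL.Tv.act _ u) (CL.Tv.act _ v) = _ * CL.Tv.bilin hf.bilinear u v
  rw [CL.Tv.act_tv, CL.Tv.act_tv]
  simp only [map_add, map_smul, LinearMap.add_apply, LinearMap.smul_apply, smul_eq_mul,
    CL.Tv.bilin_apply, hf.alternating, hf.skew u x, Units.val_one]
  ring

end Cfsg.Agent.S5642
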