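import Cfsg.Statements.S5643
import Cfsg.Agent.CLAS.TvHerm

set_option autoImplicit false
open Cfsg

namespace Cfsg.Agent.S5643

/-- For a finite field F and n ≥ 13, let σ be a field automorphism of F of order two and f a non-degenerate unitary form on F^n with respect to σ. Then the elements of SL_n(F) that are similarities of f form a maximal subgroup of SL_n(F). -/
theorem result {F : Type*} [Field F] [Fintype F] (n : ℕ) (hn : 13 ≤ n) (σ : F ≃+* F) (f : (Fin n → F) → (Fin n → F) → F) (hf : Cfsg.Geo.IsUnitaryForm σ f) : Cfsg.Geo.IsMaximalIn (Cfsg.Geo.specialLinear (Fin n) F) (Cfsg.Geo.similarityGroup f ⊓ Cfsg.Geo.specialLinear (Fin n) F) := by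
  open CL.Tv in
  have hσ := unitary_ne_id hf
  open CL.Tv in
  have hn' : 11 ≤ Fintype.card (Fin n) := by simp; omega
  open CL.Tv in
  refine isMaximalIn_of inf_le_right (fun h => not_SL_le_herm hσ (hermOfUnitary_nondeg hf) hn'
    (h.trans inf_le_left)) ?_
  rintro K h1 h2 ⟨g, hg, hg'⟩
  open CL.Tv in
  refine SL_le_of_herm_lt hσ (hermOfUnitary_nondeg hf) hn' ?_ hg fun h => hg' ⟨h, h2 hg⟩
  intro u c hu hc
  have h0 : (c • (CL.Tv.hermOfUnitary hf).B u) u = 0 := by
    simp [(CL.Tv.hermOfUnitary hf).B_self_eq_zero hu]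
  refine (CL.Tv.hasTv_iff h0).2 (h1 ⟨⟨1, fun v w => ?_⟩, CL.Tv.tv_mem_SL _ _ _⟩)
  rw [Units.val_one, one_mul]
  exact CL.Tv.herm_tv_isom hu hc h0 w v

end Cfsg.Agent.S5643
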