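import Cfsg.Statements.S5644
import Cfsg.Agent.CLAS.MaxSLO

set_option autoImplicit false
open Cfsg

namespace Cfsg.Agent.S5644

/-- For a finite field F of odd order and n ≥ 13, let Q be a non-degenerate quadratic form on F^n (its polar form is non-degenerate). Then the elements of SL_n(F) that are similarities of Q (Q(gv) = c Q(v) for a non-zero scalar c depending on g) form a maximal subgroup of SL_n(F). -/
theorem result {F : Type*} [Field F] [Fintype F] (n : ℕ) (hn : 13 ≤ n) (hodd : Odd (Fintype.card F)) (Q : (Fin n → F) → F) (hQ : Cfsg.Geo.IsNondegenerateQuadraticForm Q) : Cfsg.Geo.IsMaximalIn (Cfsg.Geo.specialLinear (Fin n) F) (Cfsg.Geo.quadSimilarityGroup Q ⊓ Cfsg.Geo.specialLinear (Fin n) F) := by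
  open CL.Tv CL.Root CL.Witt CL.Witt.Form in
  have hn' : 11 ≤ Fintype.card (Fin n) := by simp; omega
  open CL.Tv CL.Root CL.Witt CL.Witt.Form in
  refine isMaximalIn_of inf_le_right (fun h => not_SL_le_quad (quadOfGeo_nondeg hQ) (by omega)
    (h.trans inf_le_left)) ?_
  rintro K h1 h2 ⟨g, hg, hg'⟩
  open CL.Tv CL.Root CL.Witt CL.Witt.Form in
  refine SL_le_of_quad_lt (quadOfGeo_nondeg hQ) (two_ne_zero_of_odd hodd) hn' ?_ hg
    fun h => hg' ⟨h, h2 hg⟩
  intro e he
  open CL.Tv CL.Root CL.Witt CL.Witt.Form in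
  refine h1 ⟨(act_mem_toE _).2 (mem_toE_quadSim.2 ⟨1, fun v => ?_⟩),
    (act_mem_toE _).2 (mem_toE_SL.2 ?_)⟩
  · open CL.Tv CL.Root CL.Witt CL.Witt.Form in
    rw [act_ofLin, Units.val_one, one_mul]
    exact CL.Witt.Form.mem_O_q (CL.Witt.Form.E_le_O he) v
  · open CL.Tv CL.Root CL.Witt CL.Witt.Form in
    rw [act_ofLin]
    exact CL.Witt.Form.det_of_mem_E he

end Cfsg.Agent.S5644
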