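import Cfsg.Statements.S5652
import Cfsg.Agent.CLAS.MaxSpO

set_option autoImplicit false
open Cfsg

namespace Cfsg.Agent.S5652

/-- For a finite field F of characteristic two and m ≥ 7, let Q be a non-degenerate quadratic form on F^(2m) whose polar form is the standard alternating form. Then the elements of Sp_2m(F) that are similarities of Q (they are exactly the isometries of Q) form a maximal subgroup of Sp_2m(F). -/
theorem result {F : Type*} [Field F] [Fintype F] (m : ℕ) (hm : 7 ≤ m) (heven : ¬ Odd (Fintype.card F)) (Q : (Fin m ⊕ Fin m → F) → F) (hQ : Cfsg.Geo.IsNondegenerateQuadraticForm Q) (hpol : ∀ u v, QuadraticMap.polar Q u v = Cfsg.sympForm m F u v) : Cfsg.Geo.IsMaximalIn (Cfsg.spGL m F) (Cfsg.Geo.quadSimilarityGroup Q ⊓ Cfsg.spGL m F) := by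
  open CL.Root CL.Tv CL.Witt CL.Witt.Form in
  have hB : ∀ x y, (quadOfGeo hQ).B x y = (CL.Sp.spForm m F).B x y := fun x y => by
    rw [quadOfGeo_B, hpol, CL.Sp.spForm_B]
  have hn := CL.Sp.finrank_sp m F
  have hf := CL.Sp.spForm_nondeg m F
  open CL.Root CL.Tv CL.Witt CL.Witt.Form in
  refine isMaximalIn_of_act mem_spGL_iff_O act_mem_toE (fun h => ?_) ?_
  · obtain ⟨g, hg, x, hx, hx'⟩ := CL.Root.exists_tv_not_sim hf hB (by omega)
    obtain ⟨c, hc⟩ := CL.Root.mem_toE_quadSim.1 (h hg)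
    apply hx'
    change Q (g x) = 0
    rw [hc, show Q x = 0 from hx, mul_zero]
  · rintro K h1 h2 ⟨g, hg, hg'⟩
    refine CL.Root.O_le_of_quad_lt hf hB (CL.Root.two_eq_zero_of_not_odd heven) (by omega)
      (fun k hk => h1 ⟨CL.Root.mem_toE_quadSim.2 ⟨1, fun v => ?_⟩, ?_⟩) h2 hg fun h => hg' ?_
    · rw [Units.val_one, one_mul]; exact CL.Witt.Form.mem_O_q hk v
    · refine ((CL.Sp.spForm m F).alt_isIsom_iff _ _).2 fun x y => ?_
      rw [← hB, ← hB, CL.Witt.Form.mem_O_B hk]
    · exact CL.Root.mem_toE_quadSim.2 ⟨1, fun v => by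
        rw [Units.val_one, one_mul]; exact CL.Witt.Form.mem_O_q h v⟩

end Cfsg.Agent.S5652
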