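import Cfsg.Statements.S5649
import Cfsg.Agent.CLAS.MaxPair

set_option autoImplicit false
open Cfsg

namespace Cfsg.Agent.S5649

/-- For a finite field F of odd order and m ≥ 7, let D be a decomposition of F^(2m) into two complementary subspaces of dimension m on each of which the standard alternating form vanishes identically. Then the elements of Sp_2m(F) preserving or interchanging the two subspaces form a maximal subgroup of Sp_2m(F). -/
theorem result {F : Type*} [Field F] [Fintype F] (m : ℕ) (hm : 7 ≤ m) (hodd : Odd (Fintype.card F)) (D : Fin 2 → Submodule F (Fin m ⊕ Fin m → F)) (hD : Cfsg.Geo.IsMDecomposition m D) (hts : ∀ i, Cfsg.Geo.IsTotallySingularFor (Cfsg.sympForm m F) (D i)) : Cfsg.Geo.IsMaximalIn (Cfsg.spGL m F) (Cfsg.Geo.decompositionStabilizer D ⊓ Cfsg.spGL m F) := by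
  have h2 := CL.Root.two_ne_zero_of_odd hodd
  refine CL.Root.isMaximalIn_pair (CL.Sp.spForm_nondeg m F) CL.Root.mem_spGL_iff_E (by omega) hD
    (fun i => ((CL.Sp.spForm m F).alt_totSing_iff _).2 fun u hu v hv => ?_) (fun a _ => ⟨a / 2, ?_⟩)
    (Or.inl ⟨1, one_ne_zero, rfl⟩)
  · rw [CL.Sp.spForm_B]; exact hts i u hu v hv
  · rw [CL.Witt.FormType.alt_ε, CL.Witt.FormType.alt_σ]
    field_simp
    ring

end Cfsg.Agent.S5649
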