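import Cfsg.Statements.S5650
import Cfsg.Agent.CLAS.RatTv
import Cfsg.Agent.CLAS.DicksonProp

set_option autoImplicit false
open Cfsg

namespace Cfsg.Agent.S5650

/-- For a finite field F, a subfield F₀ with |F| = |F₀| ^ r for a prime r, and m ≥ 7, let P be an invertible matrix and ζ a non-zero scalar such that ζ times the standard alternating form takes values in F₀ on the F₀-span of the columns of P. Then the elements of Sp_2m(F) lying in the subfield group of P (the conjugate by P of the product of GL_2m(F₀) with the scalars) form a maximal subgroup of Sp_2m(F). -/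
theorem result {F : Type*} [Field F] [Fintype F] (m : ℕ) (hm : 7 ≤ m) (F₀ : Subfield F) (r : ℕ) (hr : r.Prime) (hcard : Fintype.card F = Nat.card F₀ ^ r) (P : Matrix.GeneralLinearGroup (Fin m ⊕ Fin m) F) (ζ : F) (hζ : ζ ≠ 0) (hP : Cfsg.Geo.IsFormRationalStructure (Cfsg.sympForm m F) F₀ ζ P) : Cfsg.Geo.IsMaximalIn (Cfsg.spGL m F) (Cfsg.Geo.subfieldSubgroup F₀ P ⊓ Cfsg.spGL m F) := by
  open CL.Tv CL.Root CL.Witt CL.Witt.Form in
  obtain ⟨f₀, R, hR, -⟩ := exists_ratExt_alt (ratMap_smul F₀ P) (ratMap_span F₀ P)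
    (CL.Sp.spForm m F) hζ (fun _ => rfl) (by rw [FormType.alt_ε, FormType.alt_σ, neg_one_mul])
    (fun _ => rfl)
    (fun u v => by rw [CL.Sp.spForm_B]; exact hP _ _ (fun i => (u i).2) fun i => (v i).2)
    (fun u => alt_q _ _)
  open CL.Tv CL.Root CL.Witt CL.Witt.Form in
  have hf₀ : f₀.Nondeg := R.nondeg (CL.Sp.spForm_nondeg m F) (hR ▸ ratMap_injective F₀ P)
  open CL.Tv CL.Root CL.Witt CL.Witt.Form in
  have hr' : (Module.finrank F₀ F).Prime := by rwa [finrank_eq_of_card F₀ hcard]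
  open CL.Tv CL.Root CL.Witt CL.Witt.Form in
  exact isMaximalIn_subfield R hR hf₀ (sing3_alt f₀) (by simp; omega) hr' mem_spGL_iff_E
    fun K hK hKO g hg => hK.E_le_or_mem_tv hKO hf₀ (CL.Sp.spForm_nondeg m F) (sing3_alt f₀)
      (by simp; omega) hr' (R.cenOK_alt hf₀ (by simp; omega)) one_ne_zero rfl
      (Or.inl fun _ => rfl) dicksonProp hg

end Cfsg.Agent.S5650
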