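import Cfsg.Statements.S5655
import Cfsg.Agent.CLAS.Ref11

set_option autoImplicit false
open Cfsg

namespace Cfsg.Agent.S5655

/-- Let F be the field with q² elements and n ≥ 13. Let D be a decomposition of F^n into t ≥ 2 pairwise orthogonal subspaces of equal dimension k, each non-degenerate for the standard unitary form, spanning F^n. Unless k = 2 and q = 2, the elements of SU_n(q) permuting the members of D form a maximal subgroup of SU_n(q). -/
theorem result {F : Type*} [Field F] [Fintype F] (n q : ℕ) (hF : Fintype.card F = q ^ 2) (hn : 13 ≤ n) {t : ℕ} (k : ℕ) (D : Fin t → Submodule F (Fin n → F)) (hD : Cfsg.Geo.IsNondegenerateMDecomposition (Cfsg.hermForm n F q) k D) (hex : ¬ (k = 2 ∧ q = 2)) : Cfsg.Geo.IsMaximalIn (Cfsg.GU n F q ⊓ Cfsg.Geo.specialLinear (Fin n) F) (Cfsg.Geo.decompositionStabilizer D ⊓ (Cfsg.GU n F q ⊓ Cfsg.Geo.specialLinear (Fin n) F)) := by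
  have h1 := CL.Sp.mul_eq_finrank_of_isMDecomposition hD.decomp
  have h2 := hD.decomp.pos
  obtain rfl | rfl | h3 : k = 1 ∨ k = 2 ∨ 3 ≤ k := by omega
  · exact CL.FGL.su_frame_isMaximalIn hF (by omega) hD
  · exact CL.FGL.su_decomp_isMaximalIn hF hD
      (Or.inr ⟨rfl, by simp at h1; omega, fun e => hex ⟨rfl, e⟩⟩)
  · exact CL.FGL.su_decomp_isMaximalIn hF hD (Or.inl h3)

end Cfsg.Agent.S5655
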