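import Cfsg.Statements.S5658
import Cfsg.Agent.CLAS.RatTv
import Cfsg.Agent.CLAS.DicksonProp

set_option autoImplicit false
open Cfsg

namespace Cfsg.Agent.S5658

/-- Let F be the field with q² elements, n ≥ 13, and F₀ a subfield with |F| = |F₀| ^ r for an odd prime r. Let P be an invertible matrix such that the standard unitary form takes values in F₀ on the F₀-span of the columns of P. Then the elements of SU_n(q) lying in the subfield group of P (the conjugate by P of the product of GL_n(F₀) with the scalars) form a maximal subgroup of SU_n(q). -/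
theorem result {F : Type*} [Field F] [Fintype F] (n q : ℕ) (hF : Fintype.card F = q ^ 2) (hn : 13 ≤ n) (F₀ : Subfield F) (r : ℕ) (hr : r.Prime) (hro : Odd r) (hcard : Fintype.card F = Nat.card F₀ ^ r) (P : Matrix.GeneralLinearGroup (Fin n) F) (hP : Cfsg.Geo.IsFormRationalStructure (Cfsg.hermForm n F q) F₀ 1 P) : Cfsg.Geo.IsMaximalIn (Cfsg.GU n F q ⊓ Cfsg.Geo.specialLinear (Fin n) F) (Cfsg.Geo.subfieldSubgroup F₀ P ⊓ (Cfsg.GU n F q ⊓ Cfsg.Geo.specialLinear (Fin n) F)) := by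
  open CL.Tv CL.Root CL.Witt CL.Witt.Form in
  let σ₀ : F₀ →+* F₀ := ((conjHom hF).comp F₀.subtype).codRestrict F₀ fun c => F₀.pow_mem c.2 q
  open CL.Tv CL.Root CL.Witt CL.Witt.Form in
  have hσ : ∀ c : F₀, conjHom hF c = σ₀ c := fun _ => rfl
  open CL.Tv CL.Root CL.Witt CL.Witt.Form in
  have hσ2 : ∀ c, σ₀ (σ₀ c) = c := fun c => Subtype.ext (conjHom_invol hF c)
  open CL.Tv CL.Root CL.Witt CL.Witt.Form in
  obtain ⟨θ, hθ⟩ := exists_pow_ne_of_odd hF hro hcard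
  have hθ' : σ₀ θ ≠ θ := fun h => hθ (congrArg Subtype.val h)
  have hσ₀ : σ₀ ≠ RingHom.id F₀ := fun h => hθ' (by rw [h]; rfl)
  open CL.Tv CL.Root CL.Witt CL.Witt.Form in
  obtain ⟨f₀, R, hR, -⟩ := exists_ratExt_herm (ratMap_smul F₀ P) (ratMap_span F₀ P) (hermStd hF n)
    hσ₀ hσ2 hσ (fun u v => hP _ _ (fun i => (v i).2) fun i => (u i).2)
  open CL.Tv CL.Root CL.Witt CL.Witt.Form in
  have hf₀ : f₀.Nondeg := R.nondeg (hermStd_nondeg hF n) (hR ▸ ratMap_injective F₀ P)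
  open CL.Tv CL.Root CL.Witt CL.Witt.Form in
  have hr' : (Module.finrank F₀ F).Prime := by rwa [finrank_eq_of_card F₀ hcard]
  open CL.Tv CL.Root CL.Witt CL.Witt.Form in
  obtain ⟨a₀, ha₀, ha₀'⟩ := FormType.exists_add_σ_eq_zero hσ₀ hσ2
  open CL.Tv CL.Root CL.Witt CL.Witt.Form in
  exact isMaximalIn_subfield R hR hf₀ (sing3_herm hσ₀ f₀) (by simp; omega) hr'
    (mem_SU_iff_E hF (by omega))
    fun K hK hKO g hg => hK.E_le_or_mem_tv hKO hf₀ (hermStd_nondeg hF n) (sing3_herm hσ₀ f₀)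
      (by simpa using hn) hr'
      (RatExt.cenOK_of_π hf₀ (sing3_herm hσ₀ f₀) (by simp; omega) (hπ_herm (hermStd_ne_id hF)))
      ha₀ ha₀' (Or.inr ⟨θ, hθ'⟩) dicksonProp hg

end Cfsg.Agent.S5658
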