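import Cfsg.Statements.S5659
import Cfsg.Agent.CLAS.RatStd

set_option autoImplicit false
open Cfsg

namespace Cfsg.Agent.S5659

/-- Let F be the field with q² elements, q odd, n ≥ 13, and F₀ the subfield with q elements. Let P be an invertible matrix such that the standard unitary form takes values in F₀ on the F₀-span of the columns of P (so it restricts to a non-degenerate symmetric bilinear form there). Then the elements of SU_n(q) lying in the subfield group of P form a maximal subgroup of SU_n(q). -/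
theorem result {F : Type*} [Field F] [Fintype F] (n q : ℕ) (hF : Fintype.card F = q ^ 2) (hn : 13 ≤ n) (hodd : Odd q) (F₀ : Subfield F) (hcard : Fintype.card F = Nat.card F₀ ^ 2) (P : Matrix.GeneralLinearGroup (Fin n) F) (hP : Cfsg.Geo.IsFormRationalStructure (Cfsg.hermForm n F q) F₀ 1 P) : Cfsg.Geo.IsMaximalIn (Cfsg.GU n F q ⊓ Cfsg.Geo.specialLinear (Fin n) F) (Cfsg.Geo.subfieldSubgroup F₀ P ⊓ (Cfsg.GU n F q ⊓ Cfsg.Geo.specialLinear (Fin n) F)) := by
  open CL.Tv CL.Root CL.Witt CL.Witt.Form in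
  have hσ : ∀ c : F₀, conjHom hF c = c := pow_eq_of_card hF hcard
  open CL.Tv CL.Root CL.Witt CL.Witt.Form in
  have h2 : (2 : F) ≠ 0 := two_ne_zero_of_odd (by rw [hF]; exact hodd.pow)
  open CL.Tv CL.Root CL.Witt CL.Witt.Form in
  have hB : ∀ u v, 1 * (hermStd hF n).B (ratMap F₀ P u) (ratMap F₀ P v) ∈ F₀ :=
    fun u v => hP _ _ (fun i => (v i).2) fun i => (u i).2
  open CL.Tv CL.Root CL.Witt CL.Witt.Form in
  have hs : ∀ u v, conjHom hF ((hermStd hF n).B (ratMap F₀ P u) (ratMap F₀ P v)) =
      (hermStd hF n).B (ratMap F₀ P u) (ratMap F₀ P v) := fun u v => by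
    simpa using hσ ⟨_, hB u v⟩
  open CL.Tv CL.Root CL.Witt CL.Witt.Form in
  obtain ⟨f₀, R, hR, -⟩ := exists_ratExt_quad (ratMap_smul F₀ P) (ratMap_span F₀ P) (hermStd hF n)
    one_ne_zero hσ (by simp [FormType.herm_ε]) hB
    (fun u => ⟨1 * (hermStd hF n).B (ratMap F₀ P u) (ratMap F₀ P u) / 2,
      F₀.div_mem (hB u u) (by simp)⟩)
    (fun u v => by
      have := (hermStd hF n).herm_symm (ratMap F₀ P u) (ratMap F₀ P v)
      rw [hs] at this
      simp only [map_add, LinearMap.add_apply, this]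
      field_simp; ring)
    (fun c u => Subtype.ext (by
      simp only [ratMap_smul, B_smul_left, B_smul_right, FormType.herm_σ, Subfield.coe_mul]
      change 1 * ((c : F) * (conjHom hF c * _)) / 2 = _
      rw [hσ]; ring))
    (fun v => by
      simp only [map_one, one_mul, FormType.herm_π, herm_q, map_div₀, hs, map_ofNat]
      field_simp; ring)
  open CL.Tv CL.Root CL.Witt CL.Witt.Form in
  have hf₀ : f₀.Nondeg := R.nondeg (hermStd_nondeg hF n) (hR ▸ ratMap_injective F₀ P)
  open CL.Tv CL.Root CL.Witt CL.Witt.Form in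
  have hr := finrank_eq_of_card F₀ hcard
  open CL.Tv CL.Root CL.Witt CL.Witt.Form in
  exact isMaximalIn_subfield R hR hf₀ (sing3_quad f₀) (by simp; omega)
    (by rw [hr]; exact Nat.prime_two) (mem_SU_iff_E hF (by omega))
    fun K hK hKO g hg => hK.E_le_or_mem_two hKO hf₀ (hermStd_nondeg hF n) (sing3_quad f₀)
      (by simpa using hn) hr
      (RatExt.cenOK_of_π hf₀ (sing3_quad f₀) (by simp; omega) (hπ_herm (hermStd_ne_id hF))) hg

end Cfsg.Agent.S5659
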