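import Cfsg.Statements.S5660
import Cfsg.Agent.CLAS.RatStd

set_option autoImplicit false
open Cfsg

namespace Cfsg.Agent.S5660

/-- Let F be the field with q² elements, n ≥ 13 even, and F₀ the subfield with q elements. Let ζ be a non-zero element with ζ + ζ^q = 0 and P an invertible matrix such that ζ times the standard unitary form takes values in F₀ on the F₀-span of the columns of P and the form vanishes on every pair (u, u) of that span (so ζ times the form restricts to a non-degenerate alternating form there). Then the elements of SU_n(q) lying in the subfield group of P form a maximal subgroup of SU_n(q). -/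
theorem result {F : Type*} [Field F] [Fintype F] (n q : ℕ) (hF : Fintype.card F = q ^ 2) (hn : 13 ≤ n) (heven : Even n) (F₀ : Subfield F) (hcard : Fintype.card F = Nat.card F₀ ^ 2) (ζ : F) (hζ0 : ζ ≠ 0) (hζ : ζ + ζ ^ q = 0) (P : Matrix.GeneralLinearGroup (Fin n) F) (hP : Cfsg.Geo.IsFormRationalStructure (Cfsg.hermForm n F q) F₀ ζ P) (halt : ∀ u : Fin n → F, (∀ i, u i ∈ F₀) → Cfsg.hermForm n F q (Matrix.mulVec (P : Matrix (Fin n) (Fin n) F) u) (Matrix.mulVec (P : Matrix (Fin n) (Fin n) F) u) = 0) : Cfsg.Geo.IsMaximalIn (Cfsg.GU n F q ⊓ Cfsg.Geo.specialLinear (Fin n) F) (Cfsg.Geo.subfieldSubgroup F₀ P ⊓ (Cfsg.GU n F q ⊓ Cfsg.Geo.specialLinear (Fin n) F)) := by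
  open CL.Tv CL.Root CL.Witt CL.Witt.Form in
  have hσ : ∀ c : F₀, conjHom hF c = c := pow_eq_of_card hF hcard
  open CL.Tv CL.Root CL.Witt CL.Witt.Form in
  have hζ' : conjHom hF ζ = -ζ := by rw [conjHom_apply]; linear_combination hζ
  open CL.Tv CL.Root CL.Witt CL.Witt.Form in
  obtain ⟨f₀, R, hR, -⟩ := exists_ratExt_alt (ratMap_smul F₀ P) (ratMap_span F₀ P) (hermStd hF n)
    hζ0 hσ (by rw [FormType.herm_ε, FormType.herm_σ, one_mul, hζ'])
    (fun c => by
      rw [FormType.herm_π, FormType.herm_σ, map_mul, conjHom_invol, hσ, hζ']; ring)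
    (fun u v => hP _ _ (fun i => (v i).2) fun i => (u i).2)
    (fun u => by rw [herm_q]; exact halt _ fun i => (u i).2)
  open CL.Tv CL.Root CL.Witt CL.Witt.Form in
  have hf₀ : f₀.Nondeg := R.nondeg (hermStd_nondeg hF n) (hR ▸ ratMap_injective F₀ P)
  open CL.Tv CL.Root CL.Witt CL.Witt.Form in
  have hr := finrank_eq_of_card F₀ hcard
  open CL.Tv CL.Root CL.Witt CL.Witt.Form in
  exact isMaximalIn_subfield R hR hf₀ (sing3_alt f₀) (by simp; omega)
    (by rw [hr]; exact Nat.prime_two) (mem_SU_iff_E hF (by omega))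
    fun K hK hKO g hg => hK.E_le_or_mem_two hKO hf₀ (hermStd_nondeg hF n) (sing3_alt f₀)
      (by simpa using hn) hr
      (RatExt.cenOK_of_π hf₀ (sing3_alt f₀) (by simp; omega) (hπ_herm (hermStd_ne_id hF))) hg

end Cfsg.Agent.S5660
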