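import Cfsg.Statements.S5662
import Cfsg.Agent.CLAS.AschSp

set_option autoImplicit false
open Cfsg

namespace Cfsg.Agent.S5662

open CL.Asch Cfsg.Geo

/-- Subgroup structure of the finite symplectic groups. Let F be a finite field and m ≥ 2 with (m, |F|) ≠ (2, 2), and let Sp_2m(F) be the group of invertible matrices preserving the standard alternating form on F^(2m). Let H be a subgroup of Sp_2m(F) whose product with the scalar matrices ±1 is not all of Sp_2m(F) (H does not cover PSp_2m(F)). Then either H is contained in a member of one of the eight geometric classes of subgroups of Sp_2m(F) (with the conditions built into InSymplecticClass), or H is in the residual class: modulo scalars it is almost simple, and the perfect preimage of its socle acts absolutely irreducibly, is realisable over no proper subfield, and fixes no non-degenerate quadratic form and no non-degenerate unitary form on F^(2m). -/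
theorem result {F : Type*} [Field F] [Fintype F] (m : ℕ) (hm : 2 ≤ m) (hex : ¬ (m = 2 ∧ Fintype.card F = 2)) (H : Subgroup (Matrix.GeneralLinearGroup (Fin m ⊕ Fin m) F)) (hH : H ≤ Cfsg.spGL m F) (hproper : H ⊔ (Cfsg.Geo.scalars (Fin m ⊕ Fin m) F ⊓ Cfsg.spGL m F) ≠ Cfsg.spGL m F) : (∃ M : Subgroup (Matrix.GeneralLinearGroup (Fin m ⊕ Fin m) F), Cfsg.Geo.InSymplecticClass m F M ∧ H ≤ M) ∨ Cfsg.Geo.InSymplecticResidualClass H := by
  have hc : Fintype.card (Fin m ⊕ Fin m) = 2 * m := by simp [two_mul]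
  have hG := herm_J (F := F) m
  haveI : Nonempty (Fin m ⊕ Fin m) := nonempty_of_two_le (by omega)
  simp only [InSymplecticClass, InSymplecticPartialClass, sympForm_eq]
  cases sp_cases (by omega) hG (alt_J m) (fun h hh => mem_spGL.mp (hH hh)) with
  | ts W h0 h hle => exact Or.inl ⟨_, Or.inl (Or.inl ⟨W, h0, h, rfl⟩), le_inf hle hH⟩
  | nd W h0 h hd hle => exact Or.inl ⟨_, Or.inl (Or.inr (Or.inl ⟨W, h0, h, by omega, rfl⟩)), le_inf hle hH⟩
  | dec t k D h hle => exact Or.inl ⟨_, Or.inl (Or.inr (Or.inr (Or.inl ⟨t, k, D, h, rfl⟩))), le_inf hle hH⟩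
  | pair hq k D h hts hex hle =>
    obtain rfl : k = m := by have := card_eq_of_isMDecomposition h; omega
    exact Or.inl ⟨_, Or.inl (Or.inr (Or.inr (Or.inr (Or.inl ⟨D, hq, h, hts, rfl⟩)))), le_inf hle hH⟩
  | sub F₀ r P ζ hr hc h0 h hle => exact Or.inl ⟨_, Or.inl (Or.inr (Or.inr (Or.inr (Or.inr (Or.inl ⟨F₀, r, P, ζ, hr, hc, h0, h, rfl⟩))))), le_inf hle hH⟩
  | c6 R k h htop hc hR hp hq hn hcard hZ hsq hm hle =>
    exact Or.inl ⟨_, Or.inl (Or.inr (Or.inr (Or.inr (Or.inr (Or.inr (Or.inl ⟨R, _, k, h, absIrr_of_alg_top htop, fun x hx => (mem_similarityGroup hG.det_ne).mpr ⟨1, hR x hx⟩, hp, hq, rfl, hcard, hZ, hm, rfl⟩)))))), le_inf hle hH⟩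
  | quad hq Q h hp hle => exact Or.inl ⟨_, Or.inl (Or.inr (Or.inr (Or.inr (Or.inr (Or.inr (Or.inr (⟨Q, hq, h, hp, rfl⟩))))))), le_inf hle hH⟩
  | fld r K hr hK hs h hle =>
    exact Or.inl ⟨_, Or.inr (Or.inl ⟨r, K, hr, hK, fun k hk => isAdj_iff.mp (hs k hk), h, rfl⟩), le_inf hle hH⟩
  | uni hq K hK ha hs hle =>
    exact Or.inl ⟨_, Or.inr (Or.inr (Or.inl ⟨K, hq, hK, fun k hk => (ha k hk).imp fun y hy => ⟨hy.1, isAdj_iff.mp hy.2⟩, fun h => hs fun k hk => isAdj_iff.mpr (h k hk), rfl⟩)), le_inf hle hH⟩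
  | tens hq k l φ ψ G₁ G₂ h hl hex =>
    obtain ⟨e, P, c, -, -, hle, hc0, hP⟩ := h.exists_coord hG
    exact Or.inl ⟨_, Or.inr (Or.inr (Or.inr (Or.inl ⟨k, l, e, P, _, _, hq, hl, isSymplecticForm_gf h.herm₁.det_ne (h.herm₁.alt_of_two_ne (two_ne_zero_of_odd hq)), h.herm₂.isSymmetricForm, isTensorFormStructure_of hc0 hP, rfl⟩))), le_inf hle hH⟩
  | pow hq k t φ G₁ h ht hex =>
    obtain ⟨e, P, c, -, hle, hc0, hP⟩ := h.exists_coord hG
    have h3 : 3 ≤ t := by have := h.fam.two_le_t; obtain ⟨j, rfl⟩ := ht; omega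
    exact Or.inl ⟨_, Or.inr (Or.inr (Or.inr (Or.inr (⟨k, t, e, P, _, hq, ht, h3, hex, isSymplecticForm_gf h.herm.det_ne (h.herm.alt_of_two_ne (two_ne_zero_of_odd hq)), isTensorPowerFormStructure_of hc0 hP, rfl⟩)))), le_inf hle hH⟩
  | res h => exact Or.inr h

end Cfsg.Agent.S5662
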