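import Cfsg.Statements.S5663
import Cfsg.Agent.CLAS.AschSu2

set_option autoImplicit false
open Cfsg

namespace Cfsg.Agent.S5663

open CL.Asch Cfsg.Geo


/-- Subgroup structure of the finite unitary groups. Let F be the field with q² elements and n ≥ 3 with (n, q) ≠ (3, 2), and let SU_n(q) be the group of matrices of determinant one preserving the standard unitary form Σ u_i v_i^q on F^n. Let H be a subgroup of SU_n(q) whose product with the scalar matrices in SU_n(q) is not all of SU_n(q) (H does not cover PSU_n(q)). Then either H is contained in a member of one of the geometric classes of subgroups of the unitary group GU_n(q) (with the conditions built into InUnitaryClass), or H is in the residual class: modulo scalars it is almost simple, and the perfect preimage of its socle acts absolutely irreducibly, is realisable over no proper subfield of F, and fixes no non-degenerate quadratic form and no non-degenerate symplectic form on F^n. -/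
theorem result {F : Type*} [Field F] [Fintype F] (n q : ℕ) (hF : Fintype.card F = q ^ 2) (hn : 3 ≤ n) (hex : ¬ (n = 3 ∧ q = 2)) (H : Subgroup (Matrix.GeneralLinearGroup (Fin n) F)) (hH : H ≤ (Cfsg.GU n F q ⊓ Cfsg.Geo.specialLinear (Fin n) F)) (hproper : H ⊔ (Cfsg.Geo.scalars (Fin n) F ⊓ (Cfsg.GU n F q ⊓ Cfsg.Geo.specialLinear (Fin n) F)) ≠ (Cfsg.GU n F q ⊓ Cfsg.Geo.specialLinear (Fin n) F)) : (∃ M : Subgroup (Matrix.GeneralLinearGroup (Fin n) F), Cfsg.Geo.InUnitaryClass n F q M ∧ H ≤ M) ∨ Cfsg.Geo.InUnitaryResidualClass H := by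
  have hG := herm_sig (ι := Fin n) hF
  have hc : Fintype.card (Fin n) = n := Fintype.card_fin _
  simp only [InUnitaryClass, InUnitaryPartialClass, hermForm_eq hF, GU_eq hF] at hH ⊢
  have hI := hH.trans inf_le_left
  refine (su_cases hF (CL.Uni.sig_apply hF) hG (by omega) hI).imp_left fun ⟨M, hM, hle⟩ => ⟨_, ?_, le_inf hle hI⟩
  cases hM with
  | ts W h0 h => exact Or.inl (Or.inl ⟨W, h0, h, rfl⟩)
  | nd W h0 h hd => exact Or.inl (Or.inr (Or.inl ⟨W, h0, h, by omega, rfl⟩))
  | dec t m D h => exact Or.inl (Or.inr (Or.inr (Or.inl ⟨t, m, D, h, rfl⟩)))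
  | pair m D h hts => exact Or.inl (Or.inr (Or.inr (Or.inr (Or.inl ⟨m, D, (card_eq_of_isMDecomposition h).symm.trans hc, h, hts, rfl⟩))))
  | sub F₀ r P hr ho h1 h => exact Or.inl (Or.inr (Or.inr (Or.inr (Or.inr (Or.inl ⟨F₀, r, P, hr, ho, h1, h, rfl⟩)))))
  | so hq F₀ P h1 h => exact Or.inl (Or.inr (Or.inr (Or.inr (Or.inr (Or.inr (Or.inl ⟨F₀, P, hq, h1, h, rfl⟩))))))
  | sp hn F₀ P ζ h1 h0 hζ h halt => exact Or.inl (Or.inr (Or.inr (Or.inr (Or.inr (Or.inr (Or.inr (Or.inl ⟨F₀, P, ζ, hc ▸ hn, h1, h0, hζ, h, halt, rfl⟩)))))))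
  | c6 r k p e R h htop h1 hR hrp hm hk hn hZ => exact Or.inl (Or.inr (Or.inr (Or.inr (Or.inr (Or.inr (Or.inr (Or.inr (⟨r, R, p, e, k, h, absIrr_of_alg_top htop, hR.trans (isoGrp_le_sim _), hrp, hm, hZ.imp_left fun h => ⟨h.1, h.2.1, hk, h.2.2⟩, rfl⟩))))))))
  | fld r K hr ho hK ha => exact Or.inr (Or.inl ⟨r, K, hr, ho, hK, adjClosed_of ha, rfl⟩)
  | tens k l e P c hk hkl hex h0 h => exact Or.inr (Or.inr (Or.inl ⟨k, l, e, P, _, _, hk, hkl, (herm_sig hF).isUnitaryFormPow (CL.Uni.sig_apply hF), (herm_sig hF).isUnitaryFormPow (CL.Uni.sig_apply hF), isTensorFormStructure_of h0 h, rfl⟩))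
  | pow m t e P G₁ c hm ht hex h1 h0 h => exact Or.inr (Or.inr (Or.inr (⟨m, t, e, P, _, hm, ht, fun h => by have := hex h.2; omega, h1.isUnitaryFormPow (CL.Uni.sig_apply hF), isTensorPowerFormStructure_of h0 h, rfl⟩)))

end Cfsg.Agent.S5663
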