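import Cfsg.Statements.S5665
import Cfsg.Agent.CLAS.UniOverStd

set_option autoImplicit false
open Cfsg

namespace Cfsg.Agent.S5665

/-- For a finite field F of odd order and m ≥ 7, let K be a subfield of the algebra of 2m × 2m matrices over F containing the scalars, of degree 2 over F, that is closed under adjoints for the standard alternating form on F^(2m) but whose elements are not all self-adjoint (so the adjoint map induces the automorphism of order two of K). Then the elements of Sp_2m(F) normalising K form a maximal subgroup of Sp_2m(F). -/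
theorem result {F : Type*} [Field F] [Fintype F] (m : ℕ) (hm : 7 ≤ m) (hodd : Odd (Fintype.card F)) (K : Subalgebra F (Matrix (Fin m ⊕ Fin m) (Fin m ⊕ Fin m) F)) (hK : Cfsg.Geo.IsFieldSubalgebra 2 K) (hac : Cfsg.Geo.IsAdjointClosedFor (Cfsg.sympForm m F) K) (hnsa : ¬ Cfsg.Geo.IsSelfAdjointFor (Cfsg.sympForm m F) K) : Cfsg.Geo.IsMaximalIn (Cfsg.spGL m F) (Cfsg.Geo.subalgebraNormalizer K ⊓ Cfsg.spGL m F) := by
  have : Nonempty (Fin m ⊕ Fin m) := ⟨Sum.inl ⟨0, by omega⟩⟩
  have hf := CL.Sp.spForm_nondeg m F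
  obtain ⟨E, _, _, _, _, h2, hE⟩ := CL.Root.exists_field_of_isFieldSubalgebra hK
  have hA : ∀ k : E, ∃ A ∈ K, ∀ v, Matrix.mulVec A v = k • v := fun k =>
    ⟨LinearMap.toMatrix' ((LinearMap.lsmul E _ k).restrictScalars F),
      (hE _).2 ⟨k, fun v => LinearMap.toMatrix'_mulVec _ v⟩, fun v => LinearMap.toMatrix'_mulVec _ v⟩
  obtain ⟨τ, hτ, h, ⟨U⟩⟩ := CL.Root.exists_uExt_alt hf h2 (fun k => by
    obtain ⟨A, hA, e⟩ := hA k
    obtain ⟨A', hA', e'⟩ := hac A hA
    obtain ⟨k', hk'⟩ := (hE _).1 hA'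
    exact ⟨k', fun u v => by
      rw [← e, ← hk', CL.Sp.spForm_B, CL.Sp.spForm_B]; exact e' u v⟩) (fun H => hnsa fun A hA u v => by
    obtain ⟨k, hk⟩ := (hE _).1 hA
    rw [hk, hk, ← CL.Sp.spForm_B, ← CL.Sp.spForm_B]; exact H k u v)
  refine CL.Root.isMaximalIn_normE hf hE h2 (by simp; omega) U (fun a _ => ⟨a / 2, ?_⟩)
    (by rw [hf.alt_E_eq_O]; exact Subgroup.commutator_le_self _) CL.Root.mem_spGL_iff_E
  have := CL.Root.two_ne_zero_of_odd hodd
  rw [CL.Witt.FormType.alt_ε, CL.Witt.FormType.alt_σ]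
  field_simp
  ring

end Cfsg.Agent.S5665
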