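import Cfsg.Statements.S5667
import Cfsg.Agent.CLAS.TensorNonMax

set_option autoImplicit false
open Cfsg

namespace Cfsg.Agent.S5667

open CL.FGL CL.Witt CL.Witt.Form CL.Asch


/-- Over the field with 3 elements and for m ≥ 7, suppose the standard alternating form on F^(2m) is similar, through P and e, to the tensor product of a non-degenerate symplectic form f₁ on F^(n₁) and a non-degenerate symmetric bilinear form f₂ on F^3. Then the elements of Sp_2m(3) in the stabiliser of this tensor decomposition form a subgroup that is not maximal: some subgroup lies strictly between it and Sp_2m(3). -/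
theorem result {F : Type*} [Field F] [Fintype F] (m : ℕ) (hm : 7 ≤ m) (hq : Fintype.card F = 3) (n₁ : ℕ) (e : (Fin m ⊕ Fin m) ≃ Fin n₁ × Fin 3) (P : Matrix.GeneralLinearGroup (Fin m ⊕ Fin m) F) (f₁ : (Fin n₁ → F) → (Fin n₁ → F) → F) (f₂ : (Fin 3 → F) → (Fin 3 → F) → F) (hf₁ : Cfsg.Geo.IsSymplecticForm f₁) (hf₂ : Cfsg.Geo.IsSymmetricForm f₂) (hT : Cfsg.Geo.IsTensorFormStructure id (Cfsg.sympForm m F) f₁ f₂ e P) : ∃ K : Subgroup (Matrix.GeneralLinearGroup (Fin m ⊕ Fin m) F), Cfsg.Geo.tensorProductSubgroup n₁ 3 e P ⊓ Cfsg.spGL m F < K ∧ K < Cfsg.spGL m F := by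
  obtain ⟨c, hc, h⟩ := form_tens (IsBilinearForm.eq_gf hf₁.bilinear)
    (IsBilinearForm.eq_gf hf₂.bilinear) hT
  have := Fintype.card_congr e
  exact between_three hq (CL.Sp.spForm_nondeg m F) (alt_iso3 _) (contr_tens_flip e P) hf₂
    hf₁.nondegenerate (by simp at this ⊢; omega)
    (fun x y x' y' => by rw [CL.Sp.spForm_B]; simp [h, hc, or_comm])
    (fun _ => mem_spGL_iff_E) fun _ hg => (isKron_of_mem hg).flip

end Cfsg.Agent.S5667
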