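import Cfsg.Statements.S5675
import Cfsg.Agent.CLAS.MaxSub

set_option autoImplicit false
open Cfsg

namespace Cfsg.Agent.S5675

/-- Let F be a finite field of odd order q, m ≥ 6, Q the standard quadratic form on F^(2m+1) and Ω the commutator subgroup of its isometry group. Let W be a non-zero subspace of even dimension on which the polar form of Q is non-degenerate; exclude the case q = 3, dim W = 2 with Q vanishing on some line of W (a plus-type plane). Then the elements of Ω stabilising W (equivalently, stabilising its orthogonal complement, of odd dimension) form a maximal subgroup of Ω. -/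
theorem result {F : Type*} [Field F] [Fintype F] (hodd : Odd (Fintype.card F)) (m : ℕ) (hm : 6 ≤ m) (W : Submodule F (Unit ⊕ (Fin m ⊕ Fin m) → F)) (hW0 : W ≠ ⊥) (hev : Even (Module.finrank F W)) (hW : Cfsg.Geo.IsNondegenerateOn (QuadraticMap.polar (Cfsg.quadFormOdd m F)) W) (hex : ¬ (Fintype.card F = 3 ∧ Module.finrank F W = 2 ∧ Cfsg.Geo.IsPlusTypeOn (Cfsg.quadFormOdd m F) W)) : Cfsg.Geo.IsMaximalIn (Cfsg.Geo.omegaGL (Cfsg.quadFormOdd m F)) (Cfsg.Geo.subspaceStabilizer W ⊓ Cfsg.Geo.omegaGL (Cfsg.quadFormOdd m F)) := by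
  have hf := CL.FGL.QOdd_nondeg' (m := m) hodd
  have hW' := CL.FGL.restrict_nondeg_of _ (CL.FGL.quad_B_iff (CL.Orth.QOdd m F)) hW
  have hΩ := fun g => CL.FGL.mem_omegaGL_iff_E (CL.Orth.QOdd m F) hf (by simp; omega) (g := g)
  have h1 := hf.finrank_add_finrank_perp W
  have hc : Fintype.card (Unit ⊕ (Fin m ⊕ Fin m)) = 2 * m + 1 := by simp; omega
  rw [CL.FGL.finrank_fun, hc] at h1
  obtain ⟨k, hk⟩ := hev
  by_cases h : 2 * Module.finrank F W < 2 * m + 1
  · refine CL.FGL.nondeg_isMaximalIn_of_lt hf (CL.Witt.Form.quad_iso3 _) hΩ (by omega) hW' hW0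
      (by omega) (CL.FGL.quad_oIrr_restrict _ hW' fun h => hex ⟨?_, h.2⟩)
    have := Fintype.one_lt_card (α := F)
    have := h.1
    obtain ⟨j, hj⟩ := hodd
    omega
  · refine CL.FGL.nondeg_isMaximalIn_of_gt hf (CL.Witt.Form.quad_iso3 _) hΩ (by omega) hW'
      ?_ (by omega) (CL.FGL.quad_oIrr_restrict _ (hf.restrict_perp hW') fun h => ?_)
    · rintro rfl
      rw [finrank_top, CL.FGL.finrank_fun, hc] at hk
      omega
    · have := h.2.1
      omega

end Cfsg.Agent.S5675
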