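import Cfsg.Statements.S5677
import Cfsg.Agent.CLAS.Ref5

set_option autoImplicit false
open Cfsg

namespace Cfsg.Agent.S5677

/-- Let F be a finite field of odd order q, m ≥ 6, Q the standard quadratic form on F^(2m+1) and Ω the commutator subgroup of its isometry group. Let D be a decomposition of F^(2m+1) into t ≥ 2 pairwise orthogonal, pairwise Q-isometric subspaces of equal dimension k > 1 on which the polar form is non-degenerate. Unless q = 3 and k = 3, the elements of Ω permuting the members of D form a maximal subgroup of Ω. -/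
theorem result {F : Type*} [Field F] [Fintype F] (hodd : Odd (Fintype.card F)) (m : ℕ) (hm : 6 ≤ m) {t : ℕ} (k : ℕ) (hk : 1 < k) (D : Fin t → Submodule F (Unit ⊕ (Fin m ⊕ Fin m) → F)) (hD : Cfsg.Geo.IsOrthogonalMDecomposition (Cfsg.quadFormOdd m F) k D) (hex : ¬ (Fintype.card F = 3 ∧ k = 3)) : Cfsg.Geo.IsMaximalIn (Cfsg.Geo.omegaGL (Cfsg.quadFormOdd m F)) (Cfsg.Geo.decompositionStabilizer D ⊓ Cfsg.Geo.omegaGL (Cfsg.quadFormOdd m F)) := by
  have hn := CL.Sp.mul_eq_finrank_of_isMDecomposition hD.decomp.decomp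
  have hk2 : Odd k := by
    refine Nat.not_even_iff_odd.1 fun h => ?_
    have := h.mul_left t
    rw [hn] at this
    simp [parity_simps] at this
  have h2 : k ≠ 2 := by rintro rfl; exact absurd hk2 (by decide)
  exact CL.FGL.quad_decomp_isMaximalIn3 (CL.Orth.QOdd m F) (CL.FGL.QOdd_nondeg' hodd) hD (by omega)
    (fun h h' => hex ⟨h', h⟩) fun h => absurd (h ▸ hk2) (by decide)

end Cfsg.Agent.S5677
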