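import Cfsg.Statements.S5680
import Cfsg.Agent.CLAS.ExtO7
import Cfsg.Agent.CLAS.Ref8

set_option autoImplicit false
open Cfsg

namespace Cfsg.Agent.S5680

/-- Let F be a finite field of odd order, m ≥ 6, Q the standard quadratic form on F^(2m+1) and Ω the commutator subgroup of its isometry group. Let K be a subfield of the algebra of (2m+1) × (2m+1) matrices over F containing the scalars, of prime degree r over F with r ≠ 2m + 1, whose elements are self-adjoint for the polar form of Q. Then the elements of Ω normalising K form a maximal subgroup of Ω. -/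
theorem result {F : Type*} [Field F] [Fintype F] (hodd : Odd (Fintype.card F)) (m : ℕ) (hm : 6 ≤ m) (r : ℕ) (hr : r.Prime) (hrn : 2 * m + 1 ≠ r) (K : Subalgebra F (Matrix (Unit ⊕ (Fin m ⊕ Fin m)) (Unit ⊕ (Fin m ⊕ Fin m)) F)) (hK : Cfsg.Geo.IsFieldSubalgebra r K) (hsa : Cfsg.Geo.IsSelfAdjointFor (QuadraticMap.polar (Cfsg.quadFormOdd m F)) K) : Cfsg.Geo.IsMaximalIn (Cfsg.Geo.omegaGL (Cfsg.quadFormOdd m F)) (Cfsg.Geo.subalgebraNormalizer K ⊓ Cfsg.Geo.omegaGL (Cfsg.quadFormOdd m F)) := by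
  have hQ := CL.FGL.isNondegenerateQuadraticForm_of (CL.Orth.QOdd m F)
    (CL.FGL.QOdd_nondeg' (m := m) hodd)
  have h2 := CL.Root.two_ne_zero_of_odd hodd
  have hc : Fintype.card (Unit ⊕ (Fin m ⊕ Fin m)) = 2 * m + 1 := by simp; omega
  obtain ⟨L, _, _, _, _, _, _, -, h3, -⟩ := CL.ExtF.exists_ext_model hK
  rw [hc] at h3
  generalize Module.finrank L (Unit ⊕ (Fin m ⊕ Fin m) → F) = k at h3
  have h4 : Odd (r * k) := h3 ▸ odd_two_mul_add_one m
  obtain ⟨h5, h6⟩ := Nat.odd_mul.1 h4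
  have h7 : 3 ≤ r := by
    have := hr.two_le
    rw [Nat.odd_iff] at h5
    omega
  have h8 : k ≠ 1 := by rintro rfl; omega
  rcases eq_or_ne k 3 with rfl | h9
  · exact CL.ExtF.omega_ext_maximal_three hQ h2 hr h7 (by omega) hK hsa
  · refine CL.ExtF.omega_ext_maximal hQ h2 hr ?_ (Or.inl (by omega)) hK hsa
    rw [Nat.odd_iff] at h6
    have : r * 4 ≤ r * k := Nat.mul_le_mul_left _ (by omega)
    omega

end Cfsg.Agent.S5680
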