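import Cfsg.Statements.S5687
import Cfsg.Agent.CLAS.FormGL

set_option autoImplicit false
open Cfsg

namespace Cfsg.Agent.S5687

/-- Let F be a finite field with q elements, n ≥ 13 even, Q a non-degenerate quadratic form on F^n of minus type (no subspace of dimension n/2 is totally singular), and Ω the commutator subgroup of the isometry group of Q, viewed inside GL_n(F). The elements of Ω stabilising a non-zero subspace on which Q vanishes form a maximal subgroup of Ω. -/
theorem result {F : Type*} [Field F] [Fintype F] {n : ℕ} (hn : 13 ≤ n) (heven : Even n) (Q : (Fin n → F) → F) (hQ : Cfsg.Geo.IsNondegenerateQuadraticForm Q) (hminus : ¬ Cfsg.Geo.IsPlusTypeOn Q ⊤) (W : Submodule F (Fin n → F)) (hW0 : W ≠ ⊥) (hW : Cfsg.Geo.IsTotallySingularQuad Q W) : Cfsg.Geo.IsMaximalIn (Cfsg.Geo.omegaGL Q) (Cfsg.Geo.subspaceStabilizer W ⊓ Cfsg.Geo.omegaGL Q) := by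
  have hQ' := CL.FGL.quadOf_nondeg hQ
  have hW' := (CL.FGL.quad_totSing_iff' (CL.FGL.quadOf hQ)).1 hW
  refine CL.FGL.parabolic_isMaximalIn hQ'
    (fun _ => CL.FGL.mem_omegaGL_iff_E (CL.FGL.quadOf hQ) hQ' (by simp; omega))
    (Or.inr (by simp; omega)) hW0 hW' ?_
  by_cases hdim : 2 * (Module.finrank F W + 1) = n
  · refine Or.inr fun x hx hq => ?_
    by_contra hxW
    refine hminus ⟨W ⊔ F ∙ x, le_top,
      (CL.FGL.quad_totSing_iff' (CL.FGL.quadOf hQ)).2 (hW'.sup_span hq hx), ?_⟩
    rw [Submodule.finrank_sup_span_singleton hxW]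
    simpa using hdim
  · exact Or.inl (Or.inr (by simpa using hdim))

end Cfsg.Agent.S5687
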