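import Cfsg.Statements.S5691
import Cfsg.Agent.CLAS.MaxSub

set_option autoImplicit false
open Cfsg

namespace Cfsg.Agent.S5691

/-- Let F be a finite field with q elements, n ≥ 13 even, Q a non-degenerate quadratic form on F^n (of either type), and Ω the commutator subgroup of the isometry group of Q, viewed inside GL_n(F). Suppose q is even and v is a vector with Q(v) ≠ 0. Then the elements of Ω stabilising the line spanned by v form a maximal subgroup of Ω. -/
theorem result {F : Type*} [Field F] [Fintype F] {n : ℕ} (hn : 13 ≤ n) (heven : Even n) (Q : (Fin n → F) → F) (hQ : Cfsg.Geo.IsNondegenerateQuadraticForm Q) (hchar : ¬ Odd (Fintype.card F)) (v : (Fin n → F)) (hv : Q v ≠ 0) : Cfsg.Geo.IsMaximalIn (Cfsg.Geo.omegaGL Q) (Cfsg.Geo.subspaceStabilizer (Submodule.span F {v}) ⊓ Cfsg.Geo.omegaGL Q) := by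
  have hf := CL.FGL.quadOf_nondeg hQ
  have h3 := CL.Witt.Form.quad_iso3 (CL.Witt.Form.ofQuad (CL.FGL.quadOf hQ))
  have hv0 : v ≠ 0 := by rintro rfl; exact hv (CL.Witt.Form.ofQuad (CL.FGL.quadOf hQ)).q_zero
  obtain ⟨x, hx0, hx⟩ := h3.exists_singular (by simp; omega)
  refine CL.FGL.isMaximalIn_of_equiv (CL.Orth.glEquiv _ F)
    (fun _ => CL.FGL.mem_omegaGL_iff_E (CL.FGL.quadOf hQ) hf (by simp; omega))
    (fun _ _ => CL.FGL.mem_subspaceStabilizer)
    (hf.not_E_le_stab' (Or.inr (by simp; omega)) hx hx0 (by simpa using hv0) fun h => ?_)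
    fun M h1 h2 g hg hg' => hf.E_le_of_stab_nonsingular h3 hv ?_ (by simp; omega) h1
      (CL.Witt.Form.E_le_O (h2 hg)) hg hg'
  · have := finrank_span_singleton (K := F) hv0
    rw [h] at this
    simp at this
    omega
  · rw [CL.Witt.Form.quad_B_self, CL.FGL.two_eq_zero_of_not_odd hchar, zero_mul]

end Cfsg.Agent.S5691
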