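import Cfsg.Statements.S5699
import Cfsg.Agent.CLAS.MaxSubQuad

set_option autoImplicit false
open Cfsg

namespace Cfsg.Agent.S5699

/-- Let F be a finite field with q elements, n ≥ 13 even, Q a non-degenerate quadratic form on F^n (of either type), and Ω the commutator subgroup of the isometry group of Q, viewed inside GL_n(F). Let D be a decomposition of F^n into two orthogonal subspaces of odd dimension n/2 on which the polar form is non-degenerate and which are not Q-isometric to each other. Then the elements of Ω permuting (necessarily fixing) the two subspaces form a maximal subgroup of Ω. -/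
theorem result {F : Type*} [Field F] [Fintype F] {n : ℕ} (hn : 13 ≤ n) (heven : Even n) (Q : (Fin n → F) → F) (hQ : Cfsg.Geo.IsNondegenerateQuadraticForm Q) (k : ℕ) (hk : 2 * k = n) (hko : Odd k) (D : Fin 2 → Submodule F (Fin n → F)) (hD : Cfsg.Geo.IsNondegenerateMDecomposition (QuadraticMap.polar Q) k D) (hni : ¬ Cfsg.Geo.AreIsometricFor Q (D 0) (D 1)) : Cfsg.Geo.IsMaximalIn (Cfsg.Geo.omegaGL Q) (Cfsg.Geo.decompositionStabilizer D ⊓ Cfsg.Geo.omegaGL Q) := by
  have hf := CL.FGL.quadOf_nondeg hQ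
  set f := CL.Witt.Form.ofQuad (CL.FGL.quadOf hQ) with hfdef
  have hk0 := hD.decomp.finrank_eq 0
  have hk1 := hD.decomp.finrank_eq 1
  have h1 := hf.finrank_add_finrank_perp (D 0)
  rw [CL.FGL.finrank_fun, Fintype.card_fin] at h1
  have hperp : D 1 = f.perp (D 0) :=
    Submodule.eq_of_le_of_finrank_eq
      ((CL.FGL.areOrthogonalFor_iff f (CL.FGL.quad_B_iff _)).1 (hD.orthogonal 0 1 (by decide)))
      (by omega)
  have hne : ∀ g ∈ f.O, ¬ ∀ w ∈ D 0, g w ∈ f.perp (D 0) := by
    intro g hg H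
    rw [← hperp] at H
    have hmap : (D 0).map (g : (Fin n → F) →ₗ[F] (Fin n → F)) = D 1 :=
      Submodule.eq_of_le_of_finrank_eq (by rintro _ ⟨w, hw, rfl⟩; exact H w hw)
        (by rw [LinearEquiv.finrank_map_eq, hk0, hk1])
    exact hni ⟨(g.submoduleMap (D 0)).trans (LinearEquiv.ofEq _ _ hmap), fun w =>
      CL.Witt.Form.mem_O_q hg (w : Fin n → F)⟩
  have hmax := CL.FGL.quad_nondeg_isMaximalIn (by omega) hQ (W := D 0)
    (by intro h; rw [h, finrank_bot] at hk0; omega)
    (by intro h; rw [h, finrank_top, CL.FGL.finrank_fun, Fintype.card_fin] at hk0; omega)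
    (hD.nondegenerate 0) (fun _ => hne) (by
      rintro ⟨-, U, hU, -, -, rfl | ⟨-, h⟩⟩
      · rw [hU] at hk0; omega
      · omega)
  have heq : Cfsg.Geo.decompositionStabilizer D ⊓ Cfsg.Geo.omegaGL Q =
      Cfsg.Geo.subspaceStabilizer (D 0) ⊓ Cfsg.Geo.omegaGL Q := by
    ext g
    simp only [Subgroup.mem_inf, and_congr_left_iff]
    intro hg
    have hgO : CL.Orth.glEquiv _ F g ∈ f.O := CL.Witt.Form.E_le_O
      ((CL.FGL.mem_omegaGL_iff_E (CL.FGL.quadOf hQ) hf (by simp; omega)).1 hg)
    rw [CL.FGL.mem_decompositionStabilizer, CL.FGL.mem_subspaceStabilizer]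
    constructor
    · rintro ⟨σ, hσ⟩
      have h0 := hσ 0
      by_cases hs : σ 0 = 0
      · rw [hs] at h0
        exact CL.Witt.mem_stab_iff_map.2 h0
      · have hs1 : σ 0 = 1 := by omega
        rw [hs1, hperp] at h0
        exact absurd (fun w hw => h0.le ⟨w, hw, rfl⟩) (hne _ hgO)
    · intro h
      refine ⟨1, Fin.forall_fin_two.2 ⟨CL.Witt.mem_stab_iff_map.1 h, ?_⟩⟩
      have := CL.Witt.Form.mem_stab_perp hgO h
      rw [← hperp] at this
      exact CL.Witt.mem_stab_iff_map.1 this
  rwa [heq]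

end Cfsg.Agent.S5699
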