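import Cfsg.Statements.S5700
import Cfsg.Agent.CLAS.UniOverStd

set_option autoImplicit false
open Cfsg

namespace Cfsg.Agent.S5700

/-- Let F be a finite field with q elements, n ≥ 13 even, Q a non-degenerate quadratic form on F^n (of either type), and Ω the commutator subgroup of the isometry group of Q, viewed inside GL_n(F). Let K be a subfield of the algebra of n × n matrices over F containing the scalars, of degree 2 over F, closed under adjoints for the polar form of Q but not consisting of self-adjoint elements, and such that every k in K rescales Q (Q(k v) = c Q(v) for a constant c depending on k). Then the elements of Ω normalising K form a maximal subgroup of Ω. -/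
theorem result {F : Type*} [Field F] [Fintype F] {n : ℕ} (hn : 13 ≤ n) (heven : Even n) (Q : (Fin n → F) → F) (hQ : Cfsg.Geo.IsNondegenerateQuadraticForm Q) (K : Subalgebra F (Matrix (Fin n) (Fin n) F)) (hK : Cfsg.Geo.IsFieldSubalgebra 2 K) (hac : Cfsg.Geo.IsAdjointClosedFor (QuadraticMap.polar Q) K) (hnsa : ¬ Cfsg.Geo.IsSelfAdjointFor (QuadraticMap.polar Q) K) (hsc : ∀ k ∈ K, ∃ c : F, ∀ v : (Fin n → F), Q (Matrix.mulVec k v) = c * Q v) : Cfsg.Geo.IsMaximalIn (Cfsg.Geo.omegaGL Q) (Cfsg.Geo.subalgebraNormalizer K ⊓ Cfsg.Geo.omegaGL Q) := by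
  have : Nonempty (Fin n) := ⟨⟨0, by omega⟩⟩
  have hf := CL.Root.quadOfGeo_nondeg hQ
  obtain ⟨E, _, _, _, _, h2, hE⟩ := CL.Root.exists_field_of_isFieldSubalgebra hK
  have hA : ∀ k : E, ∃ A ∈ K, ∀ v, Matrix.mulVec A v = k • v := fun k =>
    ⟨LinearMap.toMatrix' ((LinearMap.lsmul E _ k).restrictScalars F),
      (hE _).2 ⟨k, fun v => LinearMap.toMatrix'_mulVec _ v⟩, fun v => LinearMap.toMatrix'_mulVec _ v⟩
  obtain ⟨τ, hτ, h, ⟨U⟩⟩ := CL.Root.exists_uExt_quad hf h2 (fun k => by
    obtain ⟨A, hA, e⟩ := hA k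
    obtain ⟨A', hA', e'⟩ := hac A hA
    obtain ⟨k', hk'⟩ := (hE _).1 hA'
    exact ⟨k', fun u v => by rw [← e, ← hk']; exact e' u v⟩) (fun H => hnsa fun A hA u v => by
    obtain ⟨k, hk⟩ := (hE _).1 hA
    rw [hk, hk]; exact H k u v) (fun k => by
    obtain ⟨A, hA, e⟩ := hA k
    obtain ⟨c, hc⟩ := hsc A hA
    exact ⟨c, fun v => by rw [← e]; exact hc v⟩)
  have h5 : 5 ≤ Module.finrank F (Fin n → F) := by simp; omega
  exact CL.Root.isMaximalIn_normE hf hE h2 (by simpa using hn) U CL.Root.hπ_quad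
    (hf.commutator_O_le_E ((CL.Witt.Form.quad_iso3 _).idx2 hf h5))
    (CL.Root.mem_omegaGL_iff_E hf (by simp; omega))

end Cfsg.Agent.S5700
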