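import Cfsg.Statements.S5784
import Cfsg.Agent.CLAS.AschSu5

set_option autoImplicit false
open Cfsg

namespace Cfsg.Agent.S5784

open CL.Asch Cfsg.Geo


/-- Every maximal subgroup of SU_4(q) is of one of the listed geometric types or lies in the residual class. Let F be the field with q² elements, f the standard unitary form Σ u_i v_i^q on F^4, and H a maximal subgroup of SU_4(q) (inside GL_4(F)). Then H is the intersection with SU_4(q) of one of: the stabiliser of a non-zero subspace on which f vanishes; the stabiliser of a non-degenerate 1-space; for q ≠ 3, the stabiliser of a decomposition into four mutually orthogonal non-degenerate 1-spaces; for q ≥ 3, of a decomposition into two orthogonal non-degenerate 2-spaces; for q ≥ 4, of a decomposition into two totally isotropic 2-spaces; a subfield group of odd prime index whose F₀-structure carries f; a subfield group of index 2 whose F₀-structure carries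 ζ f, vanishing on pairs (u, u), for some non-zero ζ with ζ + ζ^q = 0; for q odd, a subfield group of index 2 whose F₀-structure carries f; for q = p ≡ 3 mod 4 prime, the normaliser of an absolutely irreducible symplectic-type 2-group of exponent 4, order 64 and centre of order 4 inside the similarity group of f — or else H lies in the residual class of the unitary case. -/
theorem result {F : Type*} [Field F] [Fintype F] (q : ℕ) (hF : Fintype.card F = q ^ 2) (H : Subgroup (Matrix.GeneralLinearGroup (Fin 4) F)) (hH : Cfsg.Geo.IsMaximalIn (Cfsg.GU 4 F q ⊓ Cfsg.Geo.specialLinear (Fin 4) F) H) :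
    (∃ W : Submodule F (Fin 4 → F), W ≠ ⊥ ∧ Cfsg.Geo.IsTotallySingularFor (Cfsg.hermForm 4 F q) W ∧ H = Cfsg.Geo.subspaceStabilizer W ⊓ (Cfsg.GU 4 F q ⊓ Cfsg.Geo.specialLinear (Fin 4) F)) ∨
    (∃ W : Submodule F (Fin 4 → F), W ≠ ⊥ ∧ Cfsg.Geo.IsNondegenerateOn (Cfsg.hermForm 4 F q) W ∧ 2 * Module.finrank F W < 4 ∧ H = Cfsg.Geo.subspaceStabilizer W ⊓ (Cfsg.GU 4 F q ⊓ Cfsg.Geo.specialLinear (Fin 4) F)) ∨
    (q ≠ 3 ∧ ∃ D : Fin 4 → Submodule F (Fin 4 → F), Cfsg.Geo.IsNondegenerateMDecomposition (Cfsg.hermForm 4 F q) 1 D ∧ H = Cfsg.Geo.decompositionStabilizer D ⊓ (Cfsg.GU 4 F q ⊓ Cfsg.Geo.specialLinear (Fin 4) F)) ∨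
    (3 ≤ q ∧ ∃ D : Fin 2 → Submodule F (Fin 4 → F), Cfsg.Geo.IsNondegenerateMDecomposition (Cfsg.hermForm 4 F q) 2 D ∧ H = Cfsg.Geo.decompositionStabilizer D ⊓ (Cfsg.GU 4 F q ⊓ Cfsg.Geo.specialLinear (Fin 4) F)) ∨
    (4 ≤ q ∧ ∃ D : Fin 2 → Submodule F (Fin 4 → F), Cfsg.Geo.IsMDecomposition 2 D ∧ (∀ i, Cfsg.Geo.IsTotallySingularFor (Cfsg.hermForm 4 F q) (D i)) ∧ H = Cfsg.Geo.decompositionStabilizer D ⊓ (Cfsg.GU 4 F q ⊓ Cfsg.Geo.specialLinear (Fin 4) F)) ∨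
    (∃ (F₀ : Subfield F) (r : ℕ) (P : Matrix.GeneralLinearGroup (Fin 4) F), r.Prime ∧ Odd r ∧ Fintype.card F = Nat.card F₀ ^ r ∧ Cfsg.Geo.IsFormRationalStructure (Cfsg.hermForm 4 F q) F₀ 1 P ∧ H = Cfsg.Geo.subfieldSubgroup F₀ P ⊓ (Cfsg.GU 4 F q ⊓ Cfsg.Geo.specialLinear (Fin 4) F)) ∨
    (∃ (F₀ : Subfield F) (P : Matrix.GeneralLinearGroup (Fin 4) F) (ζ : F), Fintype.card F = Nat.card F₀ ^ 2 ∧ ζ ≠ 0 ∧ ζ + ζ ^ q = 0 ∧ Cfsg.Geo.IsFormRationalStructure (Cfsg.hermForm 4 F q) F₀ ζ P ∧ (∀ u : Fin 4 → F, (∀ i, u i ∈ F₀) → (Cfsg.hermForm 4 F q) (Matrix.mulVec (P : Matrix (Fin 4) (Fin 4) F) u) (Matrix.mulVec (P : Matrix (Fin 4) (Fin 4) F) u) = 0) ∧ H = Cfsg.Geo.subfieldSubgroup F₀ P ⊓ (Cfsg.GU 4 F q ⊓ Cfsg.Geo.specialLinear (Fin 4) F)) ∨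
    (Odd q ∧ ∃ (F₀ : Subfield F) (P : Matrix.GeneralLinearGroup (Fin 4) F), Fintype.card F = Nat.card F₀ ^ 2 ∧ Cfsg.Geo.IsFormRationalStructure (Cfsg.hermForm 4 F q) F₀ 1 P ∧ H = Cfsg.Geo.subfieldSubgroup F₀ P ⊓ (Cfsg.GU 4 F q ⊓ Cfsg.Geo.specialLinear (Fin 4) F)) ∨
    (∃ (p : ℕ) (R : Subgroup (Matrix.GeneralLinearGroup (Fin 4) F)), p.Prime ∧ q = p ∧ p % 4 = 3 ∧ Cfsg.Geo.IsSymplecticTypeGroup 2 R ∧ Cfsg.Geo.ActsAbsolutelyIrreducibly (Cfsg.Geo.matrixSet R) ∧ R ≤ Cfsg.Geo.similarityGroup (Cfsg.hermForm 4 F q) ∧ Nat.card R = 64 ∧ Nat.card (Subgroup.center R) = 4 ∧ H = Cfsg.Geo.subgroupNormalizer R ⊓ (Cfsg.GU 4 F q ⊓ Cfsg.Geo.specialLinear (Fin 4) F)) ∨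
    Cfsg.Geo.InUnitaryResidualClass H := by
  have hG := herm_sig (ι := Fin 4) hF
  have hc : Fintype.card (Fin 4) = 4 := Fintype.card_fin _
  have hσ := CL.Uni.sig_apply hF
  rw [GU_eq hF] at hH
  rw [hermForm_eq hF, GU_eq hF]
  obtain ⟨M, hM, rfl⟩ | h := su_max hF hσ hG (by omega) (by omega) hH
  swap
  · exact Or.inr (Or.inr (Or.inr (Or.inr (Or.inr (Or.inr (Or.inr (Or.inr (Or.inr (h)))))))))
  cases hM with
  | ts W h0 h => exact Or.inl ⟨W, h0, h, rfl⟩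
  | nd W h0 h hd => exact Or.inr (Or.inl ⟨W, h0, h, by omega, rfl⟩)
  | dec t m D h =>
    have h1 := card_eq_of_isMDecomposition h.decomp
    have h2 := h.decomp.two_le
    have h3 := h.decomp.pos
    have h4 : m ≤ 6 := by nlinarith
    have : (t = 4 ∧ m = 1) ∨ (t = 2 ∧ m = 2) := by
      interval_cases m <;> omega
    rcases this with ⟨rfl, rfl⟩ | ⟨rfl, rfl⟩
    · exact Or.inr (Or.inr (Or.inl ⟨ne_three_of_frame hF hσ hG h hH, D, h, rfl⟩))
    · exact Or.inr (Or.inr (Or.inr (Or.inl ⟨three_le_of_planes hF h hH, D, h, rfl⟩)))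
  | pair m D h hts =>
    have h1 := card_eq_of_isMDecomposition h
    obtain rfl : m = 2 := by omega
    exact Or.inr (Or.inr (Or.inr (Or.inr (Or.inl ⟨four_le_of_pair hF hσ hG h hts hH, D, h, hts, rfl⟩))))
  | fld r K hr ho hK ha =>
    have h1 := finrank_dvd_of_isFieldSubalgebra hK
    rw [hc] at h1
    have h2 := Nat.le_of_dvd (by norm_num) h1
    interval_cases r <;> first | omega | exact absurd ho (by decide) | exact absurd hr (by decide)
  | tens k l e P c hk hkl hex h0 h =>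
    have h1 : 4 = k * l := by simpa using Fintype.card_congr e
    have h2 : k ≤ 3 := by nlinarith
    interval_cases k <;> omega
  | sub F₀ r P hr ho h1 h => exact Or.inr (Or.inr (Or.inr (Or.inr (Or.inr (Or.inl ⟨F₀, r, P, hr, ho, h1, h, rfl⟩)))))
  | so hq F₀ P h1 h => exact Or.inr (Or.inr (Or.inr (Or.inr (Or.inr (Or.inr (Or.inr (Or.inl ⟨hq, F₀, P, h1, h, rfl⟩)))))))
  | sp hn F₀ P ζ h1 h0 hζ h halt => exact Or.inr (Or.inr (Or.inr (Or.inr (Or.inr (Or.inr (Or.inl ⟨F₀, P, ζ, h1, h0, hζ, h, halt, rfl⟩))))))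
  | c6 r k p e R h htop h1 hR hrp hm hk hn hZ =>
    obtain rfl : r = 2 := prime_eq_of_pow_eq h.prime (by norm_num) (j := 1) (by rw [← hn, hc]; rfl)
    obtain rfl : k = 2 := Nat.pow_right_injective (by norm_num : 2 ≤ 2) (by simp only [← hn, hc])
    obtain ⟨-, rfl, h2, h3⟩ := hZ.resolve_left fun h => absurd h.1 (by decide)
    rw [h2] at hm
    exact Or.inr (Or.inr (Or.inr (Or.inr (Or.inr (Or.inr (Or.inr (Or.inr (Or.inl ⟨p, R, hm.1, (min_four hF hm).1, (min_four hF hm).2, h, absIrr_of_alg_top htop, hR.trans (isoGrp_le_sim _), h3, h2, rfl⟩))))))))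
  | pow m t e P G₁ c hm ht hex h1 h0 h =>
    obtain ⟨h2, rfl, rfl⟩ := wreath_bound (n := 4) (by simpa using Fintype.card_congr e) hm ht (by norm_num)
    omega

end Cfsg.Agent.S5784
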