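import Cfsg.Statements.S5811
import Cfsg.Agent.CLAS.AschSu2

set_option autoImplicit false
open Cfsg

namespace Cfsg.Agent.S5811

open CL.Asch Cfsg.Geo


/-- Every maximal subgroup of SU_7(q) is of one of the listed geometric types or lies in the residual class. Let F be the field with q² elements (characteristic p), f the standard unitary form Σ u_i v_i^q on F^7, and H a maximal subgroup of SU_7(q) (inside GL_7(F)). Then H is the intersection with SU_7(q) of one of: the stabiliser of a non-zero totally isotropic subspace; the stabiliser of a non-degenerate 1-, 2- or 3-space; the stabiliser of a decomposition into seven mutually orthogonal non-degenerate 1-spaces; the normaliser of an adjoint-closed degree-7 subfield of the matrix algebra; a subfield group of odd prime index whose F₀-structure carries f; for q odd, a subfield group of index 2 whose F₀-structure carries f; for q = p prime with p ≡ 6 mod 7, or q = p³ with p ≡ 3 or 5 mod 7, the normaliser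 of an absolutely irreducible 7-group R of exponent 7, order 343 and centre of order 7, all of whose characteristic abelian subgroups are cyclic, contained in the similarity group of f — or else H lies in the residual class of the unitary case (modulo scalars H is almost simple, with absolutely irreducible perfect socle preimage realisable over no proper subfield and fixing no non-degenerate quadratic or symplectic form). -/
theorem result {F : Type*} [Field F] [Fintype F] (q : ℕ) (hF : Fintype.card F = q ^ 2) (H : Subgroup (Matrix.GeneralLinearGroup (Fin 7) F)) (hH : Cfsg.Geo.IsMaximalIn (Cfsg.GU 7 F q ⊓ Cfsg.Geo.specialLinear (Fin 7) F) H) :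
    (∃ W : Submodule F (Fin 7 → F), W ≠ ⊥ ∧ Cfsg.Geo.IsTotallySingularFor (Cfsg.hermForm 7 F q) W ∧ H = Cfsg.Geo.subspaceStabilizer W ⊓ (Cfsg.GU 7 F q ⊓ Cfsg.Geo.specialLinear (Fin 7) F)) ∨
    (∃ W : Submodule F (Fin 7 → F), W ≠ ⊥ ∧ Cfsg.Geo.IsNondegenerateOn (Cfsg.hermForm 7 F q) W ∧ 2 * Module.finrank F W < 7 ∧ H = Cfsg.Geo.subspaceStabilizer W ⊓ (Cfsg.GU 7 F q ⊓ Cfsg.Geo.specialLinear (Fin 7) F)) ∨
    (∃ D : Fin 7 → Submodule F (Fin 7 → F), Cfsg.Geo.IsNondegenerateMDecomposition (Cfsg.hermForm 7 F q) 1 D ∧ H = Cfsg.Geo.decompositionStabilizer D ⊓ (Cfsg.GU 7 F q ⊓ Cfsg.Geo.specialLinear (Fin 7) F)) ∨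
    (∃ K : Subalgebra F (Matrix (Fin 7) (Fin 7) F), Cfsg.Geo.IsFieldSubalgebra 7 K ∧ Cfsg.Geo.IsAdjointClosedFor (Cfsg.hermForm 7 F q) K ∧ H = Cfsg.Geo.subalgebraNormalizer K ⊓ (Cfsg.GU 7 F q ⊓ Cfsg.Geo.specialLinear (Fin 7) F)) ∨
    (∃ (F₀ : Subfield F) (r : ℕ) (P : Matrix.GeneralLinearGroup (Fin 7) F), r.Prime ∧ Odd r ∧ Fintype.card F = Nat.card F₀ ^ r ∧ Cfsg.Geo.IsFormRationalStructure (Cfsg.hermForm 7 F q) F₀ 1 P ∧ H = Cfsg.Geo.subfieldSubgroup F₀ P ⊓ (Cfsg.GU 7 F q ⊓ Cfsg.Geo.specialLinear (Fin 7) F)) ∨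
    (Odd q ∧ ∃ (F₀ : Subfield F) (P : Matrix.GeneralLinearGroup (Fin 7) F), Fintype.card F = Nat.card F₀ ^ 2 ∧ Cfsg.Geo.IsFormRationalStructure (Cfsg.hermForm 7 F q) F₀ 1 P ∧ H = Cfsg.Geo.subfieldSubgroup F₀ P ⊓ (Cfsg.GU 7 F q ⊓ Cfsg.Geo.specialLinear (Fin 7) F)) ∨
    (∃ (p : ℕ) (R : Subgroup (Matrix.GeneralLinearGroup (Fin 7) F)), p.Prime ∧ CharP F p ∧ ((q = p ∧ p % 7 = 6) ∨ (q = p ^ 3 ∧ (p % 7 = 3 ∨ p % 7 = 5))) ∧ Cfsg.Geo.IsSymplecticTypeGroup 7 R ∧ Cfsg.Geo.ActsAbsolutelyIrreducibly (Cfsg.Geo.matrixSet R) ∧ R ≤ Cfsg.Geo.similarityGroup (Cfsg.hermForm 7 F q) ∧ Nat.card R = 343 ∧ Nat.card (Subgroup.center R) = 7 ∧ H = Cfsg.Geo.subgroupNormalizer R ⊓ (Cfsg.GU 7 F q ⊓ Cfsg.Geo.specialLinear (Fin 7) F)) ∨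
    Cfsg.Geo.InUnitaryResidualClass H := by
  have hG := herm_sig (ι := Fin 7) hF
  have hc : Fintype.card (Fin 7) = 7 := Fintype.card_fin _
  have hσ := CL.Uni.sig_apply hF
  rw [GU_eq hF] at hH
  rw [hermForm_eq hF, GU_eq hF]
  obtain ⟨M, hM, rfl⟩ | h := su_max hF hσ hG (by omega) (by omega) hH
  swap
  · exact Or.inr (Or.inr (Or.inr (Or.inr (Or.inr (Or.inr (Or.inr (h)))))))
  cases hM with
  | ts W h0 h => exact Or.inl ⟨W, h0, h, rfl⟩
  | nd W h0 h hd => exact Or.inr (Or.inl ⟨W, h0, h, by omega, rfl⟩)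
  | dec t m D h =>
    have h1 := card_eq_of_isMDecomposition h.decomp
    have h2 := h.decomp.two_le
    have h3 := h.decomp.pos
    have h4 : m ≤ 6 := by nlinarith
    have : (t = 7 ∧ m = 1) := by
      interval_cases m <;> omega
    rcases this with ⟨rfl, rfl⟩
    · exact Or.inr (Or.inr (Or.inl ⟨D, h, rfl⟩))
  | pair m D h hts =>
    have h1 := card_eq_of_isMDecomposition h
    omega
  | fld r K hr ho hK ha =>
    have h1 := finrank_dvd_of_isFieldSubalgebra hK
    rw [hc] at h1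
    have h2 := Nat.le_of_dvd (by norm_num) h1
    obtain rfl : r = 7 := by
      interval_cases r <;> first | omega | exact absurd ho (by decide) | exact absurd hr (by decide)
    exact Or.inr (Or.inr (Or.inr (Or.inl ⟨K, hK, adjClosed_of ha, rfl⟩)))
  | tens k l e P c hk hkl hex h0 h =>
    have h1 : 7 = k * l := by simpa using Fintype.card_congr e
    have h2 : k ≤ 3 := by nlinarith
    interval_cases k <;> omega
  | sub F₀ r P hr ho h1 h => exact Or.inr (Or.inr (Or.inr (Or.inr (Or.inl ⟨F₀, r, P, hr, ho, h1, h, rfl⟩))))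
  | so hq F₀ P h1 h => exact Or.inr (Or.inr (Or.inr (Or.inr (Or.inr (Or.inl ⟨hq, F₀, P, h1, h, rfl⟩)))))
  | sp hn => exact absurd hn (by decide)
  | c6 r k p e R h htop h1 hR hrp hm hk hn hZ =>
    obtain rfl : r = 7 := prime_eq_of_pow_eq h.prime (by norm_num) (j := 0) (by rw [← hn, hc]; rfl)
    obtain rfl : k = 1 := Nat.pow_right_injective (by norm_num : 2 ≤ 7) (by simp only [← hn, hc])
    obtain ⟨-, h2, h3⟩ := hZ.resolve_right fun h => absurd h.1 (by decide)
    rw [h2] at hm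
    exact Or.inr (Or.inr (Or.inr (Or.inr (Or.inr (Or.inr (Or.inl ⟨p, R, hm.1, hm.2.1, min_seven hF hm, h, absIrr_of_alg_top htop, hR.trans (isoGrp_le_sim _), h3, h2, rfl⟩))))))
  | pow m t e P G₁ c hm ht hex h1 h0 h =>
    obtain ⟨h2, rfl, rfl⟩ := wreath_bound (n := 7) (by simpa using Fintype.card_congr e) hm ht (by norm_num)
    omega

end Cfsg.Agent.S5811
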