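import Cfsg.Statements.S5814
import Cfsg.Agent.CLAS.AschOr5

set_option autoImplicit false
open Cfsg

namespace Cfsg.Agent.S5814

open CL.Asch Cfsg.Geo


/-- Every maximal subgroup of Ω_7(q), q odd, is of one of the listed geometric types or lies in the residual class. Let F be a finite field of odd order q, Q the standard quadratic form x₀² + Σ x_i y_i on F^7 (coordinates Unit ⊕ (Fin 3 ⊕ Fin 3)), Ω the commutator subgroup of its isometry group, and H a maximal subgroup of Ω (inside GL_7(F)). Then H is the intersection with Ω of one of: the stabiliser of a non-zero totally singular subspace; the stabiliser of a non-zero non-degenerate subspace of even dimension (not a plus-type plane when q = 3); for q prime, the stabiliser of a decomposition into seven pairwise orthogonal, pairwise isometric non-degenerate 1-spaces; a subfield group (|F| = |F₀|^r, r prime) whose F₀-structure carries Q — or else H lies in the residual class of the orthogonal case (modulo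 scalars H is almost simple, with absolutely irreducible perfect socle preimage realisable over no proper subfield and fixing no non-degenerate unitary form). -/
theorem result {F : Type*} [Field F] [Fintype F] (hodd : Odd (Fintype.card F)) (H : Subgroup (Matrix.GeneralLinearGroup (Unit ⊕ (Fin 3 ⊕ Fin 3)) F)) (hH : Cfsg.Geo.IsMaximalIn (Cfsg.Geo.omegaGL (Cfsg.quadFormOdd 3 F)) H) :
    (∃ W : Submodule F (Unit ⊕ (Fin 3 ⊕ Fin 3) → F), W ≠ ⊥ ∧ Cfsg.Geo.IsTotallySingularQuad (Cfsg.quadFormOdd 3 F) W ∧ H = Cfsg.Geo.subspaceStabilizer W ⊓ Cfsg.Geo.omegaGL (Cfsg.quadFormOdd 3 F)) ∨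
    (∃ W : Submodule F (Unit ⊕ (Fin 3 ⊕ Fin 3) → F), W ≠ ⊥ ∧ Even (Module.finrank F W) ∧ Cfsg.Geo.IsNondegenerateOn (QuadraticMap.polar (Cfsg.quadFormOdd 3 F)) W ∧ ¬ (Fintype.card F = 3 ∧ Module.finrank F W = 2 ∧ Cfsg.Geo.IsPlusTypeOn (Cfsg.quadFormOdd 3 F) W) ∧ H = Cfsg.Geo.subspaceStabilizer W ⊓ Cfsg.Geo.omegaGL (Cfsg.quadFormOdd 3 F)) ∨
    ((Fintype.card F).Prime ∧ ∃ D : Fin 7 → Submodule F (Unit ⊕ (Fin 3 ⊕ Fin 3) → F), Cfsg.Geo.IsOrthogonalMDecomposition (Cfsg.quadFormOdd 3 F) 1 D ∧ H = Cfsg.Geo.decompositionStabilizer D ⊓ Cfsg.Geo.omegaGL (Cfsg.quadFormOdd 3 F)) ∨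
    (∃ (F₀ : Subfield F) (r : ℕ) (P : Matrix.GeneralLinearGroup (Unit ⊕ (Fin 3 ⊕ Fin 3)) F), r.Prime ∧ Fintype.card F = Nat.card F₀ ^ r ∧ Cfsg.Geo.IsQuadFormRationalStructure (Cfsg.quadFormOdd 3 F) F₀ P ∧ H = Cfsg.Geo.subfieldSubgroup F₀ P ⊓ Cfsg.Geo.omegaGL (Cfsg.quadFormOdd 3 F)) ∨
    Cfsg.Geo.InOrthogonalResidualClass H := by
  have hc : Fintype.card (Unit ⊕ (Fin 3 ⊕ Fin 3)) = 7 := card_odd_index 3
  have hQ' := CL.Orth.QOdd_nondeg 3 F (two_ne_zero_of_odd hodd)
  cases orth_max_cases (by omega) (by omega) hQ' hH with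
  | ts W h0 h hp he =>
    exact Or.inl ⟨W, h0, h, he⟩
  | pt hq v h he =>
    exact absurd hodd hq
  | nd W U h0 h1 h0' h h' hd hn ho hpl ht hW hU hD =>
    rcases (Module.finrank F W).even_or_odd with he | he
    · exact Or.inr (Or.inl ⟨W, h0, he, h, fun h2 => by have := hpl h2.2.1 h2.2.2; omega, hW⟩)
    · exact Or.inr (Or.inl ⟨U, h0', by obtain ⟨k, hk⟩ := he; rw [Nat.even_iff]; omega, h', fun h2 => by omega, hU⟩)
  | dec t m D h hn ht hm ho h2 h2' h3 h4 he =>
    have h5 : m ≤ 6 := by nlinarith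
    have : (t = 7 ∧ m = 1) := by
      interval_cases m <;> omega
    rcases this with ⟨rfl, rfl⟩
    · exact Or.inr (Or.inr (Or.inl ⟨hm rfl, D, h, he⟩))
  | pair m D h hts hn hm hp he =>
    obtain ⟨k, hk⟩ := hm; omega
  | fld r K hr hK hs hd h1 h2 h3 he =>
    rw [hc] at hd h1 h2 h3
    have h4 := Nat.le_of_dvd (by norm_num) hd
    have : False := by
      interval_cases r <;> first | omega | exact absurd hr (by norm_num)
    exact this.elim
  | uni K hK ha hs hk hn hp he =>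
    omega
  | tensO hn hp h =>
    omega
  | tensS hn hp h =>
    omega
  | sub F₀ r P ζ hr h1 h0 h hp he =>
    obtain ⟨P', h2, h3⟩ := quadRat_odd hQ' (by rw [hc]; decide) h0 (QOdd_rat 3 F₀) h
    exact Or.inr (Or.inr (Or.inr (Or.inl ⟨F₀, r, P', hr, h1, h2, h3 ▸ he⟩)))
  | pow hn h =>
    omega
  | big hn hp =>
    omega
  | res h =>
    exact Or.inr (Or.inr (Or.inr (Or.inr (h))))

end Cfsg.Agent.S5814
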