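import Cfsg.Statements.S5826
import Cfsg.Agent.CLAS.AschOr5

set_option autoImplicit false
open Cfsg

namespace Cfsg.Agent.S5826

open CL.Asch Cfsg.Geo


/-- Every maximal subgroup of Ω_8^-(q) is of one of the listed geometric types or lies in the residual class. Let F be a finite field with q elements, Q a non-degenerate quadratic form on F^8 of minus type (no totally singular 4-space), Ω the commutator subgroup of its isometry group, and H a maximal subgroup of Ω (inside GL_8(F)). Then H is the intersection with Ω of one of: the stabiliser of a non-zero totally singular subspace; for q odd, the stabiliser of a non-degenerate subspace of odd dimension; the stabiliser of a non-degenerate 2-space of minus type; for q ≥ 4, the stabiliser of a non-degenerate 2-space of plus type; the stabiliser of a non-degenerate 4-space; for q even, the stabiliser of the span of a non-singular vector; the normaliser of a degree-2 subfield of the matrix algebra; a subfield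 group of odd prime index whose F₀-structure carries a non-zero multiple of Q — or else H lies in the residual class of the orthogonal case (modulo scalars H is almost simple, with absolutely irreducible perfect socle preimage realisable over no proper subfield and fixing no non-degenerate unitary form). -/
theorem result {F : Type*} [Field F] [Fintype F] (Q : (Fin 8 → F) → F) (hQ : Cfsg.Geo.IsNondegenerateQuadraticForm Q) (hminus : ¬ Cfsg.Geo.IsPlusTypeOn Q ⊤) (H : Subgroup (Matrix.GeneralLinearGroup (Fin 8) F)) (hH : Cfsg.Geo.IsMaximalIn (Cfsg.Geo.omegaGL Q) H) :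
    (∃ W : Submodule F (Fin 8 → F), W ≠ ⊥ ∧ Cfsg.Geo.IsTotallySingularQuad Q W ∧ H = Cfsg.Geo.subspaceStabilizer W ⊓ Cfsg.Geo.omegaGL Q) ∨
    (Odd (Fintype.card F) ∧ ∃ W : Submodule F (Fin 8 → F), W ≠ ⊥ ∧ W ≠ ⊤ ∧ Odd (Module.finrank F W) ∧ Cfsg.Geo.IsNondegenerateOn (QuadraticMap.polar Q) W ∧ H = Cfsg.Geo.subspaceStabilizer W ⊓ Cfsg.Geo.omegaGL Q) ∨
    (∃ W : Submodule F (Fin 8 → F), Module.finrank F W = 2 ∧ Cfsg.Geo.IsNondegenerateOn (QuadraticMap.polar Q) W ∧ ¬ Cfsg.Geo.IsPlusTypeOn Q W ∧ H = Cfsg.Geo.subspaceStabilizer W ⊓ Cfsg.Geo.omegaGL Q) ∨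
    (4 ≤ Fintype.card F ∧ ∃ W : Submodule F (Fin 8 → F), Module.finrank F W = 2 ∧ Cfsg.Geo.IsNondegenerateOn (QuadraticMap.polar Q) W ∧ Cfsg.Geo.IsPlusTypeOn Q W ∧ H = Cfsg.Geo.subspaceStabilizer W ⊓ Cfsg.Geo.omegaGL Q) ∨
    (∃ W : Submodule F (Fin 8 → F), Module.finrank F W = 4 ∧ Cfsg.Geo.IsNondegenerateOn (QuadraticMap.polar Q) W ∧ H = Cfsg.Geo.subspaceStabilizer W ⊓ Cfsg.Geo.omegaGL Q) ∨
    (¬ Odd (Fintype.card F) ∧ ∃ v : (Fin 8 → F), Q v ≠ 0 ∧ H = Cfsg.Geo.subspaceStabilizer (Submodule.span F {v}) ⊓ Cfsg.Geo.omegaGL Q) ∨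
    (∃ K : Subalgebra F (Matrix (Fin 8) (Fin 8) F), Cfsg.Geo.IsFieldSubalgebra 2 K ∧ H = Cfsg.Geo.subalgebraNormalizer K ⊓ Cfsg.Geo.omegaGL Q) ∨
    (∃ (F₀ : Subfield F) (r : ℕ) (P : Matrix.GeneralLinearGroup (Fin 8) F) (ζ : F), r.Prime ∧ Odd r ∧ Fintype.card F = Nat.card F₀ ^ r ∧ ζ ≠ 0 ∧ Cfsg.Geo.IsQuadFormRationalStructure (fun v : Fin 8 → F => ζ * Q v) F₀ P ∧ H = Cfsg.Geo.subfieldSubgroup F₀ P ⊓ Cfsg.Geo.omegaGL Q) ∨
    Cfsg.Geo.InOrthogonalResidualClass H := by
  have hc : Fintype.card (Fin 8) = 8 := Fintype.card_fin _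
  have hQ' := nondeg_quadOf hQ
  cases orth_max_cases (by omega) (by omega) hQ' hH with
  | ts W h0 h hp he =>
    exact Or.inl ⟨W, h0, h, he⟩
  | pt hq v h he =>
    exact Or.inr (Or.inr (Or.inr (Or.inr (Or.inr (Or.inl ⟨hq, v, h, he⟩)))))
  | nd W U h0 h1 h0' h h' hd hn ho hpl ht hW hU hD =>
    rcases (Module.finrank F W).even_or_odd with he | he
    · have h2 := Submodule.finrank_eq_zero.not.mpr h0
      have h3 : Module.finrank F W = 2 ∨ Module.finrank F W = 4 := by obtain ⟨k, hk⟩ := he; omega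
      rcases h3 with h3 | h3
      · by_cases hp : IsPlusTypeOn Q W
        · exact Or.inr (Or.inr (Or.inr (Or.inl ⟨hpl h3 hp, W, h3, h, hp, hW⟩)))
        · exact Or.inr (Or.inr (Or.inl ⟨W, h3, h, hp, hW⟩))
      · exact Or.inr (Or.inr (Or.inr (Or.inr (Or.inl ⟨W, h3, h, hW⟩))))
    · exact Or.inr (Or.inl ⟨ho he, W, h0, h1, he, h, hW⟩)
  | dec t m D h hn ht hm ho h2 h2' h3 h4 he =>
    have h5 : m ≤ 6 := by nlinarith
    have : (t = 8 ∧ m = 1) ∨ (t = 4 ∧ m = 2) ∨ (t = 2 ∧ m = 4) := by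
      interval_cases m <;> omega
    rcases this with ⟨rfl, rfl⟩ | ⟨rfl, rfl⟩ | ⟨rfl, rfl⟩
    · exact absurd (dec_plus_four hQ' (by decide) h (by decide) ho) hminus
    · exact absurd (dec_plus_four hQ' (by decide) h (by decide) ho) hminus
    · exact absurd (dec_plus_four hQ' (by decide) h (by decide) ho) hminus
  | pair m D h hts hn hm hp he =>
    exact absurd hp hminus
  | fld r K hr hK hs hd h1 h2 h3 he =>
    rw [hc] at hd h1 h2 h3
    have h4 := Nat.le_of_dvd (by norm_num) hd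
    have : r = 2 := by
      interval_cases r <;> first | omega | exact absurd hr (by norm_num)
    rcases this with rfl
    · exact Or.inr (Or.inr (Or.inr (Or.inr (Or.inr (Or.inr (Or.inl ⟨K, hK, he⟩))))))
  | uni K hK ha hs hk hn hp he =>
    exact Or.inr (Or.inr (Or.inr (Or.inr (Or.inr (Or.inr (Or.inl ⟨K, hK, he⟩))))))
  | tensO hn hp h =>
    omega
  | tensS hn hp h =>
    omega
  | sub F₀ r P ζ hr h1 h0 h hp he =>
    exact Or.inr (Or.inr (Or.inr (Or.inr (Or.inr (Or.inr (Or.inr (Or.inl ⟨F₀, r, P, ζ, hr, hp (by rw [hc]; decide) hminus, h1, h0, h, he⟩)))))))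
  | pow hn h =>
    omega
  | big hn hp =>
    exact absurd hp hminus
  | res h =>
    exact Or.inr (Or.inr (Or.inr (Or.inr (Or.inr (Or.inr (Or.inr (Or.inr (h))))))))

end Cfsg.Agent.S5826
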