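import Cfsg.Statements.S5858
import Cfsg.Agent.CLAS.Ref8
import Cfsg.Agent.CLAS.LowRat3

set_option autoImplicit false
open Cfsg

namespace Cfsg.Agent.S5858

/-- Maximal subgroups of Ω_11(q) of geometric type, q odd. Let F be a finite field of odd order q, Q the standard quadratic form x₀² + Σ x_i y_i on F^11 (coordinates Unit ⊕ (Fin 5 ⊕ Fin 5)), and Ω = Ω_11(q) the commutator subgroup of its isometry group, inside GL_11(F). Each of the following, intersected with Ω, is a maximal subgroup of Ω: (1) the stabiliser of any non-zero subspace on which Q vanishes identically (totally singular 1- to 5-spaces); (2) the stabiliser of any non-zero even-dimensional subspace W (dimension 2 to 10) on which the polar form of Q is non-degenerate (equivalently of its odd-dimensional orthogonal complement), except when q = 3 and W is a 2-space containing a non-zero singular vector (a plus-type plane); (3) for q = p prime, the stabiliser of any decomposition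 of F^11 into eleven pairwise orthogonal, pairwise Q-isometric non-degenerate 1-spaces; (4) every subfield group for a subfield F₀ with |F| = |F₀|^r, r prime, whose F₀-structure carries Q. -/
theorem result {F : Type*} [Field F] [Fintype F] (hodd : Odd (Fintype.card F)) :
    (∀ W : Submodule F (Unit ⊕ (Fin 5 ⊕ Fin 5) → F), W ≠ ⊥ → Cfsg.Geo.IsTotallySingularQuad (Cfsg.quadFormOdd 5 F) W → Cfsg.Geo.IsMaximalIn (Cfsg.Geo.omegaGL (Cfsg.quadFormOdd 5 F)) (Cfsg.Geo.subspaceStabilizer W ⊓ Cfsg.Geo.omegaGL (Cfsg.quadFormOdd 5 F))) ∧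
    (∀ W : Submodule F (Unit ⊕ (Fin 5 ⊕ Fin 5) → F), W ≠ ⊥ → Even (Module.finrank F W) → Cfsg.Geo.IsNondegenerateOn (QuadraticMap.polar (Cfsg.quadFormOdd 5 F)) W → ¬ (Fintype.card F = 3 ∧ Module.finrank F W = 2 ∧ Cfsg.Geo.IsPlusTypeOn (Cfsg.quadFormOdd 5 F) W) → Cfsg.Geo.IsMaximalIn (Cfsg.Geo.omegaGL (Cfsg.quadFormOdd 5 F)) (Cfsg.Geo.subspaceStabilizer W ⊓ Cfsg.Geo.omegaGL (Cfsg.quadFormOdd 5 F))) ∧
    ((Fintype.card F).Prime → ∀ D : Fin 11 → Submodule F (Unit ⊕ (Fin 5 ⊕ Fin 5) → F), Cfsg.Geo.IsOrthogonalMDecomposition (Cfsg.quadFormOdd 5 F) 1 D → Cfsg.Geo.IsMaximalIn (Cfsg.Geo.omegaGL (Cfsg.quadFormOdd 5 F)) (Cfsg.Geo.decompositionStabilizer D ⊓ Cfsg.Geo.omegaGL (Cfsg.quadFormOdd 5 F))) ∧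
    (∀ (F₀ : Subfield F) (r : ℕ) (P : Matrix.GeneralLinearGroup (Unit ⊕ (Fin 5 ⊕ Fin 5)) F), r.Prime → Fintype.card F = Nat.card F₀ ^ r → Cfsg.Geo.IsQuadFormRationalStructure (Cfsg.quadFormOdd 5 F) F₀ P → Cfsg.Geo.IsMaximalIn (Cfsg.Geo.omegaGL (Cfsg.quadFormOdd 5 F)) (Cfsg.Geo.subfieldSubgroup F₀ P ⊓ Cfsg.Geo.omegaGL (Cfsg.quadFormOdd 5 F))) := by
  have hQ := CL.FGL.QOdd_nondeg' (m := 5) hodd
  refine ⟨fun W h0 hW => CL.FGL.parabolic_isMaximalIn hQ
      (fun _ => CL.FGL.mem_omegaGL_iff_E (CL.Orth.QOdd 5 F) hQ (by simp))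
      (Or.inr (by simp)) h0 ((CL.FGL.quad_totSing_iff' (CL.Orth.QOdd 5 F)).1 hW)
      (Or.inl (Or.inr (by simp; omega))),
    fun W h0 he hW hex => CL.FGL.quad_nondeg_isMaximalIn7 (CL.Orth.QOdd 5 F) hQ (by simp) h0
      (by rintro rfl; simp at he; exact absurd he (by decide)) hW (by simp; omega)
      fun h => ⟨fun h2 hp => hex ⟨?_, h2, hp⟩, fun h2 => ?_⟩,
    fun hp D hD => CL.FGL.quad_frame_isMaximalIn (CL.Orth.QOdd 5 F) hQ hp
      (Or.inr (by simp; decide)) hD,
    fun F₀ r P hr hc hP => CL.Root.isMaximalIn_subfield_quad7 (by simp)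
      (CL.FGL.isNondegenerateQuadraticForm_of (CL.Orth.QOdd 5 F) hQ) F₀ hr hc P one_ne_zero
      fun u hu => by dsimp only; rw [one_mul]; exact hP u hu⟩
  · have := Fintype.one_lt_card (α := F)
    rw [Nat.odd_iff] at hodd
    omega
  · rw [Nat.even_iff] at he
    simp at h2
    omega

end Cfsg.Agent.S5858
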