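import Cfsg.Statements.S5877
import Cfsg.Agent.FGS.EigBC

set_option autoImplicit false
open Cfsg

namespace Cfsg.Agent.S5877

open scoped commutatorElement in
open CL.HH in
theorem aux {F : Type*} [Field F] [Fintype F] {n ϖ : ℕ} (R : Subgroup (GL (Fin n) F))
    (hext : commutator R = Subgroup.center R)
    (hirr : Geo.ActsAbsolutelyIrreducibly (Geo.matrixSet R)) (g : GL (Fin n) F)
    (hg : g ∈ Geo.subgroupNormalizer (R ⊔ Geo.scalars (Fin n) F)) (hϖ : ϖ.Prime)
    (hord : g ^ ϖ = 1) (hns : g ∉ Geo.scalars (Fin n) F) (d : ℕ)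
    (hd : d = Module.finrank F (LinearMap.ker (Matrix.toLin' (g : Matrix (Fin n) (Fin n) F) - 1))) :
    (ϖ = 2 → 4 * d ≤ 3 * n) ∧ (ϖ = 3 → 3 * d ≤ 2 * n) ∧ (3 < ϖ → 2 * d ≤ n) ∧
      (ϖ = 3 → ¬ 3 ∣ n → 2 * d ≤ n) := by
  classical
  rcases Nat.eq_zero_or_pos n with rfl | hn
  · exact absurd (Subsingleton.elim 1 g ▸ one_mem _) hns
  have : Nonempty (Fin n) := ⟨⟨0, hn⟩⟩
  let ρ : Representation F (GL (Fin n) F) (Fin n → F) :=
    (Matrix.toLinAlgEquiv' : Matrix (Fin n) (Fin n) F ≃ₐ[F] _).toMonoidHom.comp (Units.coeHom _)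
  have hρ : ∀ x : GL (Fin n) F, ρ x = Matrix.toLinAlgEquiv' (x : Matrix (Fin n) (Fin n) F) :=
    fun _ => rfl
  have hρi : Function.Injective ρ := fun x y e => Units.ext (Matrix.toLinAlgEquiv'.injective e)
  have hsc : ∀ x : GL (Fin n) F, (∀ y ∈ R, x * y = y * x) → x ∈ Geo.scalars (Fin n) F := by
    intro x hx
    obtain ⟨c, hc⟩ := hirr.2 x (by
      rintro _ ⟨y, hy, rfl⟩
      exact congrArg Units.val (hx y hy))
    have hc0 : c ≠ 0 := by
      rintro rfl
      exact x.ne_zero (by rw [hc, zero_smul])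
    exact (Geo.mem_scalars_iff x).2 ⟨Units.mk0 c hc0, hc⟩
  have hcomm : ∀ z ∈ Geo.scalars (Fin n) F, ∀ y : GL (Fin n) F, z * y = y * z := by
    intro z hz y
    obtain ⟨c, hc⟩ := (Geo.mem_scalars_iff z).1 hz
    exact Units.ext (by simp [hc])
  set H := R ⊔ Geo.scalars (Fin n) F with hH
  let σ : Representation F H (Fin n → F) := ρ.comp H.subtype
  have hσ : σ.IsIrreducible := isIrreducible_of_forall σ fun U hU => hirr.1 U (by
    rintro _ ⟨y, hy, rfl⟩ _ ⟨v, hv, rfl⟩
    exact hU ⟨y, Subgroup.mem_sup_left hy⟩ v hv)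
  let K := AlgebraicClosure F
  have hσK : (bc K σ).IsIrreducible := isIrreducible_bc K σ fun φ hφ => by
    obtain ⟨M, rfl⟩ := Matrix.toLinAlgEquiv'.surjective φ
    obtain ⟨c, hc⟩ := hirr.2 M (by
      rintro _ ⟨y, hy, rfl⟩
      apply Matrix.toLinAlgEquiv'.injective
      rw [map_mul, map_mul]
      exact hφ ⟨y, Subgroup.mem_sup_left hy⟩)
    exact ⟨c, by rw [hc, map_smul, map_one]⟩
  have hinj : Function.Injective (bc K σ) := fun x y e =>
    Subtype.ext (hρi (baseChangeHom_injective K e))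
  have hc : ∀ u v : H, ⁅u, v⁆ ∈ scalars (bc K σ) := by
    intro u v
    have h1 : ⁅(u : GL (Fin n) F), (v : GL (Fin n) F)⁆ ∈ Geo.scalars (Fin n) F := by
      obtain ⟨a, ha, z, hz, e⟩ := Subgroup.mem_sup_of_normal_right.1 u.2
      obtain ⟨b, hb, w, hw, e'⟩ := Subgroup.mem_sup_of_normal_right.1 v.2
      have h2 : ⁅a * z, b * w⁆ = ⁅a, b⁆ := by
        have h3 : a * z * (b * w) * (a * z)⁻¹ = a * b * a⁻¹ * w := by
          calc _ = a * (z * (b * w)) * z⁻¹ * a⁻¹ := by group
            _ = a * b * (w * a⁻¹) := by rw [hcomm z hz]; group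
            _ = _ := by rw [hcomm w hw]; group
        rw [commutatorElement_def, h3, commutatorElement_def]
        group
      rw [← e, ← e', h2]
      have h4 : ⁅(⟨a, ha⟩ : R), (⟨b, hb⟩ : R)⁆ ∈ Subgroup.center R :=
        hext ▸ Subgroup.commutator_mem_commutator trivial trivial
      exact hsc _ fun y hy => (congrArg Subtype.val (Subgroup.mem_center_iff.1 h4 ⟨y, hy⟩)).symm
    exact mem_scalars_of_commute _ fun y => by
      rw [← map_mul, ← map_mul]
      exact congrArg _ (Subtype.ext (hcomm _ h1 y))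
  have h := eig_bound (bc K σ) hinj hc (H.normalizerMonoidHom ⟨g, hg⟩) ((bc K ρ).toHomUnits g)
    (fun u => by
      change bc K ρ g * bc K ρ u = bc K ρ (g * u * g⁻¹) * bc K ρ g
      rw [← map_mul, ← map_mul, inv_mul_cancel_right]) hϖ (by
      rw [MonoidHom.coe_toHomUnits, ← map_pow, hord, map_one]) fun e => hns (hsc g fun y hy => by
      have := congrArg Subtype.val (DFunLike.congr_fun e ⟨y, Subgroup.mem_sup_left hy⟩)
      exact mul_inv_eq_iff_eq_mul.1 this)
  have h1 : d ≤ _ := hd ▸ finrank_fixed_le_bc K ρ g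
  rw [Module.finrank_baseChange, Module.finrank_fin_fun, MonoidHom.coe_toHomUnits] at h
  refine ⟨fun e => ?_, fun e => ?_, fun e => ?_, fun e e' => ?_⟩
  · have := h.1 e; omega
  · have := h.2.1 e; omega
  · have := h.2.2.1 e; omega
  · have := h.2.2.2 e e'; omega


/-- Eigenspaces of elements normalising an absolutely irreducible extraspecial group. Let F be a finite field, r a prime, and R ≤ GL_n(F) an absolutely irreducible extraspecial r-group (an r-group whose centre equals its derived subgroup and has order r) of exponent r or 4. Let g ∈ GL_n(F) normalise the product of R with the scalar matrices, have prime order ϖ and not be scalar, and let W be the eigenspace of g for any c ∈ F (W may be the zero subspace). Then dim W ≤ 3n/4 if ϖ = 2, dim W ≤ 2n/3 if ϖ = 3, and dim W ≤ n/2 if ϖ > 3; moreover if ϖ = 3 and 3 does not divide n then dim W ≤ n/2. -/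
theorem result {F : Type*} [Field F] [Fintype F] {n r ϖ : ℕ} (R : Subgroup (Matrix.GeneralLinearGroup (Fin n) F)) (hr : r.Prime) (hR : IsPGroup r R) (hZ : Nat.card (Subgroup.center R) = r) (hext : commutator R = Subgroup.center R) (hexp : Monoid.exponent R = r ∨ Monoid.exponent R = 4) (hirr : Cfsg.Geo.ActsAbsolutelyIrreducibly (Cfsg.Geo.matrixSet R)) (g : Matrix.GeneralLinearGroup (Fin n) F) (hg : g ∈ Cfsg.Geo.subgroupNormalizer (R ⊔ Cfsg.Geo.scalars (Fin n) F)) (hϖ : ϖ.Prime) (hord : orderOf g = ϖ) (hns : g ∉ Cfsg.Geo.scalars (Fin n) F) (c : F) :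
    (ϖ = 2 → 4 * Module.finrank F (Module.End.eigenspace (Matrix.toLin' (g : Matrix (Fin n) (Fin n) F)) c) ≤ 3 * n) ∧
    (ϖ = 3 → 3 * Module.finrank F (Module.End.eigenspace (Matrix.toLin' (g : Matrix (Fin n) (Fin n) F)) c) ≤ 2 * n) ∧
    (3 < ϖ → 2 * Module.finrank F (Module.End.eigenspace (Matrix.toLin' (g : Matrix (Fin n) (Fin n) F)) c) ≤ n) ∧
    (ϖ = 3 → ¬ 3 ∣ n → 2 * Module.finrank F (Module.End.eigenspace (Matrix.toLin' (g : Matrix (Fin n) (Fin n) F)) c) ≤ n) := by
  by_cases h0 : Module.End.eigenspace (Matrix.toLin' (g : Matrix (Fin n) (Fin n) F)) c = ⊥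
  · rw [h0, finrank_bot]
    simp
  have hgp : g ^ ϖ = 1 := hord ▸ pow_orderOf_eq_one g
  have hc : c ^ ϖ = 1 := by
    obtain ⟨v, hv⟩ := Module.End.HasEigenvalue.exists_hasEigenvector h0
    have h1 := hv.pow_apply ϖ
    rw [← Matrix.toLin'_pow, ← Units.val_pow_eq_pow_val, hgp] at h1
    refine smul_left_injective F hv.2 (h1.symm.trans ?_)
    simp
  have hc0 : c ≠ 0 := by
    rintro rfl
    simp [hϖ.ne_zero] at hc
  let z : GL (Fin n) F :=
    Units.map (Matrix.scalar (Fin n) : F →+* Matrix (Fin n) (Fin n) F).toMonoidHom (Units.mk0 c hc0)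
  have hz : z ∈ Geo.scalars (Fin n) F := ⟨_, rfl⟩
  have hzv : ((z⁻¹ : GL (Fin n) F) : Matrix (Fin n) (Fin n) F) = c⁻¹ • 1 := by
    simp [z, ← map_inv, Matrix.smul_one_eq_diagonal]
  have hzc : Commute z⁻¹ g := Units.ext (by rw [Units.val_mul, Units.val_mul, hzv]; simp)
  refine aux R hext hirr (z⁻¹ * g) (mul_mem (inv_mem (Subgroup.le_normalizer
    (Subgroup.mem_sup_right hz))) hg) hϖ ?_ (fun h => hns ((mul_mem_cancel_left (inv_mem hz)).1 h))
    _ ?_
  · rw [hzc.mul_pow, hgp, mul_one]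
    refine Units.ext ?_
    rw [Units.val_pow_eq_pow_val, hzv, smul_pow, one_pow, inv_pow, hc, inv_one, one_smul,
      Units.val_one]
  · refine congrArg (fun U : Submodule F (Fin n → F) => Module.finrank F U) ?_
    ext v
    rw [Module.End.mem_eigenspace_iff, Units.val_mul, hzv, smul_mul_assoc, one_mul, map_smul,
      LinearMap.mem_ker, LinearMap.sub_apply, sub_eq_zero, LinearMap.smul_apply,
      inv_smul_eq_iff₀ hc0]
    rfl

end Cfsg.Agent.S5877
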