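import Cfsg.Statements.S5942
import Cfsg.Agent.CLAS.PGL2Max

set_option autoImplicit false
open Cfsg

namespace Cfsg.Agent.S5942

open CL.Dk CL.PGL2

/-- Let K and F be finite fields of odd characteristic with #F = (#K)^r for an odd prime r. Then PSL_2(F) has a maximal subgroup isomorphic to PSL_2(K). -/
theorem result {F K : Type*} [Field F] [Fintype F] [Field K] [Fintype K] (q r : ℕ) (hK : Fintype.card K = q) (hF : Fintype.card F = q ^ r) (hq : Odd q) (hr : r.Prime) (hr2 : r ≠ 2) : ∃ H : Subgroup (Matrix.ProjectiveSpecialLinearGroup (Fin 2) F), IsCoatom H ∧ Nonempty (H ≃* Matrix.ProjectiveSpecialLinearGroup (Fin 2) K) := by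
  rw [← Nat.card_eq_fintype_card] at hK hF
  have h : Nat.card K ^ r = Nat.card F := by rw [hK, hF]
  obtain ⟨f⟩ := nonempty_ringHom_of_card_pow h
  exact exists_psl_coatom_of_covBy (pslOf_covBy (two_ne_zero_of_odd (hF ▸ hq.pow)) f hr hr2 h)
    ⟨(pslOfEquiv f).symm⟩

end Cfsg.Agent.S5942
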