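import Cfsg.Statements.S5944
import Cfsg.Agent.PERM.SymIndex

set_option autoImplicit false
open Cfsg

namespace Cfsg.Agent.S5944

/-- For n ≠ 4, every proper subgroup of the symmetric group S_n other than the alternating group A_n has index at least n. -/
theorem result (n : ℕ) (hn : n ≠ 4) (H : Subgroup (Equiv.Perm (Fin n))) (hH : H ≠ ⊤) (hA : H ≠ alternatingGroup (Fin n)) : n ≤ H.index := by
  by_cases h5 : 5 ≤ n
  · have := CL.SymIdx.card_le_index (Ω := Fin n) (by simpa using h5) H (fun h => by
      have h2 := CL.SymIdx.index_dvd_two_of_le (by simp; omega) h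
      rcases (Nat.dvd_prime Nat.prime_two).1 h2 with h1 | h1
      · exact hH (Subgroup.index_eq_one.1 h1)
      · exact hA (Equiv.Perm.eq_alternatingGroup_of_index_eq_two h1))
    simpa using this
  · have h0 : H.index ≠ 0 := Subgroup.FiniteIndex.index_ne_zero
    have h1 : H.index ≠ 1 := fun h => hH (Subgroup.index_eq_one.1 h)
    have h2 : H.index ≠ 2 := fun h => hA (Equiv.Perm.eq_alternatingGroup_of_index_eq_two h)
    omega

end Cfsg.Agent.S5944
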