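import Cfsg.Statements.S5945
import Cfsg.Agent.PERM.SymIndex

set_option autoImplicit false
open Cfsg

namespace Cfsg.Agent.S5945

/-- The symmetric group S_6 has exactly 12 subgroups of index 6; each of them is isomorphic to S_5, and at least one of them is not the stabilizer of any point. -/
theorem result : Nat.card {H : Subgroup (Equiv.Perm (Fin 6)) // H.index = 6} = 12 ∧ (∀ H : Subgroup (Equiv.Perm (Fin 6)), H.index = 6 → Nonempty (H ≃* Equiv.Perm (Fin 5))) ∧ ∃ H : Subgroup (Equiv.Perm (Fin 6)), H.index = 6 ∧ ∀ a : Fin 6, H ≠ MulAction.stabilizer (Equiv.Perm (Fin 6)) a := by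
  obtain ⟨θ, h1, h2⟩ := CL.SymIdx.exists_outer_six (Ω := Fin 6) (by simp)
  have i1 : ∀ x : Fin 6, (MulAction.stabilizer (Equiv.Perm (Fin 6)) x).index = 6 := fun x => by
    rw [CL.SymIdx.index_stabilizer]; simp
  have i2 : ∀ x : Fin 6, ((MulAction.stabilizer (Equiv.Perm (Fin 6)) x).comap
      θ.toMonoidHom).index = 6 := fun x => by
    rw [Subgroup.index_comap_of_surjective _ θ.surjective, i1]
  have hne : ∀ x a : Fin 6, (MulAction.stabilizer (Equiv.Perm (Fin 6)) x).comap
      θ.toMonoidHom ≠ MulAction.stabilizer (Equiv.Perm (Fin 6)) a := by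
    intro x a e
    obtain ⟨b, hb⟩ := exists_ne a
    obtain ⟨k, hk, hk2⟩ := h1 x a b
    have : k ∈ (MulAction.stabilizer (Equiv.Perm (Fin 6)) x).comap θ.toMonoidHom := hk
    rw [e] at this
    have h3 : k a = a := this
    exact hb (hk2.symm.trans h3)
  have hinj := CL.SymIdx.stabilizer_injective (Ω := Fin 6) (by simp)
  have hst : ∀ x : Fin 6, Nonempty (MulAction.stabilizer (Equiv.Perm (Fin 6)) x ≃*
      Equiv.Perm (Fin 5)) := by
    intro x
    let ψ := Equiv.Perm.viaEmbeddingHom (Fin.succAboveEmb x)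
    have hψ := Equiv.Perm.viaEmbeddingHom_injective (Fin.succAboveEmb x)
    have hi : ψ.range.index = 6 := by
      have h1 := ψ.range.index_mul_card
      rw [← Nat.card_congr (MonoidHom.ofInjective hψ).toEquiv, Nat.card_perm, Nat.card_perm] at h1
      simp only [Nat.card_eq_fintype_card, Fintype.card_fin, Nat.factorial] at h1
      omega
    have e : ψ.range = MulAction.stabilizer (Equiv.Perm (Fin 6)) x := by
      apply CL.SymIdx.eq_stabilizer_of_fix (by rw [hi]; simp)
      rintro _ ⟨g, rfl⟩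
      apply Equiv.Perm.viaEmbedding_apply_of_notMem
      rintro ⟨y, hy⟩
      exact Fin.succAbove_ne x y hy
    exact ⟨(MulEquiv.subgroupCongr e.symm).trans (MonoidHom.ofInjective hψ).symm⟩
  refine ⟨?_, fun H hH => ?_, _, i2 0, hne 0⟩
  · let F : Fin 6 ⊕ Fin 6 → {H : Subgroup (Equiv.Perm (Fin 6)) // H.index = 6} :=
      Sum.elim (fun x => ⟨_, i1 x⟩) (fun x => ⟨_, i2 x⟩)
    have hF : Function.Bijective F := by
      constructor
      · rintro (x | x) (y | y) h
        · rw [hinj (congrArg Subtype.val h)]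
        · exact absurd (congrArg Subtype.val h).symm (hne y x)
        · exact absurd (congrArg Subtype.val h) (hne x y)
        · rw [hinj (Subgroup.comap_injective θ.surjective (congrArg Subtype.val h))]
      · rintro ⟨H, hH⟩
        obtain ⟨x, rfl | rfl⟩ := h2 H hH
        · exact ⟨Sum.inl x, rfl⟩
        · exact ⟨Sum.inr x, rfl⟩
    rw [← Nat.card_eq_of_bijective F hF]
    simp
  · obtain ⟨x, rfl | rfl⟩ := h2 H hH
    · exact hst x
    · obtain ⟨e⟩ := hst x
      refine ⟨(MulEquiv.trans ?_ e)⟩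
      rw [Subgroup.comap_equiv_eq_map_symm']
      exact (θ.symm.subgroupMap _).symm

end Cfsg.Agent.S5945
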