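import Cfsg.Statements.S5949
import Cfsg.Agent.CLAS.Elus3

set_option autoImplicit false
open scoped MatrixGroups
open Cfsg

namespace Cfsg.Agent.S5949

open CL.Elus Module


/-- Elements of prime order of PSL_n(q) with no fixed `m`-space. Here `T = PSL_n(F)` for a field `F` with `q = p^f` elements (`n ≥ 2`, `(n, q) ≠ (2, 2), (2, 3)`); an element of `T` of prime order `r` is represented by a matrix `x` of determinant 1 with `x^r` scalar and `x` not scalar; `i` denotes the multiplicative order of `q` modulo `r` (when `r ≠ p`), and `(a)_r` the `r`-part of `a`. Let `1 ≤ m ≤ n/2` and let `r` be a prime dividing the number of `m`-dimensional subspaces of `F^n`. Then every element of `T` of order `r` fixes some `m`-dimensional subspace (the action on `m`-spaces is `r`-elusive) if and only if `r ≠ p` and either (i) `i = 1` and (`r ∣ m`, or `(q−1)_r ≥ (n)_r` where in addition `q ≡ 1 (mod 4)` is required when `r = 2` and `n` is even), or (ii) `2 ≤ i ≤ m` and `n mod i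 ≥ m mod i`. -/
theorem result {F : Type*} [Field F] [Fintype F] {p : ℕ} [Fact p.Prime] [CharP F p] {q : ℕ} (hq : Fintype.card F = q)
    (n m : ℕ) (hn : 2 ≤ n) (hT : (n, q) ≠ (2, 2) ∧ (n, q) ≠ (2, 3)) (hm : 1 ≤ m) (hmn : 2 * m ≤ n)
    (r : ℕ) [Fact r.Prime] (hrΩ : r ∣ Nat.card {W : Submodule F (Fin n → F) // Module.finrank F ↥W = m}) :
    (∀ x : Matrix.SpecialLinearGroup (Fin n) F,
      (∃ c : F, ((x ^ r : Matrix.SpecialLinearGroup (Fin n) F) : Matrix (Fin n) (Fin n) F) = c • (1 : Matrix (Fin n) (Fin n) F)) →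
      (∀ c : F, (x : Matrix (Fin n) (Fin n) F) ≠ c • (1 : Matrix (Fin n) (Fin n) F)) →
      ∃ W : Submodule F (Fin n → F), Module.finrank F ↥W = m ∧ W.map (Matrix.toLin' (x : Matrix (Fin n) (Fin n) F)) ≤ W) ↔
    (r ≠ p ∧
      ((orderOf (q : ZMod r) = 1 ∧ (r ∣ m ∨ (padicValNat r n ≤ padicValNat r (q - 1) ∧ (r = 2 → Even n → q % 4 = 1)))) ∨
       (2 ≤ orderOf (q : ZMod r) ∧ orderOf (q : ZMod r) ≤ m ∧ m % orderOf (q : ZMod r) ≤ n % orderOf (q : ZMod r)))) := by
  subst hq
  have hN : finrank F (Fin n → F) = n := Module.finrank_fin_fun F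
  have : Nontrivial (Fin n → F) := Module.nontrivial_of_finrank_pos (R := F) (by omega)
  have := finite_equiv (F := F) (V := Fin n → F)
  have key : (∀ S : Subgroup ((Fin n → F) ≃ₗ[F] (Fin n → F)), IsPGroup r S →
      ∃ W : Submodule F (Fin n → F), finrank F W = m ∧ ∀ g ∈ S, ∀ v ∈ W, g v ∈ W) → False :=
    fun h => not_dvd_card_of_fixed ⊤ mp mp_one mp_mul (fun W => finrank F W = m)
      (fun g _ W hW => by rw [finrank_mp, hW])
      (fun U W hU hW => (exists_mp_eq (hU.trans hW.symm)).imp fun g hg => ⟨trivial, hg⟩)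
      (fun S _ hS => (h S hS).imp fun W hW => ⟨hW.1, fun g hg => mp_eq_of_mem (hW.2 g hg)⟩) hrΩ
  have hr : r ≠ p := by
    rintro rfl
    refine key fun S hS => ?_
    obtain ⟨W, -, h1, h2⟩ := exists_invariant_between r hS m (U := ⊥)
      (fun g _ v hv => by simp_all) (by simp; omega)
    exact ⟨W, by simpa using h2, h1⟩
  rw [forall_SL_iff r (fun A => ∃ W : Submodule F (Fin n → F), finrank F W = m ∧ W.map A ≤ W),
    elu_sub p hr (by omega), hN]
  refine ⟨fun h => ⟨hr, h.imp id fun h => ⟨h.1, ?_, h.2⟩⟩, fun h => h.2.imp id fun h => ⟨h.1, h.2.2⟩⟩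
  by_contra! hlt
  refine key fun S hS => ?_
  have h1 := mod_le_finrank_fixS p hr hS (ord_dvd_movS p hr hS)
  rw [hN] at h1
  obtain ⟨W, h2, h3⟩ := exists_finrank_le (M := fixS S) (k := m) (by
    rw [Nat.mod_eq_of_lt hlt] at h; omega)
  exact ⟨W, h3, fun g hg => apply_mem_of_le_fixS h2 hg⟩

end Cfsg.Agent.S5949
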