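import Cfsg.Statements.S5950
import Cfsg.Agent.CLAS.Elus3

set_option autoImplicit false
open scoped MatrixGroups
open Cfsg

namespace Cfsg.Agent.S5950

open CL.Elus Module


/-- Elements of prime order of PSL_n(q) fixing no decomposition `F^n = U ⊕ W` with `dim U = m`. Here `T = PSL_n(F)` for a field `F` with `q = p^f` elements (`n ≥ 2`, `(n, q) ≠ (2, 2), (2, 3)`); an element of `T` of prime order `r` is represented by a matrix `x` of determinant 1 with `x^r` scalar and `x` not scalar; `i` denotes the multiplicative order of `q` modulo `r` (when `r ≠ p`), and `(a)_r` the `r`-part of `a`. Let `n ≥ 3`, `1 ≤ m < n/2`, and let `r` be a prime dividing the number of such decompositions (unordered pairs `{U, W}` of complementary subspaces with `dim U = m`; since `m ≠ n − m` these are the ordered pairs with `dim U = m`). Then every element of `T` of order `r` fixes such a pair (fixes both `U` and `W` for some complementary `U, W` with `dim U = m`) if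 and only if one of: (i) `r = p > 2` and every partition of `n` into parts of size at most `p` contains, as a sub-multiset, a partition of `m`; (ii) `r = p = 2` and `n` is odd or `m` is even; (iii) `r ≠ p`, `i = 1`, and `r ∣ m` or `(q−1)_r ≥ (n)_r` (with `q ≡ 1 (mod 4)` required when `r = 2` and `n` is even); (iv) `r ≠ p`, `2 ≤ i ≤ m` and `n mod i ≥ m mod i`. -/
theorem result {F : Type*} [Field F] [Fintype F] {p : ℕ} [Fact p.Prime] [CharP F p] {q : ℕ} (hq : Fintype.card F = q)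
    (n m : ℕ) (hn : 3 ≤ n) (hm : 1 ≤ m) (hmn : 2 * m < n)
    (r : ℕ) [Fact r.Prime]
    (hrΩ : r ∣ Nat.card {P : Submodule F (Fin n → F) × Submodule F (Fin n → F) // IsCompl P.1 P.2 ∧ Module.finrank F ↥P.1 = m}) :
    (∀ x : Matrix.SpecialLinearGroup (Fin n) F,
      (∃ c : F, ((x ^ r : Matrix.SpecialLinearGroup (Fin n) F) : Matrix (Fin n) (Fin n) F) = c • (1 : Matrix (Fin n) (Fin n) F)) →
      (∀ c : F, (x : Matrix (Fin n) (Fin n) F) ≠ c • (1 : Matrix (Fin n) (Fin n) F)) →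
      ∃ U W : Submodule F (Fin n → F), IsCompl U W ∧ Module.finrank F ↥U = m ∧
        U.map (Matrix.toLin' (x : Matrix (Fin n) (Fin n) F)) ≤ U ∧ W.map (Matrix.toLin' (x : Matrix (Fin n) (Fin n) F)) ≤ W) ↔
    ((r = p ∧ 2 < p ∧ (∀ μ : Multiset ℕ, (∀ a ∈ μ, 0 < a ∧ a ≤ p) → μ.sum = n → ∃ ν : Multiset ℕ, ν ≤ μ ∧ ν.sum = m)) ∨
     (r = p ∧ p = 2 ∧ (Odd n ∨ Even m)) ∨
     (r ≠ p ∧
      ((orderOf (q : ZMod r) = 1 ∧ (r ∣ m ∨ (padicValNat r n ≤ padicValNat r (q - 1) ∧ (r = 2 → Even n → q % 4 = 1)))) ∨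
       (2 ≤ orderOf (q : ZMod r) ∧ orderOf (q : ZMod r) ≤ m ∧ m % orderOf (q : ZMod r) ≤ n % orderOf (q : ZMod r))))) := by
  subst hq
  have hN : finrank F (Fin n → F) = n := Module.finrank_fin_fun F
  have : Nontrivial (Fin n → F) := Module.nontrivial_of_finrank_pos (R := F) (by omega)
  have := finite_equiv (F := F) (V := Fin n → F)
  rw [forall_SL_iff r (fun A => ∃ U W : Submodule F (Fin n → F), IsCompl U W ∧ finrank F U = m ∧
    U.map A ≤ U ∧ W.map A ≤ W)]
  by_cases hr : r = p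
  · subst hr
    rw [elu_unip r (by omega), hN]
    rcases (Fact.out : r.Prime).eq_two_or_odd' with rfl | h2
    · rw [partition_two_iff (by omega)]; simp
    · have h3 : r ≠ 2 := by rintro rfl; exact absurd h2 (by decide)
      have h4 : 2 < r := lt_of_le_of_ne (Fact.out : r.Prime).two_le h3.symm
      simp [h3, h4]
  have key : (∀ S : Subgroup ((Fin n → F) ≃ₗ[F] (Fin n → F)), IsPGroup r S →
      ∃ U W : Submodule F (Fin n → F), (IsCompl U W ∧ finrank F U = m) ∧
        (∀ g ∈ S, ∀ v ∈ U, g v ∈ U) ∧ ∀ g ∈ S, ∀ v ∈ W, g v ∈ W) → False :=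
    fun h => not_dvd_card_of_fixed ⊤ (fun g (P : Submodule F (Fin n → F) × Submodule F (Fin n → F)) =>
        (mp g P.1, mp g P.2)) (fun P => by rw [mp_one, mp_one])
      (fun g h P => by rw [mp_mul, mp_mul])
      (fun P => IsCompl P.1 P.2 ∧ finrank F P.1 = m)
      (fun g _ P hP => ⟨isCompl_mp g hP.1, by rw [finrank_mp, hP.2]⟩)
      (fun P Q hP hQ => (exists_mp_eq_isCompl hP.1 hQ.1 (hP.2.trans hQ.2.symm)).imp
        fun g hg => ⟨trivial, Prod.ext hg.1 hg.2⟩)
      (fun S _ hS => by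
        obtain ⟨U, W, h1, h2, h3⟩ := h S hS
        exact ⟨(U, W), h1, fun g hg => Prod.ext (mp_eq_of_mem (h2 g hg)) (mp_eq_of_mem (h3 g hg))⟩)
      hrΩ
  have h0 := elu_sub (F := F) (V := Fin n → F) p hr (m := m) (by omega)
  rw [hN] at h0
  have h1 : (∀ A : Module.End F (Fin n → F), LinearMap.det A = 1 → (∃ c, A ^ r = algebraMap F _ c) →
      (∀ c, A ≠ algebraMap F _ c) → ∃ U W : Submodule F (Fin n → F), IsCompl U W ∧
        finrank F U = m ∧ U.map A ≤ U ∧ W.map A ≤ W) ↔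
      ∀ A : Module.End F (Fin n → F), LinearMap.det A = 1 → (∃ c, A ^ r = algebraMap F _ c) →
      (∀ c, A ≠ algebraMap F _ c) → ∃ W : Submodule F (Fin n → F), finrank F W = m ∧ W.map A ≤ W := by
    refine forall_congr' fun A => forall_congr' fun h1 => forall_congr' fun h2 =>
      forall_congr' fun h3 => ⟨fun ⟨U, W, _, h4, h5, _⟩ => ⟨U, h4, h5⟩, fun ⟨U, h4, h5⟩ => ?_⟩
    obtain ⟨c, h2⟩ := h2
    obtain ⟨W, h6, h7⟩ := exists_inv_isCompl
      (ss_of_pow_eq_algebraMap p hr (isUnit_of_det_eq_one h1) h2) (inv_iff_map_le.2 h5)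
    exact ⟨U, W, h7, h4, h5, inv_iff_map_le.1 h6⟩
  rw [h1, h0]
  simp only [hr, false_and, false_or, ne_eq, not_false_eq_true, true_and]
  refine ⟨fun h => h.imp id fun h => ⟨h.1, ?_, h.2⟩, fun h => h.imp id fun h => ⟨h.1, h.2.2⟩⟩
  by_contra! hlt
  refine key fun S hS => ?_
  have h1 := mod_le_finrank_fixS p hr hS (ord_dvd_movS p hr hS)
  rw [hN] at h1
  have hc := isCompl_of_isPGroup p hr hS
  rw [Nat.mod_eq_of_lt hlt] at h
  obtain ⟨U, h4, h5⟩ := exists_finrank_le (M := fixS S) (k := m) (by omega)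
  obtain ⟨C, h2, h3, h6⟩ := exists_compl_le h4
  refine ⟨U, C ⊔ movS S, ⟨⟨?_, ?_⟩, h5⟩,
    fun g hg => apply_mem_of_le_fixS h4 hg, fun g hg => apply_mem_of_movS_le le_sup_right hg⟩
  · exact (h3.disjoint_sup_right_of_disjoint_sup_left (h6 ▸ hc.disjoint))
  · rw [codisjoint_iff, ← sup_assoc, h6, hc.sup_eq_top]

end Cfsg.Agent.S5950
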