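import Cfsg.Statements.S5951
import Cfsg.Agent.CLAS.Elus3

set_option autoImplicit false
open scoped MatrixGroups
open Cfsg

namespace Cfsg.Agent.S5951

open CL.Elus Module


/-- Elements of prime order of PSL_n(q) fixing no pair of subspaces `U < W` with `dim U = m`, `dim W = n − m`. Here `T = PSL_n(F)` for a field `F` with `q = p^f` elements (`n ≥ 2`, `(n, q) ≠ (2, 2), (2, 3)`); an element of `T` of prime order `r` is represented by a matrix `x` of determinant 1 with `x^r` scalar and `x` not scalar; `i` denotes the multiplicative order of `q` modulo `r` (when `r ≠ p`), and `(a)_r` the `r`-part of `a`. Let `1 ≤ m < n/2` and let `r` be a prime dividing the number of such pairs. Then every element of `T` of order `r` fixes such a pair (both `U` and `W`) if and only if `r ≠ p` and either (i) `i = 1` and (`r ∣ m`, or `(q−1)_r ≥ (n)_r` with `q ≡ 1 (mod 4)` required when `r = 2` and `n` is even), or (ii) `2 ≤ i ≤ m` and `n mod i ≥ 2 (m mod i)`.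 -/
theorem result {F : Type*} [Field F] [Fintype F] {p : ℕ} [Fact p.Prime] [CharP F p] {q : ℕ} (hq : Fintype.card F = q)
    (n m : ℕ) (hn : 2 ≤ n) (hT : (n, q) ≠ (2, 2) ∧ (n, q) ≠ (2, 3)) (hm : 1 ≤ m) (hmn : 2 * m < n)
    (r : ℕ) [Fact r.Prime]
    (hrΩ : r ∣ Nat.card {P : Submodule F (Fin n → F) × Submodule F (Fin n → F) //
        P.1 ≤ P.2 ∧ Module.finrank F ↥P.1 = m ∧ Module.finrank F ↥P.2 = n - m}) :
    (∀ x : Matrix.SpecialLinearGroup (Fin n) F,
      (∃ c : F, ((x ^ r : Matrix.SpecialLinearGroup (Fin n) F) : Matrix (Fin n) (Fin n) F) = c • (1 : Matrix (Fin n) (Fin n) F)) →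
      (∀ c : F, (x : Matrix (Fin n) (Fin n) F) ≠ c • (1 : Matrix (Fin n) (Fin n) F)) →
      ∃ U W : Submodule F (Fin n → F), U ≤ W ∧ Module.finrank F ↥U = m ∧ Module.finrank F ↥W = n - m ∧
        U.map (Matrix.toLin' (x : Matrix (Fin n) (Fin n) F)) ≤ U ∧ W.map (Matrix.toLin' (x : Matrix (Fin n) (Fin n) F)) ≤ W) ↔
    (r ≠ p ∧
      ((orderOf (q : ZMod r) = 1 ∧ (r ∣ m ∨ (padicValNat r n ≤ padicValNat r (q - 1) ∧ (r = 2 → Even n → q % 4 = 1)))) ∨
       (2 ≤ orderOf (q : ZMod r) ∧ orderOf (q : ZMod r) ≤ m ∧ 2 * (m % orderOf (q : ZMod r)) ≤ n % orderOf (q : ZMod r)))) := by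
  subst hq
  have hN : finrank F (Fin n → F) = n := Module.finrank_fin_fun F
  have : Nontrivial (Fin n → F) := Module.nontrivial_of_finrank_pos (R := F) (by omega)
  have := finite_equiv (F := F) (V := Fin n → F)
  have key : (∀ S : Subgroup ((Fin n → F) ≃ₗ[F] (Fin n → F)), IsPGroup r S →
      ∃ U W : Submodule F (Fin n → F), (U ≤ W ∧ finrank F U = m ∧ finrank F W = n - m) ∧
        (∀ g ∈ S, ∀ v ∈ U, g v ∈ U) ∧ ∀ g ∈ S, ∀ v ∈ W, g v ∈ W) → False :=
    fun h => not_dvd_card_of_fixed ⊤ (fun g (P : Submodule F (Fin n → F) × Submodule F (Fin n → F)) =>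
        (mp g P.1, mp g P.2)) (fun P => by rw [mp_one, mp_one])
      (fun g h P => by rw [mp_mul, mp_mul])
      (fun P => P.1 ≤ P.2 ∧ finrank F P.1 = m ∧ finrank F P.2 = n - m)
      (fun g _ P hP => ⟨Submodule.map_mono hP.1, by rw [finrank_mp, hP.2.1],
        by rw [finrank_mp, hP.2.2]⟩)
      (fun P Q hP hQ => (exists_mp_eq_flag hP.1 hQ.1 (hP.2.1.trans hQ.2.1.symm)
        (hP.2.2.trans hQ.2.2.symm)).imp fun g hg => ⟨trivial, Prod.ext hg.1 hg.2⟩)
      (fun S _ hS => by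
        obtain ⟨U, W, h1, h2, h3⟩ := h S hS
        exact ⟨(U, W), h1, fun g hg => Prod.ext (mp_eq_of_mem (h2 g hg)) (mp_eq_of_mem (h3 g hg))⟩)
      hrΩ
  have hr : r ≠ p := by
    rintro rfl
    refine key fun S hS => ?_
    obtain ⟨U, -, h1, h2⟩ := exists_invariant_between r hS m (U := ⊥)
      (fun g _ v hv => by simp_all) (by simp; omega)
    rw [finrank_bot, zero_add] at h2
    obtain ⟨W, h3, h4, h5⟩ := exists_invariant_between r hS (n - m - m) h1 (by omega)
    exact ⟨U, W, ⟨h3, h2, by omega⟩, h1, h4⟩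
  have h0 := elu_flag (F := F) (V := Fin n → F) p hr (m := m) (by omega)
  rw [hN] at h0
  rw [forall_SL_iff r (fun A => ∃ U W : Submodule F (Fin n → F), U ≤ W ∧ finrank F U = m ∧
    finrank F W = n - m ∧ U.map A ≤ U ∧ W.map A ≤ W), h0]
  refine ⟨fun h => ⟨hr, h.imp id fun h => ⟨h.1, ?_, h.2⟩⟩, fun h => h.2.imp id fun h => ⟨h.1, h.2.2⟩⟩
  by_contra! hlt
  refine key fun S hS => ?_
  have h1 := mod_le_finrank_fixS p hr hS (ord_dvd_movS p hr hS)
  rw [hN] at h1
  have hc := isCompl_of_isPGroup p hr hS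
  have h6 := Submodule.finrank_add_eq_of_isCompl hc
  rw [Nat.mod_eq_of_lt hlt] at h
  obtain ⟨C, h2, h3⟩ := exists_finrank_le (M := fixS S) (k := finrank F (fixS S) - m) (by omega)
  obtain ⟨U, h4, h5⟩ := exists_finrank_le (M := C) (k := m) (by omega)
  refine ⟨U, C ⊔ movS S, ⟨h4.trans le_sup_left, h5, ?_⟩,
    fun g hg => apply_mem_of_le_fixS (h4.trans h2) hg, fun g hg => apply_mem_of_movS_le le_sup_right hg⟩
  rw [finrank_sup_of_disjoint (hc.disjoint.mono_left h2)]
  omega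

end Cfsg.Agent.S5951
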