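import Cfsg.Statements.S5952
-- import your own Cfsg.Agent.* helpers here

set_option autoImplicit false
open Cfsg

namespace Cfsg.Agent.S5952

theorem exists_le_finrank_eq {F V : Type*} [Field F] [AddCommGroup V] [Module F V]
    [FiniteDimensional F V] (C : Submodule F V) {r : ℕ} (hr : r ≤ Module.finrank F C) :
    ∃ R ≤ C, Module.finrank F R = r := by
  obtain ⟨v, hv⟩ := exists_linearIndependent_of_le_finrank hr
  refine ⟨Submodule.span F (Set.range (fun i => (v i : V))), ?_, ?_⟩
  · rw [Submodule.span_le]
    rintro _ ⟨i, rfl⟩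
    exact (v i).2
  · have : LinearIndependent F (fun i => (v i : V)) := hv.map' C.subtype C.ker_subtype
    rw [finrank_span_eq_card this, Fintype.card_fin]

/-- Which dimensions of invariant subspaces a semisimple linear map has. Let `V` be a finite-dimensional vector space over a field `F` and `f` an invertible semisimple linear map of `V`. Suppose `V` is the internal direct sum of the fixed space `C_V(f)` (the eigenspace for 1) and subspaces `U_1, …, U_s`, each `f`-invariant of dimension `a ≥ 1` on which `f` acts irreducibly (no `f`-invariant subspaces other than 0 and `U_j`). Let `0 < m < dim V` and `ℓ = m mod a`. Then `f` leaves some `m`-dimensional subspace invariant if and only if `dim C_V(f) ≥ m`, or `a ≤ m` and `dim C_V(f) ≥ ℓ`. -/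
theorem result {F V : Type*} [Field F] [AddCommGroup V] [Module F V]
    [FiniteDimensional F V] (f : V →ₗ[F] V) (hf : Function.Bijective f) (hss : Module.End.IsSemisimple f)
    {s a : ℕ} (ha : 1 ≤ a) (U : Fin s → Submodule F V)
    (hUinv : ∀ j, (U j).map f ≤ U j) (hUdim : ∀ j, Module.finrank F ↥(U j) = a)
    (hUirr : ∀ j, ∀ W : Submodule F V, W ≤ U j → W.map f ≤ W → W = ⊥ ∨ W = U j)
    (hdec : DirectSum.IsInternal (fun o : Option (Fin s) => o.elim (Module.End.eigenspace f 1) U))
    (m : ℕ) (hm : 0 < m) (hmV : m < Module.finrank F V) :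
    (∃ W : Submodule F V, Module.finrank F ↥W = m ∧ W.map f ≤ W) ↔
    (m ≤ Module.finrank F ↥(Module.End.eigenspace f 1) ∨
      (a ≤ m ∧ m % a ≤ Module.finrank F ↥(Module.End.eigenspace f 1))) := by
  classical
  set C := Module.End.eigenspace f 1 with hC
  have hCfix : ∀ x ∈ C, f x = x := fun x hx => by
    simpa using Module.End.mem_eigenspace_iff.mp hx
  have hind := hdec.submodule_iSupIndep
  have hdisj : ∀ (S : Finset (Fin s)) (j : Fin s), j ∉ S → Disjoint (U j) (C ⊔ S.sup U) := by
    intro S j hj
    refine (hind (some j)).mono_right (sup_le ?_ (Finset.sup_le fun i hi => ?_))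
    · exact le_iSup₂_of_le (f := fun (o : Option (Fin s)) (_ : o ≠ some j) => o.elim C U)
        none (by simp) le_rfl
    · exact le_iSup₂_of_le (f := fun (o : Option (Fin s)) (_ : o ≠ some j) => o.elim C U)
        (some i) (by simp; rintro rfl; exact hj hi) le_rfl
  have hdim : ∀ R ≤ C, ∀ S : Finset (Fin s),
      Module.finrank F ↥(R ⊔ S.sup U) = Module.finrank F R + S.card * a := by
    intro R hR S
    induction S using Finset.induction_on with
    | empty => rw [Finset.sup_empty, sup_bot_eq]; simp
    | insert j S hj ih =>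
      rw [Finset.sup_insert, sup_left_comm, Finset.card_insert_of_notMem hj]
      have h1 := Submodule.finrank_sup_add_finrank_inf_eq (U j) (R ⊔ S.sup U)
      rw [((hdisj S j hj).mono_right (sup_le_sup_right hR _)).eq_bot, finrank_bot, ih, hUdim] at h1
      rw [add_mul]; omega
  have htop : C ⊔ Finset.univ.sup U = ⊤ := by
    rw [eq_top_iff, ← hdec.submodule_iSup_eq_top]
    refine iSup_le fun o => ?_
    cases o with
    | none => exact le_sup_left
    | some j => exact le_sup_of_le_right (Finset.le_sup (f := U) (Finset.mem_univ j))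
  have hinv : ∀ R ≤ C, ∀ S : Finset (Fin s), (R ⊔ S.sup U).map f ≤ R ⊔ S.sup U := by
    intro R hR S
    rw [Submodule.map_sup]
    refine sup_le_sup ?_ ?_
    · rintro _ ⟨x, hx, rfl⟩
      rw [hCfix x (hR hx)]; exact hx
    · rw [Submodule.map_le_iff_le_comap]
      refine Finset.sup_le fun i hi => ?_
      rw [← Submodule.map_le_iff_le_comap]
      exact (hUinv i).trans (Finset.le_sup (f := U) hi)
  constructor
  · rintro ⟨W, hWm, hW⟩
    have key : ∀ S : Finset (Fin s), ∃ k : ℕ,
        Module.finrank F ↥(W ⊓ (C ⊔ S.sup U)) = Module.finrank F ↥(W ⊓ C) + k * a := by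
      intro S
      induction S using Finset.induction_on with
      | empty => exact ⟨0, by rw [Finset.sup_empty, sup_bot_eq]; simp⟩
      | insert j S hj ih =>
        obtain ⟨k, hk⟩ := ih
        set A := C ⊔ S.sup U with hA
        set B := C ⊔ (insert j S).sup U with hB
        have hBA : B = A ⊔ U j := by
          rw [hB, hA, Finset.sup_insert, sup_comm (U j), sup_assoc]
        have hAB : A ≤ B := hBA ▸ le_sup_left
        have hY : A ⊔ (W ⊓ B) = A ⊔ (U j ⊓ (A ⊔ (W ⊓ B))) := by
          rw [← sup_inf_assoc_of_le _ le_sup_left, ← hBA]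
          exact (inf_eq_right.mpr (sup_le hAB inf_le_right)).symm
        have hYinv : (U j ⊓ (A ⊔ (W ⊓ B))).map f ≤ U j ⊓ (A ⊔ (W ⊓ B)) := by
          refine (Submodule.map_inf_le _).trans (inf_le_inf (hUinv j) ?_)
          rw [Submodule.map_sup]
          exact sup_le_sup (hinv C le_rfl S)
            ((Submodule.map_inf_le _).trans (inf_le_inf hW (hinv C le_rfl _)))
        have h1 := Submodule.finrank_sup_add_finrank_inf_eq A (W ⊓ B)
        have h2 : A ⊓ (W ⊓ B) = W ⊓ A := by
          rw [inf_left_comm, inf_eq_left.mpr hAB]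
        rw [h2, hk] at h1
        rcases hUirr j _ inf_le_left hYinv with h | h
        · rw [h, sup_bot_eq] at hY
          rw [hY] at h1
          exact ⟨k, by omega⟩
        · rw [h, ← hBA] at hY
          rw [hY] at h1
          have h3 := hdim C le_rfl S
          have h4 := hdim C le_rfl (insert j S)
          rw [Finset.card_insert_of_notMem hj, add_mul, ← hB] at h4
          rw [← hA] at h3
          exact ⟨k + 1, by rw [add_mul]; omega⟩
    obtain ⟨k, hk⟩ := key Finset.univ
    rw [htop, inf_top_eq, hWm] at hk
    have hle : Module.finrank F ↥(W ⊓ C) ≤ Module.finrank F C := Submodule.finrank_mono inf_le_right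
    rcases Nat.eq_zero_or_pos k with rfl | hk0
    · left; omega
    · right
      refine ⟨?_, ?_⟩
      · have : a ≤ k * a := Nat.le_mul_of_pos_left a hk0
        omega
      · rw [hk, Nat.add_mul_mod_self_right]
        exact (Nat.mod_le _ _).trans hle
  · intro h
    have hV : Module.finrank F V = Module.finrank F C + s * a := by
      have := hdim C le_rfl Finset.univ
      rwa [htop, finrank_top, Finset.card_univ, Fintype.card_fin] at this
    obtain ⟨r, k, hr, hk, hrk⟩ : ∃ r k, r ≤ Module.finrank F C ∧ k ≤ s ∧ r + k * a = m := by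
      rcases h with h | ⟨h1, h2⟩
      · exact ⟨m, 0, h, Nat.zero_le _, by simp⟩
      · by_cases hs : m / a ≤ s
        · exact ⟨m % a, m / a, h2, hs, Nat.mod_add_div' m a⟩
        · have : s * a ≤ m := by
            calc s * a ≤ m / a * a := Nat.mul_le_mul_right _ (by omega)
              _ ≤ m := Nat.div_mul_le_self m a
          exact ⟨m - s * a, s, by omega, le_rfl, by omega⟩
    obtain ⟨R, hR, hRdim⟩ := exists_le_finrank_eq C hr
    obtain ⟨S, -, hS⟩ := Finset.exists_subset_card_eq (s := (Finset.univ : Finset (Fin s))) (n := k)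
      (by simpa using hk)
    exact ⟨R ⊔ S.sup U, by rw [hdim R hR, hRdim, hS, hrk], hinv R hR S⟩

end Cfsg.Agent.S5952
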