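import Cfsg.Statements.S5953
import Cfsg.Agent.CLAS.Elus7

set_option autoImplicit false
open scoped MatrixGroups
open Cfsg

namespace Cfsg.Agent.S5953

open CL.Elus CL.Witt CL.Witt.Form CL.SpU CL.PrimeCl CL.Root Module Polynomial


/-- Elements of prime order of PSU_n(q) with no fixed totally isotropic `m`-space. Here `T = PSU_n(q)` (`n ≥ 3`, `(n, q) ≠ (3, 2)`), realised through the matrices of determinant 1 over the field `F` with `q²` elements preserving the Hermitian form `h(u, v) = Σ u_i v_i^q`; an element of `T` of prime order `r` is such a matrix `x` with `x^r` scalar and `x` not scalar. For `r ≠ p` let `i` be the multiplicative order of `q` modulo `r`, `b = i/2` for `i` even and `b = i` for `i` odd, `c = i, i/2, 2i` according as `i ≡ 0, 2 (mod 4)` or `i` odd, and write `k = n mod c`, `ℓ = m mod b`, `ℓ' = m mod c`, `n' = ⌊n/b⌋`, `m' = ⌊m/b⌋`, `s = (r−1)/b`; `(a)_r` is the `r`-part of `a`. Let `1 ≤ m ≤ n/2` and let `r` be a prime dividing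 the number of totally isotropic `m`-spaces. Then every element of `T` of order `r` fixes a totally isotropic `m`-space if and only if either (i) `r = 2`, `p ≠ 2`, and (`m < n/2` or `(q+1)_2 ≤ (n)_2`); or (ii) `r ≠ p`, `r > 2`, `b ≤ m`, `k ≥ 2ℓ`, and either `i ≢ 2 (mod 4)`, or `i ≡ 2 (mod 4)`, `n' − 2m' ≥ s` and (`i > 2`, or `i = 2` and (`r ∣ m` or `(q+1)_r ≥ (n)_r`)). -/
theorem result {F : Type*} [Field F] [Fintype F] {p : ℕ} [Fact p.Prime] [CharP F p] {q : ℕ} (hq : Fintype.card F = q ^ 2)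
    (n m : ℕ) (hn : 3 ≤ n) (hT : (n, q) ≠ (3, 2)) (hm : 1 ≤ m) (hmn : 2 * m ≤ n)
    (r : ℕ) [Fact r.Prime]
    (hrΩ : r ∣ Nat.card {W : Submodule F (Fin n → F) // Module.finrank F ↥W = m ∧ (∀ u ∈ W, ∀ v ∈ W, Cfsg.hermForm n F q u v = 0)})
    (i b c : ℕ) (hi : i = orderOf (q : ZMod r)) (hb : b = if Even i then i / 2 else i)
    (hc : c = if i % 4 = 0 then i else if i % 4 = 2 then i / 2 else 2 * i) :
    (∀ x : Matrix.SpecialLinearGroup (Fin n) F, x ∈ Cfsg.SU n F q →
      (∃ z : F, ((x ^ r : Matrix.SpecialLinearGroup (Fin n) F) : Matrix (Fin n) (Fin n) F) = z • (1 : Matrix (Fin n) (Fin n) F)) →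
      (∀ z : F, (x : Matrix (Fin n) (Fin n) F) ≠ z • (1 : Matrix (Fin n) (Fin n) F)) →
      ∃ W : Submodule F (Fin n → F), Module.finrank F ↥W = m ∧ (∀ u ∈ W, ∀ v ∈ W, Cfsg.hermForm n F q u v = 0) ∧
        W.map (Matrix.toLin' (x : Matrix (Fin n) (Fin n) F)) ≤ W) ↔
    ((r = 2 ∧ p ≠ 2 ∧ (2 * m < n ∨ padicValNat 2 (q + 1) ≤ padicValNat 2 n)) ∨
     (r ≠ p ∧ 2 < r ∧ b ≤ m ∧ 2 * (m % b) ≤ n % c ∧
       (i % 4 ≠ 2 ∨ (i % 4 = 2 ∧ (r - 1) / b + 2 * (m / b) ≤ n / b ∧
         (2 < i ∨ (i = 2 ∧ (r ∣ m ∨ padicValNat r n ≤ padicValNat r (q + 1)))))))) := by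
  subst hi
  have hN : finrank F (Fin n → F) = n := Module.finrank_fin_fun F
  have : Nontrivial (Fin n → F) := Module.nontrivial_of_finrank_pos (R := F) (by omega)
  have hf := CL.Uni.std_nondeg hq (Fin n)
  have hp : r.Prime := Fact.out
  have ht : ∀ W : Submodule F (Fin n → F), (∀ u ∈ W, ∀ v ∈ W, Cfsg.hermForm n F q u v = 0) ↔
      (CL.Uni.std hq (Fin n)).TotSing W := fun W => by
    rw [herm_totSing_iff]
    exact ⟨fun h u hu v hv => h v hv u hu, fun h u hu v hv => h v hv u hu⟩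
  simp only [ht, ← inv_iff_map_le] at hrΩ ⊢
  set f := CL.Uni.std hq (Fin n)
  rw [forall_su_iff hq n r fun A => ∃ W : Submodule F (Fin n → F), finrank F W = m ∧
    f.TotSing W ∧ Inv A W]
  obtain ⟨h1, j, h2, h3, h4⟩ := herm_card_ts hf hp (by omega) hrΩ
  have hrp := (dvd_q_iff (hF := hq) p).1 h1
  have hr : (r : F) ≠ 0 := natCast_ne_zero p hrp
  have hP : ∀ (A : Module.End F (Fin n → F)) (b : F), b ≠ 0 → (∃ W : Submodule F (Fin n → F),
      finrank F W = m ∧ f.TotSing W ∧ Inv (b • A) W) → ∃ W : Submodule F (Fin n → F),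
      finrank F W = m ∧ f.TotSing W ∧ Inv A W :=
    fun A b hb h => h.imp fun _ h => ⟨h.1, h.2.1, (inv_smul_iff hb).1 h.2.2⟩
  by_cases hr2 : r = 2
  · subst hr2
    have h5 : (2 : F) ≠ 0 := by exact_mod_cast hr
    have h6 : Odd q := by rw [Nat.odd_iff]; omega
    simp only [true_and, ne_eq, hrp, Ne.symm hrp, not_false_eq_true, lt_irrefl, false_and, or_false]
    constructor
    · intro h
      by_contra! h7
      obtain ⟨b, A, h8, h9, h10, h11, h12, h13, h14, h15⟩ := herm_exists_refl hf h6 (by omega)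
        (by rw [hN]; exact h7.2)
      obtain ⟨U, rfl, h16, h17⟩ := hP _ _ h8 (h _ h12 h13 h14 h15)
      have := invol_ts_le hf h9 h5 h10 h16 h17
      have := finrank_ker_add_range (A - 1)
      omega
    · rintro h A hA hd ⟨c, hc⟩ -
      rcases herm_invol_cases hf h6 hA hd hc with ⟨b, h7, h8, -⟩ | ⟨b, h7, h8, h9, h10⟩
      · exact anti_ts hf hA h5 h7 h8 (by omega)
      · refine hP _ _ h7 (invol_ts hf h8 h5 (iso_herm f) h9 ?_)
        have := finrank_ker_add_range (b • A - 1)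
        rw [hN, Nat.even_iff] at h10
        omega
  have D := dat_herm (hF := hq) hr hr2
  have h5 : ord F r = b := by rw [hb, ord_sq_eq (hF := hq)]
  have h6 := hp.two_le
  rw [← hc, h5] at D
  simp only [hr2, false_and, false_or, ne_eq, hrp, not_false_eq_true, true_and,
    show 2 < r by omega]
  by_cases hi2 : orderOf (q : ZMod r) = 2
  · have h7 := (ord_eq_two_iff hr2).1 hi2
    obtain rfl : b = 1 := by simp [hb, hi2]
    obtain rfl : c = 1 := by simp [hc, hi2]
    rw [herm_elu_two hf hr2 h7 hr f.TotSing (m := m) (r - 1 + 2 * m ≤ n) (fun h A h8 h9 =>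
      D.exists_ts_of_le hf h8 h9 (fun e he => (iso_herm f).exists_ts (nd_ker_sub_one hf h8
        (CL.GLn.isSemisimple_of_pow_eq_one hr h9)) he) (by omega) (by simp [h5, Nat.mod_one])
        (Or.inr (by simpa [h5, hi2] using h))) (fun h A c h8 h9 h10 h11 h12 => ?_) (fun h => ?_), hN]
    · simp [hi2, Nat.mod_one, hm]
    · obtain ⟨A₁, h13, h14⟩ := exists_real_irred (hF := hq) hp.ne_zero h9 h10 h
      obtain ⟨A₂, h15, h16⟩ := exists_real_irred (hF := hq) hp.ne_zero h9 h10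
        (Nat.dvd_sub (show r ∣ n by rwa [hN] at h12) (h.mul_left 2))
      simpa using exists_ts_of_irred (rigid_herm hf h8) h10 h11 h13 h14 h15 h16 (by simp; omega)
    · have h8 := Nat.odd_iff.1 (hp.odd_of_ne_two hr2)
      obtain ⟨A, m', h9, h10, h11, -, h12, h13⟩ := herm_exists_test hf hr2 h7 hr
        (h := (n - 2 * m) / 2 + 1) (by omega) (by omega) (by omega)
      refine ⟨A, h9, h12, h10.pow_eq_one, h13, ?_⟩
      rintro ⟨U, rfl, h14, h15⟩
      have := D.two_mul_le_of_nodup hf h9 h10 (D.cases.resolve_right (by simp [h5])).1 h11 h14 h15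
      omega
  · have h7 := (hp.coprime_iff_not_dvd).2 (mt (ord_eq_two_iff hr2).2 hi2)
    rw [forall_proj_iff hf herm_norm_pow h7 _ (fun A => ∃ W : Submodule F (Fin n → F),
      finrank F W = m ∧ f.TotSing W ∧ Inv A W)
      (fun A h8 h9 => det_eq_one_of_coprime hf herm_norm_pow h7 h8 h9) hP,
      D.elu_ts hf (hX_herm hr hf) (iso_herm f) (by omega) ⟨j, h2, h3,
        hc ▸ (herm_c_dvd hr2 (cast_q_ne_zero (hF := hq) hr) h4).1⟩, hN, h5]
    have h8 : 2 * (m / b) ≤ n / b :=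
      (Nat.mul_div_le_mul_div_assoc _ _ _).trans (Nat.div_le_div_right (by omega))
    split_ifs with h9
    · simp [h9, show 2 < orderOf (q : ZMod r) by omega]
    · simp [h9, h8]

end Cfsg.Agent.S5953
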