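import Cfsg.Statements.S5954
import Cfsg.Agent.CLAS.Elus7

set_option autoImplicit false
open scoped MatrixGroups
open Cfsg

namespace Cfsg.Agent.S5954

open CL.Elus CL.Witt CL.Witt.Form CL.SpU CL.PrimeCl CL.Root Module Polynomial


/-- Elements of prime order of PSU_n(q) with no fixed nondegenerate `m`-space. Here `T = PSU_n(q)` (`n ≥ 3`, `(n, q) ≠ (3, 2)`), realised through the matrices of determinant 1 over the field `F` with `q²` elements preserving the Hermitian form `h(u, v) = Σ u_i v_i^q`; an element of `T` of prime order `r` is such a matrix `x` with `x^r` scalar and `x` not scalar. For `r ≠ p` let `i` be the multiplicative order of `q` modulo `r`, `b = i/2` for `i` even and `b = i` for `i` odd, `c = i, i/2, 2i` according as `i ≡ 0, 2 (mod 4)` or `i` odd, and write `k = n mod c`, `ℓ = m mod b`, `ℓ' = m mod c`, `n' = ⌊n/b⌋`, `m' = ⌊m/b⌋`, `s = (r−1)/b`; `(a)_r` is the `r`-part of `a`. Let `1 ≤ m < n/2` and let `r` be a prime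 dividing the number of nondegenerate `m`-spaces. Then every element of `T` of order `r` fixes a nondegenerate `m`-space if and only if one of: (i) `r = p > 2` and every partition of `n` into parts of size at most `p` contains (as a sub-multiset) a partition of `m`; (ii) `r = p = 2` and (`n` is odd or `m` is even); (iii) `r = 2 ≠ p` and (`n` is odd, or `m` is even, or `(q+1)_2 ≥ (n)_2` and `q ≡ 3 (mod 4)`); (iv) `r ≠ p`, `r > 2`, and either `i ≠ 2`, `c ≤ m` and `k ≥ ℓ'`, or `i = 2` and (`r ∣ m` or `(q+1)_r ≥ (n)_r`). -/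
theorem result {F : Type*} [Field F] [Fintype F] {p : ℕ} [Fact p.Prime] [CharP F p] {q : ℕ} (hq : Fintype.card F = q ^ 2)
    (n m : ℕ) (hn : 3 ≤ n) (hT : (n, q) ≠ (3, 2)) (hm : 1 ≤ m) (hmn : 2 * m < n)
    (r : ℕ) [Fact r.Prime]
    (hrΩ : r ∣ Nat.card {W : Submodule F (Fin n → F) // Module.finrank F ↥W = m ∧ (∀ u ∈ W, u ≠ 0 → ∃ v ∈ W, Cfsg.hermForm n F q u v ≠ 0)})
    (i b c : ℕ) (hi : i = orderOf (q : ZMod r)) (hb : b = if Even i then i / 2 else i)
    (hc : c = if i % 4 = 0 then i else if i % 4 = 2 then i / 2 else 2 * i) :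
    (∀ x : Matrix.SpecialLinearGroup (Fin n) F, x ∈ Cfsg.SU n F q →
      (∃ z : F, ((x ^ r : Matrix.SpecialLinearGroup (Fin n) F) : Matrix (Fin n) (Fin n) F) = z • (1 : Matrix (Fin n) (Fin n) F)) →
      (∀ z : F, (x : Matrix (Fin n) (Fin n) F) ≠ z • (1 : Matrix (Fin n) (Fin n) F)) →
      ∃ W : Submodule F (Fin n → F), Module.finrank F ↥W = m ∧ (∀ u ∈ W, u ≠ 0 → ∃ v ∈ W, Cfsg.hermForm n F q u v ≠ 0) ∧
        W.map (Matrix.toLin' (x : Matrix (Fin n) (Fin n) F)) ≤ W) ↔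
    ((r = p ∧ 2 < p ∧ (∀ μ : Multiset ℕ, (∀ a ∈ μ, 0 < a ∧ a ≤ p) → μ.sum = n → ∃ ν : Multiset ℕ, ν ≤ μ ∧ ν.sum = m)) ∨
     (r = p ∧ p = 2 ∧ (Odd n ∨ Even m)) ∨
     (r = 2 ∧ p ≠ 2 ∧ (Odd n ∨ Even m ∨ (padicValNat 2 n ≤ padicValNat 2 (q + 1) ∧ q % 4 = 3))) ∨
     (r ≠ p ∧ 2 < r ∧ ((i ≠ 2 ∧ c ≤ m ∧ m % c ≤ n % c) ∨ (i = 2 ∧ (r ∣ m ∨ padicValNat r n ≤ padicValNat r (q + 1)))))) := by
  subst hi
  have hN : finrank F (Fin n → F) = n := Module.finrank_fin_fun F
  have : Nontrivial (Fin n → F) := Module.nontrivial_of_finrank_pos (R := F) (by omega)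
  have hf := CL.Uni.std_nondeg hq (Fin n)
  have hp : r.Prime := Fact.out
  have ht : ∀ W : Submodule F (Fin n → F),
      (∀ u ∈ W, u ≠ 0 → ∃ v ∈ W, Cfsg.hermForm n F q u v ≠ 0) ↔ ND (CL.Uni.std hq (Fin n)) W :=
    fun W => by simp only [nd_iff, ← CL.Uni.std_B_eq_hermForm hq, ne_eq, B_eq_zero_comm]
  simp only [ht, ← inv_iff_map_le] at hrΩ ⊢
  set f := CL.Uni.std hq (Fin n)
  rw [forall_su_iff hq n r fun A => ∃ W : Submodule F (Fin n → F), finrank F W = m ∧
    ND f W ∧ Inv A W]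
  have hP : ∀ (A : Module.End F (Fin n → F)) (b : F), b ≠ 0 → (∃ W : Submodule F (Fin n → F),
      finrank F W = m ∧ ND f W ∧ Inv (b • A) W) → ∃ W : Submodule F (Fin n → F),
      finrank F W = m ∧ ND f W ∧ Inv A W :=
    fun A b hb h => h.imp fun _ h => ⟨h.1, h.2.1, (inv_smul_iff hb).1 h.2.2⟩
  have key := fun h7 : r.Coprime (q + 1) => forall_proj_iff hf herm_norm_pow h7 _
    (fun A => ∃ W : Submodule F (Fin n → F), finrank F W = m ∧ ND f W ∧ Inv A W)
    (fun A h8 h9 => det_eq_one_of_coprime hf herm_norm_pow h7 h8 h9) hP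
  have hC : ∀ W, ND f W → ∀ e ≤ finrank F W, 1 ∣ e → ∃ U ≤ W, ND f U ∧ finrank F U = e :=
    fun W hW e he _ => herm_exists_nd hW he
  have h6 := hp.two_le
  by_cases hrp : r = p
  · subst hrp
    rw [key (coprime_char_succ (hF := hq) r), herm_elu_unip hf r (by omega), hN]
    by_cases hr2 : r = 2
    · subst hr2
      simp [partition_two_iff (show m ≤ n by omega)]
    · simp [hr2, show 2 < r by omega]
  have hr : (r : F) ≠ 0 := natCast_ne_zero p hrp
  have h1 := (dvd_q_iff (hF := hq) p).2 hrp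
  by_cases hr2 : r = 2
  · subst hr2
    have h5 : (2 : F) ≠ 0 := by exact_mod_cast hr
    have h6 : Odd q := by rw [Nat.odd_iff]; omega
    simp only [true_and, ne_eq, hrp, Ne.symm hrp, not_false_eq_true, lt_irrefl, false_and, or_false,
      false_or]
    constructor
    · intro h
      by_contra h7
      simp only [not_or, Nat.not_odd_iff_even] at h7
      obtain ⟨b, A, h8, h9, h10, h11, h12⟩ := herm_exists_anti hf h6 (by rw [hN]; exact h7.1)
        (by rw [hN]; exact h7.2.2)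
      obtain ⟨U, rfl, h13, h14⟩ := h A h9 h10 ⟨_, h11⟩ h12
      exact h7.2.1 (anti_even h9 h5 h8 h11 h13 h14)
    · rintro h A hA hd ⟨c, hc⟩ -
      rcases herm_invol_cases hf h6 hA hd hc with ⟨b, h7, h8, h9, h10⟩ | ⟨b, h7, h8, h9, -⟩
      · rw [hN] at h9 h10
        obtain ⟨k, rfl⟩ := ((h.resolve_left (Nat.not_odd_iff_even.2 h9)).resolve_right h10).two_dvd
        exact anti_nd hf hA h5 h7 h8 (by omega)
      · exact hP _ _ h7 (invol_nd hf h8 h5 hC (one_dvd _) h9 (by omega) (one_dvd _))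
  have D := dat_herm (hF := hq) hr hr2
  rw [← hc] at D
  simp only [hr2, false_and, false_or, ne_eq, hrp, not_false_eq_true, true_and,
    show 2 < r by omega]
  by_cases hi2 : orderOf (q : ZMod r) = 2
  · have h7 := (ord_eq_two_iff hr2).1 hi2
    obtain rfl : c = 1 := by simp [hc, hi2]
    rw [herm_elu_two hf hr2 h7 hr (ND f) (m := m) True (fun _ A h8 h9 =>
      D.exists_nd_of_le hf h8 h9 dvd_rfl (hC _ (nd_ker_sub_one hf h8
        (CL.GLn.isSemisimple_of_pow_eq_one hr h9))) (one_dvd _) (by omega) (by simp [Nat.mod_one]))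
        (fun h A c h8 h9 h10 h11 h12 => ?_) (fun h => absurd trivial h), hN]
    · simp [hi2]
    · obtain ⟨A₁, h13, h14⟩ := exists_real_irred (hF := hq) hp.ne_zero h9 h10 h
      obtain ⟨A₂, h15, h16⟩ := exists_real_irred (hF := hq) hp.ne_zero h9 h10
        (Nat.dvd_sub (show r ∣ n by rwa [hN] at h12) h)
      simpa using exists_nd_of_irred (rigid_herm hf h8) h10 h11 h13 h14 h15 h16 (by simp; omega)
  · obtain ⟨j, h2, h3, h4⟩ := herm_card_nd hf hp h1 (by omega) hrΩ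
    rw [key ((hp.coprime_iff_not_dvd).2 (mt (ord_eq_two_iff hr2).2 hi2)),
      D.elu_nd hf (hX_herm hr hf) (one_dvd _) hC (one_dvd _) (by omega) ⟨j, h2, h3,
        hc ▸ (herm_c_dvd hr2 (cast_q_ne_zero (hF := hq) hr) h4).1⟩, hN]
    simp [hi2]

end Cfsg.Agent.S5954
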