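import Cfsg.Statements.S5955
import Cfsg.Agent.CLAS.Elus6

set_option autoImplicit false
open scoped MatrixGroups
open Cfsg

namespace Cfsg.Agent.S5955

open CL.Elus CL.Witt CL.Witt.Form CL.SpU CL.PrimeCl CL.Root Module Polynomial


/-- Elements of prime order of PSp_n(q) with no fixed totally isotropic `m`-space. Here `T = PSp_n(q)` with `n = 2d ≥ 4`, `(n, q) ≠ (4, 2)`, realised through the symplectic matrices over the field `F` with `q` elements (preserving the standard alternating form); an element of `T` of prime order `r` is such a matrix `x` with `x^r` scalar and `x` not scalar. For `r ≠ p` let `i` be the multiplicative order of `q` modulo `r`, `c = i` for `i` even and `c = 2i` for `i` odd, and write `k = n mod c`, `ℓ = m mod i`, `ℓ' = m mod c`, `n' = ⌊n/i⌋`, `m' = ⌊m/i⌋`, `t = (r−1)/i`. Let `1 ≤ m ≤ n/2` and let `r` be a prime dividing the number of totally isotropic `m`-spaces. Then every element of `T` of order `r` fixes a totally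 isotropic `m`-space if and only if either (i) `r = 2 ≠ p` and (`m` is even or `q ≡ 1 (mod 4)`); or (ii) `r ≠ p`, `r > 2`, `i ≤ m`, `k ≥ 2ℓ`, and (`i` is odd or `n' − 2m' ≥ t`). -/
theorem result {F : Type*} [Field F] [Fintype F] {p : ℕ} [Fact p.Prime] [CharP F p] {q : ℕ} (hq : Fintype.card F = q)
    (d m : ℕ) (hd : 2 ≤ d) (hT : (d, q) ≠ (2, 2)) (hm : 1 ≤ m) (hmd : m ≤ d)
    (r : ℕ) [Fact r.Prime]
    (hrΩ : r ∣ Nat.card {W : Submodule F (Fin d ⊕ Fin d → F) // Module.finrank F ↥W = m ∧ (∀ u ∈ W, ∀ v ∈ W, Cfsg.sympForm d F u v = 0)})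
    (i c : ℕ) (hi : i = orderOf (q : ZMod r)) (hc : c = if Even i then i else 2 * i) :
    (∀ x : ↥(Matrix.symplecticGroup (Fin d) F),
      (∃ z : F, ((x ^ r : ↥(Matrix.symplecticGroup (Fin d) F)) : Matrix (Fin d ⊕ Fin d) (Fin d ⊕ Fin d) F) = z • (1 : Matrix (Fin d ⊕ Fin d) (Fin d ⊕ Fin d) F)) →
      (∀ z : F, (x : Matrix (Fin d ⊕ Fin d) (Fin d ⊕ Fin d) F) ≠ z • (1 : Matrix (Fin d ⊕ Fin d) (Fin d ⊕ Fin d) F)) →
      ∃ W : Submodule F (Fin d ⊕ Fin d → F), Module.finrank F ↥W = m ∧ (∀ u ∈ W, ∀ v ∈ W, Cfsg.sympForm d F u v = 0) ∧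
        W.map (Matrix.toLin' (x : Matrix (Fin d ⊕ Fin d) (Fin d ⊕ Fin d) F)) ≤ W) ↔
    ((r = 2 ∧ p ≠ 2 ∧ (Even m ∨ q % 4 = 1)) ∨
     (r ≠ p ∧ 2 < r ∧ i ≤ m ∧ 2 * (m % i) ≤ (2 * d) % c ∧ (Odd i ∨ (r - 1) / i + 2 * (m / i) ≤ (2 * d) / i))) := by
  subst hq hi hc
  have hN : finrank F (Fin d ⊕ Fin d → F) = 2 * d := CL.Sp.finrank_sp d F
  have : Nontrivial (Fin d ⊕ Fin d → F) := Module.nontrivial_of_finrank_pos (R := F) (by omega)
  have hf : (CL.Sp.spForm d F).Nondeg := CL.Sp.spForm_nondeg d F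
  have hp : r.Prime := Fact.out
  simp only [← CL.Sp.spForm_B, ← alt_totSing_iff, ← inv_iff_map_le] at hrΩ ⊢
  rw [forall_sp_iff d r fun A => ∃ W : Submodule F (Fin d ⊕ Fin d → F), finrank F W = m ∧
    (CL.Sp.spForm d F).TotSing W ∧ Inv A W]
  obtain ⟨h1, j, h2, h3, h4⟩ := alt_card_ts hf hN hp hmd hrΩ
  have hrp := (not_dvd_card_iff p).1 h1
  have hr : (r : F) ≠ 0 := natCast_ne_zero p hrp
  by_cases hr2 : r = 2
  · subst hr2
    have h5 : (2 : F) ≠ 0 := by exact_mod_cast hr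
    have h6 : IsSquare (-1 : F) ↔ Fintype.card F % 4 = 1 := by
      rw [FiniteField.isSquare_neg_one_iff]; omega
    have h7 : ¬ Fintype.card F % 4 = 1 → ∀ b : F, b ^ 2 ≠ -1 := fun h b hb =>
      h (h6.1 ⟨b, by rw [← hb, sq]⟩)
    have h8 : ¬ Fintype.card F % 4 = 1 → Irreducible (X ^ 2 - C (-1) : F[X]) := fun h =>
      (irreducible_or_root _).resolve_left fun ⟨b, hb⟩ => h7 h b hb
    simp only [true_and, ne_eq, hrp, Ne.symm hrp, not_false_eq_true, lt_irrefl, false_and, or_false]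
    constructor
    · intro h
      by_contra! h9
      obtain ⟨A, h10, h11⟩ := exists_isom_sq_neg hf
      obtain ⟨W, rfl, -, h12⟩ := h A h10 trivial ⟨_, h11⟩ (ne_algebraMap_of_pow h11 (h7 h9.2))
      exact h9.1 (even_iff_two_dvd.2 (((hom_top_of_irreducible h11 (h8 h9.2)).mono le_top).dvd
        (ss_of_irreducible (h8 h9.2) (aeval_X_pow_sub_C h11)) h12))
    · rintro h A hA - ⟨c, hc⟩ -
      rcases alt_sq_cases hf hA hc with h9 | h9
      · have h10 := (nd_ker_sub_one hf hA (ss_of_sq h5 h9)).nondeg.even_finrank_alt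
        have h11 := finrank_ker_add_range (A - 1)
        rw [Nat.even_iff] at h10
        exact invol_ts hf hA h5 (iso_alt _) h9 (by omega)
      · by_cases h10 : Fintype.card F % 4 = 1
        · obtain ⟨b, hb⟩ := h6.2 h10
          exact anti_ts hf hA h5 (b := b) hb.symm (by rw [h9, hb, sq]) (by omega)
        · obtain ⟨e, rfl⟩ := h.resolve_right h10
          obtain ⟨J₁, h11, h12⟩ := exists_real_sq_neg F e
          obtain ⟨J₂, h13, h14⟩ := exists_real_sq_neg F (d - (e + e))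
          simpa using exists_ts_of_irred (rigid_alt hf hA (ss_of_irreducible (h8 h10)
            (aeval_X_pow_sub_C h9))) (h8 h10) (aeval_X_pow_sub_C h9) h11 (aeval_X_pow_sub_C h12)
            h13 (aeval_X_pow_sub_C h14) (by simp; omega)
  · rw [forall_proj_iff hf alt_norm_sq ((Nat.coprime_primes hp Nat.prime_two).2 hr2) _ _
      (fun _ _ _ => trivial) (fun A b hb h => h.imp fun _ h => ⟨h.1, h.2.1,
        (inv_smul_iff hb).1 h.2.2⟩), (dat_alt hr hr2).elu_ts hf (hX_alt hr hr2 hf) (iso_alt _)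
      (by omega) ⟨2 * j, by omega, by omega, alt_c_dvd h4⟩, hN]
    have h5 : 2 * (m / ord F r) ≤ 2 * d / ord F r :=
      (Nat.mul_div_le_mul_div_assoc _ _ _).trans (Nat.div_le_div_right (by omega))
    have h6 := hp.two_le
    simp only [hr2, false_and, false_or, ne_eq, hrp, not_false_eq_true, true_and,
      show 2 < r by omega, ← Nat.not_even_iff_odd]
    split_ifs with h7 <;> simp [h7, h5]

end Cfsg.Agent.S5955
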