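import Cfsg.Statements.S5956
import Cfsg.Agent.CLAS.Elus7

set_option autoImplicit false
open scoped MatrixGroups
open Cfsg

namespace Cfsg.Agent.S5956

open CL.Elus CL.Witt CL.Witt.Form CL.SpU CL.PrimeCl CL.Root Module Polynomial


/-- Elements of prime order of PSp_n(q) with no fixed nondegenerate `m`-space. Here `T = PSp_n(q)` with `n = 2d ≥ 4`, `(n, q) ≠ (4, 2)`, realised through the symplectic matrices over the field `F` with `q` elements (preserving the standard alternating form); an element of `T` of prime order `r` is such a matrix `x` with `x^r` scalar and `x` not scalar. For `r ≠ p` let `i` be the multiplicative order of `q` modulo `r`, `c = i` for `i` even and `c = 2i` for `i` odd, and write `k = n mod c`, `ℓ = m mod i`, `ℓ' = m mod c`, `n' = ⌊n/i⌋`, `m' = ⌊m/i⌋`, `t = (r−1)/i`. Let `m` be even with `2 ≤ m < n/2` and let `r` be a prime dividing the number of nondegenerate `m`-spaces. Then every element of `T` of order `r` fixes a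 nondegenerate `m`-space if and only if one of: (i) `r = p > 2` and every partition of `n` into parts of size at most `p` in which every odd part has even multiplicity contains (as a sub-multiset) a partition of `m` in which every odd part has even multiplicity; (ii) `r = p = 2` and (`n ≡ 2 (mod 4)` or `m ≡ 0 (mod 4)`); (iii) `r = 2 ≠ p`; (iv) `r ≠ p`, `r > 2`, `c ≤ m` and `k ≥ ℓ'`. -/
theorem result {F : Type*} [Field F] [Fintype F] {p : ℕ} [Fact p.Prime] [CharP F p] {q : ℕ} (hq : Fintype.card F = q)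
    (d m : ℕ) (hd : 2 ≤ d) (hT : (d, q) ≠ (2, 2)) (hm : 2 ≤ m) (hme : Even m) (hmd : m < d)
    (r : ℕ) [Fact r.Prime]
    (hrΩ : r ∣ Nat.card {W : Submodule F (Fin d ⊕ Fin d → F) // Module.finrank F ↥W = m ∧ (∀ u ∈ W, u ≠ 0 → ∃ v ∈ W, Cfsg.sympForm d F u v ≠ 0)})
    (i c : ℕ) (hi : i = orderOf (q : ZMod r)) (hc : c = if Even i then i else 2 * i) :
    (∀ x : ↥(Matrix.symplecticGroup (Fin d) F),
      (∃ z : F, ((x ^ r : ↥(Matrix.symplecticGroup (Fin d) F)) : Matrix (Fin d ⊕ Fin d) (Fin d ⊕ Fin d) F) = z • (1 : Matrix (Fin d ⊕ Fin d) (Fin d ⊕ Fin d) F)) →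
      (∀ z : F, (x : Matrix (Fin d ⊕ Fin d) (Fin d ⊕ Fin d) F) ≠ z • (1 : Matrix (Fin d ⊕ Fin d) (Fin d ⊕ Fin d) F)) →
      ∃ W : Submodule F (Fin d ⊕ Fin d → F), Module.finrank F ↥W = m ∧ (∀ u ∈ W, u ≠ 0 → ∃ v ∈ W, Cfsg.sympForm d F u v ≠ 0) ∧
        W.map (Matrix.toLin' (x : Matrix (Fin d ⊕ Fin d) (Fin d ⊕ Fin d) F)) ≤ W) ↔
    ((r = p ∧ 2 < p ∧ (∀ μ : Multiset ℕ, (∀ a ∈ μ, 0 < a ∧ a ≤ p) → (∀ a : ℕ, Odd a → Even (μ.count a)) → μ.sum = 2 * d →
        ∃ ν : Multiset ℕ, ν ≤ μ ∧ ν.sum = m ∧ ∀ a : ℕ, Odd a → Even (ν.count a))) ∨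
     (r = p ∧ p = 2 ∧ ((2 * d) % 4 = 2 ∨ m % 4 = 0)) ∨
     (r = 2 ∧ p ≠ 2) ∨
     (r ≠ p ∧ 2 < r ∧ c ≤ m ∧ m % c ≤ (2 * d) % c)) := by
  subst hq hi hc
  have hN : finrank F (Fin d ⊕ Fin d → F) = 2 * d := CL.Sp.finrank_sp d F
  have : Nontrivial (Fin d ⊕ Fin d → F) := Module.nontrivial_of_finrank_pos (R := F) (by omega)
  have hf : (CL.Sp.spForm d F).Nondeg := CL.Sp.spForm_nondeg d F
  have hp : r.Prime := Fact.out
  simp only [← CL.Sp.spForm_B, ← nd_iff, ← inv_iff_map_le] at hrΩ ⊢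
  set f := CL.Sp.spForm d F
  rw [forall_sp_iff d r fun A => ∃ W : Submodule F (Fin d ⊕ Fin d → F), finrank F W = m ∧
    ND f W ∧ Inv A W]
  have key : ∀ N, (∀ c, (FormType.alt F).σ c * c = 1 → c ^ N = 1) → r.Coprime N → _ :=
    fun N h1 h2 => forall_proj_iff hf h1 h2 (fun _ => True) (fun A => ∃ W : Submodule F _,
      finrank F W = m ∧ ND f W ∧ Inv A W) (fun _ _ _ => trivial)
      (fun A b hb h => h.imp fun _ h => ⟨h.1, h.2.1, (inv_smul_iff hb).1 h.2.2⟩)
  obtain ⟨e, rfl⟩ := hme.two_dvd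
  have h2r := hp.two_le
  by_cases hr2 : r = 2
  · subst hr2
    by_cases hp2 : p = 2
    · subst hp2
      rw [key 1 (fun c hc => by
        rw [pow_one]; exact (mul_self_eq_one_iff.1 hc).elim id fun h => h.trans (CharTwo.neg_eq 1))
        (by simp)]
      simp only [lt_irrefl, false_and, and_false, true_and, ne_eq, not_true, false_or, or_false]
      refine ⟨fun h => ?_, fun h A h1 h2 _ => alt_invol_nd hf h1 one_ne_zero (by simpa using h2) hN
        (by omega) (by rw [Nat.even_iff, Nat.odd_iff]; omega)⟩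
      by_contra! h1
      obtain ⟨A, h2, h3, h4, h5⟩ := exists_invol_four_dvd hf hN (by rw [Nat.even_iff]; omega)
        (by omega)
      obtain ⟨U, h6, h7, h8⟩ := h A h2 h3 h4
      have := h5 U h7 h8
      omega
    · have h2 : (2 : F) ≠ 0 := by exact_mod_cast natCast_ne_zero (F := F) (r := 2) p (Ne.symm hp2)
      refine iff_of_true ?_ (Or.inr (Or.inr (Or.inl ⟨rfl, hp2⟩)))
      rintro A hA - ⟨c, hc⟩ -
      rcases alt_sq_cases hf hA hc with h | h
      · exact invol_nd hf hA h2 (fun W hW e he => (iso_alt f).exists_nd hW he)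
          (nd_ker_sub_one hf hA (ss_of_sq h2 h)).nondeg.even_finrank_alt.two_dvd h (by omega)
          (dvd_mul_right _ _)
      · obtain ⟨U, -, -, h3, h4⟩ := sq_neg_exists hf hA h2 h e (by omega)
        exact ⟨_, h4, h3, inv_iff_map_le.2 (by
          rw [Submodule.map_sup, map_map_eq_of_sq (by simp) h, sup_comm])⟩
  rw [key 2 alt_norm_sq ((Nat.coprime_primes hp Nat.prime_two).2 hr2)]
  by_cases hrp : r = p
  · subst hrp
    rw [alt_elu_unip r hf hr2 (by omega) hme, hN]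
    simp [hr2, show 2 < r by omega]
  · have hr : (r : F) ≠ 0 := natCast_ne_zero p hrp
    obtain ⟨j, h2, h3, h4⟩ := alt_card_nd hf hN hp (not_dvd_card p hrp) (by omega) hrΩ
    rw [(dat_alt hr hr2).elu_nd hf (hX_alt hr hr2 hf) (d := 2) (by
        split_ifs with h
        exacts [h.two_dvd, dvd_mul_right _ _]) (fun W hW e he => (iso_alt f).exists_nd hW he)
      (dvd_mul_right _ _) (by omega) ⟨2 * j, by omega, by omega, alt_c_dvd h4⟩, hN]
    simp [hr2, hrp, show 2 < r by omega]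

end Cfsg.Agent.S5956
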