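import Cfsg.Statements.S5957
import Cfsg.Agent.CLAS.Elus4

set_option autoImplicit false
open scoped MatrixGroups
open Cfsg

namespace Cfsg.Agent.S5957

open CL.Elus Module


/-- Involutions of PSL_n(q) and imprimitive subgroups. Here `T = PSL_n(F)` for a field `F` with `q = p^f` elements (`n ≥ 2`, `(n, q) ≠ (2, 2), (2, 3)`), `n = a·t` with `t ≥ 2`, and Ω is the set of direct-sum decompositions of `F^n` into `t` subspaces of dimension `a` (unordered; their number is the number of ordered ones divided by `t!`), whose stabilizers are the imprimitive subgroups of type GL_a(q) ≀ S_t (maximal except in some small cases; maximality is not assumed); an element of `T` of prime order `r` (a matrix `x` of determinant 1 with `x^r` scalar, `x` not scalar) fixes a point of Ω when it permutes the summands of some such decomposition. If the number of such decompositions is even, then every involution of `T` stabilizes one of them (the action is 2-elusive). -/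
theorem result {F : Type*} [Field F] [Fintype F] {p : ℕ} [Fact p.Prime] [CharP F p] {q : ℕ} (hq : Fintype.card F = q)
    (n a t : ℕ) (hn : 2 ≤ n) (hT : (n, q) ≠ (2, 2) ∧ (n, q) ≠ (2, 3)) (hat : n = a * t) (ha : 1 ≤ a) (ht : 2 ≤ t)
    (hΩ : 2 ∣ Nat.card {D : Fin t → Submodule F (Fin n → F) // Cfsg.Geo.IsMDecomposition a D} / Nat.factorial t)
    (x : Matrix.SpecialLinearGroup (Fin n) F)
    (hx1 : ∃ z : F, ((x ^ 2 : Matrix.SpecialLinearGroup (Fin n) F) : Matrix (Fin n) (Fin n) F) = z • (1 : Matrix (Fin n) (Fin n) F))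
    (hx2 : ∀ z : F, (x : Matrix (Fin n) (Fin n) F) ≠ z • (1 : Matrix (Fin n) (Fin n) F)) :
    ∃ D : Fin t → Submodule F (Fin n → F), Cfsg.Geo.IsMDecomposition a D ∧
        ∃ σ : Equiv.Perm (Fin t), ∀ j, (D j).map (Matrix.toLin' (x : Matrix (Fin n) (Fin n) F)) = D (σ j) := by
  have hN : finrank F (Fin n → F) = n := Module.finrank_fin_fun F
  have : Nontrivial (Fin n → F) := Module.nontrivial_of_finrank_pos (R := F) (by omega)
  obtain ⟨z, hz⟩ := hx1
  have hu : IsUnit (Matrix.toLin' (x : Matrix (Fin n) (Fin n) F)) :=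
    isUnit_of_det_eq_one (by rw [LinearMap.det_toLin', x.det_coe])
  rw [Matrix.SpecialLinearGroup.coe_pow, pow_eq_smul_iff] at hz
  have hz0 : z ≠ 0 := by
    rintro rfl
    rw [map_zero] at hz
    exact (hu.pow 2).ne_zero hz
  have hinj := ((Module.End.isUnit_iff _).1 hu).1
  have h1 := (decOn_lines hinj hz0 hz (a * t) ⊤ (inv_top _) (by rw [finrank_top, hN, hat])).coarsen
    hinj hz0 hz one_pos (by rw [finrank_top, hN, hat, one_mul])
  rw [mul_one] at h1
  obtain ⟨D, σ, h2, h3, h4, -, h5⟩ := h1.toFin (by rw [finrank_top, hN, hat])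
  exact ⟨D, ⟨ht, ha, h2, h3, h4⟩, σ, h5⟩

end Cfsg.Agent.S5957
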