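import Cfsg.Statements.S5958
import Cfsg.Agent.CLAS.Elus4

set_option autoImplicit false
open scoped MatrixGroups
open Cfsg

namespace Cfsg.Agent.S5958

open CL.Elus Module


/-- Elements of odd prime order of PSL_n(q) and imprimitive subgroups. Here `T = PSL_n(F)` for a field `F` with `q = p^f` elements (`n ≥ 2`, `(n, q) ≠ (2, 2), (2, 3)`), `n = a·t` with `t ≥ 2`, and Ω is the set of direct-sum decompositions of `F^n` into `t` subspaces of dimension `a` (unordered; their number is the number of ordered ones divided by `t!`), whose stabilizers are the imprimitive subgroups of type GL_a(q) ≀ S_t (maximal except in some small cases; maximality is not assumed); an element of `T` of prime order `r` (a matrix `x` of determinant 1 with `x^r` scalar, `x` not scalar) fixes a point of Ω when it permutes the summands of some such decomposition. Let `r ≠ p` be an odd prime dividing the number of such decompositions, let `c` be the multiplicative order of `q` modulo `r`, and write `k = n mod c`, `ℓ = a mod c`.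 Then every element of `T` of order `r` stabilizes such a decomposition if and only if either `a = 1`, `c = r − 1 > 1` and `n ≤ k·r`, or `c ≤ a` and `k = t·ℓ`. -/
theorem result {F : Type*} [Field F] [Fintype F] {p : ℕ} [Fact p.Prime] [CharP F p] {q : ℕ} (hq : Fintype.card F = q)
    (n a t : ℕ) (hn : 2 ≤ n) (hT : (n, q) ≠ (2, 2) ∧ (n, q) ≠ (2, 3)) (hat : n = a * t) (ha : 1 ≤ a) (ht : 2 ≤ t)
    (r : ℕ) [Fact r.Prime] (hr2 : r ≠ 2) (hrp : r ≠ p) (hΩ : r ∣ Nat.card {D : Fin t → Submodule F (Fin n → F) // Cfsg.Geo.IsMDecomposition a D} / Nat.factorial t)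
    (c : ℕ) (hc : c = orderOf (q : ZMod r)) :
    (∀ x : Matrix.SpecialLinearGroup (Fin n) F,
      (∃ z : F, ((x ^ r : Matrix.SpecialLinearGroup (Fin n) F) : Matrix (Fin n) (Fin n) F) = z • (1 : Matrix (Fin n) (Fin n) F)) →
      (∀ z : F, (x : Matrix (Fin n) (Fin n) F) ≠ z • (1 : Matrix (Fin n) (Fin n) F)) →
      ∃ D : Fin t → Submodule F (Fin n → F), Cfsg.Geo.IsMDecomposition a D ∧
        ∃ σ : Equiv.Perm (Fin t), ∀ j, (D j).map (Matrix.toLin' (x : Matrix (Fin n) (Fin n) F)) = D (σ j)) ↔
    ((a = 1 ∧ 1 < c ∧ c = r - 1 ∧ n ≤ (n % c) * r) ∨ (c ≤ a ∧ n % c = t * (a % c))) := by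
  subst hq hc
  have hN : finrank F (Fin n → F) = n := Module.finrank_fin_fun F
  have := finite_equiv (F := F) (V := Fin n → F)
  have : Finite (Submodule F (Fin n → F)) := Finite.of_injective _ SetLike.coe_injective
  have hle : orderOf ((Fintype.card F : ℕ) : ZMod r) ≤ n := by
    by_contra! hlt
    refine not_dvd_card_of_fixed ⊤ (fun g (D : Fin t → Submodule F (Fin n → F)) j => mp g (D j))
      (fun D => by simp only [mp_one]) (fun g h D => by simp only [mp_mul])
      (Cfsg.Geo.IsMDecomposition a) (fun g _ D hD => ⟨ht, ha, fun j => by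
        rw [finrank_mp, hD.finrank_eq], iSupIndep_mp g hD.indep, iSup_mp g hD.iSup_eq_top⟩)
      (fun D D' hD hD' => (exists_mp_eq_dec hD.indep hD.iSup_eq_top hD'.indep hD'.iSup_eq_top
        fun j => by rw [hD.finrank_eq, hD'.finrank_eq]).imp fun g hg => ⟨trivial, funext hg⟩)
      (fun S _ hS => ?_) (dvd_of_dvd_div_factorial _ (Equiv.refl _) (fun D σ hD => ⟨ht, ha,
        fun j => hD.finrank_eq _, hD.indep.comp σ.injective, by
          rw [← hD.iSup_eq_top]; exact σ.iSup_comp⟩) (fun D hD => hD.indep.injective fun j hj => by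
          have := hD.finrank_eq j; rw [hj, finrank_bot] at this; omega) hΩ)
    have h1 := (decOn_lines (A := (1 : Module.End F (Fin n → F))) (fun _ _ h => h) one_ne_zero
      (by simp) (a * t) ⊤ (inv_top _) (by rw [finrank_top, hN, hat])).coarsen
      (fun _ _ h => h) one_ne_zero (by simp) one_pos (by rw [finrank_top, hN, hat, one_mul])
    rw [mul_one] at h1
    obtain ⟨D, σ, h2, h3, h4, -, -⟩ := h1.toFin (by rw [finrank_top, hN, hat])
    refine ⟨D, ⟨ht, ha, h2, h3, h4⟩, fun g hg => funext fun j => mp_eq_of_mem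
      (apply_mem_of_movS_le ?_ hg)⟩
    have h5 := Nat.eq_zero_of_dvd_of_lt (ord_dvd_movS p hrp hS)
      ((Submodule.finrank_le _).trans_lt (by omega))
    rw [Submodule.finrank_eq_zero.1 h5]; exact bot_le
  have h0 := elu_dec (F := F) (V := Fin n → F) p hrp ha (t := t) (by omega) (hN.trans hat)
    (by omega)
  rw [hN] at h0
  rw [← h0, forall_SL_iff r fun A : Module.End F (Fin n → F) =>
      ∃ D : Fin t → Submodule F (Fin n → F), Cfsg.Geo.IsMDecomposition a D ∧
        ∃ σ : Equiv.Perm (Fin t), ∀ j, (D j).map A = D (σ j)]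
  refine forall₄_congr fun A _ _ _ => ⟨?_, fun h1 => ?_⟩
  · rintro ⟨D, hD, σ, h6⟩
    exact ⟨Fin t, inferInstance, D, σ, by simp, hD.finrank_eq, h6,
        fun _ _ _ => by simp [zeroForm_perp], hD.iSup_eq_top⟩
  · obtain ⟨D, σ, h2, h3, h4, -, h5⟩ := h1.toFin (by rw [finrank_top, hN, hat])
    exact ⟨D, ⟨ht, ha, h2, h3, h4⟩, σ, h5⟩

end Cfsg.Agent.S5958
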