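import Cfsg.Statements.S5959
import Cfsg.Agent.CLAS.Elus4

set_option autoImplicit false
open scoped MatrixGroups
open Cfsg

namespace Cfsg.Agent.S5959

open CL.Elus Module


/-- Elements of order `p` of PSL_n(q) and imprimitive subgroups: a necessary condition. Here `T = PSL_n(F)` for a field `F` with `q = p^f` elements (`n ≥ 2`, `(n, q) ≠ (2, 2), (2, 3)`), `n = a·t` with `t ≥ 2`, and Ω is the set of direct-sum decompositions of `F^n` into `t` subspaces of dimension `a` (unordered; their number is the number of ordered ones divided by `t!`), whose stabilizers are the imprimitive subgroups of type GL_a(q) ≀ S_t (maximal except in some small cases; maximality is not assumed); an element of `T` of prime order `r` (a matrix `x` of determinant 1 with `x^r` scalar, `x` not scalar) fixes a point of Ω when it permutes the summands of some such decomposition. Suppose `p > 2` divides the number of such decompositions. If every element of `T` of order `p` stabilizes such a decomposition, then every partition of `n` into parts of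 size at most `p` in which the part `p` occurs fewer than `a` times contains (as a sub-multiset) a partition of `a`. -/
theorem result {F : Type*} [Field F] [Fintype F] {p : ℕ} [Fact p.Prime] [CharP F p] {q : ℕ} (hq : Fintype.card F = q)
    (n a t : ℕ) (hn : 2 ≤ n) (hT : (n, q) ≠ (2, 2) ∧ (n, q) ≠ (2, 3)) (hat : n = a * t) (ha : 1 ≤ a) (ht : 2 ≤ t)
    (hp : 2 < p) (hΩ : p ∣ Nat.card {D : Fin t → Submodule F (Fin n → F) // Cfsg.Geo.IsMDecomposition a D} / Nat.factorial t)
    (h : ∀ x : Matrix.SpecialLinearGroup (Fin n) F,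
      (∃ z : F, ((x ^ p : Matrix.SpecialLinearGroup (Fin n) F) : Matrix (Fin n) (Fin n) F) = z • (1 : Matrix (Fin n) (Fin n) F)) →
      (∀ z : F, (x : Matrix (Fin n) (Fin n) F) ≠ z • (1 : Matrix (Fin n) (Fin n) F)) →
      ∃ D : Fin t → Submodule F (Fin n → F), Cfsg.Geo.IsMDecomposition a D ∧
        ∃ σ : Equiv.Perm (Fin t), ∀ j, (D j).map (Matrix.toLin' (x : Matrix (Fin n) (Fin n) F)) = D (σ j)) :
    (∀ μ : Multiset ℕ, (∀ b ∈ μ, 0 < b ∧ b ≤ p) → μ.sum = n → μ.count p < a → ∃ ν : Multiset ℕ, ν ≤ μ ∧ ν.sum = a) := by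
  have hN : finrank F (Fin n → F) = n := Module.finrank_fin_fun F
  intro μ h1 h2 h3
  by_cases h4 : ∃ b ∈ μ, b ≠ 1
  · obtain ⟨A, hA⟩ := CL.GLn.exists_hasJT_of_sum (V := Fin n → F) (1 : F) (fun b hb => (h1 b hb).1)
      (h2.trans hN.symm)
    have h5 := (forall_SL_iff p fun A : Module.End F (Fin n → F) =>
      ∃ D : Fin t → Submodule F (Fin n → F), Cfsg.Geo.IsMDecomposition a D ∧
        ∃ σ : Equiv.Perm (Fin t), ∀ j, (D j).map A = D (σ j)).1 h A (det_of_hasJT hA)
      ⟨1, by simpa using pow_eq_one_of_hasJT p hA fun b hb => (h1 b hb).2⟩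
      (ne_algebraMap_of_hasJT hA h4)
    obtain ⟨D, hD, σ, h6⟩ := h5
    exact exists_le_sum_of_decOn (f := zeroForm F _) p ha (by omega) (hN.trans hat) hA
      (fun b hb => (h1 b hb).2) h3 ⟨Fin t, inferInstance, D, σ, by simp, hD.finrank_eq, h6,
        fun _ _ _ => by simp [zeroForm_perp], hD.iSup_eq_top⟩
  · push Not at h4
    exact exists_le_sum_of_ones h4 (by rw [h2, hat]; nlinarith)

end Cfsg.Agent.S5959
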