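import Cfsg.Statements.S5960
import Cfsg.Agent.CLAS.Elus4

set_option autoImplicit false
open scoped MatrixGroups
open Cfsg

namespace Cfsg.Agent.S5960

open CL.Elus Module


/-- Involutions of PSp_n(q) and imprimitive subgroups. Here `T = PSp_n(q)`, `n = 2d ≥ 4`, `(n, q) ≠ (4, 2)`, realised through the symplectic matrices over the field `F` with `q` elements and the standard alternating form; `n = a·t` with `a` even and `t ≥ 2`, and Ω is the (nonempty) set of orthogonal decompositions of `F^n` into `t` nondegenerate subspaces of dimension `a` (unordered; counted as ordered ones divided by `t!`), whose stabilizers are the imprimitive subgroups of type Sp_a(q) ≀ S_t (maximality is not assumed); an element of `T` of prime order `r` (a symplectic matrix `x` with `x^r` scalar, `x` not scalar) fixes a point of Ω when it permutes the summands of some such decomposition. If the number of such decompositions is even, then every involution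 of `T` stabilizes one of them (the action is 2-elusive). -/
theorem result {F : Type*} [Field F] [Fintype F] {p : ℕ} [Fact p.Prime] [CharP F p] {q : ℕ} (hq : Fintype.card F = q)
    (d : ℕ) (hd : 2 ≤ d) (hT : (d, q) ≠ (2, 2))
    (a t : ℕ) (hat : 2 * d = a * t) (ha : 2 ≤ a) (hae : Even a) (ht : 2 ≤ t) (hΩ : 2 ∣ Nat.card {D : Fin t → Submodule F (Fin d ⊕ Fin d → F) // (Cfsg.Geo.IsMDecomposition a D ∧ (∀ j, ∀ u ∈ D j, u ≠ 0 → ∃ v ∈ D j, Cfsg.sympForm d F u v ≠ 0) ∧
          (∀ j j', j ≠ j' → ∀ u ∈ D j, ∀ v ∈ D j', Cfsg.sympForm d F u v = 0))} / Nat.factorial t)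
    (x : ↥(Matrix.symplecticGroup (Fin d) F))
    (hx1 : ∃ z : F, ((x ^ 2 : ↥(Matrix.symplecticGroup (Fin d) F)) : Matrix (Fin d ⊕ Fin d) (Fin d ⊕ Fin d) F) = z • (1 : Matrix (Fin d ⊕ Fin d) (Fin d ⊕ Fin d) F))
    (hx2 : ∀ z : F, (x : Matrix (Fin d ⊕ Fin d) (Fin d ⊕ Fin d) F) ≠ z • (1 : Matrix (Fin d ⊕ Fin d) (Fin d ⊕ Fin d) F)) :
    ∃ D : Fin t → Submodule F (Fin d ⊕ Fin d → F), (Cfsg.Geo.IsMDecomposition a D ∧ (∀ j, ∀ u ∈ D j, u ≠ 0 → ∃ v ∈ D j, Cfsg.sympForm d F u v ≠ 0) ∧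
          (∀ j j', j ≠ j' → ∀ u ∈ D j, ∀ v ∈ D j', Cfsg.sympForm d F u v = 0)) ∧
        ∃ σ : Equiv.Perm (Fin t), ∀ j, (D j).map (Matrix.toLin' (x : Matrix (Fin d ⊕ Fin d) (Fin d ⊕ Fin d) F)) = D (σ j) := by
  have hN : finrank F (Fin d ⊕ Fin d → F) = 2 * d := CL.Sp.finrank_sp d F
  have : Nontrivial (Fin d ⊕ Fin d → F) := Module.nontrivial_of_finrank_pos (R := F) (by omega)
  obtain ⟨z, hz⟩ := hx1
  obtain ⟨a, rfl⟩ := hae.two_dvd
  have hI := CL.SpU.isIsom_sp x
  have hf : (CL.Sp.spForm d F).Nondeg := CL.Sp.spForm_nondeg d F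
  have hu := CL.SpU.isUnit_of_isIsom hf hI
  rw [SubmonoidClass.coe_pow, pow_eq_smul_iff] at hz
  have hz0 : z ≠ 0 := by
    rintro rfl
    rw [map_zero] at hz
    exact (hu.pow 2).ne_zero hz
  have hinj := ((Module.End.isUnit_iff _).1 hu).1
  have h1 := (decOn_planes hinj hI.1 hz0 hz (a * t) ⊤ (inv_top _) (nd_top hf)
    (by rw [finrank_top, hN, hat, mul_assoc])).coarsen
    hinj hz0 hz two_pos (by rw [finrank_top, hN, hat, mul_assoc])
  rw [mul_comm a] at h1
  obtain ⟨D, σ, h2, h3, h4, h6, h5⟩ := h1.toFin (by rw [finrank_top, hN, hat])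
  simp only [← CL.Sp.spForm_B]
  exact ⟨D, ⟨⟨ht, by omega, h2, h3, h4⟩, fun j => nd_iff.1 (nd_of_iSup (h4 ▸ nd_top hf) h6 j),
    fun j j' hj u hu v hv => (CL.Witt.Form.mem_perp' _).1 (h6 j j' hj hu) v hv⟩, σ, h5⟩

end Cfsg.Agent.S5960
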