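import Cfsg.Statements.S5961
import Cfsg.Agent.CLAS.Elus6

set_option autoImplicit false
open scoped MatrixGroups
open Cfsg

namespace Cfsg.Agent.S5961

open CL.Elus CL.Witt CL.Witt.Form CL.SpU CL.PrimeCl CL.Root Module Polynomial


/-- Elements of odd prime order of PSp_n(q) and imprimitive subgroups. Here `T = PSp_n(q)`, `n = 2d ≥ 4`, `(n, q) ≠ (4, 2)`, realised through the symplectic matrices over the field `F` with `q` elements and the standard alternating form; `n = a·t` with `a` even and `t ≥ 2`, and Ω is the (nonempty) set of orthogonal decompositions of `F^n` into `t` nondegenerate subspaces of dimension `a` (unordered; counted as ordered ones divided by `t!`), whose stabilizers are the imprimitive subgroups of type Sp_a(q) ≀ S_t (maximality is not assumed); an element of `T` of prime order `r` (a symplectic matrix `x` with `x^r` scalar, `x` not scalar) fixes a point of Ω when it permutes the summands of some such decomposition. Let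 `r ≠ p` be an odd prime dividing the number of such decompositions, let `i` be the multiplicative order of `q` modulo `r`, `c = i` if `i` is even and `c = 2i` if `i` is odd, and write `k = n mod c`, `ℓ = a mod c`. Then every element of `T` of order `r` stabilizes such a decomposition if and only if `c ≤ a` and `k = t·ℓ`. -/
theorem result {F : Type*} [Field F] [Fintype F] {p : ℕ} [Fact p.Prime] [CharP F p] {q : ℕ} (hq : Fintype.card F = q)
    (d : ℕ) (hd : 2 ≤ d) (hT : (d, q) ≠ (2, 2))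
    (a t : ℕ) (hat : 2 * d = a * t) (ha : 2 ≤ a) (hae : Even a) (ht : 2 ≤ t)
    (r : ℕ) [Fact r.Prime] (hr2 : r ≠ 2) (hrp : r ≠ p) (hΩ : r ∣ Nat.card {D : Fin t → Submodule F (Fin d ⊕ Fin d → F) // (Cfsg.Geo.IsMDecomposition a D ∧ (∀ j, ∀ u ∈ D j, u ≠ 0 → ∃ v ∈ D j, Cfsg.sympForm d F u v ≠ 0) ∧
          (∀ j j', j ≠ j' → ∀ u ∈ D j, ∀ v ∈ D j', Cfsg.sympForm d F u v = 0))} / Nat.factorial t)
    (i c : ℕ) (hi : i = orderOf (q : ZMod r)) (hc : c = if Even i then i else 2 * i) :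
    (∀ x : ↥(Matrix.symplecticGroup (Fin d) F),
      (∃ z : F, ((x ^ r : ↥(Matrix.symplecticGroup (Fin d) F)) : Matrix (Fin d ⊕ Fin d) (Fin d ⊕ Fin d) F) = z • (1 : Matrix (Fin d ⊕ Fin d) (Fin d ⊕ Fin d) F)) →
      (∀ z : F, (x : Matrix (Fin d ⊕ Fin d) (Fin d ⊕ Fin d) F) ≠ z • (1 : Matrix (Fin d ⊕ Fin d) (Fin d ⊕ Fin d) F)) →
      ∃ D : Fin t → Submodule F (Fin d ⊕ Fin d → F), (Cfsg.Geo.IsMDecomposition a D ∧ (∀ j, ∀ u ∈ D j, u ≠ 0 → ∃ v ∈ D j, Cfsg.sympForm d F u v ≠ 0) ∧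
          (∀ j j', j ≠ j' → ∀ u ∈ D j, ∀ v ∈ D j', Cfsg.sympForm d F u v = 0)) ∧
        ∃ σ : Equiv.Perm (Fin t), ∀ j, (D j).map (Matrix.toLin' (x : Matrix (Fin d ⊕ Fin d) (Fin d ⊕ Fin d) F)) = D (σ j)) ↔
    (c ≤ a ∧ (2 * d) % c = t * (a % c)) := by
  subst hq hi hc
  have hN : finrank F (Fin d ⊕ Fin d → F) = 2 * d := CL.Sp.finrank_sp d F
  have : Nontrivial (Fin d ⊕ Fin d → F) := Module.nontrivial_of_finrank_pos (R := F) (by omega)
  have hf : (CL.Sp.spForm d F).Nondeg := CL.Sp.spForm_nondeg d F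
  have hp : r.Prime := Fact.out
  have hr : (r : F) ≠ 0 := natCast_ne_zero p hrp
  have := finite_equiv (F := F) (V := Fin d ⊕ Fin d → F)
  have : Finite (Submodule F (Fin d ⊕ Fin d → F)) := Finite.of_injective _ SetLike.coe_injective
  simp only [← CL.Sp.spForm_B, ← nd_iff] at hΩ ⊢
  set f := CL.Sp.spForm d F
  have ho : ∀ D : Fin t → Submodule F (Fin d ⊕ Fin d → F),
      (∀ j j', j ≠ j' → ∀ u ∈ D j, ∀ v ∈ D j', f.B u v = 0) ↔
        ∀ j j', j ≠ j' → D j ≤ f.perp (D j') := fun D =>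
    forall₃_congr fun j j' _ => forall₂_congr fun u _ => (mem_perp' f).symm
  simp only [ho] at hΩ ⊢
  have h1 := dvd_of_dvd_div_factorial (fun D : Fin t → Submodule F (Fin d ⊕ Fin d → F) =>
    Cfsg.Geo.IsMDecomposition a D ∧ (∀ j, ND f (D j)) ∧ ∀ j j', j ≠ j' → D j ≤ f.perp (D j'))
    (Equiv.refl _) (fun D σ hD => ⟨⟨ht, by omega, fun j => hD.1.finrank_eq _,
      hD.1.indep.comp σ.injective, by rw [← hD.1.iSup_eq_top]; exact σ.iSup_comp⟩,
      fun j => hD.2.1 _, fun j j' h => hD.2.2 _ _ (σ.injective.ne h)⟩)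
    (fun D hD => hD.1.indep.injective fun j hj => by
      have := hD.1.finrank_eq j; rw [hj, finrank_bot] at this; omega) hΩ
  have D := dat_alt hr hr2
  have hC := fun W hW e he => (iso_alt f).exists_nd (W := W) hW (e := e) he
  have h2c : 2 ∣ if Even (ord F r) then ord F r else 2 * ord F r := by
    split_ifs with h
    exacts [h.two_dvd, dvd_mul_right _ _]
  have key : ∀ A : Module.End F (Fin d ⊕ Fin d → F), DecOn f A ⊤ a t ↔
      ∃ D : Fin t → Submodule F (Fin d ⊕ Fin d → F), (Cfsg.Geo.IsMDecomposition a D ∧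
        (∀ j, ND f (D j)) ∧ ∀ j j', j ≠ j' → D j ≤ f.perp (D j')) ∧
        ∃ σ : Equiv.Perm (Fin t), ∀ j, (D j).map A = D (σ j) := fun A => by
    constructor
    · intro h
      obtain ⟨D, σ, h2, h3, h4, h6, h5⟩ := h.toFin (by rw [finrank_top, hN, hat])
      exact ⟨D, ⟨⟨ht, by omega, h2, h3, h4⟩, nd_of_iSup (h4 ▸ nd_top hf) h6, h6⟩, σ, h5⟩
    · rintro ⟨D, hD, σ, h6⟩
      exact ⟨Fin t, inferInstance, D, σ, by simp, hD.1.finrank_eq, h6, hD.2.2, hD.1.iSup_eq_top⟩
  obtain ⟨D₀, h2, -⟩ := (key 1).1 ((decOn_planes (f := f) (A := 1) (fun _ _ h => h) (fun _ _ => rfl)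
    one_ne_zero (by simp) (a / 2 * t) ⊤ (inv_top _) (nd_top hf) (by
      rw [finrank_top, hN, hat, ← mul_assoc, Nat.mul_div_cancel' hae.two_dvd])).coarsen
      (fun _ _ h => h) one_ne_zero (by simp) two_pos (by
      rw [finrank_top, hN, hat, ← mul_assoc, Nat.mul_div_cancel' hae.two_dvd]) |>
      fun h => by rwa [Nat.div_mul_cancel hae.two_dvd] at h)
  obtain ⟨j, h3, h4, h5⟩ := alt_card_O hf hN hp (not_dvd_card p hrp) (h1.trans
    (card_dvd_card_of_trans f.O
      (fun g (D : Fin t → Submodule F (Fin d ⊕ Fin d → F)) j => mp g (D j))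
      (fun D => by simp only [mp_one])
      (fun g h D => by simp only [mp_mul]) _ (fun g hg D hD => ⟨⟨ht, by omega, fun j => by
        rw [finrank_mp, hD.1.finrank_eq], iSupIndep_mp g hD.1.indep, iSup_mp g hD.1.iSup_eq_top⟩,
        fun j => (hD.2.1 j).map (mem_O_B hg),
        fun j j' h => map_le_perp_map (mem_O_B hg) (hD.2.2 j j' h)⟩)
      (fun D D' hD hD' => (exists_O_dec hD.1.indep hD.1.iSup_eq_top hD'.1.indep hD'.1.iSup_eq_top
        hD.2.2 hD'.2.2 fun j => tr_alt f _ _ (hD.2.1 j) (hD'.2.1 j) (by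
          rw [hD.1.finrank_eq, hD'.1.finrank_eq])).imp fun g hg => ⟨hg.1, funext hg.2⟩) h2))
  have h6 : (if Even (ord F r) then ord F r else 2 * ord F r) ≤ r - 1 := by
    refine Nat.le_of_dvd (by have := hp.two_le; omega) ?_
    split_ifs with h
    · exact CL.Elus.ord_dvd p hrp
    · exact (Nat.coprime_two_left.2 (Nat.not_even_iff_odd.1 h)).mul_dvd_of_dvd_of_dvd
        (hp.even_sub_one hr2).two_dvd (CL.Elus.ord_dvd p hrp)
  simp only [← key]
  rw [forall_sp_iff d r fun A => DecOn f A ⊤ a t, forall_proj_iff hf alt_norm_sq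
    ((Nat.coprime_primes hp Nat.prime_two).2 hr2) _ _ (fun _ _ _ => trivial)
    (fun A b hb h => h.of_smul hb), ← hN]
  exact ⟨D.le_of_decOn hf (hX_alt hr hr2 hf) h6 ((Nat.le_of_dvd (by omega) (alt_c_dvd h5)).trans
    (by omega)) ha (hN.trans hat), fun h A h7 h8 _ => D.decOn hf h7 h8 h2c hC hae.two_dvd
      (hN.trans hat) h.2.ge⟩

end Cfsg.Agent.S5961
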