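import Cfsg.Statements.S5962
import Cfsg.Agent.CLAS.Elus6

set_option autoImplicit false
open scoped MatrixGroups
open Cfsg

namespace Cfsg.Agent.S5962

open CL.Elus CL.Witt CL.Witt.Form CL.SpU CL.PrimeCl CL.Root Module Polynomial


/-- Involutions of PSp_n(q), q odd, and the subgroups GL_{n/2}(q).2. Here `T = PSp_n(q)`, `n = 2d ≥ 4`, `q` odd, realised through the symplectic matrices over the field `F` with `q` elements; Ω is the set of unordered pairs `{U, W}` of complementary totally isotropic `d`-spaces (`F^n = U ⊕ W`), whose stabilizers are the subgroups of type GL_d(q).2 (maximal except in some small cases; maximality is not assumed); an element of `T` of prime order `r` (a symplectic matrix `x` with `x^r` scalar, `x` not scalar) fixes such a pair when it fixes or interchanges `U` and `W`. If the number of such pairs is even, every involution of `T` fixes one of them (the action is 2-elusive). -/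
theorem result {F : Type*} [Field F] [Fintype F] {p : ℕ} [Fact p.Prime] [CharP F p] {q : ℕ} (hq : Fintype.card F = q)
    (d : ℕ) (hd : 2 ≤ d) (hT : (d, q) ≠ (2, 2)) (hodd : Odd q)
    (hΩ : 2 ∣ Nat.card {P : Submodule F (Fin d ⊕ Fin d → F) × Submodule F (Fin d ⊕ Fin d → F) // IsCompl P.1 P.2 ∧ (∀ u ∈ P.1, ∀ v ∈ P.1, Cfsg.sympForm d F u v = 0) ∧ (∀ u ∈ P.2, ∀ v ∈ P.2, Cfsg.sympForm d F u v = 0)} / 2)
    (x : ↥(Matrix.symplecticGroup (Fin d) F))
    (hx1 : ∃ z : F, ((x ^ 2 : ↥(Matrix.symplecticGroup (Fin d) F)) : Matrix (Fin d ⊕ Fin d) (Fin d ⊕ Fin d) F) = z • (1 : Matrix (Fin d ⊕ Fin d) (Fin d ⊕ Fin d) F))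
    (hx2 : ∀ z : F, (x : Matrix (Fin d ⊕ Fin d) (Fin d ⊕ Fin d) F) ≠ z • (1 : Matrix (Fin d ⊕ Fin d) (Fin d ⊕ Fin d) F)) :
    ∃ U W : Submodule F (Fin d ⊕ Fin d → F), IsCompl U W ∧ (∀ u ∈ U, ∀ v ∈ U, Cfsg.sympForm d F u v = 0) ∧ (∀ u ∈ W, ∀ v ∈ W, Cfsg.sympForm d F u v = 0) ∧
        ((U.map (Matrix.toLin' (x : Matrix (Fin d ⊕ Fin d) (Fin d ⊕ Fin d) F)) = U ∧ W.map (Matrix.toLin' (x : Matrix (Fin d ⊕ Fin d) (Fin d ⊕ Fin d) F)) = W) ∨
         (U.map (Matrix.toLin' (x : Matrix (Fin d ⊕ Fin d) (Fin d ⊕ Fin d) F)) = W ∧ W.map (Matrix.toLin' (x : Matrix (Fin d ⊕ Fin d) (Fin d ⊕ Fin d) F)) = U)) := by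
  subst hq
  have hN : finrank F (Fin d ⊕ Fin d → F) = 2 * d := CL.Sp.finrank_sp d F
  have : Nontrivial (Fin d ⊕ Fin d → F) := Module.nontrivial_of_finrank_pos (R := F) (by omega)
  have hf : (CL.Sp.spForm d F).Nondeg := CL.Sp.spForm_nondeg d F
  have h2 := two_ne_zero_of_odd_card hodd
  have hA := isIsom_sp x
  obtain ⟨z, hz⟩ := hx1
  rw [SubmonoidClass.coe_pow, pow_eq_smul_iff] at hz
  simp only [← CL.Sp.spForm_B, ← alt_totSing_iff]
  suffices h : FixPair (CL.Sp.spForm d F) (Matrix.toLin' x.1) by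
    obtain ⟨U, W, h1, h3⟩ := h
    exact ⟨U, W, h1.compl, h1.ts₀, h1.ts₁, h3⟩
  rcases alt_sq_cases hf hA hz with h | h
  · exact fixPair_of_inv hf hA (invol_pair hf hA h2 (iso_alt _) h
      (nd_ker_sub_one hf hA (ss_of_sq h2 h)).nondeg.even_finrank_alt
      (nd_range_sub_one hf hA (ss_of_sq h2 h)).nondeg.even_finrank_alt)
  · obtain ⟨U, h3, -, -, h4⟩ := sq_neg_exists hf hA h2 h d hN.ge
    exact ⟨U, _, tsPair_of_sup hf h3 (h3.map hA) (Submodule.eq_top_of_finrank_eq (h4.trans hN.symm)),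
      Or.inr ⟨rfl, map_map_eq_of_sq (by simp) h U⟩⟩

end Cfsg.Agent.S5962
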