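import Cfsg.Statements.S5963
import Cfsg.Agent.CLAS.Elus6

set_option autoImplicit false
open scoped MatrixGroups
open Cfsg

namespace Cfsg.Agent.S5963

open CL.Elus CL.Witt CL.Witt.Form CL.SpU CL.PrimeCl CL.Root Module Polynomial


/-- Derangements of odd prime order of PSp_n(q), q odd, on pairs of complementary totally isotropic subspaces. Here `T = PSp_n(q)`, `n = 2d ≥ 4`, `q` odd, realised through the symplectic matrices over the field `F` with `q` elements; Ω is the set of unordered pairs `{U, W}` of complementary totally isotropic `d`-spaces (`F^n = U ⊕ W`), whose stabilizers are the subgroups of type GL_d(q).2 (maximal except in some small cases; maximality is not assumed); an element of `T` of prime order `r` (a symplectic matrix `x` with `x^r` scalar, `x` not scalar) fixes such a pair when it fixes or interchanges `U` and `W`. For every odd prime `r ≠ p` dividing the number of such pairs, some element of `T` of order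 `r` fixes no such pair (the action is never `r`-elusive for odd `r ≠ p`). -/
theorem result {F : Type*} [Field F] [Fintype F] {p : ℕ} [Fact p.Prime] [CharP F p] {q : ℕ} (hq : Fintype.card F = q)
    (d : ℕ) (hd : 2 ≤ d) (hT : (d, q) ≠ (2, 2)) (hodd : Odd q)
    (r : ℕ) [Fact r.Prime] (hr2 : r ≠ 2) (hrp : r ≠ p) (hΩ : r ∣ Nat.card {P : Submodule F (Fin d ⊕ Fin d → F) × Submodule F (Fin d ⊕ Fin d → F) // IsCompl P.1 P.2 ∧ (∀ u ∈ P.1, ∀ v ∈ P.1, Cfsg.sympForm d F u v = 0) ∧ (∀ u ∈ P.2, ∀ v ∈ P.2, Cfsg.sympForm d F u v = 0)} / 2) :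
    ∃ x : ↥(Matrix.symplecticGroup (Fin d) F),
      (∃ z : F, ((x ^ r : ↥(Matrix.symplecticGroup (Fin d) F)) : Matrix (Fin d ⊕ Fin d) (Fin d ⊕ Fin d) F) = z • (1 : Matrix (Fin d ⊕ Fin d) (Fin d ⊕ Fin d) F)) ∧
      (∀ z : F, (x : Matrix (Fin d ⊕ Fin d) (Fin d ⊕ Fin d) F) ≠ z • (1 : Matrix (Fin d ⊕ Fin d) (Fin d ⊕ Fin d) F)) ∧
      ¬ (∃ U W : Submodule F (Fin d ⊕ Fin d → F), IsCompl U W ∧ (∀ u ∈ U, ∀ v ∈ U, Cfsg.sympForm d F u v = 0) ∧ (∀ u ∈ W, ∀ v ∈ W, Cfsg.sympForm d F u v = 0) ∧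
        ((U.map (Matrix.toLin' (x : Matrix (Fin d ⊕ Fin d) (Fin d ⊕ Fin d) F)) = U ∧ W.map (Matrix.toLin' (x : Matrix (Fin d ⊕ Fin d) (Fin d ⊕ Fin d) F)) = W) ∨
         (U.map (Matrix.toLin' (x : Matrix (Fin d ⊕ Fin d) (Fin d ⊕ Fin d) F)) = W ∧ W.map (Matrix.toLin' (x : Matrix (Fin d ⊕ Fin d) (Fin d ⊕ Fin d) F)) = U))) := by
  subst hq
  have hN : finrank F (Fin d ⊕ Fin d → F) = 2 * d := CL.Sp.finrank_sp d F
  have : Nontrivial (Fin d ⊕ Fin d → F) := Module.nontrivial_of_finrank_pos (R := F) (by omega)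
  have hf : (CL.Sp.spForm d F).Nondeg := CL.Sp.spForm_nondeg d F
  have hp : r.Prime := Fact.out
  have hr : (r : F) ≠ 0 := natCast_ne_zero p hrp
  simp only [← CL.Sp.spForm_B, ← alt_totSing_iff] at hΩ ⊢
  have : Finite (Submodule F (Fin d ⊕ Fin d → F)) := Finite.of_injective _ SetLike.coe_injective
  have h1 := dvd_of_dvd_div_factorial (t := 2)
    (α := {P : Submodule F (Fin d ⊕ Fin d → F) × Submodule F (Fin d ⊕ Fin d → F) //
      IsCompl P.1 P.2 ∧ (CL.Sp.spForm d F).TotSing P.1 ∧ (CL.Sp.spForm d F).TotSing P.2})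
    (fun D => IsCompl (D 0) (D 1) ∧ (CL.Sp.spForm d F).TotSing (D 0) ∧
      (CL.Sp.spForm d F).TotSing (D 1)) ((finTwoArrowEquiv _).symm.subtypeEquiv fun _ => Iff.rfl)
    (fun D σ hD => by
      have h := σ.injective.ne (show (0 : Fin 2) ≠ 1 by decide)
      simp only [Function.comp]
      generalize σ 0 = a at h ⊢
      generalize σ 1 = b at h ⊢
      fin_cases a <;> fin_cases b
      exacts [absurd rfl h, hD, ⟨hD.1.symm, hD.2.2, hD.2.1⟩, absurd rfl h])
    (fun D hD a b h => by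
      have h2 : D 0 ≠ D 1 := fun h2 => absurd (hD.1.inf_eq_bot.symm.trans (by
        rw [← hD.1.sup_eq_top, h2, inf_idem, sup_idem])) bot_ne_top
      fin_cases a <;> fin_cases b
      exacts [rfl, absurd h h2, absurd h.symm h2, rfl]) hΩ
  rw [Nat.card_congr (Equiv.subtypeEquivRight (q := fun P => TSPair (CL.Sp.spForm d F) P.1 P.2)
    fun P => ⟨fun h => ⟨h.2.1, h.2.2, h.1⟩, fun h => ⟨h.compl, h.ts₀, h.ts₁⟩⟩)] at h1
  obtain ⟨j, h2, h3, h4⟩ := alt_card_pair hf hN hp (not_dvd_card p hrp) h1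
  obtain ⟨h5, h6⟩ := even_ord_of_dvd hr2 h4 hr
  have h7 := (CL.Orth.exists_neg_one_iff hr hr2).2 h5
  have D := dat_alt hr hr2
  obtain ⟨P, hP⟩ := cycFactors_nonempty (F := F) p hrp
  have h8 : ∀ Q ∈ ({P} : Multiset F[X]), Q ∈ CL.GLn.cycFactors F r := by simpa using hP
  obtain ⟨A, k, h9, h10⟩ := hX_alt hr hr2 hf {P} h8 (D.map_eq_of_self h7 h8)
    (by have := Nat.le_of_dvd (by omega) h6; simp; omega)
  by_contra! h11
  refine D.not_fixPair hf h9 h10 h7 (by simp) (by simp) ((forall_proj_iff hf alt_norm_sq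
    ((Nat.coprime_primes hp Nat.prime_two).2 hr2) _ (FixPair _) (fun _ _ _ => trivial)
    (fun A b hb h => FixPair.of_smul hb h)).1 ((forall_sp_iff d r (FixPair (CL.Sp.spForm d F))).1 fun x h12 h13 => ?_) A h9
    h10.pow_eq_one fun h => by simpa using (h10.eq_one_iff hr).1 h)
  obtain ⟨U, W, h14, h15, h16, h17⟩ := h11 x h12 h13
  exact ⟨U, W, ⟨h15, h16, h14⟩, h17⟩

end Cfsg.Agent.S5963
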