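import Cfsg.Statements.S5964
import Cfsg.Agent.CLAS.ElusL3

set_option autoImplicit false
open scoped MatrixGroups
open Cfsg

namespace Cfsg.Agent.S5964

open CL.ElusL CL.Elus CL.GLn Matrix

theorem result {F : Type*} [Field F] [Fintype F] {p : ℕ} [Fact p.Prime] [CharP F p] {q : ℕ} (hq : Fintype.card F = q)
    (n : ℕ) (hn : 2 ≤ n) (hT : (n, q) ≠ (2, 2) ∧ (n, q) ≠ (2, 3))
    (F₀ : Subfield F) (k q₀ : ℕ) (hk : k.Prime) (hF₀ : Nat.card ↥F₀ = q₀) (hqk : q = q₀ ^ k) (hC5 : ¬ (n = 2 ∧ q₀ = 2)) (hΩ : 2 ∣ ((Cfsg.Geo.subfieldSubgroup F₀ 1).comap (Matrix.SpecialLinearGroup.toGL : Matrix.SpecialLinearGroup (Fin n) F →* GL (Fin n) F)).index) :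
    (∀ x : Matrix.SpecialLinearGroup (Fin n) F,
      (∃ z : F, ((x ^ 2 : Matrix.SpecialLinearGroup (Fin n) F) : Matrix (Fin n) (Fin n) F) = z • (1 : Matrix (Fin n) (Fin n) F)) →
      (∀ z : F, (x : Matrix (Fin n) (Fin n) F) ≠ z • (1 : Matrix (Fin n) (Fin n) F)) →
      ∃ P : Matrix.SpecialLinearGroup (Fin n) F, P⁻¹ * x * P ∈ ((Cfsg.Geo.subfieldSubgroup F₀ 1).comap (Matrix.SpecialLinearGroup.toGL : Matrix.SpecialLinearGroup (Fin n) F →* GL (Fin n) F))) ↔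
    (Odd q → (k = 2 ∧ padicValNat 2 n ≤ padicValNat 2 (q - 1))) := by
  subst hq
  rw [elu_iff_SL]
  rw [index_comap_eq] at hΩ
  have : Nonempty (Fin n) := ⟨⟨0, by omega⟩⟩
  have : Fact (Nat.Prime 2) := ⟨Nat.prime_two⟩
  rcases eq_or_ne p 2 with rfl | hp
  · refine iff_of_true (elu_two_of_unip scalars_le_sub fun u μ h _ _ => into_sub_of_hasJT h) ?_
    intro h
    exact absurd (FiniteField.even_card_of_char_two (ringChar.eq F 2)) (by
      rw [Nat.odd_iff] at h; omega)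
  have hodd : Odd (Fintype.card F) :=
    Nat.odd_iff.2 (FiniteField.odd_card_of_char_ne_two (by rwa [ringChar.eq F p]))
  have hodd' : Odd q₀ := by rwa [hqk, Nat.odd_pow_iff hk.ne_zero] at hodd
  obtain rfl : k = 2 := by
    by_contra h
    exact not_dvd_sub_of_eq p hp.symm (by omega) hF₀ hqk
      (fun h' => h ((Nat.prime_dvd_prime_iff_eq Nat.prime_two hk).1 h').symm)
      ⟨0, by simpa using (ZMod.natCast_eq_one_iff_odd.2 hodd')⟩ hΩ
  have h4 : Fintype.card F % 4 = 1 := by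
    obtain ⟨m, rfl⟩ := hodd'
    rw [hqk, show (2 * m + 1) ^ 2 = 1 + 4 * (m * m + m) by ring]; omega
  constructor
  · refine fun h _ => ⟨rfl, ?_⟩
    by_contra h1
    obtain ⟨x, z, x1, x2, x3, x4⟩ := exists_typeB' (F := F) (ι := Fin n) (r := 2) (by omega)
      (fun h2 => h1 (by simpa using h2.1))
    obtain ⟨g, hg, d, hd⟩ := (h x x1 ⟨z, x2⟩ x3).into
    obtain ⟨c, a, hc, ha⟩ := exists_of_mem_sub hg
    have h2 : (g : Matrix (Fin n) (Fin n) F) ^ 2 = z • 1 := d.isUnit.mul_right_cancel (by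
      rw [← (hd.pow_right 2).eq, x2]; simp)
    rw [ha, smul_pow, ← RingHom.mapMatrix_apply, ← map_pow] at h2
    obtain ⟨i⟩ := ‹Nonempty (Fin n)›
    obtain ⟨s, hs⟩ := isSquare_of_mem_sub hF₀ hqk (((a : Matrix (Fin n) (Fin n) F₀) ^ 2) i i).2
    have h3 := congrFun (congrFun h2 i) i
    simp only [Matrix.smul_apply, RingHom.mapMatrix_apply, Matrix.map_apply, Matrix.one_apply_eq,
      smul_eq_mul, mul_one, Subfield.coe_subtype, hs] at h3
    exact x4 (c * s) (by rw [← h3]; ring)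
  · rintro h x x1 ⟨z, x2⟩ -
    obtain ⟨b, hb, rfl⟩ := typeA_of_noB ⟨by simpa using (h hodd).2, fun _ _ => h4⟩ x1 x2
    refine ((into_sub_of_pow p hp.symm hF₀ (smul_pow_eq_one' hb x2) (f := id) (fun a ha => ?_)
      (Multiset.map_id _)).of_smul scalars_le_sub (inv_ne_zero hb)).intoS_ss
      (ss_of_pow_eq p hp.symm (x1 ▸ one_ne_zero) x2)
    obtain ⟨m, rfl⟩ := hodd'
    rw [pow_succ, pow_mul, ha, one_pow, one_mul, id]

end Cfsg.Agent.S5964
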