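import Cfsg.Statements.S5965
import Cfsg.Agent.CLAS.ElusL3

set_option autoImplicit false
open scoped MatrixGroups
open Cfsg

namespace Cfsg.Agent.S5965

open CL.ElusL CL.Elus CL.GLn Matrix

theorem result {F : Type*} [Field F] [Fintype F] {p : ℕ} [Fact p.Prime] [CharP F p] {q : ℕ} (hq : Fintype.card F = q)
    (n : ℕ) (hn : 2 ≤ n) (hT : (n, q) ≠ (2, 2) ∧ (n, q) ≠ (2, 3))
    (F₀ : Subfield F) (k q₀ : ℕ) (hk : k.Prime) (hF₀ : Nat.card ↥F₀ = q₀) (hqk : q = q₀ ^ k) (hC5 : ¬ (n = 2 ∧ q₀ = 2)) (r : ℕ) [Fact r.Prime] (hr2 : r ≠ 2) (hrp : r ≠ p) (hgap : ¬ (n = 6 ∧ r = 3)) (hgapk : r = k → r ∣ q₀ - 1 → padicValNat r n ≤ padicValNat r (q - 1)) (hΩ : r ∣ ((Cfsg.Geo.subfieldSubgroup F₀ 1).comap (Matrix.SpecialLinearGroup.toGL : Matrix.SpecialLinearGroup (Fin n) F →* GL (Fin n) F)).index) :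
    (∀ x : Matrix.SpecialLinearGroup (Fin n) F,
      (∃ z : F, ((x ^ r : Matrix.SpecialLinearGroup (Fin n) F) : Matrix (Fin n) (Fin n) F) = z • (1 : Matrix (Fin n) (Fin n) F)) →
      (∀ z : F, (x : Matrix (Fin n) (Fin n) F) ≠ z • (1 : Matrix (Fin n) (Fin n) F)) →
      ∃ P : Matrix.SpecialLinearGroup (Fin n) F, P⁻¹ * x * P ∈ ((Cfsg.Geo.subfieldSubgroup F₀ 1).comap (Matrix.SpecialLinearGroup.toGL : Matrix.SpecialLinearGroup (Fin n) F →* GL (Fin n) F))) ↔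
    (r = k ∨ (k = 2 ∧ r = n ∧ (n = 3 ∨ n = 5) ∧ padicValNat r (q₀ + 1) = 1)) := by
  subst hq
  rw [elu_iff_SL]
  rw [index_comap_eq] at hΩ
  have : Nonempty (Fin n) := ⟨⟨0, by omega⟩⟩
  have hq0 : 0 < q₀ := hF₀ ▸ Nat.card_pos
  have hpow : ∀ {a : AlgebraicClosure F} {s t : ℕ}, a ^ r = 1 → (s : ZMod r) = t → a ^ s = a ^ t :=
    fun ha h => by
      rw [pow_eq_pow_mod _ ha, (ZMod.natCast_eq_natCast_iff' _ _ _).1 h, ← pow_eq_pow_mod _ ha]
  have h20 : (2 : ZMod r) ≠ 0 := fun h => hr2 ((Nat.prime_dvd_prime_iff_eq Fact.out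
    Nat.prime_two).1 ((ZMod.natCast_eq_zero_iff 2 r).1 (by simpa using h)))
  have hv : ∀ {a : ℕ}, 0 < a → (a : ZMod r) = -1 → ¬ r ∣ a - 1 := fun ha h1 h2 => by
    rw [dvd_sub_one_iff ha, h1, neg_eq_iff_add_eq_zero, one_add_one_eq_two] at h2
    exact h20 h2
  constructor
  · intro h
    by_cases hrk : r = k
    · exact Or.inl hrk
    have hrk' : ¬ r ∣ k := fun h' => hrk ((Nat.prime_dvd_prime_iff_eq Fact.out hk).1 h')
    have hu0 : (q₀ : ZMod r) ≠ 0 := fun h0 => CL.Elus.not_dvd_card (F := F) p hrp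
      (hqk ▸ ((ZMod.natCast_eq_zero_iff _ _).1 h0).trans (dvd_pow_self _ hk.ne_zero))
    obtain ⟨h1, h2, h3⟩ := (nec_sub p hF₀).of_elu p h hr2 hrp hn hgap
      (ord_le_of_dvd (CL.Elus.not_dvd_card p hrp) (by omega) hΩ) (by simpa using hu0)
      (fun h' => not_dvd_sub_of_eq p hrp (by omega) hF₀ hqk hrk' (by simpa using h') hΩ)
    rw [Int.cast_natCast] at h2
    obtain rfl : k = 2 := by
      refine hk.eq_two_or_odd'.resolve_right fun ho => hv Fintype.card_pos ?_ h1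
      rw [hqk, Nat.cast_pow, h2, ho.neg_one_pow]
    rcases h3 with rfl | ⟨rfl, h3, h4⟩
    · refine absurd hΩ (not_dvd_sub p hrp (by omega) hF₀ fun i hi => ?_)
      obtain rfl : i = 2 := by simp at hi; omega
      rw [hqk, val_pow_sub_one (pow_pos hq0 2) (by simp [h2]) hrk']
    · exact Or.inr ⟨rfl, rfl, h3, by rwa [hqk, val_sq_sub_one (hv hq0 h2)] at h4⟩
  · rintro (rfl | ⟨rfl, rfl, h1, h2⟩)
    · have h1 : ((Fintype.card F : ℕ) : ZMod r) = q₀ := by rw [hqk, Nat.cast_pow, ZMod.pow_card]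
      rintro x x1 ⟨z, x2⟩ -
      obtain ⟨b, hb, rfl⟩ : ∃ b : F, b ≠ 0 ∧ b ^ r = z := by
        by_cases h2 : r ∣ Fintype.card F - 1
        · refine typeA_of_noB ⟨?_, fun h => absurd h hr2⟩ x1 x2
          rw [dvd_sub_one_iff Fintype.card_pos, h1, ← dvd_sub_one_iff hq0] at h2
          simpa using hgapk rfl h2
        · exact typeA_of_not_dvd h2 (x1 ▸ one_ne_zero) x2
      exact ((into_sub_of_pow p hrp hF₀ (smul_pow_eq_one' hb x2) (fun a ha => hpow ha h1.symm)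
        (ev_map_card _)).of_smul scalars_le_sub (inv_ne_zero hb)).intoS_ss
        (ss_of_pow_eq p hrp (x1 ▸ one_ne_zero) x2)
    · have h3 : (q₀ : ZMod r) = -1 := by
        have := (ZMod.natCast_eq_zero_iff _ _).2 (dvd_of_one_le_padicValNat h2.ge)
        rwa [Nat.cast_add, Nat.cast_one, add_eq_zero_iff_eq_neg] at this
      refine elu_of_sym h1 (by rw [hqk, val_sq_sub_one (hv hq0 h3), h2]) scalars_le_sub
        fun y hy h4 => into_sub_of_pow p hrp hF₀ hy (fun a ha => ?_) h4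
      refine eq_inv_of_mul_eq_one_left ?_
      rw [← pow_succ, hpow ha (t := 0) (by simp [h3]), pow_zero]

end Cfsg.Agent.S5965
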