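import Cfsg.Statements.S5966
import Cfsg.Agent.CLAS.ElusL3

set_option autoImplicit false
open scoped MatrixGroups
open Cfsg

namespace Cfsg.Agent.S5966

open CL.ElusL CL.Elus CL.GLn Matrix

theorem result {F : Type*} [Field F] [Fintype F] [CharP F 3] {q : ℕ} (hq : Fintype.card F = q)
    (n : ℕ) (hn : 2 ≤ n) (hT : (n, q) ≠ (2, 3))
    (F₀ : Subfield F) (k q₀ : ℕ) (hk : k.Prime) (hF₀ : Nat.card ↥F₀ = q₀) (hqk : q = q₀ ^ k) (hC5 : ¬ (n = 2 ∧ q₀ = 2)) (hΩ : 3 ∣ ((Cfsg.Geo.subfieldSubgroup F₀ 1).comap (Matrix.SpecialLinearGroup.toGL : Matrix.SpecialLinearGroup (Fin n) F →* GL (Fin n) F)).index) :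
    (∀ x : Matrix.SpecialLinearGroup (Fin n) F,
      (∃ z : F, ((x ^ 3 : Matrix.SpecialLinearGroup (Fin n) F) : Matrix (Fin n) (Fin n) F) = z • (1 : Matrix (Fin n) (Fin n) F)) →
      (∀ z : F, (x : Matrix (Fin n) (Fin n) F) ≠ z • (1 : Matrix (Fin n) (Fin n) F)) →
      ∃ P : Matrix.SpecialLinearGroup (Fin n) F, P⁻¹ * x * P ∈ ((Cfsg.Geo.subfieldSubgroup F₀ 1).comap (Matrix.SpecialLinearGroup.toGL : Matrix.SpecialLinearGroup (Fin n) F →* GL (Fin n) F))) ↔
    (Odd n ∨ (Even n ∧ 2 < k)) := by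
  subst hq
  rw [elu_iff_SL]
  have : Nonempty (Fin n) := ⟨⟨0, by omega⟩⟩
  have : Fact (Nat.Prime 3) := ⟨Nat.prime_three⟩
  have hc2 : ringChar F ≠ 2 := by rw [ringChar.eq F 3]; norm_num
  have hdet : ∀ e : GL (Fin n) F₀, (GeneralLinearGroup.map F₀.subtype e : Matrix (Fin n) (Fin n) F).det
      = ((e : Matrix (Fin n) (Fin n) F₀).det : F₀) := fun e => (F₀.subtype.map_det _).symm
  constructor
  · intro h
    by_contra h1
    obtain ⟨m, hm⟩ : Even n := Nat.not_odd_iff_even.1 fun h2 => h1 (Or.inl h2)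
    obtain rfl : k = 2 := by
      have := hk.two_le
      by_contra h2
      exact h1 (Or.inr ⟨⟨m, hm⟩, by omega⟩)
    have hμ : ∀ e ∈ Multiset.replicate m 2, e = 2 := fun e he => Multiset.eq_of_mem_replicate he
    have hμ3 : ∀ e ∈ Multiset.replicate m 2, e ≤ 3 := fun e he => by rw [hμ e he]; norm_num
    have h2 : 2 ∈ Multiset.replicate m 2 := Multiset.mem_replicate.2 ⟨by omega, rfl⟩
    obtain ⟨u, hu⟩ := exists_matrix_hasJT (n := Fin n) (1 : F₀) (μ := Multiset.replicate m 2)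
      (fun e he => by rw [hμ e he]; norm_num) (by simp; omega)
    have hu' := hasJT_map F₀.subtype hu
    obtain ⟨t, ht⟩ := FiniteField.exists_nonsquare hc2
    have ht0 : t ≠ 0 := by rintro rfl; exact ht IsSquare.zero
    obtain ⟨g, hg⟩ := GeneralLinearGroup.det_surjective (n := Fin n) (Units.mk0 t ht0)
    have hg' : (g : Matrix (Fin n) (Fin n) F).det = t := congrArg Units.val hg
    have h3 : (g : Matrix (Fin n) (Fin n) F) * u.map F₀.subtype =
        (g * u.map F₀.subtype * (g⁻¹ : GL (Fin n) F)) * g := by simp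
    have hx := hu'.of_simil ((isConj_iff_simil _ _).1 (isConj_of_mul_eq g h3))
    obtain ⟨a, ha, d, d1, d2⟩ := h _ hx.det_eq_one ⟨1, (pow_eq_smul_iff _ 3 1).2 (by
      rw [pow_eq_one_of_hasJT 3 hx hμ3, map_one])⟩
      fun z hz => ne_algebraMap_of_hasJT hx ⟨2, h2, by norm_num⟩ z
        ((toLin'_eq_algebraMap_iff _ z).1 hz)
    have ha' := hx.of_simil ((isConj_iff_simil _ _).1 (isConj_of_mul_eq d d2))
    obtain ⟨c, b, hc, hb⟩ := exists_of_mem_sub ha
    have hcF : c ∈ F₀ := by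
      have h4 := (pow_eq_smul_iff (a : Matrix (Fin n) (Fin n) F) 3 1).2 (by
        rw [pow_eq_one_of_hasJT 3 ha' hμ3, map_one])
      rw [hb, smul_pow, ← RingHom.mapMatrix_apply, ← map_pow] at h4
      obtain ⟨i⟩ := ‹Nonempty (Fin n)›
      have h5 := congrFun (congrFun h4 i) i
      simp only [Matrix.smul_apply, RingHom.mapMatrix_apply, Matrix.map_apply, Matrix.one_apply_eq,
        smul_eq_mul, mul_one, Subfield.coe_subtype] at h5
      have h6 : c ^ 3 ∈ F₀ := by
        rw [eq_inv_of_mul_eq_one_left h5]; exact F₀.inv_mem (Subtype.prop _)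
      rw [mem_sub_iff hF₀] at h6 ⊢
      exact (frobenius F 3).injective (by
        rw [frobenius_def, frobenius_def, ← pow_mul, mul_comm, pow_mul, h6])
    have h4 : (a : Matrix (Fin n) (Fin n) F) =
        ((⟨c, hcF⟩ : F₀) • (b : Matrix (Fin n) (Fin n) F₀)).map F₀.subtype := by
      rw [hb]; rfl
    obtain ⟨ν, hν⟩ := exists_hasJT_one (A := (⟨c, hcF⟩ : F₀) • (b : Matrix (Fin n) (Fin n) F₀))
      ⟨2, Matrix.map_injective F₀.subtype.injective (by
        have := (ha'.sub_one_pow_eq_zero_iff 2).2 fun e he => (hμ e he).le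
        rw [h4, ← RingHom.mapMatrix_apply, ← map_one F₀.subtype.mapMatrix, ← map_sub,
          ← map_pow] at this
        exact this.trans (map_zero F₀.subtype.mapMatrix).symm)⟩
    obtain rfl := (h4 ▸ ha').unique (hasJT_map F₀.subtype hν)
    obtain ⟨e, he⟩ := (hν.isConj_iff hu).2 rfl
    have h5 : (GeneralLinearGroup.map F₀.subtype e : Matrix (Fin n) (Fin n) F) * a =
        u.map F₀.subtype * (GeneralLinearGroup.map F₀.subtype e : Matrix (Fin n) (Fin n) F) := by
      rw [h4]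
      exact (Matrix.map_mul.symm.trans (congrArg (·.map F₀.subtype) he.eq)).trans Matrix.map_mul
    have h6 := isSquare_det_of_commute hu' (y := (GeneralLinearGroup.map F₀.subtype e * d * g :
        GL (Fin n) F)) (by
      rw [Units.val_mul, Units.val_mul, mul_assoc, h3, mul_assoc,
        ← mul_assoc (d : Matrix (Fin n) (Fin n) F), d2, ← mul_assoc, ← mul_assoc, h5]
      simp only [mul_assoc])
    rw [Units.val_mul, Units.val_mul, det_mul, det_mul, d1, hg', mul_one, hdet] at h6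
    have h7 := isSquare_of_mem_sub hF₀ hqk ((e : Matrix (Fin n) (Fin n) F₀).det).2
    have h8 : (((e : Matrix (Fin n) (Fin n) F₀).det : F₀) : F) ≠ 0 := by
      rw [← hdet]; exact GeneralLinearGroup.det_ne_zero _
    exact ht (by simpa [h8] using h7.inv.mul h6)
  · rintro h x x1 ⟨z, x2⟩ -
    obtain ⟨b, hb, μ, h1, h2⟩ := exists_unip' 3 (x1 ▸ one_ne_zero) x2
    refine IntoS.of_smul scalars_le_sub (inv_ne_zero hb) ?_
    by_cases h3 : 1 ∈ μ ∨ 3 ∈ μ
    · exact (into_sub_of_hasJT h1).intoS_of_mem 3 h1 h3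
    have h4 : ∀ e ∈ μ, e = 2 := fun e he => by
      have := h2 e he
      have : e ≠ 1 := by rintro rfl; exact h3 (Or.inl he)
      have : e ≠ 3 := by rintro rfl; exact h3 (Or.inr he)
      omega
    obtain ⟨e, he⟩ := exists_mem_of_hasJT h1
    obtain rfl := h4 e he
    have h5 : Odd k := by
      refine hk.odd_of_ne_two ?_
      rintro rfl
      have h5 := h1.sum_eq_card
      rw [Multiset.eq_replicate_card.2 h4, Multiset.sum_replicate, Fintype.card_fin] at h5
      rcases h with ⟨m, hm⟩ | h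
      · simp at h5; omega
      · omega
    have h6 : Odd q₀ := by
      have := FiniteField.odd_card_of_char_ne_two hc2
      rwa [hqk, ← Nat.odd_iff, Nat.odd_pow_iff hk.ne_zero] at this
    obtain ⟨w, hw⟩ : Odd (∑ i ∈ Finset.range k, q₀ ^ i) := by
      rw [Finset.odd_sum_iff_odd_card_odd, Finset.filter_true_of_mem fun i _ => h6.pow]
      simpa using h5
    refine (into_sub_of_hasJT h1).intoS' fun c hc => ?_
    have h7 : c ^ (2 * w + 1) ∈ F₀ := by
      rw [mem_sub_iff hF₀, ← hw, ← pow_mul]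
      refine mul_right_cancel₀ hc ?_
      rw [← pow_succ, Finset.sum_mul, show ∑ i ∈ Finset.range k, q₀ ^ i * q₀ + 1 =
        ∑ i ∈ Finset.range (k + 1), q₀ ^ i by simp [Finset.sum_range_succ', pow_succ],
        Finset.sum_range_succ, pow_add, ← hqk, FiniteField.pow_card]
    obtain ⟨g, g1, g2⟩ := commute_det_of_hasJT h1 he (inv_ne_zero (pow_ne_zero w hc))
    obtain ⟨a, ha⟩ := GeneralLinearGroup.det_surjective (n := Fin n) (Units.mk0 (⟨_, h7⟩ : F₀)
      fun h => pow_ne_zero _ hc (congrArg Subtype.val h))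
    refine ⟨g, _, map_mem_sub a, g1, ?_⟩
    rw [g2, hdet, show (a : Matrix (Fin n) (Fin n) F₀).det = ⟨_, h7⟩ from congrArg Units.val ha]
    field_simp
    ring

end Cfsg.Agent.S5966
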