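import Cfsg.Statements.S5967
import Cfsg.Agent.CLAS.ElusL5

set_option autoImplicit false
open scoped MatrixGroups
open Cfsg

namespace Cfsg.Agent.S5967

open CL.ElusL CL.Elus CL.GLn CL.SpU Matrix

theorem result {F : Type*} [Field F] [Fintype F] {p : ℕ} [Fact p.Prime] [CharP F p] {q : ℕ} (hq : Fintype.card F = q)
    (n : ℕ) (hn : 4 ≤ n) (he : Even n) (f : (Fin n → F) → (Fin n → F) → F) (hf : Cfsg.Geo.IsSymplecticForm f)
    (hΩ : 2 ∣ ((Cfsg.Geo.similarityGroup f).comap (Matrix.SpecialLinearGroup.toGL : Matrix.SpecialLinearGroup (Fin n) F →* GL (Fin n) F)).index) :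
    (∀ x : Matrix.SpecialLinearGroup (Fin n) F,
      (∃ z : F, ((x ^ 2 : Matrix.SpecialLinearGroup (Fin n) F) : Matrix (Fin n) (Fin n) F) = z • (1 : Matrix (Fin n) (Fin n) F)) →
      (∀ z : F, (x : Matrix (Fin n) (Fin n) F) ≠ z • (1 : Matrix (Fin n) (Fin n) F)) →
      ∃ P : Matrix.SpecialLinearGroup (Fin n) F, P⁻¹ * x * P ∈ ((Cfsg.Geo.similarityGroup f).comap (Matrix.SpecialLinearGroup.toGL : Matrix.SpecialLinearGroup (Fin n) F →* GL (Fin n) F))) ↔
    padicValNat 2 (q - 1) ≤ padicValNat 2 n := by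
  subst hq
  rw [elu_iff_SL, ← simG_altOf hf]
  have hg := altOf_nondeg hf
  have : Nontrivial (Fin n) := Fin.nontrivial_iff_two_le.2 (by omega)
  have : Fact (Nat.Prime 2) := ⟨Nat.prime_two⟩
  rcases eq_or_ne p 2 with rfl | hp
  · refine iff_of_true (elu_two_of_unip (scalars_le_simG _) fun u μ h h1 _ =>
      into_alt_of_isReal hg ((isReal_iff_even_count h).2 fun j hj => ?_)) ?_
    · obtain ⟨a, b, rfl⟩ := eq_replicate_add_of_le_two h1
      have h2 := h.sum_eq_card
      obtain ⟨m, rfl⟩ := he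
      obtain ⟨k, rfl⟩ := hj
      simp only [Multiset.sum_add, Multiset.sum_replicate, smul_eq_mul, Fintype.card_fin,
        Multiset.count_add, Multiset.count_replicate] at h2 ⊢
      rw [if_neg (show 2 ≠ 2 * k + 1 by omega), add_zero]
      split_ifs
      exacts [⟨m - b, by omega⟩, Even.zero]
    · have := FiniteField.even_card_of_char_two (ringChar.eq F 2)
      have := Fintype.card_pos (α := F)
      rw [padicValNat.eq_zero_of_not_dvd (by omega)]
      exact Nat.zero_le _
  have h2 : (2 : F) ≠ 0 := Ring.two_ne_zero (by rwa [ringChar.eq F p])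
  have h3 : (-1 : F) ≠ 1 := fun h => h2 (by linear_combination -h)
  constructor
  · intro h
    by_contra! h1
    obtain ⟨c, hc0, hc⟩ := exists_pow_eq_of_lt h1 (by omega) (w := -1) (by simp)
    obtain ⟨y, y1, y2, y3⟩ := exists_refl (ι := Fin n) (-1 : F) h3
    rw [Fintype.card_fin] at y3
    obtain ⟨g, ⟨l, hl⟩, hg'⟩ := (h (c • y) (by simp [hc, y1]) ⟨c ^ 2, by
      rw [smul_pow, y2 2 (by simp)]⟩ (smul_ne_scalar (by omega) (by simp; omega) hc0)).into.of_smul
      (scalars_le_simG _) hc0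
    have h4 := finrank_ker_eq_of_isConj hg' 1
    rw [map_one, y3] at h4
    have h5 := mult_eq_one hg (A := toLin' (g : Matrix (Fin n) (Fin n) F)) (fun u v => hl v u)
      (by simp; omega)
    have h6 := det_eq_one_of_alt hg (A := toLin' (g : Matrix (Fin n) (Fin n) F))
      fun u v => by simpa [h5] using hl v u
    rw [LinearMap.det_toLin', ← det_eq_of_isConj hg', y1] at h6
    exact h3 h6
  · rintro h x x1 ⟨z, x2⟩ -
    refine Into.intoS_ss ?_ (ss_of_pow_eq p hp.symm (x1 ▸ one_ne_zero) x2)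
    by_cases hz : ∃ b : F, b ^ 2 = z
    · obtain ⟨b, rfl⟩ := hz
      have hb : b ≠ 0 := fun h0 => ne_zero_of_pow_eq (x1 ▸ one_ne_zero) x2 (by simp [h0])
      have h4 := smul_pow_eq_one' hb x2
      refine (into_alt_of_sq hg h2 h4 ?_).of_smul (scalars_le_simG _) (inv_ne_zero hb)
      have h5 := congrArg det h4
      rw [det_pow, det_one] at h5
      rw [det_smul, x1, mul_one, Fintype.card_fin] at h5 ⊢
      exact pow_eq_one_of_le h (inv_ne_zero hb) h5
    · exact into_alt_of_nonsq hg (fun b hb => hz ⟨b, hb⟩) x2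

end Cfsg.Agent.S5967
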