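import Cfsg.Statements.S5968
import Cfsg.Agent.CLAS.ElusL5

set_option autoImplicit false
open scoped MatrixGroups
open Cfsg

namespace Cfsg.Agent.S5968

open CL.ElusL CL.Elus CL.GLn CL.SpU Matrix

theorem result {F : Type*} [Field F] [Fintype F] {p : ℕ} [Fact p.Prime] [CharP F p] {q : ℕ} (hq : Fintype.card F = q)
    (n : ℕ) (hn : 4 ≤ n) (he : Even n) (f : (Fin n → F) → (Fin n → F) → F) (hf : Cfsg.Geo.IsSymplecticForm f)
    (r : ℕ) [Fact r.Prime] (hr2 : r ≠ 2) (hgap : ¬ (n = 6 ∧ r = 3)) (hΩ : r ∣ ((Cfsg.Geo.similarityGroup f).comap (Matrix.SpecialLinearGroup.toGL : Matrix.SpecialLinearGroup (Fin n) F →* GL (Fin n) F)).index) :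
    ∃ x : Matrix.SpecialLinearGroup (Fin n) F,
      (∃ z : F, ((x ^ r : Matrix.SpecialLinearGroup (Fin n) F) : Matrix (Fin n) (Fin n) F) = z • (1 : Matrix (Fin n) (Fin n) F)) ∧
      (∀ z : F, (x : Matrix (Fin n) (Fin n) F) ≠ z • (1 : Matrix (Fin n) (Fin n) F)) ∧
      ∀ P : Matrix.SpecialLinearGroup (Fin n) F, P⁻¹ * x * P ∉ ((Cfsg.Geo.similarityGroup f).comap (Matrix.SpecialLinearGroup.toGL : Matrix.SpecialLinearGroup (Fin n) F →* GL (Fin n) F)) := by
  subst hq
  by_contra! h0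
  have h := elu_iff_SL.1 h0
  rw [index_comap_eq] at hΩ
  rw [← simG_altOf hf] at h hΩ
  have hg := altOf_nondeg hf
  have : Nonempty (Fin n) := ⟨⟨0, by omega⟩⟩
  have hr := (Fact.out : r.Prime).two_le
  rcases eq_or_ne r p with rfl | hp
  · obtain ⟨x, x1, x2, x3, x4⟩ := exists_unipotent (F := F) (ι := Fin n) r
      (μ := 3 ::ₘ Multiset.replicate (n - 3) 1) (fun a ha => by
        rcases Multiset.mem_cons.1 ha with rfl | ha
        · omega
        · rw [Multiset.eq_of_mem_replicate ha]; omega) (by simp; omega) ⟨3, by simp, by simp⟩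
    obtain ⟨y, h1, h2⟩ := B_eq_of_unip r hg (h x x1 ⟨_, x2⟩ x3).into x2
    have := IsReal.even_count ⟨_, hg, (CL.Witt.Form.alt_isIsom_iff _ _ _).2 h2⟩
      (x4.of_simil ((isConj_iff_simil _ _).1 h1)) (j := 3) (by decide)
    simp [Multiset.count_replicate] at this
  · obtain ⟨-, -, h1⟩ := (nec_simG p hg (pow_zero p).symm fun a => (pow_one a).symm).of_elu p h hr2
      hp (by omega) hgap (ord_le_of_dvd (CL.Elus.not_dvd_card p hp) (by omega) hΩ) (by simp)
      fun h1 => not_dvd_alt p hr2 hp (by omega) hg (by simpa using h1) hΩ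
    obtain ⟨m, rfl⟩ := he
    omega

end Cfsg.Agent.S5968
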