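import Cfsg.Statements.S5969
import Cfsg.Agent.CLAS.ElusL6

set_option autoImplicit false
open scoped MatrixGroups
open Cfsg

namespace Cfsg.Agent.S5969

open CL.ElusL CL.Elus CL.GLn Matrix Polynomial

theorem result {F : Type*} [Field F] [Fintype F] {p : ℕ} [Fact p.Prime] [CharP F p] {q : ℕ} (hq : Fintype.card F = q)
    (n : ℕ) (hn : 2 ≤ n) (hT : (n, q) ≠ (2, 2) ∧ (n, q) ≠ (2, 3))
    (k : ℕ) (hk : k.Prime) (hkn : k ∣ n) (K : Subalgebra F (Matrix (Fin n) (Fin n) F)) (hK : Cfsg.Geo.IsFieldSubalgebra k K) (hk2 : k = 2) (hΩ : 2 ∣ ((Cfsg.Geo.subalgebraNormalizer K).comap (Matrix.SpecialLinearGroup.toGL : Matrix.SpecialLinearGroup (Fin n) F →* GL (Fin n) F)).index) :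
    (∀ x : Matrix.SpecialLinearGroup (Fin n) F,
      (∃ z : F, ((x ^ 2 : Matrix.SpecialLinearGroup (Fin n) F) : Matrix (Fin n) (Fin n) F) = z • (1 : Matrix (Fin n) (Fin n) F)) →
      (∀ z : F, (x : Matrix (Fin n) (Fin n) F) ≠ z • (1 : Matrix (Fin n) (Fin n) F)) →
      ∃ P : Matrix.SpecialLinearGroup (Fin n) F, P⁻¹ * x * P ∈ ((Cfsg.Geo.subalgebraNormalizer K).comap (Matrix.SpecialLinearGroup.toGL : Matrix.SpecialLinearGroup (Fin n) F →* GL (Fin n) F))) ↔
    (n = 2 ∨ (Odd q ∧ padicValNat 2 (q - 1) ≤ padicValNat 2 n)) := by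
  subst hq hk2
  rw [elu_iff_SL]
  have : Nontrivial (Fin n) := Fin.nontrivial_iff_two_le.2 (by omega)
  have : Fact (Nat.Prime 2) := ⟨Nat.prime_two⟩
  obtain ⟨m, rfl⟩ := hkn
  have hfr : 2 * m = 2 → ∃ x : Matrix (Fin (2 * m)) (Fin (2 * m)) F,
      Into (Cfsg.Geo.subalgebraNormalizer K) x ∧ x ^ 2 = 1 ∧ ∀ c : F, x ≠ c • 1 := fun h => by
    obtain ⟨x, h1, h2, h3⟩ := exists_frob hK (by simpa using h.symm)
    refine ⟨x, h1, h2, fun c hc => ?_⟩
    have h4 := natDegree_le_of_dvd (minpoly.dvd F x (p := X - C c) (by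
      simp [hc, Algebra.algebraMap_eq_smul_one])) (X_sub_C_ne_zero c)
    rw [h3, ← C_1, natDegree_X_pow_sub_C, natDegree_X_sub_C] at h4
    omega
  have hnec : ∀ y, Into (Cfsg.Geo.subalgebraNormalizer K) y →
      Module.finrank F (LinearMap.ker (toLin' y - 1)) = 2 * m - 1 → 2 * m = 2 := fun y hy h => by
    have := hy.ext_nec hK
    rw [h, Fintype.card_fin] at this
    omega
  rcases eq_or_ne p 2 with rfl | hp
  · have h0 : ¬ Odd (Fintype.card F) := by
      rw [Nat.odd_iff, FiniteField.even_card_of_char_two (ringChar.eq F 2)]; omega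
    simp only [h0, false_and, or_false]
    constructor
    · intro h
      obtain ⟨x, x1, x2, x3, x4⟩ := exists_unipotent (F := F) (ι := Fin (2 * m)) 2
        (μ := 2 ::ₘ Multiset.replicate (2 * m - 2) 1) (fun a ha => by
          rcases Multiset.mem_cons.1 ha with rfl | ha
          · omega
          · rw [Multiset.eq_of_mem_replicate ha]; omega) (by simp; omega) ⟨2, by simp, by simp⟩
      have := x4.finrank_ker
      rw [map_one] at this
      exact hnec x (h x x1 ⟨_, x2⟩ x3).into (by rw [this]; simp; omega)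
    · intro h
      obtain ⟨x, h1, h2, h3⟩ := hfr h
      have key : ∀ (u : Matrix (Fin (2 * m)) (Fin (2 * m)) F) (μ : Multiset ℕ),
          HasJT (toLin' u) 1 μ → (∀ a ∈ μ, 0 < a ∧ a ≤ 2) → u ≠ 1 → μ = {2} := by
        intro u μ h4 h5 h6
        obtain ⟨a, b, rfl⟩ := eq_replicate_add_of_le_two h5
        have h7 := h4.sum_eq_card
        simp only [Multiset.sum_add, Multiset.sum_replicate, smul_eq_mul, Fintype.card_fin] at h7
        obtain ⟨rfl, rfl⟩ | ⟨rfl, rfl⟩ : (a = 0 ∧ b = 1) ∨ (a = 2 ∧ b = 0) := by omega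
        · rfl
        · exact absurd (sub_eq_zero.1 (by
            simpa using (h4.sub_one_pow_eq_zero_iff 1).2 (by simp))) h6
      obtain ⟨μ, h4, h5⟩ := exists_hasJT_of_pow (A := toLin' x) (k := 2) (by
        have := (pow_char_pow_eq_one_iff F 2 (toLin' x) 1).1 (by
          rw [pow_one, ← toLin'_pow, h2, toLin'_one]; rfl)
        simpa using this)
      obtain rfl := key x μ h4 h5 (by simpa using h3 1)
      exact elu_two_of_unip scalars_le_ext fun u ν h6 h7 h8 =>
        h1.of_isConj ((h6.isConj_iff h4).2 (key u ν h6 h7 h8))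
  have hodd : Odd (Fintype.card F) :=
    Nat.odd_iff.2 (FiniteField.odd_card_of_char_ne_two (by rwa [ringChar.eq F p]))
  have h2 : (2 : F) ≠ 0 := Ring.two_ne_zero (by rwa [ringChar.eq F p])
  have h3 : (-1 : F) ≠ 1 := fun h => h2 (by linear_combination -h)
  constructor
  · intro h
    by_contra! h1
    obtain ⟨c, hc0, hc⟩ := exists_pow_eq_of_lt (h1.2 hodd) (by omega) (w := -1) (by simp)
    obtain ⟨y, y1, y2, y3⟩ := exists_refl (ι := Fin (2 * m)) (-1 : F) h3
    rw [Fintype.card_fin] at y3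
    exact h1.1 (hnec y ((h (c • y) (by simp only [det_smul, Fintype.card_fin, hc, y1]; simp)
      ⟨c ^ 2, by rw [_root_.smul_pow, y2 2 (by simp)]⟩
      (smul_ne_scalar (by omega) (by simp; omega) hc0)).into.of_smul scalars_le_ext hc0) y3)
  · rintro h x x1 ⟨z, x2⟩ x3
    refine Into.intoS_ss ?_ (ss_of_pow_eq p hp.symm (x1 ▸ one_ne_zero) x2)
    by_cases hz : ∃ b : F, b ^ 2 = z
    swap
    · exact into_ext_of_nonsq hK rfl (fun b hb => hz ⟨b, hb⟩) x2
    obtain ⟨b, rfl⟩ := hz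
    have hb : b ≠ 0 := fun h0 => ne_zero_of_pow_eq (x1 ▸ one_ne_zero) x2 (by simp [h0])
    have h4 := smul_pow_eq_one' hb x2
    refine Into.of_smul scalars_le_ext (inv_ne_zero hb) ?_
    rcases h with h | ⟨-, h⟩
    · obtain ⟨y, h5, h6, h7⟩ := hfr h
      have hζ := IsPrimitiveRoot.neg_one (R := F) p hp
      refine h5.of_isConj (isConj_of_ev_inv hp.symm h4 h6 ?_)
      rw [ev_eq_univ hζ (by simpa using h) h6 h7 (Or.inl rfl),
        ev_eq_univ hζ (by simpa using h) h4 (fun c hc => x3 (b * c) ?_) (Or.inl rfl)]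
      rw [← smul_smul, ← hc, smul_smul, mul_inv_cancel₀ hb, one_smul]
    · have h5 := congrArg det h4
      rw [det_pow, det_one, det_smul, x1, mul_one, Fintype.card_fin] at h5
      obtain ⟨g, h6, h7⟩ := exists_charpoly_sq h2 (m := m) (by simp) h4 (by
        rw [det_smul, x1, mul_one, Fintype.card_fin]
        exact pow_eq_one_of_le h (inv_ne_zero hb) h5)
      exact into_ext_of_charpoly hK (by simp) (det_ne_zero_of_pow two_ne_zero h4)
        (isSemisimple_toLin'_of_pow_eq_one (by simpa using h2) h4)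
        (isSemisimple_toLin'_of_pow_eq_one (by simpa using h2) h6) h7

end Cfsg.Agent.S5969
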