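import Cfsg.Statements.S5970
import Cfsg.Agent.CLAS.ElusL6

set_option autoImplicit false
open scoped MatrixGroups
open Cfsg

namespace Cfsg.Agent.S5970

open CL.ElusL CL.Elus CL.GLn Matrix Polynomial

theorem result {F : Type*} [Field F] [Fintype F] {p : ℕ} [Fact p.Prime] [CharP F p] {q : ℕ} (hq : Fintype.card F = q)
    (n : ℕ) (hn : 2 ≤ n) (hT : (n, q) ≠ (2, 2) ∧ (n, q) ≠ (2, 3))
    (k : ℕ) (hk : k.Prime) (hkn : k ∣ n) (K : Subalgebra F (Matrix (Fin n) (Fin n) F)) (hK : Cfsg.Geo.IsFieldSubalgebra k K) (hkn' : k = n) (hn3 : 3 < n) (hnp : n ≠ p) (hΩ : n ∣ ((Cfsg.Geo.subalgebraNormalizer K).comap (Matrix.SpecialLinearGroup.toGL : Matrix.SpecialLinearGroup (Fin n) F →* GL (Fin n) F)).index) :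
    (∀ x : Matrix.SpecialLinearGroup (Fin n) F,
      (∃ z : F, ((x ^ n : Matrix.SpecialLinearGroup (Fin n) F) : Matrix (Fin n) (Fin n) F) = z • (1 : Matrix (Fin n) (Fin n) F)) →
      (∀ z : F, (x : Matrix (Fin n) (Fin n) F) ≠ z • (1 : Matrix (Fin n) (Fin n) F)) →
      ∃ P : Matrix.SpecialLinearGroup (Fin n) F, P⁻¹ * x * P ∈ ((Cfsg.Geo.subalgebraNormalizer K).comap (Matrix.SpecialLinearGroup.toGL : Matrix.SpecialLinearGroup (Fin n) F →* GL (Fin n) F))) ↔
    orderOf (q : ZMod n) = n - 1 := by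
  subst hq hkn'
  have : Fact k.Prime := ⟨hk⟩
  rw [elu_iff_SL]
  have : Nontrivial (Fin k) := Fin.nontrivial_iff_two_le.2 (by omega)
  have h5 : 5 ≤ k := hk.five_le_of_ne_two_of_ne_three (by omega) (by omega)
  have hnec : ∀ y, Into (Cfsg.Geo.subalgebraNormalizer K) y → ∀ j, 0 < j → 2 * j < k →
      Module.finrank F (LinearMap.ker (toLin' y - 1)) + j = k → False := fun y hy j h1 h2 h => by
    rcases hy.ext_nec hK with h3 | h3
    · have := Nat.le_of_dvd (by omega) h3
      omega
    · rw [Fintype.card_fin] at h3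
      omega
  constructor
  · intro h
    by_contra h1
    by_cases h2 : orderOf ((Fintype.card F : ℕ) : ZMod k) = 1
    · classical
      obtain ⟨ζ, hζ⟩ := exists_isPrimitiveRoot ((ord_eq_one_iff Fintype.card_pos).1 h2)
      obtain ⟨a, a1, a2, a3, a4⟩ := exists_diag (ι := Fin k) hζ
        ({1, -1} + Multiset.replicate (k - 2) 0) (by simp; omega) one_ne_zero (by simp)
        ⟨1, by simp, 0, Multiset.mem_add.2 (Or.inr (Multiset.mem_replicate.2 ⟨by omega, rfl⟩)),
          one_ne_zero⟩
      refine hnec _ (h _ a2 ⟨_, a3⟩ a4).into 2 (by omega) (by omega) ?_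
      rw [← map_one (algebraMap F (Module.End F (Fin k → F))), finrank_ker_diagonal]
      have := congrArg (Multiset.count 0) a1
      rw [Multiset.count_map] at this
      rw [Fintype.card_subtype, show (Finset.univ.filter fun i => 1 * ζ ^ (a i).val = 1) =
        Finset.univ.filter fun i => 0 = a i from Finset.filter_congr fun i _ =>
          ⟨fun h => val_pow_inj hζ (by simpa using h.symm), fun h => by simp [← h]⟩,
        show (Finset.univ.filter fun i => 0 = a i).card = _ from this]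
      simp
      omega
    · obtain ⟨P, hP⟩ := cycFactors_nonempty (F := F) p hnp
      obtain ⟨j, hj⟩ := ord_dvd (F := F) p hnp
      have h3 := ord_pos (F := F) p hnp
      have h4 : orderOf ((Fintype.card F : ℕ) : ZMod k) * 2 ≤ k - 1 := by
        rw [hj]
        refine Nat.mul_le_mul_left _ ?_
        rcases j with _ | _ | j
        · simp at hj; omega
        · simp at hj; omega
        · omega
      obtain ⟨x, x1, x2, x3, x4⟩ := exists_min_orbit (ι := Fin k) p hnp h2 hP one_ne_zero
        (k := k - orderOf ((Fintype.card F : ℕ) : ZMod k)) (by simp; omega)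
      exact hnec x (h x x1 ⟨_, x2⟩ x3).into _ h3 (by omega) (by
        rw [x4.finrank_ker (cast_ne_zero p hnp)]; omega)
  · rintro h x x1 ⟨z, x2⟩ x3
    obtain ⟨b, hb, rfl⟩ := typeA_of_not_dvd (fun h1 => by
      have := (ord_eq_one_iff Fintype.card_pos).2 h1
      omega) (x1 ▸ one_ne_zero) x2
    obtain ⟨y, h1, h2, h3⟩ := exists_frob hK (by simp)
    refine ((h1.of_isConj (isConj_of_ord p hnp (by omega) h (by simp) (smul_pow_eq_one' hb x2) h2
      (fun h4 => x3 b ?_) fun h4 => ?_)).of_smul scalars_le_ext (inv_ne_zero hb)).intoS_ss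
      (ss_of_pow_eq p hnp (x1 ▸ one_ne_zero) x2)
    · rw [← h4, smul_smul, mul_inv_cancel₀ hb, one_smul]
    · have := congrArg natDegree h3
      rw [h4, minpoly.one, ← C_1, natDegree_X_pow_sub_C, natDegree_X_sub_C] at this
      omega

end Cfsg.Agent.S5970
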