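import Cfsg.Statements.S5971
import Cfsg.Agent.CLAS.ElusL6

set_option autoImplicit false
open scoped MatrixGroups
open Cfsg

namespace Cfsg.Agent.S5971

open CL.ElusL CL.Elus CL.GLn Matrix Polynomial

theorem ord_two : orderOf (2 : ZMod 3) = 2 := orderOf_eq_prime (by decide) (by decide)

theorem val_one {a : ℕ} (h : a % 9 = 3 ∨ a % 9 = 6) : padicValNat 3 a = 1 := by
  have : Fact (Nat.Prime 3) := ⟨Nat.prime_three⟩
  obtain ⟨b, rfl⟩ : 3 ∣ a := by omega
  rw [val_mul_of_not_dvd (by omega)]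
  simp

theorem result {F : Type*} [Field F] [Fintype F] {p : ℕ} [Fact p.Prime] [CharP F p] {q : ℕ} (hq : Fintype.card F = q)
    (n : ℕ) (hn : n = 3) (k : ℕ) (hk : k.Prime) (hkn : k ∣ n) (K : Subalgebra F (Matrix (Fin n) (Fin n) F)) (hK : Cfsg.Geo.IsFieldSubalgebra k K) (hk3 : k = 3) (hΩ : 3 ∣ ((Cfsg.Geo.subalgebraNormalizer K).comap (Matrix.SpecialLinearGroup.toGL : Matrix.SpecialLinearGroup (Fin n) F →* GL (Fin n) F)).index) :
    (∀ x : Matrix.SpecialLinearGroup (Fin n) F,
      (∃ z : F, ((x ^ 3 : Matrix.SpecialLinearGroup (Fin n) F) : Matrix (Fin n) (Fin n) F) = z • (1 : Matrix (Fin n) (Fin n) F)) →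
      (∀ z : F, (x : Matrix (Fin n) (Fin n) F) ≠ z • (1 : Matrix (Fin n) (Fin n) F)) →
      ∃ P : Matrix.SpecialLinearGroup (Fin n) F, P⁻¹ * x * P ∈ ((Cfsg.Geo.subalgebraNormalizer K).comap (Matrix.SpecialLinearGroup.toGL : Matrix.SpecialLinearGroup (Fin n) F →* GL (Fin n) F))) ↔
    (q % 9 = 4 ∨ q % 9 = 7 ∨ q % 9 = 8) := by
  subst hq hn hk3
  rw [index_comap_eq] at hΩ
  rw [elu_iff_SL]
  have : Fact (Nat.Prime 3) := ⟨Nat.prime_three⟩
  have hnec : ∀ y, Into (Cfsg.Geo.subalgebraNormalizer K) y →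
      Module.finrank F (LinearMap.ker (toLin' y - 1)) = 2 → False := fun y hy h => by
    have := hy.ext_nec hK
    rw [h, Fintype.card_fin] at this
    omega
  rcases eq_or_ne p 3 with rfl | hp
  · have h0 : 3 ∣ Fintype.card F := by
      obtain ⟨e, -, h⟩ := FiniteField.card F 3
      rw [h]; exact dvd_pow_self _ e.ne_zero
    refine iff_of_false (fun h => ?_) (by omega)
    obtain ⟨x, x1, x2, x3, x4⟩ := exists_unipotent (F := F) (ι := Fin 3) 3
      (μ := {2, 1}) (by simp) (by simp) ⟨2, by simp, by simp⟩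
    have := x4.finrank_ker
    rw [map_one] at this
    exact hnec x (h x x1 ⟨_, x2⟩ x3).into this
  have h0 := CL.ElusL.not_dvd_card (F := F) p hp.symm
  obtain ⟨y, y1, y2, y3⟩ := exists_frob hK (by simp)
  have y4 : ∀ c : F, y ≠ c • 1 := fun c hc => by
    have h4 := natDegree_le_of_dvd (minpoly.dvd F y (p := X - C c) (by
      simp [hc, Algebra.algebraMap_eq_smul_one])) (X_sub_C_ne_zero c)
    rw [y3, ← C_1, natDegree_X_pow_sub_C, natDegree_X_sub_C] at h4
    omega
  have y5 : y.det = 1 := by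
    have h1 : y.charpoly = minpoly F y := eq_of_monic_of_dvd_of_natDegree_le
      (minpoly.monic (Matrix.isIntegral y)) y.charpoly_monic (minpoly_dvd_charpoly y) (by
        rw [y3, ← C_1, natDegree_X_pow_sub_C, charpoly_natDegree_eq_dim, Fintype.card_fin])
    rw [det_eq_sign_charpoly_coeff, h1, y3]
    simp
    norm_num
  have hpos : 0 < Fintype.card F := Fintype.card_pos
  by_cases h1 : 3 ∣ Fintype.card F - 1
  · obtain ⟨ζ, hζ⟩ := exists_isPrimitiveRoot h1
    by_cases h9 : Fintype.card F % 9 = 1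
    · refine iff_of_false (fun h => ?_) (by omega)
      obtain ⟨c, hc0, hc⟩ := exists_pow_eq_of_lt (F := F) (r := 3) (n := 3) (by
        rw [padicValNat_self]
        exact (padicValNat_dvd_iff_le (by have := Fintype.one_lt_card (α := F); omega)).1
          (by norm_num; omega)) (by omega) (w := ζ⁻¹) (by rw [inv_pow, hζ.pow_eq_one, _root_.inv_one])
      obtain ⟨u, u1, u2, u3⟩ := exists_refl (ι := Fin 3) ζ (hζ.ne_one (by norm_num))
      rw [Fintype.card_fin] at u3
      exact hnec u ((h (c • u) (by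
        rw [det_smul, Fintype.card_fin, hc, u1, inv_mul_cancel₀ (hζ.ne_zero (by norm_num))])
        ⟨c ^ 3, by rw [_root_.smul_pow, u2 3 hζ.pow_eq_one]⟩
        (smul_ne_scalar (by omega) (by simp; omega) hc0)).into.of_smul scalars_le_ext hc0) u3
    refine iff_of_true ?_ (by omega)
    have hv : padicValNat 3 (Fintype.card F - 1) = 1 := val_one (by omega)
    rintro x x1 ⟨z, x2⟩ x3
    obtain ⟨b, hb, rfl⟩ := typeA_of_noB (r := 3) ⟨by simp [hv], by simp⟩ x1 x2
    have h4 := smul_pow_eq_one' hb x2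
    refine (Into.of_smul scalars_le_ext (inv_ne_zero hb) (y1.of_isConj
      (isConj_of_ev_inv hp.symm h4 y2 ?_))).intoS_ss
      (ss_of_pow_eq p hp.symm (x1 ▸ one_ne_zero) x2)
    have h5 := congrArg det h4
    rw [det_pow, det_one, det_smul, x1, mul_one, Fintype.card_fin] at h5
    rw [ev_eq_univ hζ (by simp) y2 y4 (Or.inr ⟨rfl, y5⟩),
      ev_eq_univ hζ (by simp) h4 (fun c hc => x3 (b * c) ?_) (Or.inr ⟨rfl, ?_⟩)]
    · rw [det_smul, x1, mul_one, Fintype.card_fin]
      exact pow_eq_one_of_le (r := 3) (by simp [hv]) (inv_ne_zero hb) h5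
    · rw [← smul_smul, ← hc, smul_smul, mul_inv_cancel₀ hb, one_smul]
  refine iff_of_true ?_ ?_
  · rintro x x1 ⟨z, x2⟩ x3
    obtain ⟨b, hb, rfl⟩ := typeA_of_not_dvd h1 (x1 ▸ one_ne_zero) x2
    have h2 : ((Fintype.card F : ℕ) : ZMod 3) = 2 := by
      rw [← ZMod.natCast_mod, show Fintype.card F % 3 = 2 by omega]; rfl
    refine ((y1.of_isConj (isConj_of_ord p hp.symm (by omega) (by
      rw [h2]; exact ord_two) (by simp)
      (smul_pow_eq_one' hb x2) y2 (fun h4 => x3 b ?_) (by simpa using y4 1))).of_smul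
      scalars_le_ext (inv_ne_zero hb)).intoS_ss (ss_of_pow_eq p hp.symm (x1 ▸ one_ne_zero) x2)
    rw [← h4, smul_smul, mul_inv_cancel₀ hb, one_smul]
  · by_contra h2
    obtain ⟨g, g1, g2⟩ := y1
    have g3 : g ^ 3 = 1 := Units.ext (by simpa using pow_eq_of_isConj g2 (z := 1) (by simpa using y2))
    have g4 : orderOf g = 3 := orderOf_eq_prime g3 fun h => y4 1 (by
      simpa [h] using g2)
    refine not_dvd_relIndex_of_le (K := Subgroup.zpowers g) (by simpa using g1) one_ne_zero ?_ ?_ hΩ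
    · rintro _ ⟨j, rfl⟩
      have : g ∈ Cfsg.Geo.specialLinear (Fin 3) F := mem_SL.2 (by rw [← det_eq_of_isConj g2, y5])
      rw [pow_one]
      exact mem_SL.1 (Subgroup.zpow_mem _ this j)
    · rw [Nat.card_zpowers, g4, val_card_SL h0 (by omega), show Finset.Ioc 1 3 = {2, 3} by rfl,
        Finset.sum_pair (by omega), val_one (a := Fintype.card F ^ 2 - 1) (by
          have := Nat.pow_mod (Fintype.card F) 2 9
          have h3 : Fintype.card F % 9 = 2 ∨ Fintype.card F % 9 = 5 := by omega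
          rcases h3 with h3 | h3 <;> rw [h3] at this <;> omega),
        padicValNat.eq_zero_of_not_dvd (n := Fintype.card F ^ 3 - 1) (by
          have := Nat.pow_mod (Fintype.card F) 3 3
          rw [show Fintype.card F % 3 = 2 by omega] at this
          omega)]
      simp

end Cfsg.Agent.S5971
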