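import Cfsg.Statements.S5972
import Cfsg.Agent.CLAS.Elus12

set_option autoImplicit false
open scoped MatrixGroups
open Cfsg

namespace Cfsg.Agent.S5972

open CL CL.Elus CL.Witt CL.Witt.Form CL.SpU CL.PrimeCl CL.Root Module Polynomial


/-- Elements of prime order of Ω_n(q), n = 2d+1 ≥ 7, q odd, with no fixed totally singular `m`-space. Here `T = Ω_n(q)` is realised as the commutator subgroup of the isometry group of the quadratic form `x₀² + Σ xᵢyᵢ` over the field `F` with `q` elements (it has trivial centre, so its elements of prime order `r` are used directly); let `1 ≤ m ≤ d` and let `r` be a prime dividing the number of totally singular `m`-spaces. For `r ≠ p` let `i` be the multiplicative order of `q` modulo `r`, `c = i` for `i` even and `c = 2i` for `i` odd, and write `k = n mod c`, `ℓ = m mod i`, `n' = ⌊n/i⌋`, `m' = ⌊m/i⌋`, `t = (r−1)/i`. Then every element of `T` of order `r` fixes some totally singular `m`-space if and only if either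 (i) `r = 2` and (`m < (n−1)/2` or `q ≡ 1 (mod 4)`); or (ii) `r ≠ p` is odd, `i ≤ m`, `k > 2ℓ`, and (`i` is odd or `n' − 2m' ≥ t`). -/
theorem result {F : Type*} [Field F] [Fintype F] {p : ℕ} [Fact p.Prime] [CharP F p] {q : ℕ} (hq : Fintype.card F = q) (hqodd : Odd q)
    (d m : ℕ) (hd : 3 ≤ d) (hm : 1 ≤ m) (hmd : m ≤ d)
    (r : ℕ) [Fact r.Prime]
    (hrΩ : r ∣ Nat.card {W : Submodule F (Unit ⊕ (Fin d ⊕ Fin d) → F) // Module.finrank F ↥W = m ∧ (∀ w ∈ W, Cfsg.quadFormOdd d F w = 0)})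
    (i c : ℕ) (hi : i = orderOf (q : ZMod r)) (hc : c = if Even i then i else 2 * i) :
    (∀ x : GL (Unit ⊕ (Fin d ⊕ Fin d)) F, x ∈ Cfsg.Geo.omegaGL (Cfsg.quadFormOdd d F) → orderOf x = r →
      ∃ W : Submodule F (Unit ⊕ (Fin d ⊕ Fin d) → F), Module.finrank F ↥W = m ∧ (∀ w ∈ W, Cfsg.quadFormOdd d F w = 0) ∧
        W.map (Matrix.toLin' (x : Matrix (Unit ⊕ (Fin d ⊕ Fin d)) (Unit ⊕ (Fin d ⊕ Fin d)) F)) ≤ W) ↔
    ((r = 2 ∧ (m < d ∨ q % 4 = 1)) ∨
     (r ≠ p ∧ 2 < r ∧ i ≤ m ∧ 2 * (m % i) < (2 * d + 1) % c ∧ (Odd i ∨ (r - 1) / i + 2 * (m / i) ≤ (2 * d + 1) / i))) := by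
  have h2 := FGL.two_ne_zero_of_odd (hq ▸ hqodd)
  have hf : (ofQuad (Orth.QOdd d F)).Nondeg := FGL.QOdd_nondeg' (hq ▸ hqodd)
  have hN : finrank F (Unit ⊕ (Fin d ⊕ Fin d) → F) = 2 * d + 1 := by simp; omega
  have hO : Odd (finrank F (Unit ⊕ (Fin d ⊕ Fin d) → F)) := hN ▸ odd_two_mul_add_one d
  have hε : Pl (ofQuad (Orth.QOdd d F)) ⊤ ↔ False :=
    iff_false_intro fun h => by simpa [hN, parity_simps] using h.even
  have hp := (Fact.out : r.Prime)
  subst hq
  simp only [← Orth.coe_QOdd, ← ofQuad_q, ← quad_totSing_iff] at hrΩ ⊢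
  simp only [← and_assoc (c := Submodule.map _ _ ≤ _)]
  rw [forall_omega_order_iff hf]
  have hrp := (not_dvd_card_iff p).1 (quad_not_dvd_ts hf (by omega) hp hrΩ)
  rcases hp.eq_two_or_odd' with rfl | ho
  · rw [forall_om_two' hf (by omega) h2 hO, om_two_ts hf (by omega) h2 (by omega),
      isSquare_neg_one_iff' h2, hε, hN]
    simp [not_hasB hO]
    omega
  · have hr2 : r ≠ 2 := by rintro rfl; exact absurd ho (by decide)
    have := hp.two_le
    rw [forall_om_odd' hf (by omega) ho, quad_elu_ts (natCast_ne_zero p hrp) hr2 hf hm (by omega)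
      hrΩ hi (hi ▸ hc) hN hε]
    have h3 := Nat.mod_mod_of_dvd (2 * d + 1) (show 2 ∣ c by
      rw [hc]; split_ifs with h; exacts [h.two_dvd, dvd_mul_right _ _])
    simp only [← Nat.not_even_iff_odd]
    grind

end Cfsg.Agent.S5972
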