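import Cfsg.Statements.S5974
import Cfsg.Agent.CLAS.Elus14

set_option autoImplicit false
open scoped MatrixGroups
open Cfsg

namespace Cfsg.Agent.S5974

open CL CL.Elus CL.Witt CL.Witt.Form CL.SpU CL.PrimeCl CL.Root Module Polynomial


/-- Elements of prime order of PΩ⁺_n(q), n = 2d ≥ 8, with no fixed nondegenerate hyperbolic `m`-space. Here `T = PΩ⁺_n(q)` is realised through `Ω⁺_n(q)`, the commutator subgroup of the isometry group of `Q = Σ xᵢyᵢ` over the field `F` with `q` elements; an element of `T` of prime order `r` is an element `x` of `Ω⁺_n(q)` with `x^r` scalar and `x` not scalar. A hyperbolic `m`-space is a subspace `W` of even dimension `m` on which the polar form of `Q` is nondegenerate and which contains a totally singular subspace of dimension `m/2`. Let `m` be even with `2 ≤ m < n/2`, and let `r` be a prime dividing the number of hyperbolic `m`-spaces, with `r = 2` or `r ≠ p`. For `r ≠ p` let `i` be the multiplicative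 order of `q` modulo `r`, `c = i` for `i` even and `c = 2i` for `i` odd, and write `k = n mod c`, `ℓ' = m mod c`. Then every element of `T` of order `r` fixes some hyperbolic `m`-space if and only if one of: (i) `r = 2` and (`n ≡ 2 (mod 4)`, or `m ≡ 0 (mod 4)`, or `q ≡ 1 (mod 4)`); (ii) `r ≠ p` odd, `i` odd, `c ≤ m` and `k ≥ ℓ'`; (iii) `r ≠ p` odd, `i` even, and either `k = 0` and (`n/i` odd, or `ℓ' = 0` and `m/i` even), or `i ≤ m` and (`k > ℓ' > 0`, or `k = ℓ' > 0` and `(n + m − 2k)/i` even, or `k > ℓ' = 0` and `m/i` even). -/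
theorem result {F : Type*} [Field F] [Fintype F] {p : ℕ} [Fact p.Prime] [CharP F p] {q : ℕ} (hq : Fintype.card F = q)
    (d m : ℕ) (hd : 4 ≤ d) (hm : 2 ≤ m) (hme : Even m) (hmd : m < d)
    (r : ℕ) [Fact r.Prime] (hr : r = 2 ∨ r ≠ p)
    (hrΩ : r ∣ Nat.card {W : Submodule F (Fin d ⊕ Fin d → F) // (Module.finrank F ↥W = m ∧ (∀ u ∈ W, u ≠ 0 → ∃ v ∈ W, QuadraticMap.polar (Cfsg.quadFormPlus d F) u v ≠ 0) ∧
          ∃ U : Submodule F (Fin d ⊕ Fin d → F), U ≤ W ∧ 2 * Module.finrank F ↥U = m ∧ ∀ u ∈ U, Cfsg.quadFormPlus d F u = 0)})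
    (i c : ℕ) (hi : i = orderOf (q : ZMod r)) (hc : c = if Even i then i else 2 * i) :
    (∀ x : GL (Fin d ⊕ Fin d) F, x ∈ Cfsg.Geo.omegaGL (Cfsg.quadFormPlus d F) →
      (∃ z : F, ((x ^ r : GL (Fin d ⊕ Fin d) F) : Matrix (Fin d ⊕ Fin d) (Fin d ⊕ Fin d) F) = z • (1 : Matrix (Fin d ⊕ Fin d) (Fin d ⊕ Fin d) F)) →
      (∀ z : F, (x : Matrix (Fin d ⊕ Fin d) (Fin d ⊕ Fin d) F) ≠ z • (1 : Matrix (Fin d ⊕ Fin d) (Fin d ⊕ Fin d) F)) →
      ∃ W : Submodule F (Fin d ⊕ Fin d → F), (Module.finrank F ↥W = m ∧ (∀ u ∈ W, u ≠ 0 → ∃ v ∈ W, QuadraticMap.polar (Cfsg.quadFormPlus d F) u v ≠ 0) ∧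
          ∃ U : Submodule F (Fin d ⊕ Fin d → F), U ≤ W ∧ 2 * Module.finrank F ↥U = m ∧ ∀ u ∈ U, Cfsg.quadFormPlus d F u = 0) ∧
        W.map (Matrix.toLin' (x : Matrix (Fin d ⊕ Fin d) (Fin d ⊕ Fin d) F)) ≤ W) ↔
    ((r = 2 ∧ ((2 * d) % 4 = 2 ∨ m % 4 = 0 ∨ q % 4 = 1)) ∨
     (r ≠ p ∧ 2 < r ∧ Odd i ∧ c ≤ m ∧ m % c ≤ (2 * d) % c) ∨
     (r ≠ p ∧ 2 < r ∧ Even i ∧
       (((2 * d) % c = 0 ∧ (Odd ((2 * d) / i) ∨ (m % c = 0 ∧ Even (m / i)))) ∨
        (i ≤ m ∧ ((m % c < (2 * d) % c ∧ 0 < m % c) ∨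
                  ((2 * d) % c = m % c ∧ 0 < m % c ∧ Even ((2 * d + m - 2 * ((2 * d) % c)) / i)) ∨
                  (0 < (2 * d) % c ∧ m % c = 0 ∧ Even (m / i))))))) := by
  have hf : (ofQuad (Orth.QPlus d F)).Nondeg := (ofQuad_nondeg_iff _).2 (Orth.QPlus_nondeg d F)
  have hN : finrank F (Fin d ⊕ Fin d → F) = 2 * d := by simp; omega
  have hε : Pl (ofQuad (Orth.QPlus d F)) ⊤ ↔ True := iff_true_intro (pl_top_iff.2 (Orth.isPlus_QPlus d))
  have hp := (Fact.out : r.Prime)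
  subst hq
  have h0 : ∀ W : Submodule F (Fin d ⊕ Fin d → F), (finrank F W = m ∧ (∀ u ∈ W, u ≠ 0 → ∃ v ∈ W,
      QuadraticMap.polar (Cfsg.quadFormPlus d F) u v ≠ 0) ∧ ∃ U : Submodule F (Fin d ⊕ Fin d → F),
      U ≤ W ∧ 2 * finrank F U = m ∧ ∀ u ∈ U, Cfsg.quadFormPlus d F u = 0) ↔ (finrank F W = m ∧
      ND (ofQuad (Orth.QPlus d F)) W ∧ (Pl (ofQuad (Orth.QPlus d F)) W ↔ True)) := fun W =>
    and_congr_right fun h => and_congr (nd_iff (f := ofQuad (Orth.QPlus d F))).symm (by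
      simp only [Pl, iff_true, quad_totSing_iff, h, and_comm (a := _ = m)]; rfl)
  simp only [h0] at hrΩ ⊢
  rw [← Orth.coe_QPlus, forall_omega_iff hf]
  rcases hp.eq_two_or_odd' with rfl | ho
  · obtain ⟨k, rfl⟩ := hme.two_dvd
    by_cases hp2 : p = 2
    · subst hp2
      have h3 := FiniteField.even_card_of_char_two (ringChar.eq F 2)
      rw [om_char_two_pl hf (by omega) (by omega) (by omega) hN, hε]
      simp only [Nat.even_iff, implies_true, and_true, true_implies]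
      refine ⟨fun h => ?_, fun h s h1 h2 h3 => ⟨min s (2 * (k / 2)), s - min s (2 * (k / 2)), by omega⟩⟩
      obtain ⟨s₁, s₂, h⟩ := h (2 * (d / 2)) (by omega) (by omega) (by omega)
      simp only [true_and]
      omega
    · have h2 := two_ne_zero_of_ne (F := F) p hp2
      have h3 := FiniteField.odd_card_of_char_ne_two (Orth.ringChar_ne_two_of h2)
      rw [om_two_pl hf (by omega) h2 (by omega) (by omega), hasB_iff hf h2 hN, hε,
        sqSign_neg_one_pow_iff h2]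
      simp only [Nat.even_iff, Nat.odd_iff]
      grind
  · have hr2 : r ≠ 2 := by rintro rfl; exact absurd ho (by decide)
    have hrp := hr.resolve_left hr2
    have := hp.two_le
    rw [forall_om_odd hf (by omega) ho, quad_elu_pl (natCast_ne_zero p hrp) hr2 hf hme (by omega)
      (by omega) _ hrΩ hi (hi ▸ hc) hN hε]
    by_cases h1 : Even i
    · rw [if_pos h1] at hc
      subst hc
      have h3 := add_sub_div (i := c) (m := m) (n := 2 * d)
      simp only [← Nat.not_even_iff_odd, Nat.even_iff] at *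
      grind
    · have h3 : m % c = 0 → c ≤ m := fun h => Nat.le_of_dvd (by omega) (Nat.dvd_of_mod_eq_zero h)
      simp only [← Nat.not_even_iff_odd]
      clear h0 hrΩ hi
      grind

end Cfsg.Agent.S5974
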