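import Cfsg.Statements.S5975
import Cfsg.Agent.CLAS.ElusS2

set_option autoImplicit false
open scoped MatrixGroups
open scoped Matrix
open Cfsg

namespace Cfsg.Agent.S5975

open CL.ElusS CL.ExtF CL.Witt

theorem result {F : Type*} [Field F] [Fintype F] {p : ℕ} [Fact p.Prime] [CharP F p] {q : ℕ} (hq : Fintype.card F = q)
    (d : ℕ) (hd : 2 ≤ d) (hT : (d, q) ≠ (2, 2)) (k : ℕ) (hk : k.Prime)
    (K : Subalgebra F (Matrix (Fin d ⊕ Fin d) (Fin d ⊕ Fin d) F)) (hK : Cfsg.Geo.IsFieldSubalgebra k K)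
    (hKf : Cfsg.Geo.IsSelfAdjointFor (Cfsg.sympForm d F) K) (hKalt : ∀ a ∈ K, ∀ v : Fin d ⊕ Fin d → F, Cfsg.sympForm d F (a *ᵥ v) v = 0)
    (r : ℕ) [Fact r.Prime]
    (hΩ : r ∣ (Cfsg.Geo.subalgebraNormalizer K).relIndex (Cfsg.spGL d F)) :
    (∀ x ∈ Cfsg.spGL d F, (∃ z : F, ((x ^ r : GL (Fin d ⊕ Fin d) F) : Matrix (Fin d ⊕ Fin d) (Fin d ⊕ Fin d) F) = z • (1 : Matrix (Fin d ⊕ Fin d) (Fin d ⊕ Fin d) F)) →
      (∀ z : F, (x : Matrix (Fin d ⊕ Fin d) (Fin d ⊕ Fin d) F) ≠ z • (1 : Matrix (Fin d ⊕ Fin d) (Fin d ⊕ Fin d) F)) →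
      ∃ g ∈ Cfsg.spGL d F, g⁻¹ * x * g ∈ Cfsg.Geo.subalgebraNormalizer K) ↔
    (r = 2 ∧ d = 2 ∧ k = 2 ∧ Odd q) := by
  subst hq
  have : Nonempty (Fin d ⊕ Fin d) := ⟨Sum.inl ⟨0, by omega⟩⟩
  obtain ⟨L, _, _, _, _, _, _, h1, -, h3, -, h4⟩ := exists_ext_model hK
  have := Fintype.ofFinite L
  have hτ := Algebra.trace_ne_zero F L
  obtain ⟨H, hH⟩ := exists_trace_form hτ (CL.Sp.spForm d F) (σ := RingHom.id L) fun a u v => by
    obtain ⟨k, hk, h5⟩ := h3 a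
    rw [RingHom.id_apply, h5, h5, CL.Sp.spForm_B, CL.Sp.spForm_B, hKf k hk]
  have hHa : LinearMap.IsAlt H := fun v => CL.SpU.eq_of_forall_dual_mul hτ fun a => by
    obtain ⟨k, hk, h5⟩ := h3 a
    rw [← smul_eq_mul, ← map_smul, ← hH, Form.alt_symm, h5, CL.Sp.spForm_B, hKalt k hk, neg_zero,
      mul_zero, map_zero]
  rw [relIndex_act CL.Root.mem_spGL_iff_O h4] at hΩ
  rw [elu_iff_act CL.Root.mem_spGL_iff_O h4, elu_alt_alt p (h := Form.ofAlt H hHa) hH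
    (CL.Sp.spForm_nondeg d F) (h1 ▸ hk) (CL.Sp.finrank_sp d F) hd hΩ, h1, Nat.odd_iff]
  refine and_congr_right' (and_congr_right' (and_congr_right' ⟨fun h => ?_, ?_⟩))
  · exact FiniteField.odd_card_of_char_ne_two (by rwa [ringChar.eq F p])
  · rintro h rfl
    rw [FiniteField.even_card_of_char_two (ringChar.eq F 2)] at h
    omega

end Cfsg.Agent.S5975
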