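import Cfsg.Statements.S5976
import Cfsg.Agent.CLAS.ElusS2

set_option autoImplicit false
open scoped MatrixGroups
open Cfsg

namespace Cfsg.Agent.S5976

open CL.ElusS CL.ExtF CL.Witt

theorem result {F : Type*} [Field F] [Fintype F] {p : ℕ} [Fact p.Prime] [CharP F p] {q : ℕ} (hq : Fintype.card F = q)
    (hodd : Odd q) (d : ℕ) (hd : 2 ≤ d)
    (K : Subalgebra F (Matrix (Fin d ⊕ Fin d) (Fin d ⊕ Fin d) F)) (hK : Cfsg.Geo.IsFieldSubalgebra 2 K)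
    (hKf : Cfsg.Geo.IsAdjointClosedFor (Cfsg.sympForm d F) K) (hKns : ¬ Cfsg.Geo.IsSelfAdjointFor (Cfsg.sympForm d F) K)
    (r : ℕ) [Fact r.Prime]
    (hΩ : r ∣ (Cfsg.Geo.subalgebraNormalizer K).relIndex (Cfsg.spGL d F)) :
    (∀ x ∈ Cfsg.spGL d F, (∃ z : F, ((x ^ r : GL (Fin d ⊕ Fin d) F) : Matrix (Fin d ⊕ Fin d) (Fin d ⊕ Fin d) F) = z • (1 : Matrix (Fin d ⊕ Fin d) (Fin d ⊕ Fin d) F)) →
      (∀ z : F, (x : Matrix (Fin d ⊕ Fin d) (Fin d ⊕ Fin d) F) ≠ z • (1 : Matrix (Fin d ⊕ Fin d) (Fin d ⊕ Fin d) F)) →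
      ∃ g ∈ Cfsg.spGL d F, g⁻¹ * x * g ∈ Cfsg.Geo.subalgebraNormalizer K) ↔ r = 2 := by
  subst hq
  have : Nonempty (Fin d ⊕ Fin d) := ⟨Sum.inl ⟨0, by omega⟩⟩
  obtain ⟨L, _, _, _, _, _, _, h1, -, h3, h3', h4⟩ := exists_ext_model hK
  have := Fintype.ofFinite L
  have hf := CL.Sp.spForm_nondeg d F
  obtain ⟨τ, hτ, h, ⟨U⟩⟩ := CL.Root.exists_uExt_alt hf h1 (fun k => by
    obtain ⟨A, hA, e⟩ := h3 k
    obtain ⟨A', hA', e'⟩ := hKf A hA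
    obtain ⟨k', hk'⟩ := h3' _ hA'
    exact ⟨k', fun u v => by
      rw [e, hk', CL.Sp.spForm_B, CL.Sp.spForm_B]; exact e' u v⟩) (fun H => hKns fun A hA u v => by
    obtain ⟨k, hk⟩ := h3' _ hA
    rw [← hk, ← hk, ← CL.Sp.spForm_B, ← CL.Sp.spForm_B]; exact H k u v)
  have hL : Fintype.card L = Fintype.card F ^ 2 := by rw [card_ext (F := F), h1]
  obtain rfl := eq_sig hL hτ U.τ_alg U.fix
  rw [relIndex_act CL.Root.mem_spGL_iff_O h4] at hΩ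
  rw [elu_iff_act CL.Root.mem_spGL_iff_O h4]
  refine elu_alt_herm p hL U hf ?_ (by rw [CL.Sp.finrank_sp]; omega) hΩ
  rintro rfl
  rw [Nat.odd_iff, FiniteField.even_card_of_char_two (ringChar.eq F 2)] at hodd
  omega

end Cfsg.Agent.S5976
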