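import Cfsg.Statements.S5979
import Cfsg.Agent.CLAS.ElusL6

set_option autoImplicit false
open scoped MatrixGroups
open Cfsg

namespace Cfsg.Agent.S5979

open CL.ElusL CL.Elus CL.GLn CL.PrimeCl Matrix Polynomial
open scoped Kronecker

theorem finrank_ker_diag {F : Type*} [Field F] {r : ℕ} [Fact r.Prime] {ζ : F}
    (hζ : IsPrimitiveRoot ζ r) {n : ℕ} (a : Fin n → ZMod r) (s : ZMod r) :
    Module.finrank F (LinearMap.ker (toLin' (diagonal fun i => 1 * ζ ^ (a i).val) -
      algebraMap F _ (ζ ^ s.val))) = (Finset.univ.val.map a).count s := by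
  classical
  rw [finrank_ker_diagonal, Multiset.count_map, Fintype.card_subtype,
    show (Finset.univ.filter fun i => 1 * ζ ^ (a i).val = ζ ^ s.val) =
      Finset.univ.filter fun i => s = a i from Finset.filter_congr fun i _ =>
        ⟨fun h => val_pow_inj hζ (by simpa using h.symm), fun h => by simp [← h]⟩]
  rfl

theorem result {F : Type*} [Field F] [Fintype F] {p : ℕ} [Fact p.Prime] [CharP F p] {q : ℕ} (hq : Fintype.card F = q)
    (n a b : ℕ) (hab : n = a * b) (ha : 2 ≤ a) (hlt : a < b) (e : Fin n ≃ Fin a × Fin b) (P : GL (Fin n) F)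
    (r : ℕ) [Fact r.Prime]
    (hΩ : r ∣ (Cfsg.Geo.tensorProductSubgroup a b e P).relIndex (Cfsg.Geo.specialLinear (Fin n) F)) :
    (∀ x ∈ Cfsg.Geo.specialLinear (Fin n) F, (∃ z : F, ((x ^ r : GL (Fin n) F) : Matrix (Fin n) (Fin n) F) = z • (1 : Matrix (Fin n) (Fin n) F)) →
      (∀ z : F, (x : Matrix (Fin n) (Fin n) F) ≠ z • (1 : Matrix (Fin n) (Fin n) F)) →
      ∃ g ∈ Cfsg.Geo.specialLinear (Fin n) F, g⁻¹ * x * g ∈ Cfsg.Geo.tensorProductSubgroup a b e P) ↔
    (r = 2 ∧ a = 2 ∧ Odd q ∧ padicValNat 2 (q - 1) ≤ padicValNat 2 n) := by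
  subst hq hab
  rw [elu_iff_GL]
  have hn : 2 * b ≤ a * b := Nat.mul_le_mul_right _ ha
  have : Nontrivial (Fin (a * b)) := Fin.nontrivial_iff_two_le.2 (by omega)
  have hnec : ∀ y, Into (Cfsg.Geo.tensorProductSubgroup a b e P) y →
      Module.finrank F (LinearMap.ker (toLin' y - 1)) = a * b - 1 → False := fun y hy h => by
    have h1 := hy.tens_dvd (by omega) 1
    rw [map_one, h] at h1
    have := Nat.le_of_dvd one_pos ((Nat.dvd_sub_iff_right (by omega) (dvd_mul_right a b)).1 h1)
    omega
  constructor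
  · intro h
    rcases eq_or_ne r p with rfl | hr
    · obtain ⟨x, x1, x2, x3, x4⟩ := exists_unipotent (F := F) (ι := Fin (a * b)) r
        (μ := 2 ::ₘ Multiset.replicate (a * b - 2) 1) (fun a ha => by
          have := (Fact.out : r.Prime).two_le
          rcases Multiset.mem_cons.1 ha with rfl | ha
          · omega
          · rw [Multiset.eq_of_mem_replicate ha]; omega) (by simp; omega) ⟨2, by simp, by simp⟩
      have := x4.finrank_ker
      rw [map_one] at this
      exact (hnec x (h x x1 ⟨_, x2⟩ x3).into (by rw [this]; simp; omega)).elim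
    have hr0 := cast_ne_zero (F := F) p hr
    by_cases h2 : orderOf ((Fintype.card F : ℕ) : ZMod r) = 1
    · obtain ⟨ζ, hζ⟩ := exists_isPrimitiveRoot ((ord_eq_one_iff Fintype.card_pos).1 h2)
      obtain ⟨d, a1, a2, a3, a4⟩ := exists_diag (ι := Fin (a * b)) hζ
        ({1, -1} + Multiset.replicate (a * b - 2) 0) (by simp; omega) one_ne_zero (by simp)
        ⟨1, by simp, 0, Multiset.mem_add.2 (Or.inr (Multiset.mem_replicate.2 ⟨by omega, rfl⟩)),
          one_ne_zero⟩
      have h3 := finrank_ker_diag hζ d 0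
      have h4 := finrank_ker_diag hζ d 1
      rw [a1] at h3 h4
      have h5 := (h _ a2 ⟨_, a3⟩ a4).into.tens_dvd (by
        rw [ZMod.val_zero, pow_zero, map_one] at h3
        rw [h3]; simp; omega)
      have h6 := h3 ▸ h5 _
      have h7 := h4 ▸ h5 _
      obtain rfl : r = 2 := by
        by_contra h8
        have : (1 : ZMod r) ≠ -1 := fun h9 => two_ne_zero_zmod h8 (by linear_combination h9)
        have := Nat.le_of_dvd one_pos (by simpa [this, Multiset.count_replicate] using h7)
        omega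
      have h8 : a ∣ a * b - 2 := by simpa using h6
      have := Nat.le_of_dvd two_pos ((Nat.dvd_sub_iff_right (by omega) (dvd_mul_right a b)).1 h8)
      refine ⟨rfl, by omega, Nat.odd_iff.2 (FiniteField.odd_card_of_char_ne_two (by
        rw [ringChar.eq F p]; exact hr.symm)), ?_⟩
      by_contra! h1
      obtain ⟨c, hc0, hc⟩ := exists_pow_eq_of_lt h1 (by omega) (w := -1) (by simp)
      obtain ⟨y, y1, y2, y3⟩ := exists_refl (ι := Fin (a * b)) (-1 : F) fun h => hr0 (by
        rw [Nat.cast_ofNat]; linear_combination -h)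
      rw [Fintype.card_fin] at y3
      exact hnec y ((h (c • y) (by simp only [det_smul, Fintype.card_fin, hc, y1]; simp)
        ⟨c ^ 2, by rw [_root_.smul_pow, y2 2 (by simp)]⟩
        (smul_ne_scalar (by omega) (by simp; omega) hc0)).into.of_smul scalars_le_tens hc0) y3
    exfalso
    obtain ⟨Q, hQ⟩ := cycFactors_nonempty (F := F) p hr
    have h3 := ord_le_of_dvd (CL.ElusL.not_dvd_card p hr) (by omega) hΩ
    have h4 := ord_pos (F := F) p hr
    obtain ⟨x, x1, x2, x3, x4⟩ := exists_min_orbit (ι := Fin (a * b)) p hr h2 hQ one_ne_zero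
      (k := a * b - orderOf ((Fintype.card F : ℕ) : ZMod r)) (by simp; omega)
    have x5 := x4.finrank_ker hr0
    obtain ⟨g, hg⟩ : ∃ g : Matrix (Fin b) (Fin b) F, Simil (W := Fin a → Fin b → F) (toLin' x)
        (LinearMap.piMap fun _ => toLin' g) := by
      by_cases h5 : orderOf ((Fintype.card F : ℕ) : ZMod r) < b
      · exact (h x x1 ⟨_, x2⟩ x3).into.tens_nec (by omega)
      obtain ⟨g₁, g₂, hg⟩ := into_tens_iff.1 (h x x1 ⟨_, x2⟩ x3).into
      refine simil_pi_of_smul hg ?_
      have : NeZero b := ⟨by omega⟩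
      have : NeZero a := ⟨by omega⟩
      have h6 := (x4.of_simil hg).pow_eq_one
      rw [← toLin'_pow] at h6
      obtain ⟨z, hz⟩ := exists_eq_smul_of_kronecker (g₁ := (g₁ : Matrix (Fin a) (Fin a) F) ^ r)
        (g₂ := (g₂ : Matrix (Fin b) (Fin b) F) ^ r) (by
          rw [← toLin'.injective (h6.trans toLin'_one.symm)]
          generalize r = j
          induction j with
          | zero => simp
          | succ j ih => rw [pow_succ, pow_succ, pow_succ, mul_kronecker_mul, ih])
      obtain ⟨c, hc, rfl⟩ := typeA_of_not_dvd (fun h7 => h2 ((ord_eq_one_iff Fintype.card_pos).2 h7))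
        g₁.det_ne_zero hz
      obtain ⟨m, k, h7⟩ := exists_hasM hr0 (A := toLin' (c⁻¹ • (g₁ : Matrix (Fin a) (Fin a) F)))
        (by rw [← toLin'_pow, smul_pow_eq_one' hc hz, toLin'_one]; rfl)
      have h8 := h7.finrank_eq hr0
      have h9 : m = 0 := by
        by_contra h9
        have := Nat.le_mul_of_pos_right (ord F r) (Multiset.card_pos.2 h9)
        simp only [Module.finrank_fin_fun] at h8
        change orderOf ((Fintype.card F : ℕ) : ZMod r) ≤ _ at this
        omega
      refine ⟨c, ?_⟩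
      rw [← toLin'.injective (((h7.eq_one_iff hr0).2 h9).trans toLin'_one.symm), smul_smul,
        mul_inv_cancel₀ hc, one_smul]
    have h5 := hg.kd_eq (X ^ r - 1)
    rw [kd_piMap, (kd_eq_finrank_iff _ _).2 (by simp [x4.pow_eq_one])] at h5
    obtain ⟨m, k, h6⟩ := exists_hasM hr0 (A := toLin' g) (by
      have := (kd_eq_finrank_iff (toLin' g) (X ^ r - 1)).1 (by
        simp only [Module.finrank_fin_fun, Finset.sum_const, Finset.card_univ, Fintype.card_fin,
          smul_eq_mul] at h5 ⊢
        exact (Nat.eq_of_mul_eq_mul_left (by omega) h5).symm)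
      simpa [sub_eq_zero] using this)
    have h7 := hg.kd_eq (X - C 1)
    have h8 := h6.finrank_eq hr0
    rw [kd_piMap, x4.kd_eq hr0, h6.kd_eq hr0] at h7
    simp only [Module.finrank_fin_fun, Finset.sum_const, Finset.card_univ, Fintype.card_fin,
      smul_eq_mul] at h7 h8
    change b = orderOf ((Fintype.card F : ℕ) : ZMod r) * _ + _ at h8
    have h9 : orderOf ((Fintype.card F : ℕ) : ZMod r) * 1 =
        orderOf ((Fintype.card F : ℕ) : ZMod r) * (a * m.card) := by
      have : a * b = orderOf ((Fintype.card F : ℕ) : ZMod r) * (a * m.card) + a * k := by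
        rw [h8]; ring
      omega
    have := Nat.eq_one_of_mul_eq_one_right (Nat.eq_of_mul_eq_mul_left h4 h9).symm
    omega
  · rintro ⟨rfl, rfl, hodd, h⟩ x x1 ⟨z, x2⟩ x3
    have hp : p ≠ 2 := by
      rintro rfl
      rw [Nat.odd_iff, FiniteField.even_card_of_char_two (ringChar.eq F 2)] at hodd; omega
    have h2 : (2 : F) ≠ 0 := Ring.two_ne_zero (by rwa [ringChar.eq F p])
    refine Into.intoS_ss ?_ (ss_of_pow_eq p hp.symm (x1 ▸ one_ne_zero) x2)
    by_cases hz : ∃ b : F, b ^ 2 = z
    swap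
    · have hz0 : z ≠ 0 := fun h0 => hz ⟨0, by simp [h0]⟩
      refine into_tens_iff.2 ⟨GeneralLinearGroup.mkOfDetNeZero !![0, z; 1, 0] (by simpa), 1,
        simil_of_sq (fun b hb => hz ⟨b, hb⟩) x2 (by simp) ((pow_eq_smul_iff _ _ _).1 ?_)⟩
      have : (!![0, z; 1, 0] * !![0, z; 1, 0] : Matrix (Fin 2) (Fin 2) F) = z • 1 := by
        ext i j; fin_cases i <;> fin_cases j <;> simp
      rw [sq, ← mul_kronecker_mul]
      simp [this, smul_kronecker]
    obtain ⟨c, rfl⟩ := hz
    have hb : c ≠ 0 := fun h0 => ne_zero_of_pow_eq (x1 ▸ one_ne_zero) x2 (by simp [h0])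
    have h4 := smul_pow_eq_one' hb x2
    refine Into.of_smul scalars_le_tens (inv_ne_zero hb) ?_
    have h5 := congrArg det h4
    rw [det_pow, det_one, det_smul, x1, mul_one, Fintype.card_fin] at h5
    obtain ⟨g, h6, h7⟩ := exists_charpoly_sq h2 (m := b) (by simp) h4 (by
      rw [det_smul, x1, mul_one, Fintype.card_fin]
      exact pow_eq_one_of_le h (inv_ne_zero hb) h5)
    exact into_tens_of_charpoly (det_ne_zero_of_pow two_ne_zero h6)
      (isSemisimple_toLin'_of_pow_eq_one (by simpa using h2) h4)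
      (isSemisimple_toLin'_of_pow_eq_one (by simpa using h2) h6) h7

end Cfsg.Agent.S5979
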