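import Cfsg.Statements.S5980
import Cfsg.Agent.CLAS.ElusT1

set_option autoImplicit false
open scoped MatrixGroups
open Cfsg

namespace Cfsg.Agent.S5980

open CL.ElusS CL.ExtF CL.Witt CL.Tens

theorem result {F : Type*} [Field F] [Fintype F] {p : ℕ} [Fact p.Prime] [CharP F p] {q : ℕ} (hq : Fintype.card F = q)
    (hodd : Odd q) (d : ℕ) (hd : 2 ≤ d) (a b : ℕ) (hab : 2 * d = a * b) (ha : Even a) (ha2 : 2 ≤ a) (hb : 3 ≤ b)
    (e : (Fin d ⊕ Fin d) ≃ Fin a × Fin b) (P : GL (Fin d ⊕ Fin d) F)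
    (f₁ : (Fin a → F) → (Fin a → F) → F) (f₂ : (Fin b → F) → (Fin b → F) → F)
    (hf₁ : Cfsg.Geo.IsSymplecticForm f₁) (hf₂ : Cfsg.Geo.IsSymmetricForm f₂)
    (hS : Cfsg.Geo.IsTensorFormStructure id (Cfsg.sympForm d F) f₁ f₂ e P)
    (r : ℕ) [Fact r.Prime]
    (hΩ : r ∣ (Cfsg.Geo.tensorProductSubgroup a b e P).relIndex (Cfsg.spGL d F)) :
    (∀ x ∈ Cfsg.spGL d F, (∃ z : F, ((x ^ r : GL (Fin d ⊕ Fin d) F) : Matrix (Fin d ⊕ Fin d) (Fin d ⊕ Fin d) F) = z • (1 : Matrix (Fin d ⊕ Fin d) (Fin d ⊕ Fin d) F)) →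
      (∀ z : F, (x : Matrix (Fin d ⊕ Fin d) (Fin d ⊕ Fin d) F) ≠ z • (1 : Matrix (Fin d ⊕ Fin d) (Fin d ⊕ Fin d) F)) →
      ∃ g ∈ Cfsg.spGL d F, g⁻¹ * x * g ∈ Cfsg.Geo.tensorProductSubgroup a b e P) ↔ (r = 2 ∧ a = 2) := by
  subst hq
  have hp : p ≠ 2 := by
    rintro rfl
    rw [Nat.odd_iff, FiniteField.even_card_of_char_two (ringChar.eq F 2)] at hodd; omega
  have h2 : (2 : F) ≠ 0 := Ring.two_ne_zero (by rwa [ringChar.eq F p])
  obtain ⟨c, hc, H⟩ := tensor_form_pure hf₁.bilinear hf₂.bilinear hS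
  let g₁ := ofSymm h2 (c • CL.Tv.bilin hf₂.bilinear) fun x y => by
    simp [CL.Tv.bilin_apply, hf₂.symm x y]
  let g₂ := Form.ofAlt (CL.Tv.bilin hf₁.bilinear) hf₁.alternating
  have hT : TF (CL.Tens.flip (isTensorProduct_pt e P)) (CL.Sp.spForm d F) g₁ g₂ :=
    ⟨fun _ => rfl, fun _ => rfl, fun x hx => by_contra fun x0 => by
      obtain ⟨y, hy⟩ := (hf₂.nondegenerate x x0).2
      exact mul_ne_zero hc hy (hx y), fun x hx => by_contra fun x0 => by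
      obtain ⟨y, hy⟩ := (hf₁.nondegenerate x x0).2
      exact hy (hx y), fun x y x' y' => by
      rw [CL.Sp.spForm_B, LinearMap.flip_apply, LinearMap.flip_apply, H]
      change _ = c * f₂ x x' * f₁ y y'
      ring⟩
  rw [relIndex_act CL.Root.mem_spGL_iff_O (mem_tensor_iff e P)] at hΩ
  rw [elu_iff_act CL.Root.mem_spGL_iff_O (mem_tensor_iff e P), ← kron_flip,
    elu_tens p hT hp (by simpa using hb) (by simpa using ha2) (dvd_card_of_dvd_relIndex le_rfl hΩ),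
    Module.finrank_fin_fun]

end Cfsg.Agent.S5980
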