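import Cfsg.Statements.S5981
import Cfsg.Agent.CLAS.ElusL5

set_option autoImplicit false
open scoped MatrixGroups
open Cfsg

namespace Cfsg.Agent.S5981

open CL.ElusL CL.Elus CL.GLn CL.SpU CL.Witt.Form Matrix

theorem result {F : Type*} [Field F] [Fintype F] {p : ℕ} [Fact p.Prime] [CharP F p] {q : ℕ} (hq : Fintype.card F = q)
    (hodd : Odd q) (n : ℕ) (hn : 3 ≤ n) (Q : (Fin n → F) → F) (hQ : Cfsg.Geo.IsNondegenerateQuadraticForm Q)
    (r : ℕ) [Fact r.Prime] (hgap : ¬ (n = 6 ∧ r = 3))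
    (hΩ : r ∣ (Cfsg.Geo.quadSimilarityGroup Q).relIndex (Cfsg.Geo.specialLinear (Fin n) F)) :
    (∀ x ∈ Cfsg.Geo.specialLinear (Fin n) F, (∃ z : F, ((x ^ r : GL (Fin n) F) : Matrix (Fin n) (Fin n) F) = z • (1 : Matrix (Fin n) (Fin n) F)) →
      (∀ z : F, (x : Matrix (Fin n) (Fin n) F) ≠ z • (1 : Matrix (Fin n) (Fin n) F)) →
      ∃ g ∈ Cfsg.Geo.specialLinear (Fin n) F, g⁻¹ * x * g ∈ Cfsg.Geo.quadSimilarityGroup Q) ↔
    (r = 2 ∨ ((r = 3 ∨ r = 5) ∧ n = r ∧ padicValNat r (q - 1) = 1)) := by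
  subst hq
  rw [elu_iff_GL]
  rw [← CL.FGL.coe_quadOf hQ] at hΩ ⊢
  have hg := CL.FGL.quadOf_nondeg hQ
  have hQ' := (ofQuad_nondeg_iff _).1 hg
  have h2 := CL.FGL.two_ne_zero_of_odd hodd
  have : Nonempty (Fin n) := ⟨⟨0, by omega⟩⟩
  have hr := (Fact.out : r.Prime).two_le
  have hp2 : 2 ≠ p := by
    rintro rfl
    exact h2 (by simpa using CharP.cast_eq_zero F 2)
  rcases eq_or_ne r 2 with rfl | hr2
  · refine iff_of_true ?_ (Or.inl rfl)
    rintro x x1 ⟨z, x2⟩ -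
    refine Into.intoS_ss ?_ (ss_of_pow_eq p hp2 (x1 ▸ one_ne_zero) x2)
    by_cases hz : ∃ b : F, b ^ 2 = z
    · obtain ⟨b, rfl⟩ := hz
      have hb : b ≠ 0 := fun h0 => ne_zero_of_pow_eq (x1 ▸ one_ne_zero) x2 (by simp [h0])
      exact (into_quad_of_sq hQ' h2 (smul_pow_eq_one' hb x2)).of_smul scalars_le_quadSim
        (inv_ne_zero hb)
    · exact into_quad_of_nonsq hQ' h2 (fun b hb => hz ⟨b, hb⟩) x2
  rcases eq_or_ne r p with rfl | hp
  · refine iff_of_false (fun h => ?_) ?_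
    · obtain ⟨x, x1, x2, x3, x4⟩ := exists_unipotent (F := F) (ι := Fin n) r
        (μ := 2 ::ₘ Multiset.replicate (n - 2) 1) (fun a ha => by
          rcases Multiset.mem_cons.1 ha with rfl | ha
          · omega
          · rw [Multiset.eq_of_mem_replicate ha]; omega) (by simp; omega) ⟨2, by simp, by simp⟩
      obtain ⟨g, hg1, hg2⟩ := (h x x1 ⟨_, x2⟩ x3).into
      obtain ⟨y, h1, h3⟩ := B_eq_of_unip r hg ⟨g, quadSim_le_simG hg1, hg2⟩ x2
      have := CL.Orth.even_count_quad h2 ⟨_, hg, h3, fun v => mul_left_cancel₀ h2 (by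
        rw [← quad_B_self, ← quad_B_self, h3])⟩
        (x4.of_simil ((isConj_iff_simil _ _).1 h1)) (j := 2) (by decide) (by decide)
      simp [Multiset.count_replicate] at this
    · rintro (h | ⟨-, -, h⟩)
      · exact hr2 h
      · obtain ⟨k, -, hk⟩ := FiniteField.card F r
        have h3 : r ∣ Fintype.card F := hk ▸ dvd_pow_self r k.ne_zero
        exact (Fact.out : r.Prime).not_dvd_one ((Nat.dvd_sub_iff_right Fintype.card_pos h3).1
          (dvd_of_one_le_padicValNat h.ge))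
  constructor
  · intro h
    obtain ⟨-, -, h1⟩ := ((nec_simG p hg (pow_zero p).symm fun a => (pow_one a).symm).mono
      quadSim_le_simG).of_elu p h hr2 hp (by omega) hgap
      (ord_le_of_dvd (CL.Elus.not_dvd_card p hp) (by omega) hΩ) (by simp)
      fun h1 => not_dvd_quad p hr2 hp h2 (by omega) hQ' h (by simpa using h1) hΩ
    obtain ⟨h3, h4, h5⟩ := h1.resolve_left (by omega)
    exact Or.inr ⟨h4, h3, h5⟩
  · rintro (h | ⟨h1, rfl, h3⟩)
    · exact absurd h hr2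
    · exact elu_of_sym h1 h3 scalars_le_quadSim fun y hy h4 => into_quad_of_odd hQ' p hr2 hp
        (by simpa using (Fact.out : n.Prime).odd_of_ne_two hr2) hy h4

end Cfsg.Agent.S5981
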