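import Cfsg.Statements.S5982
import Cfsg.Agent.CLAS.ElusL5

set_option autoImplicit false
open scoped MatrixGroups
open Cfsg

namespace Cfsg.Agent.S5982

open CL.ElusL CL.Elus CL.GLn CL.SpU CL.Witt.Form Matrix

theorem result {F : Type*} [Field F] [Fintype F] {p : ℕ} [Fact p.Prime] [CharP F p] {q : ℕ} (hq : Fintype.card F = q)
    (q₀ : ℕ) (hq₀ : q = q₀ ^ 2) (n : ℕ) (hn : 3 ≤ n) (f : (Fin n → F) → (Fin n → F) → F) (hf : Cfsg.Geo.IsUnitaryFormPow q₀ f)
    (r : ℕ) [Fact r.Prime] (hr : r = 2 ∨ r ≠ p) (hgap : ¬ (n = 6 ∧ r = 3))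
    (hΩ : r ∣ (Cfsg.Geo.similarityGroup f).relIndex (Cfsg.Geo.specialLinear (Fin n) F)) :
    (∀ x ∈ Cfsg.Geo.specialLinear (Fin n) F, (∃ z : F, ((x ^ r : GL (Fin n) F) : Matrix (Fin n) (Fin n) F) = z • (1 : Matrix (Fin n) (Fin n) F)) →
      (∀ z : F, (x : Matrix (Fin n) (Fin n) F) ≠ z • (1 : Matrix (Fin n) (Fin n) F)) →
      ∃ g ∈ Cfsg.Geo.specialLinear (Fin n) F, g⁻¹ * x * g ∈ Cfsg.Geo.similarityGroup f) ↔
    ((r = 2 ∧ (p = 2 ∨ padicValNat 2 n ≤ padicValNat 2 (q - 1))) ∨ ((r = 3 ∨ r = 5) ∧ n = r ∧ padicValNat r (q₀ - 1) = 1)) := by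
  subst hq
  rw [elu_iff_GL]
  rw [← simG_hermOf hq₀ hf] at hΩ ⊢
  have hg := hermOf_nondeg hq₀ hf
  have : Nonempty (Fin n) := ⟨⟨0, by omega⟩⟩
  have hq0 : 0 < q₀ := (CL.SqField.q_ne_zero hq₀).bot_lt
  have hpow : ∀ {a : AlgebraicClosure F} {s t : ℕ}, a ^ r = 1 → (s : ZMod r) = t → a ^ s = a ^ t :=
    fun ha h => by
      rw [pow_eq_pow_mod _ ha, (ZMod.natCast_eq_natCast_iff' _ _ _).1 h, ← pow_eq_pow_mod _ ha]
  rcases eq_or_ne r 2 with rfl | hr2
  · rcases eq_or_ne p 2 with rfl | hp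
    · exact iff_of_true (elu_two_of_unip (scalars_le_simG _) fun u μ h _ _ =>
        into_herm_of_hasJT hg h) (Or.inl ⟨rfl, Or.inl rfl⟩)
    have hodd : Odd (Fintype.card F) :=
      Nat.odd_iff.2 (FiniteField.odd_card_of_char_ne_two (by rwa [ringChar.eq F p]))
    obtain ⟨m, rfl⟩ : Odd q₀ := by rwa [hq₀, Nat.odd_pow_iff two_ne_zero] at hodd
    have h4 : Fintype.card F = 1 + 4 * (m * m + m) := by rw [hq₀]; ring
    constructor
    · refine fun h => Or.inl ⟨rfl, Or.inr ?_⟩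
      by_contra h1
      obtain ⟨x, z, x1, x2, x3, x4⟩ := exists_typeB' (F := F) (ι := Fin n) (r := 2) (by omega)
        (fun h2 => h1 (by simpa using h2.1))
      obtain ⟨g, ⟨c, hc⟩, hg'⟩ := (h x x1 ⟨z, x2⟩ x3).into
      have h2 := mult_pow hg (fun u v => hc v u) (pow_eq_of_isConj hg' x2)
      obtain ⟨u, hu⟩ := exists_ne (0 : Fin n → F)
      obtain ⟨v, hv⟩ := hg.exists_B_eq hu 1
      have h3 : (c : F) ^ (2 * m + 1) = c := by
        have h5 := hc u v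
        have h6 := hc v u
        beta_reduce at h5 h6
        rw [herm_symm, h6, herm_symm _ u v, hv] at h5
        simpa [CL.Uni.sig_apply] using h5
      have h5 : (c : F) ^ (2 * m) = 1 := mul_right_cancel₀ c.ne_zero (by
        rw [← pow_succ, h3, one_mul])
      have hz := ne_zero_of_pow_eq (x1 ▸ one_ne_zero) x2
      obtain ⟨s, hs⟩ := (FiniteField.isSquare_iff (by rwa [ringChar.eq F p]) hz).2 (by
        rw [CL.Uni.HT_σ, ← pow_succ] at h2
        rw [show Fintype.card F / 2 = (2 * m + 1 + 1) * m by rw [h4]; ring_nf; omega, pow_mul,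
          ← h2, ← pow_mul, h5])
      exact x4 s (by rw [hs, sq])
    · rintro (⟨-, h | h⟩ | ⟨h | h, -⟩) <;> try omega
      rintro x x1 ⟨z, x2⟩ -
      obtain ⟨b, hb, rfl⟩ := typeA_of_noB ⟨by simpa using h, fun _ _ => by omega⟩ x1 x2
      refine ((into_herm_of_pow p hg hp.symm (smul_pow_eq_one' hb x2) (f := id) (fun a ha => ?_)
        (Multiset.map_id _)).of_smul (scalars_le_simG _) (inv_ne_zero hb)).intoS_ss
        (ss_of_pow_eq p hp.symm (x1 ▸ one_ne_zero) x2)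
      rw [pow_succ, pow_mul, ha, one_pow, one_mul, id, inv_eq_of_mul_eq_one_left (sq a ▸ ha)]
  have hp := hr.resolve_left hr2
  constructor
  · intro h
    obtain ⟨e, he⟩ := exists_eq_pow_of_sq hq₀ p
    have hu0 : (q₀ : ZMod r) ≠ 0 := fun h0 => CL.Elus.not_dvd_card (F := F) p hp
      (hq₀ ▸ ((ZMod.natCast_eq_zero_iff _ _).1 h0).trans (dvd_pow_self _ two_ne_zero))
    obtain ⟨-, h2, h1⟩ := (nec_simG p hg he fun a => rfl).of_elu p h hr2 hp (by omega) hgap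
      (ord_le_of_dvd (CL.Elus.not_dvd_card p hp) (by omega) hΩ) (by simpa using hu0)
      fun h1 => not_dvd_herm p hg hr2 hp (by omega) (by simpa using h1) hΩ
    obtain ⟨h3, h4, h5⟩ := h1.resolve_left (by omega)
    exact Or.inr ⟨h4, h3, by
      rwa [hq₀, val_sq_sub_one' (not_dvd_add_one hr2 (by simpa using h2))] at h5⟩
  · rintro (h | ⟨h1, rfl, h3⟩)
    · exact absurd h.1 hr2
    · have h4 := (dvd_sub_one_iff hq0).1 (dvd_of_one_le_padicValNat h3.ge)
      exact elu_of_sym h1 (by rw [hq₀, val_sq_sub_one' (not_dvd_add_one hr2 h4), h3])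
        (scalars_le_simG _) fun y hy h5 => into_herm_of_pow p hg hp hy
        (fun a ha => by rw [hpow ha (t := 1) (by simpa using h4), pow_one]) h5

end Cfsg.Agent.S5982
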