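import Cfsg.Statements.S5984
import Cfsg.Agent.CLAS.Elus8

set_option autoImplicit false
open scoped MatrixGroups
open Cfsg

namespace Cfsg.Agent.S5984

open CL.Elus CL.Witt CL.Witt.Form CL.SpU CL.PrimeCl CL.Root Module Polynomial


/-- Elements of prime order of PSU_n(q) and the stabilizers of pairs of complementary totally singular subspaces. Here `T = PSU_n(q)` is realised through `SU_n(q)`, the matrices of determinant 1 over the field `F` with `q²` elements preserving the hermitian form `Σ uᵢ vᵢ^q`, with `n ≥ 4` even; `D` is a pair of complementary subspaces of dimension `n/2` on each of which the form vanishes identically, and `H` is the subgroup of `SU_n(q)` fixing or interchanging the two members — a subgroup of type GL_{n/2}(q²).2 (maximality is not assumed). Ω is the set of cosets of `H`, so an element of `T` of prime order `r` (`x ∈ SU_n(q)` with `x^r` scalar, `x` not scalar) fixes a point of Ω exactly when some `SU_n(q)`-conjugate of `x` lies in `H`. Let `r` be a prime dividing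 the index of `H`. Then every element of `T` of order `r` fixes a point of Ω if and only if `r = 2`, `q` is odd and `(q + 1)_2 ≤ (n)_2` (2-parts). -/
theorem result {F : Type*} [Field F] [Fintype F] {p : ℕ} [Fact p.Prime] [CharP F p] {q : ℕ} (hq : Fintype.card F = q ^ 2)
    (n : ℕ) (hn : 4 ≤ n) (he : Even n) (D : Fin 2 → Submodule F (Fin n → F)) (hD : Cfsg.Geo.IsMDecomposition (n / 2) D)
    (hDs : ∀ i, Cfsg.Geo.IsTotallySingularFor (Cfsg.hermForm n F q) (D i))
    (r : ℕ) [Fact r.Prime]
    (hΩ : r ∣ (Cfsg.Geo.decompositionStabilizer D).relIndex (Cfsg.GU n F q ⊓ Cfsg.Geo.specialLinear (Fin n) F)) :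
    (∀ x ∈ Cfsg.GU n F q ⊓ Cfsg.Geo.specialLinear (Fin n) F, (∃ z : F, ((x ^ r : GL (Fin n) F) : Matrix (Fin n) (Fin n) F) = z • (1 : Matrix (Fin n) (Fin n) F)) →
      (∀ z : F, (x : Matrix (Fin n) (Fin n) F) ≠ z • (1 : Matrix (Fin n) (Fin n) F)) →
      ∃ g ∈ Cfsg.GU n F q ⊓ Cfsg.Geo.specialLinear (Fin n) F, g⁻¹ * x * g ∈ Cfsg.Geo.decompositionStabilizer D) ↔
    (r = 2 ∧ Odd q ∧ padicValNat 2 (q + 1) ≤ padicValNat 2 n) := by
  have hN : finrank F (Fin n → F) = n := Module.finrank_fin_fun F
  have : Nontrivial (Fin n → F) := Module.nontrivial_of_finrank_pos (R := F) (by omega)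
  have hf := CL.Uni.std_nondeg hq (Fin n)
  have hp : r.Prime := Fact.out
  set f := CL.Uni.std hq (Fin n)
  have h0 : TSPair f (D 0) (D 1) := ⟨(CL.FGL.uni_totSing_iff hq).1 (hDs 0),
    (CL.FGL.uni_totSing_iff hq).1 (hDs 1), isCompl_of_decomp hD⟩
  have hL := fun g => CL.Uni.mem_GU_inf_iff hq (n := n) (g := g)
  have hH : f.SO ≤ f.O := fun g hg => ((mem_SO _).1 hg).1
  have htr := fun U W U' W' => tsPair_trans_SO hf (U := U) (W := W) (U' := U') (W' := W')
  replace hΩ := hΩ.trans (relIndex_decomp_dvd hL hH htr h0)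
  simp only [conj_mem_decomp_iff hL hH htr h0]
  rw [forall_gl_iff hf _ (fun A => LinearMap.det A = 1) (fun x => by
    rw [hL, mem_SO, mem_O, CL.FGL.toLin'_eq]; rfl) r (FixPair f)]
  have hP : ∀ (A : Module.End F (Fin n → F)) (b : F), b ≠ 0 → FixPair f (b • A) → FixPair f A :=
    fun A b hb h => FixPair.of_smul hb h
  have key := fun h7 : r.Coprime (q + 1) => forall_proj_iff hf herm_norm_pow h7 _ (FixPair f)
    (fun A h8 h9 => det_eq_one_of_coprime hf herm_norm_pow h7 h8 h9) hP
  by_cases hrp : r = p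
  · subst hrp
    rw [key (coprime_char_succ (hF := hq) r)]
    obtain ⟨A, h1, h2, h3⟩ := herm_exists_transv hf r (by omega)
    refine iff_of_false (fun h => not_fixPair_of_rank hf h1 h3 (by omega) (h A h1 h2 ?_)) ?_
    · rintro rfl; rw [sub_self, LinearMap.range_zero, finrank_bot] at h3; omega
    · rintro ⟨rfl, h4, -⟩
      exact two_ne_zero_of_odd_q (hF := hq) h4 (CharP.cast_eq_zero F 2)
  have hr : (r : F) ≠ 0 := natCast_ne_zero p hrp
  have h1 := (dvd_q_iff (hF := hq) p).2 hrp
  by_cases hr2 : r = 2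
  · subst hr2
    have h5 : (2 : F) ≠ 0 := by exact_mod_cast hr
    have h6 : Odd q := by rw [Nat.odd_iff]; omega
    simp only [h6, true_and]
    constructor
    · intro h
      by_contra! h7
      obtain ⟨b, A, h8, h9, h10, h11, h12, h13, h14, h15⟩ := herm_exists_refl hf h6 (by omega)
        (by rw [hN]; exact h7)
      exact not_fixPair_of_rank hf h9 h11 (by omega) (hP _ _ h8 (h _ h12 h13 h14 h15))
    · rintro h A hA hd ⟨c, hc⟩ -
      rcases herm_invol_cases hf h6 hA hd hc with ⟨b, h7, h8, -⟩ | ⟨b, h7, h8, h9, h10⟩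
      · obtain ⟨U, W, h9, h10, h11⟩ := anti_pair hf hA h5 h7 h8
        exact fixPair_of_inv hf hA ⟨U, W, h9, inv_of_le_ker_sub h10, inv_of_le_ker_sub h11⟩
      · have h11 := finrank_ker_add_range (b • A - 1)
        have h12 := h10 (by rw [hN]; exact h)
        refine hP _ _ h7 (fixPair_of_inv hf h8 (invol_pair hf h8 h5 (iso_herm f) h9 ?_ h12))
        rw [Nat.even_iff] at *
        omega
  simp only [hr2, false_and, iff_false]
  obtain ⟨j, h2, h3, h4⟩ := herm_card_pair hf hp h1 (by rwa [hN]) hΩ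
  obtain ⟨h5, h6⟩ := herm_c_dvd hr2 (cast_q_ne_zero (hF := hq) hr) h4
  have D := dat_herm (hF := hq) hr hr2
  have h7 : ¬ orderOf (q : ZMod r) % 4 = 0 := by have := h6 h2; omega
  simp only [h6 h2, if_true, OfNat.ofNat_ne_zero, if_false] at D h5
  have h8 : ord F r = orderOf (q : ZMod r) / 2 := by
    rw [ord_sq_eq (hF := hq), if_pos (by have := h6 h2; rw [Nat.even_iff]; omega)]
  have h9 := D.ord_pos
  have h10 := (D.cases.resolve_right (by rintro ⟨-, h, -⟩; omega)).1
  by_cases h11 : r ∣ q + 1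
  · have := hp.two_le
    obtain ⟨A, m, h12, h13, h14, h15, h16, h17⟩ := herm_exists_test hf hr2 h11 hr (h := 1)
      one_pos (by omega) (by omega)
    exact fun h => D.not_fixPair hf h12 h13 h10 h14 h15
      (h A h12 h16 ⟨1, by simpa using h13.pow_eq_one⟩ h17)
  · obtain ⟨P, hP'⟩ := cycFactors_nonempty (F := F) p hrp
    have h12 : ∀ Q ∈ ({P} : Multiset F[X]), Q ∈ CL.GLn.cycFactors F r := by simpa using hP'
    obtain ⟨A, k, h13, h14⟩ := hX_herm hr hf {P} h12 (D.map_eq_of_self h10 h12)
      (by have := Nat.le_of_dvd h2.pos h5; simp; omega)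
    rw [key ((hp.coprime_iff_not_dvd).2 h11)]
    exact fun h => D.not_fixPair hf h13 h14 h10 (by simp) (by simp)
      (h A h13 h14.pow_eq_one fun h => by simpa using (h14.eq_one_iff hr).1 h)

end Cfsg.Agent.S5984
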