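import Cfsg.Statements.S5985
import Cfsg.Agent.CLAS.Elus14

set_option autoImplicit false
open scoped MatrixGroups
open Cfsg

namespace Cfsg.Agent.S5985

open CL CL.Elus CL.Witt CL.Witt.Form CL.SpU CL.PrimeCl CL.Root Module Polynomial


/-- Elements of prime order of Ω⁺_n(q), q even, with no fixed nonsingular 1-space. Here `T = PΩ⁺_n(F)`, `n = 2d ≥ 8`, realised through `Ω⁺_n(q)`, the commutator subgroup of the isometry group of `Q = Σ xᵢyᵢ` over the field `F` with `q` elements; an element of `T` of prime order `r` is an element `x` of `Ω⁺_n(q)` with `x^r` scalar and `x` not scalar; `q` is even (so the centre is trivial). Let Ω be the set of 1-dimensional subspaces spanned by a vector `v` with `Q(v) ≠ 0`, and let `r` be a prime dividing their number. Then every element of `T` of order `r` fixes some nonsingular 1-space if and only if `r = 2` and `n ≡ 2 (mod 4)` (that is, `d` is odd). -/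
theorem result {F : Type*} [Field F] [Fintype F] {p : ℕ} [Fact p.Prime] [CharP F p] {q : ℕ} (hq : Fintype.card F = q)
    (hp : p = 2) (d : ℕ) (hd : 4 ≤ d) (r : ℕ) [Fact r.Prime]
    (hrΩ : r ∣ Nat.card {W : Submodule F (Fin d ⊕ Fin d → F) // Module.finrank F ↥W = 1 ∧ ∃ v ∈ W, Cfsg.quadFormPlus d F v ≠ 0}) :
    (∀ x : GL (Fin d ⊕ Fin d) F, x ∈ Cfsg.Geo.omegaGL (Cfsg.quadFormPlus d F) →
      (∃ z : F, ((x ^ r : GL (Fin d ⊕ Fin d) F) : Matrix (Fin d ⊕ Fin d) (Fin d ⊕ Fin d) F) = z • (1 : Matrix (Fin d ⊕ Fin d) (Fin d ⊕ Fin d) F)) →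
      (∀ z : F, (x : Matrix (Fin d ⊕ Fin d) (Fin d ⊕ Fin d) F) ≠ z • (1 : Matrix (Fin d ⊕ Fin d) (Fin d ⊕ Fin d) F)) →
      ∃ W : Submodule F (Fin d ⊕ Fin d → F), (Module.finrank F ↥W = 1 ∧ ∃ v ∈ W, Cfsg.quadFormPlus d F v ≠ 0) ∧ W.map (Matrix.toLin' (x : Matrix (Fin d ⊕ Fin d) (Fin d ⊕ Fin d) F)) ≤ W) ↔ (r = 2 ∧ Odd d) := by
  have hf : (ofQuad (Orth.QPlus d F)).Nondeg := (ofQuad_nondeg_iff _).2 (Orth.QPlus_nondeg d F)
  have hN : finrank F (Fin d ⊕ Fin d → F) = 2 * d := by simp; omega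
  have hε : Pl (ofQuad (Orth.QPlus d F)) ⊤ ↔ True := iff_true_intro (pl_top_iff.2 (Orth.isPlus_QPlus d))
  subst hp hq
  simp only [← Orth.coe_QPlus, ← ofQuad_q] at hrΩ ⊢
  rw [forall_omega_iff hf]
  by_cases hr2 : r = 2
  · subst hr2
    rw [om_char_two_pts hf (by omega) hN, hε]
    simp
  refine iff_of_false (not_om_odd_pts hf (by omega) hr2 ?_) (by simp [hr2])
  rw [card_pts] at hrΩ
  have h1 := FormCount.card_quadFormPlus_eq (F := F) rfl d 1
  rw [if_neg one_ne_zero, zero_add] at h1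
  rw [oy, hN, if_pos (even_two_mul d), if_pos (hε.2 trivial), Nat.mul_div_cancel_left _ two_pos]
  exact (((Fact.out : r.Prime).dvd_mul).1 (h1 ▸ hrΩ)).resolve_right fun h =>
    not_dvd_card 2 hr2 ((Fact.out : r.Prime).dvd_of_dvd_pow h)

end Cfsg.Agent.S5985
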