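import Cfsg.Statements.S5986
import Cfsg.Agent.CLAS.Elus14

set_option autoImplicit false
open scoped MatrixGroups
open Cfsg

namespace Cfsg.Agent.S5986

open CL CL.Elus CL.Witt CL.Witt.Form CL.SpU CL.PrimeCl CL.Root Module Polynomial


/-- Elements of prime order of Ω⁻_n(q), q even, with no fixed nonsingular 1-space. Here `T = PΩ⁻_n(F)`, `n = 2d ≥ 8`, realised through `Ω⁻_n(q)`, the commutator subgroup of the isometry group of `Q = Σ_{i<d−1} xᵢyᵢ + z₁² + a z₁z₂ + b z₂²` with `z₁² + a z₁z₂ + b z₂²` anisotropic, over the field `F` with `q` elements; an element of `T` of prime order `r` is an element `x` of `Ω⁻_n(q)` with `x^r` scalar and `x` not scalar; `q` is even (so the centre is trivial). Let Ω be the set of 1-dimensional subspaces spanned by a vector `v` with `Q(v) ≠ 0`, and let `r` be a prime dividing their number. Then every element of `T` of order `r` fixes some nonsingular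 1-space if and only if `r = 2`. -/
theorem result {F : Type*} [Field F] [Fintype F] {p : ℕ} [Fact p.Prime] [CharP F p] {q : ℕ} (hq : Fintype.card F = q)
    (hp : p = 2) (d : ℕ) (hd : 4 ≤ d) (a b : F) (hab : ∀ x y : F, x ^ 2 + a * x * y + b * y ^ 2 = 0 → x = 0 ∧ y = 0) (r : ℕ) [Fact r.Prime]
    (hrΩ : r ∣ Nat.card {W : Submodule F ((Fin (d - 1) ⊕ Fin (d - 1)) ⊕ Fin 2 → F) // Module.finrank F ↥W = 1 ∧ ∃ v ∈ W, Cfsg.quadFormMinus (d - 1) F a b v ≠ 0}) :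
    (∀ x : GL ((Fin (d - 1) ⊕ Fin (d - 1)) ⊕ Fin 2) F, x ∈ Cfsg.Geo.omegaGL (Cfsg.quadFormMinus (d - 1) F a b) →
      (∃ z : F, ((x ^ r : GL ((Fin (d - 1) ⊕ Fin (d - 1)) ⊕ Fin 2) F) : Matrix ((Fin (d - 1) ⊕ Fin (d - 1)) ⊕ Fin 2) ((Fin (d - 1) ⊕ Fin (d - 1)) ⊕ Fin 2) F) = z • (1 : Matrix ((Fin (d - 1) ⊕ Fin (d - 1)) ⊕ Fin 2) ((Fin (d - 1) ⊕ Fin (d - 1)) ⊕ Fin 2) F)) →
      (∀ z : F, (x : Matrix ((Fin (d - 1) ⊕ Fin (d - 1)) ⊕ Fin 2) ((Fin (d - 1) ⊕ Fin (d - 1)) ⊕ Fin 2) F) ≠ z • (1 : Matrix ((Fin (d - 1) ⊕ Fin (d - 1)) ⊕ Fin 2) ((Fin (d - 1) ⊕ Fin (d - 1)) ⊕ Fin 2) F)) →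
      ∃ W : Submodule F ((Fin (d - 1) ⊕ Fin (d - 1)) ⊕ Fin 2 → F), (Module.finrank F ↥W = 1 ∧ ∃ v ∈ W, Cfsg.quadFormMinus (d - 1) F a b v ≠ 0) ∧ W.map (Matrix.toLin' (x : Matrix ((Fin (d - 1) ⊕ Fin (d - 1)) ⊕ Fin 2) ((Fin (d - 1) ⊕ Fin (d - 1)) ⊕ Fin 2) F)) ≤ W) ↔ r = 2 := by
  have hf : (ofQuad (Orth.QMinus (d - 1) F a b)).Nondeg :=
    (ofQuad_nondeg_iff _).2 (Orth.QMinus_nondeg _ F hab)
  have hN : finrank F ((Fin (d - 1) ⊕ Fin (d - 1)) ⊕ Fin 2 → F) = 2 * d := by simp; omega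
  have hε : Pl (ofQuad (Orth.QMinus (d - 1) F a b)) ⊤ ↔ False :=
    iff_false_intro fun h => Orth.not_isPlus_QMinus hab (pl_top_iff.1 h)
  subst hp hq
  simp only [← Orth.coe_QMinus, ← ofQuad_q] at hrΩ ⊢
  rw [forall_omega_iff hf]
  by_cases hr2 : r = 2
  · subst hr2
    rw [om_char_two_pts hf (by omega) hN, hε]
    simp
  refine iff_of_false (not_om_odd_pts hf (by omega) hr2 ?_) hr2
  rw [card_pts] at hrΩ
  have h1 := FormCount.card_quadFormMinus_eq (F := F) rfl (d - 1) hab 1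
  obtain ⟨e, rfl⟩ : ∃ e, d = e + 2 := ⟨d - 2, by omega⟩
  have h2 : (Fintype.card F + 1) * Fintype.card F ^ (e + 1) + Fintype.card F ^ 2 *
      ((Fintype.card F ^ (e + 1) - 1) * Fintype.card F ^ e) =
      (Fintype.card F ^ (e + 2) + 1) * Fintype.card F ^ (e + 1) := by
    zify [Nat.one_le_pow _ _ (Fintype.card_pos (α := F))]; ring
  rw [if_neg one_ne_zero] at h1
  rw [oy, hN, if_pos (even_two_mul _), if_neg hε.1, Nat.mul_div_cancel_left _ two_pos]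
  exact (((Fact.out : r.Prime).dvd_mul).1 ((h1.trans h2) ▸ hrΩ)).resolve_right fun h =>
    not_dvd_card 2 hr2 ((Fact.out : r.Prime).dvd_of_dvd_pow h)

end Cfsg.Agent.S5986
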