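import Cfsg.Statements.S5988
import Cfsg.Agent.CLAS.Elus14

set_option autoImplicit false
open scoped MatrixGroups
open Cfsg

namespace Cfsg.Agent.S5988

open CL CL.Elus CL.Witt CL.Witt.Form CL.SpU CL.PrimeCl CL.Root Module Polynomial


/-- Elements of prime order of PΩ⁺_n(q) with no fixed elliptic `m`-space. Here `T = PΩ⁺_n(F)`, `n = 2d ≥ 8`, realised through `Ω⁺_n(q)`, the commutator subgroup of the isometry group of `Q = Σ xᵢyᵢ` over the field `F` with `q` elements; an element of `T` of prime order `r` is an element `x` of `Ω⁺_n(q)` with `x^r` scalar and `x` not scalar; a nondegenerate `m`-space (even `m`) is a subspace on which the polar form of `Q` is nondegenerate; it is hyperbolic if it contains an `m/2`-dimensional subspace on which `Q` vanishes, elliptic otherwise. Let `m` be even with `2 ≤ m < n/2` and let `r` be a prime dividing the number of elliptic `m`-spaces; for `r ≠ p` let `i` be the multiplicative order of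 `q` modulo `r`, `c = i` for `i` even and `c = 2i` for `i` odd, and write `k = n mod c`, `ℓ = m mod i`, `ℓ' = m mod c`, `n' = ⌊n/i⌋`, `m' = ⌊m/i⌋`, `t = (r−1)/i`. Then every element of `T` of order `r` fixes some elliptic `m`-space if and only if one of: (i) `r = 2 ≠ p` and either `n ≡ 0 (mod 4)`, `q ≡ 3 (mod 4)` and `m ≡ 2 (mod 4)`, or `n ≡ 2 (mod 4)` and `q ≢ 1 (mod 8)`; (ii) `r ≠ p` odd, `i` odd, `c ≤ m` and `k > ℓ' > 0`; (iii) `r ≠ p` odd, `i` even, and either `k = 0` and (`n/i` odd, or `ℓ' = 0` and `m/i` odd), or `i ≤ m` and (`k > ℓ' > 0`, or `k = ℓ' > 0` and `(n + m − 2k)/i` odd, or `k > ℓ' = 0` and `m/i` odd). (For `r = p` there is always an element of order `p` fixing no elliptic `m`-space.) -/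
theorem result {F : Type*} [Field F] [Fintype F] {p : ℕ} [Fact p.Prime] [CharP F p] {q : ℕ} (hq : Fintype.card F = q)
    (d m : ℕ) (hd : 4 ≤ d) (hm : 2 ≤ m) (hme : Even m) (hmd : m < d)
    (r : ℕ) [Fact r.Prime]
    (hrΩ : r ∣ Nat.card {W : Submodule F (Fin d ⊕ Fin d → F) // Module.finrank F ↥W = m ∧ Cfsg.Geo.IsNondegenerateOn (QuadraticMap.polar (Cfsg.quadFormPlus d F)) W ∧ ¬ Cfsg.Geo.IsPlusTypeOn (Cfsg.quadFormPlus d F) W})
    (i c : ℕ) (hi : i = orderOf (q : ZMod r)) (hc : c = if Even i then i else 2 * i) :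
    (∀ x : GL (Fin d ⊕ Fin d) F, x ∈ Cfsg.Geo.omegaGL (Cfsg.quadFormPlus d F) →
      (∃ z : F, ((x ^ r : GL (Fin d ⊕ Fin d) F) : Matrix (Fin d ⊕ Fin d) (Fin d ⊕ Fin d) F) = z • (1 : Matrix (Fin d ⊕ Fin d) (Fin d ⊕ Fin d) F)) →
      (∀ z : F, (x : Matrix (Fin d ⊕ Fin d) (Fin d ⊕ Fin d) F) ≠ z • (1 : Matrix (Fin d ⊕ Fin d) (Fin d ⊕ Fin d) F)) →
      ∃ W : Submodule F (Fin d ⊕ Fin d → F), (Module.finrank F ↥W = m ∧ Cfsg.Geo.IsNondegenerateOn (QuadraticMap.polar (Cfsg.quadFormPlus d F)) W ∧ ¬ Cfsg.Geo.IsPlusTypeOn (Cfsg.quadFormPlus d F) W) ∧ W.map (Matrix.toLin' (x : Matrix (Fin d ⊕ Fin d) (Fin d ⊕ Fin d) F)) ≤ W) ↔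
    ((r = 2 ∧ p ≠ 2 ∧ ((Even d ∧ q % 4 = 3 ∧ m % 4 = 2) ∨ (Odd d ∧ q % 8 ≠ 1))) ∨
     (r ≠ p ∧ 2 < r ∧ Odd i ∧ c ≤ m ∧ 0 < m % c ∧ m % c < (2 * d) % c) ∨
     (r ≠ p ∧ 2 < r ∧ Even i ∧
       (((2 * d) % c = 0 ∧ (Odd ((2 * d) / i) ∨ (m % c = 0 ∧ Odd (m / i)))) ∨
        (i ≤ m ∧ ((0 < m % c ∧ m % c < (2 * d) % c) ∨
                  (0 < m % c ∧ m % c = (2 * d) % c ∧ Odd ((2 * d + m - 2 * ((2 * d) % c)) / i)) ∨
                  (m % c = 0 ∧ 0 < (2 * d) % c ∧ Odd (m / i))))))) := by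
  have hf : (ofQuad (Orth.QPlus d F)).Nondeg := (ofQuad_nondeg_iff _).2 (Orth.QPlus_nondeg d F)
  have hN : finrank F (Fin d ⊕ Fin d → F) = 2 * d := by simp; omega
  have hε : Pl (ofQuad (Orth.QPlus d F)) ⊤ ↔ True := iff_true_intro (pl_top_iff.2 (Orth.isPlus_QPlus d))
  have hp := (Fact.out : r.Prime)
  subst hq
  simp only [← Orth.coe_QPlus, nondegOn_iff, not_plusOn_iff] at hrΩ ⊢
  rw [forall_omega_iff hf]
  by_cases hrp : r = p
  · subst hrp
    refine iff_of_false (fun h => ?_) (by simp; omega)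
    obtain ⟨U, s₁, s₂, h3, h4, h5, h6⟩ := (unip_of_proj h).aType hf (by omega) (fun U h => h.2.1)
      (s := 2 * (d / 2)) (by omega) (even_two_mul _) (by omega) fun _ => hε.2 trivial
    have h7 := pl_perp hf h3.2.1 (hN ▸ even_two_mul d) (h3.1 ▸ hme)
    have := Submodule.finrank_add_eq_of_isCompl h3.2.1.isCompl
    simp only [hε, h3.2.2, true_iff, false_iff] at h7
    simp only [Nat.even_iff, h3.1, h3.2.2, h7, imp_false] at h5 h6 this hme
    omega
  rcases hp.eq_two_or_odd' with rfl | ho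
  · have h2 := two_ne_zero_of_ne (F := F) p (Ne.symm hrp)
    have h3 := FiniteField.odd_card_of_char_ne_two (Orth.ringChar_ne_two_of h2)
    obtain ⟨k, rfl⟩ := hme.two_dvd
    rw [om_two_pl hf (by omega) h2 (by omega) (by omega), hasB_iff hf h2 hN, hε,
      sqSign_neg_one_pow_iff h2]
    simp only [Nat.even_iff, Nat.odd_iff]
    grind
  · have hr2 : r ≠ 2 := by rintro rfl; exact absurd ho (by decide)
    have := hp.two_le
    rw [forall_om_odd hf (by omega) ho, quad_elu_pl (natCast_ne_zero p hrp) hr2 hf hme (by omega)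
      (by omega) _ hrΩ hi (hi ▸ hc) hN hε]
    by_cases h1 : Even i
    · rw [if_pos h1] at hc
      subst hc
      have h3 := add_sub_div (i := c) (m := m) (n := 2 * d)
      simp only [← Nat.not_even_iff_odd, Nat.even_iff] at *
      grind
    · simp only [← Nat.not_even_iff_odd]
      grind

end Cfsg.Agent.S5988
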