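import Cfsg.Statements.S5991
import Cfsg.Agent.CLAS.Elus13

set_option autoImplicit false
open scoped MatrixGroups
open Cfsg

namespace Cfsg.Agent.S5991

open CL CL.Elus CL.Witt CL.Witt.Form CL.SpU CL.PrimeCl CL.Root Module Polynomial


/-- Elements of prime order of PΩ⁻_n(q), q odd, with no fixed nondegenerate `m`-space of odd dimension. Here `T = PΩ⁻_n(F)`, `n = 2d ≥ 8`, realised through `Ω⁻_n(q)`, the commutator subgroup of the isometry group of `Q = Σ_{i<d−1} xᵢyᵢ + z₁² + a z₁z₂ + b z₂²` with `z₁² + a z₁z₂ + b z₂²` anisotropic, over the field `F` with `q` elements; an element of `T` of prime order `r` is an element `x` of `Ω⁻_n(q)` with `x^r` scalar and `x` not scalar; `q` and `m` are odd, `1 ≤ m < n/2`. The nondegenerate `m`-spaces fall into two isometry classes, each an orbit of `T`, with equivalent actions; fix one such space `W₀` and let Ω be the set of nondegenerate `m`-spaces isometric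 to `W₀`. Let `r` be a prime dividing the size of Ω; for `r ≠ p` let `i` be the multiplicative order of `q` modulo `r`, `c = i` for `i` even and `c = 2i` for `i` odd, and write `k = n mod c`, `ℓ = m mod i`, `ℓ' = m mod c`, `n' = ⌊n/i⌋`, `m' = ⌊m/i⌋`, `t = (r−1)/i`. Then every element of `T` of order `r` fixes a member of Ω if and only if one of: (i) `r = 2` and (`n ≡ 0 (mod 4)` or `q ≢ 7 (mod 8)`); (ii) `r ≠ p` odd, `i` odd, and `k = 0` or (`c ≤ m` and `k > ℓ' > 0`); (iii) `r ≠ p` odd, `i` even, and either `k = 0` and `n/i` even, or `k > 0`, `i ≤ m` and `k > ℓ' > 0`. (For `r = p` there is always an element of order `p` fixing no member of Ω.) -/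
theorem result {F : Type*} [Field F] [Fintype F] {p : ℕ} [Fact p.Prime] [CharP F p] {q : ℕ} (hq : Fintype.card F = q)
    (hodd : Odd q) (d m : ℕ) (hd : 4 ≤ d) (hm : Odd m) (hmd : m < d) (a b : F) (hab : ∀ x y : F, x ^ 2 + a * x * y + b * y ^ 2 = 0 → x = 0 ∧ y = 0)
    (W₀ : Submodule F ((Fin (d - 1) ⊕ Fin (d - 1)) ⊕ Fin 2 → F)) (hW₀ : Module.finrank F ↥W₀ = m ∧ Cfsg.Geo.IsNondegenerateOn (QuadraticMap.polar (Cfsg.quadFormMinus (d - 1) F a b)) W₀)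
    (r : ℕ) [Fact r.Prime]
    (hrΩ : r ∣ Nat.card {W : Submodule F ((Fin (d - 1) ⊕ Fin (d - 1)) ⊕ Fin 2 → F) // Module.finrank F ↥W = m ∧ Cfsg.Geo.IsNondegenerateOn (QuadraticMap.polar (Cfsg.quadFormMinus (d - 1) F a b)) W ∧ Cfsg.Geo.AreIsometricFor (Cfsg.quadFormMinus (d - 1) F a b) W W₀})
    (i c : ℕ) (hi : i = orderOf (q : ZMod r)) (hc : c = if Even i then i else 2 * i) :
    (∀ x : GL ((Fin (d - 1) ⊕ Fin (d - 1)) ⊕ Fin 2) F, x ∈ Cfsg.Geo.omegaGL (Cfsg.quadFormMinus (d - 1) F a b) →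
      (∃ z : F, ((x ^ r : GL ((Fin (d - 1) ⊕ Fin (d - 1)) ⊕ Fin 2) F) : Matrix ((Fin (d - 1) ⊕ Fin (d - 1)) ⊕ Fin 2) ((Fin (d - 1) ⊕ Fin (d - 1)) ⊕ Fin 2) F) = z • (1 : Matrix ((Fin (d - 1) ⊕ Fin (d - 1)) ⊕ Fin 2) ((Fin (d - 1) ⊕ Fin (d - 1)) ⊕ Fin 2) F)) →
      (∀ z : F, (x : Matrix ((Fin (d - 1) ⊕ Fin (d - 1)) ⊕ Fin 2) ((Fin (d - 1) ⊕ Fin (d - 1)) ⊕ Fin 2) F) ≠ z • (1 : Matrix ((Fin (d - 1) ⊕ Fin (d - 1)) ⊕ Fin 2) ((Fin (d - 1) ⊕ Fin (d - 1)) ⊕ Fin 2) F)) →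
      ∃ W : Submodule F ((Fin (d - 1) ⊕ Fin (d - 1)) ⊕ Fin 2 → F), (Module.finrank F ↥W = m ∧ Cfsg.Geo.IsNondegenerateOn (QuadraticMap.polar (Cfsg.quadFormMinus (d - 1) F a b)) W ∧ Cfsg.Geo.AreIsometricFor (Cfsg.quadFormMinus (d - 1) F a b) W W₀) ∧ W.map (Matrix.toLin' (x : Matrix ((Fin (d - 1) ⊕ Fin (d - 1)) ⊕ Fin 2) ((Fin (d - 1) ⊕ Fin (d - 1)) ⊕ Fin 2) F)) ≤ W) ↔
    ((r = 2 ∧ (Even d ∨ q % 8 ≠ 7)) ∨
     (r ≠ p ∧ 2 < r ∧ Odd i ∧ ((2 * d) % c = 0 ∨ (c ≤ m ∧ 0 < m % c ∧ m % c < (2 * d) % c))) ∨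
     (r ≠ p ∧ 2 < r ∧ Even i ∧ (((2 * d) % c = 0 ∧ Even ((2 * d) / i)) ∨ (0 < (2 * d) % c ∧ i ≤ m ∧ 0 < m % c ∧ m % c < (2 * d) % c)))) := by
  have hf : (ofQuad (Orth.QMinus (d - 1) F a b)).Nondeg :=
    (ofQuad_nondeg_iff _).2 (Orth.QMinus_nondeg _ F hab)
  have hN : finrank F ((Fin (d - 1) ⊕ Fin (d - 1)) ⊕ Fin 2 → F) = 2 * d := by simp; omega
  have hε : Pl (ofQuad (Orth.QMinus (d - 1) F a b)) ⊤ ↔ False :=
    iff_false_intro fun h => Orth.not_isPlus_QMinus hab (pl_top_iff.1 h)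
  have h2 := FGL.two_ne_zero_of_odd (hq ▸ hodd)
  have hp := (Fact.out : r.Prime)
  subst hq
  simp only [← Orth.coe_QMinus, nondegOn_iff] at hrΩ hW₀ ⊢
  simp only [isomFor_iff h2 _ hW₀] at hrΩ ⊢
  rw [forall_omega_iff hf]
  rcases hp.eq_two_or_odd' with rfl | ho
  · rw [om_two_ds hf (by omega) h2 hm.pos (by omega), hasB_iff hf h2 hN, hε]
    simp only [Nat.even_iff, Nat.odd_iff] at hm hodd ⊢
    grind
  have hr2 : r ≠ 2 := by rintro rfl; exact absurd ho (by decide)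
  by_cases hrp : r = p
  · subst hrp
    refine iff_of_false (fun h => ?_) (by simp [hr2])
    by_cases h0 : d % 2 = 0
    · exact (unip_of_proj h).not_ds hf (by omega) hr2 (fun U h => h) (by omega) hm
    rw [Nat.odd_iff] at hm
    by_cases h1 : m % 4 = 1
    · have := (unip_of_proj h).test hf (by omega) hr2 (fun U h => ⟨h.1, h.2.1⟩) (by omega)
        (a := 3) (t := d / 2 - 1) (by omega) (Or.inr rfl) (by simp; omega)
      simp at this
      omega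
    · obtain ⟨U, s₁, s₂, h3, h4, h5, h6⟩ := (unip_of_proj h).aType hf (by omega) (fun U h => h.2.1)
        (s := 2 * (d / 2)) (by omega) (even_two_mul _) (by omega) (by omega)
      have := Submodule.finrank_add_eq_of_isCompl h3.2.1.isCompl
      simp only [Nat.even_iff, h3.1] at h5 h6 this
      omega
  · have := hp.two_le
    rw [forall_om_odd hf (by omega) ho, quad_elu_ds (natCast_ne_zero p hrp) hr2 hf h2 hm
      (hN ▸ even_two_mul d) (by omega) _ hrΩ hi (hi ▸ hc) hN hε]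
    simp only [← Nat.not_even_iff_odd]
    grind

end Cfsg.Agent.S5991
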