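import Cfsg.Statements.S5992
import Cfsg.Agent.CLAS.Elus12

set_option autoImplicit false
open scoped MatrixGroups
open Cfsg

namespace Cfsg.Agent.S5992

open CL CL.Elus CL.Witt CL.Witt.Form CL.SpU CL.PrimeCl CL.Root Module Polynomial


/-- Elements of prime order r ≠ p of Ω_n(q), nq odd, with no fixed hyperbolic `m`-space. Here `T = Ω_n(F)`, `n = 2d+1 ≥ 7`, `q` odd, realised as the commutator subgroup of the isometry group of `Q = x₀² + Σ xᵢyᵢ` over the field `F` with `q` elements (trivial centre, so its elements of prime order `r` are used directly); a nondegenerate `m`-space (even `m`) is a subspace on which the polar form of `Q` is nondegenerate; it is hyperbolic if it contains an `m/2`-dimensional subspace on which `Q` vanishes, elliptic otherwise. Let `m` be even with `2 ≤ m ≤ n − 1` (no restriction `m < n/2`) and let `r ≠ p` be a prime dividing the number of hyperbolic `m`-spaces; for `r ≠ p` let `i` be the multiplicative order of `q` modulo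 `r`, `c = i` for `i` even and `c = 2i` for `i` odd, and write `k = n mod c`, `ℓ' = m mod c`. Then every element of `T` of order `r` fixes some hyperbolic `m`-space if and only if `r = 2`, or `r` is odd and one of: (i) `i` odd, `c ≤ m` and either `k > ℓ' > 0` or `ℓ' = 0`; (ii) `i` even, `i ≤ m`, `k > ℓ'`, and `m/i` even whenever `ℓ' = 0`. (`r = p` is not covered by this statement.) -/
theorem result {F : Type*} [Field F] [Fintype F] {p : ℕ} [Fact p.Prime] [CharP F p] {q : ℕ} (hq : Fintype.card F = q) (hqodd : Odd q)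
    (d m : ℕ) (hd : 3 ≤ d) (hm : 2 ≤ m) (hme : Even m) (hmn : m ≤ 2 * d)
    (r : ℕ) [Fact r.Prime] (hrp : r ≠ p)
    (hrΩ : r ∣ Nat.card {W : Submodule F (Unit ⊕ (Fin d ⊕ Fin d) → F) // Module.finrank F ↥W = m ∧ Cfsg.Geo.IsNondegenerateOn (QuadraticMap.polar (Cfsg.quadFormOdd d F)) W ∧ Cfsg.Geo.IsPlusTypeOn (Cfsg.quadFormOdd d F) W})
    (i c : ℕ) (hi : i = orderOf (q : ZMod r)) (hc : c = if Even i then i else 2 * i) :
    (∀ x : GL (Unit ⊕ (Fin d ⊕ Fin d)) F, x ∈ Cfsg.Geo.omegaGL (Cfsg.quadFormOdd d F) → orderOf x = r →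
      ∃ W : Submodule F (Unit ⊕ (Fin d ⊕ Fin d) → F), (Module.finrank F ↥W = m ∧ Cfsg.Geo.IsNondegenerateOn (QuadraticMap.polar (Cfsg.quadFormOdd d F)) W ∧ Cfsg.Geo.IsPlusTypeOn (Cfsg.quadFormOdd d F) W) ∧ W.map (Matrix.toLin' (x : Matrix (Unit ⊕ (Fin d ⊕ Fin d)) (Unit ⊕ (Fin d ⊕ Fin d)) F)) ≤ W) ↔
    (r = 2 ∨
     (2 < r ∧ Odd i ∧ c ≤ m ∧ (m % c = 0 ∨ (0 < m % c ∧ m % c < (2 * d + 1) % c))) ∨
     (2 < r ∧ Even i ∧ i ≤ m ∧ m % c < (2 * d + 1) % c ∧ (0 < m % c ∨ Even (m / i)))) := by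
  have h2 := FGL.two_ne_zero_of_odd (hq ▸ hqodd)
  have hf : (ofQuad (Orth.QOdd d F)).Nondeg := FGL.QOdd_nondeg' (hq ▸ hqodd)
  have hN : finrank F (Unit ⊕ (Fin d ⊕ Fin d) → F) = 2 * d + 1 := by simp; omega
  have hO : Odd (finrank F (Unit ⊕ (Fin d ⊕ Fin d) → F)) := hN ▸ odd_two_mul_add_one d
  have hε : Pl (ofQuad (Orth.QOdd d F)) ⊤ ↔ False :=
    iff_false_intro fun h => by simpa [hN, parity_simps] using h.even
  have hp := (Fact.out : r.Prime)
  subst hq
  simp only [← Orth.coe_QOdd, nondegOn_iff, plusOn_iff_true] at hrΩ ⊢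
  rw [forall_omega_order_iff hf]
  rcases hp.eq_two_or_odd' with rfl | ho
  · obtain ⟨k, rfl⟩ := hme.two_dvd
    rw [forall_om_two' hf (by omega) h2 hO, om_two_pl hf (by omega) h2 (by omega) (by omega)]
    simp [not_hasB hO]
  · have hr2 : r ≠ 2 := by rintro rfl; exact absurd ho (by decide)
    have := hp.two_le
    rw [forall_om_odd' hf (by omega) ho, quad_elu_pl (natCast_ne_zero p hrp) hr2 hf hme (by omega)
      (by omega) _ hrΩ hi (hi ▸ hc) hN hε]
    have h0 := two_dvd_of_eq_ite hc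
    have h3 := Nat.mod_mod_of_dvd (2 * d + 1) h0
    have h4 := Nat.mod_mod_of_dvd m h0
    simp only [← Nat.not_even_iff_odd]
    grind

end Cfsg.Agent.S5992
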