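import Cfsg.Statements.S5997
import Cfsg.Agent.CLAS.PGL2Subfield

set_option autoImplicit false
open scoped MatrixGroups
open Cfsg

namespace Cfsg.Agent.S5997

open CL.Dk CL.PGL2 Matrix
open scoped MatrixGroups

theorem mk_eq {F : Type*} [Field F] (g : GL (Fin 2) F) :
    ProjGenLinGroup.mk g = ofMat (g : Matrix (Fin 2) (Fin 2) F) g.det_ne_zero :=
  (ofMat_coe g _).symm

theorem mem_SL {F : Type*} [Field F] {g : GL (Fin 2) F} :
    g ∈ Cfsg.Geo.specialLinear (Fin 2) F ↔ (g : Matrix (Fin 2) (Fin 2) F).det = 1 := by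
  rw [Cfsg.Geo.specialLinear, MonoidHom.mem_ker, Units.ext_iff]
  rfl

theorem exists_lift {F : Type*} [Field F] {h : PGL(2, F)} (hh : h ∈ pslIn F) :
    ∃ g ∈ Cfsg.Geo.specialLinear (Fin 2) F, ProjGenLinGroup.mk g = h := by
  rw [← range_sl2pgl] at hh
  obtain ⟨g, rfl⟩ := hh
  exact ⟨SpecialLinearGroup.toGL g, mem_SL.2 g.det_coe, rfl⟩

theorem exists_QB {F : Type*} [Field F] (h2 : (2 : F) ≠ 0) (R : Subgroup (GL (Fin 2) F))
    (hR : Nonempty (↥R ≃* QuaternionGroup 2)) : ∃ B : QB F, ∀ g : GL (Fin 2) F,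
      g ∈ Cfsg.Geo.subgroupNormalizer R ↔ ProjGenLinGroup.mk g ∈ octa B := by
  obtain ⟨e⟩ := hR
  let ρ : QuaternionGroup 2 →* GL (Fin 2) F := R.subtype.comp e.symm.toMonoidHom
  have hρ : Function.Injective ρ := R.subtype_injective.comp e.symm.injective
  let σ : QuaternionGroup 2 →* Matrix (Fin 2) (Fin 2) F := (Units.coeHom _).comp ρ
  have hσ : Function.Injective σ := Units.val_injective.comp hρ
  have hz : σ (.a 2) = -1 := by
    have h1 : CL.GL2.IsScal (σ (.a 2)) := by
      by_contra h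
      have := CL.GL2.commute_of_commute h (x := σ (.a 1)) (y := σ (.xa 0))
        (by rw [← map_mul, ← map_mul]; congr 1) (by rw [← map_mul, ← map_mul]; congr 1)
      rw [← map_mul, ← map_mul] at this
      exact absurd (hσ this) (by decide)
    obtain ⟨c, hc⟩ := CL.GL2.isScal_iff.1 h1
    have h3 : σ (.a 2) * σ (.a 2) = 1 := by rw [← map_mul, ← map_one σ]; congr 1
    rw [hc] at h3
    have h4 : c * c = 1 := by simpa using congrFun (congrFun h3 0) 0
    rcases mul_self_eq_one_iff.1 h4 with rfl | rfl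
    · rw [one_smul, ← map_one σ] at hc
      exact absurd (hσ hc) (by decide)
    · rw [hc, neg_smul, one_smul]
  let B : QB F := mkQB (σ (.a 1)) (σ (.xa 0)) (by rw [← map_mul, ← hz]; congr 1)
    (by rw [← map_mul, ← hz]; congr 1)
    (by rw [← neg_one_mul, ← hz, ← map_mul, ← map_mul, ← map_mul]; congr 1)
  have qi : qm B (qq 0 1 0 0) = σ (.a 1) := by simp [qm_apply, B, mkQB]
  have qj : qm B (qq 0 0 1 0) = σ (.xa 0) := by simp [qm_apply, B, mkQB]
  have hi : ProjGenLinGroup.mk (ρ (.a 1)) = vI B := by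
    rw [mk_eq, vI, qp_eq_ofMat h2 B nI]
    simp only [qi]
    rfl
  have hj : ProjGenLinGroup.mk (ρ (.xa 0)) = vJ B := by
    rw [mk_eq, vJ, qp_eq_ofMat h2 B nJ]
    simp only [qj]
    rfl
  have di : ρ (.a 1) ∈ Cfsg.Geo.specialLinear (Fin 2) F := by
    have := det_qm h2 B (qq 0 1 0 0)
    rw [qi, normSq_qq] at this
    exact mem_SL.2 (this.trans (by simp))
  have dj : ρ (.xa 0) ∈ Cfsg.Geo.specialLinear (Fin 2) F := by
    have := det_qm h2 B (qq 0 0 1 0)
    rw [qj, normSq_qq] at this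
    exact mem_SL.2 (this.trans (by simp))
  have hmem : ∀ u, ρ u ∈ R := fun u => (e.symm u).2
  have hT : R = (fourQ B).comap ProjGenLinGroup.mk ⊓ Cfsg.Geo.specialLinear (Fin 2) F := by
    apply le_antisymm
    · intro g hg
      have key : ∀ u : QuaternionGroup 2, ∃ n : Fin 4,
          u = .a 1 ^ (n : ℕ) ∨ u = .a 1 ^ (n : ℕ) * .xa 0 := by decide
      have a1 : ρ (.a 1) ∈ (fourQ B).comap ProjGenLinGroup.mk ⊓
        Cfsg.Geo.specialLinear (Fin 2) F := Subgroup.mem_inf.2 ⟨by
          rw [Subgroup.mem_comap, hi]; exact vI_mem_fourQ B, di⟩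
      have a2 : ρ (.xa 0) ∈ (fourQ B).comap ProjGenLinGroup.mk ⊓
        Cfsg.Geo.specialLinear (Fin 2) F := Subgroup.mem_inf.2 ⟨by
          rw [Subgroup.mem_comap, hj]; exact vJ_mem_fourQ B, dj⟩
      have e1 : g = ρ (e ⟨g, hg⟩) := by simp [ρ]
      obtain ⟨n, h | h⟩ := key (e ⟨g, hg⟩) <;> rw [e1, h]
      · rw [map_pow]
        exact pow_mem a1 _
      · rw [map_mul, map_pow]
        exact mul_mem (pow_mem a1 _) a2
    · rintro g ⟨hg, hg'⟩
      have key : ∀ h ∈ R, h ∈ Cfsg.Geo.specialLinear (Fin 2) F →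
          ProjGenLinGroup.mk g = ProjGenLinGroup.mk h → g ∈ R := by
        intro h h1 h3 h4
        rw [mk_eq, mk_eq, eq_comm, ofMat_eq_iff] at h4
        obtain ⟨c, hc⟩ := h4
        have h5 := congrArg det hc
        rw [det_smul, mem_SL.1 hg', mem_SL.1 h3, Fintype.card_fin, mul_one, sq] at h5
        rcases mul_self_eq_one_iff.1 h5 with rfl | rfl
        · rw [one_smul] at hc
          exact Units.ext hc ▸ h1
        · have : g = ρ (.a 2) * h := Units.ext (by
            rw [← hc, Units.val_mul, show ((ρ (.a 2) : GL (Fin 2) F) : Matrix (Fin 2) (Fin 2) F) =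
              -1 from hz]
            simp)
          rw [this]
          exact mul_mem (hmem _) h1
      rcases (mem_fourQ h2 B).1 hg with h | h | h | h
      · exact key 1 (one_mem _) (one_mem _) (by rw [h, map_one])
      · exact key _ (hmem _) di (by rw [h, hi])
      · exact key _ (hmem _) dj (by rw [h, hj])
      · exact key _ (mul_mem (hmem (.a 1)) (hmem (.xa 0))) (mul_mem di dj) (by
          rw [h, map_mul, hi, hj, vI_mul_vJ h2])
  have hV : R.map ProjGenLinGroup.mk = fourQ B := by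
    apply le_antisymm
    · rw [Subgroup.map_le_iff_le_comap]
      exact hT.le.trans inf_le_left
    · rw [fourQ_le_iff]
      exact ⟨⟨_, hmem _, hi⟩, ⟨_, hmem _, hj⟩⟩
  refine ⟨B, fun g => ⟨fun hg => ?_, fun hg => ?_⟩⟩
  · rw [octa, ← hV]
    exact Subgroup.le_normalizer_map _ ⟨g, hg, rfl⟩
  · have : (Cfsg.Geo.specialLinear (Fin 2) F).Normal := MonoidHom.normal_ker _
    rw [Cfsg.Geo.subgroupNormalizer, ← cjs_eq_iff_mem_normalizer, hT, cjs_inf,
      cjs_of_normal g (Cfsg.Geo.specialLinear (Fin 2) F)]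
    congr 1
    ext x
    rw [mem_cjs, Subgroup.mem_comap, Subgroup.mem_comap, map_mul, map_mul, map_inv, ← mem_cjs,
      cjs_eq_iff_mem_normalizer.2 hg]

/-- Elements of prime order of PSL_2(p) and the normalizer of a quaternion subgroup. Here `T = PSL_2(F)` for the field `F` with `p` elements, `p ≥ 5` prime; `R` is a subgroup of GL_2(F) isomorphic to the quaternion group of order 8 (an absolutely irreducible 2-group of symplectic type), and `H` is the subgroup of matrices of determinant 1 normalizing `R` — a subgroup of type 2^{1+2}.O₂⁻(2), isomorphic modulo scalars to A₄ or S₄ (maximality is not assumed). Ω is the set of cosets of `H` in `T`, so an element of `T` of prime order `r` (a matrix `x` of determinant 1 with `x^r` scalar, `x` not scalar) fixes a point of Ω exactly when some conjugate of `x` by a matrix of determinant 1 normalizes `R`. Let `r` be a prime dividing the index of `H`. Then every element of `T` of order `r` fixes a point of Ω if and only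 if `r = 2` or `r = 3`. -/
theorem result {F : Type*} [Field F] [Fintype F] {p : ℕ} [Fact p.Prime] [CharP F p] (hF : Fintype.card F = p) (hp : 5 ≤ p)
    (R : Subgroup (GL (Fin 2) F)) (hR : Nonempty (↥R ≃* QuaternionGroup 2))
    (r : ℕ) [Fact r.Prime]
    (hΩ : r ∣ (Cfsg.Geo.subgroupNormalizer R).relIndex (Cfsg.Geo.specialLinear (Fin 2) F)) :
    (∀ x ∈ Cfsg.Geo.specialLinear (Fin 2) F, (∃ z : F, ((x ^ r : GL (Fin 2) F) : Matrix (Fin 2) (Fin 2) F) = z • (1 : Matrix (Fin 2) (Fin 2) F)) →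
      (∀ z : F, (x : Matrix (Fin 2) (Fin 2) F) ≠ z • (1 : Matrix (Fin 2) (Fin 2) F)) →
      ∃ g ∈ Cfsg.Geo.specialLinear (Fin 2) F, g⁻¹ * x * g ∈ Cfsg.Geo.subgroupNormalizer R) ↔ (r = 2 ∨ r = 3) := by
  have hq : Nat.card F = p := by rw [Nat.card_eq_fintype_card, hF]
  have hodd := odd_card_of_char_ne_two (F := F) p (by omega)
  have h2 := two_ne_zero_of_odd hodd
  obtain ⟨B, hB⟩ := exists_QB h2 R hR
  have scal : ∀ x : GL (Fin 2) F, (∃ z : F, (x : Matrix (Fin 2) (Fin 2) F) = z • 1) ↔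
      ProjGenLinGroup.mk x = 1 := fun x => by
    rw [mk_eq, ofMat_eq_one_iff_isScal, CL.GL2.isScal_iff]
  constructor
  · intro h
    by_cases hr2 : r = 2
    · exact Or.inl hr2
    have h1 : r ∣ Nat.card (pslIn F) := by
      have h3 := hΩ.trans (Subgroup.index_dvd_card _)
      rw [Cfsg.Geo.specialLinear, ← CL.SL.range_toGL_eq_ker_det,
        card_range_of_injective SpecialLinearGroup.toGL_injective, CL.SL.card_SL_two,
        ← gcd_mul_card_pslIn, gcd_two_of_odd hodd] at h3
      exact (((Fact.out : r.Prime).dvd_mul.1 h3).resolve_left fun h =>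
        hr2 ((Nat.prime_dvd_prime_iff_eq Fact.out Nat.prime_two).1 h))
    obtain ⟨⟨y, hy⟩, hy'⟩ := exists_prime_orderOf_dvd_card' r h1
    rw [← Subgroup.orderOf_coe] at hy'
    obtain ⟨x, hx, rfl⟩ := exists_lift hy
    simp only at hy'
    obtain ⟨g, -, hg⟩ := h x hx ((scal _).2 (by rw [map_pow, ← hy', pow_orderOf_eq_one]))
      fun z hz => by
        rw [(scal x).1 ⟨z, hz⟩, orderOf_one] at hy'
        exact (Fact.out : r.Prime).one_lt.ne hy'
    have h3 := Subgroup.orderOf_dvd_natCard _ ((hB _).1 hg)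
    rw [card_octa h2, map_mul, map_mul, map_inv, ← SemiconjBy.orderOf_eq (ProjGenLinGroup.mk g)⁻¹
      (x := ProjGenLinGroup.mk x) (by simp [SemiconjBy, mul_assoc]), hy',
      show 24 = 2 ^ 3 * 3 by rfl] at h3
    rcases (Fact.out : r.Prime).dvd_mul.1 h3 with h4 | h4
    · exact Or.inl ((Nat.prime_dvd_prime_iff_eq Fact.out Nat.prime_two).1
        ((Fact.out : r.Prime).dvd_of_dvd_pow h4))
    · exact Or.inr ((Nat.prime_dvd_prime_iff_eq Fact.out Nat.prime_three).1 h4)
  · intro hr x hx h1 h3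
    have h4 : ProjGenLinGroup.mk x ≠ 1 := fun e => by
      obtain ⟨z, hz⟩ := (scal x).2 e
      exact h3 z hz
    rw [scal, map_pow] at h1
    have key : ∃ h ∈ pslIn F, h * ProjGenLinGroup.mk x * h⁻¹ ∈ octa B := by
      rcases hr with rfl | rfl
      · obtain ⟨h, h5, h6⟩ := exists_conj_pslIn_of_involution hodd h4 (vI_ne_one h2 B)
          ((sq _).symm.trans h1) (vI_mul_vI h2 B)
          (by rw [mk_eq]; exact ofMat_mem_pslIn_of_det _ (mem_SL.1 hx))
          (fourQ_le_pslIn h2 B (vI_mem_fourQ B))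
        exact ⟨h, h5, h6 ▸ fourQ_le_octa B (vI_mem_fourQ B)⟩
      · obtain ⟨h, h5, h6⟩ := exists_conj_pslIn_of_order_three p (by omega) h4 (vW_ne_one h2 B) h1
          (vW_pow_three h2 B)
        exact ⟨h, h5, h6 ▸ vW_mem_octa h2 B⟩
    obtain ⟨h, h5, h6⟩ := key
    obtain ⟨g, hg, rfl⟩ := exists_lift h5
    exact ⟨g⁻¹, inv_mem hg, (hB _).2 (by simpa using h6)⟩

end Cfsg.Agent.S5997
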