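import Cfsg.Statements.S5998
import Cfsg.Agent.CLAS.Heis3

set_option autoImplicit false
open scoped MatrixGroups
open Cfsg

namespace Cfsg.Agent.S5998

open CL.Heis3 CL.ElusL

/-- Elements of prime order of PSL_3(p), p ≡ 1 (mod 3), and the normalizer of an extraspecial subgroup of order 27. Here `T = PSL_3(F)` for the field `F` with `p` elements, `p` a prime with `p ≡ 1 (mod 3)`; `R` is a non-abelian subgroup of GL_3(F) of order 27 and exponent 3 (an extraspecial group 3^{1+2}, acting absolutely irreducibly), and `H` is the subgroup of matrices of determinant 1 normalizing `R` — a subgroup of type 3^{1+2}.Sp₂(3) (maximality is not assumed). Ω is the set of cosets of `H` in `T`, so an element of `T` of prime order `r` (a matrix `x` of determinant 1 with `x^r` scalar, `x` not scalar) fixes a point of Ω exactly when some conjugate of `x` by a matrix of determinant 1 normalizes `R`. Let `r` be a prime dividing the index of `H`. Then every element of `T` of order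 `r` fixes a point of Ω if and only if `r = 2`, or `r = 3` and `p ≡ 1 (mod 9)`. -/
theorem result {F : Type*} [Field F] [Fintype F] {p : ℕ} [Fact p.Prime] [CharP F p] (hF : Fintype.card F = p) (hp3 : p % 3 = 1)
    (R : Subgroup (GL (Fin 3) F)) (hR : Nat.card R = 27) (hRe : Monoid.exponent R = 3) (hRna : ¬ IsMulCommutative R)
    (r : ℕ) [Fact r.Prime]
    (hΩ : r ∣ (Cfsg.Geo.subgroupNormalizer R).relIndex (Cfsg.Geo.specialLinear (Fin 3) F)) :
    (∀ x ∈ Cfsg.Geo.specialLinear (Fin 3) F, (∃ z : F, ((x ^ r : GL (Fin 3) F) : Matrix (Fin 3) (Fin 3) F) = z • (1 : Matrix (Fin 3) (Fin 3) F)) →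
      (∀ z : F, (x : Matrix (Fin 3) (Fin 3) F) ≠ z • (1 : Matrix (Fin 3) (Fin 3) F)) →
      ∃ g ∈ Cfsg.Geo.specialLinear (Fin 3) F, g⁻¹ * x * g ∈ Cfsg.Geo.subgroupNormalizer R) ↔ (r = 2 ∨ (r = 3 ∧ p % 9 = 1)) := by
  have : Fact (Nat.Prime 3) := ⟨by norm_num⟩
  obtain ⟨ω₀, hω⟩ := exists_isPrimitiveRoot (F := F) (r := 3) (by omega)
  have h₀ : W ω₀ := ⟨by
      have := hω.geom_sum_eq_zero (by norm_num)
      simp only [Finset.sum_range_succ, Finset.sum_range_zero] at this
      linear_combination this,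
    by exact_mod_cast cast_ne_zero (F := F) (r := 3) p (by omega)⟩
  obtain ⟨ω, h, g, h1, h2⟩ := exists_std h₀ hR hRe hRna
  have hp2 : p % 2 = 1 := (Fact.out : p.Prime).eq_two_or_odd.resolve_left (by omega)
  have := amb_top.elusive p (by omega) dvd_rfl (fun h81 => ?_) h hR (Subgroup.mem_top g) h1 h2 r
    (by rwa [top_inf_eq])
  · rw [top_inf_eq, hF] at this
    rw [this]; omega
  rw [top_inf_eq, card_specialLinear] at h81
  have hc := CL.SL.card_SL_mul (F := F) 3 (by norm_num)
  rw [hF, Fin.prod_univ_three] at hc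
  rw [hF]
  obtain ⟨s, rfl⟩ : ∃ s, p = s + 1 := ⟨p - 1, by omega⟩
  have e0 : (s + 1) ^ 3 - (s + 1) ^ ((0 : Fin 3) : ℕ) = s * (s ^ 2 + 3 * s + 3) :=
    Nat.sub_eq_of_eq_add (by simp; ring)
  have e1 : (s + 1) ^ 3 - (s + 1) ^ ((1 : Fin 3) : ℕ) = s * ((s + 1) * (s + 2)) :=
    Nat.sub_eq_of_eq_add (by simp; ring)
  have e2 : (s + 1) ^ 3 - (s + 1) ^ ((2 : Fin 3) : ℕ) = (s + 1) ^ 2 * s :=
    Nat.sub_eq_of_eq_add (by simp; ring)
  rw [e0, e1, e2, Nat.add_sub_cancel, ← mul_assoc, mul_comm s] at hc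
  rw [Nat.eq_of_mul_eq_mul_right (Nat.pos_of_ne_zero (by
    rintro rfl; exact Nat.not_prime_one Fact.out)) hc, ← ZMod.natCast_eq_zero_iff] at h81
  push_cast at h81
  have := (by decide +kernel : ∀ t : ZMod 81, t.val % 3 = 0 →
    t * (t ^ 2 + 3 * t + 3) * (t * ((t + 1) * (t + 2))) * (t + 1) ^ 2 = 0 → t.val % 9 = 0) s
    (by rw [ZMod.val_natCast]; omega) h81
  rw [ZMod.val_natCast] at this
  omega

end Cfsg.Agent.S5998
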