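import Cfsg.Statements.S5999
import Cfsg.Agent.CLAS.Heis3

set_option autoImplicit false
open scoped MatrixGroups
open Cfsg

namespace Cfsg.Agent.S5999

open CL.Heis3 CL.ElusL

/-- Elements of prime order of PSU_3(p), p ≡ 2 (mod 3), and the normalizer of an extraspecial subgroup of order 27. Here `T = PSU_3(p)` for a prime `p ≥ 5` with `p ≡ 2 (mod 3)`, realised through `SU_3(p)`, the matrices of determinant 1 over the field `F` with `p²` elements preserving the hermitian form `Σ uᵢvᵢ^p`; `R` is a non-abelian subgroup of order 27 and exponent 3 of the full unitary group of that form (an extraspecial group 3^{1+2}, acting absolutely irreducibly), and `H` is the subgroup of `SU_3(p)` normalizing `R` — a subgroup of type 3^{1+2}.Sp₂(3) (maximality is not assumed). Ω is the set of cosets of `H`, so an element of `T` of prime order `r` (`x ∈ SU_3(p)` with `x^r` scalar, `x` not scalar) fixes a point of Ω exactly when some `SU_3(p)`-conjugate of `x` normalizes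 `R`. Let `r` be a prime dividing the index of `H`. Then every element of `T` of order `r` fixes a point of Ω if and only if `r = 2`, or `r = 3` and `p ≡ 8 (mod 9)`. -/
theorem result {F : Type*} [Field F] [Fintype F] {p : ℕ} [Fact p.Prime] [CharP F p] (hF : Fintype.card F = p ^ 2) (hp : 5 ≤ p) (hp3 : p % 3 = 2)
    (R : Subgroup (GL (Fin 3) F)) (hRU : R ≤ Cfsg.GU 3 F p) (hR : Nat.card R = 27) (hRe : Monoid.exponent R = 3) (hRna : ¬ IsMulCommutative R)
    (r : ℕ) [Fact r.Prime]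
    (hΩ : r ∣ (Cfsg.Geo.subgroupNormalizer R).relIndex (Cfsg.GU 3 F p ⊓ Cfsg.Geo.specialLinear (Fin 3) F)) :
    (∀ x ∈ Cfsg.GU 3 F p ⊓ Cfsg.Geo.specialLinear (Fin 3) F, (∃ z : F, ((x ^ r : GL (Fin 3) F) : Matrix (Fin 3) (Fin 3) F) = z • (1 : Matrix (Fin 3) (Fin 3) F)) →
      (∀ z : F, (x : Matrix (Fin 3) (Fin 3) F) ≠ z • (1 : Matrix (Fin 3) (Fin 3) F)) →
      ∃ g ∈ Cfsg.GU 3 F p ⊓ Cfsg.Geo.specialLinear (Fin 3) F, g⁻¹ * x * g ∈ Cfsg.Geo.subgroupNormalizer R) ↔ (r = 2 ∨ (r = 3 ∧ p % 9 = 8)) := by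
  have : Fact (Nat.Prime 3) := ⟨by norm_num⟩
  obtain ⟨s, rfl⟩ : ∃ s, p = s + 1 := ⟨p - 1, by omega⟩
  have e1 : (s + 1) ^ 2 - 1 = (s + 1 + 1) * s := Nat.sub_eq_of_eq_add (by ring)
  obtain ⟨ω₀, hω⟩ := exists_isPrimitiveRoot (F := F) (r := 3) (by
    rw [hF, e1]; exact Dvd.dvd.mul_right (by omega) _)
  have h₀ : W ω₀ := ⟨by
      have := hω.geom_sum_eq_zero (by norm_num)
      simp only [Finset.sum_range_succ, Finset.sum_range_zero] at this
      linear_combination this,
    by exact_mod_cast cast_ne_zero (F := F) (r := 3) (s + 1) (by omega)⟩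
  obtain ⟨ω, h, g, h1, h2⟩ := exists_std h₀ hR hRe hRna
  obtain ⟨g', hg, e⟩ := exists_unitary hF h (by omega) (hRU h1) (hRU h2)
  have hp2 : (s + 1) % 2 = 1 := (Fact.out : (s + 1).Prime).eq_two_or_odd.resolve_left (by omega)
  rw [(amb_GU hF).elusive (s + 1) (by omega) (by rw [hF, e1]; exact Dvd.intro _ rfl) (fun h81 => ?_) h hR hg
    (e _ ▸ h1) (e _ ▸ h2) r hΩ]
  · omega
  rw [card_SU3' hF, e1, ← ZMod.natCast_eq_zero_iff] at h81
  push_cast at h81
  have := (by decide +kernel : ∀ t : ZMod 81, t.val % 3 = 1 →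
    (t + 1) ^ 3 * ((t + 1 + 1) * t * ((t + 1) ^ 3 + 1)) = 0 → t.val % 9 = 7) s
    (by rw [ZMod.val_natCast]; omega) h81
  rw [ZMod.val_natCast] at this
  omega

end Cfsg.Agent.S5999
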