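import Cfsg.Statements.S6000
import Cfsg.Agent.CLAS.Pauli4

set_option autoImplicit false
open scoped MatrixGroups
open Cfsg

namespace Cfsg.Agent.S6000

open CL CL.Pauli CL.Elus CL.Witt CL.Witt.Form CL.SpU CL.PrimeCl CL.GLn Module Polynomial Matrix


/-- Elements of prime order of PSL_4(p), p ≡ 1 (mod 4), and the normalizer of a 2-group of symplectic type of order 2⁶. Here `T = PSL_4(F)` for the field `F` with `p` elements, `p` a prime with `p ≡ 1 (mod 4)`; `R` is an absolutely irreducible subgroup of GL_4(F) of order 2⁶ that is a 2-group of symplectic type of exponent 4 with centre of order 4 (the central product of the scalars of order 4 with an extraspecial group 2^{1+4}), and `H` is the subgroup of matrices of determinant 1 normalizing `R` — a subgroup of type 2⁴.Sp₄(2) (maximality is not assumed). Ω is the set of cosets of `H` in `T`, so an element of `T` of prime order `r` (a matrix `x` of determinant 1 with `x^r` scalar, `x` not scalar) fixes a point of Ω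 exactly when some conjugate of `x` by a matrix of determinant 1 normalizes `R`. Let `r` be a prime dividing the index of `H`. Then every element of `T` of order `r` fixes a point of Ω if and only if `r = 2`, or `r = 3` and `p ≡ 2 (mod 3)`, or `r = 5` and `p ≡ ±2 (mod 5)` (`p` has multiplicative order 4 modulo 5). -/
theorem result {F : Type*} [Field F] [Fintype F] {p : ℕ} [Fact p.Prime] [CharP F p] (hF : Fintype.card F = p) (hp4 : p % 4 = 1)
    (R : Subgroup (GL (Fin 4) F)) (hR : Cfsg.Geo.IsLinearSymplecticTypeData 2 R) (hR6 : Nat.card R = 2 ^ 6)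
    (r : ℕ) [Fact r.Prime]
    (hΩ : r ∣ (Cfsg.Geo.subgroupNormalizer R).relIndex (Cfsg.Geo.specialLinear (Fin 4) F)) :
    (∀ x ∈ Cfsg.Geo.specialLinear (Fin 4) F, (∃ z : F, ((x ^ r : GL (Fin 4) F) : Matrix (Fin 4) (Fin 4) F) = z • (1 : Matrix (Fin 4) (Fin 4) F)) →
      (∀ z : F, (x : Matrix (Fin 4) (Fin 4) F) ≠ z • (1 : Matrix (Fin 4) (Fin 4) F)) →
      ∃ g ∈ Cfsg.Geo.specialLinear (Fin 4) F, g⁻¹ * x * g ∈ Cfsg.Geo.subgroupNormalizer R) ↔ (r = 2 ∨ (r = 3 ∧ p % 3 = 2) ∨ (r = 5 ∧ orderOf (p : ZMod 5) = 4)) := by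
  have hp : p.Prime := Fact.out
  have h2 : (2 : F) ≠ 0 := FGL.two_ne_zero_of_odd (hF ▸ Nat.odd_iff.2 (by omega))
  have hZ : Nat.card (Subgroup.center R) = 4 := by
    obtain ⟨_, _, -, -, h | h | h⟩ := hR.field
    · exact absurd h.1 (by decide)
    · exact h.2.2.1
    · simp at h
  have h := pau_of h2 (by simp) hR.symplecticType hR.absIrred (by rw [hR6, hZ]; rfl)
  rw [card_center_eq] at hZ
  obtain ⟨γ, hγ⟩ := h.exists_fr (Or.inl (h.exists_j hZ))
  have hf : ∀ s ∈ R, ∀ u v, (zeroForm F (Fin 4 → F)).B (s.1 *ᵥ u) (s.1 *ᵥ v) =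
    (zeroForm F (Fin 4 → F)).B u v := fun _ _ _ _ => rfl
  have hI := fun A => (cj_sl (F := F) (ι := Fin 4)).isom A fun _ _ => rfl
  have hu : ∀ x : GL (Fin 4) F, IsUnit (toLin' x.1) := fun x => x.isUnit.map toLinAlgEquiv'
  have key : ∀ k : ℕ, k.Prime → k ≠ p → orderOf (p : ZMod k) = k - 1 → k ≠ 2 →
      (Uniq (zeroForm F (Fin 4 → F)) k → ∀ A : Module.End F (Fin 4 → F), A ^ k = 1 → A ≠ 1 →
        Hit (Geo.specialLinear _ F) R A) → El (Geo.specialLinear _ F) R k := by
    intro k hk h3 h4 h5 h6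
    have := Fact.mk hk
    have h7 : (k : F) ≠ 0 := by
      rwa [Ne, CharP.cast_eq_zero_iff F p, Nat.prime_dvd_prime_iff_eq hp hk, eq_comm]
    refine el_of fun x _ c h8 h9 => ?_
    rcases typeA_or_typeB (hu x) h8 with ⟨b, h10, h11⟩ | h10
    · exact .of_smul _ _ (inv_ne_zero h10) (h6 (uniq_of_ord _ h7 (by rwa [ord, hF])) _ h11
        (smul_ne_one h9 h10))
    have h11 := dvd_card_sub_one_of_irreducible h10
    rw [hF, ← ZMod.natCast_eq_zero_iff, Nat.cast_pred hp.pos, sub_eq_zero] at h11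
    have := hk.two_le
    rw [h11, orderOf_one] at h4
    omega
  refine h.el_iff (fun x => pow_four_of_sl (by simp)) hΩ (el_of fun x h1 c h3 h4 => ?_)
    ⟨fun h1 => ?_, fun h1 => key 3 (by decide) (by omega) ?_ (by decide) fun hU A =>
      h.hit_three hf cj_sl hγ (hI A) hZ hU⟩
    ⟨fun h1 => ?_, fun h1 => key 5 (by decide) (by
      rintro rfl; rw [ZMod.natCast_self, orderOf_eq_iff four_pos] at h1; exact absurd h1.1 (by decide)) h1 (by decide)
      fun hU A => h.hit_five hf cj_sl hγ (hI A) hU⟩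
  · rcases irreducible_or_root (r := 2) c with ⟨b, rfl⟩ | h5
    · have hb : b ≠ 0 := by rintro rfl; exact ((hu x).pow 2).ne_zero (by simpa using h3)
      exact .of_smul _ _ (inv_ne_zero hb) (h.hit_two hf cj_sl hγ (hI _) (smul_pow_eq_one hb h3)
        (smul_ne_algebraMap h4 (inv_ne_zero hb)) (Or.inl hZ))
    obtain ⟨k, h6⟩ := hasED_of_irreducible (A := toLin' x.1) (monic_X_pow_sub_C _ two_ne_zero) h5
      (by simp [h3])
    obtain ⟨h7, h8⟩ := det_of_pow_irreducible two_ne_zero h6
    obtain rfl : k = 2 := by simp at h7; omega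
    rw [LinearMap.det_toLin', show x.1.det = 1 from congrArg Units.val h1] at h8
    obtain ⟨i, hi⟩ := (FiniteField.isSquare_neg_one_iff (F := F)).2 (by omega)
    rw [X_pow_sub_C_irreducible_iff_of_prime Nat.prime_two] at h5
    exact absurd (show (1 ^ 2 - c) * (i ^ 2 - c) = 0 by grind)
      (mul_ne_zero (sub_ne_zero.2 (h5 1)) (sub_ne_zero.2 (h5 i)))
  · by_contra h3
    have h4 : p % 3 ≠ 0 := fun h4 => by
      have := (Nat.prime_dvd_prime_iff_eq Nat.prime_three hp).1 (Nat.dvd_of_mod_eq_zero h4)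
      omega
    obtain ⟨ω, h5⟩ := exists_orderOf_eq (F := F) (d := 3) (by omega)
    exact h.not_el_refl h5 (fun x _ h6 => Units.ext h6) h1
  · rw [← ZMod.natCast_mod, h1, orderOf_eq_iff (by decide)]; decide
  · by_contra h3
    obtain ⟨τ, h4, -⟩ := exists_tau (F := F) p (by omega) h3
    obtain ⟨x, h5, h6⟩ := exists_blk_sl τ
    exact h.not_el_five h5 h6 h4 h1

end Cfsg.Agent.S6000
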