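import Cfsg.Statements.S6001
import Cfsg.Agent.CLAS.Pauli4

set_option autoImplicit false
open scoped MatrixGroups
open Cfsg

namespace Cfsg.Agent.S6001

open CL CL.Pauli CL.Elus CL.Witt CL.Witt.Form CL.SpU CL.PrimeCl CL.GLn Module Polynomial Matrix


/-- Elements of prime order of PSU_4(p), p ≡ 3 (mod 4), and the normalizer of a 2-group of symplectic type of order 2⁶. Here `T = PSU_4(p)` for a prime `p ≡ 3 (mod 4)`, realised through `SU_4(p)`, the matrices of determinant 1 over the field `F` with `p²` elements preserving the hermitian form `f = Σ uᵢvᵢ^p`; `R` is an absolutely irreducible subgroup of the full unitary group of `f` of order 2⁶ that is a 2-group of symplectic type of exponent 4 with centre of order 4, and `H` is the subgroup of `SU_4(p)` normalizing `R` — a subgroup of type 2⁴.Sp₄(2) (maximality is not assumed). Ω is the set of cosets of `H`, so an element of `T` of prime order `r` (`x ∈ SU_4(p)` with `x^r` scalar, `x` not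 scalar) fixes a point of Ω exactly when some `SU_4(p)`-conjugate of `x` normalizes `R`. Let `r` be a prime dividing the index of `H`. Then every element of `T` of order `r` fixes a point of Ω if and only if `r = 2`, or `r = 3` and `p ≡ 1 (mod 3)`, or `r = 5` and `p ≡ ±2 (mod 5)` (`p` has multiplicative order 4 modulo 5). -/
theorem result {F : Type*} [Field F] [Fintype F] {p : ℕ} [Fact p.Prime] [CharP F p] (hF : Fintype.card F = p ^ 2) (hp4 : p % 4 = 3)
    (R : Subgroup (GL (Fin 4) F)) (hRs : Cfsg.Geo.IsSymplecticTypeGroup 2 R) (hRi : Cfsg.Geo.ActsAbsolutelyIrreducibly (Cfsg.Geo.matrixSet R))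
    (hRU : R ≤ Cfsg.GU 4 F p) (hR6 : Nat.card R = 2 ^ 6) (hRZ : Nat.card (Subgroup.center R) = 4)
    (r : ℕ) [Fact r.Prime]
    (hΩ : r ∣ (Cfsg.Geo.subgroupNormalizer R).relIndex (Cfsg.GU 4 F p ⊓ Cfsg.Geo.specialLinear (Fin 4) F)) :
    (∀ x ∈ Cfsg.GU 4 F p ⊓ Cfsg.Geo.specialLinear (Fin 4) F, (∃ z : F, ((x ^ r : GL (Fin 4) F) : Matrix (Fin 4) (Fin 4) F) = z • (1 : Matrix (Fin 4) (Fin 4) F)) →
      (∀ z : F, (x : Matrix (Fin 4) (Fin 4) F) ≠ z • (1 : Matrix (Fin 4) (Fin 4) F)) →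
      ∃ g ∈ Cfsg.GU 4 F p ⊓ Cfsg.Geo.specialLinear (Fin 4) F, g⁻¹ * x * g ∈ Cfsg.Geo.subgroupNormalizer R) ↔ (r = 2 ∨ (r = 3 ∧ p % 3 = 1) ∨ (r = 5 ∧ orderOf (p : ZMod 5) = 4)) := by
  have hp : p.Prime := Fact.out
  have hq : Odd p := Nat.odd_iff.2 (by omega)
  have h2 : (2 : F) ≠ 0 := two_ne_zero_of_odd_q (hF := hF) hq
  have h := pau_of h2 (by simp) hRs hRi (by rw [hR6, hRZ]; rfl)
  rw [card_center_eq] at hRZ
  have := Fact.mk Nat.prime_five
  have := Fact.mk Nat.prime_three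
  obtain ⟨γ, hγ⟩ := h.exists_fr (Or.inl (h.exists_j hRZ))
  have hn := Uni.std_nondeg hF (Fin 4)
  have hU : ∀ x ∈ Cfsg.GU 4 F p, IsIsom (Uni.std hF (Fin 4)) (Uni.std hF (Fin 4)) (toLin' x.1) :=
    fun x hx => (mem_O _).1 ((Uni.mem_GU_iff hF).1 hx)
  have hf := fun s hs => (hU s (hRU hs)).B_eq
  have hC := cj_su hF 4
  have hL := fun x (h : x ∈ Cfsg.GU 4 F p ⊓ Geo.specialLinear (Fin 4) F) => hU x h.1
  have key : ∀ k : ℕ, k.Prime → k ≠ p → (k : F) ≠ 0 := fun k hk h3 => by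
    rwa [Ne, CharP.cast_eq_zero_iff F p, Nat.prime_dvd_prime_iff_eq hp hk, eq_comm]
  refine h.el_iff (fun x h1 => pow_four_of_sl (by simp) (Subgroup.mem_inf.1 h1).2) hΩ (el_of fun x h1 c h3 h4 => ?_)
    ⟨fun h1 => ?_, fun h1 => el_of_coprime hn hL herm_norm_pow ?_ fun A hA =>
      h.hit_three hf hC hγ hA hRZ ?_⟩
    ⟨fun h1 => ?_, fun h1 => el_of_coprime hn hL herm_norm_pow ?_ fun A hA =>
      h.hit_five hf hC hγ hA ?_⟩
  · rcases herm_invol_cases hn hq (hU x h1.1) ((LinearMap.det_toLin' _).trans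
      (congrArg Units.val h1.2)) h3 with ⟨b, -, -, -, h5⟩ | ⟨b, h5, h6, h7, -⟩
    · refine absurd ⟨?_, hp4⟩ h5
      rw [← padicValNat_dvd_iff_le (by omega), finrank_fin_fun, show 4 = 2 ^ 2 from rfl,
        padicValNat.prime_pow]
      omega
    · exact .of_smul _ _ h5 (h.hit_two hf hC hγ h6 h7 (smul_ne_algebraMap h4 h5) (Or.inl hRZ))
  · by_contra h3
    by_cases h4 : p % 3 = 0
    · obtain rfl := (Nat.prime_dvd_prime_iff_eq Nat.prime_three hp).1 (Nat.dvd_of_mod_eq_zero h4)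
      obtain ⟨i, hi⟩ := (FiniteField.isSquare_neg_one_iff (F := F)).2 (by rw [hF]; decide)
      have h5 : (3 : F) = 0 := CharP.cast_eq_zero F 3
      obtain ⟨x, h6, h7⟩ := exists_blk_su hF (a := 1 + i) (by grind)
      rw [show 1 + i + (1 + i) ^ 3 = -1 by grind] at h7
      obtain ⟨v, w, h8⟩ := h7.rk (by grind)
      exact not_el h6 h7.pow_three h7.nsc (fun _ => h.not_hit_of_rank (by decide)
        (h7.pow_three ▸ sc_one) h7.nsc (three_le_of_rank h.card h8)) h1
    have h5 : 3 ∣ p + 1 := by omega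
    obtain ⟨ω, h6⟩ := exists_orderOf_eq (F := F) (d := 3) (by
      rw [hF, ← one_pow 2, Nat.sq_sub_sq]; exact h5.mul_right _)
    have h7 : ω ^ p * ω = 1 := by rw [← pow_succ, ← orderOf_dvd_iff_pow_eq_one, h6]; exact h5
    refine h.not_el_refl h6 (fun x h8 h9 => Subgroup.mem_inf.2 ⟨(SpU.mem_GU_iff hF).2 ?_, Units.ext h9⟩) h1
    rw [h8]
    ext i j
    fin_cases i <;> fin_cases j <;> simp [ct_apply, SqField.zero_pow_q hF, h7]
  · exact Nat.prime_three.coprime_iff_not_dvd.2 (by omega)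
  · have h3 := dat_herm (hF := hF) (key 3 Nat.prime_three (by omega)) (by decide)
    rw [← ZMod.natCast_mod, h1, Nat.cast_one, orderOf_one] at h3
    exact uniq_of_dat hn h3
  · by_contra h3
    obtain ⟨τ, h4, h5⟩ := exists_tau (F := F) p (by omega) h3
    have h6 : (τ / 2) ^ p = τ / 2 := by
      rw [div_pow, h5]; exact congrArg _ (SqField.natCast_pow_q hF 2)
    have h7 : (5 : F) ≠ 0 := key 5 Nat.prime_five (by omega)
    obtain ⟨x, h8, h9⟩ := exists_blk_su hF (a := τ / 2) (by rw [pow_succ, h6]; grind)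
    rw [h6, show τ / 2 + τ / 2 = τ by grind] at h9
    exact h.not_el_five h8 h9 h4 h1
  · refine Nat.prime_five.coprime_iff_not_dvd.2 fun h3 => ?_
    rw [(ord_eq_two_iff (by decide)).2 h3] at h1
    omega
  · have h3 := dat_herm (hF := hF) (key 5 Nat.prime_five (by omega)) (by decide)
    rw [h1] at h3
    exact uniq_of_dat hn h3

end Cfsg.Agent.S6001
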