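import Cfsg.Statements.S6002
import Cfsg.Agent.CLAS.Pauli4

set_option autoImplicit false
open scoped MatrixGroups
open Cfsg

namespace Cfsg.Agent.S6002

open CL CL.Pauli CL.Elus CL.Witt CL.Witt.Form CL.SpU CL.PrimeCl CL.GLn Module Polynomial Matrix


/-- Elements of prime order of PSp_4(p), p odd, and the normalizer of an extraspecial 2-group of order 2⁵ of minus type. Here `T = PSp_4(F)` for the field `F` with `p` elements, `p` an odd prime, realised through the matrices preserving the standard alternating form `f`; `R` is an absolutely irreducible subgroup of `T` (it preserves `f`) that is a 2-group of symplectic type of exponent 4, order 2⁵ and centre of order 2, of minus type (no elementary abelian subgroup of order 2³), and `H` is the subgroup of `T` normalizing `R` — a subgroup of type 2^{1+4}.O₄⁻(2) (maximality is not assumed). Ω is the set of cosets of `H` in `T`, so an element of `T` of prime order `r` (`x ∈ T` with `x^r` scalar,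 `x` not scalar) fixes a point of Ω exactly when some `T`-conjugate of `x` normalizes `R`. Let `r` be a prime dividing the index of `H`. Then every element of `T` of order `r` fixes a point of Ω if and only if `r = 2`, or `r = 5` and `p` has multiplicative order 4 modulo 5. -/
theorem result {F : Type*} [Field F] [Fintype F] {p : ℕ} [Fact p.Prime] [CharP F p] (hF : Fintype.card F = p) (hodd : Odd p)
    (R : Subgroup (GL (Fin 2 ⊕ Fin 2) F)) (hRs : Cfsg.Geo.IsSymplecticTypeGroup 2 R) (hRi : Cfsg.Geo.ActsAbsolutelyIrreducibly (Cfsg.Geo.matrixSet R))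
    (hRf : R ≤ Cfsg.spGL 2 F) (hR5 : Nat.card R = 2 ^ 5) (hRZ : Nat.card (Subgroup.center R) = 2) (hRm : Cfsg.Geo.IsOfMinusType 2 R)
    (r : ℕ) [Fact r.Prime]
    (hΩ : r ∣ (Cfsg.Geo.subgroupNormalizer R).relIndex (Cfsg.spGL 2 F)) :
    (∀ x ∈ Cfsg.spGL 2 F, (∃ z : F, ((x ^ r : GL (Fin 2 ⊕ Fin 2) F) : Matrix (Fin 2 ⊕ Fin 2) (Fin 2 ⊕ Fin 2) F) = z • (1 : Matrix (Fin 2 ⊕ Fin 2) (Fin 2 ⊕ Fin 2) F)) →
      (∀ z : F, (x : Matrix (Fin 2 ⊕ Fin 2) (Fin 2 ⊕ Fin 2) F) ≠ z • (1 : Matrix (Fin 2 ⊕ Fin 2) (Fin 2 ⊕ Fin 2) F)) →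
      ∃ g ∈ Cfsg.spGL 2 F, g⁻¹ * x * g ∈ Cfsg.Geo.subgroupNormalizer R) ↔ (r = 2 ∨ (r = 5 ∧ orderOf (p : ZMod 5) = 4)) := by
  have hp : p.Prime := Fact.out
  have h2 : (2 : F) ≠ 0 := FGL.two_ne_zero_of_odd (hF ▸ hodd)
  have h := pau_of h2 (by simp) hRs hRi (by rw [hR5, hRZ]; rfl)
  rw [card_center_eq] at hRZ
  have hm := h.mt_of hRm
  have := Fact.mk Nat.prime_five
  obtain ⟨γ, hγ⟩ := h.exists_fr (Or.inr hm)
  have hn := Sp.spForm_nondeg 2 F
  have hL : ∀ x ∈ Cfsg.spGL 2 F, IsIsom (Sp.spForm 2 F) (Sp.spForm 2 F) (toLin' x.1) :=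
    fun x hx => (mem_O _).1 (FGL.mem_spGL_iff_O.1 hx)
  have hf := fun s hs => (hL s (hRf hs)).B_eq
  refine h.el_iff (fun x h1 ⟨c, h3⟩ => ?_) hΩ (el_of fun x h1 c h3 h4 => ?_) (P := False)
    (iff_false_intro ?_) ⟨fun h1 => ?_, fun h1 => el_of_coprime hn hL alt_norm_sq (by decide)
      fun A hA => h.hit_five hf (cj_sp 2) hγ hA (uniq_of_ord _ ?_ (by rwa [ord, hF]))⟩ |>.trans
    (by simp)
  · have h4 := alt_norm_sq c (norm_eq_one hn ((toLin'_eq_algebraMap_iff _ _).1 h3 ▸ hL x h1))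
    exact Units.ext (by simp [h3, _root_.smul_pow, show c ^ 4 = 1 by grind])
  · rcases alt_sq_cases hn (hL x h1) h3 with h5 | h5
    · exact h.hit_two hf (cj_sp 2) hγ (hL x h1) h5 h4 (Or.inr (nd_range_sub_one hn (hL x h1)
        (isSemisimple_of_pow_eq_one (k := 2) h2 h5)).nondeg.even_finrank_alt)
    obtain ⟨M, h6, h7⟩ := Pau.exists_sq_neg hf hγ
    exact (cj_sp 2).hit h6 (hL x h1) (isSemisimple_of_pow_eq_one (k := 2 * 2) (by
      exact_mod_cast h.four) (by rw [pow_mul, h5, ← map_pow]; simp)) (simil_of_sq_neg hn h2 (hL x h1)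
      ((cj_sp 2).isIsom h6) h5 ((pow_eq_smul_iff _ _ _).1 (by simpa using h7)))
  · obtain ⟨x, h1, h3⟩ := exists_blk_sp (-1 : F)
    exact not_el h1 h3.pow_three h3.nsc fun _ => h.not_hit_three hm hRZ h3
  · by_contra h3
    obtain ⟨τ, h4, -⟩ := exists_tau (F := F) p (by rintro rfl; exact absurd hodd (by decide)) h3
    obtain ⟨x, h5, h6⟩ := exists_blk_sp τ
    exact h.not_el_five h5 h6 h4 h1
  · rw [Ne, CharP.cast_eq_zero_iff F p, Nat.prime_dvd_prime_iff_eq hp Nat.prime_five]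
    rintro rfl
    rw [ZMod.natCast_self, orderOf_eq_iff (by decide)] at h1
    exact absurd h1.1 (by decide)

end Cfsg.Agent.S6002
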